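import Cfsg.Statements.S0375
import Cfsg.Agent.H9.DistanceEight
import Cfsg.Agent.S0407


set_option autoImplicit false
open Cfsg

namespace Cfsg.Agent.S0375

/-- A doubly even self-dual binary code of length 24 with no words of weight 4 is equivalent to the length-24 code built from the squares modulo 23. -/
theorem result (C : Submodule (ZMod 2) (Fin 24 → ZMod 2)) (hdim : Module.finrank (ZMod 2) C = 12) (horth : ∀ v ∈ C, ∀ w ∈ C, ∑ i, v i * w i = 0) (h4 : ∀ w ∈ C, 4 ∣ hammingNorm w) (hno4 : ∀ w ∈ C, hammingNorm w ≠ 4) : ∃ e : Fin 24 ≃ Cfsg.GolayPt, ∀ w : Cfsg.GolayPt → ZMod 2, w ∈ Cfsg.golayCode ↔ (fun i => w (e i)) ∈ C := by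
  classical
  have hmin : ∀ w ∈ C, w ≠ 0 → 8 ≤ hammingNorm w := by
    intro w hw h0
    have h1 := hammingNorm_ne_zero_iff.2 h0
    have h2 := h4 w hw
    have h3 := hno4 w hw
    omega
  obtain ⟨e, he⟩ := Cfsg.Agent.S0407.result (Fintype.card_fin 24) (by simp)
    (H9.isSteinerSystem_eight C (Fintype.card_fin 24) hdim hmin horth) H9.octads_isSteinerSystem
  refine ⟨e, ?_⟩
  have hC : C = Submodule.span (ZMod 2) {w | w ∈ C ∧ hammingNorm w = 8} :=
    (H9.span_eight_eq C (Fintype.card_fin 24) hdim hmin horth).symm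
  have hG : Cfsg.golayCode = Submodule.span (ZMod 2) {w | w ∈ Cfsg.golayCode ∧ hammingNorm w = 8} :=
    (H9.span_eight_eq Cfsg.golayCode (by simp) H9.golayCode_finrank
      (fun _ h h0 => H9.golayCode_min_weight h h0)
      (fun _ hv _ hw => H9.golayCode_self_orthogonal hv hw)).symm
  let L : (Cfsg.GolayPt → ZMod 2) ≃ₗ[ZMod 2] (Fin 24 → ZMod 2) :=
    LinearEquiv.funCongrLeft (ZMod 2) (ZMod 2) e
  have hL : ∀ w, L w = fun i => w (e i) := fun w => rfl
  have hsupp : ∀ w, (Cfsg.support₂ (L w)).image e = Cfsg.support₂ w := by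
    intro w; ext p
    simp only [hL, Cfsg.support₂, Finset.mem_image, Finset.mem_filter, Finset.mem_univ, true_and]
    exact ⟨fun ⟨i, hi, hip⟩ => hip ▸ hi, fun hp => ⟨e.symm p, by simpa using hp, e.apply_symm_apply p⟩⟩
  have himg : L '' {w | w ∈ Cfsg.golayCode ∧ hammingNorm w = 8} = {w | w ∈ C ∧ hammingNorm w = 8} := by
    ext v
    constructor
    · rintro ⟨w, ⟨hw, hw8⟩, rfl⟩
      have hmem : Cfsg.support₂ w ∈ Cfsg.octads := H9.mem_wordsOfWeight.2 ⟨w, hw, hw8, rfl⟩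
      rw [← he, ← hsupp] at hmem
      obtain ⟨b, hb, hbe⟩ := hmem
      obtain ⟨c, hc, hc8, rfl⟩ := H9.mem_wordsOfWeight.1 hb
      have : c = L w := H9.support₂_injective (Finset.image_injective e.injective hbe)
      exact this ▸ ⟨hc, hc8⟩
    · rintro ⟨hv, hv8⟩
      have hmem : (Cfsg.support₂ v).image e ∈ Cfsg.octads := by
        rw [← he]; exact ⟨_, H9.mem_wordsOfWeight.2 ⟨v, hv, hv8, rfl⟩, rfl⟩
      obtain ⟨w, hw, hw8, hwe⟩ := H9.mem_wordsOfWeight.1 hmem
      refine ⟨w, ⟨hw, hw8⟩, H9.support₂_injective (Finset.image_injective e.injective ?_)⟩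
      rw [hsupp]; exact hwe
  have hmap : Cfsg.golayCode.map (L : (Cfsg.GolayPt → ZMod 2) →ₗ[ZMod 2] (Fin 24 → ZMod 2)) = C := by
    rw [hG, Submodule.map_span, hC]
    exact congrArg _ himg
  intro w
  rw [← hL, ← hmap]
  constructor
  · exact fun hw => Submodule.mem_map_of_mem hw
  · rintro ⟨v, hv, hve⟩
    exact (L.injective hve) ▸ hv

end Cfsg.Agent.S0375
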