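import Cfsg.Statements.S5420
import Cfsg.Agent.H18.LargeExtraspecial
import Cfsg.Agent.H18.PCore

set_option autoImplicit false
open Cfsg

namespace Cfsg.Agent.S5420

/-- Let Q be an extraspecial 2-subgroup of the finite group G whose centralizer in G is its centre Z and which is normal in the centralizer of Z. If Z lies in the largest normal 2-subgroup of G, then Q is a large extraspecial 2-subgroup of G: it normalizes no non-trivial subgroup of G of odd order. -/
theorem result {G : Type*} [Group G] [Finite G] (Q : Subgroup G) (hL1 : Cfsg.IsExtraspecial 2 ↥Q) (hL2 : Subgroup.centralizer (Q : Set G) = ((Subgroup.center ↥Q).map Q.subtype)) (hL3 : Subgroup.centralizer (((Subgroup.center ↥Q).map Q.subtype) : Set G) ≤ Subgroup.normalizer (Q : Set G)) (hZ : ((Subgroup.center ↥Q).map Q.subtype) ≤ Cfsg.pCore 2 G) : Cfsg.IsLargeExtraspecial Q := by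
  haveI : Fact (Nat.Prime 2) := ⟨Nat.prime_two⟩
  refine ⟨hL1, hL2, hL3, fun K hK hQK => ?_⟩
  obtain ⟨z, hz1, hzo, hZeq, hmem⟩ := H18.centerMap_eq_pair Q hL1
  have hzc : z ∈ (Subgroup.center ↥Q).map Q.subtype := (hmem z).mpr (Or.inr rfl)
  have hzQ : z ∈ Q := ((H18.mem_centerMap_iff Q z).mp hzc).1
  have hO2 : IsPGroup 2 ↥(Cfsg.pCore 2 G) := H18.pCore_isPGroup 2
  have hn : (Cfsg.pCore 2 G).Normal := H18.pCore_normal 2
  have hKQ2 : Nat.Coprime (Nat.card ↥Q) (Nat.card ↥K) := by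
    obtain ⟨k, hk⟩ := (IsPGroup.iff_card.mp hL1.1.1)
    rw [hk]
    exact (Nat.coprime_two_left.mpr hK).pow_left k
  have hKz : K ≤ Subgroup.centralizer (((Subgroup.center ↥Q).map Q.subtype : Subgroup G) : Set G) := by
    intro k hk y hy
    rcases (hmem y).mp hy with rfl | rfl
    · simp
    have h1 : y * k * y⁻¹ * k⁻¹ ∈ K ⊓ Cfsg.pCore 2 G := by
      refine ⟨K.mul_mem ((Subgroup.mem_normalizer_iff.mp (hQK hzQ) k).mp hk) (K.inv_mem hk), ?_⟩
      have hy2 : y ∈ Cfsg.pCore 2 G := hZ hzc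
      simpa [mul_assoc] using (Cfsg.pCore 2 G).mul_mem hy2 (hn.conj_mem _ ((Cfsg.pCore 2 G).inv_mem hy2) k)
    have hbot : K ⊓ Cfsg.pCore 2 G = ⊥ := by
      apply Subgroup.inf_eq_bot_of_coprime
      obtain ⟨n, hn⟩ := IsPGroup.iff_card.mp hO2
      rw [hn]
      exact ((Nat.coprime_two_left.mpr hK).pow_left n).symm
    rw [hbot, Subgroup.mem_bot] at h1
    calc y * k = (y * k * y⁻¹ * k⁻¹) * (k * y) := by group
      _ = k * y := by rw [h1, one_mul]
  have hKC : K ≤ Subgroup.centralizer (Q : Set G) :=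
    H18.le_centralizer_of_normalize Q K hKQ2 hQK (hKz.trans hL3)
  rw [hL2] at hKC
  have h2 : Nat.card ↥K ∣ 2 := by
    have := Subgroup.card_dvd_of_le hKC
    rwa [hZeq, Nat.card_zpowers, hzo] at this
  rcases (Nat.dvd_prime Nat.prime_two).mp h2 with h | h
  · exact Subgroup.card_eq_one.mp h
  · rw [h] at hK; exact absurd hK (by decide)

end Cfsg.Agent.S5420
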