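import Cfsg.Statements.S0287
import Cfsg.Agent.H4.Orders

set_option autoImplicit false
open Cfsg

namespace Cfsg.Agent.S0287

/-- |GO^+_{2m}(q)| = 2 q^(m(m-1)) (q^m - 1) prod_{i=1}^{m-1} (q^(2i) - 1), m at least 1, all q. -/
theorem result {F : Type*} [Field F] [Fintype F] {q : ℕ} (hF : Fintype.card F = q) (m : ℕ) (hm : 1 ≤ m) : Nat.card (Cfsg.isometryGroup F (Cfsg.quadFormPlus m F)) = 2 * q ^ (m * (m - 1)) * (q ^ m - 1) * ∏ i ∈ Finset.range (m - 1), (q ^ (2 * (i + 1)) - 1) := by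
  subst hF
  obtain ⟨k, rfl⟩ : ∃ k, m = k + 1 := ⟨m - 1, by omega⟩
  rw [H4.card_isometryGroup (H4.qPlus (k + 1) F) (H4.coe_qPlus _)]
  simp only [Nat.add_sub_cancel]
  apply Int.natCast_inj.1
  rw [H4.card_qIsoms_qPlus, Nat.cast_mul, Nat.cast_mul, H4.cast_prod_sub_one,
    Nat.cast_sub (Nat.one_le_pow _ _ Fintype.card_pos)]
  push_cast; rfl

end Cfsg.Agent.S0287
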