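import Cfsg.Statements.S0824
import Cfsg.Agent.H5.SmallOrth
import Cfsg.Agent.H5.FieldTransport

set_option autoImplicit false
open Cfsg

namespace Cfsg.Agent.S0824

/-- O⁻_4(2) ≅ S_5: the isometry group of the form x y + z_1² + z_1 z_2 + z_2² over the field with 2 elements is isomorphic to the symmetric group on 5 letters. -/
theorem result {F : Type*} [Field F] [Fintype F] (hF : Fintype.card F = 2) : Nonempty (↥(Cfsg.isometryGroup F (Cfsg.quadFormMinus 1 F 1 1)) ≃* Equiv.Perm (Fin 5)) := by
  classical
  obtain ⟨e₀⟩ := H5.nonempty_minus_four_two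
  let e := ZMod.ringEquivOfPrime F Nat.prime_two hF
  exact ⟨(H5.isometryTransport e (fun v => by simp only [Cfsg.quadFormMinus, map_add, map_sum, map_mul, map_pow, map_one, Function.comp])).symm.trans e₀⟩

end Cfsg.Agent.S0824
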