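import Cfsg.Statements.S5422
import Cfsg.Agent.H18.LargeCriterion

set_option autoImplicit false
open Cfsg

namespace Cfsg.Agent.S5422

/-- Let Q be an extraspecial 2-subgroup of the finite group G whose centralizer in G is its centre Z and which is normal in the centralizer of Z; suppose Q has width at least 2 (order 2^(2w+1) with w ≥ 2) and g is an element of G not normalizing Z with g Z g⁻¹ inside Q. Then Z lies inside g Q g⁻¹; writing V for the subgroup generated by Z and g Z g⁻¹ (a four-group), the normalizer of V induces on V its full automorphism group, that is, the centralizer of V has index 6 in the normalizer of V; and Q is a large extraspecial 2-subgroup of G. -/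
theorem result {G : Type*} [Group G] [Finite G] (Q : Subgroup G) (hL1 : Cfsg.IsExtraspecial 2 ↥Q) (hL2 : Subgroup.centralizer (Q : Set G) = ((Subgroup.center ↥Q).map Q.subtype)) (hL3 : Subgroup.centralizer (((Subgroup.center ↥Q).map Q.subtype) : Set G) ≤ Subgroup.normalizer (Q : Set G)) (w : ℕ) (hw : 2 ≤ w) (hcard : Nat.card ↥Q = 2 ^ (2 * w + 1)) (g : G) (hg : g ∉ Subgroup.normalizer (((Subgroup.center ↥Q).map Q.subtype) : Set G)) (hZg : (((Subgroup.center ↥Q).map Q.subtype)).map (MulAut.conj g).toMonoidHom ≤ Q) : ((Subgroup.center ↥Q).map Q.subtype) ≤ (Q).map (MulAut.conj g).toMonoidHom ∧ (Subgroup.centralizer ((((Subgroup.center ↥Q).map Q.subtype) ⊔ (((Subgroup.center ↥Q).map Q.subtype)).map (MulAut.conj g).toMonoidHom : Subgroup G) : Set G)).relIndex (Subgroup.normalizer ((((Subgroup.center ↥Q).map Q.subtype) ⊔ (((Subgroup.center ↥Q).map Q.subtype)).map (MulAut.conj g).toMonoidHom : Subgroup G) : Set G)) = 6 ∧ Cfsg.IsLargeExtraspecial Q := by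
  obtain ⟨z, h, hz2, hZeq⟩ := Cfsg.Agent.H18.exists_singPt Q hL1 hL2 hL3
  haveI : Fact (Nat.Prime 2) := ⟨Nat.prime_two⟩
  rw [hZeq] at hg hZg ⊢
  set b := g * z * g⁻¹ with hbdef
  have hbQ : b ∈ Q := hZg ⟨z, Subgroup.mem_zpowers z, rfl⟩
  have hb := h.conj g
  have hb1 : b ≠ 1 := fun e => h.xne (conj_eq_one_iff.mp e)
  have hbz : b ≠ z := by
    intro e
    apply hg
    refine Subgroup.mem_normalizer_fintype fun x hx => ?_
    rcases h.pair hx with rfl | rfl
    · simp
    · rw [← hbdef, e]; exact Subgroup.mem_zpowers _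
  have hbig : 8 < Nat.card Q := by
    rw [hcard]
    calc 8 < 2 ^ 5 := by norm_num
      _ ≤ 2 ^ (2 * w + 1) := Nat.pow_le_pow_right (by norm_num) (by omega)
  have hzQ' : z ∈ Q.map (MulAut.conj g).toMonoidHom := by
    refine h.symm_of_conj_big hb hbig (g := g) rfl (fun a => ⟨fun ha => ⟨a, ha, rfl⟩, ?_⟩) hbQ
    rintro ⟨c, hc, e⟩
    rwa [← (MulAut.conj g).injective e]
  refine ⟨Subgroup.zpowers_le.mpr hzQ', ?_, hL1, hL2, hL3, fun K hK hQK =>
    h.eq_bot_of_centralizer hbQ hb1 hbz hb.xx K hK hQK fun k hk hkb =>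
      h.commute_of_twoGroup hK hQK hb.isPGroup_two hzQ' hk fun p hp => hb.norm k hkb p hp⟩
  have hz1 : z ≠ 1 := h.xne
  have hc : z * b = b * z := (h.comm_x b hbQ).symm
  obtain ⟨u, hu, hub⟩ := h.exists_translate hbQ hb1 hbz
  obtain ⟨v, hv, hvz⟩ := hb.exists_translate hzQ' hz1 (Ne.symm hbz)
  refine Cfsg.Agent.H18.relIndex_four h.xx hb.xx hz1 hb1 (Ne.symm hbz) hc
    (mul_inv_eq_iff_eq_mul.mpr (h.comm_x u hu)) hub
    (mul_inv_eq_iff_eq_mul.mpr (hb.comm_x v hv)) (hvz.trans hc.symm) _ fun x => ?_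
  rw [MonoidHom.map_zpowers]
  exact Cfsg.Agent.H18.mem_four h.xx hb.xx hc x

end Cfsg.Agent.S5422
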