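import Cfsg.Statements.S5433
import Cfsg.Agent.H18.LargeExtraspecial

set_option autoImplicit false
open Cfsg

namespace Cfsg.Agent.S5433

/-- Let Q be a large extraspecial 2-subgroup of the finite group G (extraspecial; centralizer equal to its centre; normal in the centralizer of its centre; normalizing no non-trivial subgroup of odd order), and L a normal subgroup of G containing Q. Then G is the product of L and the normalizer of Q. -/
theorem result {G : Type*} [Group G] [Finite G] (Q : Subgroup G) (hQ : Cfsg.IsLargeExtraspecial Q) (L : Subgroup G) [L.Normal] (hQL : Q ≤ L) : L ⊔ Subgroup.normalizer (Q : Set G) = ⊤ := by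
  haveI : Fact (Nat.Prime 2) := ⟨Nat.prime_two⟩
  obtain ⟨hE, hC, hN, -⟩ := hQ
  obtain ⟨z, hz1, hzo, hZeq, hmem⟩ := H18.centerMap_eq_pair Q hE
  have hQ2 : IsPGroup 2 ↥(Q.subgroupOf L) := hE.1.1.of_equiv (Subgroup.subgroupOfEquivOfLe hQL).symm
  obtain ⟨P, hP⟩ := hQ2.exists_le_sylow
  have hQP : Q ≤ (P : Subgroup ↥L).map L.subtype := fun x hx => ⟨⟨x, hQL hx⟩, hP hx, rfl⟩
  have hP2 : IsPGroup 2 ↥((P : Subgroup ↥L).map L.subtype) := P.isPGroup'.map _
  have hZP := H18.centerMap_eq_of_le_twoGroup Q _ hE hC hQP hP2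
  rw [eq_top_iff, ← Sylow.normalizer_sup_eq_top P]
  refine sup_le (le_sup_of_le_right ?_) le_sup_left
  refine le_trans ?_ hN
  intro g hg y hy
  rcases (hmem y).mp hy with rfl | rfl
  · simp
  · rw [← hZP] at hy
    have hy' : g * y * g⁻¹ ∈ (Subgroup.center ↥((P : Subgroup ↥L).map L.subtype)).map
        ((P : Subgroup ↥L).map L.subtype).subtype := by
      obtain ⟨hy1, hy2⟩ := (H18.mem_centerMap_iff _ y).mp hy
      refine (H18.mem_centerMap_iff _ _).mpr ⟨(Subgroup.mem_normalizer_iff.mp hg y).mp hy1, fun w hw => ?_⟩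
      have hw' : g⁻¹ * w * g ∈ (P : Subgroup ↥L).map L.subtype :=
        (Subgroup.mem_normalizer_iff''.mp hg w).mp hw
      calc w * (g * y * g⁻¹) = g * ((g⁻¹ * w * g) * y) * g⁻¹ := by group
        _ = g * (y * (g⁻¹ * w * g)) * g⁻¹ := by rw [hy2 _ hw']
        _ = g * y * g⁻¹ * w := by group
    rw [hZP] at hy'
    rcases (hmem _).mp hy' with h | h
    · exact absurd (conj_eq_one_iff.mp h) hz1
    · exact (mul_inv_eq_iff_eq_mul.mp h).symm

end Cfsg.Agent.S5433
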