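import Cfsg.Statements.S4733
import Cfsg.Agent.H42.BlockSpan
-- import your own Cfsg.Agent.* helpers here

set_option autoImplicit false
open Cfsg

namespace Cfsg.Agent.S4733

/-- Let p be a prime, M a maximal ideal of the algebraic integers containing p, and B a p-block of the finite group G with k irreducible characters and p-regular rank l (the number of irreducible Brauer characters). Then l ≤ k, and the following are equivalent: B has defect 0; k = l = 1; k = l. -/
theorem result {G : Type*} [Group G] [Finite G] (p : ℕ) [Fact p.Prime] (M : Ideal Cfsg.AlgInt) (hM : Cfsg.IsPModular p M) (B : Set (Cfsg.IrrCharacter G)) (hB : Cfsg.IsPBlock M B) : Cfsg.blockRank p B ≤ Nat.card B ∧ (Cfsg.blockDefect p B = 0 ↔ (Nat.card B = 1 ∧ Cfsg.blockRank p B = 1)) ∧ (Cfsg.blockDefect p B = 0 ↔ Nat.card B = Cfsg.blockRank p B) := by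
  classical
  have := hM.2.1
  have := Fintype.ofFinite G
  have hp : p.Prime := Fact.out
  set a := (Nat.card G).factorization p with ha
  set P : ℤ := (p : ℤ) ^ a with hP
  set s := Cfsg.Agent.H42.blockFinset B with hs
  set N := fun χ : Cfsg.IrrCharacter G => Cfsg.Agent.H42.regInt p χ χ with hN
  have hrank : (Cfsg.blockRank p B : ℤ) * P = ∑ χ ∈ s, N χ := by
    have h := Cfsg.Agent.H42.blockRank_eq_sum hM hB
    rw [← Finset.sum_div, eq_div_iff (Nat.cast_ne_zero.2 (pow_ne_zero _ hp.ne_zero))] at h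
    have h' : (((Cfsg.blockRank p B : ℤ) * P : ℤ) : ℂ) = ((∑ χ ∈ s, N χ : ℤ) : ℂ) := by
      push_cast [hP, hN, hs] at h ⊢
      exact h
    exact_mod_cast h'
  have hb : ∀ χ ∈ s, 0 < N χ ∧ N χ ≤ P := fun χ hχ =>
    Cfsg.Agent.H42.regInt_self_bounds hM hB (Cfsg.Agent.H42.mem_blockFinset.1 hχ)
  have hP0 : 0 < P := pow_pos (by exact_mod_cast hp.pos) _
  have hle : ∑ χ ∈ s, N χ ≤ (s.card : ℤ) * P := by
    rw [← nsmul_eq_mul, ← Finset.sum_const]
    exact Finset.sum_le_sum fun χ hχ => (hb χ hχ).2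
  have h1 : Cfsg.blockRank p B ≤ Nat.card B := by
    rw [← Cfsg.Agent.H42.card_blockFinset]
    have := le_of_mul_le_mul_right (hrank.trans_le hle) hP0
    exact_mod_cast this
  obtain ⟨ψ, hψ, hψ0, hψv⟩ := Cfsg.Agent.H42.exists_height_zero (p := p) hB
  have hψs := Cfsg.Agent.H42.mem_blockFinset.2 hψ
  have hd0 : Cfsg.blockDefect p B = 0 → Nat.card B = 1 ∧ Cfsg.blockRank p B = 1 := by
    intro hd
    have h4 := Cfsg.Agent.H42.four_mul_card_le hM hB
    rw [hd, Nat.mul_zero, pow_zero] at h4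
    have hpos : 0 < s.card := Finset.card_pos.2 ⟨ψ, hψs⟩
    have hc := Cfsg.Agent.H42.card_blockFinset (B := B)
    rw [← hs] at hc
    refine ⟨by omega, ?_⟩
    have : 0 < (Cfsg.blockRank p B : ℤ) * P :=
      hrank ▸ Finset.sum_pos (fun χ hχ => (hb χ hχ).1) ⟨ψ, hψs⟩
    have : 0 < Cfsg.blockRank p B := by exact_mod_cast pos_of_mul_pos_left this hP0.le
    omega
  have heq : Nat.card B = Cfsg.blockRank p B → Cfsg.blockDefect p B = 0 := by
    intro he
    have hall : ∀ χ ∈ s, N χ = P := by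
      have h2 : ∑ χ ∈ s, N χ = ∑ _χ ∈ s, P := by
        rw [← hrank, ← he, ← Cfsg.Agent.H42.card_blockFinset, ← hs, Finset.sum_const, nsmul_eq_mul]
      exact (Finset.sum_eq_sum_iff_of_le fun χ hχ => (hb χ hχ).2).1 h2
    have h3 := Cfsg.Agent.H42.not_pow_succ_dvd_regInt hM hB hψ hψ0 hψ
    rw [show Cfsg.Agent.H42.regInt p ψ ψ = P from hall ψ hψs, hP] at h3
    by_contra hd
    exact h3 (pow_dvd_pow _ (by omega))
  exact ⟨h1, ⟨hd0, fun h => heq (h.1.trans h.2.symm)⟩,
    ⟨fun h => (hd0 h).1.trans (hd0 h).2.symm, heq⟩⟩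

end Cfsg.Agent.S4733
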