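import Cfsg.Statements.S2947
import Cfsg.Agent.H74.JCompBasic

set_option autoImplicit false
open Cfsg

namespace Cfsg.Agent.S2947

/-- Let G be a finite group of characteristic 2 type in which every 2-local subgroup is solvable and the centralizer of Ω₁(Z(S)) lies in N_G(S) for every Sylow 2-subgroup S; suppose O₂(G) = 1, fix a Sylow 2-subgroup S and a 2-local subgroup M containing N_G(J(S)) (J the Thompson subgroup generated by the elementary abelian 2-subgroups of largest order). Then M is strongly embedded in G (a proper subgroup of even order whose intersection with each conjugate by an element outside M has odd order) if and only if no nontrivial 2-subgroup of M lies in a 2-local subgroup of G not contained in M. -/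
theorem result {G : Type*} [Group G] [Finite G] (hL : Cfsg.IsCharacteristicTwoType G) (hN : ∀ N : Subgroup G, Cfsg.IsTwoLocal N → Group.IsSolvable ↥N)
    (hZ : ∀ S : Sylow 2 G, Subgroup.centralizer (Cfsg.omegaCenterOf (S : Subgroup G) : Set G) ≤ Subgroup.normalizer ((S : Subgroup G) : Set G)) (hO : Cfsg.pCore 2 G = ⊥) (S : Sylow 2 G) (M : Subgroup G) (hM : Cfsg.IsTwoLocal M)
    (hMJ : Subgroup.normalizer (Cfsg.thompsonSubgroupOf 2 (S : Subgroup G) : Set G) ≤ M) :
    Cfsg.IsStronglyEmbedded M ↔ Cfsg.straddlingTwoSubgroups M = ∅ := by
  exact H74.stronglyEmbedded_iff_no_straddling hO S M hM hMJ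

end Cfsg.Agent.S2947
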