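import Cfsg.Statements.S2954
import Cfsg.Agent.H74.JNear

set_option autoImplicit false
open Cfsg

namespace Cfsg.Agent.S2954

/-- Let G be a finite group of characteristic 2 type in which every 2-local subgroup is solvable and the centralizer of Ω₁(Z(S)) lies in N_G(S) for every Sylow 2-subgroup S; suppose O₂(G) = 1, fix a Sylow 2-subgroup S and a 2-local subgroup M containing N_G(J(S)) (J the Thompson subgroup generated by the elementary abelian 2-subgroups of largest order). If T is maximal (for the order of a largest elementary abelian subgroup, then the order of J(T), then the order of T) among the nontrivial 2-subgroups of M lying in a 2-local subgroup not inside M, then there are two distinct maximal 2-local subgroups P₁, P₂ of G, each having T as a Sylow 2-subgroup, that are both isomorphic to the symmetric group on four letters or both isomorphic to its direct product with a group of order 2. -/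
theorem result {G : Type*} [Group G] [Finite G] (hL : Cfsg.IsCharacteristicTwoType G) (hN : ∀ N : Subgroup G, Cfsg.IsTwoLocal N → Group.IsSolvable ↥N)
    (hZ : ∀ S : Sylow 2 G, Subgroup.centralizer (Cfsg.omegaCenterOf (S : Subgroup G) : Set G) ≤ Subgroup.normalizer ((S : Subgroup G) : Set G)) (hO : Cfsg.pCore 2 G = ⊥) (S : Sylow 2 G) (M : Subgroup G) (hM : Cfsg.IsTwoLocal M)
    (hMJ : Subgroup.normalizer (Cfsg.thompsonSubgroupOf 2 (S : Subgroup G) : Set G) ≤ M) (T : Subgroup G) (hT : T ∈ Cfsg.maxStraddlingTwoSubgroups M) :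
    ∃ P₁ P₂ : Subgroup G, P₁ ≠ P₂ ∧ Cfsg.IsMaximalTwoLocal P₁ ∧ Cfsg.IsMaximalTwoLocal P₂ ∧
      Cfsg.IsSylowTwoIn T P₁ ∧ Cfsg.IsSylowTwoIn T P₂ ∧
      ((Nonempty (↥P₁ ≃* Equiv.Perm (Fin 4)) ∧ Nonempty (↥P₂ ≃* Equiv.Perm (Fin 4))) ∨
        (Nonempty (↥P₁ ≃* Equiv.Perm (Fin 4) × Multiplicative (ZMod 2)) ∧
          Nonempty (↥P₂ ≃* Equiv.Perm (Fin 4) × Multiplicative (ZMod 2)))) := by
  haveI : Fact (Nat.Prime 2) := ⟨Nat.prime_two⟩
  have hZN : H74.JB.ZN G := ⟨hL, hN, hZ⟩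
  obtain ⟨S', hMJ', hTS⟩ := H74.JB.exists_sylow_above S hMJ hT
  obtain ⟨hT2, hT1, -, V, hV, hTV, hVM⟩ := hT.1
  obtain ⟨K₁, hK₁, -⟩ := H74.JB.exists_outside hZN S' hMJ' hT hV hVM hTV
  obtain ⟨L₁, K₂, L₂, hP, hP', hne, h4, -⟩ := H74.JB.exists_pair hZN hO S' hMJ' hT hTS hK₁
  obtain ⟨-, -, -, c1⟩ := H74.JB.z0_split hT2 hP.comp
  obtain ⟨-, -, -, c2⟩ := H74.JB.z0_split hT2 hP'.comp
  obtain ⟨e₁⟩ := hP.container_iso hZN hP' hne (by omega)
  obtain ⟨e₂⟩ := hP'.container_iso hZN hP hne.symm (by omega)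
  refine ⟨L₁, L₂, hne, hP.cont.max, hP'.cont.max, hP.ovg.1, hP'.ovg.1, ?_⟩
  have hpos : 0 < Nat.card ↥(H74.JB.cZero T K₁) := Nat.card_pos
  rcases (show Nat.card ↥(H74.JB.cZero T K₁) = 1 ∨ Nat.card ↥(H74.JB.cZero T K₁) = 2 by omega) with hC | hC
  · have hC' : Nat.card ↥(H74.JB.cZero T K₂) = 1 := by omega
    haveI := (Nat.card_eq_one_iff_unique.mp hC).1
    haveI := (Nat.card_eq_one_iff_unique.mp hC').1
    haveI : Unique ↥(H74.JB.cZero T K₁) := uniqueOfSubsingleton 1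
    haveI : Unique ↥(H74.JB.cZero T K₂) := uniqueOfSubsingleton 1
    exact Or.inl ⟨⟨e₁.trans MulEquiv.prodUnique⟩, ⟨e₂.trans MulEquiv.prodUnique⟩⟩
  · have hC' : Nat.card ↥(H74.JB.cZero T K₂) = 2 := by omega
    have hz : Nat.card (Multiplicative (ZMod 2)) = 2 := by simp
    exact Or.inr ⟨⟨e₁.trans ((MulEquiv.refl _).prodCongr (mulEquivOfPrimeCardEq hC hz))⟩,
      ⟨e₂.trans ((MulEquiv.refl _).prodCongr (mulEquivOfPrimeCardEq hC' hz))⟩⟩


end Cfsg.Agent.S2954
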