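import Cfsg.Statements.S1589
import Cfsg.Agent.H12.OddIndex
import Cfsg.Agent.H12.DuadIndex
-- import your own Cfsg.Agent.* helpers here

set_option autoImplicit false
open scoped Pointwise
open Cfsg

namespace Cfsg.Agent.S1589

/-- Subgroups of the group of the length-24 code of index 759, 276 and 1771 are exactly the octad, duad and sextet stabilisers, and no subgroup has index 253. -/
theorem result : (∀ H : Subgroup ↥Cfsg.M24, H.index = 759 → ∃ o ∈ Cfsg.octads, H = MulAction.stabilizer Cfsg.M24 o) ∧ (∀ H : Subgroup ↥Cfsg.M24, H.index = 276 → ∃ s : Finset Cfsg.GolayPt, s.card = 2 ∧ H = MulAction.stabilizer Cfsg.M24 s) ∧ (∀ H : Subgroup ↥Cfsg.M24, H.index = 1771 → ∃ S ∈ Cfsg.sextets, H = MulAction.stabilizer Cfsg.M24 S) ∧ ∀ H : Subgroup ↥Cfsg.M24, H.index ≠ 253 := by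
  exact ⟨fun H => (H12.odd_index_subgroups H).1, H12.index_276_subgroups,
    fun H => (H12.odd_index_subgroups H).2.1, fun H => (H12.odd_index_subgroups H).2.2⟩

end Cfsg.Agent.S1589
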