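import Cfsg.Statements.S0303
import Cfsg.Agent.H5.UnitaryMinus
import Cfsg.Agent.H3.Simple

set_option autoImplicit false
open Cfsg

namespace Cfsg.Agent.S0303

/-- PΩ^-_6(q) is isomorphic to PSU_4(q). -/
theorem result {F K : Type*} [Field F] [Fintype F] [Field K] [Fintype K] {q : ℕ} (hF : Fintype.card F = q) (hK : Fintype.card K = q ^ 2) (a b : F) (hab : ∀ z₁ z₂ : F, z₁ ^ 2 + a * z₁ * z₂ + b * z₂ ^ 2 = 0 → z₁ = 0 ∧ z₂ = 0) : Nonempty (Cfsg.POmega F (Cfsg.quadFormMinus 2 F a b) ≃* Cfsg.PSU 4 K q) := by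
  haveI : Finite ((Fin 2 ⊕ Fin 2) ⊕ Fin 2 → F) := Pi.finite
  obtain ⟨E⟩ := H5.nonempty_quadExt hF hK a b hab
  obtain ⟨δ, hδ, hδ'⟩ := H3.exists_trace_zero_ne_zero hK
  obtain ⟨P, hP⟩ := H5.exists_basis_change hK
  have hn : Module.finrank F ((Fin 2 ⊕ Fin 2) ⊕ Fin 2 → F) = 6 := by simp
  obtain ⟨g, hg⟩ := H5.exists_suMinusHom_swap E hK hδ hδ' P hP hF
  obtain ⟨e⟩ := H5.nonempty_omega_quot_equiv_of_simple (H5.qMinus_nondegenerate 2 hab) (by omega)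
    (Or.inr (by omega)) (H3.commutator_SU_eq_top hK (by norm_num) (by omega))
    (H3.isSimpleGroup_PSU hK (by norm_num) (by omega)) (H5.suMinusHom E hK hδ hδ' P hP hF)
    H5.hypPair_qMinus (fun v hv => H5.exists_suMinusHom_eq_eich E hK hδ hδ' P hP hF hv)
    ⟨g, -1, neg_ne_zero.2 one_ne_zero, hg⟩
  exact ⟨(H5.pomegaEquiv (H5.qMinus 2 F a b) (H5.coe_qMinus 2 a b)).trans e⟩

end Cfsg.Agent.S0303
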