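import Cfsg.Statements.S0608
import Cfsg.Agent.H34.FixedClosure
import Cfsg.Agent.H44.TISylow

set_option autoImplicit false
open Cfsg
open scoped commutatorElement

namespace Cfsg.Agent.S0608

/-- With trivial p'-core, Thompson factorizability is equivalent to J(G) centralizing the subgroup generated by all Ω₁(Z(S)), S Sylow. -/
theorem result {G : Type*} [Group G] [Finite G] {p : ℕ} [Fact p.Prime] (hO : Cfsg.pPrimeCore p G = ⊥) : Cfsg.IsThompsonFactorizable p G ↔ Cfsg.thompsonSubgroup p G ≤ Subgroup.centralizer ((⨆ S : Sylow p G, Cfsg.omegaOne p (((S : Subgroup G)) ⊓ Subgroup.centralizer ((S : Subgroup G) : Set G)) : Subgroup G) : Set G) := by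
  set Z := H34.omegaZ p G
  set Ω : Sylow p G → Subgroup G := fun S =>
    Cfsg.omegaOne p ((S : Subgroup G) ⊓ Subgroup.centralizer ((S : Subgroup G) : Set G))
  constructor
  · intro h
    refine sSup_le fun A hA => ?_
    rw [Subgroup.le_centralizer_iff]
    refine iSup_le fun T => ?_
    obtain ⟨S, hS⟩ := (H34.IsPGroup_of_isElementaryAbelian hA.1).exists_le_sylow
    obtain ⟨g, rfl⟩ := MulAction.exists_smul_eq G S T
    obtain ⟨x, hx, c, hc, n, hn, he⟩ := h S g⁻¹
    rw [hO, Subgroup.mem_bot] at hx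
    rw [hx, one_mul] at he
    intro w hw a ha
    have hAJ : A ≤ Cfsg.thompsonSubgroupOf p (S : Subgroup G) := by
      rw [H34.thompsonSubgroupOf_sylow]; exact le_sSup ⟨hS, hA⟩
    set J := Cfsg.thompsonSubgroupOf p (S : Subgroup G)
    -- `w` is the conjugate of an element of `Ω S` by `n⁻¹`
    have hw' : g⁻¹ * w * g ∈ Ω S := by
      have hmap : Ω (g • S) = (Ω S).map (MulAut.conj g).toMonoidHom := by
        simp only [Ω]
        rw [H34.map_omegaOne _ (MulAut.conj g).injective,
          Subgroup.map_inf _ _ _ (MulAut.conj g).injective, Sylow.coe_subgroup_smul]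
        congr 2
        exact (H34.map_centralizer (MulAut.conj g) _).symm
      change w ∈ Ω (g • S) at hw
      rw [hmap] at hw
      obtain ⟨u, hu, rfl⟩ := hw
      simpa [mul_assoc] using hu
    have hn1 : n * a * n⁻¹ ∈ J := (Subgroup.mem_normalizer_iff.1 hn a).1 (hAJ ha)
    have hcomm : (g⁻¹ * w * g) * (n * a * n⁻¹) = (n * a * n⁻¹) * (g⁻¹ * w * g) := by
      have h1 := ((H34.omegaOne_le (p := p) _) hw').2
      exact (h1 _ (H34.thompsonSubgroupOf_le _ hn1)).symm
    have hgi : g⁻¹ * w * g = n * w * n⁻¹ := by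
      have h2 := hc _ hw'
      have hg : g = n⁻¹ * c⁻¹ := by
        rw [← mul_inv_rev, ← he, inv_inv]
      have h3 : c * (g⁻¹ * w * g) * c⁻¹ = g⁻¹ * w * g := by rw [← h2, mul_inv_cancel_right]
      calc g⁻¹ * w * g = c⁻¹ * (c * (g⁻¹ * w * g) * c⁻¹) * c := by simp [mul_assoc]
        _ = c⁻¹ * (g⁻¹ * w * g) * c := by rw [h3]
        _ = _ := by rw [hg]; simp [mul_assoc]
    rw [hgi] at hcomm
    have := congrArg (fun t => n⁻¹ * t * n) hcomm
    simpa [mul_assoc] using this.symm
  · intro hJ S g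
    have hZn : Z.Normal := H34.omegaZ_normal
    set C := Subgroup.centralizer (Z : Set G)
    haveI : C.Normal := inferInstance
    obtain ⟨P, hP⟩ : ∃ P : Sylow p C, (P : Subgroup C) = (S : Subgroup G).subgroupOf C :=
      H44.exists_sylow_eq_subgroupOf S C
    have hF := Sylow.normalizer_sup_eq_top (N := C) P
    have hg : g ∈ C ⊔ Subgroup.normalizer ((((P : Subgroup C)).map C.subtype : Subgroup G) : Set G) := by
      rw [sup_comm, hF]; trivial
    obtain ⟨c, hc, n, hn, rfl⟩ := Subgroup.mem_sup_of_normal_left.1 hg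
    refine ⟨1, one_mem _, c, Subgroup.centralizer_le (SetLike.coe_subset_coe.2 (le_iSup Ω S)) hc,
      n, ?_, by simp⟩
    have hmap : (P : Subgroup C).map C.subtype = (S : Subgroup G) ⊓ C := by
      rw [hP, Subgroup.subgroupOf_map_subtype]
    rw [hmap] at hn
    have hle : Cfsg.thompsonSubgroupOf p (S : Subgroup G) ≤ (S : Subgroup G) ⊓ C := by
      refine le_inf (H34.thompsonSubgroupOf_le _) (le_trans ?_ hJ)
      rw [H34.thompsonSubgroupOf_sylow]
      exact sSup_le_sSup fun B hB => hB.2
    have := H34.normalizer_le_normalizer_thompson (p := p) _ hn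
    rwa [H34.thompsonSubgroupOf_eq_of_le hle inf_le_left] at this

end Cfsg.Agent.S0608
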