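import Cfsg.Statements.S0599
import Cfsg.Agent.H34.Conj

set_option autoImplicit false
open Cfsg
open scoped commutatorElement

namespace Cfsg.Agent.S0599

/-- The Timmesfeld replacement Theorem: replacing a best offender A by C_A([U, A]) gives a best offender with fixed points [U, A]C_V(A), still nontrivial on V if A was. -/
theorem result {G : Type*} [Group G] [Finite G] {p : ℕ} [Fact p.Prime] (V A : Subgroup G) (hV : Cfsg.IsElementaryAbelian p V) (hAV : A ≤ Subgroup.normalizer (V : Set G)) (hA : Cfsg.IsBestOffenderOn p V A) (U : Subgroup G) (hU : U ≤ V) : Cfsg.IsBestOffenderOn p V (A ⊓ Subgroup.centralizer ((⁅U, A⁆ : Subgroup G) : Set G)) ∧ V ⊓ Subgroup.centralizer ((A ⊓ Subgroup.centralizer ((⁅U, A⁆ : Subgroup G) : Set G) : Subgroup G) : Set G) = ⁅U, A⁆ ⊔ (V ⊓ Subgroup.centralizer (A : Set G)) ∧ (⁅V, A⁆ ≠ ⊥ → ⁅V, A ⊓ Subgroup.centralizer ((⁅U, A⁆ : Subgroup G) : Set G)⁆ ≠ ⊥) := by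
  haveI := hV.1
  obtain ⟨hmax, hab, hpow⟩ := hA
  obtain ⟨h1, h2⟩ := H34.replacement hAV hab hmax hU
  refine ⟨⟨fun B hB => (hmax B (hB.trans inf_le_left)).trans h1.ge,
    (Subgroup.commutator_mono inf_le_left inf_le_left).trans hab,
    fun a ha => hpow a ha.1⟩, h2, fun hne hbot => hne ?_⟩
  have hVp : IsPGroup p V := fun v => ⟨1, Subtype.ext (by simpa using hV.2 v v.2)⟩
  have hVA : ⁅V, A⁆ ≤ V := Subgroup.le_normalizer_iff_commutator_le_left.1 hAV
  have hUA : ⁅U, A⁆ ≤ ⁅V, A⁆ := Subgroup.commutator_mono hU le_rfl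
  have hfix : V ≤ ⁅U, A⁆ ⊔ (V ⊓ Subgroup.centralizer (A : Set G)) := by
    rw [← h2]
    exact le_inf le_rfl (Subgroup.commutator_eq_bot_iff_le_centralizer.1 hbot)
  have hle : ⁅V, A⁆ ≤ ⁅⁅V, A⁆, A⁆ := by
    conv_lhs => rw [Subgroup.commutator_comm]
    rw [Subgroup.commutator_le]
    intro a ha v hv
    let K : Subgroup G :=
      { carrier := {w | w ∈ V ∧ ⁅a, w⁆ ∈ ⁅⁅V, A⁆, A⁆}
        one_mem' := ⟨V.one_mem, by simp⟩
        mul_mem' := by
          rintro x y ⟨hx, hx'⟩ ⟨hy, hy'⟩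
          refine ⟨V.mul_mem hx hy, ?_⟩
          rw [commutatorElement_mul_right_eq_mul_conj, mul_assoc ⁅a, x⁆,
            setLike_mul_comm (s := V) hx (H34.comm_mem_of_mem_normalizer (hAV ha) hy)]
          simpa [mul_assoc] using Subgroup.mul_mem _ hx' hy'
        inv_mem' := by
          rintro x ⟨hx, hx'⟩
          refine ⟨V.inv_mem hx, ?_⟩
          rw [commutatorElement_inv_right, setLike_mul_comm (s := V) (V.inv_mem hx)
            (by rw [← commutatorElement_inv]; exact V.inv_mem (H34.comm_mem_of_mem_normalizer (hAV ha) hx)),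
            inv_mul_cancel_right, ← commutatorElement_inv]
          exact Subgroup.inv_mem _ hx' }
    suffices V ≤ K from (this hv).2
    refine hfix.trans (sup_le (fun w hw => ⟨hVA (hUA hw), ?_⟩) (fun w hw => ⟨hw.1, ?_⟩))
    · rw [Subgroup.commutator_comm ⁅V, A⁆ A]
      exact Subgroup.commutator_mem_commutator ha (hUA hw)
    · rw [commutatorElement_eq_one_iff_mul_comm.2 (Subgroup.mem_centralizer_iff.1 hw.2 a ha)]
      exact Subgroup.one_mem _
  exact H34.eq_bot_of_le_commutator (hVp.to_le hVA)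
    (Subgroup.normalizer_commutator_ge_right (H₁ := V) (H₂ := A))
    (fun a ha => ⟨1, by
      rw [pow_one]
      exact Subgroup.centralizer_le (SetLike.coe_subset_coe.2 hVA) (hpow a ha)⟩) hle

end Cfsg.Agent.S0599
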