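import Cfsg.Statements.S0607
import Cfsg.Agent.H34.Offender
import Cfsg.Agent.S0599

set_option autoImplicit false
open Cfsg
open scoped commutatorElement

namespace Cfsg.Agent.S0607

/-- The replacement Theorem for the Thompson subgroup: from A of maximal order among elementary abelian p-subgroups one obtains A₀ = [V, A] C_A([V, A]) of the same kind, quadratic on V and nontrivial on V when A is. -/
theorem result {G : Type*} [Group G] [Finite G] {p : ℕ} [Fact p.Prime] (V : Subgroup G) [V.Normal] (hV : Cfsg.IsElementaryAbelian p V) (A : Subgroup G) (hA : A ∈ Cfsg.maxElementaryAbelianSubgroups p G) : (⁅V, A⁆ ⊔ (A ⊓ Subgroup.centralizer ((⁅V, A⁆ : Subgroup G) : Set G))) ∈ Cfsg.maxElementaryAbelianSubgroups p G ∧ ⁅⁅V, ⁅V, A⁆ ⊔ (A ⊓ Subgroup.centralizer ((⁅V, A⁆ : Subgroup G) : Set G))⁆, ⁅V, A⁆ ⊔ (A ⊓ Subgroup.centralizer ((⁅V, A⁆ : Subgroup G) : Set G))⁆ = ⊥ ∧ (⁅V, A⁆ ≠ ⊥ → ⁅V, ⁅V, A⁆ ⊔ (A ⊓ Subgroup.centralizer ((⁅V, A⁆ : Subgroup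 G) : Set G))⁆ ≠ ⊥) := by
  haveI := hV.1
  have hAV : A ≤ Subgroup.normalizer (V : Set G) :=
    le_top.trans_eq (Subgroup.normalizer_eq_top_iff.2 inferInstance).symm
  set B := A ⊓ Subgroup.centralizer ((⁅V, A⁆ : Subgroup G) : Set G) with hB
  set A₀ := ⁅V, A⁆ ⊔ B with hA₀
  have hXV : ⁅V, A⁆ ≤ V := Subgroup.le_normalizer_iff_commutator_le_left.1 hAV
  have hmem : A₀ ∈ Cfsg.maxElementaryAbelianSubgroups p G :=
    H34.replacement_of_mem_max hV hAV hA
  refine ⟨hmem, ?_, fun hne hb => ?_⟩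
  · have h1 : ⁅V, A₀⁆ ≤ ⁅V, A⁆ := by
      rw [Subgroup.commutator_le]
      intro v hv a ha
      have hle : A₀ ≤ V ⊔ B := sup_le (hXV.trans le_sup_left) le_sup_right
      obtain ⟨w, hw, b, hb, rfl⟩ := Subgroup.mem_sup_of_normal_left.1 (hle ha)
      have hm : ⁅v, b⁆ ∈ ⁅V, A⁆ := Subgroup.commutator_mem_commutator hv hb.1
      have h0 : ⁅v, w⁆ = 1 :=
        commutatorElement_eq_one_iff_mul_comm.2 (setLike_mul_comm (s := V) hv hw)
      rw [commutatorElement_mul_right_eq_mul_conj, h0, one_mul,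
        setLike_mul_comm (s := V) hw (hXV hm)]
      simpa [mul_assoc] using hm
    refine le_bot_iff.1 ((Subgroup.commutator_mono h1 le_rfl).trans (le_of_eq ?_))
    rw [Subgroup.commutator_eq_bot_iff_le_centralizer]
    exact le_sup_left.trans (Subgroup.le_centralizer_iff_isMulCommutative.2 hmem.1.1)
  · have h := (Cfsg.Agent.S0599.result (p := p) V A hV hAV (H34.isBestOffenderOn_of_mem_max hV hA) V le_rfl).2.2 hne
    exact h (le_bot_iff.1 (hb ▸ Subgroup.commutator_mono le_rfl le_sup_right))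

end Cfsg.Agent.S0607
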