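import Cfsg.Statements.S0624
import Cfsg.Agent.H34.StableClosure
import Cfsg.Agent.H20.PxQ
import Cfsg.Agent.H44.TISylow
import Cfsg.Agent.S0607

set_option autoImplicit false
open Cfsg
open scoped commutatorElement Pointwise

namespace Cfsg.Agent.S0624

/-- The analogue of the ZJ-Theorem: in an action-p-stable group whose largest normal p-subgroup contains its centralizer, the characteristic subgroup W(S) of a Sylow p-subgroup S is normal. -/
theorem result {G : Type*} [Group G] [Finite G] {p : ℕ} [Fact p.Prime] (hst : Cfsg.IsActionPStable p G) (hc : Subgroup.centralizer (Cfsg.pCore p G : Set G) ≤ Cfsg.pCore p G) (S : Sylow p G) : (((Cfsg.stableNormalClosure p ↥(S : Subgroup G)).map (S : Subgroup G).subtype)).Normal := by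
  set W := (Cfsg.stableNormalClosure p ↥(S : Subgroup G)).map (S : Subgroup G).subtype
  set Q := Cfsg.pCore p G
  set J := Cfsg.thompsonSubgroupOf p (S : Subgroup G)
  set H := Subgroup.normalizer (J : Set G)
  haveI hQn : Q.Normal := H19.pCore_normal p G
  have hQS : Q ≤ (S : Subgroup G) := H19.pCore_le_sylow S
  have hSH : (S : Subgroup G) ≤ H :=
    Subgroup.le_normalizer.trans (H34.normalizer_le_normalizer_thompson _)
  set τ := Subgroup.inclusion hSH
  have hτc : H.subtype.comp τ = (S : Subgroup G).subtype := rfl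
  have hτ : Cfsg.IsStableEmbedding p τ := by
    refine ⟨Subgroup.inclusion_injective _, inferInstance,
      ⟨S.subtype hSH, (Subgroup.inclusion_range hSH).symm⟩, ?_, ?_, fun V _ hV => hst.2.2 S V ?_⟩
    · have hQ' : Q.subgroupOf H ≤ Cfsg.pCore p H :=
        H19.le_pCore inferInstance
          ((H19.pCore_isPGroup (G := G) p).comap_of_injective _ H.subtype_injective)
      refine fun x hx => hQ' (hc fun q hq => ?_)
      exact congrArg Subtype.val (hx ⟨q, hSH (hQS hq)⟩ (hQ' hq))
    · have hmap : ((Cfsg.thompsonSubgroup p ↥(S : Subgroup G)).map τ) = J.subgroupOf H := by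
        apply Subgroup.map_injective H.subtype_injective
        rw [Subgroup.map_map, hτc, Subgroup.subgroupOf_map_subtype, inf_eq_left.2 Subgroup.le_normalizer]
        rfl
      rw [hmap]
      exact (Subgroup.normal_subgroupOf_iff_le_normalizer Subgroup.le_normalizer).2 le_rfl
    · refine (Subgroup.map_mono hV).trans (le_of_eq ?_)
      rw [Subgroup.map_map, hτc]
  have hHW : H ≤ Subgroup.normalizer (W : Set G) := by
    have h1 := Subgroup.normalizer_eq_top_iff.2 (H34.stableNormalClosure_map_normal hτ)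
    have h2 := Subgroup.le_normalizer_map
      (H := (Cfsg.stableNormalClosure p ↥(S : Subgroup G)).map τ) H.subtype
    rw [h1, ← MonoidHom.range_eq_map, Subgroup.range_subtype, Subgroup.map_map, hτc] at h2
    exact h2
  have hWe : Cfsg.IsElementaryAbelian p W :=
    H34.isElementaryAbelian_map H34.stableNormalClosure_isElementaryAbelian _
  have hWab : ⁅W, W⁆ = ⊥ := by
    haveI := hWe.1
    exact Subgroup.commutator_eq_bot_iff_le_centralizer.2 (Subgroup.le_centralizer W)
  have hWS : W ≤ (S : Subgroup G) := Subgroup.map_subtype_le _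
  -- elements of `S` acting quadratically on `W` centralise it
  have hquad : ∀ x ∈ (S : Subgroup G), ⁅⁅W, Subgroup.zpowers x⁆, Subgroup.zpowers x⁆ = ⊥ →
      W ≤ Subgroup.centralizer {x} := by
    intro x hx h
    have hzp : (Subgroup.zpowers (⟨x, hx⟩ : ↥(S : Subgroup G))).map (S : Subgroup G).subtype =
        Subgroup.zpowers x := MonoidHom.map_zpowers _ _
    rw [← hzp, ← Subgroup.map_commutator,
      ← Subgroup.map_commutator,
      Subgroup.map_eq_bot_iff_of_injective _ (S : Subgroup G).subtype_injective] at h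
    rintro _ ⟨w, hw, rfl⟩ y rfl
    exact congrArg Subtype.val (H34.stableNormalClosure_le_centralizer hw ⟨_, hx⟩ h)
  -- `W ≤ O_p(G)`
  have hWQ : W ≤ Q := by
    intro a ha
    set Φ := (frattini ↥Q).map Q.subtype
    obtain ⟨D, hDn, hKD, ⟨k, hk⟩, haD⟩ := hst.2.1 a (by
      have hQW : Q ≤ Subgroup.normalizer (W : Set G) := hQS.trans (hSH.trans hHW)
      refine le_trans (Subgroup.commutator_mono ?_ (Subgroup.zpowers_le.2 ha)) (hWab.le.trans bot_le)
      rw [Subgroup.commutator_comm]
      exact (Subgroup.commutator_mono (Subgroup.zpowers_le.2 ha) le_rfl).trans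
        (Subgroup.le_normalizer_iff_commutator_le_left.1 hQW))
    set K := Cfsg.sectionKernel Q Φ
    have hK : IsPGroup p K := by
      refine IsPGroup.of_card (n := (Nat.card K).primeFactorsList.length)
        (Nat.eq_prime_pow_of_unique_prime_dvd Nat.card_pos.ne' fun {r} hr hrd => ?_)
      by_contra hrp
      haveI := Fact.mk hr
      obtain ⟨x, hx⟩ := exists_prime_orderOf_dvd_card' r hrd
      have hxr : Nat.card ↥(Subgroup.zpowers (x : G)) = r := by
        rw [Nat.card_zpowers, Subgroup.orderOf_coe, hx]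
      have hxQ : (x : G) ∈ Q := hc (H20.le_centralizer_of_trivial_on_frattini
        (A := Subgroup.zpowers (x : G))
        (le_top.trans_eq (Subgroup.normalizer_eq_top_iff.2 hQn).symm) (by
          obtain ⟨n, hn⟩ := IsPGroup.iff_card.1
            ((H19.pCore_isPGroup (G := G) p).to_subgroup (frattini ↥Q))
          rw [hxr, hn]
          exact ((Nat.coprime_primes hr Fact.out).2 hrp).pow_right n) (by
          intro b hb q hq
          have hbK : b ∈ K := Subgroup.zpowers_le.2 x.2 hb
          have h1 := Subgroup.mem_comap.1 hbK (QuotientGroup.mk' Φ q) (Subgroup.mem_map_of_mem _ hq)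
          rw [← QuotientGroup.eq_one_iff]
          change QuotientGroup.mk' Φ (b * q * b⁻¹ * q⁻¹) = 1
          rw [map_mul, map_mul, map_mul, map_inv, map_inv, ← h1]
          simp) (Subgroup.mem_zpowers _))
      obtain ⟨m, hm⟩ := (H19.pCore_isPGroup (G := G) p) ⟨(x : G), hxQ⟩
      have hm' : (x : G) ^ p ^ m = 1 := congrArg Subtype.val hm
      have hdvd : r ∣ p ^ m := by
        rw [← hx, ← Subgroup.orderOf_coe]
        exact orderOf_dvd_of_pow_eq_one hm'
      exact hrp ((Nat.prime_dvd_prime_iff_eq hr Fact.out).1 (hr.dvd_of_dvd_pow hdvd))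
    have hDp : IsPGroup p D := by
      obtain ⟨n, hn⟩ := IsPGroup.iff_card.1 hK
      refine IsPGroup.of_card (n := n + k) ?_
      rw [pow_add, ← hn, ← hk, ← Subgroup.relIndex_bot_left, ← Subgroup.relIndex_bot_left,
        Subgroup.relIndex_mul_relIndex _ _ _ bot_le hKD]
    exact H19.le_pCore hDn hDp haD
  have hQW : Q ≤ Subgroup.normalizer (W : Set G) := hQS.trans (hSH.trans hHW)
  -- conjugates of `W` centralise `W`
  have hconj : ∀ g : G, ∀ w ∈ W, ∀ u ∈ W, Commute (g * w * g⁻¹) u := by
    intro g w hw u hu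
    set c := (MulAut.conj g).toMonoidHom
    set Wg := W.map c
    have hWgQ : Wg ≤ Q := by
      rintro _ ⟨v, hv, rfl⟩; exact hQn.conj_mem v (hWQ hv) g
    have hQWg : Q ≤ Subgroup.normalizer (Wg : Set G) := by
      rw [← show Q.map c = Q from Subgroup.Normal.map_conj_eq Q g]
      exact (Subgroup.map_mono hQW).trans (Subgroup.le_normalizer_map _)
    have hWgab : ⁅Wg, Wg⁆ = ⊥ := by rw [← Subgroup.map_commutator, hWab, Subgroup.map_bot]
    have hx : g * w * g⁻¹ ∈ Wg := ⟨w, hw, rfl⟩
    refine hquad _ (hQS (hWgQ hx)) (le_bot_iff.1 ?_) hu _ rfl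
    refine (Subgroup.commutator_mono ?_ (Subgroup.zpowers_le.2 hx)).trans hWgab.le
    rw [Subgroup.commutator_comm]
    exact (Subgroup.commutator_mono (Subgroup.zpowers_le.2 hx) le_rfl).trans
      (Subgroup.le_normalizer_iff_commutator_le_left.1 (hWQ.trans hQWg))
  set V := Subgroup.normalClosure (W : Set G)
  have hWV : W ≤ V := Subgroup.le_normalClosure
  have hVn : V.Normal := Subgroup.normalClosure_normal
  have hmemV : ∀ z ∈ Group.conjugatesOfSet (W : Set G), ∃ g : G, ∃ w ∈ W, z = g * w * g⁻¹ := by
    intro z hz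
    obtain ⟨w, hw, hwz⟩ := Group.mem_conjugatesOfSet_iff.1 hz
    obtain ⟨g, hg⟩ := isConj_iff.1 hwz
    exact ⟨g, w, hw, hg.symm⟩
  have hVe : Cfsg.IsElementaryAbelian p V := by
    have hcomm : IsMulCommutative V := Subgroup.le_centralizer_iff_isMulCommutative.1 (by
      change Subgroup.closure _ ≤
        Subgroup.centralizer ((Subgroup.closure (Group.conjugatesOfSet (W : Set G)) : Subgroup G) : Set G)
      rw [Subgroup.centralizer_closure, Subgroup.closure_le]
      intro a ha b hb
      obtain ⟨g₁, w₁, hw₁, rfl⟩ := hmemV a ha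
      obtain ⟨g₂, w₂, hw₂, rfl⟩ := hmemV b hb
      have := (hconj (g₁⁻¹ * g₂) w₂ hw₂ w₁ hw₁).map (MulAut.conj g₁).toMonoidHom
      simpa [mul_assoc] using this.eq)
    refine ⟨hcomm, fun a ha => ?_⟩
    haveI := hcomm
    induction ha using Subgroup.closure_induction with
    | mem x hx => obtain ⟨g, w, hw, rfl⟩ := hmemV x hx; rw [conj_pow, hWe.2 w hw]; simp
    | one => simp
    | mul x y hx hy hx' hy' =>
      rw [(show Commute x y from setLike_mul_comm (s := V) hx hy).mul_pow, hx', hy', mul_one]
    | inv x _ hx' => rw [inv_pow, hx', inv_one]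
  set C := Subgroup.centralizer (V : Set G)
  haveI : C.Normal := inferInstance
  have hVS : V ≤ (S : Subgroup G) := (Subgroup.normalClosure_le_normal hWQ).trans hQS
  have hJC : J ≤ C := by
    rw [show J = _ from H34.thompsonSubgroupOf_sylow S]
    refine sSup_le fun A hA => ?_
    obtain ⟨hAS, hA⟩ := hA
    obtain ⟨-, hq, hne⟩ := Cfsg.Agent.S0607.result V hVe A hA
    set A₀ := ⁅V, A⁆ ⊔ (A ⊓ Subgroup.centralizer ((⁅V, A⁆ : Subgroup G) : Set G))
    have hA₀S : A₀ ≤ (S : Subgroup G) :=
      sup_le ((Subgroup.commutator_le_left V A).trans hVS) (inf_le_left.trans hAS)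
    have hA₀C : A₀ ≤ C := by
      intro x hx
      have hxq : ⁅⁅V, Subgroup.zpowers x⁆, Subgroup.zpowers x⁆ = ⊥ :=
        eq_bot_iff.2 ((Subgroup.commutator_mono (Subgroup.commutator_mono le_rfl
          (Subgroup.zpowers_le.2 hx)) (Subgroup.zpowers_le.2 hx)).trans hq.le)
      change x ∈ Subgroup.centralizer
        ((Subgroup.closure (Group.conjugatesOfSet (W : Set G)) : Subgroup G) : Set G)
      rw [Subgroup.centralizer_closure]
      intro z hz
      obtain ⟨g, w, hw, rfl⟩ := hmemV z hz
      set y := g⁻¹ * x * g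
      have hyq : ⁅⁅V, Subgroup.zpowers y⁆, Subgroup.zpowers y⁆ = ⊥ := by
        have h1 := congrArg (Subgroup.map (MulAut.conj g⁻¹).toMonoidHom) hxq
        rw [Subgroup.map_commutator, Subgroup.map_commutator, Subgroup.map_bot, MonoidHom.map_zpowers,
          show V.map (MulAut.conj g⁻¹).toMonoidHom = V from Subgroup.Normal.map_conj_eq V g⁻¹] at h1
        simpa [y] using h1
      set D := (Cfsg.pCore p (G ⧸ C)).comap (QuotientGroup.mk' C)
      have hDS : D ≤ (S : Subgroup G) ⊔ C := by
        refine (Subgroup.comap_mono (H19.pCore_le_sylow (S.mapSurjective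
          (QuotientGroup.mk'_surjective C)))).trans (le_of_eq ?_)
        simp [Subgroup.comap_map_eq]
      obtain ⟨s, hs, c, hc', hsc⟩ := Subgroup.mem_sup_of_normal_right.1 (hDS (hst.1 V hVe y hyq))
      have hsT : Subgroup.zpowers s ≤ Subgroup.zpowers y ⊔ C := by
        refine Subgroup.zpowers_le.2 ?_
        rw [show s = y * c⁻¹ by rw [← hsc]; simp]
        exact mul_mem (Subgroup.mem_sup_left (Subgroup.mem_zpowers _)) (Subgroup.mem_sup_right (inv_mem hc'))
      have hsq : ⁅⁅W, Subgroup.zpowers s⁆, Subgroup.zpowers s⁆ = ⊥ :=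
        eq_bot_iff.2 ((Subgroup.commutator_mono (Subgroup.commutator_mono hWV hsT) hsT).trans
          (H34.quadratic_sup_centralizer V y hyq).le)
      have hsw : s * w = w * s := hquad s hs hsq hw s rfl
      have hcw : w * c = c * w := hc' w (hWV hw)
      have hyw : Commute y w := by
        rw [← hsc]; exact (Commute.mul_left (show Commute s w from hsw) (show Commute c w from hcw.symm))
      have := (hyw.map (MulAut.conj g).toMonoidHom).eq.symm
      simpa [y, mul_assoc] using this
    by_contra hAC
    refine hne ?_ (Subgroup.commutator_eq_bot_iff_le_centralizer.2 (Subgroup.le_centralizer_iff.1 hA₀C))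
    exact fun h => hAC (Subgroup.le_centralizer_iff.1 (Subgroup.commutator_eq_bot_iff_le_centralizer.1 h))
  obtain ⟨P, hP⟩ := H44.exists_sylow_eq_subgroupOf S C
  have hF := Sylow.normalizer_sup_eq_top (N := C) P
  rw [hP, Subgroup.subgroupOf_map_subtype] at hF
  rw [← Subgroup.normalizer_eq_top_iff, eq_top_iff, ← hF]
  refine sup_le ?_ ((Subgroup.centralizer_le hWV).trans (Subgroup.centralizer_le_normalizer _))
  refine (H34.normalizer_le_normalizer_thompson (p := p) _).trans ?_
  rw [H34.thompsonSubgroupOf_eq_of_le (le_inf (H34.thompsonSubgroupOf_le _) hJC) inf_le_left]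
  exact hHW

end Cfsg.Agent.S0624
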