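import Cfsg.Statements.S0595
import Cfsg.Agent.H34.QuadPair
import Cfsg.Agent.H28.BaerSuzuki
import Cfsg.Agent.H19.Cores

set_option autoImplicit false
open Cfsg
open scoped commutatorElement Pointwise

namespace Cfsg.Agent.S0595

/-- For odd p, a faithful action on an elementary abelian p-group that is not p-stable forces non-abelian Sylow 2-subgroups. -/
theorem result {G : Type*} [Group G] [Finite G] {p : ℕ} [Fact p.Prime] (hp : p ≠ 2) (V H : Subgroup G) (hV : Cfsg.IsElementaryAbelian p V) (hHV : H ≤ Subgroup.normalizer (V : Set G)) (hf : H ⊓ Subgroup.centralizer (V : Set G) = ⊥) (a : G) (haH : a ∈ H) (hq : ⁅⁅V, Subgroup.zpowers a⁆, Subgroup.zpowers a⁆ = ⊥) (hna : a ∉ (Cfsg.pCore p H).map H.subtype) (T : Sylow 2 H) : ¬ IsMulCommutative T := by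
  intro hT
  obtain ⟨g, hg⟩ : ∃ g : H, ¬ IsPGroup p
      ↥(Subgroup.closure ({⟨a, haH⟩, g * ⟨a, haH⟩ * g⁻¹} : Set H)) := by
    by_contra h
    obtain ⟨N, hN, hNp, haN⟩ := H28.baer_suzuki_element (p := p) (⟨a, haH⟩ : H)
      (fun g => not_not.1 fun hne => h ⟨g, hne⟩)
    exact hna ⟨_, H19.le_pCore hN hNp haN, rfl⟩
  set b : G := (g : G) * a * (g : G)⁻¹
  set H' := Subgroup.closure ({a, b} : Set G)
  have hH' : H' ≤ H := (Subgroup.closure_le _).2 (by
    rintro x (rfl | rfl)
    · exact haH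
    · exact H.mul_mem (H.mul_mem g.2 haH) (H.inv_mem g.2))
  have hb : ⁅⁅V, Subgroup.zpowers b⁆, Subgroup.zpowers b⁆ = ⊥ := by
    have h1 := congrArg (Subgroup.map (MulAut.conj (g : G)).toMonoidHom) hq
    rw [Subgroup.map_commutator, Subgroup.map_commutator, Subgroup.map_bot, MonoidHom.map_zpowers] at h1
    have hVg : V.map (MulAut.conj (g : G)).toMonoidHom = V :=
      Subgroup.mem_normalizer_iff_map_conj_eq.1 (hHV g.2)
    rw [hVg] at h1
    exact h1
  have hnp' : ¬ IsPGroup p H' := by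
    intro h
    apply hg
    have hmap : (Subgroup.closure ({⟨a, haH⟩, g * ⟨a, haH⟩ * g⁻¹} : Set H)).map H.subtype = H' := by
      rw [MonoidHom.map_closure, Set.image_pair]; rfl
    rw [← hmap] at h
    exact h.of_equiv (Subgroup.equivMapOfInjective _ H.subtype H.subtype_injective).symm
  refine H34.QuadPair.not_abelian hp V H' hV (hH'.trans hHV)
    (eq_bot_iff.2 (le_trans (inf_le_inf_right _ hH') hf.le))
    ⟨a, Subgroup.subset_closure (by simp)⟩ ⟨b, Subgroup.subset_closure (by simp)⟩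
    (H34.QuadPair.closure_pair_eq_top rfl _ _) hq hb hnp' fun R hR => ?_
  obtain ⟨U, hU⟩ := (hR.map (Subgroup.inclusion hH')).exists_le_sylow
  obtain ⟨g', hg'⟩ := MulAction.exists_smul_eq H T U
  have hUc : IsMulCommutative (U : Subgroup H) := by
    rw [← hg', Sylow.coe_subgroup_smul]
    haveI := hT
    exact Subgroup.map_isMulCommutative _ _
  refine Subgroup.le_centralizer_iff_isMulCommutative.1 fun x hx y hy => Subgroup.inclusion_injective hH' ?_
  rw [map_mul, map_mul]
  exact setLike_mul_comm (s := (U : Subgroup H)) (hU (Subgroup.mem_map_of_mem _ hy)) (hU (Subgroup.mem_map_of_mem _ hx))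

end Cfsg.Agent.S0595
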