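import Cfsg.Statements.S0626
import Cfsg.Agent.H34.ActionPStable
import Cfsg.Agent.H34.QuadPair
import Cfsg.Agent.S0595

set_option autoImplicit false
open Cfsg
open scoped commutatorElement Pointwise

namespace Cfsg.Agent.S0626

/-- For odd p, groups whose Sylow 2-subgroups are abelian are p-stable in the action sense. -/
theorem result {G : Type*} [Group G] [Finite G] {p : ℕ} [Fact p.Prime] (hp : p ≠ 2) (hab : ∀ T : Sylow 2 G, IsMulCommutative T) : Cfsg.IsActionPStable p G := by
  refine H34.isActionPStable_of_sections fun X _ _ M f hf V _ hV => ?_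
  refine H34.isPStableOn_of_faithful V fun a ha hq => ?_
  by_contra hna
  have hG2 : ∀ R : Subgroup G, IsPGroup 2 R → IsMulCommutative R := by
    intro R hR
    obtain ⟨U, hU⟩ := hR.exists_le_sylow
    exact Subgroup.le_centralizer_iff_isMulCommutative.1
      (hU.trans ((Subgroup.le_centralizer_iff_isMulCommutative.2 (hab U)).trans (Subgroup.centralizer_le hU)))
  have hM2 : ∀ R : Subgroup M, IsPGroup 2 R → IsMulCommutative R := by
    intro R hR
    have := hG2 (R.map M.subtype) (hR.map _)
    refine Subgroup.le_centralizer_iff_isMulCommutative.1 fun x hx y hy => Subtype.ext ?_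
    exact setLike_mul_comm (s := R.map M.subtype) (Subgroup.mem_map_of_mem M.subtype hy)
      (Subgroup.mem_map_of_mem M.subtype hx)
  set φ := (H34.holHom V).comp f
  have hr : (H34.holHom V).range = φ.range := by
    rw [MonoidHom.range_comp, MonoidHom.range_eq_top.2 hf, MonoidHom.range_eq_map]
  have hR2 : ∀ R : Subgroup (H34.holHom V).range, IsPGroup 2 R → IsMulCommutative R := by
    rw [hr]; exact H34.QuadPair.commutative_two_subgroups_range φ hM2
  have hN : (H34.holHom V).range ≤ Subgroup.normalizer ((H34.holV V).range : Set (H34.Hol V)) := by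
    rw [MonoidHom.range_eq_map]; exact H34.hol_map_le_normalizer V ⊤
  have hf' : (H34.holHom V).range ⊓ Subgroup.centralizer ((H34.holV V).range : Set (H34.Hol V)) = ⊥ := by
    rw [MonoidHom.range_eq_map]; exact H34.hol_faithful V ⊤
  obtain ⟨T⟩ : Nonempty (Sylow 2 ↥(H34.holHom V).range) := inferInstance
  exact Cfsg.Agent.S0595.result (p := p) hp (H34.holV V).range (H34.holHom V).range
    (H34.hol_range_elem V hV) hN hf' a ha hq hna T (hR2 _ T.2)

end Cfsg.Agent.S0626
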