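import Cfsg.Statements.S0710
import Mathlib

set_option autoImplicit false
open Cfsg

namespace Cfsg.Agent.S0710

/-- No transitive permutation group on 13 points has order `13 * 12 * 11 * 10 * 9 * 8`. -/
theorem result {α : Type*} [Fintype α] [DecidableEq α] (hα : Fintype.card α = 13) (G : Subgroup (Equiv.Perm α)) [MulAction.IsPretransitive G α] : Nat.card G ≠ 13 * 12 * 11 * 10 * 9 * 8 := by
  classical
  intro hG
  haveI : Fact (Nat.Prime 13) := ⟨by norm_num⟩
  obtain ⟨σ, hσ⟩ := exists_prime_orderOf_dvd_card' (G := G) 13 (by rw [hG]; norm_num)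
  have hσ' : orderOf (σ : Equiv.Perm α) = 13 := by rw [Subgroup.orderOf_coe, hσ]
  have hc : (σ : Equiv.Perm α).IsCycle :=
    Equiv.Perm.isCycle_of_prime_order'' (by rw [hα]; norm_num) (by rw [hσ', hα])
  have hsupp : (σ : Equiv.Perm α).support = Finset.univ := by
    apply Finset.eq_univ_of_card
    rw [← hc.orderOf, hσ', hα]
  set P := Subgroup.zpowers σ
  have hP : Nat.card P = 13 := by rw [Nat.card_zpowers, hσ]
  have hnd : ¬ 13 ^ 2 ∣ Nat.card G := by rw [hG]; norm_num
  have hPs : Nat.card P = 13 ^ (Nat.card G).factorization 13 := by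
    rw [hP, hG]
    rw [show (13 * 12 * 11 * 10 * 9 * 8 : ℕ) = 13 ^ 1 * 95040 by norm_num, Nat.factorization_mul (by norm_num) (by norm_num),
      Finsupp.add_apply, Nat.Prime.factorization_pow (by norm_num), Finsupp.single_eq_same,
      Nat.factorization_eq_zero_of_not_dvd (by norm_num)]; norm_num
  let Q : Sylow 13 G := Sylow.ofCard P hPs
  have hmod := card_sylow_modEq_one 13 G
  rw [Q.card_eq_index_normalizer] at hmod
  have hQ : (Q : Subgroup G) = P := rfl
  rw [show Subgroup.normalizer ((Q : Sylow 13 G) : Set G) = Subgroup.normalizer (P : Set G) from congrArg (fun X : Subgroup G => Subgroup.normalizer (X : Set G)) hQ] at hmod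
  have hcent : Nat.card (Subgroup.centralizer (P : Set G)) = 13 := by
    apply le_antisymm
    · obtain ⟨a⟩ : Nonempty α := Fintype.card_pos_iff.1 (by omega)
      rw [← hα, ← Nat.card_eq_fintype_card]
      refine Nat.card_le_card_of_injective (fun c => ((c : G) : Equiv.Perm α) a) ?_
      intro c d hcd
      simp only at hcd
      apply Subtype.ext
      apply Subtype.ext
      ext x
      have hcomm : ∀ e : Subgroup.centralizer (P : Set G), Commute (σ : Equiv.Perm α) ((e : G) : Equiv.Perm α) := fun e =>
        congrArg Subtype.val (e.2 σ (Subgroup.mem_zpowers σ))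
      obtain ⟨i, rfl⟩ : (σ : Equiv.Perm α).SameCycle a x :=
        hc.sameCycle (Equiv.Perm.mem_support.1 (by simp [hsupp])) (Equiv.Perm.mem_support.1 (by simp [hsupp]))
      have h1 := Equiv.ext_iff.1 ((hcomm c).zpow_left i).eq a
      have h2 := Equiv.ext_iff.1 ((hcomm d).zpow_left i).eq a
      simp only [Equiv.Perm.coe_mul, Function.comp_apply] at h1 h2
      rw [← h1, ← h2, hcd]
    · rw [← hP]
      exact Subgroup.card_le_of_le (Subgroup.le_centralizer P)
  have hdiv : ∃ d, d ∣ 12 ∧ Nat.card (Subgroup.normalizer (P : Set G)) = 13 * d := by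
    have h := Subgroup.index_ker P.normalizerMonoidHom
    have h2 := Subgroup.card_mul_index P.normalizerMonoidHom.ker
    refine ⟨Nat.card P.normalizerMonoidHom.range, ?_, ?_⟩
    · have h3 := Subgroup.card_subgroup_dvd_card P.normalizerMonoidHom.range
      rwa [IsCyclic.card_mulAut, hP, Nat.totient_prime (by norm_num)] at h3
    · rw [← h2, h]
      congr 1
      rw [Subgroup.normalizerMonoidHom_ker, ← hcent]
      exact Nat.card_congr (Subgroup.subgroupOfEquivOfLe (Subgroup.centralizer_le_normalizer _)).toEquiv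
  obtain ⟨d, hd, hN⟩ := hdiv
  have hidx := Subgroup.card_mul_index (Subgroup.normalizer (P : Set G))
  rw [hN, hG] at hidx
  have hd' : d ≤ 12 := Nat.le_of_dvd (by norm_num) hd
  unfold Nat.ModEq at hmod
  interval_cases d <;> omega

end Cfsg.Agent.S0710
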