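import Cfsg.Statements.S0743
import Cfsg.Agent.H37.Transitivity

set_option autoImplicit false
open Cfsg

namespace Cfsg.Agent.S0743

/-- Gleason's Lemma: let `p` be a prime and `1 ≤ k < n`; if every `k`-subset of the `n` points is exactly the fixed-point set of some `p`-subgroup of `G`, then `G` is `k`-transitive. -/
theorem result {α : Type*} [Fintype α] [DecidableEq α] (G : Subgroup (Equiv.Perm α)) {p k : ℕ} (hp : p.Prime) (hk : 1 ≤ k) (hkn : k < Fintype.card α) (h : ∀ s : Finset α, s.card = k → ∃ P : Subgroup G, IsPGroup p P ∧ MulAction.fixedPoints P α = (s : Set α)) : MulAction.IsMultiplyPretransitive G α k := by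
  classical
  haveI : Fact p.Prime := ⟨hp⟩
  refine Cfsg.Agent.H37.isMultiplyPretransitive_of_fixing_transitive hkn fun t ht a b hat hbt => ?_
  refine Cfsg.Agent.H37.exists_fix_smul_eq (r := p) hp.ne_one (t : Set α) ?_ hat hbt
  intro c hc x hx hxc
  obtain ⟨P, hP, hfix⟩ := h (insert c t) (by rw [Finset.card_insert_of_notMem hc]; omega)
  rw [Finset.coe_insert] at hfix
  have hPle : P ≤ fixingSubgroup G (insert c (t : Set α)) := by
    intro g hg
    rw [mem_fixingSubgroup_iff]
    intro y hy
    exact ((Set.ext_iff.1 hfix y).2 hy) ⟨g, hg⟩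
  refine Cfsg.Agent.H37.dvd_ncard_of_orbits (G := P) _ ?_ ?_
  · intro g y hy
    exact MulAction.mem_orbit_of_mem_orbit (⟨g, hPle g.2⟩ : fixingSubgroup G (insert c (t : Set α))) hy
  · intro y hy
    obtain ⟨n, hn⟩ := hP.card_orbit y
    rw [Nat.card_coe_set_eq] at hn
    rw [hn]
    refine dvd_pow_self p fun h0 => ?_
    subst h0
    obtain ⟨z, hz⟩ := Set.ncard_eq_one.1 (by simpa using hn)
    have hyfix : y ∈ MulAction.fixedPoints P α := by
      intro g
      have h1 : g • y ∈ MulAction.orbit P y := MulAction.mem_orbit y g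
      have h2 : y ∈ MulAction.orbit P y := MulAction.mem_orbit_self y
      rw [hz, Set.mem_singleton_iff] at h1 h2
      rw [h1]
      exact h2.symm
    rw [hfix] at hyfix
    obtain ⟨g, rfl⟩ := hy
    have h3 : g • x = (g : G) • x := rfl
    have h4 : (g : G) • (g • x) = g • x := (mem_fixingSubgroup_iff G).1 g.2 _ hyfix
    have h5 : g • x = x := smul_left_cancel (g : G) (h4.trans h3)
    change g • x ∈ _ at hyfix
    rw [h5] at hyfix
    rcases Set.mem_insert_iff.1 hyfix with e | e
    · exact hxc e
    · exact hx e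

end Cfsg.Agent.S0743
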