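import Cfsg.Statements.S4221
import Cfsg.Agent.H37.OddFourLarge

set_option autoImplicit false
open Cfsg

namespace Cfsg.Agent.S4221

open Cfsg.Agent.H37 in
/-- The induction on the degree. -/
theorem good : ∀ (n : ℕ) {α : Type*} [Fintype α] [DecidableEq α] (G : Subgroup (Equiv.Perm α)) (x : Fin 4 ↪ α),
    Fintype.card α = n → MulAction.IsMultiplyPretransitive G α 4 →
    Odd (Nat.card (MulAction.stabilizer G x)) → OddFourGood α G x := by
  intro n
  induction n using Nat.strong_induction_on with
  | _ n ih =>
    intro α _ _ G x hn h4 hodd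
    by_cases h7 : Fintype.card α ≤ 7
    · exact good_small h4 x hodd h7
    · exact Or.inr (Or.inr (good_large h4 x hodd (by omega)
        fun F _ H y hF hH hy => ih (Fintype.card F) (hn ▸ hF) H y rfl hH hy))

/-- Let `G` be a `4`-fold transitive permutation group on a finite set of `n` points in which the pointwise stabilizer of some four distinct points has odd order. Then `n = 4` or `n = 5` with `G` the full symmetric group, or `n = 6` or `n = 7` with `G` the alternating group, or `n = 11` and `G` has order `7920`. -/
theorem result {α : Type*} [Fintype α] [DecidableEq α] (G : Subgroup (Equiv.Perm α)) (hG : MulAction.IsMultiplyPretransitive G α 4) (x : Fin 4 ↪ α) (hodd : Odd (Nat.card (MulAction.stabilizer G x))) : ((Fintype.card α = 4 ∨ Fintype.card α = 5) ∧ G = ⊤) ∨ ((Fintype.card α = 6 ∨ Fintype.card α = 7) ∧ G = alternatingGroup α) ∨ (Fintype.card α = 11 ∧ Nat.card G = 7920) := by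
  rcases good (Fintype.card α) G x rfl hG hodd with h | h | ⟨h11, h1⟩
  · exact Or.inl h
  · exact Or.inr (Or.inl h)
  · refine Or.inr (Or.inr ⟨h11, ?_⟩)
    have h := Cfsg.Agent.H37.card_mul_descFactorial G hG x
    rw [h1, h11] at h
    norm_num [Nat.descFactorial] at h
    omega

end Cfsg.Agent.S4221
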