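import Cfsg.Statements.S0668
import Mathlib
import Cfsg.Agent.H36.PermRep
-- import your own Cfsg.Agent.* helpers here

set_option autoImplicit false
open Cfsg

namespace Cfsg.Agent.S0668

/-- The equivariant linear maps between the permutation modules of two finite `G`-sets form a space whose dimension is the number of `G`-orbits on the product of the two sets. -/
theorem result {G : Type*} [Group G] {K : Type*} [Field K] {Ω₁ Ω₂ : Type*} [Fintype Ω₁] [Fintype Ω₂] [MulAction G Ω₁] [MulAction G Ω₂] : Module.finrank K ((Cfsg.permRep K G Ω₁).linHom (Cfsg.permRep K G Ω₂)).invariants = Nat.card (MulAction.orbitRel.Quotient G (Ω₁ × Ω₂)) := by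
  classical
  let q : Ω₁ × Ω₂ → MulAction.orbitRel.Quotient G (Ω₁ × Ω₂) := Quotient.mk _
  have hq : ∀ (g : G) x y, q (g • x, g • y) = q (x, y) := fun g x y =>
    Quotient.sound (MulAction.mem_orbit (x, y) g)
  haveI : Fintype (MulAction.orbitRel.Quotient G (Ω₁ × Ω₂)) := Fintype.ofFinite _
  let ρ := (Cfsg.permRep K G Ω₁).linHom (Cfsg.permRep K G Ω₂)
  let Φ : ρ.invariants →ₗ[K] (MulAction.orbitRel.Quotient G (Ω₁ × Ω₂) → K) :=
    { toFun := fun f z => Quotient.liftOn z (fun xy => f.1 (Pi.single xy.1 1) xy.2) (by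
        rintro a ⟨x, y⟩ ⟨g, rfl⟩
        have h := congrFun (LinearMap.congr_fun (f.2 g⁻¹) (Pi.single x 1)) y
        rw [Representation.linHom_apply, LinearMap.comp_apply, LinearMap.comp_apply,
          Cfsg.Agent.H36.permRep_single, Cfsg.Agent.H36.permRep_apply, inv_inv] at h
        exact h)
      map_add' := fun f f' => funext fun z => Quotient.inductionOn z fun xy => rfl
      map_smul' := fun c f => funext fun z => Quotient.inductionOn z fun xy => rfl }
  have hinj : Function.Injective Φ := by
    intro f f' h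
    refine Subtype.ext (LinearMap.pi_ext fun x c => funext fun y => ?_)
    have h1 : f.1 (Pi.single x 1) y = f'.1 (Pi.single x 1) y := congrFun h (q (x, y))
    rw [← mul_one c, ← smul_eq_mul, Pi.single_smul, map_smul, map_smul, Pi.smul_apply,
      Pi.smul_apply, h1]
  have hsurj : Function.Surjective Φ := by
    intro φ
    let F : (Ω₁ → K) →ₗ[K] (Ω₂ → K) :=
      { toFun := fun v y => ∑ x, φ (q (x, y)) * v x
        map_add' := fun v w => funext fun y => by simp [mul_add, Finset.sum_add_distrib]
        map_smul' := fun c v => funext fun y => by simp [Finset.mul_sum, mul_left_comm] }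
    have hF : F ∈ ρ.invariants := fun g => LinearMap.ext fun v => funext fun y => by
      change ∑ x, φ (q (x, g⁻¹ • y)) * v (g⁻¹⁻¹ • x) = ∑ x, φ (q (x, y)) * v x
      refine Fintype.sum_equiv (MulAction.toPerm g) _ _ fun x => ?_
      rw [MulAction.toPerm_apply, inv_inv, ← hq g x (g⁻¹ • y), smul_inv_smul]
    refine ⟨⟨F, hF⟩, funext fun z => Quotient.inductionOn z fun xy => ?_⟩
    change ∑ x, φ (q (x, xy.2)) * (Pi.single xy.1 1 : Ω₁ → K) x = φ (q (xy.1, xy.2))
    simp [Pi.single_apply]
  rw [LinearEquiv.finrank_eq (LinearEquiv.ofBijective Φ ⟨hinj, hsurj⟩),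
    Module.finrank_fintype_fun_eq_card, Nat.card_eq_fintype_card]

end Cfsg.Agent.S0668
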