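import Cfsg.Statements.S0850
import Cfsg.Agent.H38.TIFN
-- import your own Cfsg.Agent.* helpers here

set_option autoImplicit false
open Cfsg

namespace Cfsg.Agent.S0850

/-- Let K be a subgroup of the finite group G that meets each conjugate by an element outside its normalizer N trivially, is properly contained in N, and contains the centralizer of each of its non-identity elements (a T.I. subgroup with Frobenius normalizer). Then no element of N outside K is conjugate in G to an element of K, and for every class function ϑ of N that vanishes on N away from K and at the identity, the function induced from ϑ to G agrees with ϑ on all of N. -/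
theorem result {G : Type*} [Group G] [Fintype G] (K : Subgroup G) (hTI : ∀ g : G, g ∉ Subgroup.normalizer (K : Set G) → ∀ k ∈ K, g * k * g⁻¹ ∈ K → k = 1) (hlt : K < Subgroup.normalizer (K : Set G)) (hC : ∀ k ∈ K, k ≠ 1 → Subgroup.centralizer ({k} : Set G) ≤ K) : (∀ x ∈ Subgroup.normalizer (K : Set G), x ∉ K → ∀ g : G, g * x * g⁻¹ ∉ K) ∧ ∀ (ϑ : Subgroup.normalizer (K : Set G) → ℂ), Cfsg.IsClassFunction (Subgroup.normalizer (K : Set G)) ϑ → (∀ x : Subgroup.normalizer (K : Set G), (x : G) ∉ K → ϑ x = 0) → ϑ 1 = 0 → ∀ x : Subgroup.normalizer (K : Set G), Cfsg.indFun (Subgroup.normalizer (K : Set G)) ϑ x = ϑ x := by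
  refine ⟨fun x hx hxK g => H38.conj_not_mem_of_centralizer_le K hC x hx hxK g, ?_⟩
  intro ϑ hcl hsupp h1 x
  classical
  have hterm : ∀ g : G, Cfsg.extendByZero (Subgroup.normalizer (K : Set G)) ϑ (g⁻¹ * (x : G) * g) = if g ∈ (Subgroup.normalizer (K : Set G)) then ϑ x else 0 := by
    intro g
    split_ifs with hg
    · have hmem : g⁻¹ * (x : G) * g ∈ (Subgroup.normalizer (K : Set G)) := Subgroup.mul_mem _ (Subgroup.mul_mem _ (Subgroup.inv_mem _ hg) x.2) hg
      rw [H38.extendByZero_of_mem (Subgroup.normalizer (K : Set G)) ϑ hmem, ← hcl x (⟨g, hg⟩ : (Subgroup.normalizer (K : Set G)))⁻¹]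
      congr 1
      apply Subtype.ext
      simp
    · by_cases hmem : g⁻¹ * (x : G) * g ∈ (Subgroup.normalizer (K : Set G))
      · rw [H38.extendByZero_of_mem (Subgroup.normalizer (K : Set G)) ϑ hmem]
        by_contra hne
        have hyK : g⁻¹ * (x : G) * g ∈ K := by
          by_contra hh
          exact hne (hsupp _ hh)
        have hxK : (x : G) ∈ K := by
          by_contra hh
          exact H38.conj_not_mem_of_centralizer_le K hC x x.2 hh g⁻¹ (by simpa using hyK)
        have := hTI g⁻¹ (by simpa using hg) x hxK (by simpa using hyK)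
        apply hne
        rw [← h1]
        congr 1
        apply Subtype.ext
        simp [this]
      · rw [H38.extendByZero_of_not_mem (Subgroup.normalizer (K : Set G)) ϑ hmem]
  simp only [Cfsg.indFun, hterm]
  rw [Finset.sum_ite]
  simp only [Finset.sum_const_zero, add_zero, Finset.sum_const, nsmul_eq_mul]
  have hcard : (Finset.univ.filter (fun g => g ∈ (Subgroup.normalizer (K : Set G)))).card = Nat.card (Subgroup.normalizer (K : Set G)) := by
    rw [Nat.card_eq_fintype_card, Fintype.card_subtype]
  rw [hcard, ← mul_assoc, inv_mul_cancel₀ (Nat.cast_ne_zero.mpr Nat.card_pos.ne'), one_mul]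

end Cfsg.Agent.S0850
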