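import Cfsg.Statements.S4701
import Cfsg.Agent.H31.FewSylow.Perfect
-- import your own Cfsg.Agent.* helpers here

set_option autoImplicit false
open Cfsg

namespace Cfsg.Agent.S4701

/-- Let G be a finite perfect group and p a prime dividing the order of G with p^3 larger than the order of G. Suppose a Sylow p-subgroup of G is not normal and G has no normal subgroup of order 2. Then p > 3 and G is isomorphic to PSL(2, p), or to SL(2, 2^m) with p = 2^m + 1. -/
theorem result {G : Type*} [Group G] [Finite G] (hperf : commutator G = ⊤) (p : ℕ) [Fact p.Prime] (hdvd : p ∣ Nat.card G) (hbig : Nat.card G < p ^ 3) (P : Sylow p G) (hP : ¬ (P : Subgroup G).Normal) (h2 : ∀ N : Subgroup G, N.Normal → Nat.card N ≠ 2) : (∃ (F : Type) (_ : Field F) (_ : Fintype F), Fintype.card F = p ∧ 3 < p ∧ Nonempty (G ≃* Matrix.ProjectiveSpecialLinearGroup (Fin 2) F)) ∨ (∃ (m : ℕ) (F : Type) (_ : Field F) (_ : Fintype F), Fintype.card F = 2 ^ m ∧ p = 2 ^ m + 1 ∧ 3 < p ∧ Nonempty (G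 ≃* Matrix.SpecialLinearGroup (Fin 2) F)) := by
  classical
  let _ : Fintype G := Fintype.ofFinite G
  obtain ⟨z, M, hz, hM, hpM, hsq, hC, hn⟩ := H31.FewSylow.prepare hperf hdvd hbig P hP
  have hp := (Fact.out : p.Prime)
  have hG : Nat.card G = Nat.card (G ⧸ M) * Nat.card M :=
    Subgroup.card_eq_card_quotient_mul_card_subgroup M
  rw [hG] at hbig
  have hM0 : 0 < Nat.card M := Nat.card_pos
  have hsmall : Nat.card M ≤ 2 → M = ⊥ := fun h => by
    rcases Nat.lt_or_ge (Nat.card M) 2 with h1 | h1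
    · exact Subgroup.eq_bot_of_card_le M (by omega)
    · exact absurd (le_antisymm h h1) (h2 M hM)
  rcases H31.FewSylow.conclusion_mod hperf hz hpM hsq hC hn with
    ⟨F, _, _, hF, h3, ⟨φ⟩⟩ | ⟨m, F, _, _, hF, hpm, h3, ⟨φ⟩⟩
  · left
    have hMbot : M = ⊥ := by
      refine hsmall ?_
      obtain ⟨c, hc, -, hcard⟩ := H31.FewSylow.psl_bound (F := F) hF
      rw [← Nat.card_congr φ.toEquiv] at hcard
      by_contra hlt
      have hM3 : 3 ≤ Nat.card M := by omega
      have h4 : p * (p ^ 2 - 1) ≤ 2 * Nat.card (G ⧸ M) :=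
        hcard ▸ Nat.mul_le_mul_right _ (by omega)
      obtain ⟨r, hr⟩ : ∃ r, p ^ 2 = r + 1 :=
        ⟨p ^ 2 - 1, (Nat.sub_add_cancel (Nat.pow_pos hp.pos)).symm⟩
      rw [hr, Nat.add_sub_cancel] at h4
      have h5 : Nat.card (G ⧸ M) * 3 ≤ Nat.card (G ⧸ M) * Nat.card M :=
        Nat.mul_le_mul_left _ hM3
      have h6 : 5 ≤ r := by
        have : 3 * 2 ≤ p ^ 2 := by nlinarith
        omega
      rw [show p ^ 3 = p * p ^ 2 by ring, hr] at hbig
      nlinarith
    subst hMbot
    exact ⟨F, inferInstance, inferInstance, hF, h3, ⟨QuotientGroup.quotientBot.symm.trans φ⟩⟩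
  · right
    obtain ⟨c, -, hgcd, hcard⟩ := H31.FewSylow.psl_bound (F := F) hF
    have hm : m ≠ 0 := fun h => by rw [h, pow_zero] at hpm; omega
    have hc1 : c = 1 := by
      have hdvd' : c ∣ 2 ^ m - 1 := hgcd ▸ Nat.gcd_dvd_right _ _
      have hc2 : c ∣ 2 := hgcd ▸ Nat.gcd_dvd_left _ _
      rcases (Nat.dvd_prime Nat.prime_two).1 hc2 with h | h
      · exact h
      · subst h
        have : 2 ∣ 2 ^ m := dvd_pow_self 2 hm
        have : 1 ≤ 2 ^ m := Nat.one_le_two_pow
        omega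
    subst hc1
    rw [one_mul] at hcard
    have hMbot : M = ⊥ := by
      refine hsmall ?_
      rw [← Nat.card_congr φ.toEquiv] at hcard
      by_contra hlt
      have hM3 : 3 ≤ Nat.card M := by omega
      have h5 : Nat.card (G ⧸ M) * 3 ≤ Nat.card (G ⧸ M) * Nat.card M :=
        Nat.mul_le_mul_left _ hM3
      obtain ⟨r, hr⟩ : ∃ r, (2 ^ m) ^ 2 = r + 1 :=
        ⟨(2 ^ m) ^ 2 - 1, (Nat.sub_add_cancel (Nat.pow_pos (Nat.pow_pos two_pos))).symm⟩
      rw [hr, Nat.add_sub_cancel] at hcard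
      rw [hpm] at hbig
      have h6 : 4 ≤ 2 ^ m := by
        have h7 : 2 ∣ 2 ^ m := dvd_pow_self 2 hm
        omega
      nlinarith
    subst hMbot
    have hcen : Subgroup.center (Matrix.SpecialLinearGroup (Fin 2) F) = ⊥ := by
      refine Subgroup.eq_bot_of_card_eq _ ?_
      rw [H1.card_center_SL, Fintype.card_fin, H1.natCard_units hF]
      exact hgcd
    let ψ : Matrix.ProjectiveSpecialLinearGroup (Fin 2) F ≃* Matrix.SpecialLinearGroup (Fin 2) F :=
      (QuotientGroup.quotientMulEquivOfEq hcen).trans QuotientGroup.quotientBot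
    exact ⟨m, F, inferInstance, inferInstance, hF, hpm, h3,
      ⟨(QuotientGroup.quotientBot.symm.trans φ).trans ψ⟩⟩

end Cfsg.Agent.S4701
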