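import Cfsg.Statements.S2040
import Cfsg.Agent.H12.CentralExt.J2
import Cfsg.Agent.H82.Mult

set_option autoImplicit false
open Cfsg

namespace Cfsg.Agent.S2040

/-- The Schur multiplier of the Hall–Janko group J₂ (the icosian reflection group modulo its centre) is cyclic of order 2; here the Schur multiplier is described through stem extensions, as in the definitions: surjective homomorphisms onto the group from a finite group, whose kernel is central in that finite group and contained in that finite group's commutator subgroup. -/
theorem result : Cfsg.HasCyclicSchurMultiplier Cfsg.Spor.J2 2 := by
  exact H82.HasSchurMultiplier.of_mulEquiv H12.CExt.J2.multiplier H15.J2.j2Equiv.symm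

end Cfsg.Agent.S2040
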