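import Cfsg.Statements.S0806
import Cfsg.Agent.H6.Applications

set_option autoImplicit false
open Cfsg

namespace Cfsg.Agent.S0806

open Cfsg.Agent.H6 Matrix MatrixGroups

/-- Order bound for a proper subgroup. -/
lemma card_mul_le {F : Type*} [Field F] [Fintype F] {q : ℕ} (hF : Fintype.card F = q)
    (hq : q ∉ ({2, 3, 5, 7, 9, 11} : Finset ℕ)) {H : Subgroup PSL(2, F)} (hne : H ≠ ⊤) :
    Nat.card H * Nat.gcd 2 (q - 1) ≤ q * (q - 1) := by
  classical
  simp only [Finset.mem_insert, Finset.mem_singleton, not_or] at hq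
  obtain ⟨p, hpc⟩ := CharP.exists F
  have := Fact.mk (CharP.char_is_prime F p)
  obtain ⟨n, hp, hn⟩ := FiniteField.card F p
  rw [hF] at hn
  have hpq : p ∣ q := hn ▸ dvd_pow_self p n.ne_zero
  have hq2 : 2 ≤ q := hF ▸ Fintype.one_lt_card
  have hd : (Nat.gcd 2 (q - 1) = 1 ∧ q % 2 = 0) ∨ (Nat.gcd 2 (q - 1) = 2 ∧ q % 2 = 1) := by
    rcases Nat.mod_two_eq_zero_or_one q with h | h
    · exact Or.inl ⟨(Nat.prime_two.coprime_iff_not_dvd).2 (by omega), h⟩
    · exact Or.inr ⟨Nat.gcd_eq_left (by omega), h⟩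
  have hp_odd : p ≠ 2 → q % 2 = 1 := fun h => by
    rw [hn]; exact Nat.odd_iff.1 (hp.odd_of_ne_two h).pow
  have hq13 : q % 2 = 1 → 13 ≤ q := fun h => by omega
  obtain ⟨c, hc⟩ := exists_outcome p H
  rw [← card_cj c H]
  cases hc with
  | triv h =>
    rw [h, one_mul]
    exact (Nat.gcd_le_left _ two_pos).trans (by nlinarith [(by omega : 1 ≤ q - 1)])
  | dih h =>
    obtain ⟨g, ht, hle⟩ := h
    have h1 := Nat.mul_le_mul_right (Nat.gcd 2 (q - 1)) (Subgroup.card_le_of_le hle)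
    rw [card_torDih ht, mul_assoc, card_tor_mul hF g] at h1
    refine h1.trans ?_
    have h2 : 4 ≤ q := by omega
    have h3 : 3 * q ≤ q * (q - 1) := by
      rw [mul_comm 3]; exact Nat.mul_le_mul_left q (by omega)
    rcases card_cent_ss ht with ⟨-, e⟩ | ⟨-, e⟩ <;> rw [e, hF] <;> omega
  | bor h =>
    obtain ⟨d, hd'⟩ := h
    rw [← card_cj d]
    exact (Nat.mul_le_mul_right _ (Subgroup.card_le_of_le hd')).trans (card_borel_mul hF).le
  | a4 h _ =>
    rw [h]
    rcases hd with ⟨e, h'⟩ | ⟨e, h'⟩ <;> rw [e]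
    · have : 4 * 3 ≤ q * (q - 1) := Nat.mul_le_mul (by omega) (by omega)
      omega
    · have := hq13 h'
      have : 13 * 12 ≤ q * (q - 1) := Nat.mul_le_mul this (by omega)
      omega
  | s4 h _ hnd =>
    rw [h] at hnd ⊢
    have := hq13 (hp_odd (fun e => hnd (by rw [e]; norm_num)))
    have : 13 * 12 ≤ q * (q - 1) := Nat.mul_le_mul this (by omega)
    rcases hd with ⟨e, -⟩ | ⟨e, -⟩ <;> rw [e] <;> omega
  | a5 h _ h3 =>
    rw [h] at h3 ⊢
    have := hq13 (hp_odd (fun e => by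
      have := h3 (by rw [e]; norm_num)
      omega))
    have : 13 * 12 ≤ q * (q - 1) := Nat.mul_le_mul this (by omega)
    rcases hd with ⟨e, -⟩ | ⟨e, -⟩ <;> rw [e] <;> omega
  | gen h =>
    obtain ⟨r, k, hG⟩ := h
    obtain ⟨K, hKr, -, -⟩ := gen_structure hG
    obtain ⟨-, -, -, hk1, hkr, hcard, -, -⟩ := hG
    have := Fintype.ofFinite K
    have hrm : r ^ Module.finrank K F = q := by
      rw [← hKr, Nat.card_eq_fintype_card, ← Module.card_eq_pow_finrank, hF]
    set m := Module.finrank K F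
    have hm0 : m ≠ 0 := fun e => by rw [e, pow_zero] at hrm; omega
    by_cases hm1 : m = 1
    · rw [hm1, pow_one] at hrm
      subst hrm
      exfalso
      apply hne
      refine Subgroup.eq_top_of_le_card _ ?_
      rw [← card_cj c H, hcard]
      have hpsl := card_psl2_mul (F := F) hF
      rw [show r ^ 2 - 1 = (r + 1) * (r - 1) by rw [← Nat.sq_sub_sq, one_pow]] at hpsl
      rcases hd with ⟨e, h'⟩ | ⟨e, h'⟩ <;> rw [e] at hpsl
      · rw [show r - 1 = k by omega] at hpsl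
        nlinarith [hpsl]
      · have := Nat.mul_le_mul_left (r * (r + 1)) (show r - 1 ≤ 2 * k by omega)
        nlinarith [hpsl]
    · have hr3 : 3 ≤ r := by omega
      have hr2q : r ^ 2 ≤ q := hrm ▸ Nat.pow_le_pow_right (by omega) (by omega)
      rw [hcard]
      have h1 : (r + 1) * (r * k) * Nat.gcd 2 (q - 1) ≤ (r + 1) * (r * r) * 2 :=
        Nat.mul_le_mul (Nat.mul_le_mul_left _ (Nat.mul_le_mul_left _ (by omega)))
          (Nat.gcd_le_left _ two_pos)
      refine h1.trans ?_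
      have h2 : (r * r) * ((r * r) - 1) ≤ q * (q - 1) := by
        rw [sq] at hr2q
        exact Nat.mul_le_mul hr2q (by omega)
      refine le_trans ?_ h2
      have h3 : 2 * (r + 1) ≤ r * r - 1 := by
        have : 3 * r ≤ r * r := Nat.mul_le_mul_right r hr3
        omega
      calc (r + 1) * (r * r) * 2 = (r * r) * (2 * (r + 1)) := by ring
        _ ≤ (r * r) * (r * r - 1) := Nat.mul_le_mul_left _ h3

/-- Minimal index (Galois): if q ∉ {2, 3, 5, 7, 9, 11} then every proper subgroup of PSL_2(q) has index ≥ q + 1, and some subgroup has index exactly q + 1. -/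
theorem result {F : Type*} [Field F] [Fintype F] {q : ℕ} (hF : Fintype.card F = q) (hq : q ∉ ({2, 3, 5, 7, 9, 11} : Finset ℕ)) : (∀ H : Subgroup (Matrix.ProjectiveSpecialLinearGroup (Fin 2) F), H ≠ ⊤ → q + 1 ≤ H.index) ∧ ∃ H : Subgroup (Matrix.ProjectiveSpecialLinearGroup (Fin 2) F), H.index = q + 1 := by
  refine ⟨fun H hH => ?_, borel F, index_borel hF⟩
  have h1 := card_mul_le hF hq hH
  have h2 := H.card_mul_index
  have h3 := card_psl2_mul (F := F) hF
  rw [← h2, show q ^ 2 - 1 = (q + 1) * (q - 1) by rw [← Nat.sq_sub_sq, one_pow]] at h3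
  refine Nat.le_of_mul_le_mul_left (?_ : Nat.card H * Nat.gcd 2 (q - 1) * (q + 1) ≤
    Nat.card H * Nat.gcd 2 (q - 1) * H.index)
    (Nat.mul_pos (Nat.card_pos (α := H)) (Nat.gcd_pos_of_pos_left _ two_pos))
  calc Nat.card H * Nat.gcd 2 (q - 1) * (q + 1) ≤ q * (q - 1) * (q + 1) :=
        Nat.mul_le_mul_right _ h1
    _ = _ := by rw [mul_right_comm (Nat.card H), h3]; ring

end Cfsg.Agent.S0806
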