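import Cfsg.Statements.S0683
import Mathlib
import Cfsg.Agent.H36.Regular
-- import your own Cfsg.Agent.* helpers here

set_option autoImplicit false
open Cfsg

namespace Cfsg.Agent.S0683

/-- A finite sharply doubly transitive permutation group is the affine group of a near-field: the permuted set carries a near-field structure for which the group consists exactly of the maps `x ↦ x * a + b` with `a ≠ 0`. -/
theorem result {α : Type*} [Fintype α] [DecidableEq α] (H : Subgroup (Equiv.Perm α)) [MulAction.IsMultiplyPretransitive H α 2] (hsharp : ∀ x : Fin 2 ↪ α, MulAction.stabilizer H x = ⊥) (h2 : 2 ≤ Fintype.card α) : ∃ _ : Cfsg.NearField α, ∀ σ : Equiv.Perm α, σ ∈ H ↔ ∃ a b : α, a ≠ 0 ∧ ∀ x : α, σ x = x * a + b := by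
  classical
  have hs : ∀ (g : H) (a b : α), a ≠ b → g • a = a → g • b = b → g = 1 := by
    intro g a b hab ha hb
    let e : Fin 2 ↪ α := ⟨![a, b], fun i j => by fin_cases i <;> fin_cases j <;> simp [hab, hab.symm]⟩
    have hm : g ∈ MulAction.stabilizer H e :=
      Function.Embedding.ext fun i => show g • e i = e i by fin_cases i <;> assumption
    rwa [hsharp, Subgroup.mem_bot] at hm
  obtain ⟨K, hK, hKt, hKreg, hcomm, -, -⟩ := Cfsg.Agent.H36.exists_regular_subgroup_of_sharp
    (G := H) (X := α) inferInstance hs (by rwa [Nat.card_eq_fintype_card])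
  haveI := hKt
  obtain ⟨a₀, a₁, h01⟩ := Fintype.exists_pair_of_one_lt_card (by omega : 1 < Fintype.card α)
  have hKn : ∀ (g : H) (k : K), g * (k : H) * g⁻¹ ∈ K := fun g k => (hK _).2 (by
    rcases (hK k).1 k.2 with h | h
    · left; rw [h, mul_one, mul_inv_cancel]
    · refine Or.inr fun x hx => h (g⁻¹ • x) ?_
      rw [mul_smul, mul_smul] at hx
      exact eq_inv_smul_iff.2 hx)
  choose ν hν using fun x : α => MulAction.exists_smul_eq K a₀ x
  have hνu : ∀ (x : α) (k : K), k • a₀ = x → ν x = k := fun x k h =>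
    Cfsg.Agent.H36.regular_injective (hKreg a₀) ((hν x).trans h.symm)
  have hex : ∀ x : α, ∃ g : H, g • a₀ = a₀ ∧ (x ≠ a₀ → g • a₁ = x) := by
    intro x
    by_cases hx : x = a₀
    · exact ⟨1, one_smul _ _, fun h => absurd hx h⟩
    · obtain ⟨g, g0, g1⟩ := MulAction.is_two_pretransitive_iff.1
        (inferInstance : MulAction.IsMultiplyPretransitive H α 2) h01 (Ne.symm hx)
      exact ⟨g, g0, fun _ => g1⟩
  choose μ hμ0 hμ1 using hex
  have hμu : ∀ (x : α) (g : H), x ≠ a₀ → g • a₀ = a₀ → g • a₁ = x → μ x = g := by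
    intro x g hx g0 g1
    refine (inv_mul_eq_one.1 (hs _ a₀ a₁ h01 ?_ ?_)).symm
    · rw [mul_smul, hμ0, inv_smul_eq_iff, g0]
    · rw [mul_smul, hμ1 x hx, inv_smul_eq_iff, g1]
  let add : α → α → α := fun x y => ν x • y
  let mul : α → α → α := fun x y => if y = a₀ then a₀ else μ y • x
  have hmul : ∀ x y, y ≠ a₀ → mul x y = μ y • x := fun x y hy => if_neg hy
  have hmul0 : ∀ x, mul x a₀ = a₀ := fun x => if_pos rfl
  have h0mul : ∀ y, mul a₀ y = a₀ := fun y => by
    by_cases hy : y = a₀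
    · exact if_pos hy
    · rw [hmul _ _ hy, hμ0]
  have hmulne : ∀ x y, x ≠ a₀ → y ≠ a₀ → mul x y ≠ a₀ := fun x y hx hy h => by
    rw [hmul _ _ hy] at h
    exact hx (MulAction.injective (μ y) (h.trans (hμ0 y).symm))
  have hadd0 : ∀ x, add x a₀ = x := hν
  have hadd_comm : ∀ x y, add x y = add y x := fun x y => by
    change ν x • y = ν y • x
    conv_lhs => rw [← hν y]
    conv_rhs => rw [← hν x]
    rw [← mul_smul, ← mul_smul]
    congr 1
    exact Subtype.ext (hcomm _ (ν x).2 _ (ν y).2)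
  have hdistrib : ∀ x y z, mul (add x y) z = add (mul x z) (mul y z) := by
    intro x y z
    by_cases hz : z = a₀
    · subst hz; rw [hmul0, hmul0, hmul0, hadd0]
    · rw [hmul _ _ hz, hmul _ _ hz, hmul _ _ hz]
      change μ z • ν x • y = ν (μ z • x) • μ z • y
      rw [hνu (μ z • x) ⟨μ z * (ν x : H) * (μ z)⁻¹, hKn _ _⟩ ?_]
      · change μ z • (ν x : H) • y = (μ z * (ν x : H) * (μ z)⁻¹) • μ z • y
        rw [mul_smul, mul_smul, inv_smul_smul]
      · change (μ z * (ν x : H) * (μ z)⁻¹) • a₀ = μ z • x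
        rw [mul_smul, mul_smul, inv_smul_eq_iff.2 (hμ0 z).symm]
        exact congrArg _ (hν x)
  let inst : Cfsg.NearField α :=
    { add := add
      add_assoc := fun x y z => by
        change ν (ν x • y) • z = ν x • ν y • z
        rw [hνu (ν x • y) (ν x * ν y) (by rw [mul_smul, hν]), mul_smul]
      zero := a₀
      zero_add := fun x => by
        change ν a₀ • x = x
        rw [hνu a₀ 1 (one_smul _ _), one_smul]
      add_zero := hadd0
      neg := fun x => (ν x)⁻¹ • a₀
      neg_add_cancel := fun x => by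
        change ν ((ν x)⁻¹ • a₀) • x = a₀
        rw [hνu _ (ν x)⁻¹ rfl, inv_smul_eq_iff, hν]
      nsmul := @nsmulRec α ⟨a₀⟩ ⟨add⟩
      zsmul := @zsmulRec α ⟨a₀⟩ ⟨add⟩ ⟨fun x => (ν x)⁻¹ • a₀⟩ (@nsmulRec α ⟨a₀⟩ ⟨add⟩)
      mul := mul
      one := a₁
      one_mul := fun x => by
        change mul a₁ x = x
        by_cases hx : x = a₀
        · subst hx; exact hmul0 _
        · rw [hmul _ _ hx, hμ1 x hx]
      mul_one := fun x => by
        change mul x a₁ = x
        rw [hmul _ _ h01.symm, hμu a₁ 1 h01.symm (one_smul _ _) (one_smul _ _), one_smul]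
      mul_assoc := fun x y z => by
        change mul (mul x y) z = mul x (mul y z)
        by_cases hz : z = a₀
        · subst hz; rw [hmul0, hmul0, hmul0]
        by_cases hy : y = a₀
        · subst hy; rw [hmul0, h0mul, hmul0]
        · rw [hmul _ _ hz, hmul _ _ hy, hmul x (mul y z) (hmulne y z hy hz)]
          rw [hμu (mul y z) (μ z * μ y) (hmulne y z hy hz) (by rw [mul_smul, hμ0, hμ0])
            (by rw [mul_smul, hμ1 y hy, hmul _ _ hz]), mul_smul]
      right_distrib := hdistrib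
      mul_zero := hmul0
      zero_ne_one := h01
      exists_inv := fun x hx => by
        have hinv : (μ x)⁻¹ • a₁ ≠ a₀ := fun h => by
          rw [inv_smul_eq_iff, hμ0] at h
          exact h01 h.symm
        refine ⟨(μ x)⁻¹ • a₁, ?_, ?_⟩
        · change mul x ((μ x)⁻¹ • a₁) = a₁
          rw [hmul _ _ hinv, hμu _ (μ x)⁻¹ hinv (inv_smul_eq_iff.2 (hμ0 x).symm) rfl,
            inv_smul_eq_iff, hμ1 x hx]
        · change mul ((μ x)⁻¹ • a₁) x = a₁
          rw [hmul _ _ hx, smul_inv_smul] }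
  refine ⟨inst, fun σ => ⟨fun hσ => ?_, ?_⟩⟩
  · set g : H := ⟨σ, hσ⟩
    set h : H := ((ν (g • a₀) : K) : H)⁻¹ * g with hh
    have h0 : h • a₀ = a₀ := by
      rw [hh, mul_smul, inv_smul_eq_iff]
      exact (hν (g • a₀)).symm
    have hne : h • a₁ ≠ a₀ := fun hc => h01 (MulAction.injective h (hc.trans h0.symm)).symm
    refine ⟨h • a₁, g • a₀, hne, fun x => ?_⟩
    change σ x = add (mul x (h • a₁)) (g • a₀)
    rw [hadd_comm, hmul _ _ hne, hμu _ h hne h0 rfl]
    change g • x = ((ν (g • a₀) : K) : H) • h • x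
    rw [hh, mul_smul, smul_inv_smul]
  · rintro ⟨a, b, ha, hσ⟩
    have h1 : σ = (((ν b : K) : H) : Equiv.Perm α) * ((μ a : H) : Equiv.Perm α) := Equiv.ext fun x => by
      rw [hσ]
      change add (mul x a) b = _
      rw [hadd_comm, hmul _ _ ha]
      rfl
    rw [h1]
    exact H.mul_mem ((ν b : K) : H).2 (μ a).2

end Cfsg.Agent.S0683
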