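import Cfsg.Statements.S0914
import Cfsg.Agent.H40.BlockDefect

set_option autoImplicit false
open Cfsg

namespace Cfsg.Agent.S0914

/-- Let χ be an irreducible character of the finite group G, p a prime and M a maximal ideal of the algebraic integers containing p. Then p does not divide the integer (Nat.card G) / χ(1) if and only if the block of χ relative to M consists of χ alone. -/
theorem result {G : Type*} [Group G] [Finite G] (p : ℕ) [Fact p.Prime] (M : Ideal Cfsg.AlgInt) (hM : Cfsg.IsPModular p M) (χ : Cfsg.IrrCharacter G) : ¬ p ∣ Nat.card G / Cfsg.charDegree (χ : G → ℂ) ↔ Cfsg.blockOf M (χ : G → ℂ) = {χ} := by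
  haveI := hM.2.1
  have hp : p.Prime := Fact.out
  have hdvd : Cfsg.charDegree (χ : G → ℂ) ∣ Nat.card G := by
    obtain ⟨n, ρ, hirr, hρ⟩ := χ.2
    haveI := hirr
    rw [Cfsg.Agent.H42.charDegree_of_eq_nat (χ := (χ : G → ℂ)) (by rw [← hρ, ρ.char_one]),
      Module.finrank_fin_fun]
    have h2 := Cfsg.Agent.H25.finrank_dvd_card ρ
    rwa [Module.finrank_fin_fun] at h2
  have hd0 : 0 < Nat.card G / Cfsg.charDegree (χ : G → ℂ) :=
    Nat.div_pos (Nat.le_of_dvd Nat.card_pos hdvd) (Cfsg.Agent.H42.charDegree_pos χ)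
  rw [hp.dvd_iff_one_le_factorization hd0.ne', Nat.factorization_div hdvd, Finsupp.tsub_apply]
  constructor
  · intro h
    exact Cfsg.Agent.H40.blockOf_eq_singleton hM χ (by omega)
  · intro h
    rw [Cfsg.Agent.H40.factorization_eq_of_singleton hM χ h]
    omega

end Cfsg.Agent.S0914
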