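import Cfsg.Statements.S0669
import Mathlib
-- import your own Cfsg.Agent.* helpers here

set_option autoImplicit false
open Cfsg

namespace Cfsg.Agent.S0669

/-- The rank of a transitive action: orbits on ordered pairs correspond to orbits of a point stabiliser. -/
theorem result {G : Type*} [Group G] {Ω : Type*} [Finite Ω] [MulAction G Ω] [MulAction.IsPretransitive G Ω] (a : Ω) : Nat.card (MulAction.orbitRel.Quotient G (Ω × Ω)) = Nat.card (MulAction.orbitRel.Quotient (MulAction.stabilizer G a) Ω) := by
  classical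
  choose k hk using fun x : Ω => MulAction.exists_smul_eq G x a
  let f : MulAction.orbitRel.Quotient (MulAction.stabilizer G a) Ω →
      MulAction.orbitRel.Quotient G (Ω × Ω) :=
    Quotient.map' (fun y => (a, y)) (fun y y' h => by
      obtain ⟨g, rfl⟩ := h
      exact ⟨(g : G), Prod.ext g.2 rfl⟩)
  refine (Nat.card_congr (Equiv.ofBijective f ⟨?_, ?_⟩)).symm
  · intro u v
    refine Quotient.inductionOn₂ u v fun y y' h => ?_
    obtain ⟨g, hg⟩ := Quotient.exact h
    refine Quotient.sound ⟨⟨g, (congrArg Prod.fst hg :)⟩, (congrArg Prod.snd hg :)⟩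
  · intro u
    refine Quotient.inductionOn u fun xy => ⟨Quotient.mk _ (k xy.1 • xy.2), ?_⟩
    exact Quotient.sound ⟨k xy.1, Prod.ext (hk xy.1) rfl⟩

end Cfsg.Agent.S0669
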