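import Cfsg.Statements.S0302
import Cfsg.Agent.H5.Exterior
import Cfsg.Agent.H1.PSLSimple

set_option autoImplicit false
open Cfsg

namespace Cfsg.Agent.S0302

/-- PΩ^+_6(q) is isomorphic to PSL_4(q). -/
theorem result {F : Type*} [Field F] [Fintype F] : Nonempty (Cfsg.POmega F (Cfsg.quadFormPlus 3 F) ≃* Matrix.ProjectiveSpecialLinearGroup (Fin 4) F) := by
  haveI : Finite (Fin 3 ⊕ Fin 3 → F) := Pi.finite
  have hn : Module.finrank F (Fin 3 ⊕ Fin 3 → F) = 6 := by simp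
  obtain ⟨e⟩ := H5.nonempty_omega_quot_equiv_of_simple H5.pfQ_nondegenerate (by omega)
    (Or.inr (by omega)) (H1.commutator_SL_eq_top (ι := Fin 4) (F := F) (Or.inl (by simp)))
    (H1.isSimpleGroup_PSL_of_three_le 4 (by norm_num)) (H5.wedgeHom F) H5.hypPair_pfQ
    (fun v hv => ⟨_, H5.wedgeHom_rootSL hv⟩)
    ⟨H5.swapSL F, 1, one_ne_zero, by rw [H5.wedgeHom_swapSL, one_smul]⟩
  obtain ⟨e'⟩ := H5.nonempty_commutator_quot_congr
    (H5.orthCongr (H5.pfSign F) (H5.qPlus_pfSign (F := F)))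
  exact ⟨((H5.pomegaEquiv (H5.qPlus 3 F) (H5.coe_qPlus 3)).trans e'.symm).trans e⟩

end Cfsg.Agent.S0302
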