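import Cfsg.Statements.S0294
import Cfsg.Agent.H4.POmegaOrder

set_option autoImplicit false
open Cfsg

namespace Cfsg.Agent.S0294

/-- gcd(4, q^m + 1) |PΩ^-_{2m}(q)| = q^(m(m-1)) (q^m + 1) prod_{i=1}^{m-1} (q^(2i) - 1), m at least 4 (type ²D_m). -/
theorem result {F : Type*} [Field F] [Fintype F] {q : ℕ} (hF : Fintype.card F = q) (m : ℕ) (hm : 4 ≤ m) (a b : F) (hab : ∀ z₁ z₂ : F, z₁ ^ 2 + a * z₁ * z₂ + b * z₂ ^ 2 = 0 → z₁ = 0 ∧ z₂ = 0) : Nat.gcd 4 (q ^ m + 1) * Nat.card (Cfsg.POmega F (Cfsg.quadFormMinus (m - 1) F a b)) = q ^ (m * (m - 1)) * (q ^ m + 1) * ∏ i ∈ Finset.range (m - 1), (q ^ (2 * (i + 1)) - 1) := by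
  subst hF
  classical
  obtain ⟨k, rfl⟩ : ∃ k, m = k + 1 := ⟨m - 1, by omega⟩
  simp only [Nat.add_sub_cancel]
  have h := H4.card_POmega_eq (H4.qMinus k F a b) (H4.coe_qMinus k a b) (H4.qMinus_nondegenerate' hab k)
    (by simp; omega)
  rw [H4.det_gram_qMinus] at h
  have he : Even (Fintype.card ((Fin k ⊕ Fin k) ⊕ Fin 2)) := by simp [Nat.even_iff]; omega
  simp only [he, true_and] at h
  obtain ⟨g, hg, hg'⟩ : ∃ g : ℕ, Nat.gcd 4 (Fintype.card F ^ (k + 1) + 1) = g ∧
      Nat.card (Cfsg.POmega F (Cfsg.quadFormMinus k F a b)) * (2 * g) =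
        Nat.card (H4.qIsoms (H4.qMinus k F a b)) := by
    refine ⟨_, rfl, Eq.trans ?_ h⟩
    congr 1
    by_cases h2 : (2 : F) = 0
    · rw [if_pos h2]
      haveI := CharTwo.of_one_ne_zero_of_two_eq_zero (R := F) one_ne_zero h2
      have heven := FiniteField.even_card_of_char_two (F := F) (ringChar.eq F 2)
      have : Nat.Coprime 4 (Fintype.card F ^ (k + 1) + 1) := by
        have h0 : (Fintype.card F ^ (k + 1)) % 2 = 0 := by rw [Nat.pow_mod, heven]; simp
        rw [show (4 : ℕ) = 2 ^ 2 from rfl]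
        exact Nat.Coprime.pow_left _ ((Nat.prime_two.coprime_iff_not_dvd).2 (by omega))
      rw [this.gcd_eq_one]
    · rw [if_neg h2]
      have hodd : Odd (Fintype.card F) := Nat.odd_iff.2 (H4.odd_card_of_two_ne_zero h2)
      have hsq : IsSquare ((-1 : F) ^ k * (4 * b - a ^ 2)) ↔
          Fintype.card F % 4 = 3 ∧ Odd (k + 1) := by
        have hd := H4.not_isSquare_disc h2 hab
        have e : (-1 : F) ^ k * (4 * b - a ^ 2) = (-1) ^ (k + 1) * (a ^ 2 - 4 * b) := by
          rw [pow_succ]; ring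
        rw [e]
        constructor
        · intro hs
          by_contra hn
          obtain ⟨r, hr⟩ := (H4.isSquare_neg_one_pow (F := F) (k + 1)).2 hn
          obtain ⟨s, hs⟩ := hs
          apply hd
          have hr0 : r ≠ 0 := fun h0 => pow_ne_zero (k + 1) (neg_ne_zero.2 (one_ne_zero (α := F)))
            (by rw [hr, h0, mul_zero])
          refine ⟨s / r, ?_⟩
          field_simp
          rw [hr] at hs
          linear_combination hs
        · exact fun hs => H4.isSquare_mul_of_not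
            (fun h => (H4.isSquare_neg_one_pow (F := F) (k + 1)).1 h hs) hd
      simp only [hsq]
      have h4 := H4.pow_mod_four hodd (k + 1)
      rw [H4.gcd_four_of_even (by split_ifs at h4 <;> omega)]
      split_ifs at h4 ⊢ <;> omega
  rw [hg]
  change g * Nat.card (Cfsg.POmega F (Cfsg.quadFormMinus k F a b)) = _
  apply Int.natCast_inj.1
  rw [Nat.cast_mul, Nat.cast_mul, H4.cast_prod_sub_one, Nat.cast_mul, Nat.cast_pow]
  have hc := H4.card_qIsoms_qMinus hab (H4.disc_ne_zero hab) k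
  rw [← hg'] at hc
  push_cast at hc ⊢
  linarith

end Cfsg.Agent.S0294
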