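import Cfsg.Statements.S2768
import Cfsg.Agent.H72.RankOneTrichotomy

open scoped commutatorElement

set_option autoImplicit false
open Cfsg

namespace Cfsg.Agent.S2768

/-- Let G be a finite group and p a prime with C_G(O_p(G)) ≤ O_p(G), such that a Sylow p-subgroup S lies in exactly one maximal subgroup of G and G/K ≅ PSL₂(p^n) for some normal K and n ≥ 1. Put J̃(S) = C_S(Z(J(S))), where J(S) is generated by the abelian subgroups of S of largest order. If Z(S) is not normal in G, then J̃(S) is a Sylow p-subgroup of its normal closure ⟨J̃(S)^G⟩. -/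
theorem result {G : Type*} [Group G] [Finite G] {p : ℕ} [Fact p.Prime] (S : Sylow p G) (hE₁ : Subgroup.centralizer (Cfsg.pCore p G : Set G) ≤ Cfsg.pCore p G) (hE₂ : ∃! M : Subgroup G, IsCoatom M ∧ (S : Subgroup G) ≤ M) (K : Subgroup G) [K.Normal] (F : Type) [Field F] [Fintype F] (n : ℕ) (hn : 1 ≤ n) (hF : Fintype.card F = p ^ n) (hE₃ : Nonempty (G ⧸ K ≃* Matrix.ProjectiveSpecialLinearGroup (Fin 2) F)) (hZ : ¬ ((S : Subgroup G) ⊓ Subgroup.centralizer ((S : Subgroup G) : Set G)).Normal) : ∃ P : Sylow p ↥(Subgroup.normalClosure (((S : Subgroup G) ⊓ Subgroup.centralizer (Cfsg.centerThompsonAOf (S : Subgroup G) : Set G)) : Set G)), (P : Subgroup ↥(Subgroup.normalClosure (((S : Subgroup G) ⊓ Subgroup.centralizer (Cfsg.centerThompsonAOf (S : Subgroup G) : Set G)) : Set G))) = (((S : Subgroup G) ⊓ Subgroup.centralizer (Cfsg.centerThompsonAOf (S : Subgroup G) : Set G))).subgroupOf (Subgroup.normalClosure (((S : Subgroup G) ⊓ Subgroup.centralizer (Cfsg.centerThompsonAOf (S : Subgroup G) : Set G)) : Set G)) := by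
    classical
    obtain ⟨e⟩ := hE₃
    have h : Cfsg.Agent.H72.RankOne.Setup S K F n := ⟨hE₁, hE₂, hF, hn, inferInstance,
      e.toMonoidHom.comp (QuotientGroup.mk' K), e.surjective.comp (QuotientGroup.mk'_surjective _),
      by ext x; simp [MonoidHom.mem_ker]⟩
    set ZJ := Cfsg.centerThompsonAOf (S : Subgroup G) with hZJ
    set J' := (S : Subgroup G) ⊓ Subgroup.centralizer (ZJ : Set G) with hJ'
    set L := Subgroup.normalClosure (J' : Set G) with hL
    haveI : L.Normal := Subgroup.normalClosure_normal
    have key : (S : Subgroup G) ⊓ L ≤ Subgroup.centralizer (ZJ : Set G) := by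
      rcases h.trichotomy with hc | hn' | ⟨L₀, hL₀, hLS, hdec⟩
      · exact absurd (Cfsg.Agent.H72.RankOne.normal_of_le_center hc) hZ
      · haveI := hn'
        haveI : (Subgroup.centralizer (ZJ : Set G)).Normal := Subgroup.normal_centralizer
        exact inf_le_right.trans (Subgroup.normalClosure_le_normal (fun x hx => hx.2))
      · haveI := hL₀
        rintro s ⟨hsS, hsL⟩
        rw [Subgroup.mem_centralizer_iff]
        intro z hz
        obtain ⟨w, hwZ, hw, -, hc⟩ := hdec z hz
        have hsw : Commute s w := by
          suffices L ≤ Subgroup.centralizer ({w} : Set G) from Subgroup.mem_centralizer_singleton_iff.1 (this hsL)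
          refine (Subgroup.closure_le _).2 ?_
          intro x hx
          obtain ⟨a, ha, hcj⟩ := Group.mem_conjugatesOfSet_iff.1 hx
          obtain ⟨γ, rfl⟩ := isConj_iff.1 hcj
          obtain ⟨l, hl, t, ht, hγ⟩ := Subgroup.mem_sup_of_normal_left.1 (hLS ▸ Subgroup.mem_top γ : γ ∈ L₀ ⊔ (S : Subgroup G))
          subst hγ
          have hlw : Commute l w := Subgroup.mem_centralizer_iff.1 hw l hl
          have hat : Commute (t * a * t⁻¹) w := by
            have h1 : t⁻¹ * w * t ∈ ZJ := by
              have hn2 : (S : Subgroup G) ≤ Subgroup.normalizer (ZJ : Set G) := fun g hg => by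
                have hg' := Cfsg.Agent.H72.le_normalizer_thompsonSubgroupAOf (S : Subgroup G) hg
                rw [Subgroup.mem_normalizer_iff] at hg' ⊢
                intro y
                have hcc : g * y * g⁻¹ ∈ Subgroup.centralizer (Cfsg.thompsonSubgroupAOf (S : Subgroup G) : Set G) ↔
                    y ∈ Subgroup.centralizer (Cfsg.thompsonSubgroupAOf (S : Subgroup G) : Set G) := by
                  simp only [Subgroup.mem_centralizer_iff]
                  constructor
                  · intro hh b hb
                    have := hh (g * b * g⁻¹) ((hg' b).1 hb)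
                    calc b * y = g⁻¹ * (g * b * g⁻¹ * (g * y * g⁻¹)) * g := by group
                      _ = g⁻¹ * (g * y * g⁻¹ * (g * b * g⁻¹)) * g := by rw [this]
                      _ = y * b := by group
                  · intro hh b hb
                    have hb' : g⁻¹ * b * g ∈ Cfsg.thompsonSubgroupAOf (S : Subgroup G) :=
                      (hg' _).2 (by simpa [mul_assoc] using hb)
                    have := hh _ hb'
                    calc b * (g * y * g⁻¹) = g * (g⁻¹ * b * g * y) * g⁻¹ := by group
                      _ = g * (y * (g⁻¹ * b * g)) * g⁻¹ := by rw [this]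
                      _ = _ := by group
                exact ⟨fun hy => ⟨(hg' y).1 hy.1, hcc.2 hy.2⟩, fun hy => ⟨(hg' y).2 hy.1, hcc.1 hy.2⟩⟩
              exact (Subgroup.mem_normalizer_iff''.1 (hn2 ht) w).1 hwZ
            have h2 := Subgroup.mem_centralizer_iff.1 ha.2 _ h1
            show t * a * t⁻¹ * w = w * (t * a * t⁻¹)
            calc t * a * t⁻¹ * w = t * (a * (t⁻¹ * w * t)) * t⁻¹ := by group
              _ = t * (t⁻¹ * w * t * a) * t⁻¹ := by rw [h2]
              _ = _ := by group
          refine Subgroup.mem_centralizer_singleton_iff.2 ?_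
          show l * t * a * (l * t)⁻¹ * w = w * (l * t * a * (l * t)⁻¹)
          rw [show l * t * a * (l * t)⁻¹ = l * (t * a * t⁻¹) * l⁻¹ by group]
          exact ((hlw.mul_left hat).mul_left hlw.inv_left).eq
        have : z = (z * w⁻¹) * w := by group
        rw [this]
        exact ((hc s hsS).mul_right hsw).eq.symm
    have hJL : J' ≤ L := Subgroup.le_normalClosure
    have hp' : IsPGroup p (J'.subgroupOf L) :=
      (S.2.to_le (inf_le_left : J' ≤ (S : Subgroup G))).comap_of_injective L.subtype L.subtype_injective
    obtain ⟨P, hP⟩ := hp'.exists_le_sylow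
    refine ⟨P, le_antisymm ?_ hP⟩
    -- conjugate the Sylow subgroup above `J'` into `S`
    have hSL : Nat.card ((S : Subgroup G) ⊓ L : Subgroup G) = Nat.card (P : Subgroup L) := by
      have hfr : ∀ T : Subgroup G, T ≤ L → IsPGroup p T → Nat.card T ≤ Nat.card ((S : Subgroup G) ⊓ L : Subgroup G) := by
        intro T hTL hT
        obtain ⟨Q', hQ'⟩ := hT.exists_le_sylow
        obtain ⟨g, hg⟩ := MulAction.exists_smul_eq G S Q'
        have hle : T ≤ ((S : Subgroup G) ⊓ L).map (MulAut.conj g).toMonoidHom := by
          intro x hx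
          have hxQ := hQ' hx
          rw [← hg, Sylow.coe_subgroup_smul] at hxQ
          obtain ⟨s, hs, hsx⟩ := hxQ
          have hsx' : g * s * g⁻¹ = x := hsx
          refine ⟨s, ⟨hs, ?_⟩, hsx'⟩
          have h2 := Subgroup.Normal.conj_mem (inferInstance : L.Normal) x (hTL hx) g⁻¹
          rw [← hsx'] at h2
          simpa [mul_assoc] using h2
        exact (Subgroup.card_le_of_le hle).trans (Subgroup.card_map_of_injective (MulAut.conj g).injective).le
      refine le_antisymm ?_ ?_
      · have hT : IsPGroup p (((S : Subgroup G) ⊓ L).subgroupOf L) :=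
          (S.2.to_le inf_le_left).comap_of_injective L.subtype L.subtype_injective
        obtain ⟨P', hP'⟩ := hT.exists_le_sylow
        calc Nat.card ((S : Subgroup G) ⊓ L : Subgroup G)
            = Nat.card (((S : Subgroup G) ⊓ L).subgroupOf L) := (Nat.card_congr (Subgroup.subgroupOfEquivOfLe inf_le_right).toEquiv).symm
          _ ≤ Nat.card (P' : Subgroup L) := Subgroup.card_le_of_le hP'
          _ = _ := by rw [P'.card_eq_multiplicity, P.card_eq_multiplicity]
      · rw [← Subgroup.card_map_of_injective (K := (P : Subgroup L)) L.subtype_injective]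
        exact hfr _ (Subgroup.map_subtype_le _) (P.2.map _)
    have hJeq : J' = (S : Subgroup G) ⊓ L := le_antisymm (le_inf inf_le_left hJL) (le_inf inf_le_left key)
    refine (Subgroup.eq_of_le_of_card_ge hP ?_).ge
    rw [← hSL, ← hJeq, Nat.card_congr (Subgroup.subgroupOfEquivOfLe hJL).toEquiv]

end Cfsg.Agent.S2768
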