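import Cfsg.Statements.S2765
import Cfsg.Agent.H72.Push.Results

open scoped commutatorElement

set_option autoImplicit false
open Cfsg

namespace Cfsg.Agent.S2765

/-- In the same pushing-up situation (G finite, C_G(O_p(G)) ≤ O_p(G), G/K ≅ PSL₂(p^n) with n ≥ 1, a Sylow p-subgroup S in exactly one maximal subgroup, no nontrivial characteristic subgroup of S normal in G), one of the following holds: (I) S has nilpotency class 2, exponent 4 if p = 2 and exponent p otherwise, and G has exactly one noncentral chief factor inside O_p(G); or (II) p = 3, S has class 3 and exponent 9, and G has exactly two noncentral chief factors inside O_p(G). 'Exactly one' is phrased as: some noncentral chief factor U/W inside O_p(G) with G acting hypercentrally on W and on O_p(G)/U; 'exactly two' analogously with a chain. -/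
theorem result {G : Type*} [Group G] [Finite G] {p : ℕ} [Fact p.Prime] (S : Sylow p G) (hE₁ : Subgroup.centralizer (Cfsg.pCore p G : Set G) ≤ Cfsg.pCore p G) (hE₂ : ∃! M : Subgroup G, IsCoatom M ∧ (S : Subgroup G) ≤ M) (K : Subgroup G) [K.Normal] (F : Type) [Field F] [Fintype F] (n : ℕ) (hn : 1 ≤ n) (hF : Fintype.card F = p ^ n) (hE₃ : Nonempty (G ⧸ K ≃* Matrix.ProjectiveSpecialLinearGroup (Fin 2) F)) (hd : ∀ T : Subgroup ↥(S : Subgroup G), T ≠ ⊥ → T.Characteristic → ¬ (T.map (S : Subgroup G).subtype).Normal) : ((S : Subgroup G).lowerCentralSeries 2 = ⊥ ∧ (S : Subgroup G).lowerCentralSeries 1 ≠ ⊥ ∧ (p = 2 → Monoid.exponent ↥(S : Subgroup G) = 4) ∧ (p ≠ 2 → Monoid.exponent ↥(S : Subgroup G) = p) ∧ (∃ U W : Subgroup G, W ≤ U ∧ U ≤ (Cfsg.pCore p G) ∧ Cfsg.IsChiefFactor U W ∧ ¬ ⁅U, (⊤ : Subgroup G)⁆ ≤ W ∧ (∃ k : ℕ, Cfsg.iterCommutator W ⊤ k = ⊥) ∧ (∃ k : ℕ, Cfsg.iterCommutator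 (Cfsg.pCore p G) ⊤ k ≤ U))) ∨ (p = 3 ∧ (S : Subgroup G).lowerCentralSeries 3 = ⊥ ∧ (S : Subgroup G).lowerCentralSeries 2 ≠ ⊥ ∧ Monoid.exponent ↥(S : Subgroup G) = 9 ∧ (∃ U₁ W₁ U₂ W₂ : Subgroup G, W₁ ≤ U₁ ∧ U₁ ≤ W₂ ∧ W₂ ≤ U₂ ∧ U₂ ≤ (Cfsg.pCore p G) ∧ Cfsg.IsChiefFactor U₁ W₁ ∧ Cfsg.IsChiefFactor U₂ W₂ ∧ ¬ ⁅U₁, (⊤ : Subgroup G)⁆ ≤ W₁ ∧ ¬ ⁅U₂, (⊤ : Subgroup G)⁆ ≤ W₂ ∧ (∃ k : ℕ, Cfsg.iterCommutator W₁ ⊤ k = ⊥) ∧ (∃ k : ℕ, Cfsg.iterCommutator W₂ ⊤ k ≤ U₁) ∧ (∃ k : ℕ, Cfsg.iterCommutator (Cfsg.pCore p G) ⊤ k ≤ U₂))) := by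
    have h := H72.Push.setup_of hE₁ hE₂ hn hF hE₃
    have hnc := H72.Push.NoChar.of_char hd
    obtain ⟨Z, c, ρ, θ, hc, hk, hnat, hcase⟩ := H72.Push.Setup.shape h hnc (MulAction.toPermHom G G)
      H72.Push.toPermHom_injective hnc.perm
    rcases hcase with ⟨Y, hY, -⟩ | ⟨U, Yh, U1, U2, Y, ρ', θ', ht⟩
    · exact Or.inl (hY.first_case h hnc hc hk hnat)
    · exact Or.inr (ht.second_case h hnc hnat)

end Cfsg.Agent.S2765
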