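import Cfsg.Statements.S2945
import Cfsg.Agent.H74.JSubnormal

set_option autoImplicit false
open Cfsg

namespace Cfsg.Agent.S2945

/-- Let G be a finite group of characteristic 2 type in which every 2-local subgroup is solvable and the centralizer of Ω₁(Z(S)) lies in N_G(S) for every Sylow 2-subgroup S, and let T be a nontrivial 2-subgroup (below, J is the Thompson subgroup generated by the elementary abelian 2-subgroups of largest order), L a subgroup in which T is a Sylow 2-subgroup with J(T) not contained in O₂(L) and C_G(O₂(L)) ≤ O₂(L), and K ≤ L a subgroup that is subnormal in ⟨K, J(T)⟩. If for some conjugate Tᵍ of T, K is a J(Tᵍ)-component with J(Tᵍ) the Thompson subgroup of every Sylow 2-subgroup of N_G(W_K) containing J(Tᵍ) (W_K = [Ω₁(Z(O₂(K))), K]), then K is a J(T)-component. -/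
theorem result {G : Type*} [Group G] [Finite G] (hL : Cfsg.IsCharacteristicTwoType G) (hN : ∀ N : Subgroup G, Cfsg.IsTwoLocal N → Group.IsSolvable ↥N)
    (hZ : ∀ S : Sylow 2 G, Subgroup.centralizer (Cfsg.omegaCenterOf (S : Subgroup G) : Set G) ≤ Subgroup.normalizer ((S : Subgroup G) : Set G)) (T : Subgroup G) (hT : IsPGroup 2 ↥T) (hT1 : T ≠ ⊥) (L : Subgroup G) (hLT : L ∈ Cfsg.jOvergroups T)
    (K : Subgroup G) (hKL : K ≤ L) (hKsn : (K.subgroupOf (K ⊔ Cfsg.thompsonSubgroupOf 2 T)).IsSubnormal)
    (g : G) (hKg : K ∈ Cfsg.jComponentsZero (T.map (MulAut.conj g).toMonoidHom)) : Cfsg.IsJComponent T K := by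
  haveI : Fact (Nat.Prime 2) := ⟨Nat.prime_two⟩
  have hZN : H74.JB.ZN G := ⟨hL, hN, hZ⟩
  obtain ⟨P, hP⟩ := H74.JB.exists_sylow_map hLT.1
  have h := H74.JB.jHyp hZN hT1 hLT hP
  obtain ⟨-, hK', hW⟩ : True ∧ (K.subgroupOf L).map L.subtype = K ∧
      (wOf (K.subgroupOf L)).map L.subtype = wOf K := by
    have hK : (K.subgroupOf L).map L.subtype = K := by
      rw [Subgroup.subgroupOf_map_subtype, inf_eq_left.mpr hKL]
    exact ⟨trivial, hK, by rw [H74.JB.map_wOf L.subtype_injective, hK]⟩
  set T' := T.map (MulAut.conj g).toMonoidHom with hT'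
  have hT'2 : IsPGroup 2 ↥T' := hT.map _
  have hJN : thompsonSubgroupOf 2 T ≤ Subgroup.normalizer (wOf K : Set G) := by
    have hJ : (thompsonSubgroupOf 2 (P : Subgroup ↥L)).map L.subtype = thompsonSubgroupOf 2 T := by
      rw [H74.JB.map_thompson, hP]
    have hgen : Subgroup.closure {x : ↥L | x ∈ K.subgroupOf L ∧ Odd (orderOf x)} = K.subgroupOf L := by
      apply Subgroup.map_injective L.subtype_injective
      rw [MonoidHom.map_closure, hK']
      conv_rhs => rw [← hKg.1.1]
      congr 1
      ext z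
      constructor
      · rintro ⟨a, ⟨ha, ho⟩, rfl⟩
        exact ⟨ha, (orderOf_injective L.subtype L.subtype_injective a).symm ▸ ho⟩
      · rintro ⟨hz, ho⟩
        exact ⟨⟨z, hKL hz⟩, ⟨hz, by rwa [Subgroup.orderOf_mk]⟩, rfl⟩
    have hidx : (pCoreOf 2 (K.subgroupOf L)).relIndex (K.subgroupOf L) = 3 := by
      rw [← Subgroup.relIndex_map_map_of_injective _ _ L.subtype_injective,
        H74.JB.map_pCoreOf L.subtype_injective, hK']
      exact hKg.1.2.2.1
    have hcard : Nat.card ↥(wOf (K.subgroupOf L)) = 4 := by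
      rw [← Subgroup.card_map_of_injective L.subtype_injective, hW]
      exact hKg.1.2.2.2.2.1
    have hsn : ((K.subgroupOf L).subgroupOf
        (K.subgroupOf L ⊔ thompsonSubgroupOf 2 (P : Subgroup ↥L))).IsSubnormal := by
      have hm : (K.subgroupOf L ⊔ thompsonSubgroupOf 2 (P : Subgroup ↥L)).map L.subtype =
          K ⊔ thompsonSubgroupOf 2 T := by rw [Subgroup.map_sup, hK', hJ]
      let e := ((K.subgroupOf L ⊔ thompsonSubgroupOf 2 (P : Subgroup ↥L)).equivMapOfInjective L.subtype
        L.subtype_injective).trans (MulEquiv.subgroupCongr hm)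
      have h1 := hKsn.map (f := e.symm.toMonoidHom) e.symm.surjective
      convert h1 using 1
      ext z
      constructor
      · intro hz
        exact ⟨e z, hz, e.symm_apply_apply z⟩
      · rintro ⟨y, hy, rfl⟩
        show (e.symm y).1.1 ∈ K
        have he : ((e (e.symm y)) : G) = ((e.symm y).1.1 : G) := rfl
        rw [← he, e.apply_symm_apply]
        exact hy
    have h2 := H74.JC.wOf_normalized h hgen hidx hcard hsn
    rw [← hJ, ← hW]
    exact (Subgroup.map_mono h2).trans (Subgroup.le_normalizer_map L.subtype)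
  have hT0 : T = T'.map (MulAut.conj g⁻¹).toMonoidHom := by
    rw [hT', Subgroup.map_map]
    conv_lhs => rw [← Subgroup.map_id T]
    congr 1
    ext x
    simp [mul_assoc]
  have h3 := (H74.JB.zero_normalizer hZN hT'2 hKg).2 g⁻¹
  rw [← hT0] at h3
  exact h3 hJN

end Cfsg.Agent.S2945
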