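import Cfsg.Statements.S0502
import Cfsg.Agent.H29.FourGroup

set_option autoImplicit false
open Cfsg

namespace Cfsg.Agent.S0502

/-- If a finite 2-group has a normal elementary abelian subgroup of order at least 8, then any two of its Klein
four-subgroups are joined by a chain of Klein four-subgroups with consecutive members commuting elementwise. -/
theorem result {P : Type*} [Group P] [Finite P] (hP : IsPGroup 2 P)
    (E : Subgroup P) [E.Normal] (hE : IsMulCommutative E) (hE2 : ∀ e ∈ E, e ^ 2 = 1) (hE8 : 8 ≤ Nat.card E) :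
    Cfsg.IsFourConnected P := by
  classical
  -- the relation
  let r : Subgroup P → Subgroup P → Prop := fun A B =>
    IsKleinFour A ∧ IsKleinFour B ∧ ∀ a ∈ A, ∀ b ∈ B, a * b = b * a
  have hsymm : ∀ {A B : Subgroup P}, Relation.ReflTransGen r A B → Relation.ReflTransGen r B A := by
    intro A B hAB
    induction hAB with
    | refl => exact Relation.ReflTransGen.refl
    | tail _ hbc ih =>
      exact Relation.ReflTransGen.head
        ⟨hbc.2.1, hbc.1, fun a ha b hb => (hbc.2.2 b hb a ha).symm⟩ ih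
  have hEc : ∀ {a b : P}, a ∈ E → b ∈ E → a * b = b * a := fun {a b} ha hb =>
    congrArg Subtype.val (mul_comm' (⟨a, ha⟩ : E) ⟨b, hb⟩)
  -- a central involution
  obtain ⟨z, hzZ, hzE, hz1⟩ : ∃ z, z ∈ Subgroup.center P ∧ z ∈ E ∧ z ≠ 1 := by
    have hne : E ≠ ⊥ := fun h => by rw [h, Subgroup.card_bot] at hE8; omega
    exact Cfsg.Agent.H29.exists_mem_center_of_normal hP hne
  have hzc : ∀ x, x * z = z * x := fun x => Subgroup.mem_center_iff.mp hzZ x
  have hz2 : z ^ 2 = 1 := hE2 z hzE
  -- a fixed four-subgroup of `E` containing `z`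
  obtain ⟨e₀, he₀E, he₀1, he₀z⟩ := Cfsg.Agent.H29.exists_mem_ne_ne (A := E) (by omega) z
  let V₀ := Cfsg.Agent.H29.fourSubgroup z e₀ hz2 (hE2 e₀ he₀E) (hEc hzE he₀E)
  have hV₀ : IsKleinFour V₀ :=
    Cfsg.Agent.H29.isKleinFour_fourSubgroup hz1 he₀1 (Ne.symm he₀z)
  have hV₀E : ∀ x ∈ V₀, x ∈ E := by
    intro x hx
    rcases Cfsg.Agent.H29.mem_fourSubgroup.mp hx with rfl | rfl | rfl | rfl
    exacts [one_mem E, hzE, he₀E, mul_mem hzE he₀E]
  suffices key : ∀ U : Subgroup P, IsKleinFour U → Relation.ReflTransGen r U V₀ by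
    intro U V hU hV
    exact (key U hU).trans (hsymm (key V hV))
  intro U hU
  -- find an element of U other than 1, z
  obtain ⟨u, huU, hu1, huz⟩ := Cfsg.Agent.H29.exists_mem_ne_ne (A := U)
    (by rw [hU.card_four]; omega) z
  have hu2 : u ^ 2 = 1 := Cfsg.Agent.H29.sq_eq_one_of_mem_kleinFour huU
  let W := Cfsg.Agent.H29.fourSubgroup u z hu2 hz2 (hzc u)
  have hW : IsKleinFour W := Cfsg.Agent.H29.isKleinFour_fourSubgroup hu1 hz1 huz
  have hUW : r U W := by
    refine ⟨hU, hW, fun a ha b hb => ?_⟩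
    rcases Cfsg.Agent.H29.mem_fourSubgroup.mp hb with rfl | rfl | rfl | rfl
    · simp
    · exact Cfsg.Agent.H29.comm_of_mem_kleinFour ha huU
    · exact hzc a
    · rw [← mul_assoc, Cfsg.Agent.H29.comm_of_mem_kleinFour ha huU, mul_assoc, hzc a, mul_assoc]
  -- centralizer of u in E contains an element other than 1, z
  obtain ⟨e, heE, heu, he1, hez⟩ : ∃ e, e ∈ E ∧ u * e = e * u ∧ e ≠ 1 ∧ e ≠ z := by
    let f : E →* E :=
      MonoidHom.mk' (fun x => ⟨(x : P) * (u * x * u⁻¹),
        mul_mem x.2 (Subgroup.Normal.conj_mem inferInstance _ x.2 u)⟩) (by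
          intro a b
          apply Subtype.ext
          simp only [Subgroup.coe_mul]
          have h1 : u * ((a : P) * b) * u⁻¹ = (u * a * u⁻¹) * (u * b * u⁻¹) := by group
          have h2 := hEc b.2 (Subgroup.Normal.conj_mem inferInstance _ a.2 u)
          rw [h1]
          calc (a : P) * b * (u * a * u⁻¹ * (u * b * u⁻¹))
              = (a : P) * (b * (u * a * u⁻¹)) * (u * b * u⁻¹) := by simp only [mul_assoc]
            _ = (a : P) * ((u * a * u⁻¹) * b) * (u * b * u⁻¹) := by rw [h2]
            _ = (a : P) * (u * a * u⁻¹) * ((b : P) * (u * b * u⁻¹)) := by simp only [mul_assoc])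
    have hui : u⁻¹ = u := inv_eq_of_mul_eq_one_right (by rw [← pow_two, hu2])
    have hinv : ∀ x ∈ E, x⁻¹ = x := fun x hx =>
      inv_eq_of_mul_eq_one_right (by rw [← pow_two, hE2 x hx])
    have huu : ∀ x : P, u * (u * x) = x := fun x => by rw [← mul_assoc, ← pow_two, hu2, one_mul]
    let C : Subgroup E := (Subgroup.centralizer {u}).subgroupOf E
    have hker : f.ker ≤ C := by
      intro x hx
      have hx' : (x : P) * (u * x * u⁻¹) = 1 := congrArg Subtype.val hx
      have h : (x : P)⁻¹ = u * x * u⁻¹ := inv_eq_of_mul_eq_one_right hx'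
      rw [hinv _ x.2] at h
      rw [Subgroup.mem_subgroupOf, Subgroup.mem_centralizer_singleton_iff]
      calc (x : P) * u = u * x * u⁻¹ * u := by rw [← h]
        _ = u * x := by group
    have hrange : f.range ≤ C := by
      rintro _ ⟨x, rfl⟩
      rw [Subgroup.mem_subgroupOf, Subgroup.mem_centralizer_singleton_iff]
      show (x : P) * (u * x * u⁻¹) * u = u * ((x : P) * (u * x * u⁻¹))
      have hc := hEc x.2 (Subgroup.Normal.conj_mem inferInstance _ x.2 u)
      conv_rhs => rw [hc]
      rw [hui]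
      simp only [mul_assoc, huu]
      rw [← pow_two, hu2, mul_one]
    have hmul : Nat.card f.range * Nat.card f.ker = Nat.card E := by
      rw [← Subgroup.index_ker, mul_comm]
      exact Subgroup.card_mul_index f.ker
    have h1 : Nat.card f.range ≤ Nat.card C := Nat.le_of_dvd Nat.card_pos
      (Subgroup.card_dvd_of_le hrange)
    have h2 : Nat.card f.ker ≤ Nat.card C := Nat.le_of_dvd Nat.card_pos
      (Subgroup.card_dvd_of_le hker)
    have h3 : 2 < Nat.card C := by
      by_contra hle
      push Not at hle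
      have := Nat.mul_le_mul (h1.trans hle) (h2.trans hle)
      omega
    obtain ⟨e, he, he1, hez⟩ := Cfsg.Agent.H29.exists_mem_ne_ne (A := C) h3 ⟨z, hzE⟩
    refine ⟨e, e.2, ?_, fun h => he1 (Subtype.ext h), fun h => hez (Subtype.ext h)⟩
    have := Subgroup.mem_centralizer_singleton_iff.mp (Subgroup.mem_subgroupOf.mp he)
    first | exact this | exact this.symm
  let V := Cfsg.Agent.H29.fourSubgroup z e hz2 (hE2 e heE) (hEc hzE heE)
  have hV : IsKleinFour V := Cfsg.Agent.H29.isKleinFour_fourSubgroup hz1 he1 (Ne.symm hez)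
  have hVE : ∀ x ∈ V, x ∈ E := by
    intro x hx
    rcases Cfsg.Agent.H29.mem_fourSubgroup.mp hx with rfl | rfl | rfl | rfl
    exacts [one_mem E, hzE, heE, mul_mem hzE heE]
  have hWV : r W V := by
    refine ⟨hW, hV, ?_⟩
    have hcz : ∀ x, Commute x z := hzc
    have hce : Commute u e := heu
    intro a ha b hb
    rcases Cfsg.Agent.H29.mem_fourSubgroup.mp ha with h | h | h | h <;>
      rcases Cfsg.Agent.H29.mem_fourSubgroup.mp hb with h' | h' | h' | h' <;>
      rw [h, h']
    all_goals first
      | simp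
      | exact hzc _
      | exact (hzc _).symm
      | exact hce
      | exact ((hcz _).mul_right hce)
      | exact ((hce).mul_left (hcz e).symm)
      | exact ((hcz _).mul_right (hce.mul_left (hcz e).symm))
  exact Relation.ReflTransGen.head hUW (Relation.ReflTransGen.head hWV
    (Relation.ReflTransGen.single ⟨hV, hV₀, fun a ha b hb => hEc (hVE a ha) (hV₀E b hb)⟩))

end Cfsg.Agent.S0502
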