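import Cfsg.Statements.S5112
import Cfsg.Agent.H93.Saturation
import Mathlib.GroupTheory.SpecificGroups.Dihedral
import Mathlib.GroupTheory.SpecificGroups.Quaternion
import Mathlib.GroupTheory.SpecificGroups.Cyclic

set_option autoImplicit false
open Cfsg

namespace Cfsg.Agent.S5112
/-- A 2-group with a distinguishable cyclic subgroup of index 2 has a 2-group of automorphisms. -/
theorem isPGroup_mulAut {D : Type*} [Group D] [Finite D] (hD : IsPGroup 2 D) (r : D)
    (hr : 2 * Nat.card (Subgroup.zpowers r) = Nat.card D)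
    (hx : ∀ x ∉ Subgroup.zpowers r, orderOf x ≠ orderOf r) : IsPGroup 2 (MulAut D) := by
  intro γ
  set C := Subgroup.zpowers r with hC
  have hγC : ∀ δ : MulAut D, ∀ x ∈ C, δ x ∈ C := by
    intro δ x hxC
    have h : δ r ∈ C := by
      by_contra h
      exact hx _ h (MulEquiv.orderOf_eq δ r)
    obtain ⟨k, rfl⟩ := Subgroup.mem_zpowers_iff.1 hxC
    rw [map_zpow]
    exact C.zpow_mem h k
  have hidx : C.index = 2 := by
    have := C.card_mul_index
    rw [← hr, mul_comm 2] at this
    exact Nat.eq_of_mul_eq_mul_left Nat.card_pos this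
  have hiff : ∀ (δ : MulAut D) (x : D), δ x ∈ C ↔ x ∈ C := fun δ x =>
    ⟨fun h => by simpa using hγC δ⁻¹ _ h, hγC δ x⟩
  let δC : MulAut C :=
    { toFun := fun x => ⟨γ x, hγC γ x x.2⟩
      invFun := fun x => ⟨γ⁻¹ x, hγC γ⁻¹ x x.2⟩
      left_inv := fun x => Subtype.ext (by simp)
      right_inv := fun x => Subtype.ext (by simp)
      map_mul' := fun x y => Subtype.ext (by simp) }
  have hpow : ∀ (m : ℕ) (x : C), ((δC ^ m) x : D) = (γ ^ m) x := by
    intro m
    induction m with
    | zero => simp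
    | succ m ih => intro x; rw [pow_succ', pow_succ', MulAut.mul_apply, MulAut.mul_apply, ← ih]; rfl
  obtain ⟨a, ha⟩ := IsPGroup.iff_card.1 (hD.to_subgroup C)
  have hcard : Nat.card (MulAut C) = Nat.totient (2 ^ a) := by rw [IsCyclic.card_mulAut, ha]
  obtain ⟨k, hk⟩ : ∃ k, δC ^ 2 ^ k = 1 := by
    rcases Nat.eq_zero_or_pos a with rfl | ha0
    · refine ⟨0, ?_⟩
      have : Subsingleton (MulAut C) := (Nat.card_eq_one_iff_unique.1 (by simpa using hcard)).1
      exact Subsingleton.elim _ _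
    · refine ⟨a - 1, ?_⟩
      rw [Nat.totient_prime_pow Nat.prime_two ha0] at hcard
      rw [show 2 ^ (a - 1) = Nat.card (MulAut C) by simpa using hcard.symm]
      exact pow_card_eq_one'
  have hfix : ∀ x ∈ C, (γ ^ 2 ^ k) x = x := by
    intro x hxC
    have := hpow (2 ^ k) ⟨x, hxC⟩
    rw [hk] at this
    exact this.symm
  refine ⟨k + a, MulEquiv.ext fun x => ?_⟩
  set δ := γ ^ 2 ^ k with hδ
  have hu : δ x * x⁻¹ ∈ C := by
    rw [Subgroup.mul_mem_iff_of_index_two hidx, hiff]
    exact inv_mem_iff.symm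
  have key : ∀ m : ℕ, (δ ^ m) x = (δ x * x⁻¹) ^ m * x := by
    intro m
    induction m with
    | zero => simp
    | succ m ih =>
      rw [pow_succ', MulAut.mul_apply, ih, map_mul, map_pow, hfix _ hu, pow_succ]
      simp [mul_assoc]
  rw [pow_add, pow_mul, key, ← ha,
    show (δ x * x⁻¹) ^ Nat.card C = 1 from
      congrArg Subtype.val (pow_card_eq_one' (x := (⟨_, hu⟩ : C))), one_mul]
  rfl


/-- If S is a dihedral or generalized quaternion 2-group of order at least 16, then in every saturated fusion system over S (at the prime 2) the automorphism group Aut_F(S) consists of the inner automorphisms of S. -/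
theorem result {Ω : Type*} [Group Ω] {S : Subgroup Ω} [Finite S] (n : ℕ) (hn : 4 ≤ n) (hshape : Nonempty (S ≃* DihedralGroup (2 ^ (n - 1))) ∨ Nonempty (S ≃* QuaternionGroup (2 ^ (n - 2)))) (F : Cfsg.FusionSystem S) (hF : F.IsSaturated 2) : F.autGroup S = Cfsg.Inn S := by
  obtain ⟨hS, hAut⟩ : IsPGroup 2 S ∧ IsPGroup 2 (MulAut S) := by
    rcases hshape with ⟨⟨e⟩⟩ | ⟨⟨e⟩⟩
    · have : NeZero (2 ^ (n - 1)) := ⟨by positivity⟩
      have hp : IsPGroup 2 (DihedralGroup (2 ^ (n - 1))) :=
        IsPGroup.of_card (n := n) (by rw [DihedralGroup.nat_card, ← pow_succ']; congr 1; omega)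
      refine ⟨hp.of_equiv e.symm, IsPGroup.of_equiv ?_ (MulAut.congr e.symm)⟩
      refine isPGroup_mulAut hp (DihedralGroup.r 1) ?_ ?_
      · rw [Nat.card_zpowers, DihedralGroup.orderOf_r_one, DihedralGroup.nat_card]
      · rintro (i | i) hi
        · exact absurd ⟨(i.val : ℤ), by simp only; rw [zpow_natCast, DihedralGroup.r_one_pow, ZMod.natCast_zmod_val]⟩ hi
        · rw [DihedralGroup.orderOf_sr, DihedralGroup.orderOf_r_one]
          have : 2 ^ 3 ≤ 2 ^ (n - 1) := Nat.pow_le_pow_right (by norm_num) (by omega)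
          omega
    · have : NeZero (2 ^ (n - 2)) := ⟨by positivity⟩
      have hc : Nat.card (QuaternionGroup (2 ^ (n - 2))) = 4 * 2 ^ (n - 2) := by
        rw [Nat.card_eq_fintype_card, QuaternionGroup.card]
      have hp : IsPGroup 2 (QuaternionGroup (2 ^ (n - 2))) :=
        IsPGroup.of_card (n := n) (by
          rw [hc, show (4 : ℕ) = 2 ^ 2 from rfl, ← pow_add]; congr 1; omega)
      refine ⟨hp.of_equiv e.symm, IsPGroup.of_equiv ?_ (MulAut.congr e.symm)⟩
      refine isPGroup_mulAut hp (QuaternionGroup.a 1) ?_ ?_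
      · rw [Nat.card_zpowers, QuaternionGroup.orderOf_a_one, hc]; ring
      · rintro (i | i) hi
        · exact absurd ⟨(i.val : ℤ), by simp only; rw [zpow_natCast, QuaternionGroup.a_one_pow, ZMod.natCast_zmod_val]⟩ hi
        · rw [QuaternionGroup.orderOf_xa, QuaternionGroup.orderOf_a_one]
          have : 2 ^ 2 ≤ 2 ^ (n - 2) := Nat.pow_le_pow_right (by norm_num) (by omega)
          omega
  obtain ⟨-, R, hR⟩ := H93.IsFullyNormalized.isFullyAutomized hS hF (H93.isFullyNormalized_top F)
  have htop : (R : Subgroup (F.autGroup S)) = ⊤ :=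
    (R.is_maximal' (Q := ⊤) ((hAut.to_subgroup _).to_subgroup _) le_top).symm
  refine le_antisymm (fun α hα => ?_) (H93.inn_le_autGroup F le_rfl)
  have hm : (⟨α, hα⟩ : F.autGroup S) ∈ (R : Subgroup (F.autGroup S)) := htop ▸ Subgroup.mem_top _
  rw [hR] at hm
  rw [H93.inn_eq_autInducedBy]
  exact Subgroup.mem_subgroupOf.1 hm

end Cfsg.Agent.S5112
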