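import Cfsg.Statements.S3794
import Mathlib
import Cfsg.Agent.H84.FpfFour
import Cfsg.Agent.H19.Fitting
import Cfsg.Agent.H20.PxQ
import Cfsg.Agent.H21.Fpf

set_option autoImplicit false
open Cfsg

namespace Cfsg.Agent.S3794


open scoped commutatorElement

/-- Some induced action on the Frattini quotient of an invariant normal `p`-subgroup. -/
theorem commute_of_pgroup {G : Type*} [Group G] [Finite G] {p q : ℕ} [Fact p.Prime] [Fact q.Prime]
    (hpq : p ≠ q) (σ : MulAut G) (hσ4 : σ ^ 4 = 1) (hfpf : ∀ g : G, σ g = g → g = 1)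
    (P : Subgroup G) [P.Normal] (hP : IsPGroup p P) (hPσ : ∀ v ∈ P, σ v ∈ P)
    (Q : Subgroup G) (hQ : IsPGroup q Q) (hQσ : ∀ v ∈ Q, σ v ∈ Q) (y : G) (hy : y ∈ Q) :
    y⁻¹ * σ (σ y) ∈ Subgroup.centralizer (P : Set G) := by
  obtain ⟨sP, hsP⟩ := H84.exists_restrict σ P hPσ
  obtain ⟨sQ, hsQ⟩ := H84.exists_restrict σ Q hQσ
  have h4 : ∀ z, σ (σ (σ (σ z))) = z := fun z => by
    have := DFunLike.congr_fun hσ4 z
    simpa [pow_succ, MulAut.mul_apply] using this
  letI : CommGroup (P ⧸ frattini P) :=
    { (inferInstance : Group (P ⧸ frattini P)) with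
      mul_comm := fun u v => by
        induction u using QuotientGroup.induction_on with
        | H u =>
          induction v using QuotientGroup.induction_on with
          | H v =>
            rw [← QuotientGroup.mk_mul, ← QuotientGroup.mk_mul, QuotientGroup.eq]
            refine H24.commutator_le_frattini hP ?_
            have : (u * v)⁻¹ * (v * u) = ⁅v⁻¹, u⁻¹⁆ := by rw [commutatorElement_def]; group
            rw [this]
            exact Subgroup.commutator_mem_commutator (Subgroup.mem_top _) (Subgroup.mem_top _) }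
  have hle : ∀ a : MulAut P, frattini P ≤ (frattini P).comap (a : P ≃* P).toMonoidHom := fun a =>
    Subgroup.map_le_iff_le_comap.1 (Subgroup.characteristic_iff_map_le.1 frattini_characteristic a)
  let Φ : MulAut P →* AddMonoid.End (Additive (P ⧸ frattini P)) :=
    { toFun := fun a => MonoidHom.toAdditive
        (QuotientGroup.map (frattini P) (frattini P) (a : P ≃* P).toMonoidHom (hle a))
      map_one' := by
        refine DFunLike.ext _ _ fun w => ?_
        obtain ⟨v, rfl⟩ := Additive.ofMul.surjective w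
        obtain ⟨u, rfl⟩ := QuotientGroup.mk_surjective v
        rfl
      map_mul' := fun a b => by
        refine DFunLike.ext _ _ fun w => ?_
        obtain ⟨v, rfl⟩ := Additive.ofMul.surjective w
        obtain ⟨u, rfl⟩ := QuotientGroup.mk_surjective v
        rfl }
  have hW : ∀ w : Additive (P ⧸ frattini P), p • w = 0 := by
    intro w
    obtain ⟨v, rfl⟩ := Additive.ofMul.surjective w
    obtain ⟨u, rfl⟩ := QuotientGroup.mk_surjective v
    rw [← ofMul_pow, ← QuotientGroup.mk_pow,
      (QuotientGroup.eq_one_iff _).2 (H24.pow_mem_frattini hP u), ofMul_one]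
  have hsP4 : sP ^ 4 = 1 := by
    refine MulEquiv.ext fun v => Subtype.ext ?_
    simp only [pow_succ, pow_zero, one_mul, MulAut.mul_apply, MulAut.one_apply, hsP, h4]
  have hsQ4 : sQ ^ 4 = 1 := by
    refine MulEquiv.ext fun v => Subtype.ext ?_
    simp only [pow_succ, pow_zero, one_mul, MulAut.mul_apply, MulAut.one_apply, hsQ, h4]
  have key := H84.rep_sq_eq (q := q) hpq hW hQ
    (Φ.comp ((MulAut.conjNormal (H := P)).comp Q.subtype)) sQ hsQ4
    (fun v hv => Subtype.ext (hfpf v (by rw [← hsQ, hv])))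
    (Φ sP) (by rw [← map_pow, hsP4, map_one])
    (fun v => by
      simp only [MonoidHom.comp_apply, ← map_mul]
      congr 1
      refine MulEquiv.ext fun u => Subtype.ext ?_
      simp [MulAut.mul_apply, hsP, hsQ, MulAut.conjNormal_apply])
    (fun w hw => by
      obtain ⟨v, rfl⟩ := Additive.ofMul.surjective w
      obtain ⟨u, rfl⟩ := QuotientGroup.mk_surjective v
      rw [ofMul_eq_zero, QuotientGroup.eq_one_iff]
      refine H84.mem_of_fixed_coset sP (fun t ht => Subtype.ext (hfpf t (by rw [← hsP, ht])))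
        (frattini P)
        (fun t ht => hle sP ht) u ?_
      rw [← QuotientGroup.eq]
      exact (Additive.ofMul.injective hw).symm)
    ⟨y, hy⟩
  set z := y⁻¹ * σ (σ y) with hz
  have hzQ : z ∈ Q := mul_mem (inv_mem hy) (hQσ _ (hQσ _ hy))
  have hz1 : Φ (MulAut.conjNormal z) = 1 := by
    simp only [MonoidHom.comp_apply, Subgroup.coe_subtype, hsQ] at key
    rw [hz, map_mul, map_mul, key, ← map_mul, ← map_mul, inv_mul_cancel, map_one, map_one]
  have hA : Subgroup.zpowers z ≤ Subgroup.centralizer (P : Set G) := by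
    refine H20.le_centralizer_of_trivial_on_frattini ?_ ?_ ?_
    · rw [Subgroup.normalizer_eq_top_iff.2 (inferInstance : P.Normal)]
      exact le_top
    · obtain ⟨a, ha⟩ := IsPGroup.iff_card.1
        (hQ.to_le (Subgroup.zpowers_le.2 hzQ))
      obtain ⟨b, hb⟩ := IsPGroup.iff_card.1 (hP.to_subgroup (frattini P))
      rw [ha, hb]
      exact Nat.Coprime.pow _ _ ((Nat.coprime_primes Fact.out Fact.out).2 (Ne.symm hpq))
    · intro a ha k hk
      have h1 : Φ (MulAut.conjNormal a) = 1 := by
        obtain ⟨n, rfl⟩ := Subgroup.mem_zpowers_iff.1 ha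
        have hk' : z ∈ (Φ.comp (MulAut.conjNormal (H := P))).ker := MonoidHom.mem_ker.2 hz1
        exact MonoidHom.mem_ker.1 (zpow_mem hk' n)
      have h2 := DFunLike.congr_fun h1 (Additive.ofMul ((⟨k, hk⟩ : P) : P ⧸ frattini P))
      have h3 := Additive.ofMul.injective h2
      refine ⟨MulAut.conjNormal a (⟨k, hk⟩ : P) * (⟨k, hk⟩ : P)⁻¹, ?_, by simp [mul_assoc]⟩
      rw [SetLike.mem_coe, ← QuotientGroup.eq_one_iff, QuotientGroup.mk_mul, QuotientGroup.mk_inv,
        mul_inv_eq_one]
      exact h3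
  exact hA (Subgroup.mem_zpowers z)


/-- Let G be a finite solvable group with an automorphism σ satisfying σ⁴ = 1 and fixing only the identity. Then the derived subgroup G' is nilpotent. -/
theorem result {G : Type*} [Group G] [Finite G] (hG : Group.IsSolvable G) (σ : MulAut G) (hσ : σ ^ 4 = 1) (hfpf : ∀ g : G, σ g = g → g = 1) : Group.IsNilpotent (commutator G) := by
  classical
  haveI := hG
  set F := Cfsg.fittingSubgroup G with hF
  haveI := H19.fitting_normal G
  have hchar : ∀ (N : Subgroup G), N.Characteristic → ∀ (a : MulAut G), ∀ n ∈ N, a n ∈ N :=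
    fun N hN a n hn => Subgroup.characteristic_iff_map_le.1 hN a ⟨n, hn, rfl⟩
  have hFσ := hchar F (H19.fitting_characteristic G) σ
  let s : MulAut (G ⧸ F) := QuotientGroup.congr F F σ
    (Subgroup.characteristic_iff_map_eq.1 (H19.fitting_characteristic G) σ)
  have hs : ∀ g : G, s (g : G ⧸ F) = ((σ g : G) : G ⧸ F) := fun g => rfl
  have hsf : ∀ x, s x = x → x = 1 := by
    intro x
    induction x using QuotientGroup.induction_on with
    | H g =>
      intro hx
      rw [hs] at hx
      rw [QuotientGroup.eq_one_iff]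
      exact H84.mem_of_fixed_coset σ hfpf F hFσ g (QuotientGroup.eq.1 hx.symm)
  have h4 : ∀ x, s (s (s (s x))) = x := by
    intro x
    induction x using QuotientGroup.induction_on with
    | H g =>
      simp only [hs]
      have := DFunLike.congr_fun hσ g
      simp only [pow_succ, pow_zero, one_mul, MulAut.mul_apply, MulAut.one_apply] at this
      rw [this]
  -- `σ²` is trivial on each `O_q(G/F)`
  have hq : ∀ q : ℕ, q.Prime → ∀ x ∈ Cfsg.pCore q (G ⧸ F), s (s x) = x := by
    intro q hq x hx
    haveI := Fact.mk hq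
    haveI := H19.pCore_normal q (G ⧸ F)
    set L := (Cfsg.pCore q (G ⧸ F)).comap (QuotientGroup.mk' F) with hL
    have hLσ : ∀ g ∈ L, σ g ∈ L := fun g hg =>
      Subgroup.characteristic_iff_map_le.1 (H19.pCore_characteristic q (G ⧸ F)) s ⟨_, hg, rfl⟩
    obtain ⟨sL, hsL⟩ := H84.exists_restrict σ L hLσ
    obtain ⟨Q, hQ⟩ := H21.exists_sylow_invariant (φ := (sL : L ≃* L))
      (fun v hv => Subtype.ext (hfpf v (by rw [← hsL]; exact congrArg Subtype.val hv))) q
    set Qm := (Q : Subgroup L).map L.subtype with hQm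
    have hQmσ : ∀ v ∈ Qm, σ v ∈ Qm := by
      rintro _ ⟨v, hv, rfl⟩
      exact ⟨sL v, hQ.le ⟨v, hv, rfl⟩, hsL v⟩
    obtain ⟨y, hyQ, rfl⟩ : ∃ y ∈ Qm, (y : G ⧸ F) = x := by
      let f : L →* Cfsg.pCore q (G ⧸ F) :=
        (QuotientGroup.mk' F).subgroupComap (Cfsg.pCore q (G ⧸ F))
      have hf : Function.Surjective f := by
        rintro ⟨u, hu⟩
        obtain ⟨g, rfl⟩ := QuotientGroup.mk'_surjective F u
        exact ⟨⟨g, hu⟩, rfl⟩
      have htop : (Q : Subgroup L).map f = ⊤ := by
        have hidx : ((Q : Subgroup L).map f).index ∣ (Q : Subgroup L).index :=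
          Subgroup.index_map_dvd _ hf
        have hnd : ¬ q ∣ ((Q : Subgroup L).map f).index := fun h => Q.not_dvd_index (h.trans hidx)
        obtain ⟨k, hk⟩ := (H19.pCore_isPGroup (G := G ⧸ F) q).index ((Q : Subgroup L).map f)
        rw [← Subgroup.index_eq_one]
        rcases k with _ | k
        · simpa using hk
        · exact absurd (hk ▸ dvd_pow_self q (Nat.succ_ne_zero k)) hnd
      have hx' : (⟨x, hx⟩ : Cfsg.pCore q (G ⧸ F)) ∈ (Q : Subgroup L).map f := by
        rw [htop]; trivial
      obtain ⟨v, hv, hve⟩ := hx'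
      exact ⟨v, ⟨v, hv, rfl⟩, congrArg Subtype.val hve⟩
    set z := y⁻¹ * σ (σ y) with hz
    suffices z ∈ F by
      rw [hs, hs]
      exact (QuotientGroup.eq.2 this).symm
    -- `F'`, the part of `F` of order prime to `q`
    set F' : Subgroup G := ⨆ p : {p : Nat.Primes // (p : ℕ) ≠ q}, Cfsg.pCore (p.1 : ℕ) G with hF'
    haveI : ∀ p : {p : Nat.Primes // (p : ℕ) ≠ q}, (Cfsg.pCore (p.1 : ℕ) G).Normal :=
      fun p => H19.pCore_normal _ G
    haveI : F'.Normal := Subgroup.iSup_normal _
    have hF'F : F' ≤ F := iSup_le fun p => by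
      haveI := Fact.mk p.1.2
      exact H19.pCore_le_fitting _
    have hFeq : F = Cfsg.pCore q G ⊔ F' := by
      refine le_antisymm ?_ (sup_le (H19.pCore_le_fitting q) hF'F)
      rw [hF, H19.fitting_eq_iSup_pCore]
      refine iSup_le fun p => ?_
      by_cases h : (p : ℕ) = q
      · rw [h]; exact le_sup_left
      · exact le_sup_of_le_right
          (le_iSup (fun p : {p : Nat.Primes // (p : ℕ) ≠ q} => Cfsg.pCore (p.1 : ℕ) G) ⟨p, h⟩)
    set C := L ⊓ Subgroup.centralizer (F' : Set G) with hC
    haveI : L.Normal := by rw [hL]; infer_instance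
    haveI : C.Normal := by rw [hC]; infer_instance
    have hzC : z ∈ C := by
      refine Subgroup.mem_inf.2 ⟨?_, ?_⟩
      · have h1 : ∀ v ∈ Qm, v ∈ L := fun v hv => (Subgroup.map_subtype_le _) hv
        exact h1 _ (mul_mem (inv_mem hyQ) (hQmσ _ (hQmσ _ hyQ)))
      · rw [Subgroup.mem_centralizer_iff]
        intro w hw
        have hle : F' ≤ Subgroup.centralizer ({z} : Set G) := by
          refine iSup_le fun p w hw => ?_
          haveI := Fact.mk p.1.2
          rw [Subgroup.mem_centralizer_singleton_iff]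
          exact Subgroup.mem_centralizer_iff.1 (commute_of_pgroup (q := q) p.2 σ hσ hfpf _
            (H19.pCore_isPGroup _) (hchar _ (H19.pCore_characteristic _ G) σ) Qm
            (Q.isPGroup'.map _) hQmσ y hyQ) w hw
        exact Subgroup.mem_centralizer_singleton_iff.1 (hle hw)
    have hnil : Group.IsNilpotent C := by
      have hrel : ∃ k, F'.relIndex L = q ^ k := by
        have h1 : F'.relIndex F * F.relIndex L = F'.relIndex L :=
          Subgroup.relIndex_mul_relIndex _ _ _ hF'F
            ((QuotientGroup.ker_mk' F).symm.le.trans (Subgroup.ker_le_comap _ _))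
        have h2 : F.relIndex L = Nat.card (Cfsg.pCore q (G ⧸ F)) := by
          have : F = (⊥ : Subgroup (G ⧸ F)).comap (QuotientGroup.mk' F) := by
            rw [MonoidHom.comap_bot, QuotientGroup.ker_mk']
          conv_lhs => rw [this]
          rw [Subgroup.relIndex_comap, hL, Subgroup.map_comap_eq_self_of_surjective
            (QuotientGroup.mk'_surjective F), Subgroup.relIndex_bot_left]
        have h3 : F'.relIndex F ∣ Nat.card (Cfsg.pCore q G) := by
          rw [hFeq, Subgroup.relIndex_sup_right]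
          exact Subgroup.relIndex_dvd_card _ _
        obtain ⟨a, ha⟩ := IsPGroup.iff_card.1 (H19.pCore_isPGroup (G := G) q)
        obtain ⟨b, hb⟩ := IsPGroup.iff_card.1 (H19.pCore_isPGroup (G := G ⧸ F) q)
        rw [ha] at h3
        obtain ⟨c, -, hc⟩ := (Nat.dvd_prime_pow hq).1 h3
        exact ⟨c + b, by rw [← h1, h2, hb, hc, pow_add]⟩
      obtain ⟨k, hk⟩ := hrel
      have hdvd : (F'.subgroupOf C).index ∣ q ^ k := by
        rw [← hk]
        have : (F'.subgroupOf L).relIndex (C.subgroupOf L) = F'.relIndex C :=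
          Subgroup.relIndex_subgroupOf inf_le_left
        change F'.relIndex C ∣ _
        rw [← this]
        exact Subgroup.relIndex_dvd_index_of_normal _ _
      obtain ⟨c, -, hc⟩ := (Nat.dvd_prime_pow hq).1 hdvd
      have hq' : IsPGroup q (C ⧸ F'.subgroupOf C) :=
        IsPGroup.of_card (n := c) (by rw [← Subgroup.index_eq_card, hc])
      haveI := hq'.isNilpotent
      refine Subgroup.isNilpotent_of_ker_le_center (QuotientGroup.mk' (F'.subgroupOf C)) ?_
      rw [QuotientGroup.ker_mk']
      intro v hv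
      rw [Subgroup.mem_center_iff]
      intro w
      refine Subtype.ext ?_
      exact (Subgroup.mem_centralizer_iff.1 (Subgroup.mem_inf.1 w.2).2 (v : G) hv).symm
    exact H19.le_fitting inferInstance hnil hzC
  -- hence `σ` inverts `F(G/F)`
  set F2 := Cfsg.fittingSubgroup (G ⧸ F) with hF2
  have hτ : ∀ x ∈ F2, s (s x) = x := by
    intro x hx
    have hle : F2 ≤ MonoidHom.eqLocus ((s * s : MulAut (G ⧸ F)).toMonoidHom)
        (MonoidHom.id _) := by
      rw [hF2, H19.fitting_eq_iSup_pCore]
      exact iSup_le fun p x hx => hq p p.2 x hx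
    exact hle hx
  have hF2s : ∀ x ∈ F2, s x ∈ F2 := fun x hx =>
    Subgroup.characteristic_iff_map_le.1 (H19.fitting_characteristic (G ⧸ F)) s ⟨x, hx, rfl⟩
  have hinv : ∀ x ∈ F2, s x = x⁻¹ := by
    intro x hx
    obtain ⟨r, hr⟩ := H84.exists_restrict s F2 hF2s
    obtain ⟨a, ha⟩ := H84.exists_inv_mul_eq r
      (fun v hv => Subtype.ext (hsf v (by rw [← hr, hv]))) ⟨x, hx⟩
    have h1 : (a : G ⧸ F)⁻¹ * s a = x := by rw [← hr]; exact congrArg Subtype.val ha
    rw [← h1, map_mul, map_inv, hτ a a.2, mul_inv_rev, inv_inv]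
  have htop : ∀ h : G ⧸ F, h⁻¹ * s h ∈ F2 := by
    intro h
    apply H19.centralizer_fitting_le
    rw [Subgroup.mem_centralizer_iff]
    intro f hf
    have hconj : h * f * h⁻¹ ∈ F2 := (H19.fitting_normal (G ⧸ F)).conj_mem f hf h
    have h1 := hinv _ hconj
    rw [map_mul, map_mul, hinv f hf, map_inv] at h1
    have h2 : s h * f * (s h)⁻¹ = h * f * h⁻¹ := by
      have := congrArg Inv.inv h1
      simpa [mul_assoc] using this
    calc f * (h⁻¹ * s h) = h⁻¹ * (h * f * h⁻¹) * s h := by group
      _ = h⁻¹ * (s h * f * (s h)⁻¹) * s h := by rw [h2]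
      _ = h⁻¹ * s h * f := by group
  have hall : ∀ x : G ⧸ F, s x = x⁻¹ := by
    intro x
    obtain ⟨a, rfl⟩ := H84.exists_inv_mul_eq s hsf x
    exact hinv _ (htop a)
  have hcomm : ∀ x y : G ⧸ F, x * y = y * x := by
    intro x y
    have h1 := hall (x * y)
    rw [map_mul, hall, hall, mul_inv_rev] at h1
    apply inv_injective
    rw [mul_inv_rev, mul_inv_rev]
    exact h1.symm
  apply H19.isNilpotent_of_le_fitting
  rw [commutator_def, Subgroup.commutator_le]
  intro a _ b _
  rw [← QuotientGroup.eq_one_iff (N := F)]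
  show QuotientGroup.mk' F ⁅a, b⁆ = 1
  rw [map_commutatorElement, commutatorElement_eq_one_iff_mul_comm]
  exact hcomm _ _

end Cfsg.Agent.S3794
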