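import Cfsg.Statements.S0800
import Cfsg.Agent.H6.Torus

set_option autoImplicit false
open Cfsg
open Cfsg.Agent.H6

namespace Cfsg.Agent.S0800

/-- Tori of SL_2(q): if g ∈ SL_2(q) has order coprime to the characteristic p, then the order of g divides q − 1 or q + 1. -/
theorem result {F : Type*} [Field F] [Fintype F] {q : ℕ} (hF : Fintype.card F = q) (p : ℕ) [Fact p.Prime] [CharP F p] (g : Matrix.SpecialLinearGroup (Fin 2) F) (hg : Nat.Coprime (orderOf g) p) : orderOf g ∣ q - 1 ∨ orderOf g ∣ q + 1 := by
  classical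
  have h2q : 2 ≤ q := hF ▸ Fintype.one_lt_card
  by_cases hns : IsScal g
  · left
    by_cases h2 : (2 : F) = 0
    · have h1 : (-1 : Matrix.SpecialLinearGroup (Fin 2) F) = 1 := by
        apply sl2_ext <;> simp [sl2_neg, neg_eq_iff_add_eq_zero, one_add_one_eq_two, h2]
      rcases isScal_iff.1 hns with rfl | rfl
      · simp
      · simp [h1]
    · have hodd : q % 2 = 1 := hF ▸ FiniteField.odd_card_of_char_ne_two fun h => h2 (by
        have := ringChar.Nat.cast_ringChar (R := F); rw [h] at this; exact_mod_cast this)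
      refine dvd_trans (orderOf_dvd_of_pow_eq_one (n := 2) ?_) (by omega)
      rcases isScal_iff.1 hns with rfl | rfl <;> simp
  · have ht := ss_of_coprime_order p hg hns
    have hd : orderOf g ∣ Nat.card (cent g) := (cent g).orderOf_dvd_natCard (self_mem_cent g)
    rcases card_cent_ss ht with ⟨_, h⟩ | ⟨_, h⟩ <;> rw [h, hF] at hd
    · exact Or.inl hd
    · exact Or.inr hd

end Cfsg.Agent.S0800
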