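import Cfsg.Statements.S3780
import Cfsg.Agent.H19.Frattini
import Mathlib

set_option autoImplicit false
open Cfsg

namespace Cfsg.Agent.S3780

/-- Let V be a finite abelian p-group and α an automorphism of V of order p whose fixed-point subgroup has order p^n. Then V can be generated by pn elements: some subset of V with at most pn elements generates V. -/
theorem result {V : Type*} [CommGroup V] [Finite V] {p : ℕ} [Fact p.Prime] (hV : IsPGroup p V) (α : MulAut V) (hα : orderOf α = p) (n : ℕ) (hfix : Nat.card {v : V // α v = v} = p ^ n) : ∃ S : Finset V, S.card ≤ p * n ∧ Subgroup.closure (S : Set V) = ⊤ := by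
  classical
  have hp : p.Prime := Fact.out
  -- the `p`-torsion, and `α - 1` on it
  set W := (powMonoidHom p : V →* V).ker with hW
  have hWmem : ∀ v : V, v ∈ W ↔ v ^ p = 1 := fun v => Iff.rfl
  let F : W →* W :=
    { toFun := fun v => ⟨α (v : V) / (v : V), (hWmem _).mpr (by
        rw [div_pow, ← map_pow, (hWmem _).mp v.2, map_one, div_one])⟩
      map_one' := Subtype.ext (by simp)
      map_mul' := fun a b => Subtype.ext (by
        show α ((a : V) * b) / ((a : V) * b) = α (a : V) / a * (α (b : V) / b)
        rw [map_mul, div_mul_div_comm]) }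
  let f : AddMonoid.End (Additive W) := MonoidHom.toAdditive F
  let A : AddMonoid.End (Additive W) := MonoidHom.toAdditive
    { toFun := fun v => (⟨α (v : V), (hWmem _).mpr (by
        rw [← map_pow, (hWmem _).mp v.2, map_one])⟩ : W)
      map_one' := Subtype.ext (by simp)
      map_mul' := fun a b => Subtype.ext (map_mul α (a : V) b) : W →* W }
  have hA : ∀ (m : ℕ) (v : Additive W),
      (((A ^ m) v).toMul : V) = (α ^ m) (v.toMul : V) := by
    intro m v
    induction m with
    | zero => rfl
    | succ m ih =>
      rw [pow_succ', AddMonoid.End.coe_mul, Function.comp_apply, pow_succ', MulAut.mul_apply, ← ih]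
      rfl
  have hfA : f = A - 1 := by
    apply DFunLike.ext
    intro v
    show Additive.ofMul (F v.toMul) = Additive.ofMul _ - Additive.ofMul v.toMul
    rw [← ofMul_div]
    rfl
  have hchar : (p : AddMonoid.End (Additive W)) = 0 := by
    apply DFunLike.ext
    intro v
    rw [AddMonoid.End.natCast_apply]
    have h1 : v.toMul ^ p = 1 := Subtype.ext ((hWmem _).mp v.toMul.2)
    show Additive.ofMul (v.toMul ^ p) = 0
    rw [h1, ofMul_one]
  have hfp : f ^ p = 0 := by
    have hAp : A ^ p = 1 := by
      apply DFunLike.ext
      intro v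
      apply Additive.toMul.injective
      apply Subtype.ext
      rw [hA, ← hα, pow_orderOf_eq_one]
      rfl
    rw [hfA]
    obtain ⟨r, hr⟩ := (Commute.neg_one_right A).exists_add_pow_prime_eq hp
    rw [sub_eq_add_neg, hr, hchar, hAp, zero_mul, zero_mul, zero_mul, add_zero]
    rcases hp.eq_two_or_odd' with h2 | h2
    · subst h2
      rw [neg_one_sq, one_add_one_eq_two]
      exact_mod_cast hchar
    · rw [h2.neg_one_pow, add_neg_cancel]
  -- `|ker (f ^ j)| ≤ |ker f| ^ j`
  let K : ℕ → AddSubgroup (Additive W) := fun j =>
    { carrier := {x | (f ^ j) x = 0}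
      zero_mem' := map_zero _
      add_mem' := fun {x y} hx hy => by
        show (f ^ j) (x + y) = 0
        rw [map_add, hx, hy, add_zero]
      neg_mem' := fun {x} hx => by
        show (f ^ j) (-x) = 0
        rw [map_neg, hx, neg_zero] }
  have hker : ∀ j, Nat.card (K j) ≤ Nat.card (K 1) ^ j := by
    intro j
    induction j with
    | zero =>
      rw [pow_zero, AddSubgroup.card_le_one_iff_eq_bot, AddSubgroup.eq_bot_iff_forall]
      intro x hx
      exact hx
    | succ j ih =>
      let g : K (j + 1) →+ Additive W := AddMonoidHom.mk' (fun x => f x.1) fun a b => map_add f _ _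
      have h1 : Nat.card g.range ≤ Nat.card (K j) :=
        AddSubgroup.card_le_of_le (by
          rintro _ ⟨x, rfl⟩
          show (f ^ j) (f x.1) = 0
          rw [← Function.comp_apply (f := f ^ j), ← AddMonoid.End.coe_mul, ← pow_succ]
          exact x.2)
      have h2 : Nat.card g.ker ≤ Nat.card (K 1) :=
        Nat.card_le_card_of_injective (fun x => ⟨x.1.1, by
            show (f ^ 1) x.1.1 = 0
            rw [pow_one]; exact x.2⟩) fun a b h => by
          apply Subtype.ext; apply Subtype.ext
          simpa using congrArg Subtype.val h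
      rw [← g.ker.card_mul_index, AddSubgroup.index_ker, pow_succ']
      exact Nat.mul_le_mul h2 (h1.trans ih)
  have hfix1 : Nat.card (K 1) ≤ p ^ n := by
    rw [← hfix]
    refine Nat.card_le_card_of_injective
      (fun x => ⟨((x : Additive W).toMul : V), ?_⟩) fun a b h => ?_
    · have hx0 : (f ^ 1) (x : Additive W) = 0 := x.2
      rw [pow_one] at hx0
      have hx : F (x : Additive W).toMul = 1 := hx0
      exact div_eq_one.mp (congrArg Subtype.val hx)
    · apply Subtype.ext
      apply Additive.toMul.injective
      exact Subtype.ext (by simpa using congrArg Subtype.val h)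
  have hWcard : Nat.card W ≤ p ^ (p * n) := by
    have h := hker p
    rw [show K p = ⊤ from AddSubgroup.ext fun x => ⟨fun _ => trivial, fun _ => by
      show (f ^ p) x = 0
      rw [hfp]; rfl⟩, AddSubgroup.card_top] at h
    calc Nat.card W = Nat.card (Additive W) := rfl
      _ ≤ _ := h
      _ ≤ (p ^ n) ^ p := Nat.pow_le_pow_left hfix1 p
      _ = _ := by rw [← pow_mul, mul_comm]
  -- the Frattini quotient
  obtain ⟨hc, hp'⟩ := Cfsg.Agent.H19.commutator_pow_mem_frattini hV
  have hrange : (powMonoidHom p : V →* V).range ≤ frattini V := by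
    rintro _ ⟨x, rfl⟩; exact hp' x
  have hidx : (frattini V).index ≤ p ^ (p * n) := by
    refine le_trans ?_ hWcard
    refine le_trans (Nat.le_of_dvd (Nat.pos_of_ne_zero Subgroup.FiniteIndex.index_ne_zero)
      (Subgroup.index_dvd_of_le hrange)) ?_
    have h1 := Subgroup.card_mul_index (powMonoidHom p : V →* V).range
    have h2 := Subgroup.card_mul_index (powMonoidHom p : V →* V).ker
    rw [Subgroup.index_ker, mul_comm] at h2
    exact (Nat.eq_of_mul_eq_mul_left Nat.card_pos (h1.trans h2.symm)).le
  obtain ⟨k, hk⟩ := hV.index (frattini V)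
  haveI : Fintype V := Fintype.ofFinite V
  obtain ⟨T, -, hTc, hTtop⟩ := Cfsg.Agent.H19.exists_basis_subset hp' hc k (frattini V) le_rfl hk
    Finset.univ (by rw [Finset.coe_univ, Subgroup.closure_univ, sup_top_eq])
  refine ⟨T, ?_, frattini_nongenerating (by rw [sup_comm]; exact hTtop)⟩
  rw [hk] at hidx
  rw [hTc]
  exact (Nat.pow_le_pow_iff_right hp.one_lt).mp hidx

end Cfsg.Agent.S3780
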