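import Cfsg.Statements.S0016
import Cfsg.Agent.H21.UniqueSubgroup

set_option autoImplicit false
open Cfsg

namespace Cfsg.Agent.S0016

/-- A finite p-group in which only one subgroup has order p is either cyclic or (with p = 2) isomorphic to a generalized quaternion group. -/
theorem result {G : Type*} [Group G] [Finite G] (p : ℕ) [Fact p.Prime]
    (hG : IsPGroup p G) (huniq : ∀ H K : Subgroup G, Nat.card H = p → Nat.card K = p → H = K) :
    IsCyclic G ∨ (p = 2 ∧ ∃ n : ℕ, Nonempty (G ≃* QuaternionGroup (2 ^ n))) := by
  exact H21.cyclic_or_quaternion p hG huniq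

end Cfsg.Agent.S0016
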