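import Cfsg.Statements.S0018
import Cfsg.Agent.H19.Fitting

set_option autoImplicit false
open Cfsg

namespace Cfsg.Agent.S0018

/-- A finite solvable group whose Sylow p-subgroups are abelian has p-length one: a Sylow p-subgroup together with the largest normal subgroup of order prime to p generates a normal subgroup. -/
theorem result {G : Type*} [Group G] [Finite G] [Group.IsSolvable G]
    (p : ℕ) [Fact p.Prime] (P : Sylow p G) (hP : IsMulCommutative P) :
    ((P : Subgroup G) ⊔ Cfsg.pPrimeCore p G).Normal := by
  exact Cfsg.Agent.H19.sylow_sup_pPrimeCore_normal P hP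

end Cfsg.Agent.S0018
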