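import Cfsg.Statements.S0019
import Cfsg.Agent.H19.Misc

set_option autoImplicit false
open Cfsg

namespace Cfsg.Agent.S0019

/-- A finite group that factorises as H₁H₂ and as H₁H₃ with all three subgroups solvable and the indices of H₂ and H₃ coprime is solvable. -/
theorem result {G : Type*} [Group G] [Finite G] (H₁ H₂ H₃ : Subgroup G)
    (h₁ : Group.IsSolvable H₁) (h₂ : Group.IsSolvable H₂) (h₃ : Group.IsSolvable H₃)
    (h12 : ∀ g : G, ∃ x ∈ H₁, ∃ y ∈ H₂, g = x * y) (h13 : ∀ g : G, ∃ x ∈ H₁, ∃ y ∈ H₃, g = x * y)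
    (hcop : H₂.index.Coprime H₃.index) : Group.IsSolvable G := by
  exact Cfsg.Agent.H19.solvable_of_three H₁ H₂ H₃ h₁ h₂ h₃ h12 h13 hcop

end Cfsg.Agent.S0019
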