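import Cfsg.Statements.S0030
import Cfsg.Agent.H20.FixedPoints

set_option autoImplicit false
open Cfsg

namespace Cfsg.Agent.S0030

/-- Under coprime action fixed points of a product of two invariant subgroups factor: if K = X Y with X and Y normalised by A then every A-fixed element of K is a product of an A-fixed element of X and an A-fixed element of Y. -/
theorem result {G : Type*} [Group G] [Finite G] (A K : Subgroup G) (hAK : A ≤ Subgroup.normalizer (K : Set G))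
    (hcop : (Nat.card A).Coprime (Nat.card K)) (hsolv : Group.IsSolvable A ∨ Group.IsSolvable K)
    (X Y : Subgroup G) (hX : X ≤ K) (hY : Y ≤ K) (hXA : A ≤ Subgroup.normalizer (X : Set G)) (hYA : A ≤ Subgroup.normalizer (Y : Set G))
    (hXY : ∀ k ∈ K, ∃ x ∈ X, ∃ y ∈ Y, k = x * y) (k : G) (hk : k ∈ K ⊓ Subgroup.centralizer (A : Set G)) :
    ∃ x ∈ X ⊓ Subgroup.centralizer (A : Set G), ∃ y ∈ Y ⊓ Subgroup.centralizer (A : Set G), k = x * y := by
  obtain ⟨x, hx, y, hy, rfl⟩ := hXY k hk.1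
  have hD : ∀ a ∈ A, x⁻¹ * (a * x * a⁻¹) ∈ X ⊓ Y := by
    intro a ha
    have e : x * y * a = a * (x * y) := (Subgroup.mem_centralizer_iff.mp hk.2 a ha).symm
    have e' : x⁻¹ * (a * x * a⁻¹) = y * (a * y * a⁻¹)⁻¹ := by
      calc x⁻¹ * (a * x * a⁻¹) = x⁻¹ * (a * (x * y)) * y⁻¹ * a⁻¹ := by group
        _ = x⁻¹ * (x * y * a) * y⁻¹ * a⁻¹ := by rw [e]
        _ = y * (a * y * a⁻¹)⁻¹ := by group
    refine Subgroup.mem_inf.mpr
      ⟨mul_mem (inv_mem hx) (Cfsg.Agent.H20.conj_mem_of_le_normalizer hXA ha hx), ?_⟩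
    rw [e']
    exact mul_mem hy (inv_mem (Cfsg.Agent.H20.conj_mem_of_le_normalizer hYA ha hy))
  obtain ⟨c, hc, hxc⟩ := Cfsg.Agent.H20.exists_fixed_mem_coset (K := X)
    (Cfsg.Agent.H20.coprime_card_mono_right hcop hX)
    (Cfsg.Agent.H20.solvable_or_mono hsolv le_rfl hX) inf_le_left
    (Cfsg.Agent.H20.le_normalizer_inf hXA hYA) hx hD
  refine ⟨c, hc, c⁻¹ * (x * y), Subgroup.mem_inf.mpr ⟨?_, mul_mem (inv_mem (Subgroup.mem_inf.mp hc).2) (Subgroup.mem_inf.mp hk).2⟩,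
    (mul_inv_cancel_left _ _).symm⟩
  have := mul_mem (inv_mem (Subgroup.mem_inf.mp hxc).2) hy
  simpa [mul_assoc] using this

end Cfsg.Agent.S0030
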