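import Cfsg.Statements.S0039
import Cfsg.Agent.H21.FrobeniusBasic

set_option autoImplicit false
open Cfsg

namespace Cfsg.Agent.S0039

/-- In a finite group that is a semidirect product of a normal subgroup K by a nontrivial subgroup H, H is a Frobenius complement exactly when each nonidentity element of H acts without nonidentity fixed points on K by conjugation. -/
theorem result {G : Type*} [Group G] [Finite G] (K H : Subgroup G) [K.Normal]
    (hc : Subgroup.IsComplement' K H) (hK : K ≠ ⊥) (hH : H ≠ ⊥) :
    Cfsg.IsFrobeniusComplement H ↔ ∀ h ∈ H, h ≠ 1 → K ⊓ Subgroup.centralizer {h} = ⊥ := by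
  exact ⟨fun h x hx hx1 => H21.fpf_of_fc h hc.disjoint hx hx1,
    fun h => H21.fc_of_fpf hc hK hH h⟩

end Cfsg.Agent.S0039
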