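import Cfsg.Statements.S0046
import Cfsg.Agent.H19.Schmidt

set_option autoImplicit false
open Cfsg

namespace Cfsg.Agent.S0046

/-- Schmidt's Theorem on minimal non-nilpotent groups: a finite group in which every maximal subgroup is nilpotent is solvable. -/
theorem result {G : Type*} [Group G] [Finite G]
    (h : ∀ M : Subgroup G, IsCoatom M → Group.IsNilpotent M) : Group.IsSolvable G := by
  exact Cfsg.Agent.H19.solvable_of_maximal_nilpotent h

end Cfsg.Agent.S0046
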