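import Cfsg.Statements.S0054
import Mathlib.GroupTheory.GroupAction.MultipleTransitivity
import Mathlib.GroupTheory.Sylow

set_option autoImplicit false
open Cfsg

namespace Cfsg.Agent.S0054

/-- A regular normal subgroup of a finite 2-transitive group is elementary abelian: it is commutative and all its elements have order dividing one prime. -/
theorem result {G : Type*} [Group G] [Finite G]
    {X : Type*} [Nonempty X] [MulAction G X] (h2 : MulAction.IsMultiplyPretransitive G X 2)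
    (N : Subgroup G) [N.Normal] (htrans : MulAction.IsPretransitive N X) (hreg : ∀ x : X, MulAction.stabilizer N x = ⊥) :
    IsMulCommutative N ∧ ∃ p : ℕ, p.Prime ∧ ∀ n ∈ N, n ^ p = 1 := by
  obtain ⟨x₀⟩ := ‹Nonempty X›
  have hconj : ∀ n ∈ N, ∀ m ∈ N, n ≠ 1 → m ≠ 1 → ∃ g : G, g * n * g⁻¹ = m := by
    intro n hn m hm hn1 hm1
    have hmov : ∀ k ∈ N, k ≠ 1 → k • x₀ ≠ x₀ := fun k hk hk1 h => hk1 (congrArg Subtype.val
      ((Subgroup.eq_bot_iff_forall _).mp (hreg x₀) ⟨k, hk⟩ h))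
    obtain ⟨g, hg1, hg2⟩ := MulAction.is_two_pretransitive_iff.mp h2 (hmov n hn hn1).symm
      (hmov m hm hm1).symm
    refine ⟨g, ?_⟩
    have hmem : m⁻¹ * (g * n * g⁻¹) ∈ N :=
      mul_mem (inv_mem hm) (Subgroup.Normal.conj_mem ‹N.Normal› n hn g)
    have h3 : (m⁻¹ * (g * n * g⁻¹)) • x₀ = x₀ := by
      have h4 : g⁻¹ • x₀ = x₀ := inv_smul_eq_iff.mpr hg1.symm
      rw [mul_smul, mul_smul, mul_smul, h4, hg2, inv_smul_smul]
    exact (inv_mul_eq_one.mp (congrArg Subtype.val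
      ((Subgroup.eq_bot_iff_forall _).mp (hreg x₀) ⟨_, hmem⟩ h3))).symm
  by_cases hN : N = ⊥
  · subst hN
    exact ⟨inferInstance, 2, Nat.prime_two, fun n hn => by rw [Subgroup.mem_bot.mp hn, one_pow]⟩
  have := (Subgroup.nontrivial_iff_ne_bot N).mpr hN
  obtain ⟨p, hp, hdvd⟩ := Nat.exists_prime_and_dvd (Finite.one_lt_card (α := N)).ne'
  have := Fact.mk hp
  obtain ⟨⟨a, haN⟩, ha⟩ := exists_prime_orderOf_dvd_card' (G := N) p hdvd
  rw [Subgroup.orderOf_mk] at ha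
  have ha1 : a ≠ 1 := fun h => hp.ne_one (by rw [← ha, h, orderOf_one])
  have hpow : ∀ n ∈ N, n ^ p = 1 := by
    intro n hn
    by_cases hn1 : n = 1
    · rw [hn1, one_pow]
    obtain ⟨g, hg⟩ := hconj a haN n hn ha1 hn1
    rw [← hg, conj_pow, ← ha, pow_orderOf_eq_one, mul_one, mul_inv_cancel]
  have hP : IsPGroup p N := fun n => ⟨1, Subtype.ext (by simpa using hpow n n.2)⟩
  have := hP.center_nontrivial
  obtain ⟨⟨⟨z, hzN⟩, hz⟩, hz1⟩ := exists_ne (1 : Subgroup.center N)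
  have hz1' : z ≠ 1 := fun h => hz1 (Subtype.ext (Subtype.ext h))
  refine ⟨⟨⟨fun ⟨n, hn⟩ ⟨m, hm⟩ => Subtype.ext ?_⟩⟩, p, hp, hpow⟩
  change n * m = m * n
  by_cases hn1 : n = 1
  · rw [hn1, one_mul, mul_one]
  obtain ⟨g, hg⟩ := hconj z hzN n hn hz1' hn1
  have h4 : g⁻¹ * m * g * z = z * (g⁻¹ * m * g) := congrArg Subtype.val
    (Subgroup.mem_center_iff.mp hz ⟨g⁻¹ * m * g, by
      simpa using Subgroup.Normal.conj_mem ‹N.Normal› m hm g⁻¹⟩)
  rw [← hg]
  calc g * z * g⁻¹ * m = g * (z * (g⁻¹ * m * g)) * g⁻¹ := by group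
    _ = g * (g⁻¹ * m * g * z) * g⁻¹ := by rw [h4]
    _ = m * (g * z * g⁻¹) := by group

end Cfsg.Agent.S0054
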