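import Cfsg.Statements.S0060
import Cfsg.Agent.H20.Basic
import Cfsg.Agent.H90.Brodkey

set_option autoImplicit false
open Pointwise
open Cfsg

namespace Cfsg.Agent.S0060

/-- Brodkey's Theorem: in a finite group with abelian Sylow p-subgroups and no nontrivial normal p-subgroup, some conjugate of a Sylow p-subgroup meets it trivially. -/
theorem result {G : Type*} [Group G] [Finite G] (p : ℕ) [Fact p.Prime]
    (S : Sylow p G) (hS : IsMulCommutative S) (hOp : Cfsg.pCore p G = ⊥) :
    ∃ g : G, (S : Subgroup G) ⊓ MulAut.conj g • (S : Subgroup G) = ⊥ := by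
  obtain ⟨P, Q, hPQ⟩ := Cfsg.Agent.H90.brodkey_exists (G := G) (p := p) fun R => by
    obtain ⟨g, rfl⟩ := MulAction.exists_smul_eq G S R
    haveI := hS
    exact inferInstanceAs (IsMulCommutative ↥((S : Subgroup G).map (MulAut.conj g).toMonoidHom))
  obtain ⟨a, ha⟩ := MulAction.exists_smul_eq G P S
  obtain ⟨b, hb⟩ := MulAction.exists_smul_eq G S (a • Q)
  refine ⟨b, ?_⟩
  rw [hOp, le_bot_iff] at hPQ
  have h := congrArg (fun K : Subgroup G => MulAut.conj a • K) hPQ
  simp only [Subgroup.smul_inf, Subgroup.smul_bot] at h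
  rw [← Sylow.coe_subgroup_smul, ha, ← Sylow.coe_subgroup_smul, ← hb,
    Sylow.coe_subgroup_smul] at h
  exact h

end Cfsg.Agent.S0060
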