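import Cfsg.Statements.S0063
import Mathlib.GroupTheory.Nilpotent
import Mathlib.GroupTheory.PGroup

set_option autoImplicit false
open Cfsg

namespace Cfsg.Agent.S0063

/-- A finite group of prime-power order p ^ m with m > 1 is nilpotent of class at most m - 1. -/
theorem result {G : Type*} [Group G] [Finite G] (p m : ℕ) [Fact p.Prime]
    (hG : Nat.card G = p ^ m) (hm : 1 < m) : Group.nilpotencyClass G ≤ m - 1 := by
  have key : ∀ (m : ℕ) (P : Type _) [Group P] [Finite P], Nat.card P = p ^ m →
      Group.nilpotencyClass P ≤ max 1 (m - 1) := by
    intro m
    induction m using Nat.strong_induction_on with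
    | _ m ih =>
      intro P _ _ hP
      have hp' := IsPGroup.of_card hP
      have := hp'.isNilpotent
      rcases subsingleton_or_nontrivial P with hs | hs
      · exact (Group.nilpotencyClass_zero_iff_subsingleton.mpr hs).trans_le (Nat.zero_le _)
      by_cases hm2 : m ≤ 2
      · have hc : ∀ a b : P, a * b = b * a := by
          interval_cases m
          · exact absurd (pow_zero p ▸ hP) Finite.one_lt_card.ne'
          · rw [pow_one] at hP
            have := isCyclic_of_prime_card hP
            exact fun a b => mul_comm' a b
          · exact (IsPGroup.isMulCommutative_of_card_eq_prime_sq hP).is_comm.comm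
        let _ : CommGroup P := { ‹Group P› with mul_comm := hc }
        exact le_max_of_le_left CommGroup.nilpotencyClass_le_one
      rw [Group.nilpotencyClass_eq_quotient_center_plus_one]
      obtain ⟨k, hk⟩ := (hp'.to_quotient (Subgroup.center P)).exists_card_eq
      have hlt : k < m := by
        refine (Nat.pow_lt_pow_iff_right (Fact.out : p.Prime).one_lt).mp ?_
        rw [← hk, ← hP, Subgroup.card_eq_card_quotient_mul_card_subgroup (Subgroup.center P)]
        exact lt_mul_of_one_lt_right Nat.card_pos
          ((Subgroup.one_lt_card_iff_ne_bot _).mpr (Group.IsNilpotent.center_ne_bot P))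
      have := ih k hlt _ hk
      omega
  refine (key m G hG).trans ?_
  omega

end Cfsg.Agent.S0063
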