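import Cfsg.Statements.S0064
import Mathlib.GroupTheory.IsSubnormal
import Mathlib.GroupTheory.Nilpotent

set_option autoImplicit false
open Cfsg

namespace Cfsg.Agent.S0064

/-- A finite group is nilpotent exactly when each of its subgroups is subnormal. -/
theorem result {G : Type*} [Group G] [Finite G] :
    Group.IsNilpotent G ↔ ∀ H : Subgroup G, H.IsSubnormal := by
  refine ⟨fun hn H => ?_, fun h => ?_⟩
  · induction H using WellFoundedGT.induction with
    | _ H ih =>
      rcases eq_or_ne H ⊤ with rfl | hH
      · exact .top
      have hlt := Group.normalizerCondition_of_isNilpotent H hH.lt_top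
      exact .step H _ hlt.le (ih _ hlt) Subgroup.normal_in_normalizer
  · refine (Group.isNilpotent_of_finite_tfae.out 2 0 rfl rfl).mp fun H hH => ?_
    obtain ⟨K, hK, hHK, hlt⟩ := (h H).exists_normal_and_le_and_lt_top_of_ne hH.1
    rcases eq_or_lt_of_le hHK with rfl | hlt'
    · exact hK
    · exact absurd (hH.2 K hlt') hlt.ne

end Cfsg.Agent.S0064
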