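import Cfsg.Statements.S0066
import Cfsg.Agent.H21.Wielandt

set_option autoImplicit false
open Pointwise
open Cfsg

namespace Cfsg.Agent.S0066

/-- Wielandt's subnormality criterion: a subgroup that is subnormal in its join with each of its conjugates is subnormal in the whole finite group. -/
theorem result {G : Type*} [Group G] [Finite G] (A : Subgroup G)
    (h : ∀ g : G, (A.subgroupOf (A ⊔ MulAut.conj g • A)).IsSubnormal) : A.IsSubnormal := by
  exact H21.wielandt_criterion h

end Cfsg.Agent.S0066
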