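import Cfsg.Statements.S0067
import Cfsg.Agent.H28.BaerSuzuki
import Cfsg.Agent.H19.Cores

set_option autoImplicit false
open Pointwise
open Cfsg

namespace Cfsg.Agent.S0067

/-- If the join of a subgroup A with each of its conjugates is nilpotent, then A is subnormal in the finite group and contained in the Fitting subgroup. -/
theorem result {G : Type*} [Group G] [Finite G] (A : Subgroup G)
    (h : ∀ g : G, Group.IsNilpotent (A ⊔ MulAut.conj g • A : Subgroup G)) : A.IsSubnormal ∧ A ≤ Cfsg.fittingSubgroup G := by
  have hle : A ≤ Cfsg.fittingSubgroup G := by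
    have hA : Group.IsNilpotent A := by
      have := h 1
      rw [map_one, one_smul, sup_idem] at this
      exact this
    rw [← A.range_subtype, MonoidHom.range_eq_map]
    -- `A` is generated by its Sylow subgroups
    suffices hgen : ∀ (p : ℕ) [Fact p.Prime] (P : Sylow p A),
        ((P : Subgroup A).map A.subtype) ≤ Cfsg.fittingSubgroup G by
      rw [Subgroup.map_le_iff_le_comap, top_le_iff]
      refine Subgroup.index_eq_one.mp (Nat.eq_one_iff_not_exists_prime_dvd.mpr fun p hp hdvd => ?_)
      have := Fact.mk hp
      obtain ⟨P⟩ : Nonempty (Sylow p A) := inferInstance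
      exact P.not_dvd_index (hdvd.trans (Subgroup.index_dvd_of_le
        (Subgroup.map_le_iff_le_comap.mp (hgen p P))))
    intro p _ P
    obtain ⟨N, hN, hNp, hPN⟩ := H28.baer_suzuki_subgroup (p := p) ((P : Subgroup A).map A.subtype) (fun g => by
      set X := (P : Subgroup A).map A.subtype with hX
      set J := A ⊔ MulAut.conj g • A with hJ
      have hXJ : X ≤ J := (Subgroup.map_subtype_le _).trans le_sup_left
      have hX'J : X.map (MulAut.conj g).toMonoidHom ≤ J :=
        (Subgroup.map_mono (Subgroup.map_subtype_le _)).trans le_sup_right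
      have : Group.IsNilpotent J := h g
      obtain ⟨S⟩ : Nonempty (Sylow p J) := inferInstance
      have hS : (S : Subgroup J).Normal := inferInstance
      have hmem : ∀ Y : Subgroup G, Y ≤ J → IsPGroup p Y → Y ≤ (S : Subgroup J).map J.subtype := by
        intro Y hYJ hY y hy
        obtain ⟨T, hT⟩ := (hY.comap_of_injective _ J.subtype_injective).exists_le_sylow
        have := Sylow.unique_of_normal S hS
        have hTS : T = S := Subsingleton.elim _ _
        exact ⟨⟨y, hYJ hy⟩, hTS ▸ hT (show (⟨y, hYJ hy⟩ : J) ∈ Y.comap J.subtype from hy), rfl⟩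
      exact (S.2.map J.subtype).to_le (sup_le (hmem X hXJ (P.2.map _))
        (hmem _ hX'J ((P.2.map _).map _))))
    exact hPN.trans ((H19.le_pCore hN hNp).trans (H19.pCore_le_fitting p))
  refine ⟨?_, hle⟩
  have := H19.fitting_normal G
  have : Group.IsNilpotent (Cfsg.fittingSubgroup G) := H19.fitting_isNilpotent
  refine Subgroup.IsSubnormal.trans hle ?_ (H19.fitting_normal G).isSubnormal
  generalize A.subgroupOf (Cfsg.fittingSubgroup G) = B
  induction B using WellFoundedGT.induction with
  | _ B ih =>
    rcases eq_or_ne B ⊤ with rfl | hB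
    · exact .top
    have hlt := Group.normalizerCondition_of_isNilpotent B hB.lt_top
    exact .step B _ hlt.le (ih _ hlt) Subgroup.normal_in_normalizer

end Cfsg.Agent.S0067
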