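import Cfsg.Statements.S0068
import Cfsg.Agent.H21.Complement

set_option autoImplicit false
open Cfsg

namespace Cfsg.Agent.S0068

/-- Frobenius complements of even order: if H complements a nontrivial normal subgroup K, each nonidentity element of H has trivial centraliser in K, and H has even order, then H contains a unique involution s, K is abelian, and s inverts every element of K. -/
theorem result {G : Type*} [Group G] [Finite G] (K H : Subgroup G) [K.Normal]
    (hc : Subgroup.IsComplement' K H) (hK : K ≠ ⊥) (hfpf : ∀ h ∈ H, h ≠ 1 → K ⊓ Subgroup.centralizer {h} = ⊥)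
    (heven : 2 ∣ Nat.card H) :
    (∃ s ∈ H, orderOf s = 2 ∧ (∀ t ∈ H, orderOf t = 2 → t = s) ∧ ∀ k ∈ K, s * k * s⁻¹ = k⁻¹) ∧ IsMulCommutative K := by
  have hfpf' := H21.conjHom_fpf (H21.le_normalizer_of_normal K H) hfpf
  have : Nontrivial K := (Subgroup.nontrivial_iff_ne_bot K).mpr hK
  obtain ⟨hc', s, hs, -, huniq, hinv⟩ := H21.even_fpf _ hfpf' heven
  refine ⟨⟨s, s.2, by rw [Subgroup.orderOf_coe]; exact hs, fun t ht ho => ?_, fun k hk => ?_⟩, hc'⟩
  · exact congrArg Subtype.val (huniq ⟨t, ht⟩ (by rwa [Subgroup.orderOf_mk]))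
  · exact congrArg Subtype.val (hinv ⟨k, hk⟩)

end Cfsg.Agent.S0068
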