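import Cfsg.Statements.S0078
import Cfsg.Agent.H22.Fusion
import Cfsg.Agent.H22.Tate

set_option autoImplicit false
open Cfsg

namespace Cfsg.Agent.S0078

/-- In a p-normal group, a Sylow p-subgroup P meets O^p(G) exactly where it meets O^p(V), for any subgroup V containing the normalizer of the centre of P. -/
theorem result {G : Type*} [Group G] [Finite G] {p : ℕ} [Fact p.Prime] (P : Sylow p G) (hn : ∀ Q : Sylow p G, (P : Subgroup G) ⊓ Subgroup.centralizer (P : Set G) ≤ (Q : Subgroup G) → (Q : Subgroup G) ⊓ Subgroup.centralizer (Q : Set G) = (P : Subgroup G) ⊓ Subgroup.centralizer (P : Set G)) (V : Subgroup G) (hV : Subgroup.normalizer (((P : Subgroup G) ⊓ Subgroup.centralizer (P : Set G) : Subgroup G) : Set G) ≤ V) : (P : Subgroup G) ⊓ Cfsg.pResidual p G = (P : Subgroup G) ⊓ (Cfsg.pResidual p V).map V.subtype := by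
  set Z : Subgroup G := (P : Subgroup G) ⊓ Subgroup.centralizer (P : Set G) with hZdef
  have hW : IsWeaklyClosed Z (P : Subgroup G) := by
    refine ⟨inf_le_left, fun g hg => ?_⟩
    have hle : Z ≤ ((g⁻¹ • P : Sylow p G) : Subgroup G) := fun z hz => by
      refine Cfsg.Agent.H22.mem_smul_sylow.mpr ?_
      simpa using hg ⟨z, hz, rfl⟩
    have h1 := hn (g⁻¹ • P) hle
    ext y
    constructor
    · rintro ⟨z, hz, rfl⟩
      rw [← h1] at hz
      obtain ⟨hz1, hz2⟩ := hz
      refine ⟨?_, Subgroup.mem_centralizer_iff.mpr fun w hw => ?_⟩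
      · simpa using! Cfsg.Agent.H22.mem_smul_sylow.mp hz1
      · have hw' := Subgroup.mem_centralizer_iff.mp hz2 (g⁻¹ * w * g) (by
          have := Cfsg.Agent.H22.conj_mem_smul_sylow (g := g⁻¹) (P := P) hw
          simpa using! this)
        simp only [MulEquiv.toMonoidHom_eq_coe, MonoidHom.coe_coe, MulAut.conj_apply]
        calc w * (g * z * g⁻¹) = g * ((g⁻¹ * w * g) * z) * g⁻¹ := by group
          _ = g * (z * (g⁻¹ * w * g)) * g⁻¹ := by rw [hw']
          _ = (g * z * g⁻¹) * w := by group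
    · intro hy
      refine ⟨g⁻¹ * y * g, ?_, by simp [mul_assoc]⟩
      rw [← h1]
      refine ⟨?_, Subgroup.mem_centralizer_iff.mpr fun w hw => ?_⟩
      · exact Cfsg.Agent.H22.mem_smul_sylow.mpr (by simpa [mul_assoc] using! hy.1)
      · have hwP : g * w * g⁻¹ ∈ (P : Subgroup G) := by
          simpa using Cfsg.Agent.H22.mem_smul_sylow.mp hw
        have hy' := Subgroup.mem_centralizer_iff.mp hy.2 _ hwP
        calc w * (g⁻¹ * y * g) = g⁻¹ * ((g * w * g⁻¹) * y) * g := by group
          _ = g⁻¹ * (y * (g * w * g⁻¹)) * g := by rw [hy']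
          _ = (g⁻¹ * y * g) * w := by group
  have hPV : (P : Subgroup G) ≤ V := fun x hx => by
    refine hV (Subgroup.centralizer_le_normalizer (Z : Set G) ?_)
    exact Subgroup.mem_centralizer_iff.mpr fun z hz =>
      (Subgroup.mem_centralizer_iff.mp hz.2 x hx).symm
  have hgr := Cfsg.Agent.H22.commutator_inf_sylow_of_controls P V hPV fun x hx g hgx => by
    obtain ⟨n, hn', hn''⟩ := Cfsg.Agent.H22.gruen_controls P Z inf_le_right hW x hx g hgx
    exact ⟨n, hV hn', hn''⟩
  refine le_antisymm (le_inf inf_le_left (Cfsg.Agent.H22.tate P V hPV fun M hM hMp => ?_))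
    (inf_le_inf_left _ (Cfsg.Agent.H22.map_pResidual_le V.subtype))
  rw [inf_comm, hgr, ← Subgroup.map_subtype_commutator]
  refine inf_le_left.trans (Subgroup.map_mono ?_)
  refine Subgroup.Normal.quotient_commutative_iff_commutator_le.mp ?_
  have : Nat.card (V ⧸ M) = p := hMp
  have : IsCyclic (V ⧸ M) := isCyclic_of_prime_card this
  infer_instance

end Cfsg.Agent.S0078
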