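import Cfsg.Statements.S0083
import Cfsg.Agent.H22.AbelianSylow

set_option autoImplicit false
open Cfsg

namespace Cfsg.Agent.S0083

/-- For an abelian Sylow p-subgroup P, a normal p-complement exists exactly when the normalizer of P is an internal direct product of P with some subgroup. -/
theorem result {G : Type*} [Group G] [Finite G] {p : ℕ} [Fact p.Prime] (P : Sylow p G) (hP : IsMulCommutative P) : Cfsg.HasNormalPComplement p G ↔ ∃ Q : Subgroup G, Q ≤ Subgroup.centralizer (P : Set G) ∧ Q ⊓ (P : Subgroup G) = ⊥ ∧ Q ⊔ (P : Subgroup G) = Subgroup.normalizer (P : Set G) := by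
  exact Cfsg.Agent.H22.abelian_sylow_splits_iff P hP

end Cfsg.Agent.S0083
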