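import Cfsg.Statements.S0084
import Cfsg.Agent.H22.SmallSylow

set_option autoImplicit false
open Cfsg

namespace Cfsg.Agent.S0084

/-- A group whose Sylow 2-subgroups are Klein four-groups and whose order is prime to 3 has a normal 2-complement. -/
theorem result {G : Type*} [Group G] [Finite G] (T : Sylow 2 G) (hT : IsKleinFour T) (h3 : ¬ 3 ∣ Nat.card G) : Cfsg.HasNormalPComplement 2 G := by
  exact Cfsg.Agent.H22.klein_four_sylow_normal_complement T hT h3

end Cfsg.Agent.S0084
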