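import Cfsg.Statements.S0085
import Cfsg.Agent.H22.SmallSylow

set_option autoImplicit false
open Cfsg

namespace Cfsg.Agent.S0085

/-- A group whose Sylow 2-subgroups are elementary abelian of order 8 and whose order is prime to 3 and to 7 has a normal 2-complement. -/
theorem result {G : Type*} [Group G] [Finite G] (T : Sylow 2 G) (h8 : Nat.card T = 8) (he : ∀ x : T, x * x = 1) (h3 : ¬ 3 ∣ Nat.card G) (h7 : ¬ 7 ∣ Nat.card G) : Cfsg.HasNormalPComplement 2 G := by
  exact Cfsg.Agent.H22.elementary_eight_normal_complement T h8 he h3 h7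

end Cfsg.Agent.S0085
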