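import Cfsg.Statements.S0087
import Cfsg.Agent.H22.FocalTransfer
import Cfsg.Agent.H33.NilpotentHall

set_option autoImplicit false
open scoped Pointwise
open Cfsg

namespace Cfsg.Agent.S0087

/-- A Hall subgroup that is central in its normalizer has a normal complement. -/
theorem result {G : Type*} [Group G] [Finite G] (H : Subgroup G) (hHall : Nat.Coprime (Nat.card H) H.index) (h : Subgroup.normalizer (H : Set G) ≤ Subgroup.centralizer (H : Set G)) : ∃ N : Subgroup G, N.Normal ∧ N.IsComplement' H := by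
  have hHC : H ≤ Subgroup.centralizer (H : Set G) := Subgroup.le_normalizer.trans h
  have hcomm : IsMulCommutative H := IsMulCommutative.of_comm fun a b =>
    Subtype.ext (Subgroup.mem_centralizer_iff.mp (hHC b.2) a a.2)
  have hnil : Group.IsNilpotent H := by
    open scoped IsMulCommutative in infer_instance
  have hfus : ∀ x ∈ H, ∀ g : G, g * x * g⁻¹ ∈ H → ∃ n ∈ (⊥ : Subgroup G), n * x * n⁻¹ = g * x * g⁻¹ := by
    intro x hx g hgx
    refine ⟨1, Subgroup.one_mem _, ?_⟩
    set y := g * x * g⁻¹ with hy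
    set M := Subgroup.centralizer ({y} : Set G)
    have hHM : H ≤ M := fun a ha => Subgroup.mem_centralizer_singleton_iff.mpr
      (Subgroup.mem_centralizer_iff.mp (hHC hgx) a ha)
    set H' := H.map (MulAut.conj g).toMonoidHom with hH'
    have hH'M : H' ≤ M := by
      rintro _ ⟨a, ha, rfl⟩
      refine Subgroup.mem_centralizer_singleton_iff.mpr ?_
      have h0 : a * x = x * a := Subgroup.mem_centralizer_iff.mp (hHC hx) a ha
      simp only [MulEquiv.toMonoidHom_eq_coe, MonoidHom.coe_coe, MulAut.conj_apply, hy]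
      calc g * a * g⁻¹ * (g * x * g⁻¹) = g * (a * x) * g⁻¹ := by group
        _ = g * (x * a) * g⁻¹ := by rw [h0]
        _ = g * x * g⁻¹ * (g * a * g⁻¹) := by group
    have hcard : Nat.card H' = Nat.card H :=
      Subgroup.card_map_of_injective (MulAut.conj g).injective
    have e1 : Nat.card (H.subgroupOf M) = Nat.card H :=
      Nat.card_congr (Subgroup.subgroupOfEquivOfLe hHM).toEquiv
    have e2 : Nat.card (H'.subgroupOf M) = Nat.card H := by
      rw [Nat.card_congr (Subgroup.subgroupOfEquivOfLe hH'M).toEquiv, hcard]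
    have hnil' : Group.IsNilpotent (H.subgroupOf M) :=
      Group.nilpotent_of_mulEquiv (Subgroup.subgroupOfEquivOfLe hHM).symm
    obtain ⟨m, hm⟩ := Cfsg.Agent.H33.exists_conj_of_nilpotent_hall _ (H.subgroupOf M) (H'.subgroupOf M)
      hnil' (e1 ▸ hHall.coprime_dvd_right (Subgroup.relIndex_dvd_index_of_le hHM))
      (fun q _ hd => e1 ▸ (e2 ▸ hd)) rfl
    have hmem : (m : G)⁻¹ * g ∈ Subgroup.normalizer (H : Set G) := by
      have hle : H.map (MulAut.conj ((m : G)⁻¹ * g)).toMonoidHom ≤ H := by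
        rintro _ ⟨a, ha, rfl⟩
        have h1 : (⟨g * a * g⁻¹, hH'M ⟨a, ha, rfl⟩⟩ : M) ∈ MulAut.conj m • H.subgroupOf M :=
          hm (show g * a * g⁻¹ ∈ H' from ⟨a, ha, rfl⟩)
        rw [Subgroup.mem_pointwise_smul_iff_inv_smul_mem] at h1
        simpa [Subgroup.mem_subgroupOf, mul_assoc] using h1
      have heq : H.map (MulAut.conj ((m : G)⁻¹ * g)).toMonoidHom = H :=
        Subgroup.eq_of_le_of_card_ge hle
          (Subgroup.card_map_of_injective (MulAut.conj ((m : G)⁻¹ * g)).injective).ge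
      refine Subgroup.mem_normalizer_iff.mpr fun a => ⟨fun ha => heq.le ⟨a, ha, rfl⟩, fun ha => ?_⟩
      rw [← heq] at ha
      obtain ⟨b, hb, hb'⟩ := ha
      exact (MulAut.conj ((m : G)⁻¹ * g)).injective hb' ▸ hb
    have h2 := Subgroup.mem_centralizer_iff.mp (h hmem) x hx
    have h3 : (m : G) * y = y * m := Subgroup.mem_centralizer_singleton_iff.mp m.2
    calc (1 : G) * x * 1⁻¹ = (x * ((m : G)⁻¹ * g)) * ((m : G)⁻¹ * g)⁻¹ := by group
      _ = (((m : G)⁻¹ * g) * x) * ((m : G)⁻¹ * g)⁻¹ := by rw [h2]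
      _ = (m : G)⁻¹ * y * m := by rw [hy]; group
      _ = (m : G)⁻¹ * ((m : G) * y) := by rw [h3]; group
      _ = y := by group
  have hcop : Nat.Coprime H.index (⁅H, H⁆.relIndex H) :=
    (hHall.coprime_dvd_left (Subgroup.relIndex_dvd_card _ _)).symm
  have hfoc : H.focalSubgroup = ⊥ := le_bot_iff.mp
    ((Cfsg.Agent.H22.focalSubgroup_le_commutator_of_controls H ⊥ hfus).trans
      (Subgroup.commutator_bot_right H).le)
  refine ⟨_, MonoidHom.normal_ker H.transferFocal, Subgroup.isComplement'_of_disjoint_and_mul_eq_univ ?_ ?_⟩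
  · rw [disjoint_iff, Cfsg.Agent.H22.ker_transferFocal_inf H hcop, hfoc]
  · rw [← Subgroup.normal_mul, Cfsg.Agent.H22.ker_transferFocal_sup H hcop, Subgroup.coe_top]

end Cfsg.Agent.S0087
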