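import Cfsg.Statements.S0089
import Cfsg.Agent.H22.AbelianHall

set_option autoImplicit false
open Cfsg

namespace Cfsg.Agent.S0089

/-- When all Sylow subgroups are abelian, the derived subgroup meets the centre trivially. -/
theorem result {G : Type*} [Group G] [Finite G] (h : ∀ p : ℕ, p.Prime → ∀ P : Sylow p G, IsMulCommutative P) : commutator G ⊓ Subgroup.center G = ⊥ := by
  refine le_bot_iff.mp fun x hx => Subgroup.mem_bot.mpr ?_
  by_contra hx1
  obtain ⟨q, hq, hqd⟩ := Nat.exists_prime_and_dvd (mt orderOf_eq_one_iff.mp hx1)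
  haveI : Fact q.Prime := ⟨hq⟩
  have hord : orderOf (x ^ (orderOf x / q)) = q := orderOf_pow_orderOf_div (orderOf_pos x).ne' hqd
  set y := x ^ (orderOf x / q)
  have hy : y ∈ commutator G ⊓ Subgroup.center G := pow_mem hx _
  obtain ⟨P, hP⟩ := (IsPGroup.of_card (n := 1) (by rw [Nat.card_zpowers, hord, pow_one]) :
    IsPGroup q (Subgroup.zpowers y)).exists_le_sylow
  have h1 := Cfsg.Agent.H22.abelian_hall_inf_commutator_inf_center (P : Subgroup G) (h q hq P)
    P.card_coprime_index
  have h2 : y ∈ (P : Subgroup G) ⊓ commutator G ⊓ Subgroup.center G :=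
    ⟨⟨hP (Subgroup.mem_zpowers y), hy.1⟩, hy.2⟩
  rw [h1, Subgroup.mem_bot] at h2
  rw [h2, orderOf_one] at hord
  exact hq.ne_one hord.symm

end Cfsg.Agent.S0089
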