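import Cfsg.Statements.S0090
import Cfsg.Agent.H22.AbelianHall

set_option autoImplicit false
open Cfsg

namespace Cfsg.Agent.S0090

/-- An abelian normal Hall subgroup A splits as the internal direct product of G' ∩ A and Z(G) ∩ A, and [A, G] = G' ∩ A. -/
theorem result {G : Type*} [Group G] [Finite G] (A : Subgroup G) [A.Normal] (hc : IsMulCommutative A) (hHall : Nat.Coprime (Nat.card A) A.index) : ⁅A, (⊤ : Subgroup G)⁆ = commutator G ⊓ A ∧ (commutator G ⊓ A) ⊓ (Subgroup.center G ⊓ A) = ⊥ ∧ (commutator G ⊓ A) ⊔ (Subgroup.center G ⊓ A) = A := by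
  exact Cfsg.Agent.H22.abelian_normal_hall_decomposition A hc hHall

end Cfsg.Agent.S0090
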