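import Cfsg.Statements.S0091
import Mathlib
-- import your own Cfsg.Agent.* helpers here

set_option autoImplicit false
open Cfsg
open scoped commutatorElement

namespace Cfsg.Agent.S0091

/-- If a nontrivial Sylow p-subgroup controls its own fusion then it is not contained in the derived subgroup. -/
theorem result {G : Type*} [Group G] [Finite G] {p : ℕ} [Fact p.Prime] (P : Sylow p G) (hp : p ∣ Nat.card G) (h : ∀ x ∈ P, ∀ y ∈ P, (∃ g : G, g * x * g⁻¹ = y) → ∃ z ∈ P, z * x * z⁻¹ = y) : ¬ (P : Subgroup G) ≤ commutator G := by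
  have : Nontrivial (P : Subgroup G) := by
    rw [Subgroup.nontrivial_iff_ne_bot]
    exact P.ne_bot_of_dvd_card hp
  have hfoc : (P : Subgroup G).focalSubgroup ≤ ⁅(P : Subgroup G), (P : Subgroup G)⁆ := by
    rw [Subgroup.focalSubgroup_def, Subgroup.closure_le]
    rintro g ⟨hg, x, hx, u, rfl⟩
    rw [commutatorElement_def] at hg ⊢
    have hy : u * x⁻¹ * u⁻¹ ∈ (P : Subgroup G) := by
      have := (P : Subgroup G).mul_mem ((P : Subgroup G).inv_mem hx) hg
      simpa [mul_assoc] using this
    obtain ⟨z, hz, hzeq⟩ := h x⁻¹ ((P : Subgroup G).inv_mem hx) _ hy ⟨u, rfl⟩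
    have e : x * u * x⁻¹ * u⁻¹ = ⁅x, z⁆ := by
      rw [commutatorElement_def]
      calc x * u * x⁻¹ * u⁻¹ = x * (u * x⁻¹ * u⁻¹) := by group
        _ = x * (z * x⁻¹ * z⁻¹) := by rw [hzeq]
        _ = _ := by group
    rw [e]
    exact Subgroup.commutator_mem_commutator hx hz
  intro hle
  have h1 : (P : Subgroup G) ≤ ⁅(P : Subgroup G), (P : Subgroup G)⁆ :=
    (le_inf hle le_rfl).trans
      ((Subgroup.commutator_inf_eq_focalSubgroup P).le.trans hfoc)
  have hnil : Group.IsNilpotent (P : Subgroup G) := P.2.isNilpotent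
  have hsolv : Group.IsSolvable (P : Subgroup G) := inferInstance
  refine (Group.IsSolvable.commutator_lt_top_of_nontrivial (P : Subgroup G)).ne ?_
  apply Subgroup.map_injective (P : Subgroup G).subtype_injective
  rw [← MonoidHom.range_eq_map, Subgroup.range_subtype, Subgroup.map_subtype_commutator]
  exact le_antisymm (Subgroup.commutator_le_self _) h1

end Cfsg.Agent.S0091
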