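import Cfsg.Statements.S0105
import Mathlib
-- import your own Cfsg.Agent.* helpers here

set_option autoImplicit false
open Cfsg
open scoped IsMulCommutative

namespace Cfsg.Agent.S0105

/-- With an abelian Sylow p-subgroup P, some quotient of G is isomorphic to the part of P central in N_G(P). -/
theorem result {G : Type*} [Group G] [Finite G] {p : ℕ} [Fact p.Prime] (P : Sylow p G) (hP : IsMulCommutative P) : ∃ (N : Subgroup G) (hN : N.Normal), Nonempty (G ⧸ N ≃* ((P : Subgroup G) ⊓ Subgroup.centralizer (Subgroup.normalizer (P : Set G) : Set G) : Subgroup G)) := by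
  classical
  have hcomm : IsMulCommutative (P : Subgroup G) := hP
  set Z : Subgroup G :=
    (P : Subgroup G) ⊓ Subgroup.centralizer (Subgroup.normalizer (P : Set G) : Set G) with hZ
  set N : Subgroup G := Subgroup.normalizer ((P : Subgroup G) : Set G) with hN
  set Q : Subgroup N := (P : Subgroup G).subgroupOf N
  have hQn : Q.Normal := Subgroup.normal_in_normalizer
  let ρ : N ⧸ Q →* MulAut (P : Subgroup G) :=
    QuotientGroup.lift Q (P : Subgroup G).normalizerMonoidHom (fun x hx => by
      apply MulEquiv.ext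
      intro y
      apply Subtype.ext
      change (x : G) * y * (x : G)⁻¹ = y
      have h : (x : G) * y = y * x :=
        congrArg Subtype.val (mul_comm' (⟨(x : G), hx⟩ : (P : Subgroup G)) y)
      rw [h, mul_inv_cancel_right])
  have : Fintype (N ⧸ Q) := Fintype.ofFinite _
  let π : (P : Subgroup G) →* (P : Subgroup G) :=
    { toFun := fun x => ∏ q : N ⧸ Q, ρ q x
      map_one' := by simp
      map_mul' := fun x y => by simp [Finset.prod_mul_distrib] }
  have hπmem : ∀ x : (P : Subgroup G), (π x : G) ∈ Z := by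
    intro x
    refine ⟨(π x).2, Subgroup.mem_centralizer_iff.2 fun m hm => ?_⟩
    have hinv : ρ ((⟨m, hm⟩ : N) : N ⧸ Q) (π x) = π x := by
      change ρ _ (∏ q : N ⧸ Q, ρ q x) = ∏ q : N ⧸ Q, ρ q x
      rw [map_prod]
      exact Fintype.prod_equiv (Equiv.mulLeft ((⟨m, hm⟩ : N) : N ⧸ Q)) _ _
        (fun q => by rw [Equiv.coe_mulLeft, map_mul]; rfl)
    exact mul_inv_eq_iff_eq_mul.1 (congrArg Subtype.val hinv)
  let f : G →* Z := (((P : Subgroup G).subtype.comp π).codRestrict Z hπmem).comp
    (MonoidHom.transfer (MonoidHom.id (P : Subgroup G)))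
  have hfix : ∀ z : Z, f z = z ^ ((P : Subgroup G).index * Nat.card (N ⧸ Q)) := by
    intro z
    have key : ∀ (k : ℕ) (g₀ : G), g₀⁻¹ * (z : G) ^ k * g₀ ∈ (P : Subgroup G) →
        g₀⁻¹ * (z : G) ^ k * g₀ = (z : G) ^ k := by
      intro k g₀ h
      obtain ⟨n, hn, he⟩ := P.conj_eq_normalizer_conj_of_mem ((z : G) ^ k) g₀
        (pow_mem z.2.1 k) h
      exact he.trans (Commute.inv_mul_cancel
        ((show Commute n (z : G) from Subgroup.mem_centralizer_iff.1 z.2.2 n hn).pow_right k))
    apply Subtype.ext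
    change (π (MonoidHom.transfer (MonoidHom.id (P : Subgroup G)) (z : G)) : G) = _
    rw [MonoidHom.transfer_eq_pow (MonoidHom.id (P : Subgroup G)) (z : G) key, MonoidHom.id_apply]
    set w : (P : Subgroup G) := ⟨(z : G) ^ (P : Subgroup G).index, pow_mem z.2.1 _⟩ with hw
    have hρ : ∀ q : N ⧸ Q, ρ q w = w := by
      intro q
      induction q using QuotientGroup.induction_on with
      | _ n =>
        apply Subtype.ext
        change (n : G) * (z : G) ^ (P : Subgroup G).index * (n : G)⁻¹ = _
        rw [((show Commute (n : G) (z : G) from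
          Subgroup.mem_centralizer_iff.1 z.2.2 n n.2).pow_right _).eq, mul_inv_cancel_right]
    change ((∏ q : N ⧸ Q, ρ q w : (P : Subgroup G)) : G) = _
    rw [Finset.prod_congr rfl (fun q _ => hρ q)]
    simp only [Finset.prod_const, Finset.card_univ, ← Nat.card_eq_fintype_card, hw,
      Subgroup.coe_pow, pow_mul]
  have hnd : ¬ p ∣ (P : Subgroup G).index * Nat.card (N ⧸ Q) := by
    refine Nat.Prime.not_dvd_mul Fact.out P.not_dvd_index fun hd => P.not_dvd_index (hd.trans ?_)
    exact Subgroup.relIndex_dvd_index_of_le Subgroup.le_normalizer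
  have hsurj : Function.Surjective f := fun z => by
    obtain ⟨y, hy⟩ := ((P.2.to_le (inf_le_left : Z ≤ P)).powEquiv' hnd).surjective z
    exact ⟨y, (hfix y).trans hy⟩
  exact ⟨f.ker, inferInstance, ⟨QuotientGroup.quotientKerEquivOfSurjective f hsurj⟩⟩

end Cfsg.Agent.S0105
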