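import Cfsg.Statements.S0092
import Mathlib
import Cfsg.Agent.S0105
import Cfsg.Agent.H19.SchurZassenhaus
import Cfsg.Agent.H22.PResidual
import Cfsg.Agent.H23.SylowIn
-- import your own Cfsg.Agent.* helpers here

set_option autoImplicit false
open Cfsg
open Cfsg.Agent Cfsg.Agent.H23
open scoped Pointwise

namespace Cfsg.Agent.S0092

/-- If the Sylow p-subgroups of O^p(G) are abelian then G splits over O^p(G). -/
theorem result {G : Type*} [Group G] [Finite G] {p : ℕ} [Fact p.Prime] (h : ∀ Q : Sylow p (Cfsg.pResidual p G), IsMulCommutative Q) : ∃ K : Subgroup G, K.IsComplement' (Cfsg.pResidual p G) := by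
  set R := Cfsg.pResidual p G with hR
  have hRn : R.Normal := H22.pResidual_normal
  obtain ⟨Q⟩ := (inferInstance : Nonempty (Sylow p R))
  have hQc := h Q
  set Q₀ : Subgroup G := (Q : Subgroup R).map R.subtype with hQ₀
  have hQ₀p : IsPGroup p Q₀ := Q.2.map _
  have hQ₀R : Q₀ ≤ R := Subgroup.map_subtype_le _
  set N := Subgroup.normalizer (Q₀ : Set G) with hN
  -- the part of `Q₀` centralised by `N_R(Q₀)` is trivial
  have hfix : ∀ a ∈ Q₀, (∀ m ∈ R ⊓ N, Commute m a) → a = 1 := by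
    intro a ha hcomm
    obtain ⟨a', ha', rfl⟩ := ha
    obtain ⟨K, hK, ⟨e⟩⟩ := Cfsg.Agent.S0105.result Q hQc
    set Z : Subgroup R := (Q : Subgroup R) ⊓
      Subgroup.centralizer (Subgroup.normalizer (Q : Set R) : Set R) with hZ
    have hmem : a' ∈ Z := by
      refine ⟨ha', Subgroup.mem_centralizer_iff.2 fun m hm => Subtype.ext ?_⟩
      exact (hcomm m ⟨m.2, Subgroup.le_normalizer_map R.subtype ⟨m, hm, rfl⟩⟩).eq
    have hKtop : K = ⊤ := by
      have hpq : IsPGroup p (R ⧸ K) :=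
        (Q.2.to_le (inf_le_left : Z ≤ (Q : Subgroup R))).of_equiv e.symm
      rw [eq_top_iff, ← H22.pResidual_pResidual_eq_top (p := p) (G := G)]
      exact H22.pResidual_le_of_isPGroup_quotient K hpq
    have : Subsingleton (R ⧸ K) := by
      rw [hKtop]; exact QuotientGroup.subsingleton_quotient_top
    have hsub : Subsingleton Z := e.symm.injective.subsingleton
    have h1 : (⟨a', hmem⟩ : Z) = 1 := Subsingleton.elim _ _
    exact congrArg (fun z : Z => ((z : R) : G)) h1
  -- a complement of `Q₀` in `M = R ⊓ N`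
  set M := R ⊓ N with hM
  have hQM : Q₀ ≤ M := le_inf hQ₀R Subgroup.le_normalizer
  set Q₁ := Q₀.subgroupOf M with hQ₁
  have hQ₁n : Q₁.Normal := Subgroup.normal_subgroupOf_of_le_normalizer inf_le_right
  have hcard1 : Nat.card Q₁ = Nat.card Q₀ := Nat.card_congr (Subgroup.subgroupOfEquivOfLe hQM).toEquiv
  have hnd : ¬ p ∣ Q₁.index := by
    intro hd
    apply Q.not_dvd_index
    have h2 : Q₀.relIndex R = (Q : Subgroup R).index := by
      rw [Subgroup.relIndex, hQ₀, Subgroup.subgroupOf,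
        Subgroup.comap_map_eq_self_of_injective R.subtype_injective]
    rw [← h2]
    exact hd.trans (Dvd.intro _ (Subgroup.relIndex_mul_relIndex Q₀ M R hQM inf_le_left))
  have hcop : (Nat.card Q₁).Coprime Q₁.index := by
    obtain ⟨k, hk⟩ := hQ₀p.exists_card_eq
    rw [hcard1, hk]
    exact Nat.Coprime.pow_left k ((Fact.out : p.Prime).coprime_iff_not_dvd.2 hnd)
  have hQ₁c : IsMulCommutative Q₁ := by
    refine ⟨⟨fun a b => ?_⟩⟩
    obtain ⟨a', ha', hae⟩ := (a.2 : ((a : M) : G) ∈ Q₀)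
    obtain ⟨b', hb', hbe⟩ := (b.2 : ((b : M) : G) ∈ Q₀)
    have hab := congrArg (fun z : (Q : Subgroup R) => ((z : R) : G))
      (mul_comm' (⟨a', ha'⟩ : (Q : Subgroup R)) ⟨b', hb'⟩)
    apply Subtype.ext
    apply Subtype.ext
    change M.subtype (a : M) * M.subtype (b : M) = M.subtype (b : M) * M.subtype (a : M)
    rw [← hae, ← hbe]
    exact hab
  obtain ⟨L', hL'⟩ := Subgroup.exists_right_complement'_of_coprime hcop
  set L := L'.map M.subtype with hL
  have hL'card : Nat.card L' = Q₁.index := H19.card_eq_index_of_isComplement' hL'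
  set W := Subgroup.normalizer (L : Set G) ⊓ N with hW
  -- Frattini argument: `N = Q₀ W`
  have hNW : N ≤ Q₀ ⊔ W := by
    intro g hg
    have hle : rconj g L ≤ M := by
      intro x hx
      rw [mem_rconj] at hx
      have hxM : g * x * g⁻¹ ∈ M := Subgroup.map_subtype_le _ hx
      refine ⟨?_, ?_⟩
      · have := hRn.conj_mem _ hxM.1 g⁻¹
        simpa [mul_assoc] using this
      · have := N.mul_mem (N.mul_mem (N.inv_mem hg) hxM.2) hg
        simpa [mul_assoc] using this
    have hc : Nat.card ((rconj g L).subgroupOf M) = Q₁.index := by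
      rw [Nat.card_congr (Subgroup.subgroupOfEquivOfLe hle).toEquiv, card_rconj, hL,
        Subgroup.card_map_of_injective M.subtype_injective, hL'card]
    obtain ⟨a, ha, hae⟩ := H19.sz_conj_abelian Q₁ hcop hL'
      (H19.isComplement'_of_card_eq_index hcop hc)
    have heq : rconj ((a : G))⁻¹ L = rconj g L := by
      ext x
      constructor
      · intro hx
        rw [mem_rconj, inv_inv] at hx
        obtain ⟨l, hl, hle'⟩ := hx
        have h3 : a * l * a⁻¹ ∈ (rconj g L).subgroupOf M := by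
          rw [← hae, H19.mem_conj_smul]
          simpa [mul_assoc] using hl
        have h4 : ((a * l * a⁻¹ : M) : G) = x := by
          rw [Subgroup.coe_mul, Subgroup.coe_mul, Subgroup.coe_inv,
            show (l : G) = (a : G)⁻¹ * x * a from hle']
          group
        exact h4 ▸ h3
      · intro hx
        have hxM := hle hx
        have h3 : (⟨x, hxM⟩ : M) ∈ MulAut.conj a • L' := by rw [hae]; exact hx
        rw [H19.mem_conj_smul] at h3
        rw [mem_rconj, inv_inv]
        exact ⟨_, h3, rfl⟩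
    have haN : (a : G) ∈ N := a.2.2
    have hgW : g * (a : G) ∈ W := ⟨by
      apply mem_normalizer_of_rconj
      have := congrArg (rconj (a : G)) heq
      rw [rconj_rconj, inv_mul_cancel, rconj_one, rconj_rconj] at this
      exact this.symm, N.mul_mem hg haN⟩
    have := Subgroup.mul_mem _ (Subgroup.mem_sup_right (S := Q₀) hgW)
      (Subgroup.inv_mem _ (Subgroup.mem_sup_left (T := W) (ha : (a : G) ∈ Q₀)))
    simpa using this
  have hFr : N ⊔ R = ⊤ := Sylow.normalizer_sup_eq_top Q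
  have hWR : W ⊔ R = ⊤ := eq_top_iff.2 (hFr.ge.trans
    (sup_le (hNW.trans (sup_le (hQ₀R.trans le_sup_right) le_sup_left)) le_sup_right))
  -- a Sylow subgroup of `W` is the complement
  obtain ⟨S⟩ := (inferInstance : Nonempty (Sylow p W))
  set K := (S : Subgroup W).map W.subtype with hK
  have hKW : K ≤ W := Subgroup.map_subtype_le _
  have hKR : K ⊓ R = ⊥ := by
    rw [eq_bot_iff]
    rintro x ⟨hxK, hxR⟩
    have hxM : x ∈ M := ⟨hxR, (hKW hxK).2⟩
    have hxQ : x ∈ Q₀ := by
      have hp1 : IsPGroup p (K.subgroupOf M) := (S.2.map W.subtype).comap_subtype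
      have hQ₁p : IsPGroup p Q₁ := hQ₀p.comap_subtype
      have hsup : IsPGroup p (K.subgroupOf M ⊔ Q₁ : Subgroup M) :=
        hp1.to_sup_of_normal_right hQ₁p
      have h5 := (hQ₁p.toSylow hnd).3 hsup le_sup_right
      exact h5.le (Subgroup.mem_sup_left (show (⟨x, hxM⟩ : M) ∈ K.subgroupOf M from hxK))
    refine Subgroup.mem_bot.2 (hfix x hxQ fun m hm => ?_)
    have hxL := (hKW hxK).1
    have hQc' : ∀ q ∈ Q₀, Commute q x := by
      intro q hq
      exact congrArg (fun z : Q₁ => ((z : M) : G))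
        (mul_comm' (⟨⟨q, hQM hq⟩, hq⟩ : Q₁) ⟨⟨x, hxM⟩, hxQ⟩)
    have hLc : ∀ l ∈ L, Commute l x := by
      intro l hl
      have hlN : l ∈ N := (Subgroup.map_subtype_le _ hl).2
      have h1 : x * l * x⁻¹ * l⁻¹ ∈ L :=
        L.mul_mem ((Subgroup.mem_normalizer_iff.1 hxL l).1 hl) (L.inv_mem hl)
      have h2 : x * l * x⁻¹ * l⁻¹ ∈ Q₀ := by
        have := Q₀.mul_mem hxQ ((Subgroup.mem_normalizer_iff.1 hlN x⁻¹).1 (Q₀.inv_mem hxQ))
        simpa [mul_assoc] using this
      obtain ⟨l', hl', hle⟩ := h1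
      have h3 : l' ∈ Q₁ ⊓ L' := ⟨by
        change (l' : G) ∈ Q₀
        rw [show (l' : G) = x * l * x⁻¹ * l⁻¹ from hle]; exact h2, hl'⟩
      have h4 : l' = 1 := Subgroup.mem_bot.1 ((disjoint_iff.1 hL'.disjoint).le h3)
      rw [h4, map_one] at hle
      exact (mul_inv_eq_iff_eq_mul.1 (mul_inv_eq_one.1 hle.symm)).symm
    have hmem : (⟨m, hm⟩ : M) ∈ Q₁ ⊔ L' := by
      rw [hL'.sup_eq_top]; exact Subgroup.mem_top _
    obtain ⟨q, hq, l, hl, hql⟩ := Subgroup.mem_sup_of_normal_left.1 hmem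
    have he : m = (q : G) * (l : G) := congrArg Subtype.val hql.symm
    rw [he]
    exact (hQc' _ hq).mul_left (hLc _ ⟨l, hl, rfl⟩)
  refine ⟨K, Subgroup.isComplement'_of_disjoint_and_mul_eq_univ (disjoint_iff.2 hKR) ?_⟩
  rw [← Subgroup.mul_normal, ← Subgroup.coe_top]
  congr 1
  set ψ : W →* G ⧸ R := (QuotientGroup.mk' R).comp W.subtype with hψ
  have hψs : Function.Surjective ψ := by
    intro y
    obtain ⟨g, rfl⟩ := QuotientGroup.mk'_surjective R y
    obtain ⟨w, hw, r, hr, rfl⟩ := Subgroup.mem_sup_of_normal_right.1 (hWR ▸ Subgroup.mem_top g)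
    exact ⟨⟨w, hw⟩, by simp [hψ, (QuotientGroup.eq_one_iff r).2 hr]⟩
  obtain ⟨k, hk⟩ := H22.exists_index_pResidual_eq (G := G) (p := p)
  have hQp : IsPGroup p (⊤ : Subgroup (G ⧸ R)) :=
    IsPGroup.of_card (n := k) (by rw [Subgroup.card_top, ← Subgroup.index_eq_card, hk])
  have hSt : (S.mapSurjective hψs : Subgroup (G ⧸ R)) = ⊤ :=
    ((S.mapSurjective hψs).3 hQp le_top).symm
  rw [eq_top_iff]
  intro g _
  obtain ⟨w, hw, hwg⟩ : QuotientGroup.mk' R g ∈ (S.mapSurjective hψs : Subgroup (G ⧸ R)) :=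
    hSt ▸ Subgroup.mem_top _
  have h6 : (w : G)⁻¹ * g ∈ R := QuotientGroup.eq.1 hwg
  simpa using Subgroup.mul_mem_sup (show (w : G) ∈ K from ⟨w, hw, rfl⟩) h6

end Cfsg.Agent.S0092
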