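import Cfsg.Statements.S0094
import Cfsg.Agent.H24.PGroupBasic
import Cfsg.Agent.H24.Power

set_option autoImplicit false
open Cfsg

namespace Cfsg.Agent.S0094

open Subgroup
open scoped commutatorElement
open Cfsg.Agent.H24

/-- In a special p-group every central element has order dividing p. -/
theorem result {P : Type*} [Group P] [Finite P] {p : ℕ} [Fact p.Prime] (h : Cfsg.IsSpecial p P) (z : P) (hz : z ∈ Subgroup.center P) : z ^ p = 1 := by

  obtain ⟨hP, hf, hc⟩ := h
  have hcom : ∀ a b : P, ⁅a, b⁆ ∈ center P := fun a b =>
    hc ▸ (by rw [commutator_def]; exact commutator_mem_commutator (mem_top _) (mem_top _) :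
      ⁅a, b⁆ ∈ commutator P)
  rw [← hc, commutator_eq_closure] at hz
  induction hz using closure_induction with
  | mem x hx =>
    obtain ⟨a, b, rfl⟩ := hx
    rw [← comm_pow_left (hcom a b)]
    exact commutatorElement_eq_one_iff_mul_comm.mpr
      (center_comm (hf ▸ pow_mem_frattini hP a) b).symm
  | one => exact one_pow p
  | mul x y hx hy ihx ihy =>
    have hy' : y ∈ center P := hc ▸ (commutator_eq_closure (G := P)).symm ▸ hy
    rw [(show Commute x y from center_comm hy' x).mul_pow, ihx, ihy, one_mul]
  | inv x hx ihx => rw [inv_pow, ihx, inv_one]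

end Cfsg.Agent.S0094
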