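import Cfsg.Statements.S0097
import Cfsg.Agent.H24.Extraspecial

set_option autoImplicit false
open Cfsg

namespace Cfsg.Agent.S0097

open Subgroup
open scoped commutatorElement
open Cfsg.Agent.H24

/-- For odd p and E extraspecial, the subgroup generated by the elements of order dividing p has exponent dividing p and index at most p. -/
theorem result {E : Type*} [Group E] [Finite E] {p : ℕ} [Fact p.Prime] (hp : p ≠ 2) (h : Cfsg.IsExtraspecial p E) : (Subgroup.closure {x : E | x ^ p = 1}).index ≤ p ∧ ∀ g ∈ Subgroup.closure {x : E | x ^ p = 1}, g ^ p = 1 := by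
  have hmul : ∀ x y : E, (x * y) ^ p = x ^ p * y ^ p := fun x y =>
    mul_pow_prime_of_class_two Fact.out hp (espec_comm_mem h y x) (espec_comm_pow h y x)
  let f : E →* E :=
    { toFun := fun x => x ^ p
      map_one' := one_pow p
      map_mul' := hmul }
  have hker : closure {x : E | x ^ p = 1} = f.ker :=
    le_antisymm ((closure_le _).mpr fun x hx => hx) fun x hx => subset_closure hx
  rw [hker]
  refine ⟨?_, fun g hg => hg⟩
  rw [index_ker]
  exact (Subgroup.card_le_of_le (fun y hy => by
    obtain ⟨x, rfl⟩ := hy
    exact espec_pow_mem h x : f.range ≤ center E)).trans h.2.le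

end Cfsg.Agent.S0097
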