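import Cfsg.Statements.S0101
import Mathlib
-- import your own Cfsg.Agent.* helpers here

set_option autoImplicit false
open Cfsg

namespace Cfsg.Agent.S0101

/-- In a perfect central extension, the kernel meets each Sylow p-subgroup P inside the Frattini subgroup of P. -/
theorem result {H : Type*} {G : Type*} [Group H] [Group G] [Finite H] (σ : H →* G) (hσ : Function.Surjective σ) (hc : σ.ker ≤ Subgroup.center H) (hH : commutator H = ⊤) {p : ℕ} [Fact p.Prime] (P : Sylow p H) : σ.ker ⊓ (P : Subgroup H) ≤ (frattini P).map (P : Subgroup H).subtype := by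
  intro z hz
  have hzP : z ∈ (P : Subgroup H) := hz.2
  refine ⟨⟨z, hzP⟩, ?_, rfl⟩
  rw [SetLike.mem_coe, frattini, Order.radical]
  simp only [Subgroup.mem_iInf]
  intro M hM
  have hnil : Group.IsNilpotent (P : Subgroup H) := P.2.isNilpotent
  have hMn : M.Normal := Subgroup.NormalizerCondition.normal_of_coatom M
    Group.normalizerCondition_of_isNilpotent hM
  have : IsCyclic ((P : Subgroup H) ⧸ M) := by
    obtain ⟨y, hy⟩ : ∃ y, y ∉ M := by
      by_contra hall
      push Not at hall
      exact hM.1 (eq_top_iff.2 fun y _ => hall y)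
    have h1 : M ⊔ Subgroup.zpowers y = ⊤ :=
      hM.2 _ (left_lt_sup.2 fun hle => hy (hle (Subgroup.mem_zpowers y)))
    refine ⟨⟨QuotientGroup.mk' M y, fun q => ?_⟩⟩
    obtain ⟨w, rfl⟩ := QuotientGroup.mk'_surjective M q
    have h2 : QuotientGroup.mk' M w ∈ (M ⊔ Subgroup.zpowers y).map (QuotientGroup.mk' M) :=
      Subgroup.mem_map_of_mem _ (h1 ▸ Subgroup.mem_top w)
    rw [Subgroup.map_sup, QuotientGroup.map_mk'_self, bot_sup_eq, MonoidHom.map_zpowers] at h2
    exact h2
  let _ : CommGroup ((P : Subgroup H) ⧸ M) := IsCyclic.commGroup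
  let V : H →* (P : Subgroup H) ⧸ M := MonoidHom.transfer (QuotientGroup.mk' M)
  have hV : V z = 1 := MonoidHom.mem_ker.1
    (Abelianization.commutator_subset_ker V (hH ▸ Subgroup.mem_top z))
  have hc' := Subgroup.mem_center_iff.1 (hc hz.1)
  have key : ∀ (k : ℕ) (g₀ : H), g₀⁻¹ * z ^ k * g₀ ∈ (P : Subgroup H) →
      g₀⁻¹ * z ^ k * g₀ = z ^ k := fun k g₀ _ => by
    rw [mul_assoc, ← ((show Commute g₀ z from hc' g₀).pow_right k).eq, inv_mul_cancel_left]
  have hpow : (QuotientGroup.mk' M) (⟨z, hzP⟩ : (P : Subgroup H)) ^ (P : Subgroup H).index = 1 := by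
    rw [← map_pow, ← hV]
    exact (MonoidHom.transfer_eq_pow (QuotientGroup.mk' M) z key).symm
  have hinj := ((P.2.to_quotient M).powEquiv' P.not_dvd_index).injective
  refine (QuotientGroup.eq_one_iff _).1 (hinj ?_)
  simpa using hpow

end Cfsg.Agent.S0101
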