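import Cfsg.Statements.S0102
import Mathlib
import Cfsg.Agent.S0101
-- import your own Cfsg.Agent.* helpers here

set_option autoImplicit false
open Cfsg
open scoped commutatorElement

namespace Cfsg.Agent.S0102

/-- A finite perfect group with cyclic Sylow p-subgroups has no perfect central extension whose kernel has order divisible by p. -/
theorem result {G : Type*} {H : Type*} [Group G] [Group H] [Finite G] [Finite H] (hG : commutator G = ⊤) {p : ℕ} [Fact p.Prime] (hcyc : ∀ P : Sylow p G, IsCyclic P) (σ : H →* G) (hσ : Function.Surjective σ) (hz : σ.ker ≤ Subgroup.center H) (hH : commutator H = ⊤) : ¬ p ∣ Nat.card σ.ker := by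
  intro hdvd
  obtain ⟨⟨z, hzker⟩, hzord⟩ := exists_prime_orderOf_dvd_card' (G := σ.ker) p hdvd
  have hzo : orderOf z = p := by rw [← hzord, ← Subgroup.orderOf_coe]
  obtain ⟨Q, hzQ'⟩ := (IsPGroup.of_card (p := p) (n := 1) (G := Subgroup.zpowers z)
    (by rw [Nat.card_zpowers, hzo, pow_one])).exists_le_sylow
  have hzQ : z ∈ (Q : Subgroup H) := hzQ' (Subgroup.mem_zpowers z)
  -- `Q` is cyclic
  have hcycQ : IsCyclic (Q.mapSurjective hσ : Subgroup G) := hcyc _
  obtain ⟨⟨y', hy'⟩, hgen⟩ := hcycQ.exists_generator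
  obtain ⟨y, hy, rfl⟩ := hy'
  have hQle : (⊤ : Subgroup (Q : Subgroup H)) ≤
      Subgroup.zpowers (⟨y, hy⟩ : (Q : Subgroup H)) ⊔ frattini (Q : Subgroup H) := by
    intro x _
    obtain ⟨i, hi⟩ := hgen ⟨σ x, x, x.2, rfl⟩
    have hi' : σ y ^ i = σ x := congrArg Subtype.val hi
    have hk : (y ^ i)⁻¹ * (x : H) ∈ σ.ker := by
      rw [MonoidHom.mem_ker, map_mul, map_inv, map_zpow, hi', inv_mul_cancel]
    obtain ⟨w, hw, hw'⟩ := Cfsg.Agent.S0101.result σ hσ hz hH Q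
      ⟨hk, (Q : Subgroup H).mul_mem ((Q : Subgroup H).inv_mem (zpow_mem hy i)) x.2⟩
    have he : x = (⟨y, hy⟩ : (Q : Subgroup H)) ^ i * w := by
      apply Subtype.ext
      rw [Subgroup.coe_mul, Subgroup.coe_zpow, show (w : H) = (y ^ i)⁻¹ * x from hw',
        mul_inv_cancel_left]
    rw [he]
    exact Subgroup.mul_mem_sup ⟨i, rfl⟩ hw
  have hgenQ : Subgroup.zpowers (⟨y, hy⟩ : (Q : Subgroup H)) = ⊤ :=
    frattini_nongenerating (top_le_iff.1 hQle)
  have hQy : (Q : Subgroup H) = Subgroup.zpowers y := by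
    refine le_antisymm (fun x hx => ?_) (Subgroup.zpowers_le.2 hy)
    obtain ⟨i, hi⟩ : (⟨x, hx⟩ : (Q : Subgroup H)) ∈ Subgroup.zpowers ⟨y, hy⟩ :=
      hgenQ ▸ Subgroup.mem_top _
    exact ⟨i, congrArg Subtype.val hi⟩
  have hQc : IsMulCommutative (Q : Subgroup H) := by rw [hQy]; infer_instance
  -- the focal subgroup lies in `⟨y ^ p⟩`
  have hfoc : (Q : Subgroup H).focalSubgroup ≤ Subgroup.zpowers (y ^ p) := by
    rw [Subgroup.focalSubgroup_def, Subgroup.closure_le]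
    rintro g ⟨hg, x, hx, u, rfl⟩
    rw [commutatorElement_def] at hg ⊢
    have hxu : u * x⁻¹ * u⁻¹ ∈ (Q : Subgroup H) := by
      have := (Q : Subgroup H).mul_mem ((Q : Subgroup H).inv_mem hx) hg
      simpa [mul_assoc] using this
    obtain ⟨n, hn, he⟩ := Q.conj_eq_normalizer_conj_of_mem x⁻¹ u⁻¹
      ((Q : Subgroup H).inv_mem hx) (by change _ ∈ (Q : Subgroup H); simpa using hxu)
    have he' : u * x⁻¹ * u⁻¹ = n⁻¹ * x⁻¹ * n := by simpa using he
    obtain ⟨r, hr⟩ : n⁻¹ * y * n ∈ Subgroup.zpowers y := by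
      rw [← hQy]
      have := ((Subgroup.mem_normalizer_iff (H := (Q : Subgroup H))).1 (Subgroup.inv_mem _ hn) y).1
        hy
      simpa using this
    obtain ⟨j, rfl⟩ : z ∈ Subgroup.zpowers y := hQy ▸ hzQ
    obtain ⟨i, rfl⟩ : x ∈ Subgroup.zpowers y := hQy ▸ hx
    simp only at hr hzo hzker he' ⊢
    have hconj : ∀ k : ℤ, n⁻¹ * y ^ k * n = y ^ (r * k) := by
      intro k
      rw [zpow_mul, hr]
      simpa using (conj_zpow (i := k) (a := n⁻¹) (b := y)).symm
    have hdiv : (p : ℤ) ∣ r - 1 := by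
      rw [← hzo, orderOf_dvd_iff_zpow_eq_one, ← zpow_mul, mul_sub, mul_one, zpow_sub,
        mul_comm j r, ← hconj,
        show n⁻¹ * y ^ j * n = y ^ j by
          rw [mul_assoc, ← Subgroup.mem_center_iff.1 (hz hzker) n, inv_mul_cancel_left],
        mul_inv_cancel]
    obtain ⟨t, ht⟩ := hdiv
    have he2 : y ^ i * u * (y ^ i)⁻¹ * u⁻¹ = y ^ i * (u * (y ^ i)⁻¹ * u⁻¹) := by group
    rw [SetLike.mem_coe, he2, he', ← zpow_neg, hconj, ← zpow_add,
      show i + r * (-i) = (p : ℤ) * (-(i * t)) by linear_combination (-i) * ht, zpow_mul,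
      zpow_natCast]
    exact ⟨_, rfl⟩
  have hQfoc : (Q : Subgroup H) ≤ Subgroup.zpowers (y ^ p) := by
    refine le_trans ?_ hfoc
    rw [← Subgroup.commutator_inf_eq_focalSubgroup, hH, top_inf_eq]
  obtain ⟨t, ht⟩ := hQfoc hy
  have ht' : y ^ ((p : ℤ) * t - 1) = 1 := by
    rw [zpow_sub_one, zpow_mul, zpow_natCast]
    exact mul_inv_eq_one.2 ht
  have hpy : (p : ℤ) ∣ orderOf y := by
    have hdv : orderOf z ∣ Nat.card (Subgroup.zpowers y) :=
      Subgroup.orderOf_dvd_natCard _ (hQy ▸ hzQ)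
    rw [Nat.card_zpowers, hzo] at hdv
    exact_mod_cast hdv
  have h1 : (p : ℤ) ∣ (p : ℤ) * t - 1 :=
    hpy.trans (orderOf_dvd_iff_zpow_eq_one.2 ht')
  have h2 : (p : ℤ) ∣ 1 := by simpa using dvd_sub (dvd_mul_right (p : ℤ) t) h1
  exact Nat.Prime.not_dvd_one Fact.out (by exact_mod_cast h2)

end Cfsg.Agent.S0102
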