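import Cfsg.Statements.S0103
import Mathlib
-- import your own Cfsg.Agent.* helpers here

set_option autoImplicit false
open Cfsg

namespace Cfsg.Agent.S0103

/-- If a Sylow p-subgroup P intersects every distinct conjugate trivially, then its normalizer controls fusion in P. -/
theorem result {G : Type*} [Group G] [Finite G] {p : ℕ} [Fact p.Prime] (P : Sylow p G) (hTI : ∀ g : G, (P : Subgroup G).map (MulAut.conj g).toMonoidHom ≠ (P : Subgroup G) → (P : Subgroup G) ⊓ (P : Subgroup G).map (MulAut.conj g).toMonoidHom = ⊥) (x y : G) (hx : x ∈ P) (hy : y ∈ P) (hc : ∃ g : G, g * x * g⁻¹ = y) : ∃ n ∈ Subgroup.normalizer (P : Set G), n * x * n⁻¹ = y := by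
  obtain ⟨g, rfl⟩ := hc
  by_cases h1 : x = 1
  · exact ⟨1, Subgroup.one_mem _, by simp [h1]⟩
  refine ⟨g, ?_, rfl⟩
  have hmap : (P : Subgroup G).map (MulAut.conj g).toMonoidHom = (P : Subgroup G) := by
    by_contra hne
    have hmem : g * x * g⁻¹ ∈ (P : Subgroup G) ⊓ (P : Subgroup G).map
        (MulAut.conj g).toMonoidHom := ⟨hy, x, hx, rfl⟩
    rw [hTI g hne, Subgroup.mem_bot] at hmem
    exact h1 (conj_eq_one_iff.1 hmem)
  change g ∈ Subgroup.normalizer ((P : Subgroup G) : Set G)
  rw [Subgroup.mem_normalizer_iff]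
  intro z
  constructor
  · intro hz
    exact hmap.le ⟨z, hz, rfl⟩
  · intro hz
    obtain ⟨w, hw, hwz⟩ := hmap.ge hz
    simp only [MulEquiv.coe_toMonoidHom, MulAut.conj_apply, mul_left_inj, mul_right_inj] at hwz
    exact hwz ▸ hw

end Cfsg.Agent.S0103
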