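import Cfsg.Statements.S0104
import Mathlib
-- import your own Cfsg.Agent.* helpers here

set_option autoImplicit false
open Cfsg

namespace Cfsg.Agent.S0104

/-- A subgroup Z of a Sylow p-subgroup P that is normalized by N_G(P) is weakly closed in P exactly when it is normal in every Sylow p-subgroup containing it. -/
theorem result {G : Type*} [Group G] [Finite G] {p : ℕ} [Fact p.Prime] (P : Sylow p G) (Z : Subgroup G) (hZP : Z ≤ (P : Subgroup G)) (hZN : Subgroup.normalizer (P : Set G) ≤ Subgroup.normalizer (Z : Set G)) : Cfsg.IsWeaklyClosed Z P ↔ ∀ R : Sylow p G, Z ≤ (R : Subgroup G) → (R : Subgroup G) ≤ Subgroup.normalizer (Z : Set G) := by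
  constructor
  · rintro ⟨-, hW⟩ R hR x hx
    obtain ⟨g, hg⟩ := MulAction.exists_smul_eq G R P
    have hR' : (R : Subgroup G).map (MulAut.conj g).toMonoidHom = (P : Subgroup G) :=
      (congrArg (fun S : Sylow p G => (S : Subgroup G)) hg)
    have hZg : Z.map (MulAut.conj g).toMonoidHom = Z :=
      hW g ((Subgroup.map_mono hR).trans hR'.le)
    have hgx : g * x * g⁻¹ ∈ Subgroup.normalizer (Z : Set G) := by
      refine hZN (Subgroup.le_normalizer ?_)
      exact hR'.le ⟨x, hx, rfl⟩
    have hgN : g ∈ Subgroup.normalizer (Z : Set G) := by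
      rw [Subgroup.mem_normalizer_iff]
      intro z
      constructor
      · intro hz; exact hZg.le ⟨z, hz, rfl⟩
      · intro hz
        obtain ⟨w, hw, hwz⟩ := hZg.ge hz
        simp only [MulEquiv.coe_toMonoidHom, MulAut.conj_apply, mul_left_inj, mul_right_inj] at hwz
        exact hwz ▸ hw
    have := Subgroup.mul_mem _ (Subgroup.mul_mem _ (Subgroup.inv_mem _ hgN) hgx) hgN
    simpa [mul_assoc] using this
  · intro h
    refine ⟨hZP, fun g hg => ?_⟩
    have hPn : (P : Subgroup G) ≤ Subgroup.normalizer (Z : Set G) :=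
      (Subgroup.le_normalizer).trans hZN
    set W := Z.map (MulAut.conj g).toMonoidHom with hW
    have hZR : Z ≤ ((g⁻¹ • P : Sylow p G) : Subgroup G) := by
      intro z hz
      refine ⟨g * z * g⁻¹, hg ⟨z, hz, rfl⟩, ?_⟩
      simp [mul_assoc]
    have hgP : ((g⁻¹ • P : Sylow p G) : Subgroup G).map (MulAut.conj g).toMonoidHom = P := by
      change ((P : Subgroup G).map (MulAut.conj g⁻¹).toMonoidHom).map _ = _
      rw [Subgroup.map_map]
      ext x
      simp [mul_assoc]
    have hnorm : Subgroup.normalizer (W : Set G) =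
        (Subgroup.normalizer (Z : Set G)).map (MulAut.conj g).toMonoidHom :=
      (Subgroup.map_equiv_normalizer_eq Z (MulAut.conj g)).symm
    have hPW : (P : Subgroup G) ≤ Subgroup.normalizer (W : Set G) := by
      rw [hnorm, ← hgP]
      exact Subgroup.map_mono (h _ hZR)
    have hgPW : ((g • P : Sylow p G) : Subgroup G) ≤ Subgroup.normalizer (W : Set G) := by
      rw [hnorm]
      exact Subgroup.map_mono hPn
    obtain ⟨m, hm⟩ := MulAction.exists_smul_eq (Subgroup.normalizer (W : Set G))
      ((g • P).subtype hgPW) (P.subtype hPW)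
    rw [Sylow.smul_subtype] at hm
    have hmg : ((m : G) * g) • P = P := by
      rw [mul_smul]; exact Sylow.subtype_injective hm
    have hmgZ : (m : G) * g ∈ Subgroup.normalizer (Z : Set G) :=
      hZN (Sylow.smul_eq_iff_mem_normalizer.1 hmg)
    have hxW : ∀ y, y ∈ W ↔ g⁻¹ * y * g ∈ Z := by
      intro y
      constructor
      · rintro ⟨z, hz, rfl⟩; simpa [mul_assoc] using hz
      · intro hy; exact ⟨_, hy, by simp [mul_assoc]⟩
    ext x
    have e1 := Subgroup.mem_normalizer_iff.1 m.2 ((m : G)⁻¹ * x * m)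
    have e2 := Subgroup.mem_normalizer_iff.1 hmgZ (((m : G) * g)⁻¹ * x * (m * g))
    have a1 : (m : G) * ((m : G)⁻¹ * x * m) * (m : G)⁻¹ = x := by group
    have a2 : (m : G) * g * (((m : G) * g)⁻¹ * x * (m * g)) * ((m : G) * g)⁻¹ = x := by group
    have a3 : g⁻¹ * ((m : G)⁻¹ * x * m) * g = ((m : G) * g)⁻¹ * x * (m * g) := by group
    rw [a1, hxW, a3] at e1
    rw [a2] at e2
    exact e1.symm.trans e2

end Cfsg.Agent.S0104
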