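import Cfsg.Statements.S0106
import Cfsg.Agent.H23.QuaternionSylow
-- import your own Cfsg.Agent.* helpers here

set_option autoImplicit false
open Cfsg
open Cfsg.Agent

namespace Cfsg.Agent.S0106

/-- A finite group with generalized quaternion Sylow 2-subgroups either has a normal 2-complement or has a section isomorphic to SL(2,3). -/
theorem result {G : Type*} [Group G] [Finite G] (T : Sylow 2 G) (n : ℕ) (hn : 1 ≤ n) (hT : Nonempty ((T : Subgroup G) ≃* QuaternionGroup (2 ^ n))) : Cfsg.HasNormalPComplement 2 G ∨ ∃ (H K : Subgroup G) (hK : (K.subgroupOf H).Normal), Nonempty ((H ⧸ K.subgroupOf H) ≃* Matrix.SpecialLinearGroup (Fin 2) (ZMod 3)) := by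
  by_cases hf : H22.FrobeniusCondition 2 G
  · exact Or.inl (H22.hasNormalPComplement_of_frobenius hf)
  right
  obtain ⟨Q, hQT, g, hgN, hgodd, hgC⟩ : ∃ Q : Subgroup G, Q ≤ (T : Subgroup G) ∧
      ∃ g ∈ Subgroup.normalizer (Q : Set G), Nat.Coprime (orderOf g) 2 ∧
        g ∉ Subgroup.centralizer (Q : Set G) := by
    by_contra h
    push Not at h
    exact hf (H22.frobeniusCondition_of_sylow T h)
  obtain ⟨e⟩ := hT
  set D := (Q.subgroupOf (T : Subgroup G)).map e.toMonoidHom
  let E : Q ≃* D := (Subgroup.subgroupOfEquivOfLe hQT).symm.trans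
    ((Q.subgroupOf (T : Subgroup G)).equivMapOfInjective e.toMonoidHom e.injective)
  set ψ : MulAut Q := Q.normalizerMonoidHom ⟨g, hgN⟩ with hψ
  have hodd : Odd (orderOf g) := Nat.coprime_two_right.1 hgodd
  obtain ⟨q⟩ := H23.q8_of_odd_auto D (MulAut.congr E ψ) hodd
    (by rw [← map_pow, hψ, ← map_pow,
      show (⟨g, hgN⟩ : Subgroup.normalizer (Q : Set G)) ^ orderOf g = 1 from
        Subtype.ext (pow_orderOf_eq_one g), map_one, map_one])
    (fun h => hgC (Subgroup.mem_centralizer_iff.2 fun x hx => by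
      rw [← map_one (MulAut.congr E), (MulAut.congr E).injective.eq_iff] at h
      have h1 := congrArg Subtype.val (congrArg (fun f : MulAut Q => f ⟨x, hx⟩) h)
      change g * x * g⁻¹ = x at h1
      exact (mul_inv_eq_iff_eq_mul.1 h1).symm))
  obtain ⟨H, K, hK, hiso⟩ := H23.exists_sl_two_three_section Q (q.trans E.symm) hgN hodd hgC
  exact ⟨H, K, hK, hiso⟩

end Cfsg.Agent.S0106
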