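import Cfsg.Statements.S0107
import Mathlib
import Cfsg.Agent.S0111
import Cfsg.Agent.H22.PResidual
-- import your own Cfsg.Agent.* helpers here

set_option autoImplicit false
open Cfsg

namespace Cfsg.Agent.S0107

/-- A finite group with no nontrivial 2-group quotient and dihedral Sylow 2-subgroups of order at least 8 has a single class of involutions. -/
theorem result {G : Type*} [Group G] [Finite G] (T : Sylow 2 G) (n : ℕ) (hn : 2 ≤ n) (hT : Nonempty ((T : Subgroup G) ≃* DihedralGroup (2 ^ n))) (hO : Cfsg.pResidual 2 G = ⊤) (x y : G) (hx : orderOf x = 2) (hy : orderOf y = 2) : ∃ g : G, g * x * g⁻¹ = y := by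
  obtain ⟨e⟩ := hT
  have : NeZero (2 ^ n) := ⟨pow_ne_zero _ two_ne_zero⟩
  let emb : DihedralGroup (2 ^ n) →* G := (T : Subgroup G).subtype.comp e.symm.toMonoidHom
  have hemb : Function.Injective emb := Subtype.val_injective.comp e.symm.injective
  have hrange : ∀ g ∈ (T : Subgroup G), ∃ d, emb d = g := fun g hg =>
    ⟨e ⟨g, hg⟩, by simp [emb]⟩
  set Q : Subgroup G := Subgroup.zpowers (emb (DihedralGroup.r 1)) with hQ
  have hQT : Q ≤ (T : Subgroup G) := Subgroup.zpowers_le.2 (e.symm (DihedralGroup.r 1)).2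
  have hrmem : ∀ j : ZMod (2 ^ n), emb (DihedralGroup.r j) ∈ Q := fun j => by
    refine ⟨(j.val : ℤ), ?_⟩
    change emb (DihedralGroup.r 1) ^ (j.val : ℤ) = _
    rw [zpow_natCast, ← map_pow, DihedralGroup.r_one_pow, ZMod.natCast_zmod_val]
  have hQi : Q.relIndex (T : Subgroup G) = 2 := by
    have h2 := Subgroup.relIndex_mul_relIndex (⊥ : Subgroup G) Q (T : Subgroup G) bot_le hQT
    rw [Subgroup.relIndex_bot_left, Subgroup.relIndex_bot_left, Nat.card_zpowers,
      orderOf_injective emb hemb, DihedralGroup.orderOf_r_one, Nat.card_congr e.toEquiv,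
      DihedralGroup.nat_card, mul_comm 2 (2 ^ n)] at h2
    exact mul_left_cancel₀ (pow_ne_zero _ two_ne_zero) h2
  set z : G := emb (DihedralGroup.r ((2 ^ (n - 1) : ℕ) : ZMod (2 ^ n)))
  -- involutions of `T` inside `Q` equal `z`
  have hinQ : ∀ u ∈ Q, orderOf u = 2 → u = z := by
    rintro _ ⟨i, rfl⟩ hu
    change emb (DihedralGroup.r 1) ^ i = z
    change orderOf (emb (DihedralGroup.r 1) ^ i) = 2 at hu
    rw [← map_zpow, DihedralGroup.r_one_zpow] at hu ⊢
    rw [orderOf_injective emb hemb, DihedralGroup.orderOf_r] at hu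
    set j : ZMod (2 ^ n) := (i : ZMod (2 ^ n))
    congr 2
    have hlt := ZMod.val_lt j
    have hd := Nat.gcd_dvd_left (2 ^ n) j.val
    have hg : (2 ^ n).gcd j.val = 2 ^ (n - 1) := by
      have h3 := Nat.div_mul_cancel hd
      rw [hu] at h3
      have h4 : 2 * 2 ^ (n - 1) = 2 ^ n := by
        rw [← pow_succ']
        congr 1
        omega
      omega
    obtain ⟨c, hc⟩ : 2 ^ (n - 1) ∣ j.val := hg ▸ Nat.gcd_dvd_right _ _
    have hc2 : c < 2 := by
      by_contra hcc
      have h4 : 2 * 2 ^ (n - 1) = 2 ^ n := by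
        rw [← pow_succ']
        congr 1
        omega
      have : 2 * 2 ^ (n - 1) ≤ c * 2 ^ (n - 1) := Nat.mul_le_mul_right _ (by omega)
      rw [mul_comm c] at this
      omega
    interval_cases c
    · exfalso
      rw [mul_zero] at hc
      rw [hc, Nat.gcd_zero_right, Nat.div_self (by positivity)] at hu
      exact absurd hu (by omega)
    · rw [mul_one] at hc
      rw [← ZMod.natCast_zmod_val j, hc]
  have hall : ∀ u : G, orderOf u = 2 → ∃ g : G, g * u * g⁻¹ = z := by
    intro u hu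
    obtain ⟨S, hS⟩ := (IsPGroup.of_card (p := 2) (n := 1) (G := Subgroup.zpowers u)
      (by rw [Nat.card_zpowers, hu, pow_one])).exists_le_sylow
    obtain ⟨c, hc⟩ := MulAction.exists_smul_eq G S T
    have hcu : c * u * c⁻¹ ∈ (T : Subgroup G) := by
      rw [← hc]
      exact ⟨u, hS (Subgroup.mem_zpowers u), rfl⟩
    have hord : orderOf (c * u * c⁻¹) = 2 := by
      rw [← hu]; exact (MulAut.conj c).orderOf_eq u
    by_cases hQu : c * u * c⁻¹ ∈ Q
    · exact ⟨c, hinQ _ hQu hord⟩
    rcases Cfsg.Agent.S0111.result T Q hQT hQi _ hord hcu hQu with ⟨M, hM, hMi, hMu⟩ | ⟨g, hg⟩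
    · have h3 : Cfsg.pResidual 2 G ≤ M :=
        Cfsg.Agent.H22.pResidual_le_of_index_eq M (k := 1) (by rw [hMi, pow_one])
      rw [hO] at h3
      exact absurd (h3 (Subgroup.mem_top _)) hMu
    · refine ⟨g * c, ?_⟩
      have := hinQ _ hg (by rw [← hord]; exact (MulAut.conj g).orderOf_eq _)
      rw [← this]
      group
  obtain ⟨a, ha⟩ := hall x hx
  obtain ⟨b, hb⟩ := hall y hy
  refine ⟨b⁻¹ * a, ?_⟩
  calc b⁻¹ * a * x * (b⁻¹ * a)⁻¹ = b⁻¹ * (a * x * a⁻¹) * b := by group
    _ = b⁻¹ * (b * y * b⁻¹) * b := by rw [ha, hb]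
    _ = y := by group

end Cfsg.Agent.S0107
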