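import Cfsg.Statements.S0110
import Cfsg.Agent.H24.Extraspecial

set_option autoImplicit false
open Cfsg

namespace Cfsg.Agent.S0110

open Subgroup
open scoped commutatorElement
open Cfsg.Agent.H24

/-- In a p-group G, an extraspecial subgroup E with [G, E] ≤ Z(E) satisfies G = E C_G(E). -/
theorem result {G : Type*} [Group G] [Finite G] {p : ℕ} [Fact p.Prime] (hG : IsPGroup p G) (E : Subgroup G) (hE : Cfsg.IsExtraspecial p E) (h : ⁅(⊤ : Subgroup G), E⁆ ≤ E ⊓ Subgroup.centralizer (E : Set G)) : E ⊔ Subgroup.centralizer (E : Set G) = ⊤ := by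
  set C := centralizer (E : Set G) with hC
  have hinf : E ⊓ C = (center E).map E.subtype := by
    ext u
    constructor
    · rintro ⟨hu, hu'⟩
      exact ⟨⟨u, hu⟩, mem_center_iff.mpr fun v => Subtype.ext (hu' v v.2), rfl⟩
    · rintro ⟨v, hv, rfl⟩
      exact ⟨v.2, fun w hw => congrArg Subtype.val (center_comm hv (⟨w, hw⟩ : E))⟩
  have hcard : Nat.card (E ⊓ C : Subgroup G) = p := by
    rw [hinf, card_map_of_injective E.subtype_injective, hE.2]
  have hb := relIndex_centralizer_le hG (⊤ : Subgroup G) (T := ((E ⊓ C : Subgroup G) : Set G))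
    hcard.le (H := E ⊓ C) (H' := E) inf_le_left
    fun g _ x hx => h (commutator_mem_commutator (mem_top g) hx)
  rw [top_inf_eq, top_inf_eq] at hb
  have htop : centralizer ((E ⊓ C : Subgroup G) : Set G) = ⊤ := by
    rw [centralizer_eq_top_iff_subset]
    intro u hu
    have hEn : E.Normal := commutator_top_left_le_iff.mp (h.trans inf_le_left)
    obtain ⟨L, -, -, hL2, hLc, hLcomm⟩ := exists_normal_between hG (bot_le (a := E ⊓ C))
      (fun h0 => by
        rw [← h0, card_bot] at hcard
        exact (Fact.out : p.Prime).ne_one hcard.symm)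
    have hLeq : L = E ⊓ C := Subgroup.eq_of_le_of_card_ge hL2 (by rw [hLc, hcard, card_bot, mul_one])
    subst hLeq
    exact commutator_top_left_eq_bot_iff_le_center.mp (le_bot_iff.mp hLcomm) hu
  rw [htop, relIndex_top_right] at hb
  apply Subgroup.eq_top_of_le_card
  have hn : E.Normal := commutator_top_left_le_iff.mp (h.trans inf_le_left)
  rw [← card_mul_relIndex (le_sup_right : C ≤ E ⊔ C), ← card_mul_index C, relIndex_sup_right,
    ← inf_relIndex_right, inf_comm C E]
  exact Nat.mul_le_mul_left _ hb

end Cfsg.Agent.S0110
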