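import Cfsg.Statements.S0115
import Cfsg.Agent.H24.MaxClass

set_option autoImplicit false
open Cfsg

namespace Cfsg.Agent.S0115

open Subgroup
open scoped commutatorElement
open Cfsg.Agent.H24

/-- A 2-group of order 2^n, n ≥ 3, is of maximal class exactly when its commutator quotient is a Klein four-group. -/
theorem result {X : Type*} [Group X] [Finite X] (n : ℕ) (hn : 3 ≤ n) (hX : Nat.card X = 2 ^ n) : Group.nilpotencyClass X = n - 1 ↔ IsKleinFour (X ⧸ commutator X) := by
  have := Fact.mk Nat.prime_two
  constructor
  · exact fun hc =>
      isKleinFour_of_index_four hn hX ((index_commutator_of_max_class X 2 n hX (by omega) hc).1.trans rfl)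
  · intro h
    exact (two_group_commutator_index_four X n hX (by omega)
      ((index_eq_card _).trans h.card_four)).2.1

end Cfsg.Agent.S0115
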