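import Cfsg.Statements.S0118
-- import your own Cfsg.Agent.* helpers here
import Cfsg.Agent.H35.Sections
import Cfsg.Agent.H23.ZJFusion

set_option autoImplicit false
open Cfsg

namespace Cfsg.Agent.S0118

/-- Glauberman's ZJ-Theorem, in the case of groups with no section isomorphic to SL(2,p), p odd: conjugation of subsets of a Sylow p-subgroup P inside P is always induced from the normalizer of Z(J(P)). -/
theorem result {G : Type*} [Group G] [Finite G] {p : ℕ} [Fact p.Prime] (hp : p ≠ 2) (hfree : ¬ ∃ (H K : Subgroup G) (hK : (K.subgroupOf H).Normal), Nonempty ((H ⧸ K.subgroupOf H) ≃* Matrix.SpecialLinearGroup (Fin 2) (ZMod p))) (P : Sylow p G) (A : Set G) (hA : A ⊆ (P : Set G)) (g : G) (hAg : (fun a => g⁻¹ * a * g) '' A ⊆ (P : Set G)) : ∃ n ∈ Subgroup.normalizer (Cfsg.centerThompsonOf p (P : Subgroup G) : Set G), ∀ a ∈ A, n⁻¹ * a * n = g⁻¹ * a * g := by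
  have hst : ∀ (X : Type _) [Group X] [Finite X], H61.Sect X G → H61.Constrained p X →
      ∀ (V : Subgroup X) [V.Normal], IsPGroup p V → Cfsg.IsPStableOn p V := by
    intro X _ _ hX _ V _ hV
    by_contra hns
    obtain ⟨K, R, hR, ⟨e⟩⟩ := (H35.exists_sections_of_not_isPStableOn hp hV hns).1
    obtain ⟨H, f, hf⟩ := hX
    let i := (Subgroup.equivMapOfInjective (K.comap f) H.subtype H.subtype_injective).symm
    let g := (((e.toMonoidHom.comp (QuotientGroup.mk' _)).comp (f.subgroupComap K)).comp i.toMonoidHom)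
    have hg : Function.Surjective g :=
      ((e.surjective.comp (QuotientGroup.mk'_surjective _)).comp
        (f.subgroupComap_surjective_of_surjective K hf)).comp i.surjective
    obtain ⟨K', R', hR', -, he⟩ := H35.exists_section_of_surjective _ g hg
    exact hfree ⟨K', R', hR', he⟩
  obtain ⟨x, hx, hxa⟩ := H23.zj_controls_fusion hp hst P A hA g⁻¹ (by simpa using hAg)
  exact ⟨x⁻¹, Subgroup.inv_mem _ hx, fun a ha => by simpa using hxa a ha⟩

end Cfsg.Agent.S0118
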