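import Cfsg.Statements.S0119
import Cfsg.Agent.H24.Critical
import Cfsg.Agent.H24.Power

set_option autoImplicit false
open Cfsg

namespace Cfsg.Agent.S0119

open Subgroup
open scoped commutatorElement
open Cfsg.Agent.H24

/-- If a p'-group A of automorphisms of a p-group G satisfies G = [G, A] and acts trivially on every characteristic abelian subgroup, then G is special with centre equal to the fixed points of A. -/
theorem result {G : Type*} [Group G] [Finite G] {p : ℕ} [Fact p.Prime] (hG : IsPGroup p G) (A : Subgroup (MulAut G)) (hA : Nat.Coprime (Nat.card A) p) (hGA : Subgroup.closure {x : G | ∃ g : G, ∃ a ∈ A, x = g⁻¹ * a g} = ⊤) (hchar : ∀ H : Subgroup G, H.Characteristic → IsMulCommutative H → ∀ a ∈ A, ∀ h ∈ H, a h = h) : Cfsg.IsSpecial p G ∧ (∀ g : G, (g ∈ Subgroup.center G ↔ ∀ a ∈ A, a g = g)) := by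
  classical
  have hp : p.Prime := Fact.out
  have hinv : ∀ H : Subgroup G, H.Characteristic → ∀ (φ : MulAut G), ∀ x ∈ H, φ x ∈ H :=
    fun H hH φ x hx => characteristic_iff_le_comap.mp hH φ hx
  -- every characteristic abelian subgroup is central
  have hcent : ∀ H : Subgroup G, H.Characteristic → IsMulCommutative H → H ≤ center G := by
    intro H hH hHc
    have hgen : ∀ x ∈ {x : G | ∃ g : G, ∃ a ∈ A, x = g⁻¹ * a g}, x ∈ centralizer (H : Set G) := by
      rintro _ ⟨g, a, ha, rfl⟩ h hh
      have h' : a (g * h * g⁻¹) = g * h * g⁻¹ :=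
        hchar H hH hHc a ha _ (Normal.conj_mem inferInstance h hh g)
      rw [map_mul, map_mul, map_inv, hchar H hH hHc a ha h hh] at h'
      calc h * (g⁻¹ * a g) = g⁻¹ * (g * h * g⁻¹) * a g := by group
        _ = g⁻¹ * (a g * h * (a g)⁻¹) * a g := by rw [h']
        _ = g⁻¹ * a g * h := by group
    have htop : (⊤ : Subgroup G) ≤ centralizer (H : Set G) := hGA ▸ (closure_le _).mpr hgen
    exact fun h hh => mem_center_iff.mpr fun g => (htop (mem_top g) h hh).symm
  have hZc : IsMulCommutative (center G) := inferInstance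
  obtain ⟨hCL, hZL⟩ := centralTorsion_critical hG hZc
    (fun B hB hBc hle => le_antisymm (hcent B hB hBc) hle)
  set L := centralTorsion (center G) p
  have hclass : ∀ a b : G, ⁅a, b⁆ ∈ center G := by
    have hL : ⁅L, (⊤ : Subgroup G)⁆ ≤ center G :=
      commutator_le.mpr fun x hx g _ => hx.2.1 g
    have h1 : ⁅⁅L, (⊤ : Subgroup G)⁆, (⊤ : Subgroup G)⁆ = ⊥ :=
      commutator_top_right_eq_bot_iff_le_center.mpr hL
    have h2 : ⁅⁅(⊤ : Subgroup G), L⁆, (⊤ : Subgroup G)⁆ = ⊥ := by rw [commutator_comm ⊤ L]; exact h1
    have h3 : ⁅⁅(⊤ : Subgroup G), (⊤ : Subgroup G)⁆, L⁆ = ⊥ :=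
      commutator_commutator_eq_bot_of_rotate h2 h1
    intro a b
    rw [← hCL]
    exact commutator_eq_bot_iff_le_centralizer.mp h3
      (commutator_mem_commutator (mem_top a) (mem_top b))
  -- `p`-th powers are central
  have hpow : ∀ x : G, x ^ p ∈ center G := by
    have hex : ∃ e, ∀ x : G, x ^ p ^ e ∈ center G := by
      obtain ⟨k, hk⟩ := IsPGroup.iff_card.mp hG
      exact ⟨k, fun x => by rw [← hk, pow_card_eq_one']; exact one_mem _⟩
    have hmin : ∀ e, 2 ≤ e → (∀ x : G, x ^ p ^ e ∈ center G) →
        ∀ x : G, x ^ p ^ (e - 1) ∈ center G := by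
      intro e he h x
      set S : Set G := Set.range (fun x : G => x ^ p ^ (e - 1))
      have hW : (closure S).Characteristic := by
        refine characteristic_iff_map_le.mpr fun φ => ?_
        rw [MonoidHom.map_closure, closure_le]
        rintro _ ⟨_, ⟨y, rfl⟩, rfl⟩
        exact subset_closure ⟨φ y, (map_pow φ y _).symm⟩
      have hWc : IsMulCommutative (closure S) := by
        rw [← le_centralizer_iff_isMulCommutative, closure_le, centralizer_closure]
        rintro _ ⟨y, rfl⟩ _ ⟨z, rfl⟩
        change z ^ p ^ (e - 1) * y ^ p ^ (e - 1) = y ^ p ^ (e - 1) * z ^ p ^ (e - 1)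
        refine commutatorElement_eq_one_iff_mul_comm.mp ?_
        rw [comm_pow_left (hclass _ _), comm_pow_right (hclass _ _), ← pow_mul, ← pow_add,
          show e - 1 + (e - 1) = e + (e - 2) by omega, pow_add, pow_mul,
          ← comm_pow_left (hclass _ _) (p ^ e), commutatorElement_eq_one_iff_mul_comm.mpr
            (center_comm (h z) y).symm, one_pow]
      exact hcent _ hW hWc (subset_closure ⟨x, rfl⟩)
    have key : ∀ e, (∀ x : G, x ^ p ^ e ∈ center G) → ∀ x : G, x ^ p ∈ center G := by
      intro e
      induction e with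
      | zero => exact fun h x => pow_mem (by simpa using h x) p
      | succ e ih =>
        intro h
        rcases Nat.eq_zero_or_pos e with rfl | he
        · simpa using h
        · exact ih (by simpa using hmin (e + 1) (by omega) h)
    obtain ⟨e, he⟩ := hex
    exact key e he
  have hcomle : commutator G ≤ center G :=
    commutator_le.mpr fun a _ b _ => hclass a b
  -- fixed points lie in the derived subgroup
  have hfix : ∀ g : G, (∀ a ∈ A, a g = g) → g ∈ commutator G := by
    intro g hg
    haveI : Fintype A := Fintype.ofFinite A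
    let N : G →* Abelianization G :=
      { toFun := fun v => ∏ a : A, Abelianization.of ((a : MulAut G) v)
        map_one' := by simp
        map_mul' := fun u v => by simp [Finset.prod_mul_distrib] }
    have hN : ∀ b ∈ A, ∀ v, N (b v) = N v := fun b hb v =>
      Fintype.prod_equiv (Equiv.mulRight (⟨b, hb⟩ : A)) _ _ fun a => rfl
    have hker : (⊤ : Subgroup G) ≤ N.ker := by
      rw [← hGA, closure_le]
      rintro _ ⟨v, b, hb, rfl⟩
      rw [SetLike.mem_coe, MonoidHom.mem_ker, map_mul, map_inv, hN b hb, inv_mul_cancel]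
    have h1 : N g = 1 := hker (mem_top g)
    have h2 : N g = Abelianization.of g ^ Nat.card A := by
      show ∏ a : A, Abelianization.of ((a : MulAut G) g) = _
      rw [Finset.prod_congr rfl fun a _ => by rw [hg a a.2], Finset.prod_const, Finset.card_univ,
        Nat.card_eq_fintype_card]
    have hG' : IsPGroup p (Abelianization G) :=
      hG.of_surjective Abelianization.of QuotientGroup.mk_surjective
    have h3 : Abelianization.of g = 1 := (hG'.powEquiv (n := Nat.card A) hA.symm).injective
      (by simpa [IsPGroup.powEquiv_apply] using h2.symm.trans h1)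
    rwa [← MonoidHom.mem_ker, Abelianization.ker_of] at h3
  have hfixZ : ∀ g ∈ center G, ∀ a ∈ A, a g = g := fun g hg a ha =>
    hchar _ inferInstance hZc a ha g hg
  have hcomeq : commutator G = center G :=
    le_antisymm hcomle fun z hz => hfix z (hfixZ z hz)
  refine ⟨⟨hG, le_antisymm (frattini_le_of (p := p) _ hcomle hpow)
    (hcomeq ▸ commutator_le_frattini hG), hcomeq⟩, fun g => ⟨hfixZ g, fun h => hcomle (hfix g h)⟩⟩

end Cfsg.Agent.S0119
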