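import Cfsg.Statements.S0123
import Cfsg.Agent.H24.Power

set_option autoImplicit false
open Cfsg

namespace Cfsg.Agent.S0123

open Subgroup
open scoped commutatorElement
open Cfsg.Agent.H24

/-- For a p-group of small class relative to p (class ≤ 2 with p odd, or class ≤ 3 with p > 3) whose derived subgroup is generated by elements of order dividing p, the p-th power map is multiplicative. -/
theorem result {R : Type*} [Group R] [Finite R] {p : ℕ} [Fact p.Prime] (hR : IsPGroup p R) (hcl : (p ≠ 2 ∧ ⁅commutator R, (⊤ : Subgroup R)⁆ = ⊥) ∨ (3 < p ∧ ⁅⁅commutator R, (⊤ : Subgroup R)⁆, (⊤ : Subgroup R)⁆ = ⊥)) (hder : commutator R ≤ Subgroup.closure {x : R | x ^ p = 1}) (x y : R) : (x * y) ^ p = x ^ p * y ^ p := by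
  have hmem : ∀ a b : R, ⁅a, b⁆ ∈ closure {x : R | x ^ p = 1} := fun a b =>
    hder (by rw [commutator_def]; exact commutator_mem_commutator (mem_top _) (mem_top _))
  rcases hcl with ⟨hp2, h⟩ | ⟨hp3, h⟩
  · have hc := comm_mem_center_of_class_two h
    exact mul_pow_prime_of_class_two Fact.out hp2 (hc y x)
      (omega_one_pow_of_class_two Fact.out hp2 hc (hmem y x))
  · have hc := comm_comm_mem_center_of_class_three h
    have he : ∀ a b : R, ⁅a, b⁆ ^ p = 1 := fun a b =>
      omega_one_pow_of_class_three Fact.out hp3 hc (hmem a b)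
    exact mul_pow_prime_of_class_three Fact.out hp3 (hc y x x) (hc y x y) (he y x)
      (he ⁅y, x⁆ x) (he ⁅y, x⁆ y)

end Cfsg.Agent.S0123
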