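import Cfsg.Statements.S0125
import Cfsg.Agent.H22.PResidual

set_option autoImplicit false
open Cfsg

namespace Cfsg.Agent.S0125

open Subgroup
open scoped commutatorElement

/-- The centralizer of a self-centralizing normal subgroup A of a Sylow p-subgroup is the direct product of A with a normal p'-subgroup. -/
theorem result {G : Type*} [Group G] [Finite G] {p : ℕ} [Fact p.Prime] (R : Sylow p G) (A : Subgroup G) (hAR : A ≤ (R : Subgroup G)) (hAn : (R : Subgroup G) ≤ Subgroup.normalizer (A : Set G)) (hC : (R : Subgroup G) ⊓ Subgroup.centralizer (A : Set G) = A) : ∃ H : Subgroup G, H ≤ Subgroup.centralizer (A : Set G) ∧ Nat.Coprime (Nat.card H) p ∧ Subgroup.centralizer (A : Set G) ≤ Subgroup.normalizer (H : Set G) ∧ H ⊓ A = ⊥ ∧ H ⊔ A = Subgroup.centralizer (A : Set G) := by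
  classical
  set C := centralizer (A : Set G) with hCdef
  have hAC : A ≤ C := by rw [← hC]; exact inf_le_right
  set S := normalizer (A : Set G)
  have hRS : (R : Subgroup G) ≤ S := hAn
  have hCS : C ≤ S := centralizer_le_normalizer _
  have hCn : (C.subgroupOf S).Normal := (normal_subgroupOf_iff_le_normalizer hCS).mpr (fun n hn => by
    rw [mem_normalizer_iff]
    intro x
    have hconj : ∀ m ∈ S, ∀ y ∈ C, m * y * m⁻¹ ∈ C := by
      intro m hm y hy a ha
      have ha' : m⁻¹ * a * m ∈ A := by
        have := (mem_normalizer_iff.mp (inv_mem hm) a).mp ha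
        simpa using this
      have h := hy _ ha'
      calc a * (m * y * m⁻¹) = m * ((m⁻¹ * a * m) * y) * m⁻¹ := by group
        _ = m * (y * (m⁻¹ * a * m)) * m⁻¹ := by rw [h]
        _ = m * y * m⁻¹ * a := by group
    refine ⟨fun hx => hconj n hn x hx, fun hx => ?_⟩
    have := hconj n⁻¹ (inv_mem hn) _ hx
    simpa [mul_assoc] using this)
  have hnd := Cfsg.Agent.H22.sylow_not_dvd_relIndex_normal (R.subtype hRS) (C.subgroupOf S)
  rw [Sylow.coe_subtype, relIndex_subgroupOf hCS, ← inf_relIndex_right, hC] at hnd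
  set A' := A.subgroupOf C with hA'
  have hAcen : A' ≤ center C := fun a ha => mem_center_iff.mpr fun c =>
    Subtype.ext ((c.2 (a : G) ha).symm)
  have : A'.Normal := ⟨fun a ha c => by
    have h := mem_center_iff.mp (hAcen ha) c
    rw [h, mul_inv_cancel_right]
    exact ha⟩
  obtain ⟨k, hk⟩ := IsPGroup.iff_card.mp (R.2.to_le hAR)
  have hcard : Nat.card A' = p ^ k := (Nat.card_congr (subgroupOfEquivOfLe hAC).toEquiv).trans hk
  obtain ⟨H', hH'⟩ := exists_right_complement'_of_coprime (N := A')
    (hcard ▸ (((Fact.out : p.Prime).coprime_iff_not_dvd.mpr hnd).pow_left k))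
  refine ⟨H'.map C.subtype, map_subtype_le H', ?_, ?_, ?_, ?_⟩
  · rw [card_map_of_injective C.subtype_injective]
    have h1 := hH'.card_mul_card
    have h2 := card_mul_index A'
    rw [← h2] at h1
    rw [Nat.eq_of_mul_eq_mul_left Nat.card_pos h1]
    exact ((Fact.out : p.Prime).coprime_iff_not_dvd.mpr hnd).symm
  · have hn : H'.Normal := by
      rw [← normalizer_eq_top_iff, eq_top_iff, ← hH'.sup_eq_top]
      exact sup_le (hAcen.trans (center_le_normalizer _)) le_normalizer
    intro c hc
    have h := le_normalizer_map C.subtype (H := H')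
      (mem_map_of_mem C.subtype ((normalizer_eq_top_iff.mpr hn).symm ▸ mem_top (⟨c, hc⟩ : C)))
    exact h
  · rw [eq_bot_iff]
    rintro x ⟨⟨h, hh, rfl⟩, hxA⟩
    have : h ∈ (⊥ : Subgroup C) := by
      rw [← disjoint_iff.mp hH'.disjoint]
      exact ⟨hxA, hh⟩
    rw [mem_bot] at this
    simp [this]
  · conv_lhs => rw [← map_subgroupOf_eq_of_le hAC]
    rw [← Subgroup.map_sup, sup_comm, hH'.sup_eq_top, ← MonoidHom.range_eq_map, range_subtype]

end Cfsg.Agent.S0125
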