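import Cfsg.Statements.S0129
import Cfsg.Agent.H24.MaxExponent

set_option autoImplicit false
open Cfsg

namespace Cfsg.Agent.S0129

open Subgroup
open scoped commutatorElement
open Cfsg.Agent.H24

/-- The order of a p-group is bounded by p^(a(a+1)/2) when it has a maximal normal abelian subgroup of order p^a. -/
theorem result {G : Type*} [Group G] [Finite G] {p : ℕ} [Fact p.Prime] (hG : IsPGroup p G) (A : Subgroup G) [A.Normal] (hA : IsMulCommutative A) (hmax : ∀ B : Subgroup G, B.Normal → IsMulCommutative B → A ≤ B → B = A) (a : ℕ) (ha : Nat.card A = p ^ a) : Nat.card G ≤ p ^ (a * (a + 1) / 2) := by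
  have hC := centralizer_eq_of_maximal_normal_abelian hG hA hmax
  have h := index_centralizer_le hG ha
  rw [hC] at h
  rw [← card_mul_index A, ha]
  calc p ^ a * A.index ≤ p ^ a * p ^ a.choose 2 := Nat.mul_le_mul_left _ h
    _ = p ^ (a * (a + 1) / 2) := by
      have h2 : (a + 1).choose 2 = a + a.choose 2 := by
        rw [Nat.choose_succ_succ, Nat.choose_one_right]
      rw [← pow_add, ← h2, Nat.choose_two_right, Nat.add_sub_cancel, mul_comm]

end Cfsg.Agent.S0129
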