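import Cfsg.Statements.S0131
import Mathlib
-- import your own Cfsg.Agent.* helpers here

set_option autoImplicit false
open Cfsg
open scoped commutatorElement

namespace Cfsg.Agent.S0131

/-- P/P' has a normal complement in G exactly when the focal subgroup G' ∩ P is as small as possible, namely P'. -/
theorem result {G : Type*} [Group G] [Finite G] {p : ℕ} [Fact p.Prime] (P : Sylow p G) : (∃ N : Subgroup G, N.Normal ∧ N ⊓ (P : Subgroup G) = ⁅(P : Subgroup G), (P : Subgroup G)⁆ ∧ N ⊔ (P : Subgroup G) = ⊤) ↔ commutator G ⊓ (P : Subgroup G) = ⁅(P : Subgroup G), (P : Subgroup G)⁆ := by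
  constructor
  · rintro ⟨N, hN, hNP, hsup⟩
    refine le_antisymm ?_ (le_inf (Subgroup.commutator_mono le_top le_top)
      (Subgroup.commutator_le_self _))
    rw [← hNP]
    refine inf_le_inf_right _ ?_
    let f : (P : Subgroup G) →* G ⧸ N := (QuotientGroup.mk' N).comp (P : Subgroup G).subtype
    have hf : Function.Surjective f := by
      intro y
      induction y using QuotientGroup.induction_on with
      | _ g =>
        have hg : g ∈ N ⊔ (P : Subgroup G) := hsup ▸ Subgroup.mem_top g
        rw [← SetLike.mem_coe, Subgroup.normal_mul, Set.mem_mul] at hg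
        obtain ⟨a, ha, b, hb, rfl⟩ := hg
        exact ⟨⟨b, hb⟩, by simp [f, (QuotientGroup.eq_one_iff a).2 ha]⟩
    have hmem : ∀ a b : G, a ∈ (P : Subgroup G) → b ∈ (P : Subgroup G) → ⁅a, b⁆ ∈ N := by
      intro a b ha hb
      have : ⁅a, b⁆ ∈ N ⊓ (P : Subgroup G) := hNP ▸ Subgroup.commutator_mem_commutator ha hb
      exact this.1
    have hcomm : ∀ x y : G ⧸ N, ⁅x, y⁆ = 1 := by
      intro x y
      obtain ⟨a, rfl⟩ := hf x
      obtain ⟨b, rfl⟩ := hf y
      rw [← map_commutatorElement]
      exact (QuotientGroup.eq_one_iff _).2 (hmem a b a.2 b.2)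
    rw [commutator_def, Subgroup.commutator_le]
    intro a _ b _
    rw [← QuotientGroup.eq_one_iff, ← QuotientGroup.mk'_apply, map_commutatorElement]
    exact hcomm _ _
  · intro h
    have hker := Subgroup.ker_transferFocal_inf_eq_focalSubgroup P
    rw [← Subgroup.commutator_inf_eq_focalSubgroup, h] at hker
    refine ⟨_, inferInstance, hker, eq_top_iff.2 fun g _ => ?_⟩
    obtain ⟨y, hy⟩ := Subgroup.focalSubgroupOf.pow_index_surjective P
      ((P : Subgroup G).transferFocal g)
    obtain ⟨x, rfl⟩ := QuotientGroup.mk'_surjective _ y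
    have hx : (P : Subgroup G).transferFocal x = (P : Subgroup G).transferFocal g := by
      rw [Subgroup.transferFocal_eq_pow]; exact hy
    have hk : g * (x : G)⁻¹ ∈ (P : Subgroup G).transferFocal.ker := by
      rw [MonoidHom.mem_ker, map_mul, map_inv, hx, mul_inv_cancel]
    simpa using Subgroup.mul_mem_sup hk x.2

end Cfsg.Agent.S0131
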