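import Cfsg.Statements.S0145
import Cfsg.Agent.H26.CharOrtho

set_option autoImplicit false
open scoped ComplexConjugate
open Cfsg

namespace Cfsg.Agent.S0145

/-- Column orthogonality: the sum over the irreducible characters χ of χ g * conj (χ h) is the order of the centralizer of g if g and h are conjugate, and is 0 otherwise. -/
theorem result {G : Type*} [Group G] [Finite G] (g h : G) : (IsConj g h → ∑ᶠ χ : Cfsg.IrrCharacter G, (χ : G → ℂ) g * conj ((χ : G → ℂ) h) = (Nat.card (Subgroup.centralizer ({g} : Set G)) : ℂ)) ∧ (¬ IsConj g h → ∑ᶠ χ : Cfsg.IrrCharacter G, (χ : G → ℂ) g * conj ((χ : G → ℂ) h) = 0) := by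
  classical
  have : Fintype G := Fintype.ofFinite G
  rw [finsum_eq_sum_of_fintype, Cfsg.Agent.H26.column_orthogonality]
  refine ⟨fun e => ?_, fun e => ?_⟩
  · rw [Cfsg.Agent.H26.classIndicator, if_pos e, mul_one,
      Cfsg.Agent.H26.card_centralizer_eq_of_isConj e]
  · rw [Cfsg.Agent.H26.classIndicator, if_neg e, mul_zero]

end Cfsg.Agent.S0145
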