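import Cfsg.Statements.S0166
import Cfsg.Agent.H27.SplittingField

set_option autoImplicit false
open Cfsg

namespace Cfsg.Agent.S0166

/-- Brauer's splitting field Theorem: a complex representation of a finite group of exponent m is equivalent to a representation by matrices with entries in ℚ adjoined exp(2πi/m). -/
theorem result {G : Type*} [Group G] [Finite G] (n : ℕ) (ρ : Representation ℂ G (Fin n → ℂ)) : ∃ σ : Representation ℂ G (Fin n → ℂ), Nonempty (ρ.Equiv σ) ∧ ∀ g : G, ∀ i j : Fin n, LinearMap.toMatrix' (σ g) i j ∈ Algebra.adjoin ℚ ({Complex.exp (2 * Real.pi * Complex.I / (Monoid.exponent G : ℂ))} : Set ℂ) := by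
  haveI := Fintype.ofFinite G; exact Cfsg.Agent.H27.exists_equiv_adjoin n ρ

end Cfsg.Agent.S0166
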