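import Cfsg.Statements.S0167
import Cfsg.Agent.H26.CharOrtho
import Cfsg.Agent.H25.CharIntegral
import Mathlib
-- import your own Cfsg.Agent.* helpers here

set_option autoImplicit false
open Cfsg

namespace Cfsg.Agent.S0167

/-- An element g of a finite group is a commutator if and only if the sum over the irreducible characters χ of χ g / χ 1 is nonzero. -/
theorem result {G : Type*} [Group G] [Finite G] (g : G) : (∃ a b : G, g = a * b * a⁻¹ * b⁻¹) ↔ ∑ᶠ χ : Cfsg.IrrCharacter G, (χ : G → ℂ) g / (χ : G → ℂ) 1 ≠ 0 := by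
  classical
  haveI := Fintype.ofFinite G
  let N : G → ℂ := fun x => ((Finset.univ.filter
    fun p : G × G => p.1 * p.2 * p.1⁻¹ * p.2⁻¹ = x).card : ℂ)
  have hN : Cfsg.IsClassFunction G N := by
    intro x h
    simp only [N, Nat.cast_inj]
    refine Finset.card_equiv ((MulAut.conj h⁻¹).toEquiv.prodCongr (MulAut.conj h⁻¹).toEquiv) ?_
    intro p
    simp only [Finset.mem_filter, Finset.mem_univ, true_and, Equiv.prodCongr_apply,
      MulEquiv.toEquiv_eq_coe, EquivLike.coe_coe, MulAut.conj_apply, inv_inv, Prod.map_fst,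
      Prod.map_snd]
    constructor
    · intro e
      have := congrArg (fun z => h⁻¹ * z * h) e
      simpa [mul_assoc] using this
    · intro e
      have := congrArg (fun z => h * z * h⁻¹) e
      simpa [mul_assoc] using this
  have hinner : ∀ χ : Cfsg.IrrCharacter G,
      Cfsg.classInner N χ.1 = (Nat.card G : ℂ) / χ.1 1 := by
    intro χ
    obtain ⟨n, ρ, hρ, hρχ⟩ := χ.2
    have hd : ((Module.finrank ℂ (Fin n → ℂ) : ℕ) : ℂ) ≠ 0 :=
      Nat.cast_ne_zero.2 (Cfsg.Agent.H25.finrank_pos_of_isIrreducible ρ).ne'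
    have hS : ∀ a : G, ∑ b : G, ρ.character (a * b * a⁻¹ * b⁻¹) =
        (Nat.card G : ℂ) * (ρ.character a * ρ.character a⁻¹) / (Module.finrank ℂ (Fin n → ℂ) : ℂ) := by
      intro a
      set S : Module.End ℂ (Fin n → ℂ) := ∑ b : G, ρ b * ρ a⁻¹ * ρ b⁻¹ with hSdef
      have hcomm : ∀ g, S ∘ₗ ρ g = ρ g ∘ₗ S := by
        intro g
        simp only [← Module.End.mul_eq_comp, hSdef, Finset.sum_mul, Finset.mul_sum]
        refine Fintype.sum_equiv (Equiv.mulLeft g⁻¹) _ _ fun b => ?_
        simp [mul_assoc, ← map_mul]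
      have htr : LinearMap.trace ℂ _ S = (Nat.card G : ℂ) * ρ.character a⁻¹ := by
        simp only [hSdef, map_sum, ← map_mul]
        show ∑ b : G, ρ.character (b * a⁻¹ * b⁻¹) = _
        rw [Finset.sum_congr rfl fun b _ => ρ.char_conj a⁻¹ b, Finset.sum_const, Finset.card_univ,
          nsmul_eq_mul, Nat.card_eq_fintype_card]
      have h2 : ∑ b : G, ρ.character (a * b * a⁻¹ * b⁻¹) = LinearMap.trace ℂ _ (ρ a * S) := by
        simp [hSdef, Finset.mul_sum, Representation.character, mul_assoc, ← map_mul]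
      rw [h2, Cfsg.Agent.H25.eq_smul_id_of_comm ρ S hcomm, htr, ← Module.End.one_eq_id, mul_smul_one,
        map_smul, smul_eq_mul]
      show _ * ρ.character a = _
      ring
    have hsum : ∑ x : G, N x * starRingEnd ℂ (χ.1 x) =
        ∑ a : G, ∑ b : G, starRingEnd ℂ (ρ.character (a * b * a⁻¹ * b⁻¹)) := by
      rw [← Fintype.sum_prod_type' (f := fun a b : G => starRingEnd ℂ (ρ.character (a * b * a⁻¹ * b⁻¹))),
        ← Finset.sum_fiberwise Finset.univ (fun p : G × G => p.1 * p.2 * p.1⁻¹ * p.2⁻¹)]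
      refine Finset.sum_congr rfl fun x _ => ?_
      rw [Finset.sum_congr rfl fun p hp => by rw [(Finset.mem_filter.1 hp).2], Finset.sum_const,
        nsmul_eq_mul, hρχ]
    rw [Cfsg.classInner, hsum]
    simp only [← map_sum, hS]
    rw [← Finset.sum_div, ← Finset.mul_sum, Cfsg.Agent.H25.sum_char_mul_char_inv ρ, ← hρχ, ρ.char_one,
      map_div₀, map_mul, map_natCast, map_natCast]
    field_simp
  have hexp := congrFun (Cfsg.Agent.H26.class_function_expansion N hN) g
  simp only [hinner, Finset.sum_apply, Pi.smul_apply, smul_eq_mul] at hexp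
  rw [finsum_eq_sum_of_fintype]
  have hexp' : N g = (Nat.card G : ℂ) *
      ∑ χ : Cfsg.IrrCharacter G, (χ : G → ℂ) g / (χ : G → ℂ) 1 := by
    rw [hexp, Finset.mul_sum]
    exact Finset.sum_congr rfl fun χ _ => by ring
  have hG : (Nat.card G : ℂ) ≠ 0 := Nat.cast_ne_zero.2 Nat.card_pos.ne'
  have hN0 : N g ≠ 0 ↔ ∃ a b : G, g = a * b * a⁻¹ * b⁻¹ := by
    simp only [N, ne_eq, Nat.cast_eq_zero, Finset.card_eq_zero, Finset.filter_eq_empty_iff,
      Finset.mem_univ, true_implies, not_forall, not_not, Prod.exists, eq_comm (a := g)]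
  rw [← hN0, hexp', mul_ne_zero_iff]
  exact and_iff_right hG

end Cfsg.Agent.S0167
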