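import Cfsg.Statements.S0168
import Mathlib
import Cfsg.Agent.H26.CharOrtho
import Cfsg.Agent.H25.CharValues
-- import your own Cfsg.Agent.* helpers here

set_option autoImplicit false
open Cfsg

namespace Cfsg.Agent.S0168

/-- The Burnside–Brauer Theorem. Let χ be the character of a faithful complex representation of a finite group, taking m distinct values. Then every irreducible character has nonzero inner product with χ ^ i for some i < m. -/
theorem result {G : Type*} [Group G] [Fintype G] {V : Type*} [AddCommGroup V] [Module ℂ V] [FiniteDimensional ℂ V] (ρ : Representation ℂ G V) (hfaithful : Function.Injective ρ) (ψ : G → ℂ) (hψ : Cfsg.IsIrrCharacter G ψ) : ∃ i : ℕ, i < Nat.card (Set.range ρ.character) ∧ Cfsg.classInner (fun g => ρ.character g ^ i) ψ ≠ 0 := by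
  classical
  by_contra hcon
  push_neg at hcon
  set d : ℂ := (Module.finrank ℂ V : ℂ)
  set R : Finset ℂ := Finset.univ.image ρ.character with hR
  have hcard : Nat.card (Set.range ρ.character) = R.card := by
    rw [show Set.range ρ.character = (R : Set ℂ) by simp [hR]]
    simp
  set L : Polynomial ℂ := Lagrange.basis R id d
  have hd : d ∈ R := Finset.mem_image.2 ⟨1, Finset.mem_univ _, ρ.char_one⟩
  have hdeg : L.natDegree < R.card := by
    rw [Lagrange.natDegree_basis (Set.injOn_id _) hd]
    exact Nat.sub_lt (Finset.card_pos.2 ⟨d, hd⟩) one_pos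
  have hzero : ∀ k < R.card, ∑ g : G, ρ.character g ^ k * starRingEnd ℂ (ψ g) = 0 := by
    intro k hk
    have h := hcon k (hcard ▸ hk)
    simp only [Cfsg.classInner, mul_eq_zero, inv_eq_zero, Nat.cast_eq_zero, Nat.card_pos.ne',
      false_or] at h
    exact h
  have h1 : ∑ g : G, L.eval (ρ.character g) * starRingEnd ℂ (ψ g) = 0 := by
    simp only [Polynomial.eval_eq_sum_range' hdeg, Finset.sum_mul]
    rw [Finset.sum_comm]
    refine Finset.sum_eq_zero fun k hk => ?_
    simp only [mul_assoc, ← Finset.mul_sum, hzero k (Finset.mem_range.1 hk), mul_zero]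
  rw [Finset.sum_eq_single (1 : G)] at h1
  · have he : L.eval (ρ.character 1) = 1 := by
      rw [ρ.char_one]
      exact Lagrange.eval_basis_self (Set.injOn_id _) hd
    rw [he, one_mul, map_eq_zero] at h1
    exact Cfsg.Agent.H26.irr_one_ne_zero ⟨ψ, hψ⟩ h1
  · intro g _ hg
    have hne : d ≠ ρ.character g := fun e => hg (hfaithful (by
      rw [map_one]; exact (Cfsg.Agent.H25.char_eq_degree_iff ρ g).1 e.symm))
    rw [show L.eval (ρ.character g) = 0 from
      Lagrange.eval_basis_of_ne (v := id) hne (Finset.mem_image.2 ⟨g, Finset.mem_univ _, rfl⟩), zero_mul]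
  · simp

end Cfsg.Agent.S0168
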