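import Cfsg.Statements.S0172
import Mathlib
-- import your own Cfsg.Agent.* helpers here

set_option autoImplicit false
open Cfsg

namespace Cfsg.Agent.S0172

/-- Class number of a Frobenius group: if G = K H with K normal, K ⊓ H trivial and no non-identity element of H commuting with a non-identity element of K, then |H| * k(G) + 1 = |H| * k(H) + k(K), where k denotes the number of conjugacy classes. -/
theorem result {G : Type*} [Group G] [Finite G] (K H : Subgroup G) [K.Normal] (hKH : K ⊓ H = ⊥) (hKH' : K ⊔ H = ⊤) (hfpf : ∀ h ∈ H, h ≠ 1 → ∀ k ∈ K, h * k = k * h → k = 1) : Nat.card H * Nat.card (ConjClasses G) + 1 = Nat.card H * Nat.card (ConjClasses H) + Nat.card (ConjClasses K) := by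
  classical
  haveI := Fintype.ofFinite G
  have hn : K.Normal := inferInstance
  -- decompose `g = k * h`
  have hmem : ∀ g : G, ∃ k ∈ K, ∃ h ∈ H, k * h = g := fun g => by
    have : g ∈ K ⊔ H := hKH' ▸ Subgroup.mem_top g
    rwa [Subgroup.mem_sup_of_normal_left] at this
  have hdis : ∀ x, x ∈ K → x ∈ H → x = 1 := fun x hxK hxH => by
    have : x ∈ K ⊓ H := ⟨hxK, hxH⟩
    rwa [hKH, Subgroup.mem_bot] at this
  -- a conjugate by `c ∈ K` of `h ≠ 1` lying in `H` forces `c = 1`
  have hrigid : ∀ c ∈ K, ∀ h ∈ H, h ≠ 1 → c * h * c⁻¹ ∈ H → c = 1 := by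
    intro c hc h hh h1 hm
    have hK : c * h * c⁻¹ * h⁻¹ ∈ K := by
      have : c * (h * c⁻¹ * h⁻¹) ∈ K := K.mul_mem hc (hn.conj_mem _ (K.inv_mem hc) _)
      simpa [mul_assoc] using this
    have := mul_inv_eq_one.mp (hdis _ hK (H.mul_mem hm (H.inv_mem hh)))
    exact hfpf h hh h1 c hc (mul_inv_eq_iff_eq_mul.mp this).symm
  -- `(k, h) ↦ k * h * k⁻¹` and `K` cover `G` without repetition
  let H' := {h : H // h ≠ 1}
  have hne : ∀ h : H', (h.1 : G) ≠ 1 := fun h e => h.2 (Subtype.ext e)
  let f : K ⊕ (K × H') → G := Sum.elim (fun k => (k : G))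
    (fun p => (p.1 : G) * (p.2.1 : G) * (p.1 : G)⁻¹)
  have hnotK : ∀ (k : K) (h : H'), (k : G) * (h.1 : G) * (k : G)⁻¹ ∉ K := fun k h hc => by
    have := hn.conj_mem' _ hc (k : G)
    exact hne h (hdis _ (by simpa [mul_assoc] using this) h.1.2)
  have hinj : Function.Injective f := by
    rintro (a | ⟨k, h⟩) (b | ⟨k', h'⟩) hab <;> simp only [f, Sum.elim_inl, Sum.elim_inr] at hab
    · exact congrArg Sum.inl (Subtype.ext hab)
    · exact absurd (hab ▸ a.2) (hnotK k' h')
    · exact absurd (hab ▸ b.2) (hnotK k h)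
    · have e1 : ((k' : G)⁻¹ * k) * (h.1 : G) * ((k' : G)⁻¹ * k)⁻¹ = (h'.1 : G) := by
        have := congrArg (fun x => (k' : G)⁻¹ * x * (k' : G)) hab
        simpa [mul_assoc] using this
      have e3 : (k' : G)⁻¹ * k = 1 := hrigid _ (K.mul_mem (K.inv_mem k'.2) k.2) _ h.1.2 (hne h)
        (e1 ▸ h'.1.2)
      rw [e3, one_mul, inv_one, mul_one] at e1
      obtain rfl : k = k' := Subtype.ext (inv_mul_eq_one.mp e3).symm
      obtain rfl : h = h' := Subtype.ext (Subtype.ext e1)
      rfl
  have hcardG : Nat.card G = Nat.card K * Nat.card H := by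
    rw [← Nat.card_prod]
    refine (Nat.card_congr (Equiv.ofBijective (fun p : K × H => (p.1 : G) * p.2) ⟨?_, ?_⟩)).symm
    · exact Subgroup.mul_injective_of_disjoint (disjoint_iff.mpr hKH)
    · intro g
      obtain ⟨k, hk, h, hh, e⟩ := hmem g
      exact ⟨(⟨k, hk⟩, ⟨h, hh⟩), e⟩
  have hH' : Nat.card H' + 1 = Nat.card H := by
    have := Fintype.card_subtype_compl (fun h : H => h = 1)
    simp only [Fintype.card_subtype_eq] at this
    have hp : 0 < Fintype.card H := Fintype.card_pos
    simp only [H', Nat.card_eq_fintype_card, ne_eq]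
    omega
  have hbij : Function.Bijective f := by
    rw [Nat.bijective_iff_injective_and_card]
    refine ⟨hinj, ?_⟩
    rw [Nat.card_sum, Nat.card_prod, hcardG, ← hH']
    ring
  -- centralisers
  let c : G → ℕ := fun x => Nat.card {y : G // Commute x y}
  have hcG : ∀ (M : Subgroup G) (x : M), (∀ y : G, Commute (x : G) y → y ∈ M) →
      c x = Nat.card {y : M // Commute x y} := by
    intro M x hM
    exact Nat.card_congr
      { toFun := fun y => ⟨⟨y.1, hM y.1 y.2⟩, Subtype.ext y.2⟩
        invFun := fun y => ⟨(y.1 : G), congrArg Subtype.val y.2⟩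
        left_inv := fun y => rfl
        right_inv := fun y => rfl }
  have hcK : ∀ x : K, x ≠ 1 → c x = Nat.card {y : K // Commute x y} := by
    intro x hx
    refine hcG K x fun y hy => ?_
    by_contra hyK
    obtain ⟨z, hz⟩ := hbij.2 y
    rcases z with k | ⟨k, h⟩
    · exact hyK (hz ▸ k.2)
    · simp only [f, Sum.elim_inr] at hz
      have hc : Commute ((k : G)⁻¹ * x * k) (h.1 : G) := by
        have := (Commute.conj_iff (k : G)⁻¹).mpr hy
        simpa [← hz, mul_assoc] using this
      have h1 := hfpf _ h.1.2 (hne h) _ (hn.conj_mem' _ x.2 _) hc.eq.symm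
      refine hx (Subtype.ext ?_)
      have := congrArg (fun w => (k : G) * w * (k : G)⁻¹) h1
      simpa [mul_assoc] using this
  have hcH : ∀ (k : K) (h : H'), c ((k : G) * h.1 * (k : G)⁻¹) =
      Nat.card {y : H // Commute h.1 y} := by
    intro k h
    have e : c ((k : G) * h.1 * (k : G)⁻¹) = c h.1 :=
      (Nat.card_congr (Equiv.subtypeEquiv (MulAut.conj (k : G)).toEquiv fun y =>
        (Commute.conj_iff (k : G)).symm)).symm
    rw [e]
    refine hcG H h.1 fun y hy => ?_
    obtain ⟨k', hk', h', hh', rfl⟩ := hmem y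
    -- `k' * h'` centralises `h`, so `h' h h'⁻¹` is conjugate to `h` by `k'⁻¹`
    have h3 : (k' * h') * (h.1 : G) * (k' * h')⁻¹ = (h.1 : G) :=
      mul_inv_eq_iff_eq_mul.mpr hy.eq.symm
    have hm : h' * (h.1 : G) * h'⁻¹ ∈ H := H.mul_mem (H.mul_mem hh' h.1.2) (H.inv_mem hh')
    have hne' : h' * (h.1 : G) * h'⁻¹ ≠ 1 := by simpa using hne h
    have h4 : k' * (h' * (h.1 : G) * h'⁻¹) * k'⁻¹ = (h.1 : G) := by simpa [mul_assoc] using h3
    have : k' = 1 := hrigid _ hk' _ hm hne' (by rw [h4]; exact h.1.2)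
    simpa [this] using hh'
  have key : ∀ (M : Subgroup G),
      Nat.card (ConjClasses M) * Nat.card M = ∑ x : M, Nat.card {y : M // Commute x y} := by
    intro M
    rw [← card_comm_eq_card_conjClasses_mul_card,
      Nat.card_congr (Equiv.subtypeProdEquivSigmaSubtype fun x y : M => Commute x y),
      Nat.card_sigma]
  have keyG : Nat.card (ConjClasses G) * Nat.card G = ∑ x : G, c x := by
    rw [← card_comm_eq_card_conjClasses_mul_card,
      Nat.card_congr (Equiv.subtypeProdEquivSigmaSubtype fun x y : G => Commute x y),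
      Nat.card_sigma]
  have hc1 : c 1 = Nat.card G :=
    Nat.card_congr (Equiv.subtypeUnivEquiv fun y => Commute.one_left y)
  have sumK : ∑ x : K, c x + Nat.card K = Nat.card (ConjClasses K) * Nat.card K + Nat.card G := by
    rw [key K, ← Finset.add_sum_erase _ _ (Finset.mem_univ (1 : K)),
      ← Finset.add_sum_erase (s := Finset.univ) (f := fun x : K => Nat.card {y : K // Commute x y})
        (Finset.mem_univ (1 : K)),
      Finset.sum_congr rfl fun x hx => hcK x (Finset.ne_of_mem_erase hx)]
    rw [OneMemClass.coe_one, hc1,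
      Nat.card_congr (Equiv.subtypeUnivEquiv fun y : K => Commute.one_left y)]
    ring
  have sumH : ∑ h : H', Nat.card {y : H // Commute h.1 y} + Nat.card H
      = Nat.card (ConjClasses H) * Nat.card H := by
    rw [key H, ← Finset.add_sum_erase _ _ (Finset.mem_univ (1 : H)),
      Nat.card_congr (Equiv.subtypeUnivEquiv fun y : H => Commute.one_left y), add_comm]
    congr 1
    exact (Finset.sum_subtype (Finset.univ.erase (1 : H)) (by simp)
      (fun x => Nat.card {y : H // Commute x y})).symm
  have sumG : Nat.card (ConjClasses G) * Nat.card G =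
      ∑ x : K, c x + Nat.card K * ∑ h : H', Nat.card {y : H // Commute h.1 y} := by
    rw [keyG, ← (Equiv.ofBijective f hbij).sum_comp, Fintype.sum_sum_type, Fintype.sum_prod_type]
    simp only [Equiv.ofBijective_apply, f, Sum.elim_inl, Sum.elim_inr]
    refine congrArg (_ + ·) ?_
    rw [Finset.sum_congr rfl fun k _ => Finset.sum_congr rfl fun h _ => hcH k h, Finset.sum_const,
      Finset.card_univ, smul_eq_mul, Nat.card_eq_fintype_card]
  apply Nat.eq_of_mul_eq_mul_left (Nat.card_pos (α := K))
  rw [hcardG] at sumG sumK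
  nlinarith

end Cfsg.Agent.S0172
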