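import Cfsg.Statements.S0180
import Cfsg.Agent.H45.Galois
import Cfsg.Agent.H26.CharOrtho
-- import your own Cfsg.Agent.* helpers here

set_option autoImplicit false
open Cfsg

namespace Cfsg.Agent.S0180

/-- Every irreducible complex character of a finite group takes only rational values if and only if g is conjugate to g ^ m for every element g and every m coprime to the group order. -/
theorem result {G : Type*} [Group G] [Finite G] : (∀ χ : Cfsg.IrrCharacter G, ∀ g : G, ∃ q : ℚ, (χ : G → ℂ) g = (q : ℂ)) ↔ ∀ m : ℕ, m.Coprime (Nat.card G) → ∀ g : G, IsConj g (g ^ m) := by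
  classical
  haveI := Fintype.ofFinite G
  have hn : Nat.card G ≠ 0 := Nat.card_pos.ne'
  constructor
  · intro h m hm g
    obtain ⟨σ, hσ⟩ := Cfsg.Agent.H45.exists_ringAut_pow hn hm
    refine (Cfsg.Agent.H26.isConj_iff_forall_irr g (g ^ m)).2 fun χ => ?_
    obtain ⟨q, hq⟩ := h χ g
    rw [← Cfsg.Agent.H45.ringAut_char (Cfsg.Agent.H26.irr_isCharacter χ) σ hσ g, hq, map_ratCast]
  · intro h χ g
    refine Cfsg.Agent.H45.exists_rat_of_forall_ringAut
      ((Cfsg.Agent.H45.isIntegral_char' (Cfsg.Agent.H26.irr_isCharacter χ) g).tower_top (A := ℚ))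
      fun σ => ?_
    obtain ⟨k, hk, hσ⟩ := Cfsg.Agent.H45.exists_pow_of_ringAut σ hn
    rw [Cfsg.Agent.H45.ringAut_char (Cfsg.Agent.H26.irr_isCharacter χ) σ hσ g]
    exact (Cfsg.Agent.H26.irr_eq_of_isConj χ (h k hk g)).symm

end Cfsg.Agent.S0180
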