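import Cfsg.Statements.S0181
import Mathlib
-- import your own Cfsg.Agent.* helpers here

set_option autoImplicit false
open Cfsg

namespace Cfsg.Agent.S0181

/-- Let H be a normal subgroup of a finite group G and ρ an irreducible complex representation whose kernel does not contain H. If g commutes with no non-identity element of H, then the character of ρ vanishes at g. -/
theorem result {G : Type*} [Group G] [Finite G] {V : Type*} [AddCommGroup V] [Module ℂ V] [FiniteDimensional ℂ V] (ρ : Representation ℂ G V) [ρ.IsIrreducible] (H : Subgroup G) [H.Normal] (hker : ∃ h ∈ H, ρ h ≠ LinearMap.id) (g : G) (hg : ∀ h ∈ H, h * g = g * h → h = 1) : ρ.character g = 0 := by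
  classical
  haveI := Fintype.ofFinite G
  haveI : Fintype H := Fintype.ofFinite H
  -- the map `h ↦ g⁻¹ * h * g * h⁻¹` is a bijection of `H`
  have hn : H.Normal := inferInstance
  let f : H → H := fun h => ⟨g⁻¹ * (h : G) * g * (h : G)⁻¹,
    H.mul_mem (hn.conj_mem' h h.2 g) (H.inv_mem h.2)⟩
  have hf : Function.Bijective f := by
    apply Finite.injective_iff_bijective.mp
    intro a b hab
    have h1 : g⁻¹ * (a : G) * g * (a : G)⁻¹ = g⁻¹ * (b : G) * g * (b : G)⁻¹ :=
      congrArg Subtype.val hab
    have h2 : ((b : G)⁻¹ * a) * g = g * ((b : G)⁻¹ * a) := by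
      have h3 := congrArg (fun x => ((b : G)⁻¹ * g) * x * (a : G)) h1
      simpa [mul_assoc] using h3
    have := hg _ (H.mul_mem (H.inv_mem b.2) a.2) h2
    exact Subtype.ext (inv_mul_eq_one.mp this).symm
  -- so every `g * h` is conjugate to `g`
  have hchar : ∀ h : H, ρ.character (g * h) = ρ.character g := by
    intro h
    obtain ⟨k, hk⟩ := hf.2 h
    have : g * (h : G) = (k : G) * g * (k : G)⁻¹ := by
      rw [← hk]; simp [f, mul_assoc]
    rw [this, ρ.char_conj]
  -- the sum over `H` vanishes
  let S : V →ₗ[ℂ] V := ∑ h : H, ρ h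
  have hS : S = 0 := by
    let U : Subrepresentation ρ :=
      { toSubmodule := (Representation.invariants (ρ.comp H.subtype))
        apply_mem_toSubmodule := fun x v hv => ρ.le_comap_invariants H x hv }
    have hU : U = ⊥ := by
      rcases IsSimpleOrder.eq_bot_or_eq_top U with h | h
      · exact h
      · obtain ⟨h0, hh0, hne⟩ := hker
        exfalso
        apply hne
        ext v
        have hv : v ∈ U := by rw [h]; trivial
        exact hv ⟨h0, hh0⟩
    ext v
    have : S v ∈ U := by
      intro x
      show ρ (x : G) (S v) = S v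
      simp only [S, LinearMap.sum_apply, map_sum]
      refine Fintype.sum_equiv (Equiv.mulLeft x) _ _ fun y => ?_
      simp
    rw [hU] at this
    simpa using (Submodule.mem_bot ℂ).mp this
  have : (Nat.card H : ℂ) * ρ.character g = 0 := by
    have h1 : ∑ h : H, ρ.character (g * h) = LinearMap.trace ℂ V (ρ g * S) := by
      simp [S, Finset.mul_sum, Representation.character]
    rw [hS, mul_zero, map_zero, Finset.sum_congr rfl fun h _ => hchar h, Finset.sum_const,
      Finset.card_univ, nsmul_eq_mul] at h1
    rwa [Nat.card_eq_fintype_card]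
  exact (mul_eq_zero.mp this).resolve_left (by exact_mod_cast Nat.card_pos.ne')

end Cfsg.Agent.S0181
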