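import Cfsg.Statements.S0184
import Cfsg.Agent.H27.SmallDegree
import Cfsg.Agent.H25.CharIntegral
-- import your own Cfsg.Agent.* helpers here

set_option autoImplicit false
open Cfsg

namespace Cfsg.Agent.S0184

/-- A finite p-group admits a faithful irreducible complex representation if and only if its centre is cyclic. -/
theorem result {G : Type*} [Group G] [Finite G] (p : ℕ) [Fact p.Prime] (hG : IsPGroup p G) : (∃ (n : ℕ) (ρ : Representation ℂ G (Fin n → ℂ)), ρ.IsIrreducible ∧ Function.Injective ρ) ↔ IsCyclic (Subgroup.center G) := by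
  classical
  haveI := Fintype.ofFinite G
  constructor
  · rintro ⟨n, ρ, hρ, hinj⟩
    have hsc : ∀ z : Subgroup.center G, ∀ g, (ρ (z : G)) ∘ₗ ρ g = ρ g ∘ₗ ρ (z : G) := fun z g => by
      rw [← Module.End.mul_eq_comp, ← Module.End.mul_eq_comp, ← map_mul, ← map_mul,
        Subgroup.mem_center_iff.1 z.2 g]
    have hn0 : ((Module.finrank ℂ (Fin n → ℂ) : ℕ) : ℂ) ≠ 0 :=
      Nat.cast_ne_zero.2 (Cfsg.Agent.H25.finrank_pos_of_isIrreducible ρ).ne'
    set c : Subgroup.center G → ℂ := fun z =>
      LinearMap.trace ℂ _ (ρ (z : G)) / (Module.finrank ℂ (Fin n → ℂ) : ℂ) with hc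
    have hρc : ∀ z : Subgroup.center G, ρ (z : G) = c z • (1 : Module.End ℂ (Fin n → ℂ)) := fun z =>
      Cfsg.Agent.H25.eq_smul_id_of_comm ρ _ (hsc z)
    haveI := Cfsg.Agent.H25.nontrivial_of_isIrreducible ρ
    let f : Subgroup.center G →* ℂ :=
      { toFun := c
        map_one' := by
          simp only [hc, OneMemClass.coe_one, map_one, LinearMap.trace_one]
          exact div_self hn0
        map_mul' := fun a b => by
          have h := hρc (a * b)
          rw [Subgroup.coe_mul, map_mul, hρc a, hρc b, smul_mul_smul_comm, mul_one] at h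
          exact (smul_left_injective ℂ (one_ne_zero (α := Module.End ℂ (Fin n → ℂ))) h).symm }
    refine isCyclic_of_subgroup_isDomain f fun a b hab => Subtype.ext (hinj ?_)
    rw [hρc a, hρc b]
    exact congrArg (· • (1 : Module.End ℂ (Fin n → ℂ))) hab
  · intro hcyc
    by_cases hG1 : Subsingleton G
    · obtain ⟨n, ρ, hρ, -⟩ := (Cfsg.Agent.H26.oneIrr G).2
      exact ⟨n, ρ, hρ, fun a b _ => Subsingleton.elim a b⟩
    haveI : Nontrivial G := not_subsingleton_iff_nontrivial.1 hG1
    haveI : Nontrivial (Subgroup.center G) := hG.center_nontrivial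
    have hpc : p ∣ Nat.card (Subgroup.center G) := by
      obtain ⟨k, hk⟩ := (hG.to_subgroup (Subgroup.center G)).exists_card_eq
      rcases Nat.eq_zero_or_pos k with rfl | hk0
      · rw [pow_zero] at hk
        exact absurd hk Finite.one_lt_card.ne'
      · exact hk ▸ dvd_pow_self p hk0.ne'
    obtain ⟨z, hz⟩ := exists_prime_orderOf_dvd_card' p hpc
    have hz1 : (z : G) ≠ 1 := by
      intro e
      rw [show z = 1 from Subtype.ext e, orderOf_one] at hz
      exact (Fact.out : p.Prime).one_lt.ne hz
    obtain ⟨χ, hχ⟩ : ∃ χ : Cfsg.IrrCharacter G, χ.1 z ≠ χ.1 1 := by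
      by_contra h
      push_neg at h
      exact hz1 (isConj_one_right.mp ((Cfsg.Agent.H26.isConj_iff_forall_irr (1 : G) z).2 fun χ => (h χ).symm))
    obtain ⟨n, ρ, hρ, hρχ⟩ := χ.2
    refine ⟨n, ρ, hρ, ?_⟩
    let f : G →* (Module.End ℂ (Fin n → ℂ))ˣ := ρ.toHomUnits
    have hker : f.ker = ⊥ := by
      by_contra hne
      haveI : Nontrivial f.ker := Subgroup.nontrivial_iff_ne_bot _ |>.2 hne
      obtain ⟨y, hy1, hyo⟩ : ∃ y : G, y ∈ f.ker ⊓ Subgroup.center G ∧ orderOf y = p := by
        let M := f.ker ⊓ Subgroup.center G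
        haveI : Nontrivial M := Subgroup.nontrivial_iff_ne_bot _ |>.2 fun e =>
          Cfsg.Agent.H27.inf_center_ne_bot hG f.ker hne e
        obtain ⟨k, hk⟩ := (hG.to_subgroup M).exists_card_eq
        have hk0 : k ≠ 0 := fun e => by
          subst e; rw [pow_zero] at hk; exact Finite.one_lt_card.ne' hk
        obtain ⟨y, hy⟩ := exists_prime_orderOf_dvd_card' p (hk ▸ dvd_pow_self p hk0)
        exact ⟨y, y.2, by rwa [Subgroup.orderOf_coe]⟩
      have hmem : (z : G) ∈ Subgroup.zpowers y := by
        have h1 : Subgroup.zpowers (⟨y, hy1.2⟩ : Subgroup.center G) = Subgroup.zpowers z := by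
          have key : ∀ w : Subgroup.center G, orderOf w = p →
              (Subgroup.zpowers w : Set (Subgroup.center G)) = {x | x ^ p = 1} := by
            intro w hw
            refine Set.eq_of_subset_of_ncard_le (fun x hx => ?_) ?_ (Set.toFinite _)
            · obtain ⟨i, rfl⟩ := Subgroup.mem_zpowers_iff.1 hx
              show (w ^ i) ^ p = 1
              rw [← zpow_natCast, ← zpow_mul, mul_comm, zpow_mul, zpow_natCast, ← hw,
                pow_orderOf_eq_one, one_zpow]
            · rw [← Nat.card_coe_set_eq (Subgroup.zpowers w : Set (Subgroup.center G))]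
              show _ ≤ Nat.card (Subgroup.zpowers w)
              rw [Nat.card_zpowers, hw, Set.ncard_eq_toFinset_card']
              simpa using IsCyclic.card_pow_eq_one_le (α := Subgroup.center G) (n := p)
                (Fact.out : p.Prime).pos
          exact SetLike.coe_injective ((key ⟨y, hy1.2⟩ (by rw [Subgroup.orderOf_mk, hyo])).trans (key z hz).symm)
        obtain ⟨j, hj⟩ := Subgroup.mem_zpowers_iff.1 (h1.symm ▸ Subgroup.mem_zpowers z)
        exact Subgroup.mem_zpowers_iff.2 ⟨j, by rw [← hj]; simp⟩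
      have hzker : (z : G) ∈ f.ker := Subgroup.zpowers_le.2 hy1.1 hmem
      apply hχ
      rw [← hρχ]
      show LinearMap.trace ℂ _ (ρ (z : G)) = LinearMap.trace ℂ _ (ρ 1)
      rw [show ρ (z : G) = 1 from congrArg Units.val (MonoidHom.mem_ker.1 hzker), map_one ρ]
    exact fun a b hab => (MonoidHom.ker_eq_bot_iff f).1 hker (Units.ext hab)

end Cfsg.Agent.S0184
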