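import Cfsg.Statements.S0186
import Cfsg.Agent.H27.SmallDegree
-- import your own Cfsg.Agent.* helpers here

set_option autoImplicit false
open Cfsg

namespace Cfsg.Agent.S0186

/-- Let G be a finite simple group of order n and p a prime dividing n. If G has more than n / p^2 conjugacy classes, then every Sylow p-subgroup of G is abelian. -/
theorem result {G : Type*} [Group G] [Finite G] [IsSimpleGroup G] (p : ℕ) [Fact p.Prime] (hp : p ∣ Nat.card G) (hmany : Nat.card G < p ^ 2 * Nat.card (ConjClasses G)) (P : Sylow p G) (a b : G) (ha : a ∈ P) (hb : b ∈ P) : a * b = b * a := by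
  classical
  haveI := Fintype.ofFinite G
  have hp' : p.Prime := Fact.out
  by_cases hp2 : p ^ 2 ∣ Nat.card G
  swap
  · -- the Sylow subgroup has order `p`
    have hc : Nat.card P = p := by
      obtain ⟨k, hk⟩ := P.2.exists_card_eq
      have hk2 : k < 2 := by
        by_contra h
        exact hp2 ((pow_dvd_pow p (not_lt.1 h)).trans (hk ▸ Subgroup.card_subgroup_dvd_card _))
      have hk1 : k ≠ 0 := by
        rintro rfl
        have := P.dvd_card_of_dvd_card hp
        rw [hk, pow_zero] at this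
        exact hp'.not_dvd_one this
      rw [hk, show k = 1 by omega, pow_one]
    haveI : IsCyclic P := isCyclic_of_prime_card hc
    haveI : IsMulCommutative P := inferInstance
    exact congrArg Subtype.val (mul_comm' (⟨a, ha⟩ : P) ⟨b, hb⟩)
  -- a non-principal character of degree less than `p`
  obtain ⟨χ, hχ1, hlt⟩ : ∃ χ : Cfsg.IrrCharacter G, χ ≠ Cfsg.Agent.H26.oneIrr G ∧
      ∃ d : ℕ, χ.1 1 = (d : ℂ) ∧ d < p := by
    by_contra h
    push_neg at h
    choose deg hdeg using fun φ : Cfsg.IrrCharacter G =>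
      Cfsg.Agent.H26.exists_nat_char_one (Cfsg.Agent.H26.irr_isCharacter φ)
    have hsq : (∑ φ : Cfsg.IrrCharacter G, φ.1 1 ^ 2) = (Nat.card G : ℂ) :=
      Cfsg.Agent.H26.sum_sq_degrees
    simp only [hdeg] at hsq
    have hsq' : ∑ φ : Cfsg.IrrCharacter G, deg φ ^ 2 = Nat.card G := by exact_mod_cast hsq
    have hk : Nat.card (ConjClasses G) = Fintype.card (Cfsg.IrrCharacter G) := by
      rw [← Nat.card_eq_fintype_card]; exact (Cfsg.Agent.H26.card_irr_eq_card_conjClasses (G := G)).symm
    have hle : ((Finset.univ.erase (Cfsg.Agent.H26.oneIrr G)).card) * p ^ 2 ≤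
        ∑ φ ∈ Finset.univ.erase (Cfsg.Agent.H26.oneIrr G), deg φ ^ 2 := by
      rw [← smul_eq_mul, ← Finset.sum_const]
      exact Finset.sum_le_sum fun φ hφ => Nat.pow_le_pow_left
        (h φ (Finset.ne_of_mem_erase hφ) _ (hdeg φ)) 2
    rw [← Finset.add_sum_erase _ _ (Finset.mem_univ (Cfsg.Agent.H26.oneIrr G))] at hsq'
    have h1 : deg (Cfsg.Agent.H26.oneIrr G) = 1 := by
      exact_mod_cast ((hdeg _).symm.trans (Cfsg.Agent.H26.oneIrr_val (1 : G)))
    rw [h1, one_pow] at hsq'
    have hcard : (Finset.univ.erase (Cfsg.Agent.H26.oneIrr G)).card + 1 =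
        Fintype.card (Cfsg.IrrCharacter G) := by
      rw [Finset.card_erase_of_mem (Finset.mem_univ _), Finset.card_univ]
      have : 0 < Fintype.card (Cfsg.IrrCharacter G) := Fintype.card_pos_iff.2 ⟨Cfsg.Agent.H26.oneIrr G⟩
      omega
    obtain ⟨m, hm⟩ := hp2
    rw [hk, ← hcard] at hmany
    set e := (Finset.univ.erase (Cfsg.Agent.H26.oneIrr G)).card
    have h2 : p ^ 2 * m < p ^ 2 * (e + 1) := by rw [← hm]; exact hmany
    have h3 : m ≤ e := Nat.lt_succ_iff.1 (Nat.lt_of_mul_lt_mul_left h2)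
    have h4 : p ^ 2 * m ≤ e * p ^ 2 := by rw [mul_comm e]; exact Nat.mul_le_mul_left _ h3
    omega
  obtain ⟨d, hd, hdp⟩ := hlt
  obtain ⟨n, ρ, hρ, hρχ⟩ := χ.2
  have hn : Module.finrank ℂ (Fin n → ℂ) = d := by
    have := hd; rw [← hρχ, ρ.char_one] at this; exact_mod_cast this
  let f : G →* (Module.End ℂ (Fin n → ℂ))ˣ := ρ.toHomUnits
  have hker : f.ker = ⊥ := by
    refine (Subgroup.Normal.eq_bot_or_eq_top inferInstance).resolve_right fun htop => ?_
    have htriv : ∀ g, ρ g = 1 := fun g =>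
      congrArg Units.val (MonoidHom.mem_ker.1 (htop ▸ Subgroup.mem_top g : g ∈ f.ker))
    obtain ⟨-, lam, hlam⟩ := Cfsg.Agent.H27.exists_hom_of_commutative_image ρ
      (fun x y => by rw [htriv x, htriv y])
    apply hχ1
    refine Subtype.ext (funext fun g => ?_)
    rw [← hρχ, Cfsg.Agent.H26.oneIrr_val,
      show ρ.character g = ρ.character 1 from
        congrArg (LinearMap.trace ℂ _) ((htriv g).trans (htriv 1).symm), hlam]
    simp
  have hinj : Function.Injective ρ := fun x y hxy =>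
    (MonoidHom.ker_eq_bot_iff f).1 hker (Units.ext hxy)
  let σ : Representation ℂ (↑P : Subgroup G) (Fin n → ℂ) := ρ.comp (↑P : Subgroup G).subtype
  have := Cfsg.Agent.H27.commute_of_degree_lt_prime σ
    (fun x y hxy => Subtype.ext (hinj hxy)) (fun q hq hqP => by
      obtain ⟨k, hk⟩ := P.2.exists_card_eq
      rw [show Nat.card (↑P : Subgroup G) = p ^ k from hk] at hqP
      rw [hn, (Nat.prime_dvd_prime_iff_eq hq hp').1 (hq.dvd_of_dvd_pow hqP)]
      exact hdp) ⟨a, ha⟩ ⟨b, hb⟩
  exact congrArg Subtype.val this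

end Cfsg.Agent.S0186
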