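import Cfsg.Statements.S0188
import Cfsg.Agent.H27.Permutation

set_option autoImplicit false
open Cfsg

namespace Cfsg.Agent.S0188

/-- The irreducible complex characters of G × H are precisely the functions (g, h) ↦ φ g * ψ h with φ, ψ irreducible characters of G and H. -/
theorem result {G : Type*} [Group G] [Finite G] {H : Type*} [Group H] [Finite H] (θ : G × H → ℂ) : Cfsg.IsIrrCharacter (G × H) θ ↔ ∃ (φ : G → ℂ) (ψ : H → ℂ), Cfsg.IsIrrCharacter G φ ∧ Cfsg.IsIrrCharacter H ψ ∧ θ = fun x => φ x.1 * ψ x.2 := by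
  exact Cfsg.Agent.H27.isIrrCharacter_prod_iff θ

end Cfsg.Agent.S0188
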