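import Cfsg.Statements.S0192
import Mathlib
-- import your own Cfsg.Agent.* helpers here

set_option autoImplicit false
open Cfsg

namespace Cfsg.Agent.S0192

/-- Brauer's generation criterion. Let G be a finite simple group, H₁ and H₂ subgroups, and χ a non-principal irreducible character. If the multiplicity of the principal character in χ restricted to H₁ ⊓ H₂ is less than the sum of the corresponding multiplicities for H₁ and H₂, then H₁ and H₂ do not generate G. -/
theorem result {G : Type*} [Group G] [Fintype G] [IsSimpleGroup G] (H₁ H₂ : Subgroup G) [Fintype H₁] [Fintype H₂] [Fintype ↥(H₁ ⊓ H₂)] (χ : G → ℂ) (hχ : Cfsg.IsIrrCharacter G χ) (hχ1 : χ ≠ fun _ => 1) (hlt : (Cfsg.classInner (fun x : ↥(H₁ ⊓ H₂) => χ x) (fun _ => 1)).re < (Cfsg.classInner (fun x : H₁ => χ x) (fun _ => 1)).re + (Cfsg.classInner (fun x : H₂ => χ x) (fun _ => 1)).re) : H₁ ⊔ H₂ ≠ ⊤ := by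
  obtain ⟨n, ρ, hρ, rfl⟩ := hχ
  intro htop
  have hinv : ∀ (M : Subgroup G) [Fintype M],
      (Cfsg.classInner (fun x : M => ρ.character x) (fun _ => 1)).re
        = (Module.finrank ℂ (Representation.invariants (ρ.comp M.subtype)) : ℝ) := by
    intro M _
    haveI : Invertible (Nat.card M : ℂ) :=
      invertibleOfNonzero (by exact_mod_cast Nat.card_pos.ne')
    have h := Representation.card_inv_mul_sum_char_eq_finrank (ρ.comp M.subtype)
    simp only [Cfsg.classInner, map_one, mul_one]
    rw [show (∑ g : M, ρ.character g) = ∑ g : M, Representation.character (ρ.comp M.subtype) g from rfl, h]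
    simp
  rw [hinv, hinv, hinv] at hlt
  set A := (Representation.invariants (ρ.comp H₁.subtype))
  set B := (Representation.invariants (ρ.comp H₂.subtype))
  set D := (Representation.invariants (ρ.comp (H₁ ⊓ H₂).subtype))
  have hAB : A ⊔ B ≤ D := sup_le
    (fun v hv x => hv ⟨x.1, x.2.1⟩) (fun v hv x => hv ⟨x.1, x.2.2⟩)
  have h2 := Submodule.finrank_sup_add_finrank_inf_eq A B
  have h3 := Submodule.finrank_mono hAB
  have h4 : 0 < Module.finrank ℂ ↥(A ⊓ B) := by
    have : Module.finrank ℂ D < Module.finrank ℂ A + Module.finrank ℂ B := by exact_mod_cast hlt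
    omega
  have hinvG : ∀ v ∈ A ⊓ B, ∀ g : G, ρ g v = v := by
    rintro v ⟨hvA, hvB⟩ g
    have hg : g ∈ Subgroup.closure ((H₁ : Set G) ∪ (H₂ : Set G)) := by
      rw [Subgroup.closure_union, Subgroup.closure_eq, Subgroup.closure_eq, htop]; trivial
    induction hg using Subgroup.closure_induction with
    | mem x hx =>
      rcases hx with hx | hx
      · exact hvA ⟨x, hx⟩
      · exact hvB ⟨x, hx⟩
    | one => simp
    | mul x y _ _ ihx ihy => simp [ihx, ihy]
    | inv x _ ih =>
      have h5 := congrArg (ρ x⁻¹) ih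
      simpa [← Module.End.mul_apply, ← map_mul] using h5.symm
  obtain ⟨⟨v, hv⟩, hv0⟩ := Module.finrank_pos_iff_exists_ne_zero.mp h4
  have hv0' : v ≠ 0 := fun h => hv0 (Subtype.ext h)
  let U : Subrepresentation ρ :=
    { toSubmodule := Submodule.span ℂ {v}
      apply_mem_toSubmodule := fun g w hw => by
        obtain ⟨c, rfl⟩ := Submodule.mem_span_singleton.mp hw
        rw [map_smul, hinvG v hv g]
        exact Submodule.mem_span_singleton.mpr ⟨c, rfl⟩ }
  have hU : U = ⊤ := (IsSimpleOrder.eq_bot_or_eq_top U).resolve_left fun h => by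
    have : v ∈ U := Submodule.mem_span_singleton_self v
    rw [h] at this
    exact hv0' ((Submodule.mem_bot ℂ).mp this)
  have hid : ∀ g, ρ g = LinearMap.id := fun g => LinearMap.ext fun w => by
    obtain ⟨c, rfl⟩ := Submodule.mem_span_singleton.mp
      (show w ∈ Submodule.span ℂ {v} from (show w ∈ U by rw [hU]; trivial))
    simp [hinvG v hv g]
  have hdim : Module.finrank ℂ (Fin n → ℂ) = 1 := by
    rw [← finrank_top ℂ (Fin n → ℂ), ← show Submodule.span ℂ {v} = ⊤ from
      congrArg Subrepresentation.toSubmodule hU]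
    exact finrank_span_singleton hv0'
  apply hχ1
  funext g
  rw [Representation.character, hid g, LinearMap.trace_id, hdim, Nat.cast_one]

end Cfsg.Agent.S0192
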