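import Cfsg.Statements.S0194
import Cfsg.Agent.H27.Clifford
import Cfsg.Agent.H25.CharIntegral
-- import your own Cfsg.Agent.* helpers here

set_option autoImplicit false
open scoped ComplexConjugate
open Cfsg

namespace Cfsg.Agent.S0194

/-- Let G have odd order, H be a normal subgroup and θ a non-principal irreducible character of H. Then the function induced from θ is orthogonal to its complex conjugate. -/
theorem result {G : Type*} [Group G] [Fintype G] (hodd : Odd (Nat.card G)) (H : Subgroup G) [H.Normal] (θ : H → ℂ) (hθ : Cfsg.IsIrrCharacter H θ) (hθ1 : θ ≠ fun _ => 1) : Cfsg.classInner (fun g => conj (Cfsg.indFun H θ g)) (Cfsg.indFun H θ) = 0 := by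
  classical
  haveI := Fintype.ofFinite H
  have hN : H.Normal := inferInstance
  have hoddH : Odd (Nat.card H) := hodd.of_dvd_nat (Subgroup.card_subgroup_dvd_card H)
  -- a real irreducible character of a group of odd order is principal
  have hreal : (∀ h, conj (θ h) = θ h) → False := by
    intro hr
    obtain ⟨n, ρ, hρ, hρθ⟩ := hθ
    have hnot : ∀ h : H, h⁻¹ = h → h = 1 := by
      intro h hh
      have h2 : h ^ 2 = 1 := by rw [sq]; nth_rewrite 1 [← hh]; exact inv_mul_cancel h
      exact orderOf_eq_one_iff.mp (Nat.eq_one_of_dvd_coprimes (Nat.coprime_two_left.mpr hoddH)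
        (orderOf_dvd_of_pow_eq_one h2) (orderOf_dvd_natCard h))
    have hinv : ∀ h : H, θ h⁻¹ = θ h := fun h => by
      rw [← hρθ, Cfsg.Agent.H25.char_inv ρ h, hρθ, hr h]
    let r := Fintype.equivFin H
    set S := Finset.univ.filter (fun h : H => r h < r h⁻¹) with hS
    set S' := Finset.univ.filter (fun h : H => r h⁻¹ < r h) with hS'
    have hsum : ∑ h : H, θ h = θ 1 + 2 * ∑ h ∈ S, θ h := by
      have hu : Finset.univ.erase (1 : H) = S ∪ S' := by
        ext h
        simp only [Finset.mem_erase, Finset.mem_univ, and_true, Finset.mem_union, hS, hS',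
          Finset.mem_filter, true_and]
        constructor
        · intro h1
          exact lt_or_gt_of_ne fun e => h1 (hnot h (r.injective e).symm)
        · rintro (h1 | h1) rfl <;> simp at h1
      have hd : Disjoint S S' := Finset.disjoint_left.2 fun h h1 h2 =>
        lt_asymm (Finset.mem_filter.1 h1).2 (Finset.mem_filter.1 h2).2
      have he : ∑ h ∈ S', θ h = ∑ h ∈ S, θ h := by
        refine Finset.sum_nbij' (fun h => h⁻¹) (fun h => h⁻¹) ?_ ?_ ?_ ?_ (fun h _ => (hinv h).symm)
        · intro h h1; simpa [hS, hS'] using h1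
        · intro h h1; simpa [hS, hS'] using h1
        · intro h _; simp
        · intro h _; simp
      rw [← Finset.add_sum_erase _ _ (Finset.mem_univ (1 : H)), hu, Finset.sum_union hd, he]
      ring
    have hzero : ∑ h : H, θ h = 0 := by
      have h1 : Cfsg.classInner θ (fun _ => (1 : ℂ)) = 0 :=
        Cfsg.Agent.H57.irr_inner_ne ⟨n, ρ, hρ, hρθ⟩ (Cfsg.Agent.H26.oneIrr H).2 hθ1
      simpa [Cfsg.classInner] using h1
    have hd : 2 ∣ n := by
      refine Cfsg.Agent.H25.dvd_of_isIntegral_div two_ne_zero ?_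
      have h1 : θ 1 = (n : ℂ) := by rw [← hρθ]; simp
      have h2 : ((n : ℂ) / ((2 : ℕ) : ℂ)) = -∑ h ∈ S, θ h := by
        have := hsum.symm.trans hzero
        rw [h1] at this
        push_cast
        linear_combination this / 2
      rw [h2]
      exact (IsIntegral.sum _ fun h _ => hρθ ▸ Cfsg.Agent.H25.isIntegral_char ρ h).neg
    have hdvd : n ∣ Nat.card H := by
      simpa using Cfsg.Agent.H25.finrank_dvd_card ρ
    exact (Nat.not_even_iff_odd.mpr hoddH) (even_iff_two_dvd.mpr (hd.trans hdvd))
  set φ : H → ℂ := fun h => conj (θ h) with hφ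
  have hφirr : Cfsg.IsIrrCharacter H φ := Cfsg.Agent.H57.irr_conjFun hθ
  have hind : (fun g => conj (Cfsg.indFun H θ g)) = Cfsg.indFun H φ := by
    funext g
    simp only [Cfsg.Agent.H25.indFun_apply, map_mul, map_inv₀, map_natCast, map_sum]
    congr 1
    refine Finset.sum_congr rfl fun x _ => ?_
    by_cases hx : x⁻¹ * g * x ∈ H
    · simp [Cfsg.Agent.H25.extendByZero_of_mem _ _ hx, hφ]
    · simp [Cfsg.Agent.H25.extendByZero_of_notMem _ _ hx]
  have hempty : IsEmpty {g : G // Cfsg.Agent.H56.twist H θ g = φ} := by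
    refine ⟨fun ⟨g, hg⟩ => hreal ?_⟩
    have h2 : Cfsg.Agent.H56.twist H θ (g ^ 2) = θ := by
      rw [sq, ← Cfsg.Agent.H56.twist_twist, hg]
      funext h
      have := congrFun hg h
      show conj (θ _) = θ h
      rw [show θ ⟨g * h * g⁻¹, hN.conj_mem h h.2 g⟩ = φ h from this, hφ]
      exact Complex.conj_conj _
    obtain ⟨k, hk⟩ := hodd
    have hg2 : g = (g ^ 2) ^ (k + 1) := by
      rw [← pow_mul]
      conv_lhs => rw [← one_mul g, ← pow_card_eq_one' (x := g), hk, ← pow_succ]
      ring_nf
    have h3 : ∀ j, Cfsg.Agent.H56.twist H θ ((g ^ 2) ^ j) = θ := by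
      intro j
      induction j with
      | zero => simpa using Cfsg.Agent.H56.twist_one H θ
      | succ j ih => rw [pow_succ, ← Cfsg.Agent.H56.twist_twist, ih, h2]
    have h4 : Cfsg.Agent.H56.twist H θ g = θ := by rw [hg2]; exact h3 _
    rw [hg] at h4
    exact fun h => congrFun h4 h
  rw [hind]
  have h5 := Cfsg.Agent.H27.card_mul_classInner_indFun H hθ hφirr
  rw [@Nat.card_of_isEmpty _ hempty, Nat.cast_zero] at h5
  exact (mul_eq_zero.1 h5).resolve_left (by exact_mod_cast Nat.card_pos.ne')

end Cfsg.Agent.S0194
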