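import Cfsg.Statements.S0195
import Mathlib
-- import your own Cfsg.Agent.* helpers here

set_option autoImplicit false
open Cfsg

namespace Cfsg.Agent.S0195

/-- Let A be a subgroup of G that equals the centralizer of each of its non-identity elements. If g lies outside the normalizer of A, then the only element of A conjugated by g into A is the identity (A is a trivial-intersection set). -/
theorem result {G : Type*} [Group G] [Finite G] (A : Subgroup G) (hA : ∀ x ∈ A, x ≠ 1 → Subgroup.centralizer ({x} : Set G) = A) (g : G) (hg : g ∉ Subgroup.normalizer (A : Set G)) (x : G) (hx : x ∈ A) (hgx : g * x * g⁻¹ ∈ A) : x = 1 := by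
  by_contra hx1
  apply hg
  have hne : g * x * g⁻¹ ≠ 1 := by simpa using hx1
  have h1 := hA x hx hx1
  have h2 := hA _ hgx hne
  rw [Subgroup.mem_normalizer_iff]
  intro a
  show a ∈ A ↔ g * a * g⁻¹ ∈ A
  constructor
  · intro ha
    rw [← h2, Subgroup.mem_centralizer_singleton_iff]
    rw [← h1, Subgroup.mem_centralizer_singleton_iff] at ha
    simp only [mul_assoc, inv_mul_cancel_left]
    rw [← mul_assoc a x, ha, mul_assoc]
  · intro ha
    rw [← h1, Subgroup.mem_centralizer_singleton_iff]
    rw [← h2, Subgroup.mem_centralizer_singleton_iff] at ha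
    have h3 := congrArg (fun y => g⁻¹ * y * g) ha
    simpa [mul_assoc] using h3

end Cfsg.Agent.S0195
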