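import Cfsg.Statements.S0196
import Mathlib
-- import your own Cfsg.Agent.* helpers here

set_option autoImplicit false
open Cfsg

namespace Cfsg.Agent.S0196

/-- Let A be a subgroup of a finite group G that equals the centralizer of each of its non-identity elements, and let N be its normalizer. Then the index of A in N divides |A| − 1 (N/A permutes the non-identity elements of A in orbits of full length). -/
theorem result {G : Type*} [Group G] [Finite G] (A : Subgroup G) (hA : ∀ x ∈ A, x ≠ 1 → Subgroup.centralizer ({x} : Set G) = A) : (A.subgroupOf (Subgroup.normalizer (A : Set G))).index ∣ Nat.card A - 1 := by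
  classical
  set N : Subgroup G := Subgroup.normalizer (A : Set G) with hN
  haveI := Fintype.ofFinite G
  -- `N` acts on the non-identity elements of `A`, with all stabilisers equal to `A`
  let X := {x : G // x ∈ A ∧ x ≠ 1}
  letI act : MulAction N X :=
    { smul := fun n x => ⟨(n : G) * x.1 * (n : G)⁻¹,
        (Subgroup.mem_normalizer_iff.mp n.2 x.1).mp x.2.1, by simpa using x.2.2⟩
      one_smul := fun x => Subtype.ext (by show ((1 : N) : G) * x.1 * ((1 : N) : G)⁻¹ = x.1; simp)
      mul_smul := fun m n x => Subtype.ext (by
        show ((m * n : N) : G) * x.1 * ((m * n : N) : G)⁻¹ =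
          (m : G) * ((n : G) * x.1 * (n : G)⁻¹) * (m : G)⁻¹
        simp [mul_assoc]) }
  have hstab : ∀ x : X, MulAction.stabilizer N x = A.subgroupOf N := by
    intro x
    ext n
    rw [MulAction.mem_stabilizer_iff, Subgroup.mem_subgroupOf]
    constructor
    · intro h
      have h' : (n : G) * x.1 * (n : G)⁻¹ = x.1 := congrArg Subtype.val h
      rw [← hA x.1 x.2.1 x.2.2, Subgroup.mem_centralizer_singleton_iff]
      exact mul_inv_eq_iff_eq_mul.mp h'
    · intro h
      rw [← hA x.1 x.2.1 x.2.2, Subgroup.mem_centralizer_singleton_iff] at h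
      exact Subtype.ext (mul_inv_eq_iff_eq_mul.mpr h)
  have hX : Nat.card X = Nat.card A - 1 := by
    rw [← Nat.card_congr (Equiv.subtypeSubtypeEquivSubtypeInter (· ∈ A) (· ≠ 1)),
      Nat.card_congr (Equiv.subtypeEquivRight (q := fun a : A => a ≠ 1) fun a => by simp)]
    simp [Nat.card_eq_fintype_card]
  rw [← hX, Nat.card_congr (MulAction.selfEquivSigmaOrbits N X), Nat.card_sigma]
  refine Finset.dvd_sum fun o _ => ?_
  rw [Nat.card_congr (MulAction.orbitEquivQuotientStabilizer N o.out), hstab,
    Subgroup.index_eq_card]

end Cfsg.Agent.S0196
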