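import Cfsg.Statements.S0198
import Cfsg.Agent.H27.Exceptional

set_option autoImplicit false
open Cfsg

namespace Cfsg.Agent.S0198

/-- The isometry lemma behind exceptional characters. Let τ be a family of generalized characters of a finite group G indexed by Fin n, with τ i₀ = 0, every τ i vanishing at the identity, and inner products ⟨τ i, τ j⟩ = 2 if i = j and 1 otherwise for i, j ≠ i₀. Then there are a sign ε and pairwise distinct irreducible characters μ i with τ i = ε (μ i − μ i₀) for all i. -/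
theorem result {G : Type*} [Group G] [Fintype G] (n : ℕ) (i₀ : Fin n) (τ : Fin n → (G → ℂ)) (h0 : τ i₀ = 0) (hgen : ∀ i, Cfsg.IsGeneralizedCharacter G (τ i)) (hone : ∀ i, τ i 1 = 0) (hgram : ∀ i j, i ≠ i₀ → j ≠ i₀ → Cfsg.classInner (τ i) (τ j) = if i = j then 2 else 1) : ∃ ε : ℂ, (ε = 1 ∨ ε = -1) ∧ ∃ μ : Fin n → (G → ℂ), (∀ i, Cfsg.IsIrrCharacter G (μ i)) ∧ Function.Injective μ ∧ ∀ i, τ i = ε • (μ i - μ i₀) := by
  exact Cfsg.Agent.H27.exists_exceptional i₀ τ h0 hgen hone hgram

end Cfsg.Agent.S0198
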