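import Cfsg.Statements.S0211
import Cfsg.Agent.H28.Dihedral

set_option autoImplicit false
open Cfsg

namespace Cfsg.Agent.S0211

/-- Let x, y be involutions with xy of even order n and z = (xy)^(n/2). Then xz is conjugate to x by an element of the subgroup generated by x, y if and only if 4 divides n. -/
theorem result {G : Type*} [Group G] [Finite G] (x y : G) (hx : orderOf x = 2) (hy : orderOf y = 2) (heven : Even (orderOf (x * y))) : (∃ d ∈ Subgroup.closure ({x, y} : Set G), d * x * d⁻¹ = x * (x * y) ^ (orderOf (x * y) / 2)) ↔ 4 ∣ orderOf (x * y) := by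
  have hx' := H28.mul_self_of_orderOf_two hx
  have hy' := H28.mul_self_of_orderOf_two hy
  obtain ⟨m, hm⟩ := heven
  have hdiv : orderOf (x * y) / 2 = m := by omega
  rw [hdiv]
  have h := H28.exists_conj_eq_iff hx' hy' (m : ℤ)
  rw [zpow_natCast] at h
  rw [h, hm]
  push_cast
  constructor
  · rintro ⟨j, hj⟩
    have h2 : (2 : ℤ) ∣ (m : ℤ) - 2 * j := dvd_trans ⟨(m : ℤ), by ring⟩ hj
    omega
  · rintro ⟨c, hc⟩
    exact ⟨c, by rw [show (m : ℤ) - 2 * c = 0 by omega]; exact dvd_zero _⟩

end Cfsg.Agent.S0211
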