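import Cfsg.Statements.S0221
import Cfsg.Agent.H61.NormalFourGroup
import Cfsg.Agent.H59.DihedralLemma
import Cfsg.Agent.S0111

set_option autoImplicit false
open Cfsg Cfsg.Agent Cfsg.Agent.H61

namespace Cfsg.Agent.S0221

/-- Let G be a finite group with no subgroup of index 2 whose 2-rank is at least 3 (it contains an elementary abelian subgroup of order 8). Then the centralizer of every involution of G also contains an elementary abelian subgroup of order 8. -/
theorem result {G : Type*} [Group G] [Finite G] (hno : ∀ H : Subgroup G, H.index ≠ 2) (hrank : ∃ E : Subgroup G, Nat.card E = 8 ∧ ∀ e ∈ E, e ^ 2 = 1) (x : G) (hx : orderOf x = 2) : ∃ E : Subgroup G, E ≤ Subgroup.centralizer ({x} : Set G) ∧ Nat.card E = 8 ∧ ∀ e ∈ E, e ^ 2 = 1 := by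
  classical
  haveI : Fact (Nat.Prime 2) := ⟨Nat.prime_two⟩
  obtain ⟨E, hE8, hE2⟩ := hrank
  have hEp : IsPGroup 2 E := IsPGroup.of_card (n := 3) (by rw [hE8]; norm_num)
  obtain ⟨S, hES⟩ := hEp.exists_le_sylow
  obtain ⟨U₀, hU₀n, hU₀c, hU₀2⟩ := exists_normal_four S.isPGroup' (E.subgroupOf (S : Subgroup G))
    (by rw [Nat.card_congr (Subgroup.subgroupOfEquivOfLe hES).toEquiv, hE8])
    (fun e he => Subtype.ext (hE2 (e : G) he))
  set U := U₀.map (S : Subgroup G).subtype with hU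
  have hUS : U ≤ S := Subgroup.map_subtype_le _
  have hUc : Nat.card U = 4 := by
    rw [hU, Subgroup.card_map_of_injective (S : Subgroup G).subtype_injective, hU₀c]
  have hU2 : ∀ u ∈ U, u ^ 2 = 1 := by
    rintro _ ⟨u, hu, rfl⟩
    exact congrArg Subtype.val (hU₀2 u hu)
  have hUn : ∀ s ∈ (S : Subgroup G), ∀ u ∈ U, s * u * s⁻¹ ∈ U := by
    rintro s hs _ ⟨u, hu, rfl⟩
    exact ⟨⟨s, hs⟩ * u * ⟨s, hs⟩⁻¹, hU₀n.conj_mem u hu _, rfl⟩
  have hUab : ∀ u ∈ U, ∀ v ∈ U, u * v = v * u := fun u hu v hv => by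
    haveI : IsMulCommutative U :=
      IsPGroup.isMulCommutative_of_card_eq_prime_sq (p := 2) (by rw [hUc]; norm_num)
    exact congrArg Subtype.val (mul_comm' (⟨u, hu⟩ : U) ⟨v, hv⟩)
  -- a central involution of `S` in `U`
  obtain ⟨z₀, hz₀U, hz₀c, hz₀o⟩ := H24.exists_central_orderOf S.isPGroup' (N := U₀)
    (fun h => by rw [h, Subgroup.card_bot] at hU₀c; omega)
  set z : G := (z₀ : G)
  have hzU : z ∈ U := ⟨z₀, hz₀U, rfl⟩
  have hz1 : z ≠ 1 := fun h => by
    rw [show z₀ = 1 from Subtype.ext h, orderOf_one] at hz₀o; omega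
  have hzc : ∀ s ∈ (S : Subgroup G), s * z = z * s := fun s hs =>
    congrArg Subtype.val (Subgroup.mem_center_iff.1 hz₀c ⟨s, hs⟩)
  obtain ⟨w, hwU, hwz⟩ : ∃ w ∈ U, w ∉ Subgroup.zpowers z := by
    by_contra h
    push Not at h
    have := Nat.le_of_dvd Nat.card_pos (Subgroup.card_dvd_of_le (h : U ≤ Subgroup.zpowers z))
    rw [hUc, Nat.card_zpowers] at this
    have h2 : orderOf z = 2 := by rw [show z = ((z₀ : (S : Subgroup G)) : G) from rfl, Subgroup.orderOf_coe, hz₀o]
    omega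
  have hUgen : U = Subgroup.zpowers z ⊔ Subgroup.zpowers w := by
    refine (Subgroup.eq_of_le_of_card_ge (sup_le (Subgroup.zpowers_le.2 hzU) (Subgroup.zpowers_le.2 hwU)) ?_).symm
    rw [H59.card_sup_zpowers Nat.prime_two (hU2 w hwU) hwz
      (fun a ha => hUab a (Subgroup.zpowers_le.2 hzU ha) w hwU), Nat.card_zpowers,
      show z = ((z₀ : (S : Subgroup G)) : G) from rfl, Subgroup.orderOf_coe, hz₀o, hUc]
  set T := (S : Subgroup G) ⊓ Subgroup.centralizer (U : Set G) with hT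
  have hTmem : ∀ s ∈ (S : Subgroup G), s * w = w * s → s ∈ T := by
    intro s hs hc
    refine ⟨hs, fun u hu => ?_⟩
    have : U ≤ Subgroup.centralizer {s} := by
      rw [hUgen, sup_le_iff, Subgroup.zpowers_le, Subgroup.zpowers_le]
      exact ⟨Subgroup.mem_centralizer_singleton_iff.2 (hzc s hs).symm,
        Subgroup.mem_centralizer_singleton_iff.2 hc.symm⟩
    exact Subgroup.mem_centralizer_singleton_iff.1 (this hu)
  -- elements outside `T` move `w` to `w z`
  have hflip : ∀ s ∈ (S : Subgroup G), s ∉ T → s * w * s⁻¹ = w * z := by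
    intro s hs hsT
    have hm := hUn s hs w hwU
    by_contra hne
    have hinj : Function.Injective
        (![(⟨1, U.one_mem⟩ : U), ⟨z, hzU⟩, ⟨w, hwU⟩, ⟨w * z, mul_mem hwU hzU⟩, ⟨_, hm⟩]) := by
      have h1 : w ≠ 1 := fun h => hwz (h ▸ Subgroup.one_mem _)
      have h2 : w ≠ z := fun h => hwz (h ▸ Subgroup.mem_zpowers z)
      have h3 : w * z ≠ 1 := fun h => hwz (eq_inv_of_mul_eq_one_left h ▸ inv_mem (Subgroup.mem_zpowers z))
      have h4 : w * z ≠ z := fun h => h1 (mul_eq_right.1 h)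
      have h5 : w * z ≠ w := fun h => hz1 (mul_eq_left.1 h)
      have h6 : s * w * s⁻¹ ≠ 1 := fun h => h1 (conj_eq_one_iff.1 h)
      have h7 : s * w * s⁻¹ ≠ z := fun h => h2 (by
        calc w = s⁻¹ * (s * w * s⁻¹) * s := by group
          _ = s⁻¹ * (z * s) := by rw [h, mul_assoc]
          _ = z := by rw [← hzc s hs, inv_mul_cancel_left])
      have h8 : s * w * s⁻¹ ≠ w := fun h => hsT (hTmem s hs (mul_inv_eq_iff_eq_mul.1 h))
      intro i j hij
      fin_cases i <;> fin_cases j <;> first | rfl | (exfalso; simp [Subtype.ext_iff] at hij; grind)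
    have := Nat.card_le_card_of_injective _ hinj
    rw [hUc, Nat.card_fin] at this
    omega
  -- `T` has index at most two in `S`
  have hTi : ∀ s ∈ (S : Subgroup G), ∀ t ∈ (S : Subgroup G), s ∉ T → t ∉ T → s * t ∈ T := by
    intro s hs t ht hsT htT
    refine hTmem _ (mul_mem hs ht) ?_
    refine mul_inv_eq_iff_eq_mul.1 ?_
    calc s * t * w * (s * t)⁻¹ = s * (t * w * t⁻¹) * s⁻¹ := by group
      _ = (s * w * s⁻¹) * (s * z * s⁻¹) := by rw [hflip t ht htT]; group
      _ = w * z * z := by rw [hflip s hs hsT, hzc s hs, mul_inv_cancel_right]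
      _ = w := by rw [mul_assoc, ← sq, hU2 z hzU, mul_one]
  -- an element of order two of `T` outside `U`
  obtain ⟨e, heT, heU, he2⟩ : ∃ e, e ∈ T ∧ e ∉ U ∧ e ^ 2 = 1 := by
    by_contra h
    push Not at h
    have hEU : ∀ e ∈ E, e ∈ T → e ∈ U := fun e he heT => by_contra fun hne => h e heT hne (hE2 e he)
    by_cases hEle : E ≤ T
    · have := Nat.le_of_dvd Nat.card_pos (Subgroup.card_dvd_of_le (fun e he => hEU e he (hEle he) : E ≤ U))
      omega
    obtain ⟨e₀, he₀, he₀T⟩ := SetLike.not_le_iff_exists.1 hEle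
    -- `E ∩ T` has index two in `E`
    let f : E → (E ⊓ T : Subgroup G) × Bool := fun a =>
      if ha : (a : G) ∈ T then (⟨a, a.2, ha⟩, false)
      else (⟨e₀ * a, mul_mem he₀ a.2, hTi e₀ (hES he₀) a (hES a.2) he₀T ha⟩, true)
    have hinj : Function.Injective f := by
      intro a b hab
      by_cases ha : (a : G) ∈ T <;> by_cases hb : (b : G) ∈ T
      · simp only [f, ha, hb, dite_true, Prod.mk.injEq, and_true] at hab
        exact Subtype.ext (congrArg Subtype.val hab :)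
      · simp [f, ha, hb] at hab
      · simp [f, ha, hb] at hab
      · simp only [f, ha, hb, dite_false, Prod.mk.injEq, and_true] at hab
        exact Subtype.ext (mul_left_cancel (congrArg Subtype.val hab :))
    have h1 := Nat.card_le_card_of_injective _ hinj
    rw [Nat.card_prod, Nat.card_eq_fintype_card (α := Bool), Fintype.card_bool, hE8] at h1
    have h2 : E ⊓ T = U := Subgroup.eq_of_le_of_card_ge (fun x hx => hEU x hx.1 hx.2) (by omega)
    refine he₀T ⟨hES he₀, fun u hu => ?_⟩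
    have huE : u ∈ E := (h2.symm ▸ hu : u ∈ E ⊓ T).1
    haveI : IsMulCommutative E := ⟨⟨fun a b => Subtype.ext (by
      have h3 : ∀ x ∈ E, x⁻¹ = x := fun x hx => inv_eq_of_mul_eq_one_left (by rw [← sq]; exact hE2 x hx)
      calc (a : G) * b = ((a : G) * b)⁻¹ := (h3 _ (mul_mem a.2 b.2)).symm
        _ = (b : G) * a := by rw [mul_inv_rev, h3 _ a.2, h3 _ b.2])⟩⟩
    exact congrArg Subtype.val (mul_comm' (⟨u, huE⟩ : E) ⟨e₀, he₀⟩)
  -- an elementary abelian subgroup of order eight centralising an involution of `T`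
  have hmain : ∀ y ∈ T, y ^ 2 = 1 → ∃ F : Subgroup G, F ≤ Subgroup.centralizer ({y} : Set G) ∧
      Nat.card F = 8 ∧ ∀ a ∈ F, a ^ 2 = 1 := by
    intro y hy hy2
    obtain ⟨v, hvT, hvU, hv2, hyv⟩ : ∃ v ∈ T, v ∉ U ∧ v ^ 2 = 1 ∧ (y ∈ U ∨ y = v) := by
      by_cases h : y ∈ U
      · exact ⟨e, heT, heU, he2, Or.inl h⟩
      · exact ⟨y, hy, h, hy2, Or.inr rfl⟩
    have hc : ∀ a ∈ U, Commute a v := fun a ha => hvT.2 a ha
    refine ⟨U ⊔ Subgroup.zpowers v, ?_, by rw [H59.card_sup_zpowers Nat.prime_two hv2 hvU hc, hUc], ?_⟩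
    · rw [sup_le_iff, Subgroup.zpowers_le]
      rcases hyv with h | rfl
      · exact ⟨fun a ha => Subgroup.mem_centralizer_singleton_iff.2 (hUab a ha y h),
          Subgroup.mem_centralizer_singleton_iff.2 (hc y h).eq.symm⟩
      · exact ⟨fun a ha => Subgroup.mem_centralizer_singleton_iff.2 (hc a ha).eq,
          Subgroup.mem_centralizer_singleton_iff.2 rfl⟩
    · intro a ha
      have hv : Subgroup.zpowers v ≤ Subgroup.normalizer (U : Set G) := Subgroup.zpowers_le.2
        (Subgroup.centralizer_le_normalizer _ hvT.2)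
      rw [← SetLike.mem_coe, Subgroup.coe_mul_of_right_le_normalizer_left _ _ hv] at ha
      obtain ⟨u, hu, _, ⟨i, rfl⟩, rfl⟩ := ha
      rw [((hc u hu).zpow_right i).mul_pow, hU2 u hu, ← zpow_natCast, ← zpow_mul, mul_comm i, zpow_mul, zpow_natCast,
        hv2, one_zpow, mul_one]
  -- move `x` into `T`
  obtain ⟨S', hxS'⟩ := (IsPGroup.of_card (n := 1) (G := Subgroup.zpowers x)
    (by rw [Nat.card_zpowers, hx, pow_one])).exists_le_sylow
  obtain ⟨g, hg⟩ := MulAction.exists_smul_eq G S' S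
  have hyS : g * x * g⁻¹ ∈ (S : Subgroup G) := by
    rw [← hg]
    exact Subgroup.smul_mem_pointwise_smul x (MulAut.conj g) _ (hxS' (Subgroup.mem_zpowers x))
  obtain ⟨c, hc⟩ : ∃ c : G, c * x * c⁻¹ ∈ T := by
    by_cases hyT : g * x * g⁻¹ ∈ T
    · exact ⟨g, hyT⟩
    have hrel : T.relIndex (S : Subgroup G) = 2 := by
      refine Subgroup.index_eq_two_iff.2 ⟨⟨_, hyS⟩, fun b => ?_⟩
      simp only [Subgroup.mem_subgroupOf, Subgroup.coe_mul]
      by_cases hb : (b : G) ∈ T
      · exact Or.inr ⟨hb, fun h => hyT (by simpa using mul_mem (inv_mem hb) h)⟩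
      · exact Or.inl ⟨hTi _ b.2 _ hyS hb hyT, hb⟩
    rcases S0111.result S T inf_le_left hrel (g * x * g⁻¹)
      (by rw [← MulAut.conj_apply, MulEquiv.orderOf_eq, hx]) hyS hyT with ⟨M, -, hM, -⟩ | ⟨d, hd⟩
    · exact absurd hM (hno M)
    · exact ⟨d * g, by simpa [mul_assoc] using hd⟩
  have hy2 : (c * x * c⁻¹) ^ 2 = 1 := by
    rw [conj_pow, ← hx, pow_orderOf_eq_one, mul_one, mul_inv_cancel]
  obtain ⟨F, hFc, hF8, hF2⟩ := hmain _ hc hy2
  refine ⟨F.map (MulAut.conj c⁻¹).toMonoidHom, ?_, ?_, ?_⟩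
  · rintro _ ⟨a, ha, rfl⟩
    have h := Subgroup.mem_centralizer_singleton_iff.1 (hFc ha)
    rw [Subgroup.mem_centralizer_singleton_iff]
    simp only [MulEquiv.coe_toMonoidHom, MulAut.conj_apply, inv_inv]
    calc c⁻¹ * a * c * x = c⁻¹ * (a * (c * x * c⁻¹)) * c := by group
      _ = c⁻¹ * ((c * x * c⁻¹) * a) * c := by rw [h]
      _ = x * (c⁻¹ * a * c) := by group
  · rw [Subgroup.card_map_of_injective (MulAut.conj c⁻¹).injective, hF8]
  · rintro _ ⟨a, ha, rfl⟩
    rw [← map_pow, hF2 a ha, map_one]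

end Cfsg.Agent.S0221
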