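import Cfsg.Statements.S0227
import Cfsg.Agent.H59.GlaubermanSolvable
import Cfsg.Agent.S0205

set_option autoImplicit false
open Cfsg

namespace Cfsg.Agent.S0227

/-- Let G be a finite group with no nontrivial normal subgroup of odd order, S a Sylow 2-subgroup, and C the group of automorphisms of G that fix every element of S. Then every Sylow 2-subgroup of C is abelian and has a normal complement in C; in particular C is solvable. -/
theorem result {G : Type*} [Group G] [Finite G] (hO : ∀ N : Subgroup G, N.Normal → Odd (Nat.card N) → N = ⊥) (S : Sylow 2 G) (C : Subgroup (MulAut G)) (hC : ∀ φ : MulAut G, φ ∈ C ↔ ∀ s : G, s ∈ S → φ s = s) : (∀ T : Sylow 2 ↥C, (∀ a b : ↥T, a * b = b * a) ∧ ∃ N : Subgroup ↥C, N.Normal ∧ Subgroup.IsComplement' N (T : Subgroup ↥C)) ∧ Group.IsSolvable ↥C := by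
  have h := H59.odd_card_commutator_autFix hO S C fun φ hφ => (hC φ).mp hφ
  refine ⟨fun T => ?_, H59.isSolvable_of_odd_commutator h fun N hN => S0205.result hN⟩
  obtain ⟨hab, N, hN, -, hc⟩ := H59.sylow_two_abelian_complement h T
  exact ⟨hab, N, hN, hc⟩

end Cfsg.Agent.S0227
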