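import Cfsg.Statements.S0493
import Cfsg.Agent.S0499
import Cfsg.Agent.H25.Burnside

set_option autoImplicit false
open Cfsg

namespace Cfsg.Agent.S0493

/-- A finite simple group of order at most 100 that is not cyclic has order 60. -/
theorem result {G : Type*} [Group G] [Finite G] [IsSimpleGroup G]
    (hG : ¬ IsCyclic G) (h : Nat.card G ≤ 100) : Nat.card G = 60 := by
  classical
  have hnp : ¬ (Nat.card G).Prime := fun hp => by
    have := Fact.mk hp
    exact hG (isCyclic_of_prime_card rfl)
  have hc : ¬ IsMulCommutative G := Cfsg.Agent.H30.not_comm_of_not_prime hnp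
  have hns : ¬ Group.IsSolvable G := fun hs =>
    hc ⟨⟨fun a b => IsSimpleGroup.comm_iff_isSolvable.mpr hs a b⟩⟩
  -- the order is not of the form `p ^ a * q ^ b`
  have hpq : ∀ p q a b : ℕ, p.Prime → q.Prime → Nat.card G ≠ p ^ a * q ^ b :=
    fun p q a b hp hq he => hns (Cfsg.Agent.H25.isSolvable_of_card_eq_mul_pow hp hq he)
  by_cases h2 : Even (Nat.card G)
  · have hd := Cfsg.Agent.S0499.result hc h2
    have h84 : Nat.card G ≠ 84 := by
      intro h84
      have : Fact (Nat.Prime 7) := ⟨by norm_num⟩
      have hd7 := Cfsg.Agent.H30.card_sylow_dvd (show Nat.card G = 7 ^ 1 * 12 by rw [h84]; norm_num)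
        (by norm_num : ¬ 7 ∣ 12)
      have hne := Cfsg.Agent.H30.card_sylow_ne_one hc 7 (by rw [h84]; norm_num)
      have hmod := card_sylow_modEq_one 7 G
      generalize Nat.card (Sylow 7 G) = d at *
      have : d ≤ 12 := Nat.le_of_dvd (by norm_num) hd7
      interval_cases d <;> first | exact hne rfl | (revert hd7 hmod; decide)
    have hpos : 0 < Nat.card G := Nat.card_pos
    rcases hd with hd | hd | hd <;> obtain ⟨k, hk⟩ := hd
    · have : k ≤ 8 := by omega
      interval_cases k
      · omega
      · exact absurd hk (hpq 2 3 2 1 Nat.prime_two Nat.prime_three)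
      · exact absurd hk (hpq 2 3 3 1 Nat.prime_two Nat.prime_three)
      · exact absurd hk (hpq 2 3 2 2 Nat.prime_two Nat.prime_three)
      · exact absurd hk (hpq 2 3 4 1 Nat.prime_two Nat.prime_three)
      · exact hk
      · exact absurd hk (hpq 2 3 3 2 Nat.prime_two Nat.prime_three)
      · exact absurd hk h84
      · exact absurd hk (hpq 2 3 5 1 Nat.prime_two Nat.prime_three)
    · have : k ≤ 6 := by omega
      interval_cases k
      · omega
      · exact absurd hk (hpq 2 3 4 0 Nat.prime_two Nat.prime_three)
      · exact absurd hk (hpq 2 3 5 0 Nat.prime_two Nat.prime_three)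
      · exact absurd hk (hpq 2 3 4 1 Nat.prime_two Nat.prime_three)
      · exact absurd hk (hpq 2 3 6 0 Nat.prime_two Nat.prime_three)
      · exact absurd hk (hpq 2 5 4 1 Nat.prime_two (by norm_num))
      · exact absurd hk (hpq 2 3 5 1 Nat.prime_two Nat.prime_three)
    · have : k = 1 := by omega
      subst this
      exact absurd hk (hpq 2 7 3 1 Nat.prime_two (by norm_num))
  · -- odd orders up to one hundred have at most two prime divisors
    exfalso
    set n := Nat.card G with hn
    have hodd : n % 2 = 1 := Nat.odd_iff.mp (Nat.not_even_iff_odd.mp h2)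
    have key : ∀ m < 101, m % 2 = 1 → Nat.Prime m ∨ ∃ p ∈ [3, 5, 7], ∃ a < 5,
        ∃ q ∈ [3, 5, 7, 11, 13, 17, 19, 23, 29, 31], ∃ b < 3, m = p ^ a * q ^ b := by
      decide +kernel
    rcases key n (by omega) hodd with hp | ⟨p, hp, a, -, q, hq, b, -, he⟩
    · exact hnp hp
    · refine hpq p q a b ?_ ?_ he
      · fin_cases hp <;> norm_num
      · fin_cases hq <;> norm_num

end Cfsg.Agent.S0493
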