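import Cfsg.Statements.S0234
import Cfsg.Agent.H28.BrauerFowler
import Cfsg.Agent.S0493
import Cfsg.Agent.S0494

set_option autoImplicit false
open Cfsg

namespace Cfsg.Agent.S0234

/-- In a finite simple group G of even order greater than 2, the number n of involutions satisfies 3n < |G|. -/
theorem result {G : Type*} [Group G] [Finite G] [IsSimpleGroup G] (heven : Even (Nat.card G)) (hgt : 2 < Nat.card G) : 3 * Nat.card {t : G // orderOf t = 2} < Nat.card G := by
  classical
  by_contra hcon
  rw [not_lt] at hcon
  set n := Nat.card {t : G // orderOf t = 2} with hn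
  set g := Nat.card G with hg
  have hnc : ¬ IsMulCommutative G := by
    refine Cfsg.Agent.H30.not_comm_of_not_prime fun hp => ?_
    have := (Nat.prime_dvd_prime_iff_eq Nat.prime_two hp).mp (even_iff_two_dvd.mp heven)
    omega
  have hab : ∃ a b : G, a * b ≠ b * a := by
    by_contra h
    simp only [not_exists, not_not] at h
    exact hnc ⟨⟨h⟩⟩
  have hZ : Odd (Nat.card (Subgroup.center G)) := by
    rw [H28.center_eq_bot_of_simple hab, Subgroup.card_bot]; exact odd_one
  obtain ⟨H, hH, hor⟩ := H28.exists_index_bound heven hZ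
  rw [← hn, ← hg] at hor
  have hidx : H.index ≤ 5 := by
    rcases hor with h | h
    · omega
    · by_contra h6
      have h1 : 12 * n ^ 2 ≤ 2 * H.index * n ^ 2 := Nat.mul_le_mul_right _ (by omega)
      have h2 : g * (g + n) ≤ (3 * n) * (4 * n) := Nat.mul_le_mul hcon (by omega)
      nlinarith
  have h60 : g = 60 := by
    have hd := Cfsg.Agent.H30.two_mul_card_dvd_factorial hnc H hH
    have hle := Nat.le_of_dvd (Nat.factorial_pos _) hd
    have h120 : Nat.factorial H.index ≤ 120 := le_trans (Nat.factorial_le hidx) (le_of_eq rfl)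
    refine Cfsg.Agent.S0493.result (fun hc => hnc ?_) (by omega)
    haveI := hc
    exact ⟨⟨IsCyclic.commGroup.mul_comm⟩⟩
  obtain ⟨e⟩ := Cfsg.Agent.S0494.result (G := G) h60
  have h15 : n = 15 := by
    rw [hn, Nat.card_congr (e.toEquiv.subtypeEquiv (q := fun t => orderOf t = 2) fun t => by
      rw [MulEquiv.toEquiv_eq_coe, EquivLike.coe_coe, MulEquiv.orderOf_eq])]
    rw [Nat.card_eq_fintype_card, Fintype.card_subtype]
    have h : (Finset.univ.filter fun t : alternatingGroup (Fin 5) => t * t = 1 ∧ t ≠ 1).card = 15 := by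
      decide +kernel
    rw [← h]
    congr 1
    ext t
    simp only [Finset.mem_filter, Finset.mem_univ, true_and]
    exact ⟨fun ht => ⟨H28.mul_self_of_orderOf_two ht, H28.ne_one_of_orderOf_two ht⟩,
      fun ht => H28.orderOf_two_of_mul_self ht.1 ht.2⟩
  omega

end Cfsg.Agent.S0234
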