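import Cfsg.Statements.S0235
import Cfsg.Agent.H28.Counting

set_option autoImplicit false
open Cfsg

namespace Cfsg.Agent.S0235

/-- If x² ≠ 1, the ordered pairs (u, v) of involutions with uv = x correspond bijectively to the involutions t with t x t⁻¹ = x⁻¹ (via (u, v) ↦ u), so the two counts agree. -/
theorem result {G : Type*} [Group G] [Finite G] (x : G) (hx : x ^ 2 ≠ 1) : Nat.card {p : G × G // orderOf p.1 = 2 ∧ orderOf p.2 = 2 ∧ p.1 * p.2 = x} = Nat.card {t : G // orderOf t = 2 ∧ t * x * t⁻¹ = x⁻¹} := by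
  exact H28.pairCount_eq_inverting x hx

end Cfsg.Agent.S0235
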