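import Cfsg.Statements.S0239
import Cfsg.Agent.H28.Counting

set_option autoImplicit false
open Cfsg

namespace Cfsg.Agent.S0239

/-- If some nontrivial element x of a finite group G is conjugate to x⁻¹, then |G| is even. -/
theorem result {G : Type*} [Group G] [Finite G] (x : G) (hx : x ≠ 1) (hreal : IsConj x x⁻¹) : Even (Nat.card G) := by
  exact H28.even_card_of_real hx hreal

end Cfsg.Agent.S0239
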