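import Cfsg.Statements.S0241
import Cfsg.Agent.H28.Counting

set_option autoImplicit false
open Cfsg

namespace Cfsg.Agent.S0241

/-- If x ≠ 1 is conjugate to x⁻¹ in a finite group G and |C_G(x)| is odd, then some involution t satisfies t x t⁻¹ = x⁻¹. -/
theorem result {G : Type*} [Group G] [Finite G] (x : G) (hx : x ≠ 1) (hreal : IsConj x x⁻¹) (hodd : Odd (Nat.card (Subgroup.centralizer ({x} : Set G)))) : ∃ t : G, orderOf t = 2 ∧ t * x * t⁻¹ = x⁻¹ := by
  exact H28.exists_inverting_involution hx hreal hodd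

end Cfsg.Agent.S0241
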