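import Cfsg.Statements.S0258
import Cfsg.Agent.H1.SylowTwoDim

set_option autoImplicit false
open Cfsg

namespace Cfsg.Agent.S0258

/-- GL_2(q), q a power of the prime p, has exactly q + 1 Sylow p-subgroups. -/
theorem result {F : Type*} [Field F] [Fintype F] {q : ℕ} (hF : Fintype.card F = q) (p : ℕ) [Fact p.Prime] [CharP F p] : Nat.card (Sylow p (Matrix.GeneralLinearGroup (Fin 2) F)) = q + 1 := by
  exact Cfsg.Agent.H1.card_sylowGL p hF

end Cfsg.Agent.S0258
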