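import Cfsg.Statements.S0275
import Cfsg.Agent.H6.SylowTwo
import Cfsg.Agent.H1.DicksonPrimeSL

set_option autoImplicit false
open Cfsg Matrix MatrixGroups

namespace Cfsg.Agent.S0275

open QuaternionGroup in
lemma not_isCyclic_quaternion {k : ℕ} (hk : 1 ≤ k) : ¬ IsCyclic (QuaternionGroup (2 ^ k)) := by
  intro h
  have := h
  let := IsCyclic.commGroup (α := QuaternionGroup (2 ^ k))
  have e : (xa 0 : QuaternionGroup (2 ^ k)) * a 1 = a 1 * xa 0 := mul_comm _ _
  rw [xa_mul_a, a_mul_xa, xa.injEq, zero_add, zero_sub] at e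
  have h2 : ((2 : ℕ) : ZMod (2 * 2 ^ k)) = 0 := by
    push_cast
    linear_combination e
  rw [ZMod.natCast_eq_zero_iff] at h2
  have := Nat.le_of_dvd two_pos h2
  have : 2 ^ 1 ≤ 2 ^ k := Nat.pow_le_pow_right two_pos hk
  omega

open QuaternionGroup in
/-- A non-cyclic subgroup of a generalised quaternion group is generalised quaternion. -/
lemma quaternion_of_not_isCyclic {k : ℕ} (H : Subgroup (QuaternionGroup (2 ^ k)))
    (h : ¬ IsCyclic H) : ∃ j, 1 ≤ j ∧ Nonempty (H ≃* QuaternionGroup (2 ^ j)) := by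
  classical
  have : NeZero (2 ^ k) := ⟨by positivity⟩
  let C : Subgroup (QuaternionGroup (2 ^ k)) := Subgroup.zpowers (a 1)
  have haC : ∀ i, a i ∈ C := fun i => ⟨(i.val : ℤ), by
    show (a 1) ^ (i.val : ℤ) = a i
    rw [zpow_natCast, a_one_pow, ZMod.natCast_zmod_val]⟩
  have hxC : ∀ i, xa i ∉ C := by
    rintro i ⟨j, hj⟩
    have hj' : (a 1 : QuaternionGroup (2 ^ k)) ^ j = xa i := hj
    rw [← zpow_mod_orderOf, orderOf_a_one] at hj'
    obtain ⟨n, hn⟩ := Int.eq_ofNat_of_zero_le (a := j % ((2 * 2 ^ k : ℕ) : ℤ))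
      (Int.emod_nonneg _ (by positivity))
    rw [hn, zpow_natCast, a_one_pow] at hj'
    exact absurd hj' (by simp)
  obtain ⟨t, ht⟩ : ∃ t, xa t ∈ H := by
    by_contra hcon
    push Not at hcon
    have hle : H ≤ C := by
      rintro (i | i) hi
      · exact haC i
      · exact absurd hi (hcon i)
    exact h (isCyclic_of_injective (Subgroup.inclusion hle) (Subgroup.inclusion_injective hle))
  have hidx : (C.subgroupOf H).index = 2 := by
    rw [Subgroup.index_eq_two_iff]
    refine ⟨⟨xa t, ht⟩, ?_⟩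
    rintro ⟨i | i, hi⟩
    · refine Or.inr ⟨haC i, ?_⟩
      rw [Subgroup.mem_subgroupOf, Subgroup.coe_mul, a_mul_xa]
      exact hxC _
    · refine Or.inl ⟨?_, hxC i⟩
      rw [Subgroup.mem_subgroupOf, Subgroup.coe_mul, xa_mul_xa]
      exact haC _
  have : IsCyclic (C.subgroupOf H : Subgroup H) :=
    isCyclic_of_injective ((H.subtype.comp (C.subgroupOf H).subtype).codRestrict C
      fun x => Subgroup.mem_subgroupOf.1 x.2) (fun x y e => by
        have := congrArg Subtype.val e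
        exact Subtype.ext (Subtype.ext this))
  obtain ⟨c, hc⟩ := IsCyclic.exists_ofOrder_eq_natCard (α := (C.subgroupOf H : Subgroup H))
  have hHcard : Nat.card H = 2 * orderOf c := by
    rw [hc, ← (C.subgroupOf H).index_mul_card, hidx]
  obtain ⟨e, -, he⟩ := (Nat.dvd_prime_pow Nat.prime_two).1 (show orderOf c ∣ 2 ^ (k + 1) by
    have h1 := Subgroup.orderOf_dvd_natCard C (Subgroup.mem_subgroupOf.1 c.2)
    rwa [Subgroup.orderOf_coe, Subgroup.orderOf_coe, Nat.card_zpowers, orderOf_a_one,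
      show 2 * 2 ^ k = 2 ^ (k + 1) from by ring] at h1)
  have hgen : ∀ x : H, x ∈ C.subgroupOf H → x ∈ Subgroup.zpowers (c : H) := by
    intro x hx
    have htop : Subgroup.zpowers c = ⊤ :=
      Subgroup.eq_top_of_card_eq _ (by rw [Nat.card_zpowers, hc])
    obtain ⟨i, hi⟩ := (htop ▸ Subgroup.mem_top (⟨x, hx⟩ : (C.subgroupOf H : Subgroup H)) :)
    exact ⟨i, congrArg Subtype.val hi⟩
  set w : H := ⟨xa t, ht⟩
  have hww : ((w * w : H) : QuaternionGroup (2 ^ k)) = a ((2 ^ k : ℕ) : ZMod _) := by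
    simp [w, xa_mul_xa]
  have hne : (a ((2 ^ k : ℕ) : ZMod _) : QuaternionGroup (2 ^ k)) ≠ 1 := by
    rw [one_def, ne_eq, a.injEq, ZMod.natCast_eq_zero_iff]
    intro hd
    have := Nat.le_of_dvd (by positivity) hd
    have := Nat.two_pow_pos k
    omega
  have hwwC : w * w ∈ C.subgroupOf H := by
    rw [Subgroup.mem_subgroupOf, hww]; exact haC _
  have he2 : 2 ≤ e := by
    by_contra hlt
    have hle : orderOf c ≤ 2 := he ▸ (Nat.pow_le_pow_right two_pos (by omega : e ≤ 1))
    apply h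
    refine isCyclic_of_orderOf_eq_card w ?_
    have h1 : w * w ≠ 1 := fun h1 => hne (by rw [← hww, h1]; rfl)
    have h2' : (w * w) ^ 2 = 1 := by
      refine Subtype.ext ?_
      rw [Subgroup.coe_pow, hww, sq, a_mul_a, ← Nat.cast_add, Subgroup.coe_one, one_def]
      exact congrArg a (ZMod.natCast_eq_zero_iff _ _ |>.2 (by rw [two_mul]))
    have hw1 : w ≠ 1 := fun hh => h1 (by rw [hh, one_mul])
    have h4 : orderOf w = 2 ^ (1 + 1) := orderOf_eq_prime_pow (by rwa [pow_one, sq])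
      (by rw [show 2 ^ (1 + 1) = 2 * 2 by norm_num, pow_mul, sq w]; exact h2')
    have hdv := orderOf_dvd_natCard w
    have hle' := Nat.le_of_dvd Nat.card_pos hdv
    omega
  refine ⟨e - 1, by omega, Cfsg.Agent.H6.nonempty_equiv_quaternion (by positivity)
    (c := (c : H)) (w := w) ?_ ?_ ?_ ?_ ?_⟩
  · rw [Subgroup.orderOf_coe, he, ← pow_succ', show e - 1 + 1 = e by omega]
  · -- the only involution of the cyclic group
    classical
    obtain ⟨n, hn, hn'⟩ := Finset.mem_image.1 (mem_zpowers_iff_mem_range_orderOf.1 (hgen _ hwwC))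
    rw [Finset.mem_range, Subgroup.orderOf_coe, he] at hn
    have hn0 : n ≠ 0 := by
      rintro rfl
      exact hne (by rw [← hww, ← hn', pow_zero]; rfl)
    have h2 : (c : H) ^ (n * 2) = 1 := by
      rw [pow_mul, hn']
      refine Subtype.ext ?_
      rw [Subgroup.coe_pow, hww, sq, a_mul_a, ← Nat.cast_add, Subgroup.coe_one, one_def]
      exact congrArg a ((ZMod.natCast_eq_zero_iff _ _).2 (by rw [two_mul]))
    rw [← orderOf_dvd_iff_pow_eq_one, Subgroup.orderOf_coe, he] at h2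
    obtain ⟨r, hr⟩ := h2
    have hr2 : r < 2 := by
      by_contra hge
      have := Nat.mul_le_mul_left (2 ^ e) (not_lt.1 hge)
      omega
    have hr1 : r = 1 := by
      interval_cases r <;> omega
    subst hr1
    have he' : 2 ^ e = 2 ^ (e - 1) * 2 := by
      rw [← pow_succ, show e - 1 + 1 = e by omega]
    rw [← hn', show n = 2 ^ (e - 1) by omega]
  · refine Subtype.ext ?_
    obtain ⟨i, hi⟩ : ∃ i, ((c : H) : QuaternionGroup (2 ^ k)) = a i := by
      have := Subgroup.mem_subgroupOf.1 c.2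
      rcases h0 : ((c : H) : QuaternionGroup (2 ^ k)) with i | i
      · exact ⟨i, rfl⟩
      · exact absurd (h0 ▸ this) (hxC i)
    show (w : QuaternionGroup (2 ^ k)) * (c : H) * (w : QuaternionGroup (2 ^ k))⁻¹ = ((c : H) : QuaternionGroup (2 ^ k))⁻¹
    rw [hi, mul_inv_eq_iff_eq_mul]
    show xa t * a i = (a i)⁻¹ * xa t
    rw [xa_mul_a, show ((a i)⁻¹ : QuaternionGroup (2 ^ k)) = a (-i) from rfl, a_mul_xa, sub_neg_eq_add]
  · intro hw
    have : w ∈ C.subgroupOf H := (Subgroup.zpowers_le.2 c.2) hw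
    exact hxC t this
  · rw [hHcard, he, show (4 : ℕ) = 2 ^ 2 by norm_num, ← pow_succ', ← pow_add]
    congr 1; omega

/-- If p is odd and H is a subgroup of SL_2(q), q a power of p, with more than one Sylow p-subgroup, then the Sylow 2-subgroups of H are generalised quaternion. -/
theorem result {F : Type*} [Field F] [Fintype F] (p : ℕ) [Fact p.Prime] [CharP F p] (hp : p ≠ 2) (H : Subgroup (Matrix.SpecialLinearGroup (Fin 2) F)) (hH : 1 < Nat.card (Sylow p H)) (S : Sylow 2 H) : ∃ k : ℕ, 1 ≤ k ∧ Nonempty ((S : Subgroup H) ≃* QuaternionGroup (2 ^ k)) := by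
  have := Fact.mk Nat.prime_two
  have h2 : (2 : F) ≠ 0 := fun e => hp ((Nat.prime_dvd_prime_iff_eq (Fact.out : p.Prime) Nat.prime_two).1
    ((CharP.cast_eq_zero_iff F p 2).1 (by exact_mod_cast e)))
  have h2' : (2 : ZMod p) ≠ 0 := fun e => hp ((Nat.prime_dvd_prime_iff_eq (Fact.out : p.Prime) Nat.prime_two).1
    ((ZMod.natCast_eq_zero_iff 2 p).1 (by exact_mod_cast e)))
  obtain ⟨K, hKH, ⟨φ⟩⟩ := Cfsg.Agent.H1.exists_subgroup_equiv_SL2_prime p hp H hH
  obtain ⟨P⟩ : Nonempty (Sylow 2 SL(2, ZMod p)) := inferInstance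
  obtain ⟨a, ha, ⟨ψ⟩⟩ := Cfsg.Agent.H6.sylow_two_sl2 (ZMod.card p) h2' P
  let f : SL(2, ZMod p) →* H := (Subgroup.inclusion hKH).comp φ.symm.toMonoidHom
  have hf : Function.Injective f := (Subgroup.inclusion_injective hKH).comp φ.symm.injective
  have hPf : IsPGroup 2 ((P : Subgroup SL(2, ZMod p)).map f) := P.2.map f
  obtain ⟨S', hS'⟩ := hPf.exists_le_sylow
  have hS : ¬ IsCyclic (S : Subgroup H) := by
    intro hS
    have : IsCyclic (S' : Subgroup H) := (S.equiv S').isCyclic.1 hS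
    have h1 : IsCyclic ((P : Subgroup SL(2, ZMod p)).map f) :=
      isCyclic_of_injective (Subgroup.inclusion hS') (Subgroup.inclusion_injective hS')
    exact not_isCyclic_quaternion ha
      (((((P : Subgroup SL(2, ZMod p)).equivMapOfInjective f hf).symm.trans ψ)).isCyclic.1 h1)
  obtain ⟨T, hT⟩ := (S.2.map H.subtype).exists_le_sylow
  obtain ⟨b, -, ⟨χ⟩⟩ := Cfsg.Agent.H6.sylow_two_sl2 rfl h2 T
  let g : (S : Subgroup H) →* QuaternionGroup (2 ^ b) :=
    (χ.toMonoidHom.comp (Subgroup.inclusion hT)).comp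
      ((S : Subgroup H).equivMapOfInjective H.subtype Subtype.val_injective).toMonoidHom
  have hg : Function.Injective g :=
    (χ.injective.comp (Subgroup.inclusion_injective hT)).comp (MulEquiv.injective _)
  have e : (S : Subgroup H) ≃* g.range := MonoidHom.ofInjective hg
  obtain ⟨j, hj, ⟨θ⟩⟩ := quaternion_of_not_isCyclic g.range (fun hc => hS (e.isCyclic.2 hc))
  exact ⟨j, hj, ⟨e.trans θ⟩⟩

end Cfsg.Agent.S0275
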