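import Cfsg.Statements.S0285
import Cfsg.Agent.H3.Count

set_option autoImplicit false
open Cfsg

namespace Cfsg.Agent.S0285

/-- The standard Hermitian form on F^n, |F| = q^2, has exactly (q^n - (-1)^n)(q^(n-1) + (-1)^n) non-zero isotropic vectors; counting the zero vector too: -/
theorem result {F : Type*} [Field F] [Fintype F] {q : ℕ} (hF : Fintype.card F = q ^ 2) (n : ℕ) : Nat.card {v : Fin n → F // Cfsg.hermForm n F q v v = 0} = (if Even n then (q ^ n - 1) * (q ^ (n - 1) + 1) else (q ^ n + 1) * (q ^ (n - 1) - 1)) + 1 := by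
  cases n with
  | zero =>
    have : Nat.card {v : Fin 0 → F // Cfsg.hermForm 0 F q v v = 0} = 1 :=
      Nat.card_eq_one_iff_exists.2 ⟨⟨0, by simp [Cfsg.hermForm]⟩, fun y => Subsingleton.elim _ _⟩
    rw [this]
    simp
  | succ n =>
    have h := H3.card_isotropic_int hF (n + 1)
    have h2 := H3.two_le_q hF
    have h1 : 1 ≤ q ^ n := Nat.one_le_pow _ _ (by omega)
    have h1' : 1 ≤ q ^ (n + 1) := Nat.one_le_pow _ _ (by omega)
    rw [Nat.add_sub_cancel]
    zify
    apply mul_left_cancel₀ (show (q : ℤ) ≠ 0 by omega)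
    rw [h]
    rcases Nat.even_or_odd n with he | ho
    · rw [if_neg (Nat.not_even_iff_odd.2 he.add_one), he.add_one.neg_one_pow]
      push_cast [h1, h1']
      ring
    · rw [if_pos ho.add_one, ho.add_one.neg_one_pow]
      push_cast [h1, h1']
      ring

end Cfsg.Agent.S0285
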