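import Cfsg.Statements.S0295
import Cfsg.Agent.H5.OmegaForms

set_option autoImplicit false
open Cfsg

namespace Cfsg.Agent.S0295

/-- PΩ_{2m+1}(q) is simple for q odd and m at least 3. -/
theorem result {F : Type*} [Field F] [Fintype F] (hodd : Odd (Fintype.card F)) (m : ℕ) (hm : 3 ≤ m) : IsSimpleGroup (Cfsg.POmega F (Cfsg.quadFormOdd m F)) := by
  have h2 : (2 : F) ≠ 0 := fun h => by
    have := CharTwo.of_one_ne_zero_of_two_eq_zero (R := F) one_ne_zero h
    exact (Nat.not_even_iff_odd.2 hodd) (Nat.even_iff.2 (FiniteField.even_card_of_char_two (ringChar.eq F 2)))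
  exact H5.pomega_isSimpleGroup (H5.qOdd m F) (H5.coe_qOdd m) (H5.qOdd_nondegenerate m h2)
    (by simp; omega)

end Cfsg.Agent.S0295
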