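import Cfsg.Statements.S0299
import Cfsg.Agent.H5.PlusFour

set_option autoImplicit false
open Cfsg

namespace Cfsg.Agent.S0299

/-- PΩ^+_4(q) is isomorphic to PSL_2(q) x PSL_2(q) for q at least 3. -/
theorem result {F : Type*} [Field F] [Fintype F] (hF : 3 ≤ Fintype.card F) : Nonempty (Cfsg.POmega F (Cfsg.quadFormPlus 2 F) ≃* Matrix.ProjectiveSpecialLinearGroup (Fin 2) F × Matrix.ProjectiveSpecialLinearGroup (Fin 2) F) := by
  haveI : Finite (Fin 2 ⊕ Fin 2 → F) := Pi.finite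
  have hn : Module.finrank F (Fin 2 ⊕ Fin 2 → F) = 4 := by simp
  have hc : Nat.card F ≠ 2 := by rw [Nat.card_eq_fintype_card]; omega
  obtain ⟨e⟩ := H5.nonempty_omega_quot_equiv (H5.qPlus_nondegenerate 2) (by omega) (Or.inl hc)
    (H5.pairHom F) H5.hypPair_qPlus (fun v hv => H5.exists_pairHom_eq_eich hv)
    ⟨(H92.sw, H92.sw), 1, one_ne_zero, H5.pairHom_swap⟩ (H5.range_pairHom_le hc) H5.ker_pairHom_le
    H5.mem_center_of_commutator_prod
  exact ⟨((H5.pomegaEquiv (H5.qPlus 2 F) (H5.coe_qPlus 2)).trans e).trans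
    (H5.prodCenterQuot _ _)⟩

end Cfsg.Agent.S0299
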