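import Cfsg.Statements.S0305
import Cfsg.Agent.H5.TwoDim
import Cfsg.Agent.H5.PairForms
import Cfsg.Agent.H4.Orders

set_option autoImplicit false
open Cfsg

namespace Cfsg.Agent.S0305

/-- GO^+_2(q) is dihedral of order 2(q-1). -/
theorem result {F : Type*} [Field F] [Fintype F] {q : ℕ} (hF : Fintype.card F = q) : Nonempty (Cfsg.isometryGroup F (Cfsg.quadFormPlus 1 F) ≃* DihedralGroup (q - 1)) := by
  classical
  subst hF
  have hc := H5.coordPairs_qPlus (F := F) 1
  have hQ := H5.qPlus_nondegenerate (F := F) 1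
  obtain ⟨t, ht⟩ := IsCyclic.exists_generator (α := Fˣ)
  set e : Fin 1 ⊕ Fin 1 → F := Pi.single (Sum.inl 0) 1
  set f : Fin 1 ⊕ Fin 1 → F := Pi.single (Sum.inr 0) 1
  have hp : H5.HypPair (H5.qPlus 1 F) e f := hc.hyp 0
  -- the torus
  let T : Fˣ →* H5.orth (H5.qPlus 1 F) := MonoidHom.mk'
    (fun s => H5.pairScale (H5.qPlus 1 F) e f (s : F))
    (fun a b => H5.orth_ext fun x => by
      rw [H5.orth_mul_apply, hp.pairScale_apply (a * b).ne_zero, hp.pairScale_apply a.ne_zero,
        hp.pairScale_apply b.ne_zero]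
      have h1 := H5.mem_pperp.1 (hp.decomp x)
      simp only [QuadraticMap.polar_add_right, QuadraticMap.polar_smul_right, H5.polar_self',
        hp.left, hp.right, hp.pair, QuadraticMap.polar_comm (⇑(H5.qPlus 1 F)) f e, h1.1, h1.2,
        Units.val_mul, smul_eq_mul, mul_inv]
      module)
  have hT : Function.Injective T := by
    intro a b hab
    have h := congrArg (fun g : H5.orth (H5.qPlus 1 F) =>
      QuadraticMap.polar (H5.qPlus 1 F) f ((g : (Fin 1 ⊕ Fin 1 → F) ≃ₗ[F] (Fin 1 ⊕ Fin 1 → F)) e)) hab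
    simp [T, hp.pairScale_apply, QuadraticMap.polar_smul_right, H5.polar_self', hp.left, hp.pair,
      QuadraticMap.polar_comm (⇑(H5.qPlus 1 F)) f e] at h
    exact Units.ext h
  have hord : orderOf (T t) = Fintype.card F - 1 := by
    rw [orderOf_injective T hT, orderOf_eq_card_of_forall_mem_zpowers ht, Nat.card_eq_fintype_card,
      Fintype.card_units]
  have hcard : Nat.card (H5.orth (H5.qPlus 1 F)) = 2 * (Fintype.card F - 1) := by
    have h := H4.card_qIsoms_qPlus (F := F) 0
    have heq : H5.qPlus 1 F = H4.qPlus 1 F :=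
      QuadraticMap.ext fun x => by rw [H5.coe_qPlus, H4.coe_qPlus]
    have h1 : Nat.card (H5.orth (H5.qPlus 1 F)) = Nat.card (H4.qIsoms (H4.qPlus 1 F)) := by
      rw [heq]; exact Nat.card_congr (Equiv.subtypeEquivRight fun _ => Iff.rfl)
    rw [h1]
    have h2 : 1 ≤ Fintype.card F := Fintype.card_pos
    simp at h
    omega
  have hv : H5.qPlus 1 F (e - f) ≠ 0 := by
    have := hp.map_sub_smul_norm 1
    rw [one_smul] at this
    rw [this]; exact neg_ne_zero.2 one_ne_zero
  obtain ⟨iso⟩ := H5.nonempty_orth_equiv_dihedral hQ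
    (by simp [Module.finrank_fintype_fun_eq_card]) (k := Fintype.card F - 1)
    (by have : 1 < Fintype.card F := Fintype.one_lt_card; omega) hord
    (H5.dick_pairScale hQ hp t.ne_zero) hv hcard
  exact ⟨(H5.isoEquiv (H5.qPlus 1 F) (H5.coe_qPlus 1)).trans iso⟩

end Cfsg.Agent.S0305
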