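import Cfsg.Statements.S0312
import Cfsg.Agent.H8.BNParabolic
-- import your own Cfsg.Agent.* helpers here

set_option autoImplicit false
open Cfsg

namespace Cfsg.Agent.S0312

/-- Every standard parabolic subgroup of a group with a (B,N)-pair equals its own normaliser. -/
theorem result {G : Type*} [Group G] (P : Cfsg.BNPair G) {J : Set G}
    (hJ : J ⊆ P.S) : Subgroup.normalizer (P.parabolic J : Set G) = P.parabolic J := by
  refine le_antisymm (fun g hg => ?_) Subgroup.le_normalizer
  refine H8.BN.mem_of_conj_le (H8.BN.B_le_parabolic J) fun b hb => ?_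
  exact (Subgroup.mem_normalizer_iff.1 hg b).1 (H8.BN.B_le_parabolic J hb)

end Cfsg.Agent.S0312
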