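import Cfsg.Statements.S0316
import Cfsg.Agent.H8.BNParabolic
-- import your own Cfsg.Agent.* helpers here

set_option autoImplicit false
open Cfsg

namespace Cfsg.Agent.S0316

/-- The map `J ↦ P_J` is a lattice isomorphism from the power set of the set of distinguished generators onto the
subgroups containing `B`. -/
theorem result {G : Type*} [Group G] (P : Cfsg.BNPair G) :
    ∃ e : Set P.S ≃o {M : Subgroup G // P.B ≤ M},
      ∀ J : Set P.S, ((e J : {M : Subgroup G // P.B ≤ M}) : Subgroup G) = P.parabolic (Subtype.val '' J) := by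
  refine ⟨RelIso.ofSurjective (OrderEmbedding.ofMapLEIff
      (fun J : Set P.S => (⟨P.parabolic (Subtype.val '' J), H8.BN.B_le_parabolic _⟩ :
        {M : Subgroup G // P.B ≤ M})) ?_) ?_, fun J => rfl⟩
  · intro J K
    exact (H8.BN.parabolic_le_iff (Subtype.coe_image_subset _ J)
      (Subtype.coe_image_subset _ K)).trans (Set.image_subset_image_iff Subtype.val_injective)
  · rintro ⟨M, hM⟩
    refine ⟨Subtype.val ⁻¹' (M : Set G), Subtype.ext ?_⟩
    simpa [Subtype.image_preimage_coe] using (H8.BN.eq_parabolic hM).symm

end Cfsg.Agent.S0316
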