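import Cfsg.Statements.S0320
import Cfsg.Agent.H8.BNParabolic
import Cfsg.Agent.H8.CoxeterExchange
-- import your own Cfsg.Agent.* helpers here

set_option autoImplicit false
open Cfsg

namespace Cfsg.Agent.S0320

/-- The Weyl group `W = N / (B ⊓ N)` of a (B,N)-pair, with its distinguished involutions, is a Coxeter system. -/
theorem result {G : Type*} [Group G] (P : Cfsg.BNPair G)
    [hN : ((P.B ⊓ P.N).subgroupOf P.N).Normal] :
    ∃ (M : CoxeterMatrix P.S) (cs : CoxeterSystem M (P.N ⧸ (P.B ⊓ P.N).subgroupOf P.N)),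
      ∀ s : P.S, cs.simple s = QuotientGroup.mk (⟨(s : G), P.subset s.2⟩ : P.N) := by
  let f : P.S → P.N ⧸ (P.B ⊓ P.N).subgroupOf P.N := fun s =>
    QuotientGroup.mk (⟨(s : G), P.subset s.2⟩ : P.N)
  have hwordS : ∀ l : List P.S, ∀ x ∈ l.map Subtype.val, x ∈ P.S := by
    intro l x hx
    obtain ⟨y, -, rfl⟩ := List.mem_map.1 hx
    exact y.2
  have hval : ∀ l : List P.S, (l.map f).prod =
      QuotientGroup.mk (⟨(l.map Subtype.val).prod, H8.BN.prod_mem_N (hwordS l)⟩ : P.N) := by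
    intro l
    induction l with
    | nil => rfl
    | cons a l ih =>
      simp only [List.map_cons, List.prod_cons]
      rw [ih]
      exact (QuotientGroup.mk_mul _ _ _).symm
  have hcong : ∀ (n m : P.N), (QuotientGroup.mk n : P.N ⧸ (P.B ⊓ P.N).subgroupOf P.N) =
      QuotientGroup.mk m ↔ H8.BN.Cong P (n : G) (m : G) := by
    intro n m
    rw [QuotientGroup.eq, Subgroup.mem_subgroupOf, Subgroup.mem_inf]
    exact ⟨fun h => h.1, fun h => ⟨h, SetLike.coe_mem _⟩⟩
  have hlift : ∀ l : List G, (∀ x ∈ l, x ∈ P.S) → ∃ l' : List P.S, l'.map Subtype.val = l :=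
    fun l hl => ⟨l.pmap Subtype.mk hl, by simp [List.map_pmap]⟩
  have hprodeq : ∀ l l' : List P.S, (l.map f).prod = (l'.map f).prod ↔
      H8.BN.Cong P (l.map Subtype.val).prod (l'.map Subtype.val).prod := by
    intro l l'
    rw [hval, hval, hcong]
  have hred : ∀ l : List P.S, H8.Cox.IsRed f l ↔ H8.BN.Red P (l.map Subtype.val) := by
    intro l
    constructor
    · intro h m hm hc
      obtain ⟨m', rfl⟩ := hlift m hm
      simpa using h m' ((hprodeq _ _).2 hc).symm
    · intro h m hm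
      simpa using h _ (hwordS m) ((hprodeq _ _).1 hm.symm)
  refine H8.Cox.exists_coxeterSystem (f := f) ?_ ?_ ?_ ?_
  · intro s
    rw [← QuotientGroup.mk_mul, QuotientGroup.eq_one_iff, Subgroup.mem_subgroupOf]
    exact ⟨P.sq_mem s s.2, mul_mem (P.subset s.2) (P.subset s.2)⟩
  · intro s t h
    exact Subtype.ext (P.inj s s.2 t t.2 ((hcong _ _).1 h))
  · intro w
    obtain ⟨n, rfl⟩ := QuotientGroup.mk_surjective w
    obtain ⟨l, hl, hc⟩ := H8.BN.exists_word n.2
    obtain ⟨l', rfl⟩ := hlift l hl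
    exact ⟨l', by rw [hval, hcong]; exact hc⟩
  · intro i l hr hnr
    have hnadm : ¬ H8.BN.Adm P (i : G) (l.map Subtype.val).prod := fun ha =>
      hnr ((hred _).2 (by
        simpa using H8.BN.red_cons_of_adm i.2 (hwordS l) ((hred l).1 hr) ha))
    obtain ⟨a, t, c, heq, hc, -⟩ := H8.BN.exchange i.2 _ (hwordS l) hnadm
    obtain ⟨a', l₂, rfl, rfl, hl₂⟩ := List.map_eq_append_iff.1 heq
    obtain ⟨j, c', rfl, rfl, rfl⟩ := List.map_eq_cons_iff.1 hl₂
    refine ⟨a', j, c', rfl, ?_⟩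
    rw [hval, ← QuotientGroup.mk_mul, ← QuotientGroup.mk_mul, hcong]
    exact hc

end Cfsg.Agent.S0320
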