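import Cfsg.Statements.S0321
import Cfsg.Agent.H8.BNParabolic
-- import your own Cfsg.Agent.* helpers here

set_option autoImplicit false
open Cfsg

namespace Cfsg.Agent.S0321

/-- For `n ∈ N` not in `B`, the union `B ∪ B n B` is (the underlying set of) a subgroup exactly when `n` agrees
modulo `B ⊓ N` with one of the distinguished representatives; thus the distinguished involutions are
determined by `B` and `N`. -/
theorem result {G : Type*} [Group G] (P : Cfsg.BNPair G) {n : G}
    (hn : n ∈ P.N) (hnB : n ∉ P.B) :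
    (∃ H : Subgroup G, (H : Set G) = (P.B : Set G) ∪ DoubleCoset.doubleCoset n (P.B : Set G) P.B) ↔ ∃ s ∈ P.S, s⁻¹ * n ∈ P.B := by
  constructor
  · rintro ⟨H, hH⟩
    have hBH : P.B ≤ H := fun b hb => show b ∈ (H : Set G) by rw [hH]; exact Or.inl hb
    by_cases hS : ∃ s ∈ P.S, s ∈ H
    · obtain ⟨s, hs, hsH⟩ := hS
      have h1 : s ∈ (H : Set G) := hsH
      rw [hH] at h1
      exact ⟨s, hs, H8.BN.cong_of_mem_cell (P.subset hs) hn (H8.BN.self_mem_cell s)
        (h1.resolve_left (H8.BN.s_not_mem_B hs))⟩
    · exfalso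
      apply hnB
      have h0 : P.S ∩ (H : Set G) = ∅ :=
        Set.eq_empty_iff_forall_notMem.2 fun s hs => hS ⟨s, hs.1, hs.2⟩
      have h2 : n ∈ H := show n ∈ (H : Set G) by rw [hH]; exact Or.inr (H8.BN.self_mem_cell n)
      rw [H8.BN.eq_parabolic hBH, h0] at h2
      simpa [BNPair.parabolic] using h2
  · rintro ⟨s, hs, hsn⟩
    refine ⟨P.parabolic {s}, Set.ext fun g => ?_⟩
    change g ∈ P.parabolic {s} ↔ g ∈ P.B ∨ g ∈ H8.BN.cell P n
    rw [← H8.BN.Cong.cell_eq (P := P) hsn]
    constructor
    · intro hg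
      obtain ⟨l, hl, hgl⟩ :=
        (H8.BN.mem_parabolic_iff_word (Set.singleton_subset_iff.2 hs)).1 hg
      have key : ∀ l : List G, (∀ x ∈ l, x ∈ ({s} : Set G)) →
          H8.BN.Cong P 1 l.prod ∨ H8.BN.Cong P s l.prod := by
        intro l
        induction l with
        | nil => intro _; exact Or.inl (H8.BN.Cong.refl _)
        | cons a l ih =>
          intro hl
          obtain rfl : a = s := hl a (by simp)
          rcases ih fun x hx => hl x (by simp [hx]) with h | h
          · right; simpa using h.mul_left a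
          · left; simpa using (H8.BN.cong_mul_self hs).trans (h.mul_left a)
      rcases key l hl with h | h
      · rw [← h.cell_eq, H8.BN.cell_one] at hgl; exact Or.inl hgl
      · rw [← h.cell_eq] at hgl; exact Or.inr hgl
    · rintro (hg | hg)
      · exact H8.BN.B_le_parabolic _ hg
      · exact H8.BN.cell_subset (H8.BN.B_le_parabolic ({s} : Set G))
          (H8.BN.subset_parabolic ({s} : Set G) (Set.mem_singleton s)) hg

end Cfsg.Agent.S0321
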