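import Cfsg.Statements.S0322
import Cfsg.Agent.H8.BNParabolic
-- import your own Cfsg.Agent.* helpers here

set_option autoImplicit false
open Cfsg

namespace Cfsg.Agent.S0322

/-- A group with a (B,N)-pair of rank one acts doubly transitively on the left cosets of `B`. -/
theorem result {G : Type*} [Group G] (P : Cfsg.BNPair G) (h : P.rank = 1) : MulAction.IsMultiplyPretransitive G (G ⧸ P.B) 2 := by
  classical
  obtain ⟨⟨⟨s, hs⟩⟩, hfin⟩ := And.intro (Nat.card_eq_one_iff_unique.1 h).2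
    (Nat.card_eq_one_iff_unique.1 h).1
  have huniq : ∀ t ∈ P.S, t = s := fun t ht =>
    congrArg Subtype.val (hfin.elim ⟨t, ht⟩ ⟨s, hs⟩)
  have hcases : ∀ g : G, g ∈ P.B ∨ g ∈ H8.BN.cell P s := by
    intro g
    obtain ⟨l, hl, hgl⟩ := H8.BN.exists_mem_cell (P := P) g
    obtain ⟨r, hr, hred, hc⟩ := H8.BN.exists_reduced (P := P) (H8.BN.prod_mem_N hl)
    rw [← hc.cell_eq] at hgl
    match r, hr, hred, hgl with
    | [], _, _, hgl => left; simpa [H8.BN.cell_one] using hgl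
    | [t], hr, _, hgl =>
      right; simpa [huniq t (hr t (by simp))] using hgl
    | t :: t' :: r', hr, hred, _ =>
      exfalso
      obtain rfl : t = s := huniq t (hr t (by simp))
      obtain rfl : t' = t := huniq t' (hr t' (by simp))
      have h1 := hred r' (fun x hx => hr x (by simp [hx])) (by
        simpa [mul_assoc] using H8.BN.cong_cancel_left hs
          (H8.BN.prod_mem_N fun x hx => hr x (by simp [hx])))
      simp at h1
  rw [MulAction.is_two_pretransitive_iff]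
  intro a b c d hab hcd
  obtain ⟨ga, rfl⟩ := QuotientGroup.mk_surjective a
  obtain ⟨gb, rfl⟩ := QuotientGroup.mk_surjective b
  obtain ⟨gc, rfl⟩ := QuotientGroup.mk_surjective c
  obtain ⟨gd, rfl⟩ := QuotientGroup.mk_surjective d
  rw [ne_eq, QuotientGroup.eq] at hab hcd
  obtain ⟨x, hx, y, hy, he⟩ := H8.BN.mem_cell.1 ((hcases _).resolve_left hab)
  obtain ⟨x', hx', y', hy', he'⟩ := H8.BN.mem_cell.1 ((hcases _).resolve_left hcd)
  refine ⟨gc * x' * x⁻¹ * ga⁻¹, ?_, ?_⟩
  · rw [MulAction.Quotient.smul_mk, QuotientGroup.eq, smul_eq_mul]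
    have hm := mul_mem hx (inv_mem hx')
    rwa [show (gc * x' * x⁻¹ * ga⁻¹ * ga)⁻¹ * gc = x * x'⁻¹ by group]
  · rw [MulAction.Quotient.smul_mk, QuotientGroup.eq, smul_eq_mul]
    have hm := mul_mem (inv_mem hy) hy'
    rwa [show (gc * x' * x⁻¹ * ga⁻¹ * gb)⁻¹ * gd
        = (ga⁻¹ * gb)⁻¹ * x * x'⁻¹ * (gc⁻¹ * gd) by group, he, he',
      show (x * s * y)⁻¹ * x * x'⁻¹ * (x' * s * y') = y⁻¹ * y' by group]

end Cfsg.Agent.S0322
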