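import Cfsg.Statements.S0323
-- import your own Cfsg.Agent.* helpers here

set_option autoImplicit false
open scoped Pointwise
open Cfsg

namespace Cfsg.Agent.S0323

/-- A doubly transitive action on a set with at least three points yields a (B,N)-pair of rank one:
`B` is the stabiliser of a point `x`, `N` the setwise stabiliser of a pair `{x, y}`. -/
theorem result {G Ω : Type*} [Group G] [MulAction G Ω]
    (h2 : MulAction.IsMultiplyPretransitive G Ω 2) {x y z : Ω} (hxy : x ≠ y) (hyz : y ≠ z) (hxz : x ≠ z) :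
    ∃ P : Cfsg.BNPair G, P.B = MulAction.stabilizer G x ∧
      P.N = MulAction.stabilizer G ({x, y} : Set Ω) ∧ P.rank = 1 := by
  rw [MulAction.is_two_pretransitive_iff] at h2
  obtain ⟨s, hsx, hsy⟩ := h2 hxy (Ne.symm hxy)
  set B := MulAction.stabilizer G x with hBdef
  set N := MulAction.stabilizer G ({x, y} : Set Ω) with hNdef
  have memB : ∀ g : G, g ∈ B ↔ g • x = x := fun g => MulAction.mem_stabilizer_iff
  have himg : ∀ g : G, g • ({x, y} : Set Ω) = {g • x, g • y} := by
    intro g
    rw [← Set.image_smul, Set.image_pair]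
  have memN : ∀ g : G, g ∈ N ↔ (g • x = x ∧ g • y = y) ∨ (g • x = y ∧ g • y = x) := by
    intro g
    rw [hNdef, MulAction.mem_stabilizer_iff, himg]
    exact Set.pair_eq_pair_iff
  have hBN : ∀ g : G, g ∈ B ⊓ N ↔ g • x = x ∧ g • y = y := by
    intro g
    rw [Subgroup.mem_inf, memB, memN]
    constructor
    · rintro ⟨h, h' | h'⟩
      · exact h'
      · exact absurd (h.symm.trans h'.1) hxy
    · rintro ⟨h, h'⟩; exact ⟨h, Or.inl ⟨h, h'⟩⟩
  have hsB : s ∉ B := fun h => hxy (((memB s).1 h).symm.trans hsx)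
  have hssB : s * s ∈ B ⊓ N := by rw [hBN]; simp [mul_smul, hsx, hsy]
  have hsN : s ∈ N := (memN s).2 (Or.inr ⟨hsx, hsy⟩)
  -- every element lies in `B` or in `B s B`
  have cases2 : ∀ g : G, g ∈ B ∨ g ∈ DoubleCoset.doubleCoset s (B : Set G) B := by
    intro g
    by_cases hg : g • x = x
    · exact Or.inl ((memB g).2 hg)
    · right
      obtain ⟨b, hbx, hby⟩ := h2 hxy (Ne.symm hg)
      refine DoubleCoset.mem_doubleCoset.2 ⟨b, (memB b).2 hbx, (b * s)⁻¹ * g, (memB _).2 ?_, by group⟩
      rw [mul_smul, inv_smul_eq_iff, mul_smul, hsx, hby]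
  have hsN' : ∀ g ∈ N, g ∉ B → s⁻¹ * g ∈ B := by
    intro g hg hgB
    rw [memB, mul_smul, inv_smul_eq_iff, hsx]
    rcases (memN g).1 hg with h | h
    · exact absurd ((memB g).2 h.1) hgB
    · exact h.1
  refine ⟨{ B := B, N := N, S := {s}
            sup_eq_top := ?_
            conj_mem := ?_
            subset := by simpa using hsN
            sq_mem := by simpa using hssB.1
            inj := by simp
            closure_sup := ?_
            mul_mem_union := ?_
            conj_ne := ?_ }, rfl, rfl, by simp [BNPair.rank]⟩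
  · rw [eq_top_iff]
    intro g _
    rcases cases2 g with h | h
    · exact Subgroup.mem_sup_left h
    · obtain ⟨a, ha, b, hb, rfl⟩ := DoubleCoset.mem_doubleCoset.1 h
      exact mul_mem (mul_mem (Subgroup.mem_sup_left ha) (Subgroup.mem_sup_right hsN))
        (Subgroup.mem_sup_left hb)
  · intro n hn t ht
    obtain ⟨htx, hty⟩ := (hBN t).1 ht
    rw [memB, mul_smul, mul_smul]
    rcases (memN n⁻¹).1 (inv_mem hn) with h | h
    · rw [h.1, htx]; exact (smul_eq_iff_eq_inv_smul n).2 h.1.symm
    · rw [h.1, hty]; exact (smul_eq_iff_eq_inv_smul n).2 h.1.symm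
  · refine le_antisymm (sup_le ?_ inf_le_right) fun g hg => ?_
    · rw [Subgroup.closure_le]; simpa using hsN
    · by_cases hgB : g ∈ B
      · exact Subgroup.mem_sup_right ⟨hgB, hg⟩
      · have := mul_mem (Subgroup.mem_sup_left (T := B ⊓ N)
            (Subgroup.subset_closure (Set.mem_singleton s)))
          (Subgroup.mem_sup_right (S := Subgroup.closure {s})
            (show s⁻¹ * g ∈ B ⊓ N from ⟨hsN' g hg hgB, N.mul_mem (N.inv_mem hsN) hg⟩))
        simpa using this
  · intro s' hs' n hn b hb
    simp only [Set.mem_singleton_iff] at hs'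
    subst hs'
    rw [Set.mem_union]
    have hcell : ∀ m c : G, c ∈ B → m * c ∈ DoubleCoset.doubleCoset m (B : Set G) B :=
      fun m c hc => DoubleCoset.mem_doubleCoset.2 ⟨1, one_mem _, c, hc, by group⟩
    by_cases hnB : n ∈ B
    · left
      have h := hcell (s' * n) (n⁻¹ * b * n) (mul_mem (mul_mem (inv_mem hnB) hb) hnB)
      rwa [show s' * n * (n⁻¹ * b * n) = s' * b * n by group] at h
    · have hn' := hsN' n hn hnB
      rcases cases2 (s' * b * n) with h | h
      · left
        have hsn : s' * n ∈ B := by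
          rw [show s' * n = s' * s' * (s'⁻¹ * n) by group]
          exact mul_mem hssB.1 hn'
        have h' := hcell (s' * n) ((s' * n)⁻¹ * (s' * b * n)) (mul_mem (inv_mem hsn) h)
        rwa [mul_inv_cancel_left] at h'
      · right
        rw [DoubleCoset.doubleCoset_eq_of_mem (a := s') (b := n)]
        · exact h
        · have h' := hcell s' (s'⁻¹ * n) hn'
          rwa [mul_inv_cancel_left] at h'
  · intro s' hs'
    simp only [Set.mem_singleton_iff] at hs'
    subst hs'
    intro h
    obtain ⟨b, hbx, hby⟩ := h2 hxy hxz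
    have h1 : s' * b * s' ∈ (B : Set G) := h ▸ ⟨b, (memB b).2 hbx, rfl⟩
    have h2' : (s' * b * s') • x = x := (memB _).1 h1
    rw [mul_smul, mul_smul, hsx, hby] at h2'
    exact hyz (MulAction.injective s' (hsy.trans h2'.symm))

end Cfsg.Agent.S0323
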