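import Cfsg.Statements.S0341
import Cfsg.Agent.H7.ZassAffine
-- import your own Cfsg.Agent.* helpers here

set_option autoImplicit false
open Cfsg

namespace Cfsg.Agent.S0341

/-- If a finite group acts faithfully and doubly transitively, no non-identity element fixes three points, some
non-identity element fixes two points, and some normal subgroup acts regularly, then the number of points
is `2^p` with `p` prime. -/
theorem result {G Ω : Type*} [Group G]
    [MulAction G Ω] [Fintype Ω] [FaithfulSMul G Ω] (h2 : MulAction.IsMultiplyPretransitive G Ω 2)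
    (h3 : ∀ g : G, ∀ a b c : Ω, a ≠ b → b ≠ c → a ≠ c → g • a = a → g • b = b → g • c = c → g = 1)
    (hfix : ∃ g : G, g ≠ 1 ∧ ∃ a b : Ω, a ≠ b ∧ g • a = a ∧ g • b = b)
    (N : Subgroup G) [N.Normal] (hNt : MulAction.IsPretransitive N Ω)
    (hNr : ∀ a : Ω, MulAction.stabilizer N a = ⊥) :
    ∃ p : ℕ, p.Prime ∧ Fintype.card Ω = 2 ^ p := by
  exact Cfsg.Agent.H7.degree_of_regular_normal
    ⟨‹_›, fun h h' => MulAction.is_two_pretransitive_iff.1 h2 h h', h3, hfix⟩ N hNr

end Cfsg.Agent.S0341
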