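import Cfsg.Statements.S0345
import Cfsg.Agent.H39.ZassSimple
import Cfsg.Agent.H7.ZassCyclic
import Cfsg.Agent.H7.ZassNotSimple
-- import your own Cfsg.Agent.* helpers here

set_option autoImplicit false
open Cfsg

namespace Cfsg.Agent.S0345

/-- In a finite simple Zassenhaus group the stabiliser `H` of two points `a ≠ b` is cyclic, and some involution
interchanging `a` and `b` inverts every element of `H`. -/
theorem result {G Ω : Type*} [Group G] [Finite G] [MulAction G Ω] [Finite Ω]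
    (hZ : Cfsg.IsZassenhausGroup G Ω) [IsSimpleGroup G]
    {a b : Ω} (hab : a ≠ b) :
    IsCyclic ↥(MulAction.stabilizer G a ⊓ MulAction.stabilizer G b) ∧
      ∃ v : G, orderOf v = 2 ∧ v • a = b ∧ v • b = a ∧ ∀ h ∈ MulAction.stabilizer G a ⊓ MulAction.stabilizer G b, v * h * v⁻¹ = h⁻¹ := by
  haveI := Fintype.ofFinite Ω
  have Z := Cfsg.Agent.H7.ZHyp.of_zassenhaus hZ
  by_cases heven : Even (Nat.card ↥(MulAction.stabilizer G a ⊓ MulAction.stabilizer G b))
  · rcases Z.even_cases hab heven with h | h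
    · exact absurd ‹IsSimpleGroup G› (Z.sharp_not_simple hab heven h)
    obtain ⟨t, ta, tb⟩ := Z.two hab hab.symm
    obtain ⟨hinv, hcomm⟩ := Z.even_half_inverts hab heven h ta tb
    refine ⟨Z.isCyclic_of_comm hab hcomm, t, orderOf_eq_prime ?_ ?_, ta, tb, hinv⟩
    · rw [pow_two]; exact (Z.even_half hab heven h ta tb).1
    · intro e; rw [e, one_smul] at ta; exact hab ta
  · obtain ⟨S, rfl, rfl⟩ := Cfsg.Agent.H39.exists_zsetup Z hab
    have hodd : Odd S.e := Nat.not_even_iff_odd.1 heven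
    obtain ⟨t, ta, tb⟩ := Z.two hab hab.symm
    obtain ⟨tt, t1, hinv⟩ := S.swapper hodd ta tb
    exact ⟨Z.isCyclic_of_comm hab (S.D_abelian hodd).1, t, orderOf_eq_prime (by rw [pow_two, tt]) t1, ta, tb, hinv⟩

end Cfsg.Agent.S0345
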