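import Cfsg.Statements.S0346
import Cfsg.Agent.H7.ZassClassify
import Cfsg.Agent.S0885
-- import your own Cfsg.Agent.* helpers here

set_option autoImplicit false
open Cfsg

namespace Cfsg.Agent.S0346

/-- The number of points of a finite simple Zassenhaus group is `p^k + 1` for some prime power `p^k` (the regular normal
subgroup of a point stabiliser is a `p`-group). -/
theorem result {G Ω : Type*} [Group G] [Finite G] [MulAction G Ω] [Fintype Ω]
    (hZ : Cfsg.IsZassenhausGroup G Ω) [IsSimpleGroup G] :
    IsPrimePow (Fintype.card Ω - 1) := by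
  obtain ⟨g, -, a, b, hab, -, -⟩ := hZ.2.2.2.1
  obtain ⟨U, K, -⟩ := (Cfsg.Agent.H7.ZHyp.of_zassenhaus hZ).exists_ZK hab
  haveI := K.z.finite
  have hU := K.card_U
  rw [Nat.card_eq_fintype_card (α := Ω)] at hU
  refine K.isPrimePow_degree fun ho => ?_
  rcases Cfsg.Agent.S0885.result hZ hab (Nat.card U) _ hU.symm rfl ho U K.le hU
    (fun u hu u1 c hc => by by_contra hca; exact u1 (K.free hu hca hc)) with h | ⟨h, -, -⟩
  · exact Or.inl (by omega)
  · exact Or.inr h

end Cfsg.Agent.S0346
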