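import Cfsg.Statements.S0351
import Cfsg.Agent.H10.SteinerParams

set_option autoImplicit false
set_option linter.unusedSectionVars false
open Cfsg

namespace Cfsg.Agent.S0351

/-- Derived design: removing a point p from the blocks through p of an S(t+1, k+1, v) yields an S(t, k, v-1) on the points other than p. -/
theorem result {α : Type*} [Fintype α] [DecidableEq α] {t k : ℕ} {B : Set (Finset α)} (hB : Cfsg.IsSteinerSystem (t + 1) (k + 1) B) (p : α) : Cfsg.IsSteinerSystem t k {b' : Finset {a : α // a ≠ p} | ∃ b ∈ B, p ∈ b ∧ b' = Finset.subtype (fun a => a ≠ p) b} := by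
  have key : ∀ b : Finset α, p ∈ b →
      (Finset.subtype (fun a => a ≠ p) b).map (Function.Embedding.subtype fun a => a ≠ p) = b.erase p := by
    intro b _
    rw [Finset.subtype_map]; ext x; simp [and_comm]
  constructor
  · rintro _ ⟨b, hb, hp, rfl⟩
    have h := congrArg Finset.card (key b hp)
    rw [Finset.card_map, Finset.card_erase_of_mem hp, hB.1 b hb] at h
    omega
  · intro s hs
    have hps : p ∉ s.map (Function.Embedding.subtype fun a => a ≠ p) := by simp
    obtain ⟨b, ⟨hb, hsb⟩, huniq⟩ :=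
      hB.2 (insert p (s.map (Function.Embedding.subtype fun a => a ≠ p)))
        (by rw [Finset.card_insert_of_notMem hps, Finset.card_map, hs])
    rw [Finset.insert_subset_iff] at hsb
    refine ⟨Finset.subtype (fun a => a ≠ p) b, ⟨⟨b, hb, hsb.1, rfl⟩, fun x hx => ?_⟩, ?_⟩
    · rw [Finset.mem_subtype]
      exact hsb.2 (Finset.mem_map_of_mem _ hx)
    · rintro _ ⟨⟨b₂, hb₂, hp₂, rfl⟩, hs₂⟩
      congr 1
      refine huniq b₂ ⟨hb₂, Finset.insert_subset hp₂ fun y hy => ?_⟩
      obtain ⟨x, hx, rfl⟩ := Finset.mem_map.1 hy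
      exact Finset.mem_subtype.1 (hs₂ hx)

end Cfsg.Agent.S0351
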