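import Cfsg.Statements.S0354
import Cfsg.Agent.H10.SteinerParams

set_option autoImplicit false
set_option linter.unusedSectionVars false
open Cfsg

namespace Cfsg.Agent.S0354

/-- In an S(5, 8, 24), each block is disjoint from exactly 30 blocks. -/
theorem result {α : Type*} [Fintype α] [DecidableEq α] (hα : Fintype.card α = 24) {B : Set (Finset α)} (hB : Cfsg.IsSteinerSystem 5 8 B) {b : Finset α} (hb : b ∈ B) : {c : Finset α | c ∈ B ∧ Disjoint b c}.ncard = 30 := by
  rw [Cfsg.Agent.H10.ncard_sep_eq]
  rw [show (30 : ℕ) = Cfsg.Agent.H10.mu24 (∅ : Finset α).card from rfl,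
    ← Cfsg.Agent.H10.s24_mu hα hB hb (Finset.empty_subset b)]
  exact congrArg Finset.card (Finset.filter_congr fun c _ => by
    rw [disjoint_comm, Finset.disjoint_iff_inter_eq_empty])

end Cfsg.Agent.S0354
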