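import Cfsg.Statements.S0357
import Cfsg.Agent.H10.SteinerParams

set_option autoImplicit false
set_option linter.unusedSectionVars false
open Cfsg

namespace Cfsg.Agent.S0357

/-- In a Steiner system S(5, 6, 12), the complement of every block is again a block. -/
theorem result {α : Type*} [Fintype α] [DecidableEq α] (hα : Fintype.card α = 12) {B : Set (Finset α)} (hB : Cfsg.IsSteinerSystem 5 6 B) {b : Finset α} (hb : b ∈ B) : bᶜ ∈ B := by
  exact Cfsg.Agent.H10.s12_compl hα hB hb

end Cfsg.Agent.S0357
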