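import Cfsg.Statements.S0374
import Cfsg.Agent.H11.M24Chain

set_option autoImplicit false
open Cfsg

namespace Cfsg.Agent.S0374

/-- The group of the length-24 code is generated by x ↦ x+1, x ↦ -1/x and the cube-twist permutation. -/
theorem result : Subgroup.closure {Equiv.optionCongr (Equiv.addRight (1 : ZMod 23)), Cfsg.projInv, Cfsg.cubeTwist} = Cfsg.M24 := by
  exact Cfsg.Agent.H11.m24Gens_eq

end Cfsg.Agent.S0374
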