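import Cfsg.Statements.S0383
import Cfsg.Agent.H13.Groups
import Cfsg.Agent.H13.Actions

set_option autoImplicit false
open scoped Pointwise
open Cfsg

namespace Cfsg.Agent.S0383

open Cfsg.Agent.H13 Cfsg.Agent.H13.Data MulAction Pointwise

/-- A dodecad stabiliser in the group of the length-24 code is simple. -/
theorem result (d : Finset Cfsg.GolayPt) (hd : d ∈ Cfsg.dodecads) : IsSimpleGroup (MulAction.stabilizer Cfsg.M24 d) := by
  obtain ⟨g, hg⟩ := conj_stab12 hd
  have := g12_simple
  exact MulEquiv.isSimpleGroup ((mapEquiv g hg).symm.trans (subgroupOfEquivGrp g12_le stab12))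

end Cfsg.Agent.S0383
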