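import Cfsg.Statements.S0385
import Cfsg.Agent.H13.Hexads

set_option autoImplicit false
open Cfsg

namespace Cfsg.Agent.S0385

open Cfsg.Agent.H13 Cfsg.Agent.H13.Data MulAction Pointwise

/-- The 6-point intersections of octads with a fixed dodecad form a Steiner system S(5, 6, 12) on the dodecad. -/
theorem result (d : Finset Cfsg.GolayPt) (hd : d ∈ Cfsg.dodecads) : Cfsg.IsSteinerSystem 5 6 {h : Finset {p : Cfsg.GolayPt // p ∈ d} | ∃ o ∈ Cfsg.octads, (o ∩ d).card = 6 ∧ h = Finset.subtype (fun p => p ∈ d) o} := by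
  exact hexads_steiner hd

end Cfsg.Agent.S0385
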