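import Cfsg.Statements.S0387
import Cfsg.Agent.H13.Groups
import Cfsg.Agent.H13.Actions

set_option autoImplicit false
open scoped Pointwise
open Cfsg

namespace Cfsg.Agent.S0387

open Cfsg.Agent.H13 Cfsg.Agent.H13.Data MulAction Pointwise

/-- The stabiliser of a dodecad and a point on it has order 7920 = 2^4·3^2·5·11. -/
theorem result (d : Finset Cfsg.GolayPt) (hd : d ∈ Cfsg.dodecads) (p : Cfsg.GolayPt) (hp : p ∈ d) : Nat.card ↥(MulAction.stabilizer Cfsg.M24 d ⊓ MulAction.stabilizer Cfsg.M24 p) = 7920 := by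
  obtain ⟨g, -, -, hg⟩ := conj_stab11 hd hp
  rw [← Nat.card_congr (mapEquiv g hg).toEquiv,
    Nat.card_congr (subgroupOfEquivGrp g11_le stab11).toEquiv, card_g11]

end Cfsg.Agent.S0387
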