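import Cfsg.Statements.S0389
import Cfsg.Agent.H13.Transfer

set_option autoImplicit false
open scoped Pointwise
open Cfsg

namespace Cfsg.Agent.S0389

open Cfsg.Agent.H13 Cfsg.Agent.H13.Data MulAction Pointwise

/-- The stabiliser of a dodecad and a point on it is 3-transitive on the complementary dodecad. -/
theorem result (d : Finset Cfsg.GolayPt) (hd : d ∈ Cfsg.dodecads) (p : Cfsg.GolayPt) (hp : p ∈ d) (x y : Fin 3 ↪ Cfsg.GolayPt) (hx : ∀ i, x i ∉ d) (hy : ∀ i, y i ∉ d) : ∃ g ∈ MulAction.stabilizer Cfsg.M24 d ⊓ MulAction.stabilizer Cfsg.M24 p, ∀ i, (g : Equiv.Perm Cfsg.GolayPt) (x i) = y i := by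
  obtain ⟨g, hgd, hgp, hg⟩ := conj_stab11 hd hp
  have hmem : ∀ z ∉ d, g⁻¹ • z ∉ Spor.squareDodecad := fun z hz h => by
    apply hz
    rw [← hgd]
    exact Finset.inv_smul_mem_iff.mp h
  let x' : Fin 3 ↪ GolayPt := ⟨fun i => g⁻¹ • x i, fun i j h => x.injective (smul_left_cancel g⁻¹ h)⟩
  let y' : Fin 3 ↪ GolayPt := ⟨fun i => g⁻¹ • y i, fun i j h => y.injective (smul_left_cancel g⁻¹ h)⟩
  obtain ⟨h, hh, hxy⟩ := m11_map_triple x' y' (fun i => hmem _ (hx i)) (fun i => hmem _ (hy i))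
  let h' : M24 := ⟨h, g11_le hh⟩
  have hd' : h' ∈ stabilizer M24 Spor.squareDodecad ⊓ stabilizer M24 (some 0 : GolayPt) := by
    rw [stab11]; exact hh
  refine ⟨g * h' * g⁻¹, ?_, fun i => ?_⟩
  · rw [← hg]
    exact Subgroup.smul_mem_pointwise_smul h' (MulAut.conj g) _ hd'
  · show (g * h' * g⁻¹) • x i = y i
    rw [mul_smul, mul_smul]
    show g • h (x' i) = y i
    rw [hxy]
    exact smul_inv_smul g (y i)

end Cfsg.Agent.S0389
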