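import Cfsg.Statements.S0397
import Cfsg.Agent.H14.Co0Order

set_option autoImplicit false
open Cfsg

namespace Cfsg.Agent.S0397

/-- The automorphism group of the lattice has order 8315553613086720000 = 2^22·3^9·5^4·7^2·11·13·23. -/
theorem result : Nat.card Cfsg.Co0 = 8315553613086720000 := by
  exact H14.card_Co0

end Cfsg.Agent.S0397
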