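import Cfsg.Statements.S0412
import Cfsg.Agent.H10.Ext4Simple

set_option autoImplicit false
open Cfsg

namespace Cfsg.Agent.S0412

/-- Aut of an S(5, 8, 24) is simple of order 244823040 and 5-transitive on points. -/
theorem result {α : Type*} [Fintype α] [DecidableEq α] (hα : Fintype.card α = 24) {B : Set (Finset α)} (hB : Cfsg.IsSteinerSystem 5 8 B) : Cfsg.IsM24 (Cfsg.setSystemAut B) ∧ MulAction.IsMultiplyPretransitive (Cfsg.setSystemAut B) α 5 := by
  refine ⟨⟨Cfsg.Agent.H10.s24_aut_simple hα hB, ?_⟩,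
    Cfsg.Agent.H10.ext_aut_transitive (m := 3) (by norm_num) (by norm_num) hα
      (Cfsg.Agent.H10.isExt_of_24 hα hB)⟩
  rw [Cfsg.Agent.H10.ext_aut_card (m := 3) (by norm_num) (by norm_num) hα
    (Cfsg.Agent.H10.isExt_of_24 hα hB)]
  rfl

end Cfsg.Agent.S0412
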