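import Cfsg.Statements.S0426
import Cfsg.Agent.H10.S11

set_option autoImplicit false
open Cfsg

namespace Cfsg.Agent.S0426

/-- Aut of an S(4, 5, 11) is simple of order 7920 and sharply 4-transitive on points. -/
theorem result {α : Type*} [Fintype α] [DecidableEq α] (hα : Fintype.card α = 11) {B : Set (Finset α)} (hB : Cfsg.IsSteinerSystem 4 5 B) : Cfsg.IsM11 (Cfsg.setSystemAut B) ∧ MulAction.IsMultiplyPretransitive (Cfsg.setSystemAut B) α 4 ∧ ∀ x : Fin 4 ↪ α, MulAction.stabilizer (Cfsg.setSystemAut B) x = ⊥ := by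
  refine ⟨⟨Cfsg.Agent.H10.s11_aut_simple hα hB, Cfsg.Agent.H10.s11_aut_card hα hB⟩,
    Cfsg.Agent.H10.s11_aut_transitive hα hB, fun x => (Subgroup.eq_bot_iff_forall _).2 fun g hg => ?_⟩
  exact Subtype.ext (Cfsg.Agent.H10.s11_aut_eq_one hα hB x g.2 fun i => DFunLike.congr_fun hg i)

end Cfsg.Agent.S0426
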