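import Cfsg.Statements.S0427
import Cfsg.Agent.H10.SrgWitt

set_option autoImplicit false
open Pointwise
open Cfsg

namespace Cfsg.Agent.S0427

/-- The block graph (adjacent = disjoint) of an S(3, 6, 22) is strongly regular with parameters (77, 16, 0, 4). -/
theorem result {α : Type*} [Fintype α] (hα : Fintype.card α = 22) {B : Set (Finset α)} (hB : Cfsg.IsSteinerSystem 3 6 B) [Fintype B] [DecidableRel (Cfsg.blockGraph B).Adj] : (Cfsg.blockGraph B).IsSRGWith 77 16 0 4 := by
  classical
  have hne : ∀ (b : B) (d : Finset α), Disjoint d (b : Finset α) → d ≠ (b : Finset α) := by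
    intro b d hd e
    rw [e, disjoint_self, Finset.bot_eq_empty, ← Finset.card_eq_zero, hB.1 _ b.2] at hd
    omega
  have hadj : ∀ b c : B, (Cfsg.blockGraph B).Adj b c ↔ Disjoint (c : Finset α) b := fun b c => by
    rw [H10.blockGraph_adj, disjoint_comm]
    exact ⟨fun h => h.2, fun h => ⟨fun e => hne b c h (e ▸ rfl), h⟩⟩
  have hcn : ∀ b c : B, (b : Finset α) ≠ c →
      Fintype.card ((Cfsg.blockGraph B).commonNeighbors b c)
        = 2 * ((b : Finset α) ∩ c).card := by
    intro b c hbc
    rw [← H10.s22_disjoint_both hα hB b.2 c.2 hbc, ← H10.card_filter_subtype,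
      ← Fintype.card_subtype]
    refine Fintype.card_congr (Equiv.subtypeEquivRight fun d => ?_)
    rw [SimpleGraph.mem_commonNeighbors, hadj, hadj]
  refine ⟨?_, fun b => ?_, fun b c h => ?_, fun b c hne' h => ?_⟩
  · rw [← H10.s22_card_blocks hα hB, ← Finset.card_univ, ← Finset.card_map (Function.Embedding.subtype _)]
    congr 1
    ext d
    simp
  · rw [← H10.s22_disjoint_count hα hB b.2, ← H10.card_filter_subtype,
      ← SimpleGraph.card_neighborFinset_eq_degree]
    refine congrArg Finset.card ?_
    ext d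
    simp [hadj]
  · have h' := (hadj b c).1 h
    rw [hcn b c (hne c b h'.symm)]
    rw [Finset.inter_comm, Finset.disjoint_iff_inter_eq_empty.1 h']
    rfl
  · have h' : ¬ Disjoint (c : Finset α) b := fun e => h ((hadj b c).2 e)
    have hbc : (b : Finset α) ≠ c := fun e => hne' (Subtype.ext e)
    rw [hcn b c hbc]
    rcases H10.s22_inter hα hB b.2 c.2 hbc with e | e
    · exact absurd (disjoint_comm.1 (Finset.disjoint_iff_inter_eq_empty.2 (Finset.card_eq_zero.1 e))) h'
    · rw [e]

end Cfsg.Agent.S0427
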