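import Cfsg.Statements.S0431
import Cfsg.Agent.H14.HSGraphAut

set_option autoImplicit false
open Cfsg

namespace Cfsg.Agent.S0431

/-- Aut of the point-block graph of an S(3, 6, 22) contains a simple subgroup of order 44352000. -/
theorem result {α : Type*} [Fintype α] (hα : Fintype.card α = 22) {B : Set (Finset α)} (hB : Cfsg.IsSteinerSystem 3 6 B) : ∃ H : Subgroup (Cfsg.pointBlockGraph B ≃g Cfsg.pointBlockGraph B), Cfsg.IsHS H := by
  classical
  exact Cfsg.Agent.H14.HSGraph.exists_hs_subgroup hα hB

end Cfsg.Agent.S0431
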