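import Cfsg.Statements.S0439
import Cfsg.Agent.H17.Basic

set_option autoImplicit false
open Cfsg

namespace Cfsg.Agent.S0439

/-- In the symmetric group of degree n ≥ 2, the set of transpositions is a conjugacy class of 3-transpositions which generates the group. -/
theorem result (n : ℕ) (hn : 2 ≤ n) : Cfsg.IsThreeTranspositionClass {σ : Equiv.Perm (Fin n) | σ.IsSwap} := by
  refine ⟨⟨?_, ?_⟩, ?_, Equiv.Perm.closure_isSwap⟩
  · rintro σ ⟨x, y, hxy, rfl⟩
    exact orderOf_eq_prime (by rw [pow_two, Equiv.swap_mul_self]) (by simpa using hxy)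
  · rintro σ ⟨x, y, hxy, rfl⟩ τ ⟨z, w, hzw, rfl⟩
    have braid3 : ∀ a b c : Fin n, a ≠ b → a ≠ c → b ≠ c →
        (Equiv.swap a b * Equiv.swap a c) ^ 3 = 1 := by
      intro a b c hab hac hbc
      have h3 := (Equiv.Perm.isThreeCycle_swap_mul_swap_same hab hac hbc).orderOf
      rw [← h3]; exact pow_orderOf_eq_one _
    by_cases h1 : x = z
    · subst h1
      by_cases h2 : y = w
      · subst h2; left; simp
      · right; exact braid3 x y w hxy hzw h2
    by_cases h2 : x = w
    · subst h2
      by_cases h3 : y = z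
      · subst h3; left; rw [Equiv.swap_comm y x]; simp
      · right; rw [Equiv.swap_comm z x]; exact braid3 x y z hxy (Ne.symm hzw) h3
    by_cases h3 : y = z
    · subst h3; right; rw [Equiv.swap_comm x y]; exact braid3 y x w (Ne.symm hxy) hzw h2
    by_cases h4 : y = w
    · subst h4; right; rw [Equiv.swap_comm x y, Equiv.swap_comm z y]
      exact braid3 y x z (Ne.symm hxy) h3 h1
    left
    have hd : Equiv.Perm.Disjoint (Equiv.swap x y) (Equiv.swap z w) := by
      intro a
      by_cases ha : a = x ∨ a = y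
      · right; rcases ha with rfl | rfl <;> exact Equiv.swap_apply_of_ne_of_ne (by assumption) (by assumption)
      · left; push_neg at ha; exact Equiv.swap_apply_of_ne_of_ne ha.1 ha.2
    rw [hd.commute.mul_pow]
    simp [pow_two]
  · refine ⟨Equiv.swap ⟨0, by omega⟩ ⟨1, by omega⟩, ⟨_, _, by simp [Fin.ext_iff], rfl⟩, ?_⟩
    ext σ
    constructor
    · rintro ⟨x, y, hxy, rfl⟩
      exact Equiv.Perm.isConj_swap (by simp [Fin.ext_iff]) hxy
    · intro hσ
      obtain ⟨g, rfl⟩ := isConj_iff.mp hσ
      refine ⟨g ⟨0, by omega⟩, g ⟨1, by omega⟩, g.injective.ne (by simp [Fin.ext_iff]), ?_⟩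
      rw [Equiv.swap_apply_apply]

end Cfsg.Agent.S0439
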