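import Cfsg.Statements.S0442
import Cfsg.Agent.H17.Basic

set_option autoImplicit false
open Cfsg

namespace Cfsg.Agent.S0442

/-- A standard trick for producing elements of an involution centraliser: for an involution a and an element g, let b be the conjugate g⁻¹ * a * g. If a * b has odd order 2m + 1 then g * (a * b) ^ m commutes with a; if a * b has even order 2m then (a * b) ^ m and (a * (g * a * g⁻¹)) ^ m commute with a. -/
theorem result {G : Type*} [Group G] (a g : G) (ha : orderOf a = 2) : (∀ m : ℕ, orderOf (a * (g⁻¹ * a * g)) = 2 * m + 1 → Commute (g * (a * (g⁻¹ * a * g)) ^ m) a) ∧ (∀ m : ℕ, orderOf (a * (g⁻¹ * a * g)) = 2 * m → Commute ((a * (g⁻¹ * a * g)) ^ m) a ∧ Commute ((a * (g * a * g⁻¹)) ^ m) a) := by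
  have ha2 : a * a = 1 := H17.mul_self_of_orderOf ha
  have hai : a⁻¹ = a := H17.inv_of_orderOf ha
  have hconj : ∀ (y : G), a * y * a⁻¹ = y⁻¹ → ∀ k : ℕ, a * y ^ k = (y ^ k)⁻¹ * a := by
    intro y hy k
    have : a * y ^ k * a⁻¹ = (y ^ k)⁻¹ := by rw [← conj_pow, hy, inv_pow]
    rw [← this, inv_mul_cancel_right]
  obtain ⟨x, hxdef⟩ : ∃ x, x = a * (g⁻¹ * a * g) := ⟨_, rfl⟩
  have hb2 : (g⁻¹ * a * g) * (g⁻¹ * a * g) = 1 := by
    calc (g⁻¹ * a * g) * (g⁻¹ * a * g) = g⁻¹ * (a * a) * g := by group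
      _ = 1 := by rw [ha2]; group
  have hax : a * x * a⁻¹ = x⁻¹ := by
    rw [hxdef, mul_inv_rev, inv_eq_of_mul_eq_one_right hb2, hai, ← mul_assoc a a, ha2, one_mul]
  rw [← hxdef]
  constructor
  · intro m hm
    show g * x ^ m * a = a * (g * x ^ m)
    have hord : x ^ (2 * m + 1) = 1 := by rw [← hm]; exact pow_orderOf_eq_one _
    have hag : a * g = g * (a * x) := by
      rw [hxdef, ← mul_assoc a a, ha2, one_mul]; group
    have h2 : (x ^ (m + 1))⁻¹ = x ^ m := by
      rw [inv_eq_iff_mul_eq_one, ← pow_add, show m + 1 + m = 2 * m + 1 by ring, hord]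
    calc g * x ^ m * a = g * ((x ^ (m + 1))⁻¹ * a) := by rw [h2, mul_assoc]
      _ = g * (a * x ^ (m + 1)) := by rw [hconj x hax]
      _ = g * (a * x) * x ^ m := by rw [pow_succ']; simp only [mul_assoc]
      _ = a * (g * x ^ m) := by rw [← hag, mul_assoc]
  · intro m hm
    have hord : x ^ (2 * m) = 1 := by rw [← hm]; exact pow_orderOf_eq_one _
    have gen : ∀ y : G, a * y * a⁻¹ = y⁻¹ → y ^ (2 * m) = 1 → Commute (y ^ m) a := by
      intro y hy hy2
      show y ^ m * a = a * y ^ m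
      rw [hconj y hy]
      congr 1
      symm
      rw [inv_eq_iff_mul_eq_one, ← pow_add, ← two_mul, hy2]
    refine ⟨gen x hax hord, gen _ ?_ ?_⟩
    · rw [mul_inv_rev, hai, ← mul_assoc a a, ha2, one_mul]
      simp only [mul_inv_rev, inv_inv, hai, mul_assoc]
    · have hy : a * (g * a * g⁻¹) = g * x⁻¹ * g⁻¹ := by
        rw [hxdef, mul_inv_rev, inv_eq_of_mul_eq_one_right hb2, hai]; group
      rw [hy, conj_pow, inv_pow, hord]; group

end Cfsg.Agent.S0442
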