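import Cfsg.Statements.S0444
import Cfsg.Agent.H17.Basic
import Cfsg.Agent.H17.SymSmall

set_option autoImplicit false
open Cfsg

namespace Cfsg.Agent.S0444

/-- Two members of a set of 3-transpositions which do not commute generate a subgroup isomorphic to the symmetric group on three letters. -/
theorem result {G : Type*} [Group G] {E : Set G} (hE : Cfsg.IsThreeTranspositionSet E) {d e : G} (hd : d ∈ E) (he : e ∈ E) (h : ¬ Commute d e) : Nonempty (Subgroup.closure ({d, e} : Set G) ≃* Equiv.Perm (Fin 3)) := by
  obtain ⟨φ, h1, h2⟩ := H17.SymSmall.exists_hom_three (H17.sq_one hE hd) (H17.sq_one hE he)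
    (H17.braid hE hd he h).symm
  have hinj : Function.Injective φ := by
    rw [injective_iff_map_eq_one]
    intro σ hσ
    rcases H17.SymSmall.perm_three_normal_closure σ with hs | ⟨g, k, hgk⟩
    · exact hs
    exfalso
    apply h
    have := congrArg φ hgk
    simp [hσ, h1, h2] at this
    rw [H17.commute_iff_sq (H17.sq_one hE hd) (H17.sq_one hE he), ← this, one_pow]
  have hr : φ.range = Subgroup.closure {d, e} := by
    rw [MonoidHom.range_eq_map, ← H17.SymSmall.closure_three, MonoidHom.map_closure,
      Set.image_insert_eq, Set.image_singleton, h1, h2]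
  exact ⟨((MonoidHom.ofInjective hinj).trans (MulEquiv.subgroupCongr hr)).symm⟩

end Cfsg.Agent.S0444
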