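import Cfsg.Statements.S0481
import Cfsg.Agent.H17.Basic

set_option autoImplicit false
open Cfsg

namespace Cfsg.Agent.S0481

/-- Large extraspecial subgroups: let z be an involution of a finite group G whose centraliser C contains a normal 2-subgroup Q with centre of order 2 and all squares central, such that every element of G centralising Q lies in Q. Then C contains a Sylow 2-subgroup of G, and any involution of G whose centraliser contains a Sylow 2-subgroup of G is conjugate to z. -/
theorem result {G : Type*} [Group G] [Finite G] (z : G) (hz : orderOf z = 2) (Q : Subgroup G) (hQC : Q ≤ Subgroup.centralizer ({z} : Set G)) (hQn : ∀ g ∈ Subgroup.centralizer ({z} : Set G), ∀ q ∈ Q, g * q * g⁻¹ ∈ Q) (hQ2 : IsPGroup 2 Q) (hZ : Nat.card (Subgroup.center Q) = 2) (hsq : ∀ x : Q, x ^ 2 ∈ Subgroup.center Q) (hlarge : Subgroup.centralizer (Q : Set G) ≤ Q) : (∃ P : Sylow 2 G, (P : Subgroup G) ≤ Subgroup.centralizer ({z} : Set G)) ∧ ∀ u : G, orderOf u = 2 → (∃ P : Sylow 2 G, (P : Subgroup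 G) ≤ Subgroup.centralizer ({u} : Set G)) → IsConj z u := by
  haveI : Fact (Nat.Prime 2) := ⟨Nat.prime_two⟩
  obtain ⟨P, hQP⟩ := hQ2.exists_le_sylow
  have hzc : z ∈ Subgroup.centralizer (Q : Set G) := by
    rw [Subgroup.mem_centralizer_iff]
    exact fun q hq => Subgroup.mem_centralizer_singleton_iff.mp (hQC hq)
  have hzQ : z ∈ Q := hlarge hzc
  have hz1 : z ≠ 1 := H17.ne_one_of_orderOf hz
  -- the only non-trivial element of the centre of Q is z
  have hZz : ∀ x : G, x ∈ Subgroup.centralizer (Q : Set G) → x ≠ 1 → x = z := by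
    intro x hx hx1
    have mk : ∀ y : G, y ∈ Subgroup.centralizer (Q : Set G) → ∀ hy : y ∈ Q,
        (⟨y, hy⟩ : Q) ∈ Subgroup.center Q := fun y hy hyQ =>
      Subgroup.mem_center_iff.mpr fun q => Subtype.ext (Subgroup.mem_centralizer_iff.mp hy q q.2)
    obtain ⟨u, v, huv, hall⟩ := Nat.card_eq_two_iff.mp hZ
    have m1 : (1 : Q) ∈ Subgroup.center Q := one_mem _
    let X : Subgroup.center Q := ⟨⟨x, hlarge hx⟩, mk x hx _⟩
    let Z : Subgroup.center Q := ⟨⟨z, hzQ⟩, mk z hzc _⟩
    have all := fun w : Subgroup.center Q => Set.eq_univ_iff_forall.mp hall w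
    have hX1 : X ≠ 1 := fun h => hx1 (congrArg (fun w : Subgroup.center Q => ((w : Q) : G)) h)
    have hZ1 : Z ≠ 1 := fun h => hz1 (congrArg (fun w : Subgroup.center Q => ((w : Q) : G)) h)
    have : X = Z := by
      rcases all X with h | h <;> rcases all Z with h' | h' <;> rcases all 1 with h'' | h'' <;>
        simp_all
    exact congrArg (fun w : Subgroup.center Q => ((w : Q) : G)) this
  have hcen : ∀ R : Sylow 2 G, Q ≤ (R : Subgroup G) → ∀ x, orderOf x = 2 →
      x ∈ (R : Subgroup G) → (∀ y ∈ (R : Subgroup G), y * x = x * y) → x = z := by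
    intro R hR x hx _ hc
    exact hZz x (Subgroup.mem_centralizer_iff.mpr fun q hq => hc q (hR hq))
      (H17.ne_one_of_orderOf hx)
  have hPc : (P : Subgroup G) ≤ Subgroup.centralizer ({z} : Set G) := by
    have hne : Nontrivial (P : Subgroup G) :=
      ⟨⟨1, one_mem _⟩, ⟨z, hQP hzQ⟩, fun h => hz1 (congrArg Subtype.val h).symm⟩
    haveI := P.isPGroup'.center_nontrivial
    obtain ⟨w, hw⟩ := exists_prime_orderOf_dvd_card' (G := Subgroup.center (P : Subgroup G)) 2
      (by
        obtain ⟨n, hn, hc⟩ := ((P.isPGroup'.to_subgroup (Subgroup.center (P : Subgroup G))).nontrivial_iff_card).mp inferInstance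
        rw [hc]; exact dvd_pow_self 2 (by omega))
    have hwc : ∀ y ∈ (P : Subgroup G), y * ((w : (P : Subgroup G)) : G) = (w : (P : Subgroup G)) * y :=
      fun y hy => congrArg Subtype.val (Subgroup.mem_center_iff.mp w.2 ⟨y, hy⟩)
    have hwz := hcen P hQP _ (by rw [Subgroup.orderOf_coe, Subgroup.orderOf_coe, hw])
      (w : (P : Subgroup G)).2 hwc
    rw [hwz] at hwc
    exact fun y hy => Subgroup.mem_centralizer_singleton_iff.mpr (hwc y hy)
  refine ⟨⟨P, hPc⟩, fun u hu ⟨R, hR⟩ => ?_⟩
  obtain ⟨g, hg⟩ := MulAction.exists_smul_eq G R P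
  have hmem : ∀ x, x ∈ (R : Subgroup G) → g * x * g⁻¹ ∈ (P : Subgroup G) := by
    intro x hx
    rw [← hg, Sylow.coe_subgroup_smul]
    exact Subgroup.smul_mem_pointwise_smul x (MulAut.conj g) _ hx
  have hmem' : ∀ y, y ∈ (P : Subgroup G) → g⁻¹ * y * g ∈ (R : Subgroup G) := by
    intro y hy
    rw [← hg, Sylow.coe_subgroup_smul, Subgroup.mem_pointwise_smul_iff_inv_smul_mem] at hy
    simpa [MulAut.smul_def] using hy
  have hc : ∀ y ∈ (P : Subgroup G), y * (g * u * g⁻¹) = (g * u * g⁻¹) * y := by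
    intro y hy
    have := Subgroup.mem_centralizer_singleton_iff.mp (hR (hmem' y hy))
    have := congrArg (fun w => g * w * g⁻¹) this
    simpa [mul_assoc] using this
  have hug : g * u * g⁻¹ = z :=
    hZz _ (Subgroup.mem_centralizer_iff.mpr fun q hq => hc q (hQP hq))
      (by intro h; exact H17.ne_one_of_orderOf hu (conj_eq_one_iff.mp h))
  exact (isConj_iff.mpr ⟨g, hug⟩).symm

end Cfsg.Agent.S0481
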