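import Cfsg.Statements.S0505
import Cfsg.Agent.H16.CharTwo
import Cfsg.Agent.H77.SolvableCore
import Cfsg.Agent.H29.FourGroup

set_option autoImplicit false
open Cfsg

namespace Cfsg.Agent.S0505

/-- Let G be a finite group of even order in which the centralizer of every involution is solvable and has trivial
core (no nontrivial normal subgroup of odd order). Then G is of characteristic 2 type. -/
theorem result {G : Type*} [Group G] [Finite G]
    (h2 : Even (Nat.card G))
    (hs : ∀ t : G, orderOf t = 2 → Group.IsSolvable (Subgroup.centralizer ({t} : Set G)))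
    (hc : ∀ t : G, orderOf t = 2 → Cfsg.oddCore (Subgroup.centralizer ({t} : Set G)) = ⊥) :
    Cfsg.IsCharacteristicTwoType G := by
  have : Fact (Nat.Prime 2) := ⟨Nat.prime_two⟩
  refine ⟨h2, fun T hT hTne => ?_⟩
  -- a central involution of `T`
  obtain ⟨z, hzZ, -, hz1⟩ := Cfsg.Agent.H29.exists_mem_center_of_normal hT
    (N := (⊤ : Subgroup T)) (by
      have : Nontrivial T := T.nontrivial_iff_ne_bot.mpr hTne
      exact top_ne_bot)
  obtain ⟨k, hk⟩ := (IsPGroup.iff_orderOf.mp hT) z
  have hk0 : k ≠ 0 := fun h => hz1 (orderOf_eq_one_iff.mp (by rw [hk, h, pow_zero]))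
  set t : G := ((z ^ (2 ^ (k - 1)) : T) : G) with htdef
  have ht : orderOf t = 2 := by
    rw [htdef, Subgroup.orderOf_coe, orderOf_pow' z (by positivity), hk,
      Nat.gcd_eq_right (pow_dvd_pow 2 (Nat.sub_le k 1)),
      Nat.pow_div (Nat.sub_le k 1) two_pos, show k - (k - 1) = 1 by omega, pow_one]
  have htT : t ∈ T := (z ^ (2 ^ (k - 1))).2
  have hTC : T ≤ Subgroup.centralizer ({t} : Set G) := by
    intro x hx
    rw [Subgroup.mem_centralizer_singleton_iff]
    have := Subgroup.mem_center_iff.mp (pow_mem hzZ (2 ^ (k - 1))) ⟨x, hx⟩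
    first
      | exact congrArg Subtype.val this
      | exact (congrArg Subtype.val this).symm
  have hCT : Subgroup.centralizer (T : Set G) ≤ Subgroup.centralizer ({t} : Set G) :=
    Subgroup.centralizer_le (Set.singleton_subset_iff.mpr htT)
  have hX : Cfsg.Agent.H16.CharTwoSub (Subgroup.centralizer ({t} : Set G)) := by
    rw [Cfsg.Agent.H16.charTwoSub_iff]
    have := hs t ht
    exact Cfsg.Agent.H77.centralizer_pCore_le 2 (hc t ht)
  exact (Cfsg.Agent.H16.charTwoSub_iff _).mp
    (Cfsg.Agent.H16.charTwoSub_normalizer hX hT hTC hCT)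

end Cfsg.Agent.S0505
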