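import Cfsg.Statements.S0518
import Cfsg.Agent.H30.ZN.Assembly
import Cfsg.Agent.H83.ZNLocal.Transfer

set_option autoImplicit false
open Cfsg

namespace Cfsg.Agent.S0518

/-- Let G be a finite group of characteristic 2 type with trivial 2-core in which every 2-local subgroup is solvable
and, for every Sylow 2-subgroup S, the centralizer of the set of central involutions of S lies in the normalizer of S.
Then either G has a strongly embedded subgroup, or the subgroup generated by the elements of odd order has two distinct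
maximal 2-local subgroups, each isomorphic to the symmetric group of degree 4, whose intersection has order 8. -/
theorem result {G : Type*} [Group G] [Finite G]
    (hL : Cfsg.IsCharacteristicTwoType G) (hO : Cfsg.pCore 2 G = ⊥)
    (hN : ∀ N : Subgroup G, Cfsg.IsTwoLocal N → Group.IsSolvable N)
    (hZ : ∀ S : Sylow 2 G,
      Subgroup.centralizer {z : G | z ∈ (S : Subgroup G) ∧ z ^ 2 = 1 ∧ ∀ s ∈ (S : Subgroup G), s * z = z * s} ≤
        Subgroup.normalizer ((S : Subgroup G) : Set G))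
    (H : Subgroup G) (hH : H = Subgroup.closure {g : G | Odd (orderOf g)}) :
    (∃ K : Subgroup G, Cfsg.IsStronglyEmbedded K) ∨
      ∃ M₁ M₂ : Subgroup H, M₁ ≠ M₂ ∧ Cfsg.IsMaximalTwoLocal M₁ ∧ Cfsg.IsMaximalTwoLocal M₂ ∧
        Nonempty (M₁ ≃* Equiv.Perm (Fin 4)) ∧ Nonempty (M₂ ≃* Equiv.Perm (Fin 4)) ∧ Nat.card ↥(M₁ ⊓ M₂) = 8 := by
  obtain hK | ⟨P₁, P₂, T, hne, hP₁, hP₂, hs₁, hs₂, hiso⟩ :=
    H30.ZN.stronglyEmbedded_or_straddle hL hO hN fun S => H30.ZN.centralizer_omegaCenter_le (hZ S)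
  · exact Or.inl hK
  right
  rcases hiso with ⟨⟨e₁⟩, ⟨e₂⟩⟩ | ⟨⟨e₁⟩, ⟨e₂⟩⟩
  · let X : H30.ZN.Two P₁ P₂ T :=
      ⟨H30.ZN.Cell.ofIso hP₁ e₁, H30.ZN.Cell.ofIso hP₂ e₂, hne, hs₁, hs₂⟩
    have hcard : Nat.card ↥P₁ = 3 * 2 ^ 3 := by
      rw [Nat.card_congr e₁.toEquiv, Nat.card_perm, Nat.card_fin]; rfl
    obtain ⟨h3, h8⟩ := H30.ZN.relIndex_eq_three (k := 8) hs₁ hcard (by norm_num)
    exact H30.ZN.exists_locals X hH (fun _ => rfl) (fun _ => rfl)
      (H30.ZN.inf_eq_of_relIndex X h3) (H30.ZN.card_inf_odd_of_card_eight X hH h8)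
  · let X : H30.ZN.Two P₁ P₂ T :=
      ⟨H30.ZN.Cell.ofIsoProd hP₁ e₁, H30.ZN.Cell.ofIsoProd hP₂ e₂, hne, hs₁, hs₂⟩
    have h48 : ∀ {P : Subgroup G}, (↥P ≃* Equiv.Perm (Fin 4) × Multiplicative (ZMod 2)) →
        Nat.card ↥P = 48 := fun e => by
      rw [Nat.card_congr e.toEquiv, Nat.card_prod, Nat.card_perm, Nat.card_fin]
      simp [Nat.factorial]
    have hnot : ∀ {Q₁ Q₂ : Subgroup G} (Y : H30.ZN.Two Q₁ Q₂ T), Y.C₁.c ≠ 1 →
        Nat.card ↥Q₁ = 48 → Y.C₁.c ∉ H := fun Y hY hQ => by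
      obtain ⟨z, hz, hP⟩ := H30.ZN.timesPair Y hY hQ
      rw [hH]
      exact H83.ZNLocal.notMem_odd hz hP
    have hc₁ : X.C₁.c ∉ H := hnot X (H30.ZN.Cell.ofIsoProd_c_ne hP₁ e₁) (h48 e₁)
    have hc₂ : X.C₂.c ∉ H := hnot X.swap (H30.ZN.Cell.ofIsoProd_c_ne hP₂ e₂) (h48 e₂)
    obtain ⟨h3, h16⟩ := H30.ZN.relIndex_eq_three (n := 4) (k := 16) hs₁
      (by rw [h48 e₁]; norm_num) (by norm_num)
    exact H30.ZN.exists_locals X hH (fun h => absurd h hc₁) (fun h => absurd h hc₂)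
      (H30.ZN.inf_eq_of_relIndex X h3) (H30.ZN.card_inf_odd_of_notMem X hH h16 hc₁)

end Cfsg.Agent.S0518
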