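import Cfsg.Statements.S0520
import Cfsg.Agent.H29.FourGroup

set_option autoImplicit false
open Cfsg

namespace Cfsg.Agent.S0520

open scoped Pointwise

/-- The image of `U` under conjugation by `g`. -/
def cj {G : Type*} [Group G] (g : G) (U : Subgroup G) : Subgroup G :=
  U.map (MulAut.conj g).toMonoidHom

variable {G : Type*} [Group G]

theorem mem_cj {g : G} {U : Subgroup G} {x : G} : x ∈ cj g U ↔ g⁻¹ * x * g ∈ U := by
  constructor
  · rintro ⟨y, hy, rfl⟩
    simpa [mul_assoc] using hy
  · intro h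
    exact ⟨g⁻¹ * x * g, h, by simp [mul_assoc]⟩

theorem cj_cj (g h : G) (U : Subgroup G) : cj g (cj h U) = cj (g * h) U := by
  ext x; simp [mem_cj, mul_assoc]

theorem cj_one (U : Subgroup G) : cj 1 U = U := by
  ext x; simp [mem_cj]

theorem cj_mono {g : G} {U V : Subgroup G} (h : U ≤ V) : cj g U ≤ cj g V :=
  Subgroup.map_mono h

theorem card_cj (g : G) (U : Subgroup G) : Nat.card (cj g U) = Nat.card U :=
  Nat.card_congr (U.equivMapOfInjective _ (MulAut.conj g).injective).toEquiv.symm

theorem isKleinFour_cj {g : G} {U : Subgroup G} (h : IsKleinFour U) : IsKleinFour (cj g U) :=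
  Cfsg.Agent.H29.isKleinFour_map _ (MulAut.conj g).injective h

theorem mem_normalizer_of_cj_eq {g : G} {U : Subgroup G} (h : cj g U = U) :
    g ∈ Subgroup.normalizer (U : Set G) := by
  rw [Subgroup.mem_normalizer_iff]
  intro x
  constructor
  · intro hx
    rw [← h, mem_cj]
    simpa [mul_assoc] using hx
  · intro hx
    have hx' : g * x * g⁻¹ ∈ cj g U := by rwa [h]
    simpa [mem_cj, mul_assoc] using hx'

theorem not_rank_le_one {Q U : Subgroup G} (hUQ : U ≤ Q) (hU : IsKleinFour U) :
    ¬ Cfsg.PRankLE 2 1 Q := by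
  intro h
  have hk := Cfsg.Agent.H29.isKleinFour_subgroupOf hUQ hU
  have := h (U.subgroupOf Q) IsKleinFour.isMulCommutative
    (fun a ha => Cfsg.Agent.H29.sq_eq_one_of_mem_kleinFour ha)
  rw [hk.card_four] at this
  omega

theorem exists_kleinFour_of_not_rank_le_one {H : Type*} [Group H] [Finite H]
    (h : ¬ Cfsg.PRankLE 2 1 H) : ∃ U : Subgroup H, IsKleinFour U := by
  unfold Cfsg.PRankLE at h
  push Not at h
  obtain ⟨A, hA, hA2, hA4⟩ := h
  obtain ⟨a, ha, ha1⟩ := Cfsg.Agent.H29.exists_ne_one_of_one_lt_card (A := A) (by omega)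
  obtain ⟨b, hb, hb1, hba⟩ := Cfsg.Agent.H29.exists_mem_ne_ne (A := A) (by omega) a
  have hab : a * b = b * a := congrArg Subtype.val (mul_comm' (⟨a, ha⟩ : A) ⟨b, hb⟩)
  exact ⟨_, Cfsg.Agent.H29.isKleinFour_fourSubgroup (hu := hA2 a ha) (hv := hA2 b hb)
    (huv := hab) ha1 hb1 (Ne.symm hba)⟩

/-- Within a subgroup containing the normalizers of the subgroups of `S` containing a
four-group, every `2`-subgroup meeting `S` in a four-group is conjugate into `S`. -/
theorem conj_into_sylow [Finite G] (S : Sylow 2 G) (Γ : Subgroup G)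
    (hΓ : ∀ Q : Subgroup G, ∀ U : Subgroup G, U ≤ Q → Q ≤ (S : Subgroup G) → IsKleinFour U →
      Subgroup.normalizer (Q : Set G) ≤ Γ) :
    ∀ k : ℕ, ∀ T U : Subgroup G, IsPGroup 2 T → U ≤ T → U ≤ (S : Subgroup G) → IsKleinFour U →
      Nat.card G ≤ k + Nat.card ↥(T ⊓ (S : Subgroup G)) →
      ∃ g ∈ Γ, cj g T ≤ (S : Subgroup G) := by
  intro k
  induction k with
  | zero =>
    intro T U hT hUT hUS hU hk
    rw [Nat.zero_add] at hk
    have h : T ⊓ (S : Subgroup G) = ⊤ := Subgroup.eq_top_of_le_card _ hk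
    refine ⟨1, one_mem _, ?_⟩
    rw [cj_one]
    exact le_trans le_top (h ▸ inf_le_right)
  | succ k ih =>
    intro T U hT hUT hUS hU hk
    by_cases hTS : T ≤ (S : Subgroup G)
    · exact ⟨1, one_mem _, by rwa [cj_one]⟩
    set D := T ⊓ (S : Subgroup G) with hD
    have hUD : U ≤ D := le_inf hUT hUS
    have hNΓ : Subgroup.normalizer (D : Set G) ≤ Γ := hΓ D U hUD inf_le_right hU
    -- normalizers grow inside the two 2-groups
    have grow : ∀ X : Subgroup G, IsPGroup 2 X → D < X →
        Nat.card D < Nat.card ↥(X ⊓ Subgroup.normalizer (D : Set G)) := by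
      intro X hX hDX
      have hnil : Group.IsNilpotent X := hX.isNilpotent
      have hlt : D.subgroupOf X < ⊤ := by
        rw [lt_top_iff_ne_top, ne_eq, Subgroup.subgroupOf_eq_top]
        exact hDX.not_ge
      have h2 := Group.normalizerCondition_of_isNilpotent (D.subgroupOf X) hlt
      have hle : D ≤ X ⊓ Subgroup.normalizer (D : Set G) := le_inf hDX.le Subgroup.le_normalizer
      refine lt_of_le_of_ne (Nat.le_of_dvd Nat.card_pos (Subgroup.card_dvd_of_le hle)) ?_
      intro heq
      have hDeq : D = X ⊓ Subgroup.normalizer (D : Set G) :=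
        Subgroup.eq_of_le_of_card_ge hle heq.ge
      apply h2.ne
      refine le_antisymm Subgroup.le_normalizer ?_
      intro x hx
      have hxN : (x : G) ∈ Subgroup.normalizer (D : Set G) := by
        rw [Subgroup.mem_normalizer_iff] at hx ⊢
        intro d
        constructor
        · intro hd
          have := (hx ⟨d, hDX.le hd⟩).mp hd
          exact this
        · intro hd
          have hdX : d ∈ X := by
            have := X.mul_mem (X.mul_mem (X.inv_mem x.2) (hDX.le hd)) x.2
            simpa [mul_assoc] using this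
          exact (hx ⟨d, hdX⟩).mpr hd
      rw [Subgroup.mem_subgroupOf, hDeq]
      exact ⟨x.2, hxN⟩
    have hDT : D < T := lt_of_le_of_ne inf_le_left (fun h => hTS (h ▸ inf_le_right))
    have hDS : D < (S : Subgroup G) := by
      refine lt_of_le_of_ne inf_le_right (fun h => hTS ?_)
      exact (S.is_maximal' hT (h ▸ inf_le_left)).le
    have hgT := grow T hT hDT
    have hgS := grow S S.isPGroup' hDS
    set N := Subgroup.normalizer (D : Set G) with hN
    obtain ⟨R, hR⟩ := IsPGroup.exists_le_sylow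
      (IsPGroup.of_equiv (S.isPGroup'.to_inf_left (K := N))
        (Subgroup.subgroupOfEquivOfLe (inf_le_right : (S : Subgroup G) ⊓ N ≤ N)).symm)
    obtain ⟨R', hR'⟩ := IsPGroup.exists_le_sylow
      (IsPGroup.of_equiv (hT.to_inf_left (K := N))
        (Subgroup.subgroupOfEquivOfLe (inf_le_right : T ⊓ N ≤ N)).symm)
    obtain ⟨n, hn⟩ := MulAction.exists_smul_eq N R' R
    have hnmem : ∀ x, ∀ hx : x ∈ T ⊓ N, cj (n : G) (Subgroup.zpowers x) ≤
        (R : Subgroup N).map N.subtype := by
      intro x hx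
      rw [cj, MonoidHom.map_zpowers, Subgroup.zpowers_le]
      refine ⟨n * ⟨x, hx.2⟩ * n⁻¹, ?_, by simp⟩
      have h1 : (⟨x, hx.2⟩ : N) ∈ (R' : Subgroup N) := hR' (Subgroup.mem_subgroupOf.mpr hx)
      have h2 : MulAut.conj n • (⟨x, hx.2⟩ : N) ∈ MulAut.conj n • (R' : Subgroup N) :=
        Subgroup.smul_mem_pointwise_smul _ _ _ h1
      rw [MulAut.smul_def, MulAut.conj_apply] at h2
      rw [← hn]
      exact h2
    let R₁ : Subgroup G := (R : Subgroup N).map N.subtype
    have hR₁ : IsPGroup 2 R₁ := R.isPGroup'.map N.subtype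
    have hUR₁ : U ≤ R₁ := fun x hx =>
      ⟨⟨x, Subgroup.le_normalizer (hUD hx)⟩,
        hR (Subgroup.mem_subgroupOf.mpr ⟨hUS hx, Subgroup.le_normalizer (hUD hx)⟩), rfl⟩
    have hbig : (S : Subgroup G) ⊓ N ≤ R₁ ⊓ (S : Subgroup G) := fun x hx =>
      ⟨⟨⟨x, hx.2⟩, hR (Subgroup.mem_subgroupOf.mpr hx), rfl⟩, hx.1⟩
    have hc1 := Nat.le_of_dvd Nat.card_pos (Subgroup.card_dvd_of_le hbig)
    obtain ⟨g, hg, hgR⟩ := ih R₁ U hR₁ hUR₁ hUS hU (by omega)
    -- the conjugate of `T` meets `S` in a larger group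
    set g' := g * (n : G) with hg'
    have hT' : IsPGroup 2 (cj g' T) := hT.map _
    have hsub : cj g' (T ⊓ N) ≤ cj g' T ⊓ (S : Subgroup G) := by
      refine le_inf (cj_mono inf_le_left) ?_
      intro y hy
      rw [mem_cj] at hy
      apply hgR
      rw [mem_cj]
      have := hnmem _ hy ⟨g'⁻¹ * y * g', Subgroup.mem_zpowers _, rfl⟩
      simpa [hg', R₁, mul_assoc] using this
    have hUT' : cj g' U ≤ cj g' T ⊓ (S : Subgroup G) :=
      (cj_mono (le_inf hUT (hUD.trans Subgroup.le_normalizer))).trans hsub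
    have hc2 := Nat.le_of_dvd Nat.card_pos (Subgroup.card_dvd_of_le hsub)
    rw [card_cj] at hc2
    obtain ⟨h, hh, hhT⟩ := ih (cj g' T) (cj g' U) hT' (hUT'.trans inf_le_left)
      (hUT'.trans inf_le_right) (isKleinFour_cj hU) (by omega)
    refine ⟨h * g', mul_mem hh (mul_mem hg (hNΓ n.2)), ?_⟩
    rwa [← cj_cj]

/-- Let G be a finite group of 2-rank at least 2 and S a Sylow 2-subgroup whose commuting graph of Klein four-subgroups is
connected. Then the commuting graph of Klein four-subgroups of G is disconnected if and only if the 2-generated core — the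
subgroup generated by the normalizers N_G(Q) of the subgroups Q of S that contain a Klein four-group — is a proper
subgroup of G. -/
theorem result {G : Type*} [Group G] [Finite G] (h2 : ¬ Cfsg.PRankLE 2 1 G)
    (S : Sylow 2 G) (hS : Cfsg.IsFourConnected (S : Subgroup G)) :
    ¬ Cfsg.IsFourConnected G ↔
      (⨆ Q : {Q : Subgroup G // Q ≤ (S : Subgroup G) ∧ ¬ Cfsg.PRankLE 2 1 Q},
          Subgroup.normalizer ((Q : Subgroup G) : Set G)) ≠ ⊤ := by
  classical
  set Γ := ⨆ Q : {Q : Subgroup G // Q ≤ (S : Subgroup G) ∧ ¬ Cfsg.PRankLE 2 1 Q},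
          Subgroup.normalizer ((Q : Subgroup G) : Set G) with hΓdef
  have hΓ : ∀ Q : Subgroup G, ∀ U : Subgroup G, U ≤ Q → Q ≤ (S : Subgroup G) → IsKleinFour U →
      Subgroup.normalizer (Q : Set G) ≤ Γ := fun Q U hUQ hQS hU =>
    le_iSup (fun Q : {Q : Subgroup G // Q ≤ (S : Subgroup G) ∧ ¬ Cfsg.PRankLE 2 1 Q} =>
      Subgroup.normalizer ((Q : Subgroup G) : Set G)) ⟨Q, hQS, not_rank_le_one hUQ hU⟩
  let r : Subgroup G → Subgroup G → Prop := fun A B =>
    IsKleinFour A ∧ IsKleinFour B ∧ ∀ a ∈ A, ∀ b ∈ B, a * b = b * a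
  have hsymm : ∀ {A B : Subgroup G}, Relation.ReflTransGen r A B → Relation.ReflTransGen r B A := by
    intro A B hAB
    induction hAB with
    | refl => exact Relation.ReflTransGen.refl
    | tail _ hbc ih =>
      exact Relation.ReflTransGen.head
        ⟨hbc.2.1, hbc.1, fun a ha b hb => (hbc.2.2 b hb a ha).symm⟩ ih
  have rcj : ∀ (g : G) {A B : Subgroup G}, Relation.ReflTransGen r A B →
      Relation.ReflTransGen r (cj g A) (cj g B) := fun g A B hAB =>
    hAB.lift (fun U => cj g U) (fun C D hCD => ⟨isKleinFour_cj hCD.1, isKleinFour_cj hCD.2.1,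
      fun a ha b hb => by
        obtain ⟨a', ha', rfl⟩ := ha
        obtain ⟨b', hb', rfl⟩ := hb
        rw [← map_mul, ← map_mul, hCD.2.2 a' ha' b' hb']⟩)
  -- four-subgroups of S
  obtain ⟨U₁, hU₁⟩ := exists_kleinFour_of_not_rank_le_one h2
  obtain ⟨P, hP⟩ := IsPGroup.exists_le_sylow
    (p := 2) (IsPGroup.of_card (n := 2) (by rw [hU₁.card_four]; norm_num) : IsPGroup 2 U₁)
  obtain ⟨g₀, hg₀⟩ := MulAction.exists_smul_eq G P S
  have hg₀' : ∀ x ∈ (P : Subgroup G), g₀ * x * g₀⁻¹ ∈ (S : Subgroup G) := fun x hx => by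
    rw [← hg₀, Sylow.smul_def]
    exact Subgroup.smul_mem_pointwise_smul _ (MulAut.conj g₀) _ hx
  have hU₀S : cj g₀ U₁ ≤ (S : Subgroup G) := fun x hx => by
    rw [mem_cj] at hx
    simpa [mul_assoc] using hg₀' _ (hP hx)
  have hU₀ : IsKleinFour (cj g₀ U₁) := isKleinFour_cj hU₁
  -- connectedness inside S
  have hSconn : ∀ A B : Subgroup G, A ≤ (S : Subgroup G) → B ≤ (S : Subgroup G) →
      IsKleinFour A → IsKleinFour B → Relation.ReflTransGen r A B := by
    intro A B hA hB kA kB
    have := (hS _ _ (Cfsg.Agent.H29.isKleinFour_subgroupOf hA kA)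
      (Cfsg.Agent.H29.isKleinFour_subgroupOf hB kB)).lift (fun U => U.map (S : Subgroup G).subtype)
      (p := r) (fun C D hCD => ⟨Cfsg.Agent.H29.isKleinFour_map _ Subtype.val_injective hCD.1,
        Cfsg.Agent.H29.isKleinFour_map _ Subtype.val_injective hCD.2.1, fun a ha b hb => by
          obtain ⟨a', ha', rfl⟩ := ha
          obtain ⟨b', hb', rfl⟩ := hb
          rw [← map_mul, ← map_mul, hCD.2.2 a' ha' b' hb']⟩)
    simpa [Function.onFun, Subgroup.map_subgroupOf_eq_of_le hA, Subgroup.map_subgroupOf_eq_of_le hB] using this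
  constructor
  · intro hdis htop
    apply hdis
    -- the stabilizer of the component
    let M : Subgroup G :=
      { carrier := {g | Relation.ReflTransGen r (cj g (cj g₀ U₁)) (cj g₀ U₁)}
        one_mem' := by simp [cj_one, Relation.ReflTransGen.refl]
        mul_mem' := fun {a b} ha hb => by
          show Relation.ReflTransGen r _ _
          rw [← cj_cj]
          exact (rcj a hb).trans ha
        inv_mem' := fun {a} ha => by
          show Relation.ReflTransGen r _ _
          have := hsymm (rcj a⁻¹ ha)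
          rwa [cj_cj a⁻¹ a, inv_mul_cancel, cj_one] at this }
    have hM : Γ ≤ M := by
      rw [hΓdef]
      refine iSup_le fun Q g hg => ?_
      obtain ⟨U, hU⟩ := exists_kleinFour_of_not_rank_le_one Q.2.2
      let U' := U.map (Q : Subgroup G).subtype
      have hU' : IsKleinFour U' := Cfsg.Agent.H29.isKleinFour_map _ Subtype.val_injective hU
      have hU'Q : U' ≤ (Q : Subgroup G) := Subgroup.map_subtype_le U
      have hgU' : cj g U' ≤ (S : Subgroup G) := fun x hx => by
        rw [mem_cj] at hx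
        have := (Subgroup.mem_normalizer_iff.mp hg _).mp (hU'Q hx)
        exact Q.2.1 (by simpa [mul_assoc] using this)
      exact (rcj g (hSconn _ U' hU₀S (hU'Q.trans Q.2.1) hU₀ hU')).trans
        (hSconn _ _ hgU' hU₀S (isKleinFour_cj hU') hU₀)
    suffices key : ∀ V : Subgroup G, IsKleinFour V → Relation.ReflTransGen r V (cj g₀ U₁) by
      intro U V hU hV
      exact (key U hU).trans (hsymm (key V hV))
    intro V hV
    obtain ⟨P', hP'⟩ := IsPGroup.exists_le_sylow
      (p := 2) (IsPGroup.of_card (n := 2) (by rw [hV.card_four]; norm_num) : IsPGroup 2 V)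
    obtain ⟨g, hg⟩ := MulAction.exists_smul_eq G P' S
    have hg' : ∀ x ∈ (P' : Subgroup G), g * x * g⁻¹ ∈ (S : Subgroup G) := fun x hx => by
      rw [← hg, Sylow.smul_def]
      exact Subgroup.smul_mem_pointwise_smul _ (MulAut.conj g) _ hx
    have hgV : cj g V ≤ (S : Subgroup G) := fun x hx => by
      rw [mem_cj] at hx
      simpa [mul_assoc] using hg' _ (hP' hx)
    have h1 := rcj g⁻¹ (hSconn _ _ hgV hU₀S (isKleinFour_cj hV) hU₀)
    rw [cj_cj, inv_mul_cancel, cj_one] at h1
    exact h1.trans (hM (htop ▸ Subgroup.mem_top g⁻¹))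
  · intro hne hconn
    apply hne
    rw [eq_top_iff]
    intro g _
    -- every four-subgroup is conjugate into S under Γ
    have prop : ∀ V : Subgroup G, Relation.ReflTransGen r (cj g₀ U₁) V →
        ∃ k ∈ Γ, cj k V ≤ (S : Subgroup G) := by
      intro V hV
      induction hV with
      | refl => exact ⟨1, one_mem _, by rwa [cj_one]⟩
      | @tail A B _ hAB ih =>
        obtain ⟨k, hk, hkA⟩ := ih
        obtain ⟨kA, kB, hcomm⟩ := hAB
        let W : Subgroup G := cj k A ⊔ cj k B
        have hW : IsPGroup 2 W := by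
          have hc : cj k B ≤ Subgroup.normalizer (cj k A : Set G) := by
            intro b hb
            obtain ⟨b', hb', rfl⟩ := hb
            apply mem_normalizer_of_cj_eq
            ext x
            rw [mem_cj, mem_cj, mem_cj]
            have e : ∀ y ∈ A, b'⁻¹ * y * b' = y ∧ b' * y * b'⁻¹ = y := fun y hy => by
              constructor
              · rw [mul_assoc, hcomm y hy b' hb', inv_mul_cancel_left]
              · rw [← hcomm y hy b' hb', mul_inv_cancel_right]
            have e1 : k⁻¹ * (((MulAut.conj k).toMonoidHom b')⁻¹ * x *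
                (MulAut.conj k).toMonoidHom b') * k = b'⁻¹ * (k⁻¹ * x * k) * b' := by
              simp [mul_assoc]
            rw [e1]
            constructor
            · intro h
              have := (e _ h).2
              simp only [mul_assoc, mul_inv_cancel_left, mul_inv_cancel, mul_one] at this h ⊢
              rwa [this]
            · intro h
              rw [(e _ h).1]
              exact h
          exact IsPGroup.to_sup_of_normal_left'
            (IsPGroup.of_card (n := 2) (by rw [(isKleinFour_cj (g := k) kA).card_four]; norm_num))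
            (IsPGroup.of_card (n := 2) (by rw [(isKleinFour_cj (g := k) kB).card_four]; norm_num))
            hc
        obtain ⟨g', hg', hg'W⟩ := conj_into_sylow S Γ hΓ (Nat.card G) W (cj k A) hW
          le_sup_left hkA (isKleinFour_cj kA) (Nat.le_add_right _ _)
        refine ⟨g' * k, mul_mem hg' hk, ?_⟩
        rw [← cj_cj]
        exact (cj_mono le_sup_right).trans hg'W
    obtain ⟨h, hh, hhV⟩ := prop _ (hconn _ (cj g (cj g₀ U₁)) hU₀ (isKleinFour_cj hU₀))
    rw [cj_cj] at hhV
    obtain ⟨k, hk, hkT⟩ := conj_into_sylow S Γ hΓ (Nat.card G) (cj (h * g) (S : Subgroup G))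
      (cj (h * g) (cj g₀ U₁)) (S.isPGroup'.map _) (cj_mono hU₀S) hhV (isKleinFour_cj hU₀)
      (Nat.le_add_right _ _)
    rw [cj_cj] at hkT
    have heq : cj (k * (h * g)) (S : Subgroup G) = (S : Subgroup G) :=
      Subgroup.eq_of_le_of_card_ge hkT (card_cj _ _).ge
    have hmem : k * (h * g) ∈ Γ :=
      hΓ (S : Subgroup G) (cj g₀ U₁) hU₀S le_rfl hU₀ (mem_normalizer_of_cj_eq heq)
    have := mul_mem (inv_mem hh) (mul_mem (inv_mem hk) hmem)
    simpa [mul_assoc] using this

end Cfsg.Agent.S0520
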