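import Cfsg.Statements.S0521
import Cfsg.Agent.H29.OddStability
import Cfsg.Agent.H19.Fitting
-- import your own Cfsg.Agent.* helpers here

set_option autoImplicit false
open Cfsg
open scoped commutatorElement

namespace Cfsg.Agent.S0521

/-- Let X be a finite solvable group of odd order, p a prime and S a Sylow p-subgroup of X whose commutator subgroup is
cyclic. Then the product of the largest normal subgroup of X of order prime to p with S is a normal subgroup of X. -/
theorem result {X : Type*} [Group X] [Finite X] [Group.IsSolvable X]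
    (hX : Odd (Nat.card X)) (p : ℕ) [Fact p.Prime] (S : Sylow p X) (hS : IsCyclic (commutator (S : Subgroup X))) :
    (Cfsg.pPrimeCore p X ⊔ (S : Subgroup X)).Normal := by
  classical
  have hp : p.Prime := Fact.out
  have hOn := H19.pPrimeCore_normal p X
  set O := Cfsg.pPrimeCore p X with hO
  set π := QuotientGroup.mk' O with hπ
  have hπs : Function.Surjective π := QuotientGroup.mk'_surjective _
  let S' := S.mapSurjective (f := π) hπs
  have hsolv : Group.IsSolvable (X ⧸ O) := Group.isSolvable_of_surjective hπs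
  have hC := H53.centralizer_pCore_le (G := X ⧸ O) (p := p) (H53.pPrimeCore_quotient_eq_bot p)
  have hPn := H19.pCore_normal p (X ⧸ O)
  obtain ⟨g, hg⟩ := hS.exists_generator
  have hle : (S' : Subgroup (X ⧸ O)) ≤ Cfsg.pCore p (X ⧸ O) := by
    intro s' hs'
    refine H29.mem_pCore_of_quadratic (hX.of_dvd_nat (Subgroup.card_quotient_dvd_card _)) hC s' ?_
    intro v' hv'
    rw [Sylow.coe_mapSurjective] at hs'
    obtain ⟨s, hs, rfl⟩ := hs'
    have hvS := H19.pCore_le_sylow S' hv'
    rw [Sylow.coe_mapSurjective] at hvS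
    obtain ⟨v, hv, rfl⟩ := hvS
    let s₀ : ↥(S : Subgroup X) := ⟨s, hs⟩
    let v₀ : ↥(S : Subgroup X) := ⟨v, hv⟩
    -- the action of `s` on the cyclic group `S'` is congruent to one modulo `p`
    have hmem : ∀ a : ↥(S : Subgroup X), a * (g : ↥(S : Subgroup X)) * a⁻¹ ∈ commutator ↥(S : Subgroup X) :=
      fun a => Subgroup.Normal.conj_mem inferInstance _ g.2 a
    obtain ⟨k, hk⟩ := mem_powers_iff_mem_zpowers.mpr (hg ⟨_, hmem s₀⟩)
    have hk' : s₀ * (g : ↥(S : Subgroup X)) * s₀⁻¹ = (g : ↥(S : Subgroup X)) ^ k := by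
      have := congrArg Subtype.val hk
      simpa using this.symm
    have hiter : ∀ n : ℕ, s₀ ^ n * (g : ↥(S : Subgroup X)) * (s₀ ^ n)⁻¹ =
        (g : ↥(S : Subgroup X)) ^ (k ^ n) := by
      intro n
      induction n with
      | zero => simp
      | succ n ih =>
        calc s₀ ^ (n + 1) * (g : ↥(S : Subgroup X)) * (s₀ ^ (n + 1))⁻¹
            = s₀ * (s₀ ^ n * (g : ↥(S : Subgroup X)) * (s₀ ^ n)⁻¹) * s₀⁻¹ := by
              rw [pow_succ']; group
          _ = _ := by rw [ih, ← conj_pow, hk', ← pow_mul, pow_succ']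
    obtain ⟨n, hn⟩ := mem_powers_iff_mem_zpowers.mpr (hg ⟨⁅s₀, v₀⁆, by
      rw [commutator_def]
      exact Subgroup.commutator_mem_commutator (Subgroup.mem_top _) (Subgroup.mem_top _)⟩)
    have hn' : ⁅s₀, v₀⁆ = (g : ↥(S : Subgroup X)) ^ n := by
      have := congrArg Subtype.val hn
      simpa using this.symm
    set c := ⁅s₀, v₀⁆ with hc
    have hcdef : ((c : ↥(S : Subgroup X)) : X) = s * v * s⁻¹ * v⁻¹ := by
      simp [hc, commutatorElement_def, s₀, v₀]
    obtain ⟨j, hj⟩ : ∃ j : ℕ, s₀ * c * s₀⁻¹ * c⁻¹ = (c ^ j) ^ p := by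
      rcases eq_or_ne (g : ↥(S : Subgroup X)) 1 with hg1 | hg1
      · exact ⟨0, by simp [hn', hg1]⟩
      have hsc : s₀ * c * s₀⁻¹ = c ^ k := by
        rw [hn', ← conj_pow, hk', ← pow_mul, ← pow_mul, mul_comm]
      obtain ⟨m, hm⟩ := S.isPGroup' s₀
      obtain ⟨l, hl⟩ := IsPGroup.iff_orderOf.mp S.isPGroup' (g : ↥(S : Subgroup X))
      have h1 := hiter (p ^ m)
      rw [hm] at h1
      simp only [one_mul, inv_one, mul_one] at h1
      have h2 : (k ^ p ^ m) ≡ 1 [MOD p] := by
        refine Nat.ModEq.of_dvd ?_ (pow_eq_pow_iff_modEq.mp (h1.symm.trans (pow_one _).symm))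
        rw [hl]
        refine dvd_pow_self p ?_
        rintro rfl
        rw [pow_zero, orderOf_eq_one_iff] at hl
        exact hg1 hl
      have h3 : (k : ZMod p) = 1 := by
        have := (ZMod.natCast_eq_natCast_iff _ _ p).mpr h2
        push_cast at this
        rwa [ZMod.pow_card_pow] at this
      have h4 : k % p = 1 := by
        have := congrArg ZMod.val h3
        rwa [ZMod.val_natCast, ZMod.val_one] at this
      refine ⟨k / p, ?_⟩
      rw [hsc, ← pow_mul, mul_inv_eq_iff_eq_mul, ← pow_succ]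
      congr 1
      have := Nat.div_add_mod k p
      rw [h4] at this
      linarith [this]
    have hcP : π (c : X) ∈ Cfsg.pCore p (X ⧸ O) := by
      rw [hcdef, map_mul, map_mul, map_mul, map_inv, map_inv]
      exact mul_mem (hPn.conj_mem _ hv' _) (inv_mem hv')
    refine ⟨(⟨π (c : X), hcP⟩ ^ j) ^ p, H24.pow_mem_frattini (H19.pCore_isPGroup p) _, ?_⟩
    have := congrArg (fun z : ↥(S : Subgroup X) => π (z : X)) hj
    simp only [Subgroup.coe_mul, Subgroup.coe_inv, SubmonoidClass.coe_pow, map_mul, map_inv, map_pow] at this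
    simp only [Subgroup.coe_subtype, SubmonoidClass.coe_pow]
    rw [← this]
    simp [hcdef, s₀]
  have heq : (O ⊔ (S : Subgroup X)) = (Cfsg.pCore p (X ⧸ O)).comap π := by
    rw [← le_antisymm hle (H19.pCore_le_sylow S'), Sylow.coe_mapSurjective,
      Subgroup.comap_map_eq, hπ, QuotientGroup.ker_mk', sup_comm]
  rw [heq]
  exact hPn.comap π

end Cfsg.Agent.S0521
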