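import Cfsg.Statements.S0522
import Cfsg.Agent.H54.Transitivity
import Cfsg.Agent.H53.PConstrained
import Cfsg.Agent.H51.PConstrained
-- import your own Cfsg.Agent.* helpers here

set_option autoImplicit false
open Cfsg

namespace Cfsg.Agent.S0522

/-- Transitivity Theorem (odd-order setting). Let X be a finite group of odd order in which the normalizer of every
nontrivial p-subgroup is solvable, P a Sylow p-subgroup, and B an abelian subgroup of P, normalized by P, with
C_P(B) = B and containing an elementary abelian subgroup of order p^3. Then for every prime q ≠ p, any two q-subgroups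
that are maximal among the q-subgroups normalized by B are conjugate by an element of the centralizer of B. -/
theorem result {X : Type*} [Group X] [Finite X] (hX : Odd (Nat.card X)) (p : ℕ)
    [Fact p.Prime] (hloc : ∀ T : Subgroup X, IsPGroup p T → T ≠ ⊥ → Group.IsSolvable (Subgroup.normalizer (T : Set X)))
    (P : Sylow p X) (B : Subgroup X) (hBP : B ≤ (P : Subgroup X))
    (hBn : ∀ x ∈ (P : Subgroup X), ∀ b ∈ B, x * b * x⁻¹ ∈ B) (hBa : IsMulCommutative B)
    (hBc : (P : Subgroup X) ⊓ Subgroup.centralizer (B : Set X) = B)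
    (hB3 : ∃ E : Subgroup X, E ≤ B ∧ (∀ e ∈ E, e ^ p = 1) ∧ p ^ 3 ≤ Nat.card E)
    (q : ℕ) [Fact q.Prime] (hqp : q ≠ p) (Q₁ Q₂ : Subgroup X)
    (h₁ : IsPGroup q Q₁ ∧ B ≤ Subgroup.normalizer (Q₁ : Set X) ∧
      ∀ R : Subgroup X, IsPGroup q R → B ≤ Subgroup.normalizer (R : Set X) → Q₁ ≤ R → R = Q₁)
    (h₂ : IsPGroup q Q₂ ∧ B ≤ Subgroup.normalizer (Q₂ : Set X) ∧
      ∀ R : Subgroup X, IsPGroup q R → B ≤ Subgroup.normalizer (R : Set X) → Q₂ ≤ R → R = Q₂) :
    ∃ c ∈ Subgroup.centralizer (B : Set X), Q₂ = Q₁.map (MulAut.conj c).toMonoidHom := by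
  have hlocC : ∀ T : Subgroup X, IsPGroup p T → T ≠ ⊥ →
      Cfsg.IsPConstrained p ↥(Subgroup.normalizer (T : Set X)) := by
    intro T hT hT1
    haveI := hloc T hT hT1
    rw [H51.isPConstrained_iff_centralizer_pCore_le]
    exact H53.centralizer_pCore_le (H53.pPrimeCore_quotient_eq_bot p)
  obtain ⟨E, hEB, hEp, hE3⟩ := hB3
  have hp : p.Prime := Fact.out
  have hBp : IsPGroup p B := P.isPGroup'.to_le hBP
  have hrank : ¬ Cfsg.PRankLE p 2 B := by
    intro h
    have hc : Nat.card (E.subgroupOf B) = Nat.card E :=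
      Nat.card_congr (Subgroup.subgroupOfEquivOfLe hEB).toEquiv
    haveI := hBa
    have h2 := h (E.subgroupOf B) inferInstance fun e he =>
      Subtype.ext (by simpa using hEp _ (Subgroup.mem_subgroupOf.mp he))
    rw [hc] at h2
    have : p ^ 2 < p ^ 3 := Nat.pow_lt_pow_right hp.one_lt (by norm_num)
    omega
  have h2 : p = 2 → ∀ S : Sylow p X, Group.IsNilpotent (S : Subgroup X) ∧
      Group.nilpotencyClass (S : Subgroup X) ≤ 2 := by
    rintro rfl
    intro S
    exfalso
    obtain ⟨k, hk⟩ := S.isPGroup'.exists_card_eq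
    have hdvd : 2 ^ k ∣ Nat.card X := hk ▸ Subgroup.card_subgroup_dvd_card _
    have hle : Nat.card E ≤ 2 ^ k := by
      obtain ⟨g, hg⟩ := MulAction.exists_smul_eq X P S
      rw [← hk, Sylow.card_eq_multiplicity, ← Sylow.card_eq_multiplicity P]
      exact Nat.le_of_dvd Nat.card_pos (Subgroup.card_dvd_of_le (hEB.trans hBP))
    have : (2 : ℕ) ∣ Nat.card X := by
      refine dvd_trans (dvd_pow_self 2 ?_) hdvd
      rintro rfl
      omega
    exact (Nat.not_even_iff_odd.mpr hX) (even_iff_two_dvd.mpr this)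
  -- `B` contains every `p`-element of its centraliser
  have hfull : ∀ x ∈ Subgroup.centralizer (B : Set X), IsPGroup p (Subgroup.zpowers x) → x ∈ B := by
    intro x hx hxp
    haveI := hBa
    set C := Subgroup.centralizer (B : Set X) with hC
    have hBC : B ≤ C := Subgroup.le_centralizer B
    set N := Subgroup.normalizer (B : Set X) with hN
    have hPN : (P : Subgroup X) ≤ N := by
      intro y hy
      rw [hN, Subgroup.mem_normalizer_iff]
      refine fun z => ⟨hBn y hy z, fun hz => ?_⟩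
      have := hBn y⁻¹ (inv_mem hy) _ hz
      simpa [mul_assoc] using this
    have hCN : C ≤ N := fun y hy => by
      rw [hN, Subgroup.mem_normalizer_iff]
      intro z
      constructor
      · intro hz
        rw [← Subgroup.mem_centralizer_iff.mp hy z hz, mul_inv_cancel_right]
        exact hz
      · intro hz
        have h1 := Subgroup.mem_centralizer_iff.mp hy _ hz
        rw [inv_mul_cancel_right, mul_right_inj] at h1
        exact h1 ▸ hz
    have hxC : IsPGroup p (Subgroup.zpowers x) := hxp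
    obtain ⟨T, hT⟩ := ((hxp.comap_subtype : IsPGroup p
      ((Subgroup.zpowers x).comap N.subtype))).exists_le_sylow
    obtain ⟨n, hn⟩ := MulAction.exists_smul_eq N T (P.subtype hPN)
    have hxN : x ∈ N := hCN hx
    have hxT : (⟨x, hxN⟩ : N) ∈ T := hT (Subgroup.mem_comap.mpr (Subgroup.mem_zpowers x))
    have h1 : n * ⟨x, hxN⟩ * n⁻¹ ∈ (P.subtype hPN : Subgroup N) := by
      rw [← hn, Sylow.coe_subgroup_smul, Subgroup.mem_pointwise_smul_iff_inv_smul_mem]
      simp [MulAut.smul_def, mul_assoc]; exact hxT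
    have h1' : (n : X) * x * (n : X)⁻¹ ∈ (P : Subgroup X) := Subgroup.mem_subgroupOf.mp h1
    have h2' : (n : X) * x * (n : X)⁻¹ ∈ C := by
      rw [hC, Subgroup.mem_centralizer_iff]
      intro b hb
      have hb' : (n : X)⁻¹ * b * (n : X) ∈ B := by
        have := (Subgroup.mem_normalizer_iff.mp (inv_mem n.2 : (n : X)⁻¹ ∈ N) b).mp hb
        simpa using this
      have := Subgroup.mem_centralizer_iff.mp hx _ hb'
      calc b * ((n : X) * x * (n : X)⁻¹) = n * (((n : X)⁻¹ * b * n) * x) * (n : X)⁻¹ := by group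
        _ = n * (x * ((n : X)⁻¹ * b * n)) * (n : X)⁻¹ := by rw [this]
        _ = (n : X) * x * (n : X)⁻¹ * b := by group
    have h3 : (n : X) * x * (n : X)⁻¹ ∈ B := hBc ▸ Subgroup.mem_inf.mpr ⟨h1', h2'⟩
    exact (Subgroup.mem_normalizer_iff.mp n.2 x).mpr h3
  have hmax : ∀ Q : Subgroup X, (IsPGroup q Q ∧ B ≤ Subgroup.normalizer (Q : Set X) ∧
      ∀ R : Subgroup X, IsPGroup q R → B ≤ Subgroup.normalizer (R : Set X) → Q ≤ R → R = Q) →
      Q ∈ Cfsg.maxInvSubgroups ⊤ B {q} := fun Q hQ =>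
    ⟨⟨le_top, H55.piDvd_singleton_iff.2 hQ.1, hQ.2.1⟩, fun R hR hQR =>
      hQ.2.2 R (H55.piDvd_singleton_iff.1 hR.2.1) hR.2.2 hQR⟩
  obtain ⟨k, hk, hQ⟩ := H54.transitivity_of_pConstrained_locals hlocC h2 B hBp hBa hrank hfull q hqp
    Q₁ (hmax _ h₁) Q₂ (hmax _ h₂)
  exact ⟨k, Cfsg.Agent.H55.piCoreOf_le _ _ hk, hQ⟩

end Cfsg.Agent.S0522
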