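import Cfsg.Statements.S0528
import Cfsg.Agent.H32.SupersolvableStructure

set_option autoImplicit false
open Cfsg

namespace Cfsg.Agent.S0528

/-- An extension of a cyclic normal subgroup by a supersolvable group is supersolvable: if N is a cyclic normal subgroup of a finite group G and G modulo N is supersolvable, then G is supersolvable. -/
theorem result {G : Type*} [Group G] [Finite G] (N : Subgroup G) [N.Normal] [IsCyclic N] (h : Cfsg.IsSupersolvable (G ⧸ N)) : Cfsg.IsSupersolvable G := by
  exact Cfsg.Agent.H32.isSupersolvable_of_cyclic_normal N h

end Cfsg.Agent.S0528
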