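import Cfsg.Statements.S0529
import Cfsg.Agent.H32.SupersolvableStructure

set_option autoImplicit false
open Cfsg

namespace Cfsg.Agent.S0529

/-- A finite supersolvable group has a chain of normal subgroups, from the trivial subgroup to the whole group, in which every step has prime index and the primes occurring are non-increasing as one goes up the chain. -/
theorem result {G : Type*} [Group G] [Finite G] (hG : Cfsg.IsSupersolvable G) : ∃ (n : ℕ) (H : Fin (n + 1) → Subgroup G), H 0 = ⊥ ∧ H (Fin.last n) = ⊤ ∧ (∀ i, (H i).Normal) ∧ (∀ i : Fin n, H i.castSucc ≤ H i.succ ∧ ((H i.castSucc).relIndex (H i.succ)).Prime) ∧ ∀ i j : Fin n, i ≤ j → (H j.castSucc).relIndex (H j.succ) ≤ (H i.castSucc).relIndex (H i.succ) := by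
  induction hn : Nat.card G using Nat.strong_induction_on generalizing G with
  | _ m ih =>
    cases subsingleton_or_nontrivial G
    · exact ⟨0, fun _ => ⊥, rfl, Subsingleton.elim _ _, fun _ => inferInstance, fun i => i.elim0,
        fun i => i.elim0⟩
    have hne : (Nat.card G).primeFactors.Nonempty :=
      Nat.nonempty_primeFactors.mpr Finite.one_lt_card
    let p := (Nat.card G).primeFactors.max' hne
    have hmem : p ∈ (Nat.card G).primeFactors := Finset.max'_mem _ _
    have hp : p.Prime := Nat.prime_of_mem_primeFactors hmem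
    have hmax : ∀ q : ℕ, q.Prime → q ∣ Nat.card G → q ≤ p := fun q hq hqd =>
      Finset.le_max' _ _ (hq.mem_primeFactors hqd Nat.card_pos.ne')
    obtain ⟨N, hN, hNc⟩ := Cfsg.Agent.H32.exists_normal_card_largest hG hp
      (Nat.dvd_of_mem_primeFactors hmem) hmax
    have hNb : N ≠ ⊥ := Cfsg.Agent.H32.ne_bot_of_card_prime (hNc.symm ▸ hp)
    obtain ⟨k, H, h0, h1, hn', hs, hd⟩ := ih _ (hn ▸ Cfsg.Agent.H32.card_quotient_lt N hNb)
      (Cfsg.Agent.H32.isSupersolvable_quotient N hG) rfl
    have hrel : ∀ i : Fin k, ((H i.castSucc).comap (QuotientGroup.mk' N)).relIndex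
        ((H i.succ).comap (QuotientGroup.mk' N)) = (H i.castSucc).relIndex (H i.succ) := by
      intro i
      rw [Subgroup.relIndex_comap,
        Subgroup.map_comap_eq_self_of_surjective (QuotientGroup.mk'_surjective N)]
    have hbot : (H 0).comap (QuotientGroup.mk' N) = N := by
      rw [h0, MonoidHom.comap_bot, QuotientGroup.ker_mk']
    let H' : Fin (k + 2) → Subgroup G := Fin.cons ⊥ fun i => (H i).comap (QuotientGroup.mk' N)
    have e0 : H' (0 : Fin (k + 1)).castSucc = ⊥ := rfl
    have e1 : H' (0 : Fin (k + 1)).succ = N := hbot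
    have eS : ∀ i : Fin (k + 1), H' i.succ = (H i).comap (QuotientGroup.mk' N) := fun i => rfl
    have eC : ∀ i : Fin k, H' i.succ.castSucc = (H i.castSucc).comap (QuotientGroup.mk' N) :=
      fun i => rfl
    refine ⟨k + 1, H', rfl, ?_, ?_, ?_, ?_⟩
    · rw [← Fin.succ_last, eS, h1, Subgroup.comap_top]
    · intro i
      induction i using Fin.cases with
      | zero => exact inferInstanceAs (⊥ : Subgroup G).Normal
      | succ i => exact (hn' i).comap _
    · intro i
      induction i using Fin.cases with
      | zero =>
        rw [e0, e1, Subgroup.relIndex_bot_left, hNc]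
        exact ⟨bot_le, hp⟩
      | succ i =>
        rw [eC, eS, hrel]
        exact ⟨Subgroup.comap_mono (hs i).1, (hs i).2⟩
    · intro i j hij
      induction j using Fin.cases with
      | zero =>
        rw [le_antisymm hij (Fin.zero_le i)]
      | succ j =>
        induction i using Fin.cases with
        | zero =>
          rw [eC, eS, hrel, e0, e1, Subgroup.relIndex_bot_left, hNc]
          refine hmax _ (hs j).2 ?_
          exact ((Subgroup.relIndex_dvd_card _ _).trans (Subgroup.card_subgroup_dvd_card _)).trans
            (Subgroup.card_quotient_dvd_card N)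
        | succ i =>
          rw [eC, eS, hrel, eC, eS, hrel]
          exact hd i j (Fin.succ_le_succ_iff.mp hij)

end Cfsg.Agent.S0529
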