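import Cfsg.Statements.S0530
import Cfsg.Agent.H32.SupersolvableStructure

set_option autoImplicit false
open Cfsg

namespace Cfsg.Agent.S0530

/-- A finite group whose order is twice a prime power is supersolvable. -/
theorem result {G : Type*} [Group G] [Finite G] (p n : ℕ) (hp : p.Prime) (hG : Nat.card G = 2 * p ^ n) : Cfsg.IsSupersolvable G := by
  induction n generalizing G with
  | zero =>
    have : Fact (Nat.Prime 2) := ⟨Nat.prime_two⟩
    exact Cfsg.Agent.H32.isSupersolvable_of_isPGroup
      (IsPGroup.of_card (n := 1) (by rw [hG]; norm_num) : IsPGroup 2 G)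
  | succ n ih =>
    rcases eq_or_ne p 2 with rfl | hp2
    · have : Fact (Nat.Prime 2) := ⟨hp⟩
      exact Cfsg.Agent.H32.isSupersolvable_of_isPGroup
        (IsPGroup.of_card (n := n + 2) (by rw [hG]; ring) : IsPGroup 2 G)
    have : Fact p.Prime := ⟨hp⟩
    obtain ⟨P⟩ := (inferInstance : Nonempty (Sylow p G))
    have hPc : Nat.card (P : Subgroup G) = p ^ (n + 1) := by
      rw [P.card_eq_multiplicity, hG, Nat.factorization_mul two_ne_zero (pow_ne_zero _ hp.ne_zero),
        Finsupp.add_apply, Nat.prime_two.factorization, hp.factorization_pow]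
      simp [hp2.symm]
    have hPi : (P : Subgroup G).index = 2 := by
      have := Subgroup.card_mul_index (P : Subgroup G)
      rw [hPc, hG, mul_comm 2] at this
      exact Nat.eq_of_mul_eq_mul_left (pow_pos hp.pos _) this
    have hPn : (P : Subgroup G).Normal := Subgroup.normal_of_index_eq_two hPi
    have hP0 : (⊤ : Subgroup (P : Subgroup G)) ≠ ⊥ := by
      have : Nontrivial (P : Subgroup G) := Finite.one_lt_card_iff_nontrivial.mp
        (by rw [hPc]; exact Nat.one_lt_pow (Nat.succ_ne_zero n) hp.one_lt)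
      exact top_ne_bot
    obtain ⟨z, -, hz1, hzc⟩ := Cfsg.Agent.H32.exists_central_of_normal_pgroup P.isPGroup' ⊤ hP0
    obtain ⟨t, ht⟩ : ∃ t : G, t ∉ (P : Subgroup G) := by
      by_contra hc
      push Not at hc
      rw [(Subgroup.eq_top_iff' _).mpr hc, Subgroup.index_top] at hPi
      exact absurd hPi (by norm_num)
    let σ : MulAut (P : Subgroup G) := MulAut.conjNormal t
    -- a central element of the Sylow subgroup that is inverted or fixed by `t`
    obtain ⟨w, hw1, hwc, hwσ⟩ : ∃ w : (P : Subgroup G), w ≠ 1 ∧ w ∈ Subgroup.center _ ∧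
        (σ w = w⁻¹ ∨ σ w = w) := by
      by_cases hinv : σ z = z⁻¹
      · exact ⟨z, hz1, hzc, Or.inl hinv⟩
      have hσc : σ z ∈ Subgroup.center (P : Subgroup G) := by
        rw [Subgroup.mem_center_iff]
        intro g
        obtain ⟨g', rfl⟩ := σ.surjective g
        rw [← map_mul, ← map_mul, Subgroup.mem_center_iff.mp hzc g']
      have ht2 : t * t ∈ (P : Subgroup G) := Subgroup.mul_self_mem_of_index_two hPi t
      have hσσ : σ (σ z) = z := by
        have hcomm : (⟨t * t, ht2⟩ : (P : Subgroup G)) * z = z * ⟨t * t, ht2⟩ :=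
          Subgroup.mem_center_iff.mp hzc _
        have hcomm' : t * t * (z : G) = z * (t * t) := congrArg Subtype.val hcomm
        apply Subtype.ext
        show t * (t * (z : G) * t⁻¹) * t⁻¹ = z
        rw [show t * (t * (z : G) * t⁻¹) * t⁻¹ = t * t * (z : G) * (t * t)⁻¹ by group, hcomm']
        group
      refine ⟨z * σ z, fun h => hinv (eq_inv_of_mul_eq_one_right h), mul_mem hzc hσc, Or.inr ?_⟩
      rw [map_mul, hσσ]
      exact Subgroup.mem_center_iff.mp hzc _
    have hzn : (Subgroup.zpowers (w : G)).Normal := by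
      have hgen : ∀ g : G, g * (w : G) * g⁻¹ = w ∨ g * (w : G) * g⁻¹ = (w : G)⁻¹ := by
        intro g
        have hP : ∀ a ∈ (P : Subgroup G), a * (w : G) * a⁻¹ = w := by
          intro a ha
          have h' : (⟨a, ha⟩ : (P : Subgroup G)) * w = w * ⟨a, ha⟩ :=
            Subgroup.mem_center_iff.mp hwc _
          rw [show a * (w : G) = w * a from congrArg Subtype.val h', mul_inv_cancel_right]
        by_cases hg : g ∈ (P : Subgroup G)
        · exact Or.inl (hP g hg)
        · have hgt : g * t⁻¹ ∈ (P : Subgroup G) :=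
            (Subgroup.mul_mem_iff_of_index_two hPi).mpr (by simp [hg, ht])
          have e : g * (w : G) * g⁻¹ = (g * t⁻¹) * (t * (w : G) * t⁻¹) * (g * t⁻¹)⁻¹ := by group
          rcases hwσ with h | h
          · right
            have h' : t * (w : G) * t⁻¹ = (w : G)⁻¹ := congrArg Subtype.val h
            rw [e, h', ← conj_inv, hP _ hgt]
          · left
            have h' : t * (w : G) * t⁻¹ = (w : G) := congrArg Subtype.val h
            rw [e, h', hP _ hgt]
      constructor
      rintro x ⟨i, rfl⟩ g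
      show g * (w : G) ^ i * g⁻¹ ∈ Subgroup.zpowers (w : G)
      rw [← conj_zpow]
      rcases hgen g with h | h <;> rw [h]
      · exact Subgroup.zpow_mem _ (Subgroup.mem_zpowers _) i
      · exact Subgroup.zpow_mem _ (Subgroup.inv_mem _ (Subgroup.mem_zpowers _)) i
    have hw1' : (w : G) ≠ 1 := fun h => hw1 (Subtype.ext h)
    obtain ⟨N, hN, hNp, hNle⟩ := Cfsg.Agent.H32.exists_normal_prime_le_zpowers hw1' hzn
    have hNc : Nat.card N = p := by
      have hd : Nat.card N ∣ p ^ (n + 1) :=
        hPc ▸ Subgroup.card_dvd_of_le (hNle.trans (Subgroup.zpowers_le.mpr w.2))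
      exact (Nat.prime_dvd_prime_iff_eq hNp hp).mp (hNp.dvd_of_dvd_pow hd)
    refine Cfsg.Agent.H32.isSupersolvable_of_prime_normal N hp hNc (ih ?_)
    have := N.index_mul_card
    rw [hNc, hG, pow_succ, ← mul_assoc] at this
    exact Nat.eq_of_mul_eq_mul_right hp.pos this

end Cfsg.Agent.S0530
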