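import Cfsg.Statements.S0534
import Cfsg.Agent.H32.SupersolvableStructure
import Cfsg.Agent.H19.Hall

set_option autoImplicit false
open Cfsg

namespace Cfsg.Agent.S0534

theorem isSupersolvable_comm (A : Type*) [CommGroup A] [Finite A] : Cfsg.IsSupersolvable A := by
  induction hn : Nat.card A using Nat.strong_induction_on generalizing A with
  | _ n ih =>
    rcases subsingleton_or_nontrivial A with hA | hA
    · exact Cfsg.Agent.H32.isSupersolvable_of_subsingleton
    obtain ⟨x, hx⟩ := exists_ne (1 : A)
    obtain ⟨P, -, hPp, -⟩ := Cfsg.Agent.H32.exists_normal_prime_le_zpowers hx inferInstance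
    exact Cfsg.Agent.H32.isSupersolvable_of_prime_normal P hPp rfl
      (ih _ (hn ▸ Cfsg.Agent.H32.card_quotient_lt P (Cfsg.Agent.H32.ne_bot_of_card_prime hPp))
        (A ⧸ P) rfl)


/-- Let G be a finite solvable group and A a finite abelian group such that every prime dividing the order of A divides the order of G and, for each prime p dividing the order of G, the exponent of p in the order of A is one less than its exponent in the order of G. Then G × A has a subgroup of every order dividing its order. -/
theorem result {G A : Type*} [Group G] [CommGroup A] [Finite G] [Finite A] [Group.IsSolvable G] (hA : ∀ p : ℕ, p.Prime → p ∣ Nat.card A → p ∣ Nat.card G) (hexp : ∀ p : ℕ, p.Prime → p ∣ Nat.card G → (Nat.card A).factorization p + 1 = (Nat.card G).factorization p) : Cfsg.HasSubgroupOfEveryOrder (G × A) := by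
  classical
  intro d hd
  rw [Nat.card_prod] at hd
  let S : Finset ℕ := (Nat.card G).primeFactors.filter fun p =>
    (Nat.card A).factorization p < d.factorization p
  let m := ∏ p ∈ S, p ^ (Nat.card G).factorization p
  let n := ∏ p ∈ (Nat.card G).primeFactors.filter (fun p =>
    ¬ (Nat.card A).factorization p < d.factorization p), p ^ (Nat.card G).factorization p
  have hG : Nat.card G = m * n := by
    have := Nat.prod_factorization_pow_eq_self (n := Nat.card G) Nat.card_pos.ne'
    rw [Finsupp.prod, Nat.support_factorization] at this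
    rw [← this]
    exact (Finset.prod_filter_mul_prod_filter_not _ _ _).symm
  have hmn : m.Coprime n := by
    refine Nat.Coprime.prod_left fun p hp => Nat.Coprime.prod_right fun q hq => ?_
    refine Nat.Coprime.pow _ _ ((Nat.coprime_primes
      (Nat.prime_of_mem_primeFactors (Finset.mem_filter.mp hp).1)
      (Nat.prime_of_mem_primeFactors (Finset.mem_filter.mp hq).1)).mpr ?_)
    rintro rfl
    exact (Finset.mem_filter.mp hq).2 (Finset.mem_filter.mp hp).2
  have hd0 : d ≠ 0 := by
    rintro rfl
    exact (mul_ne_zero Nat.card_pos.ne' Nat.card_pos.ne') (zero_dvd_iff.mp hd)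
  have hm0 : m ≠ 0 := Finset.prod_ne_zero_iff.mpr fun p hp =>
    pow_ne_zero _ (Nat.prime_of_mem_primeFactors (Finset.mem_filter.mp hp).1).ne_zero
  have hmd : m ∣ d := by
    refine Finset.prod_dvd_of_isRelPrime ?_ fun p hp => ?_
    · intro p hp q hq hpq
      refine Nat.coprime_iff_isRelPrime.mp (Nat.Coprime.pow _ _ ((Nat.coprime_primes
        (Nat.prime_of_mem_primeFactors (Finset.mem_filter.mp hp).1)
        (Nat.prime_of_mem_primeFactors (Finset.mem_filter.mp hq).1)).mpr hpq))
    · obtain ⟨hp1, hp2⟩ := Finset.mem_filter.mp hp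
      have hpp := Nat.prime_of_mem_primeFactors hp1
      refine (hpp.pow_dvd_iff_le_factorization hd0).mpr ?_
      have := hexp p hpp (Nat.dvd_of_mem_primeFactors hp1)
      omega
  have hdm : d ∣ m * Nat.card A := by
    rw [← Nat.factorization_le_iff_dvd hd0 (mul_ne_zero hm0 Nat.card_pos.ne'),
      Nat.factorization_mul hm0 Nat.card_pos.ne']
    intro p
    rw [Finsupp.add_apply]
    by_cases hle : d.factorization p ≤ (Nat.card A).factorization p
    · omega
    have hpp : p.Prime := by
      by_contra h
      rw [Nat.factorization_eq_zero_of_not_prime d h] at hle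
      exact hle (Nat.zero_le _)
    have hdle : d.factorization p ≤ (Nat.card G).factorization p + (Nat.card A).factorization p := by
      have h := (Nat.factorization_le_iff_dvd hd0
        (mul_ne_zero Nat.card_pos.ne' Nat.card_pos.ne')).mpr hd p
      rwa [Nat.factorization_mul Nat.card_pos.ne' Nat.card_pos.ne', Finsupp.add_apply] at h
    have hpS : p ∈ S := by
      refine Finset.mem_filter.mpr ⟨hpp.mem_primeFactors ?_ Nat.card_pos.ne', by omega⟩
      by_contra h
      rw [Nat.factorization_eq_zero_of_not_dvd h] at hdle
      omega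
    have := (hpp.pow_dvd_iff_le_factorization hm0).mp (Finset.dvd_prod_of_mem _ hpS)
    omega
  obtain ⟨H, hH⟩ := Cfsg.Agent.H19.hall_exists hG hmn
  obtain ⟨b, hb⟩ := hmd
  have hbA : b ∣ Nat.card A := by
    rw [hb] at hdm
    exact (Nat.mul_dvd_mul_iff_left (Nat.pos_of_ne_zero hm0)).mp hdm
  obtain ⟨B, hB⟩ := Cfsg.Agent.H32.hasSubgroupOfEveryOrder_of_isSupersolvable
    (isSupersolvable_comm A) b hbA
  refine ⟨H.prod B, ?_⟩
  rw [Nat.card_congr (Subgroup.prodEquiv H B).toEquiv, Nat.card_prod, hH, hB, hb]

end Cfsg.Agent.S0534
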