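import Cfsg.Statements.S0535
import Cfsg.Agent.S0006
import Cfsg.Agent.H32.Basic

set_option autoImplicit false
open Cfsg

namespace Cfsg.Agent.S0535

/-- Suppose that for every nontrivial subgroup H of a finite group and every prime p dividing the order of H there is a proper subgroup of H whose index in H is a power of p. Then the group is solvable. -/
theorem result {G : Type*} [Group G] [Finite G] (h : ∀ H : Subgroup G, H ≠ ⊥ → ∀ p : ℕ, p.Prime → p ∣ Nat.card H → ∃ K : Subgroup H, K ≠ ⊤ ∧ ∃ k : ℕ, K.index = p ^ k) : Group.IsSolvable G := by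
  apply Cfsg.Agent.S0006.result
  intro p hp
  have key : ∀ m : ℕ, ∀ H : Subgroup G, Nat.card H = m → ∃ K : Subgroup G, K ≤ H ∧
      ¬ p ∣ Nat.card K ∧ ∃ c : ℕ, K.relIndex H = p ^ c := by
    intro m
    induction m using Nat.strong_induction_on with
    | _ m ih =>
      intro H hm
      by_cases hpd : p ∣ Nat.card H
      · have hH0 : H ≠ ⊥ := fun e => by
          rw [e, Subgroup.card_bot] at hpd
          exact hp.not_dvd_one hpd
        obtain ⟨K, hK, k, hk⟩ := h H hH0 p hp hpd
        have hle : K.map H.subtype ≤ H := Subgroup.map_subtype_le K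
        have hlt : Nat.card (K.map H.subtype) < m := by
          rw [Subgroup.card_map_of_injective H.subtype_injective, ← hm]
          exact Cfsg.Agent.H32.card_subgroup_lt hK
        obtain ⟨L, hL, hpL, c, hc⟩ := ih _ hlt (K.map H.subtype) rfl
        refine ⟨L, hL.trans hle, hpL, c + k, ?_⟩
        rw [← Subgroup.relIndex_mul_relIndex L _ H hL hle, hc, pow_add]
        congr 1
        rw [← hk, Subgroup.relIndex, Subgroup.subgroupOf,
          Subgroup.comap_map_eq_self_of_injective H.subtype_injective]
      · exact ⟨H, le_rfl, hpd, 0, by rw [Subgroup.relIndex_self, pow_zero]⟩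
  obtain ⟨K, -, hpK, c, hc⟩ := key _ ⊤ rfl
  rw [Subgroup.relIndex_top_right] at hc
  refine ⟨K, ?_⟩
  have hcard := K.card_mul_index
  rw [hc] at hcard
  rw [← hcard, Nat.factorization_mul Nat.card_pos.ne' (pow_ne_zero _ hp.ne_zero), Finsupp.add_apply,
    Nat.factorization_eq_zero_of_not_dvd hpK, hp.factorization_pow, Finsupp.single_eq_same, zero_add, hc]

end Cfsg.Agent.S0535
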