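import Cfsg.Statements.S0537
import Cfsg.Agent.H32.MinimalNonNilpotent

set_option autoImplicit false
open Cfsg

namespace Cfsg.Agent.S0537

/-- A finite non-abelian group in which every proper subgroup is abelian is either of prime-power order, or is generated by a cyclic Sylow p-subgroup and a normal Sylow q-subgroup that is elementary abelian, for distinct primes p and q. -/
theorem result {G : Type*} [Group G] [Finite G] (hna : ¬ IsMulCommutative G) (h : ∀ H : Subgroup G, H ≠ ⊤ → IsMulCommutative H) : (∃ p : ℕ, p.Prime ∧ IsPGroup p G) ∨ ∃ p q : ℕ, p.Prime ∧ q.Prime ∧ p ≠ q ∧ ∃ (P : Sylow p G) (Q : Sylow q G), IsCyclic P ∧ (Q : Subgroup G).Normal ∧ Cfsg.IsElementaryAbelian q (Q : Subgroup G) ∧ (P : Subgroup G) ⊔ Q = ⊤ := by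
  have hnil_of_comm : ∀ H : Subgroup G, H ≠ ⊤ → Group.IsNilpotent H := fun H hH => by
    have := h H hH
    letI : CommGroup H := { (inferInstance : Group H) with mul_comm := this.is_comm.comm }
    infer_instance
  have hcomm_of_center : Subgroup.center G = ⊤ → False := fun he => hna ⟨⟨fun a b =>
    (Subgroup.mem_center_iff.mp (he.symm ▸ Subgroup.mem_top b) a)⟩⟩
  by_cases hnil : Group.IsNilpotent G
  · left
    by_contra hc
    push Not at hc
    have hn : ∀ (r : ℕ) (_ : Fact r.Prime) (R : Sylow r G), (R : Subgroup G).Normal :=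
      ((Group.isNilpotent_of_finite_tfae (G := G)).out 0 3).mp hnil
    have hlt : ∀ (p : ℕ) (_ : Fact p.Prime) (P : Sylow p G), (P : Subgroup G) ≠ ⊤ := by
      intro p hp P he
      apply hc p hp.out
      have := P.isPGroup'
      rw [he] at this
      exact this.of_equiv Subgroup.topEquiv
    apply hcomm_of_center
    refine Cfsg.Agent.H51.eq_top_of_forall_sylow_le _ fun p hp _ => ?_
    have : Fact p.Prime := ⟨hp⟩
    obtain ⟨P⟩ := (inferInstance : Nonempty (Sylow p G))
    refine ⟨P, fun a ha => ?_⟩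
    have htop : Subgroup.centralizer {a} = ⊤ := by
      refine Cfsg.Agent.H51.eq_top_of_forall_sylow_le _ fun r hr _ => ?_
      have : Fact r.Prime := ⟨hr⟩
      obtain ⟨R⟩ := (inferInstance : Nonempty (Sylow r G))
      refine ⟨R, fun b hb => Subgroup.mem_centralizer_singleton_iff.mpr ?_⟩
      by_cases hpr : p = r
      · subst hpr
        have hP := hn p ‹_› P
        obtain ⟨g, hg⟩ := MulAction.exists_smul_eq G P R
        rw [Sylow.smul_eq_of_normal (h := hP)] at hg
        subst hg
        exact congrArg Subtype.val ((h _ (hlt p ‹_› P)).is_comm.comm ⟨b, hb⟩ ⟨a, ha⟩)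
      · exact Subgroup.commute_of_normal_of_disjoint _ _ (hn r ‹_› R) (hn p ‹_› P)
          (IsPGroup.disjoint_of_ne r p (Ne.symm hpr) _ _ R.isPGroup' P.isPGroup') b a hb ha
    rw [Subgroup.mem_center_iff]
    intro b
    exact Subgroup.mem_centralizer_singleton_iff.mp (htop.symm ▸ Subgroup.mem_top b)
  obtain ⟨p, q, hp, hq, hpq, P, Q, hPc, hQn, hPQ⟩ :=
    Cfsg.Agent.H32.minimalNonNilpotent_structure ⟨hnil, hnil_of_comm⟩
  right
  refine ⟨p, q, hp, hq, hpq, P, Q, hPc, hQn, ?_, hPQ⟩
  have : Fact p.Prime := ⟨hp⟩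
  have : Fact q.Prime := ⟨hq⟩
  have hQtop : (Q : Subgroup G) ≠ ⊤ := by
    intro he
    apply hnil
    have := Q.isPGroup'
    rw [he] at this
    exact (this.of_equiv Subgroup.topEquiv).isNilpotent
  have hQc := h _ hQtop
  have qcomm : ∀ a ∈ (Q : Subgroup G), ∀ b ∈ (Q : Subgroup G), a * b = b * a := fun a ha b hb =>
    congrArg Subtype.val (hQc.is_comm.comm ⟨a, ha⟩ ⟨b, hb⟩)
  obtain ⟨x, hx⟩ := (Subgroup.isCyclic_iff_exists_zpowers_eq_top _).mp hPc
  let Ω : Subgroup G :=
    { carrier := {y | y ∈ (Q : Subgroup G) ∧ y ^ q = 1}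
      mul_mem' := fun {a b} ha hb => ⟨mul_mem ha.1 hb.1, by
        rw [(show Commute a b from qcomm a ha.1 b hb.1).mul_pow, ha.2, hb.2, one_mul]⟩
      one_mem' := ⟨one_mem _, one_pow _⟩
      inv_mem' := fun {a} ha => ⟨inv_mem ha.1, by rw [inv_pow, ha.2, inv_one]⟩ }
  have hΩn : Ω.Normal := ⟨fun y hy g => ⟨hQn.conj_mem y hy.1 g, by
    rw [conj_pow, hy.2, mul_one, mul_inv_cancel]⟩⟩
  have hco : (Nat.card (P : Subgroup G)).Coprime q := by
    obtain ⟨k, hk⟩ := IsPGroup.iff_card.mp P.isPGroup'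
    rw [hk]
    exact Nat.Coprime.pow_left k ((Nat.coprime_primes hp hq).mpr hpq)
  have htop : (P : Subgroup G) ⊔ Ω = ⊤ := by
    by_contra hne
    have hc := h _ hne
    have hfix : ∀ y ∈ Ω, x * y = y * x := fun y hy => congrArg Subtype.val
      (hc.is_comm.comm ⟨x, Subgroup.mem_sup_left (hx ▸ Subgroup.mem_zpowers x)⟩
        ⟨y, Subgroup.mem_sup_right hy⟩)
    have key : ∀ k : ℕ, ∀ y ∈ (Q : Subgroup G), y ^ q ^ k = 1 → x * y = y * x := by
      intro k
      induction k with
      | zero => intro y _ hy; rw [pow_zero, pow_one] at hy; rw [hy, mul_one, one_mul]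
      | succ k ih =>
        intro y hy hyk
        let z := y⁻¹ * (x * y * x⁻¹)
        have hcy : x * y * x⁻¹ ∈ (Q : Subgroup G) := hQn.conj_mem y hy x
        have hyq := ih (y ^ q) (pow_mem hy q) (by rw [← pow_mul, ← pow_succ']; exact hyk)
        have hzq : z ^ q = 1 := by
          show (y⁻¹ * (x * y * x⁻¹)) ^ q = 1
          rw [(show Commute y⁻¹ (x * y * x⁻¹) from qcomm _ (inv_mem hy) _ hcy).mul_pow, conj_pow,
            hyq, inv_pow, mul_inv_cancel_right, inv_mul_cancel]
        have hzΩ : z ∈ Ω := ⟨mul_mem (inv_mem hy) hcy, hzq⟩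
        have hxz : x * z = z * x := hfix z hzΩ
        have hstep : x * y * x⁻¹ = y * z := by show _ = y * (y⁻¹ * (x * y * x⁻¹)); group
        have hit : ∀ n : ℕ, x ^ n * y * (x ^ n)⁻¹ = y * z ^ n := by
          intro n
          induction n with
          | zero => simp
          | succ n ihn =>
            calc x ^ (n + 1) * y * (x ^ (n + 1))⁻¹ = x * (x ^ n * y * (x ^ n)⁻¹) * x⁻¹ := by
                  rw [pow_succ']; group
              _ = x * y * x⁻¹ * (x * z * x⁻¹) ^ n := by rw [ihn, conj_pow]; group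
              _ = y * z ^ (n + 1) := by rw [hstep, hxz, mul_inv_cancel_right, pow_succ']; group
        have h1 := hit (orderOf x)
        rw [pow_orderOf_eq_one, inv_one, mul_one, one_mul, eq_comm, mul_eq_left] at h1
        have hz1 : z = 1 := by
          have hd : orderOf z ∣ q := orderOf_dvd_of_pow_eq_one hzq
          have hd2 : orderOf z ∣ Nat.card (P : Subgroup G) :=
            (orderOf_dvd_of_pow_eq_one h1).trans
              (Subgroup.orderOf_dvd_natCard _ (hx ▸ Subgroup.mem_zpowers x))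
          exact orderOf_eq_one_iff.mp (Nat.eq_one_of_dvd_coprimes hco hd2 hd)
        rw [hz1, mul_one] at hstep
        exact mul_inv_eq_iff_eq_mul.mp hstep
    have hxQ : ∀ y ∈ (Q : Subgroup G), x * y = y * x := by
      intro y hy
      obtain ⟨k, hk⟩ := Q.isPGroup' ⟨y, hy⟩
      exact key k y hy (congrArg Subtype.val hk)
    apply hcomm_of_center
    have hxc : x ∈ Subgroup.center G := by
      have : (⊤ : Subgroup G) ≤ Subgroup.centralizer {x} := by
        rw [← hPQ]
        refine sup_le ?_ fun y hy => Subgroup.mem_centralizer_singleton_iff.mpr (hxQ y hy).symm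
        rw [← hx, Subgroup.zpowers_le, Subgroup.mem_centralizer_singleton_iff]
      rw [Subgroup.mem_center_iff]
      exact fun g => Subgroup.mem_centralizer_singleton_iff.mp (this (Subgroup.mem_top g))
    rw [eq_top_iff, ← hPQ]
    refine sup_le (hx ▸ Subgroup.zpowers_le.mpr hxc) fun y hy => ?_
    have : (⊤ : Subgroup G) ≤ Subgroup.centralizer {y} := by
      rw [← hPQ]
      refine sup_le ?_ fun a ha => Subgroup.mem_centralizer_singleton_iff.mpr (qcomm a ha y hy)
      rw [← hx, Subgroup.zpowers_le, Subgroup.mem_centralizer_singleton_iff]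
      exact hxQ y hy
    rw [Subgroup.mem_center_iff]
    exact fun g => Subgroup.mem_centralizer_singleton_iff.mp (this (Subgroup.mem_top g))
  refine ⟨hQc, fun y hy => ?_⟩
  obtain ⟨a, ha, w, hw, rfl⟩ := Subgroup.mem_sup_of_normal_right.mp (htop.symm ▸ Subgroup.mem_top y)
  have ha' : a ∈ (P : Subgroup G) ⊓ Q := by
    refine ⟨ha, ?_⟩
    have := mul_mem hy (inv_mem hw.1)
    rwa [mul_inv_cancel_right] at this
  rw [(IsPGroup.disjoint_of_ne p q hpq _ _ P.isPGroup' Q.isPGroup').eq_bot, Subgroup.mem_bot] at ha'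
  rw [ha', one_mul]
  exact hw.2

end Cfsg.Agent.S0537
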