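import Cfsg.Statements.S0539
import Cfsg.Agent.H32.Subnormal

set_option autoImplicit false
open Pointwise
open Cfsg

namespace Cfsg.Agent.S0539

/-- Let S be a family of subnormal subgroups of a finite group that is closed under conjugation, and S₀ a proper subfamily. Then some member of S not in S₀ normalizes the join of S₀. -/
theorem result {G : Type*} [Group G] [Finite G] (S S₀ : Set (Subgroup G)) (hS : ∀ U ∈ S, U.IsSubnormal) (hconj : ∀ U ∈ S, ∀ g : G, MulAut.conj g • U ∈ S) (h₀ : S₀ ⊂ S) : ∃ X ∈ S, X ∉ S₀ ∧ X ≤ Subgroup.normalizer ((sSup S₀ : Subgroup G) : Set G) := by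
  by_cases hn : (sSup S₀ : Subgroup G).Normal
  · obtain ⟨X, hX, hX₀⟩ := Set.exists_of_ssubset h₀
    exact ⟨X, hX, hX₀, Subgroup.le_normalizer_of_normal⟩
  · obtain ⟨U, hU, g, h1, h2⟩ := Cfsg.Agent.H32.exists_conj_le_normalizer_sSup S₀
      (Cfsg.Agent.H32.isSubnormal_sSup _ fun A hA => hS A (h₀.1 hA)) hn
    exact ⟨_, hconj U (h₀.1 hU) g, fun hc => h2 (le_sSup hc), h1⟩

end Cfsg.Agent.S0539
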