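import Cfsg.Statements.S0541
import Cfsg.Agent.H32.Subnormal

set_option autoImplicit false
open Pointwise
open Cfsg

namespace Cfsg.Agent.S0541

/-- Let Z and Y be subgroups of a finite group G and p a prime. Suppose that for every g in G the subgroup generated by the conjugates of g Z g⁻¹ under Y is a p-group. Then there is a Sylow p-subgroup P of G such that Y normalizes the subgroup generated by all conjugates of Z contained in P. -/
theorem result {G : Type*} [Group G] [Finite G] (p : ℕ) [Fact p.Prime] (Z Y : Subgroup G) (h : ∀ g : G, IsPGroup p ↥(⨆ y ∈ Y, MulAut.conj (y * g) • Z)) : ∃ P : Sylow p G, Y ≤ Subgroup.normalizer ((⨆ g ∈ {g : G | MulAut.conj g • Z ≤ (P : Subgroup G)}, MulAut.conj g • Z : Subgroup G) : Set G) := by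
  classical
  let 𝒵 : Set (Subgroup G) := {Z' | ∃ g : G, Z' = MulAut.conj g • Z}
  let good : Subgroup G → Prop := fun W => IsPGroup p W ∧
    Y ≤ Subgroup.normalizer (W : Set G) ∧ ∃ T ⊆ 𝒵, W = sSup T
  obtain ⟨W, ⟨hWp, hWY, T, hT, hWT⟩, hWmax⟩ := (wellFounded_gt (α := Subgroup G)).has_min
    {W | good W} ⟨⊥, IsPGroup.of_bot, Subgroup.le_normalizer_of_normal, ∅,
      Set.empty_subset _, sSup_empty.symm⟩
  obtain ⟨P, hWP⟩ := hWp.exists_le_sylow
  let W' : Subgroup G := ⨆ g ∈ {g : G | MulAut.conj g • Z ≤ (P : Subgroup G)}, MulAut.conj g • Z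
  refine ⟨P, ?_⟩
  change Y ≤ Subgroup.normalizer (W' : Set G)
  suffices hWW : W' = W by rw [hWW]; exact hWY
  have hle : W ≤ W' := by
    rw [hWT]
    refine sSup_le fun B hB => ?_
    obtain ⟨g, rfl⟩ := hT hB
    have hg : MulAut.conj g • Z ≤ (P : Subgroup G) := (le_sSup hB).trans (hWT ▸ hWP)
    exact le_iSup₂_of_le g hg le_rfl
  refine le_antisymm ?_ hle
  refine iSup₂_le fun g hg => ?_
  by_contra hgW
  -- some conjugate of `Z` in `P` but not in `W` normalizes `W`
  have hex : ∃ x : G, ¬ MulAut.conj x • Z ≤ W ∧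
      MulAut.conj x • Z ≤ Subgroup.normalizer (W : Set G) := by
    let TP : Set (Subgroup P) := (fun B => B.subgroupOf (P : Subgroup G)) '' T
    have hmap : (sSup TP).map (P : Subgroup G).subtype = W := by
      rw [hWT]
      apply le_antisymm
      · rw [Subgroup.map_le_iff_le_comap]
        refine sSup_le ?_
        rintro _ ⟨B, hB, rfl⟩
        exact Subgroup.comap_mono (le_sSup hB)
      · refine sSup_le fun B hB => ?_
        have hBP : B ≤ (P : Subgroup G) := (le_sSup hB).trans (hWT ▸ hWP)
        rw [← Subgroup.map_subgroupOf_eq_of_le hBP]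
        exact Subgroup.map_mono (le_sSup ⟨B, hB, rfl⟩)
    by_cases hn : (sSup TP).Normal
    · refine ⟨g, hgW, (show MulAut.conj g • Z ≤ (P : Subgroup G) from hg).trans ?_⟩
      rw [← hmap]
      have := Subgroup.le_normalizer_map (H := sSup TP) (P : Subgroup G).subtype
      rw [Subgroup.normalizer_eq_top, ← MonoidHom.range_eq_map, Subgroup.range_subtype] at this
      exact this
    · have hsn : (sSup TP).IsSubnormal := by
        have : Group.IsNilpotent P := P.isPGroup'.isNilpotent
        generalize sSup TP = J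
        induction J using (wellFounded_gt (α := Subgroup P)).induction with
        | _ J ih =>
          by_cases hJ : J = ⊤
          · rw [hJ]; exact Subgroup.IsSubnormal.top
          · exact Subgroup.IsSubnormal.step _ _ Subgroup.le_normalizer
              (ih _ (Group.normalizerCondition_of_isNilpotent J (lt_top_iff_ne_top.mpr hJ)))
              Subgroup.normal_in_normalizer
      obtain ⟨_, ⟨B, hB, rfl⟩, x, h1, h2⟩ :=
        Cfsg.Agent.H32.exists_conj_le_normalizer_sSup TP hsn hn
      obtain ⟨a, rfl⟩ := hT hB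
      have hBP : MulAut.conj a • Z ≤ (P : Subgroup G) := (le_sSup hB).trans (hWT ▸ hWP)
      have he : (MulAut.conj x • (MulAut.conj a • Z).subgroupOf (P : Subgroup G)).map
          (P : Subgroup G).subtype = MulAut.conj ((x : G) * a) • Z := by
        rw [map_mul, mul_smul]
        ext y
        constructor
        · rintro ⟨_, ⟨z, hz, rfl⟩, rfl⟩
          exact ⟨(z : G), hz, rfl⟩
        · rintro ⟨z, hz, rfl⟩
          exact ⟨x * ⟨z, hBP hz⟩ * x⁻¹, ⟨⟨z, hBP hz⟩, hz, rfl⟩, rfl⟩
      refine ⟨(x : G) * a, fun hc => h2 ?_, ?_⟩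
      · rw [← Subgroup.map_le_map_iff_of_injective (P : Subgroup G).subtype_injective, he, hmap]
        exact hc
      · rw [← he, ← hmap]
        exact (Subgroup.map_mono h1).trans (Subgroup.le_normalizer_map (P : Subgroup G).subtype)
  obtain ⟨x, hxW, hxN⟩ := hex
  let V : Subgroup G := ⨆ y ∈ Y, MulAut.conj (y * x) • Z
  have hVN : V ≤ Subgroup.normalizer (W : Set G) := by
    refine iSup₂_le fun y hy => ?_
    rw [map_mul, mul_smul]
    rintro _ ⟨z, hz, rfl⟩
    exact (Subgroup.normalizer (W : Set G)).mul_mem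
      ((Subgroup.normalizer (W : Set G)).mul_mem (hWY hy) (hxN hz))
      ((Subgroup.normalizer (W : Set G)).inv_mem (hWY hy))
  have hVY : Y ≤ Subgroup.normalizer (V : Set G) := by
    have e : ∀ y ∈ Y, ∀ v ∈ V, y * v * y⁻¹ ∈ V := by
      intro y hy v hv
      have : V ≤ V.comap (MulAut.conj y).toMonoidHom := by
        refine iSup₂_le fun y' hy' => ?_
        rw [← Subgroup.map_le_iff_le_comap]
        refine le_trans (le_of_eq ?_)
          (le_iSup₂_of_le (y * y') (Y.mul_mem hy hy') le_rfl)
        rw [mul_assoc, map_mul MulAut.conj y (y' * x), mul_smul]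
        rfl
      exact this hv
    intro y hy
    rw [Subgroup.mem_normalizer_iff]
    intro v
    refine ⟨e y hy v, fun hv => ?_⟩
    have := e y⁻¹ (Y.inv_mem hy) _ hv
    simpa [mul_assoc] using this
  have hnew : good (W ⊔ V) := by
    refine ⟨?_, ?_, T ∪ {B | ∃ y ∈ Y, B = MulAut.conj (y * x) • Z}, ?_, ?_⟩
    · exact hWp.to_sup_of_normal_left' (h x) hVN
    · exact (le_inf hWY hVY).trans (Subgroup.normalizer_inf_normalizer_le_normalizer_sup W V)
    · rintro B (hB | ⟨y, -, rfl⟩)
      · exact hT hB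
      · exact ⟨_, rfl⟩
    · rw [sSup_union, ← hWT]
      congr 1
      apply le_antisymm
      · exact iSup₂_le fun y hy => le_sSup ⟨y, hy, rfl⟩
      · exact sSup_le (by rintro B ⟨y, hy, rfl⟩; exact le_iSup₂_of_le y hy le_rfl)
  refine hWmax _ hnew (lt_of_le_of_ne le_sup_left fun e => hxW ?_)
  refine le_trans ?_ (e.symm ▸ le_sup_right : V ≤ W)
  have : MulAut.conj ((1 : G) * x) • Z ≤ V :=
    le_iSup₂ (f := fun y (_ : y ∈ Y) => MulAut.conj (y * x) • Z) (1 : G) Y.one_mem
  rwa [one_mul] at this

end Cfsg.Agent.S0541
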