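import Cfsg.Statements.S0546
import Cfsg.Agent.H32.ComplementSystem

set_option autoImplicit false
open Cfsg

namespace Cfsg.Agent.S0546

/-- The normal closure of a system normalizer of a finite solvable group is the whole group. -/
theorem result {G : Type*} [Group G] [Finite G] [Group.IsSolvable G] (K : Nat.Primes → Subgroup G) (hK : Cfsg.IsComplementSystem K) : Subgroup.normalClosure ((Cfsg.systemNormalizer K : Subgroup G) : Set G) = ⊤ := by
  by_contra hM
  let M := Subgroup.normalClosure ((Cfsg.systemNormalizer K : Subgroup G) : Set G)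
  let N : Subgroup G := (commutator (G ⧸ M)).comap (QuotientGroup.mk' M)
  have hMN : M ≤ N := QuotientGroup.le_comap_mk' M _
  have hN : N ≠ ⊤ := by
    intro h
    have h1 := congrArg (Subgroup.map (QuotientGroup.mk' M)) h
    rw [Subgroup.map_comap_eq_self_of_surjective (QuotientGroup.mk'_surjective M),
      Subgroup.map_top_of_surjective _ (QuotientGroup.mk'_surjective M)] at h1
    have : Nontrivial (G ⧸ M) := QuotientGroup.nontrivial_iff.mpr hM
    exact (Group.IsSolvable.commutator_lt_top_of_nontrivial (G := G ⧸ M)).ne h1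
  have hcomm : ∀ a b : G ⧸ N, a * b = b * a := by
    intro a b
    obtain ⟨x, rfl⟩ := QuotientGroup.mk_surjective a
    obtain ⟨y, rfl⟩ := QuotientGroup.mk_surjective b
    rw [← QuotientGroup.mk_mul, ← QuotientGroup.mk_mul, QuotientGroup.eq]
    show QuotientGroup.mk' M ((x * y)⁻¹ * (y * x)) ∈ commutator (G ⧸ M)
    have := Subgroup.commutator_mem_commutator (Subgroup.mem_top (QuotientGroup.mk' M y⁻¹))
      (Subgroup.mem_top (QuotientGroup.mk' M x⁻¹))
    rw [← map_commutatorElement] at this
    simpa [commutator_def, commutatorElement_def, mul_assoc] using this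
  have htop : Cfsg.systemNormalizer (fun p => (K p).map (QuotientGroup.mk' N)) = ⊤ := by
    rw [eq_top_iff]
    refine le_iInf fun p => ?_
    intro x _
    rw [Subgroup.mem_normalizer_iff]
    intro y
    rw [hcomm x y, mul_inv_cancel_right]
  rw [Cfsg.Agent.H32.systemNormalizer_map hK N] at htop
  have hb : (Cfsg.systemNormalizer K).map (QuotientGroup.mk' N) = ⊥ := by
    rw [Subgroup.map_eq_bot_iff, QuotientGroup.ker_mk']
    exact Subgroup.subset_normalClosure.trans hMN
  rw [hb] at htop
  have h2 := congrArg (Subgroup.comap (QuotientGroup.mk' N)) htop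
  rw [MonoidHom.comap_bot, QuotientGroup.ker_mk', Subgroup.comap_top] at h2
  exact hN h2

end Cfsg.Agent.S0546
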