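import Cfsg.Statements.S0548
import Cfsg.Agent.H32.Primitive

set_option autoImplicit false
open Cfsg

namespace Cfsg.Agent.S0548

/-- Let a finite solvable group G act faithfully and primitively on a set, let M be a minimal normal subgroup and H the stabilizer of a point. Then H is a complement to M, no non-identity element of H centralizes M, and the only subgroups of M normalized by H are the trivial subgroup and M. -/
theorem result {G : Type*} [Group G] [Finite G] [Group.IsSolvable G] {Ω : Type*} [MulAction G Ω] [FaithfulSMul G Ω] (hprim : MulAction.IsPreprimitive G Ω) (M : Subgroup G) [M.Normal] (hM : M ≠ ⊥) (hmin : ∀ K : Subgroup G, K.Normal → K ≤ M → K = ⊥ ∨ K = M) (ω : Ω) : Subgroup.IsComplement' M (MulAction.stabilizer G ω) ∧ MulAction.stabilizer G ω ⊓ Subgroup.centralizer (M : Set G) = ⊥ ∧ ∀ K : Subgroup G, K ≤ M → MulAction.stabilizer G ω ≤ Subgroup.normalizer (K : Set G) → K = ⊥ ∨ K = M := by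
  have hq : MulAction.IsQuasiPreprimitive G Ω := inferInstance
  have hne : MulAction.fixedPoints M Ω ≠ Set.univ := by
    intro h
    apply hM
    rw [eq_bot_iff]
    intro m hm
    rw [Subgroup.mem_bot]
    apply FaithfulSMul.eq_of_smul_eq_smul (α := Ω)
    intro ω'
    rw [one_smul]
    exact (Set.eq_univ_iff_forall.mp h ω') ⟨m, hm⟩
  have htr : MulAction.IsPretransitive M Ω := hq.isPretransitive_of_normal hne
  obtain ⟨hMc, -⟩ := Cfsg.Agent.H19.minimalNormal_elementary M inferInstance hM hmin
  have hfix : ∀ g : G, (∀ m : M, g * m = m * g) → g • ω = ω → g = 1 := by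
    intro g hg hgω
    apply FaithfulSMul.eq_of_smul_eq_smul (α := Ω)
    intro ω'
    obtain ⟨n, rfl⟩ := MulAction.exists_smul_eq M ω ω'
    show g • (n : G) • ω = (1 : G) • (n : G) • ω
    rw [one_smul, ← mul_smul, hg n, mul_smul, hgω]
  have hinf : M ⊓ MulAction.stabilizer G ω = ⊥ := by
    rw [eq_bot_iff]
    rintro g ⟨hgM, hgω⟩
    exact Subgroup.mem_bot.mpr (hfix g
      (fun m => congrArg Subtype.val (hMc.is_comm.comm ⟨g, hgM⟩ m)) hgω)
  have hsup : M ⊔ MulAction.stabilizer G ω = ⊤ := by
    rw [eq_top_iff]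
    intro g _
    obtain ⟨m, hm⟩ := MulAction.exists_smul_eq M ω (g • ω)
    have h1 : (m : G)⁻¹ * g ∈ MulAction.stabilizer G ω := by
      rw [MulAction.mem_stabilizer_iff, mul_smul, ← hm]
      exact inv_smul_smul (m : G) ω
    have := Subgroup.mul_mem_sup m.2 h1
    rwa [mul_inv_cancel_left] at this
  refine ⟨Cfsg.Agent.H32.isComplement'_of_normal inferInstance hinf hsup, ?_, ?_⟩
  · rw [eq_bot_iff]
    rintro g ⟨hgω, hgC⟩
    exact Subgroup.mem_bot.mpr (hfix g
      (fun m => (Subgroup.mem_centralizer_iff.mp hgC m m.2).symm) hgω)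
  · intro K hK hle
    refine hmin K ?_ hK
    rw [← Subgroup.normalizer_eq_top_iff, eq_top_iff, ← hsup]
    refine sup_le (fun m hm => ?_) hle
    rw [Subgroup.mem_normalizer_iff]
    have hc : ∀ x ∈ M, m * x * m⁻¹ = x := fun x hx => by
      have h1 : m * x = x * m := congrArg Subtype.val (hMc.is_comm.comm ⟨m, hm⟩ ⟨x, hx⟩)
      rw [h1, mul_inv_cancel_right]
    intro x
    refine ⟨fun hx => (hc x (hK hx)).symm ▸ hx, fun hx => ?_⟩
    have := hc _ (hK hx)
    have e : m * x * m⁻¹ = x := mul_left_cancel (mul_right_cancel this)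
    rwa [e] at hx

end Cfsg.Agent.S0548
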