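import Cfsg.Statements.S0549
import Cfsg.Agent.H32.Primitive

set_option autoImplicit false
open Cfsg

namespace Cfsg.Agent.S0549

/-- Let U be a maximal subgroup of a finite group G whose normal core is trivial, and N a nontrivial normal subgroup with centralizer C. Then C ∩ U = 1, and either C = 1 or C is a minimal normal subgroup of G. -/
theorem result {G : Type*} [Group G] [Finite G] (U : Subgroup G) (hU : IsCoatom U) (hcore : U.normalCore = ⊥) (N : Subgroup G) [N.Normal] (hN : N ≠ ⊥) : Subgroup.centralizer (N : Set G) ⊓ U = ⊥ ∧ (Subgroup.centralizer (N : Set G) = ⊥ ∨ (Subgroup.centralizer (N : Set G) ≠ ⊥ ∧ ∀ K : Subgroup G, K.Normal → K ≤ Subgroup.centralizer (N : Set G) → K = ⊥ ∨ K = Subgroup.centralizer (N : Set G))) := by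
  refine ⟨Cfsg.Agent.H32.centralizer_inf_corefree hU hcore ‹N.Normal› hN, ?_⟩
  by_cases hC : Subgroup.centralizer (N : Set G) = ⊥
  · exact Or.inl hC
  · refine Or.inr ⟨hC, fun K hK hle => ?_⟩
    by_cases hK0 : K = ⊥
    · exact Or.inl hK0
    · exact Or.inr (Cfsg.Agent.H32.eq_centralizer_of_corefree hU hcore ‹N.Normal› hN hK hK0 hle)

end Cfsg.Agent.S0549
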