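import Cfsg.Statements.S0550
import Cfsg.Agent.H32.Primitive

set_option autoImplicit false
open Cfsg

namespace Cfsg.Agent.S0550

/-- Let U be a maximal subgroup with trivial normal core in a finite group G, and A ≠ B two minimal normal subgroups. Then A is the centralizer of B and B that of A, U complements each of them, A and B are non-abelian, and A, B and (A ⊔ B) ∩ U are pairwise isomorphic. -/
theorem result {G : Type*} [Group G] [Finite G] (U : Subgroup G) (hU : IsCoatom U) (hcore : U.normalCore = ⊥) (A B : Subgroup G) [A.Normal] [B.Normal] (hA : A ≠ ⊥) (hB : B ≠ ⊥) (hAmin : ∀ K : Subgroup G, K.Normal → K ≤ A → K = ⊥ ∨ K = A) (hBmin : ∀ K : Subgroup G, K.Normal → K ≤ B → K = ⊥ ∨ K = B) (hAB : A ≠ B) : Subgroup.centralizer (B : Set G) = A ∧ Subgroup.centralizer (A : Set G) = B ∧ Subgroup.IsComplement' A U ∧ Subgroup.IsComplement' B U ∧ ¬ IsMulCommutative A ∧ Nonempty (A ≃* B) ∧ Nonempty (A ≃* ↥((A ⊔ B) ⊓ U)) := by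
  have hinf : A ⊓ B = ⊥ := by
    rcases hAmin (A ⊓ B) inferInstance inf_le_left with h | h
    · exact h
    · rcases hBmin A ‹A.Normal› (inf_eq_left.mp h) with h' | h'
      · exact absurd h' hA
      · exact absurd h' hAB
  have hcomm : ∀ a ∈ A, ∀ b ∈ B, a * b = b * a := fun a ha b hb =>
    Subgroup.commute_of_normal_of_disjoint A B ‹A.Normal› ‹B.Normal› (disjoint_iff.mpr hinf) a b ha hb
  have hBC : B = Subgroup.centralizer (A : Set G) :=
    Cfsg.Agent.H32.eq_centralizer_of_corefree hU hcore ‹A.Normal› hA ‹B.Normal› hB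
      fun b hb => Subgroup.mem_centralizer_iff.mpr fun a ha => hcomm a ha b hb
  have hAC : A = Subgroup.centralizer (B : Set G) :=
    Cfsg.Agent.H32.eq_centralizer_of_corefree hU hcore ‹B.Normal› hB ‹A.Normal› hA
      fun a ha => Subgroup.mem_centralizer_iff.mpr fun b hb => (hcomm a ha b hb).symm
  have hAU : A ⊓ U = ⊥ := by
    rw [hAC]; exact Cfsg.Agent.H32.centralizer_inf_corefree hU hcore ‹B.Normal› hB
  have hBU : B ⊓ U = ⊥ := by
    rw [hBC]; exact Cfsg.Agent.H32.centralizer_inf_corefree hU hcore ‹A.Normal› hA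
  have hAt := Cfsg.Agent.H32.sup_eq_top_of_corefree hU hcore ‹A.Normal› hA
  have hBt := Cfsg.Agent.H32.sup_eq_top_of_corefree hU hcore ‹B.Normal› hB
  let D : Subgroup G := (A ⊔ B) ⊓ U
  have hsup : ∀ X : Subgroup G, X.Normal → X ⊔ U = ⊤ → X ≤ A ⊔ B → X ⊔ D = A ⊔ B := by
    intro X hX hXt hXle
    refine le_antisymm (sup_le hXle inf_le_left) fun y hy => ?_
    obtain ⟨x, hx, u, hu, rfl⟩ := Subgroup.mem_sup_of_normal_left.mp (hXt.symm ▸ Subgroup.mem_top y)
    refine Subgroup.mul_mem_sup hx ⟨?_, hu⟩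
    have := mul_mem (inv_mem (hXle hx)) hy
    rwa [inv_mul_cancel_left] at this
  obtain ⟨eBD⟩ := Cfsg.Agent.H32.nonempty_mulEquiv_of_sup_eq ‹A.Normal› hinf
    (show A ⊓ D = ⊥ from eq_bot_iff.mpr ((inf_le_inf_left A inf_le_right).trans hAU.le))
    (hsup A ‹A.Normal› hAt le_sup_left).symm
  obtain ⟨eAD⟩ := Cfsg.Agent.H32.nonempty_mulEquiv_of_sup_eq ‹B.Normal› (inf_comm A B ▸ hinf)
    (show B ⊓ D = ⊥ from eq_bot_iff.mpr ((inf_le_inf_left B inf_le_right).trans hBU.le))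
    ((sup_comm B A).trans (hsup B ‹B.Normal› hBt le_sup_right).symm)
  refine ⟨hAC.symm, hBC.symm, Cfsg.Agent.H32.isComplement'_of_normal ‹A.Normal› hAU hAt,
    Cfsg.Agent.H32.isComplement'_of_normal ‹B.Normal› hBU hBt, ?_, ⟨eAD.trans eBD.symm⟩, ⟨eAD⟩⟩
  intro hcA
  have hle : A ≤ B := by
    rw [hBC]
    exact Subgroup.le_centralizer A
  exact hA (by rw [← inf_eq_left.mpr hle, hinf])

end Cfsg.Agent.S0550
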