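import Cfsg.Statements.S0552
import Cfsg.Agent.H19.Fitting

set_option autoImplicit false
open Cfsg

namespace Cfsg.Agent.S0552

/-- Let σ be an automorphism of a finite solvable group G fixing every element of the Fitting subgroup. If σ is not the identity then the order of σ and the order of G have a common prime factor. -/
theorem result {G : Type*} [Group G] [Finite G] [Group.IsSolvable G] (σ : G ≃* G) (hσ : ∀ x ∈ Cfsg.fittingSubgroup G, σ x = x) (hne : σ ≠ MulEquiv.refl G) : ¬ (orderOf σ).Coprime (Nat.card G) := by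
  intro hco
  apply hne
  ext x
  have hC : x⁻¹ * σ x ∈ Cfsg.fittingSubgroup G := by
    apply Cfsg.Agent.H19.centralizer_fitting_le
    rw [Subgroup.mem_centralizer_iff]
    intro f hf
    have hn : (Cfsg.fittingSubgroup G).Normal := Cfsg.Agent.H19.fitting_normal G
    have h1 := hσ _ (hn.conj_mem f hf x)
    rw [map_mul, map_mul, map_inv, hσ f hf] at h1
    calc f * (x⁻¹ * σ x) = x⁻¹ * (x * f * x⁻¹) * σ x := by group
      _ = x⁻¹ * (σ x * f * (σ x)⁻¹) * σ x := by rw [h1]
      _ = x⁻¹ * σ x * f := by group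
  have hiter : ∀ k : ℕ, (σ ^ k : G ≃* G) x = x * (x⁻¹ * σ x) ^ k := by
    intro k
    induction k with
    | zero => simp
    | succ k ih =>
      rw [pow_succ', MulAut.mul_apply, ih, map_mul, map_pow, hσ _ hC, pow_succ', ← mul_assoc, mul_inv_cancel_left]
  have h1 := hiter (orderOf σ)
  rw [pow_orderOf_eq_one] at h1
  change x = _ at h1
  have h2 : orderOf (x⁻¹ * σ x) ∣ orderOf σ :=
    orderOf_dvd_of_pow_eq_one (mul_eq_left.mp h1.symm)
  have h3 : x⁻¹ * σ x = 1 := orderOf_eq_one_iff.mp
    (Nat.eq_one_of_dvd_coprimes hco h2 (orderOf_dvd_natCard _))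
  exact (inv_mul_eq_one.mp h3).symm

end Cfsg.Agent.S0552
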