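import Cfsg.Statements.S0553
import Cfsg.Agent.H32.Basic
import Cfsg.Agent.H19.MinimalNormal

set_option autoImplicit false
open Cfsg

namespace Cfsg.Agent.S0553

/-- Let G be a nontrivial finite solvable group in which every maximal subgroup has order coprime to its index. Then for some prime p dividing the order of G the Sylow p-subgroups of G are normal. -/
theorem result {G : Type*} [Group G] [Finite G] [Group.IsSolvable G] [Nontrivial G] (h : ∀ M : Subgroup G, IsCoatom M → (Nat.card M).Coprime M.index) : ∃ p : ℕ, p.Prime ∧ p ∣ Nat.card G ∧ ∀ P : Sylow p G, (P : Subgroup G).Normal := by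
  induction hn : Nat.card G using Nat.strong_induction_on generalizing G with
  | _ n ih =>
    subst hn
    obtain ⟨N, hNn, hN0, hNmin⟩ := Cfsg.Agent.H32.exists_minNormal (G := G)
    obtain ⟨hNc, p, hp, hNp, -⟩ :=
      Cfsg.Agent.H19.minimalNormal_elementary N inferInstance hN0 hNmin
    have : Fact p.Prime := ⟨hp⟩
    have hpG : p ∣ Nat.card G :=
      (hNp.card_eq_or_dvd.resolve_left (fun h => hN0 (Subgroup.card_eq_one.mp h))).trans
        (Subgroup.card_subgroup_dvd_card N)
    have hall : ∀ {q : ℕ} [Fact q.Prime], (∃ P : Sylow q G, (P : Subgroup G).Normal) →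
        ∀ P : Sylow q G, (P : Subgroup G).Normal := by
      intro q _ ⟨P, hP⟩ R
      obtain ⟨g, hg⟩ := MulAction.exists_smul_eq G P R
      rw [Sylow.smul_eq_of_normal (h := hP)] at hg
      exact hg ▸ hP
    -- if `N` is already a Sylow subgroup we are done
    have hdone : ¬ p ∣ N.index → ∃ p : ℕ, p.Prime ∧ p ∣ Nat.card G ∧
        ∀ P : Sylow p G, (P : Subgroup G).Normal := fun hnd =>
      ⟨p, hp, hpG, hall ⟨hNp.toSylow hnd, hNn⟩⟩
    by_cases htop : N = ⊤
    · exact hdone (by rw [htop, Subgroup.index_top]; exact hp.not_dvd_one)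
    have : Nontrivial (G ⧸ N) := QuotientGroup.nontrivial_iff.mpr htop
    have hs := QuotientGroup.mk'_surjective N
    obtain ⟨q, hq, hqd, hqn⟩ := ih _ (Cfsg.Agent.H32.card_quotient_lt N hN0) (G := G ⧸ N)
      (fun M hM => by
        have hco := h (M.comap (QuotientGroup.mk' N)) ⟨fun e => hM.1 (by
            rw [← Subgroup.map_comap_eq_self_of_surjective hs M, e,
              Subgroup.map_top_of_surjective _ hs]), fun B hB => by
          have hle : N ≤ B := (QuotientGroup.le_comap_mk' N M).trans hB.le
          have h1 : M < B.map (QuotientGroup.mk' N) := by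
            rw [← Subgroup.comap_lt_comap_of_surjective hs,
              Subgroup.comap_map_eq_self (by rwa [QuotientGroup.ker_mk'])]
            exact hB
          have h2 := congrArg (Subgroup.comap (QuotientGroup.mk' N)) (hM.2 _ h1)
          rwa [Subgroup.comap_map_eq_self (by rwa [QuotientGroup.ker_mk']), Subgroup.comap_top]
            at h2⟩
        rw [Subgroup.index_comap_of_surjective _ hs] at hco
        refine hco.coprime_dvd_left ?_
        have := Subgroup.card_map_dvd (M.comap (QuotientGroup.mk' N)) (QuotientGroup.mk' N)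
        rwa [Subgroup.map_comap_eq_self_of_surjective hs] at this) rfl
    have : Fact q.Prime := ⟨hq⟩
    have hqG : q ∣ Nat.card G := hqd.trans (Subgroup.card_quotient_dvd_card N)
    obtain ⟨Q⟩ := (inferInstance : Nonempty (Sylow q G))
    have hQN : ((Q : Subgroup G) ⊔ N).Normal := by
      have := (hqn (Q.mapSurjective hs)).comap (QuotientGroup.mk' N)
      rwa [Sylow.coe_mapSurjective, Subgroup.comap_map_eq, QuotientGroup.ker_mk'] at this
    by_cases hqp : q = p
    · subst hqp
      have hle := hNp.le_sylow_of_normal Q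
      rw [sup_eq_left.mpr hle] at hQN
      exact ⟨q, hq, hqG, hall ⟨Q, hQN⟩⟩
    rcases eq_top_or_exists_le_coatom (Subgroup.normalizer ((Q : Subgroup G) : Set G)) with h1 | h1
    · exact ⟨q, hq, hqG, hall ⟨Q, Subgroup.normalizer_eq_top_iff.mp h1⟩⟩
    obtain ⟨M, hM, hQM⟩ := h1
    have hF := Sylow.normalizer_sup_eq_top' Q (le_sup_left : (Q : Subgroup G) ≤ (Q : Subgroup G) ⊔ N)
    have hMN : M ⊔ N = ⊤ := eq_top_iff.mpr (hF.symm.le.trans (sup_le (hQM.trans le_sup_left)
      (sup_le ((Subgroup.le_normalizer.trans hQM).trans le_sup_left) le_sup_right)))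
    have hinfn : (N ⊓ M).Normal := by
      rw [← Subgroup.normalizer_eq_top_iff, eq_top_iff, ← hMN]
      refine sup_le (le_trans (le_inf Subgroup.le_normalizer_of_normal Subgroup.le_normalizer)
        Subgroup.inf_normalizer_le_normalizer_inf) fun a ha => ?_
      rw [Subgroup.mem_normalizer_iff]
      have hc : ∀ x ∈ N, a * x * a⁻¹ = x := fun x hx => by
        have h1 : a * x = x * a := congrArg Subtype.val (hNc.is_comm.comm ⟨a, ha⟩ ⟨x, hx⟩)
        rw [h1, mul_inv_cancel_right]
      intro x
      refine ⟨fun hx => (hc x hx.1).symm ▸ hx, fun hx => ?_⟩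
      have := hc _ hx.1
      have e : a * x * a⁻¹ = x := mul_left_cancel (mul_right_cancel this)
      rwa [e] at hx
    rcases hNmin _ hinfn inf_le_left with h2 | h2
    · refine hdone fun hd => ?_
      have e1 := Cfsg.Agent.H32.card_sup_mul_card_inf M N
      rw [hMN, inf_comm, h2, Subgroup.card_bot, mul_one, Subgroup.card_top] at e1
      have e2 : N.index = Nat.card M :=
        Nat.eq_of_mul_eq_mul_right Nat.card_pos ((N.index_mul_card).trans e1)
      have e3 : M.index = Nat.card N :=
        Nat.eq_of_mul_eq_mul_left Nat.card_pos ((M.card_mul_index).trans e1)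
      have hco := h M hM
      rw [← e2, e3] at hco
      exact hp.ne_one (Nat.eq_one_of_dvd_coprimes hco hd
        (hNp.card_eq_or_dvd.resolve_left (fun h => hN0 (Subgroup.card_eq_one.mp h))))
    · rw [sup_eq_left.mpr (inf_eq_left.mp h2)] at hMN
      exact absurd hMN hM.1

end Cfsg.Agent.S0553
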