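import Cfsg.Statements.S0554
import Cfsg.Agent.H32.Basic
import Cfsg.Agent.H19.MinimalNormal

set_option autoImplicit false
open Cfsg

namespace Cfsg.Agent.S0554

theorem absorb {G : Type*} [Group G] {N : Subgroup G} (hN : N.Normal) :
    ∀ (t : ℕ) (s : Fin t → G) (j : Fin t) (n : G), n ∈ N →
      ∃ n' ∈ N, n * (List.ofFn s).prod = (List.ofFn (Function.update s j (n' * s j))).prod := by
  intro t
  induction t with
  | zero => exact fun _ j => j.elim0
  | succ t ih =>
    intro s j n hn
    induction j using Fin.cases with
    | zero =>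
      refine ⟨n, hn, ?_⟩
      simp [List.ofFn_succ, mul_assoc]
    | succ j =>
      have hn2 : (s 0)⁻¹ * n * s 0 ∈ N := by
        simpa using hN.conj_mem n hn (s 0)⁻¹
      obtain ⟨n', hn', he⟩ := ih (fun i => s i.succ) j _ hn2
      refine ⟨n', hn', ?_⟩
      rw [List.ofFn_succ, List.ofFn_succ, List.prod_cons, List.prod_cons]
      have h0 : Function.update s j.succ (n' * s j.succ) 0 = s 0 :=
        Function.update_of_ne (Fin.succ_ne_zero j).symm _ _
      have h1 : (fun i : Fin t => Function.update s j.succ (n' * s j.succ) i.succ) =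
          Function.update (fun i => s i.succ) j (n' * s j.succ) :=
        Function.update_comp_eq_of_injective s (Fin.succ_injective _) j _
      rw [h0, h1, ← he]
      group


/-- Let G be a finite solvable group and let S assign to each of t distinct primes, including every prime divisor of the order of G, a Sylow subgroup of G. Then every element of G is a product s_0 s_1 ⋯ s_(t-1) with s_i in S i, the factors taken in the given order. -/
theorem result {G : Type*} [Group G] [Finite G] [Group.IsSolvable G] (t : ℕ) (p : Fin t → ℕ) (hp : ∀ i, (p i).Prime) (hinj : Function.Injective p) (hall : ∀ q : ℕ, q.Prime → q ∣ Nat.card G → ∃ i, p i = q) (S : (i : Fin t) → Sylow (p i) G) : ∀ g : G, ∃ s : (i : Fin t) → G, (∀ i, s i ∈ (S i : Subgroup G)) ∧ g = (List.ofFn s).prod := by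
  induction hn : Nat.card G using Nat.strong_induction_on generalizing G with
  | _ m ih =>
    intro g
    cases subsingleton_or_nontrivial G
    · exact ⟨fun _ => 1, fun i => one_mem _, Subsingleton.elim _ _⟩
    obtain ⟨N, r, hN, hN0, -, hr, hNr, -⟩ := Cfsg.Agent.H19.exists_normal_elementary (G := G)
    have : Fact r.Prime := ⟨hr⟩
    have hrd : r ∣ Nat.card G :=
      (hNr.card_eq_or_dvd.resolve_left (fun h => hN0 (Subgroup.card_eq_one.mp h))).trans
        (Subgroup.card_subgroup_dvd_card N)
    obtain ⟨j, rfl⟩ := hall r hr hrd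
    have hf : ∀ i, Fact (p i).Prime := fun i => ⟨hp i⟩
    have hNS : N ≤ (S j : Subgroup G) := hNr.le_sylow_of_normal (S j)
    have hs := QuotientGroup.mk'_surjective N
    have : Finite (G ⧸ N) := Quotient.finite _
    obtain ⟨s', hs', hg⟩ := ih _ (hn ▸ Cfsg.Agent.H32.card_quotient_lt N hN0)
      (fun q hq hqd => hall q hq (hqd.trans (Subgroup.card_quotient_dvd_card N)))
      (fun i => (S i).mapSurjective hs) rfl (QuotientGroup.mk' N g)
    have hsel : ∀ i, ∃ x ∈ (S i : Subgroup G), QuotientGroup.mk' N x = s' i := fun i => hs' i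
    choose s hsS hse using hsel
    have hgn : g * ((List.ofFn s).prod)⁻¹ ∈ N := by
      rw [← QuotientGroup.eq_one_iff]
      change QuotientGroup.mk' N (g * ((List.ofFn s).prod)⁻¹) = 1
      rw [map_mul, map_inv, map_list_prod, List.map_ofFn, mul_inv_eq_one, hg]
      congr 1
      congr 1
      funext i
      exact (hse i).symm
    obtain ⟨n', hn', he⟩ := absorb hN t s j _ hgn
    refine ⟨Function.update s j (n' * s j), fun i => ?_, ?_⟩
    · rcases eq_or_ne i j with rfl | hij
      · rw [Function.update_self]
        exact mul_mem (hNS hn') (hsS i)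
      · rw [Function.update_of_ne hij]
        exact hsS i
    · rw [← he, inv_mul_cancel_right]

end Cfsg.Agent.S0554
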