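import Cfsg.Statements.S0555
import Mathlib

set_option autoImplicit false
open Cfsg

namespace Cfsg.Agent.S0555

open scoped commutatorElement

/-- Let i ≥ 1. If in the derived series of a group the quotient of the i-th term by the (i+1)-st and the quotient of the (i+1)-st by the (i+2)-nd are both cyclic, then the (i+1)-st and (i+2)-nd terms coincide. -/
theorem result {G : Type*} [Group G] (i : ℕ) (hi : 1 ≤ i) (h₁ : IsCyclic (↥(derivedSeries G i) ⧸ (derivedSeries G (i + 1)).subgroupOf (derivedSeries G i))) (h₂ : IsCyclic (↥(derivedSeries G (i + 1)) ⧸ (derivedSeries G (i + 2)).subgroupOf (derivedSeries G (i + 1)))) : derivedSeries G (i + 1) = derivedSeries G (i + 2) := by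
  let C := derivedSeries G (i + 2)
  have hs := QuotientGroup.mk'_surjective (derivedSeries G (i + 2))
  have gen : ∀ j : ℕ, IsCyclic (↥(derivedSeries G j) ⧸ (derivedSeries G (j + 1)).subgroupOf (derivedSeries G j)) →
      ∃ b ∈ derivedSeries G j, ∀ x ∈ derivedSeries G j, ∃ k : ℤ, (b ^ k)⁻¹ * x ∈ derivedSeries G (j + 1) := by
    intro j hj
    obtain ⟨y, hy⟩ := hj.exists_generator
    obtain ⟨b, rfl⟩ := QuotientGroup.mk_surjective y
    refine ⟨b, b.2, fun x hx => ?_⟩
    obtain ⟨k, hk⟩ := hy (QuotientGroup.mk ⟨x, hx⟩)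
    refine ⟨k, ?_⟩
    have := QuotientGroup.eq.mp ((QuotientGroup.mk_zpow _ b k).trans hk)
    simpa [Subgroup.mem_subgroupOf] using this
  obtain ⟨a, ha, hagen⟩ := gen i h₁
  obtain ⟨b, hb, hbgen⟩ := gen (i + 1) h₂
  let π := QuotientGroup.mk' (derivedSeries G (i + 2))
  have hB : ∀ x ∈ derivedSeries G (i + 1), ∃ k : ℤ, π x = π b ^ k := by
    intro x hx
    obtain ⟨k, hk⟩ := hbgen x hx
    refine ⟨k, ?_⟩
    have : π ((b ^ k)⁻¹ * x) = 1 := (QuotientGroup.eq_one_iff _).mpr hk
    rw [map_mul, map_inv, map_zpow, inv_mul_eq_one] at this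
    exact this.symm
  have hfix : ∀ x ∈ derivedSeries G i, π x * π b = π b * π x := by
    have h0 : derivedSeries G i ≤ (Subgroup.centralizer {π b}).comap π := by
      refine (derivedSeries_antitone G hi).trans ?_
      rw [derivedSeries_one, commutator_def, Subgroup.commutator_le]
      intro g _ h _
      obtain ⟨k, hk⟩ := hB _ ((derivedSeries_normal G (i + 1)).conj_mem b hb g)
      obtain ⟨l, hl⟩ := hB _ ((derivedSeries_normal G (i + 1)).conj_mem b hb h)
      rw [map_mul, map_mul, map_inv] at hk hl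
      obtain ⟨k', hk'⟩ := hB _ ((derivedSeries_normal G (i + 1)).conj_mem b hb g⁻¹)
      simp only [map_mul, map_inv] at hk'
      obtain ⟨l', hl'⟩ := hB _ ((derivedSeries_normal G (i + 1)).conj_mem b hb h⁻¹)
      simp only [map_mul, map_inv] at hl'
      have conjpow : ∀ (u v : G ⧸ derivedSeries G (i + 2)) (m n : ℤ),
          u * π b * u⁻¹ = π b ^ m → v * π b * v⁻¹ = π b ^ n →
          u * v * π b * (u * v)⁻¹ = π b ^ (m * n) := by
        intro u v m n hu hv
        calc u * v * π b * (u * v)⁻¹ = u * (v * π b * v⁻¹) * u⁻¹ := by group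
          _ = u * π b ^ n * u⁻¹ := by rw [hv]
          _ = (u * π b * u⁻¹) ^ n := conj_zpow.symm
          _ = π b ^ (m * n) := by rw [hu, ← zpow_mul]
      have e1 := conjpow _ _ _ _ hk hl
      have e2 := conjpow _ _ _ _ hl hk
      rw [mul_comm k l, ← e2] at e1
      rw [Subgroup.mem_comap, map_commutatorElement, Subgroup.mem_centralizer_singleton_iff,
        commutatorElement_def]
      have e3 : π g * π h * (π g)⁻¹ * (π h)⁻¹ * π b * (π g * π h * (π g)⁻¹ * (π h)⁻¹)⁻¹ = π b := by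
        have e4 : (π h * π g)⁻¹ * (π g * π h * π b * (π g * π h)⁻¹) * (π h * π g) = π b := by
          rw [e1]; group
        have e5 := conjpow _ _ _ _ hk' hl'
        have e6 := conjpow _ _ _ _ hl' hk'
        rw [mul_comm k' l', ← e6] at e5
        calc π g * π h * (π g)⁻¹ * (π h)⁻¹ * π b * (π g * π h * (π g)⁻¹ * (π h)⁻¹)⁻¹
            = π g * π h * ((π g)⁻¹ * (π h)⁻¹ * π b * ((π g)⁻¹ * (π h)⁻¹)⁻¹) * (π g * π h)⁻¹ := by
              group
          _ = π g * π h * ((π h)⁻¹ * (π g)⁻¹ * π b * ((π h)⁻¹ * (π g)⁻¹)⁻¹) * (π g * π h)⁻¹ := by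
              rw [e5]
          _ = π b := by group
      exact mul_inv_eq_iff_eq_mul.mp e3
    intro x hx
    exact Subgroup.mem_centralizer_singleton_iff.mp (h0 hx)
  refine le_antisymm ?_ (derivedSeries_antitone G (Nat.le_succ _))
  have hA : ∀ x ∈ derivedSeries G i, ∃ k l : ℤ, π x = π a ^ k * π b ^ l := by
    intro x hx
    obtain ⟨k, hk⟩ := hagen x hx
    obtain ⟨l, hl⟩ := hB _ hk
    rw [map_mul, map_inv, map_zpow, inv_mul_eq_iff_eq_mul] at hl
    exact ⟨k, l, hl⟩
  rw [derivedSeries_succ, Subgroup.commutator_le]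
  intro x hx y hy
  rw [← QuotientGroup.eq_one_iff]
  change π ⁅x, y⁆ = 1
  rw [map_commutatorElement, commutatorElement_eq_one_iff_mul_comm]
  obtain ⟨k, l, hkl⟩ := hA x hx
  obtain ⟨m, n, hmn⟩ := hA y hy
  rw [hkl, hmn]
  have hc : Commute (π a) (π b) := hfix a ha
  exact (((Commute.refl (π a)).zpow_zpow k m).mul_right (hc.zpow_zpow k n)).mul_left
    ((hc.symm.zpow_zpow l m).mul_right ((Commute.refl (π b)).zpow_zpow l n))

end Cfsg.Agent.S0555
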