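import Cfsg.Statements.S0557
import Cfsg.Agent.H33.FocalSeries

set_option autoImplicit false
open Cfsg

namespace Cfsg.Agent.S0557

/-- Let H be a subgroup of a finite group G with order coprime to its index. If iterating the focal-subgroup construction starting from H reaches the trivial subgroup after finitely many steps, then H has a normal complement in G. -/
theorem result {G : Type*} [Group G] [Finite G] (H : Subgroup G) (hHall : (Nat.card H).Coprime H.index) (n : ℕ) (hfoc : (fun K : Subgroup G => Subgroup.focalSubgroup K)^[n] H = ⊥) : ∃ N : Subgroup G, N.Normal ∧ Subgroup.IsComplement' N H := by
  exact H33.exists_normal_complement_of_focal_series n H hHall hfoc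

end Cfsg.Agent.S0557
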