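import Cfsg.Statements.S0558
import Cfsg.Agent.H33.FocalSeries
import Cfsg.Agent.H22.Frobenius

set_option autoImplicit false
open Cfsg

namespace Cfsg.Agent.S0558

/-- Let H be a subgroup of a finite group G that is not a Sylow subgroup of G for any prime, and suppose that for every prime p dividing the order of H and every Sylow p-subgroup P of H the normalizer of P in G is exactly H. Then some normal subgroup of G is a complement to H. -/
theorem result {G : Type*} [Group G] [Finite G] (H : Subgroup G) (hnot : ∀ p : ℕ, p.Prime → ∀ P : Sylow p G, (P : Subgroup G) ≠ H) (hnorm : ∀ p : ℕ, p.Prime → p ∣ Nat.card H → ∀ P : Sylow p H, Subgroup.normalizer (((P : Subgroup H).map H.subtype : Subgroup G) : Set G) = H) : ∃ N : Subgroup G, N.Normal ∧ Subgroup.IsComplement' N H := by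
  -- every Sylow subgroup of `H` is normal in `H`
  have hnorm' : ∀ (p : ℕ) [Fact p.Prime] (P : Sylow p H), p ∣ Nat.card H →
      (P : Subgroup H).Normal := by
    intro p _ P hp
    have := (Subgroup.normal_subgroupOf_iff_le_normalizer (Subgroup.map_subtype_le (P : Subgroup H))).2
      (hnorm p Fact.out hp P).ge
    rwa [Subgroup.subgroupOf, Subgroup.comap_map_eq_self_of_injective H.subtype_injective] at this
  haveI hnil : Group.IsNilpotent H := by
    refine ((Group.isNilpotent_of_finite_tfae (G := ↥H)).out 0 3).2 fun p hp P => ?_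
    haveI := hp
    by_cases hd : p ∣ Nat.card H
    · exact hnorm' p P hd
    · have : (P : Subgroup H) = ⊥ := by
        rw [← Subgroup.card_eq_one, P.card_eq_multiplicity, Nat.factorization_eq_zero_of_not_dvd hd,
          pow_zero]
      rw [this]; infer_instance
  -- every Sylow subgroup of `H` is one of `G`
  have hsyl : ∀ (p : ℕ) [Fact p.Prime] (P : Sylow p H), p ∣ Nat.card H →
      ∃ S : Sylow p G, (S : Subgroup G) = (P : Subgroup H).map H.subtype := by
    intro p _ P hp
    obtain ⟨S, hS⟩ := (P.2.map H.subtype).exists_le_sylow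
    refine ⟨S, (eq_of_le_of_not_lt hS fun hlt => ?_).symm⟩
    have hlt' := H22.lt_inf_normalizer_of_lt S.2 hlt
    rw [hnorm p Fact.out hp P] at hlt'
    have h1 : ((P : Subgroup H).map H.subtype).subgroupOf H = (P : Subgroup H) :=
      Subgroup.comap_map_eq_self_of_injective H.subtype_injective _
    have h2 : (P : Subgroup H) = ((S : Subgroup G) ⊓ H).subgroupOf H := by
      refine (P.3 ?_ ?_).symm
      · exact ((S.2.to_le inf_le_left).of_equiv (Subgroup.subgroupOfEquivOfLe inf_le_right).symm)
      · rw [← h1]; exact Subgroup.comap_mono hlt'.le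
    apply hlt'.ne
    rw [h2, Subgroup.map_subgroupOf_eq_of_le inf_le_right]
  have hHall : (Nat.card H).Coprime H.index := by
    refine Nat.coprime_of_dvd fun p hp hpH hpi => ?_
    haveI : Fact p.Prime := ⟨hp⟩
    obtain ⟨S, hS⟩ := hsyl p (default : Sylow p H) hpH
    exact S.not_dvd_index (hpi.trans (Subgroup.index_dvd_of_le (hS.le.trans (Subgroup.map_subtype_le _))))
  -- `H` has at least two prime divisors
  have htwo : ∀ p : ℕ, p.Prime → ∃ q : ℕ, q.Prime ∧ q ∣ Nat.card H ∧ q ≠ p := by
    intro p hp
    by_contra hcon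
    push Not at hcon
    haveI : Fact p.Prime := ⟨hp⟩
    obtain ⟨P⟩ := (inferInstance : Nonempty (Sylow p H))
    have htop : (P : Subgroup H) = ⊤ := by
      rw [← Subgroup.index_eq_one]
      by_contra hne
      obtain ⟨q, hq, hqd⟩ := Nat.exists_prime_and_dvd hne
      obtain rfl := hcon q hq (hqd.trans ((P : Subgroup H).index_dvd_card))
      exact P.not_dvd_index hqd
    by_cases hd : p ∣ Nat.card H
    · obtain ⟨S, hS⟩ := hsyl p P hd
      exact hnot p hp S (by rw [hS, htop, ← MonoidHom.range_eq_map, H.range_subtype])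
    · have hH : H = ⊥ := by
        rw [← Subgroup.card_eq_one]
        by_contra hne
        obtain ⟨q, hq, hqd⟩ := Nat.exists_prime_and_dvd hne
        exact hd (hcon q hq hqd ▸ hqd)
      obtain ⟨r, hr1, hr⟩ := Nat.exists_infinite_primes (Nat.card G + 1)
      haveI : Fact r.Prime := ⟨hr⟩
      obtain ⟨S⟩ := (inferInstance : Nonempty (Sylow r G))
      refine hnot r hr S ?_
      rw [hH, ← Subgroup.card_eq_one, S.card_eq_multiplicity,
        Nat.factorization_eq_zero_of_not_dvd fun h => absurd (Nat.le_of_dvd Nat.card_pos h) (by omega),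
        pow_zero]
  refine H33.exists_normal_complement_of_parts H hHall fun x hx p k hp hk g hg => ?_
  obtain ⟨q, hq, hqH, hqp⟩ := htwo p hp
  haveI : Fact p.Prime := ⟨hp⟩
  haveI : Fact q.Prime := ⟨hq⟩
  obtain ⟨S, hS⟩ := hsyl q (default : Sylow q H) hqH
  have hcomm : ∀ y ∈ H, orderOf y = p ^ k → ∀ a ∈ (S : Subgroup G), a * y = y * a := by
    intro y hy hyk a ha
    rw [hS] at ha
    obtain ⟨b, hb, rfl⟩ := ha
    obtain ⟨l, hl⟩ := IsPGroup.iff_orderOf.1 (default : Sylow q H).2 ⟨b, hb⟩
    rw [Subgroup.orderOf_mk] at hl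
    exact (H33.commute_of_mem_nilpotent hnil hy b.2 hyk hq hqp
      ((Subgroup.orderOf_coe b).trans hl)).symm
  have hord : orderOf (g * x * g⁻¹) = p ^ k := by
    rw [← hk]; exact orderOf_injective (MulAut.conj g).toMonoidHom (MulEquiv.injective _) x
  obtain ⟨n, hn, hne⟩ := H33.exists_conj_mem_of_centralizer S (hcomm x hx hk) (hcomm _ hg hord)
  refine ⟨n, ?_, hne⟩
  rw [← hnorm q hq hqH (default : Sylow q H), ← hS]
  exact hn

end Cfsg.Agent.S0558
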