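import Cfsg.Statements.S0559
import Cfsg.Agent.H33.Basic

set_option autoImplicit false
open Pointwise
open Cfsg

namespace Cfsg.Agent.S0559

theorem result {G : Type*} [Group G] [Finite G] (H K A B : Subgroup G) (hHK : ∀ g : G, ∃ h ∈ H, ∃ k ∈ K, g = h * k) (hA : ∃ x : G, A = MulAut.conj x • H) (hB : ∃ y : G, B = MulAut.conj y • K) : (∀ g : G, ∃ a ∈ A, ∃ b ∈ B, g = a * b) ∧ ∃ g : G, A = MulAut.conj g • H ∧ B = MulAut.conj g • K := by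
  obtain ⟨x, rfl⟩ := hA
  obtain ⟨y, rfl⟩ := hB
  obtain ⟨z, hz1, hz2⟩ := H33.exists_simul_conj hHK x y
  refine ⟨fun g => ?_, z, hz1, hz2⟩
  rw [hz1, hz2]
  obtain ⟨h, hh, k, hk, e⟩ := hHK (z⁻¹ * g * z)
  refine ⟨z * h * z⁻¹, ?_, z * k * z⁻¹, ?_, ?_⟩
  · rw [H19.mem_conj_smul]; simpa [mul_assoc] using hh
  · rw [H19.mem_conj_smul]; simpa [mul_assoc] using hk
  · rw [show z * h * z⁻¹ * (z * k * z⁻¹) = z * (h * k) * z⁻¹ by group, ← e]; group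

end Cfsg.Agent.S0559
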