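import Cfsg.Statements.S0560
import Cfsg.Agent.H33.SylowProduct

set_option autoImplicit false
open Pointwise
open Cfsg

namespace Cfsg.Agent.S0560

theorem result {G : Type*} [Group G] [Finite G] (H K : Subgroup G) (hHK : ∀ g : G, ∃ h ∈ H, ∃ k ∈ K, g = h * k) (p : ℕ) [Fact p.Prime] : ∃ (P : Sylow p H) (Q : Sylow p K) (R : Sylow p G), ((R : Subgroup G) : Set G) = (((P : Subgroup H).map H.subtype : Subgroup G) : Set G) * (((Q : Subgroup K).map K.subtype : Subgroup G) : Set G) := by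
  obtain ⟨P₀⟩ := (inferInstance : Nonempty (Sylow p H))
  obtain ⟨Q₀⟩ := (inferInstance : Nonempty (Sylow p K))
  obtain ⟨R, hR⟩ := (P₀.2.map H.subtype).exists_le_sylow
  obtain ⟨R', hR'⟩ := (Q₀.2.map K.subtype).exists_le_sylow
  obtain ⟨g, hg⟩ := MulAction.exists_smul_eq G R R'
  obtain ⟨k, hk, h, hh, e⟩ := H33.prod_swap hHK g
  have e' : (k⁻¹ • R' : Sylow p G) = h • R := by
    rw [← hg, e, mul_smul, inv_smul_smul]
  have hP : (((⟨h, hh⟩ : H) • P₀ : Sylow p H) : Subgroup H).map H.subtype ≤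
      ((h • R : Sylow p G) : Subgroup G) := by
    rintro _ ⟨x, hx, rfl⟩
    rw [Sylow.coe_subgroup_smul, SetLike.mem_coe, Subgroup.mem_pointwise_smul_iff_inv_smul_mem] at hx
    rw [Sylow.coe_subgroup_smul, Subgroup.mem_pointwise_smul_iff_inv_smul_mem]
    have := hR ⟨_, hx, rfl⟩
    simpa using this
  have hQ : (((⟨k⁻¹, K.inv_mem hk⟩ : K) • Q₀ : Sylow p K) : Subgroup K).map K.subtype ≤
      ((k⁻¹ • R' : Sylow p G) : Subgroup G) := by
    rintro _ ⟨x, hx, rfl⟩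
    rw [Sylow.coe_subgroup_smul, SetLike.mem_coe, Subgroup.mem_pointwise_smul_iff_inv_smul_mem] at hx
    rw [Sylow.coe_subgroup_smul, Subgroup.mem_pointwise_smul_iff_inv_smul_mem]
    have := hR' ⟨_, hx, rfl⟩
    simpa using this
  rw [e'] at hQ
  refine ⟨_, _, h • R, H33.coe_eq_mul hP hQ (H33.sylow_prod hHK (Subgroup.map_subtype_le _)
    (Subgroup.map_subtype_le _) (H33.card_map_sylow _) (H33.card_map_sylow _) _ hP hQ)⟩

end Cfsg.Agent.S0560
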