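import Cfsg.Statements.S0563
import Cfsg.Agent.H33.HallPermute
import Cfsg.Agent.H33.KegelWielandt

set_option autoImplicit false
open Pointwise
open Cfsg

namespace Cfsg.Agent.S0563

/-- If a finite group G is the product AB of two nilpotent subgroups of coprime orders, then G is solvable, and for every Sylow p-subgroup P of A and Sylow q-subgroup Q of B the product set PQ is a subgroup. -/
theorem result {G : Type*} [Group G] [Finite G] (A B : Subgroup G) (hA : Group.IsNilpotent A) (hB : Group.IsNilpotent B) (hcop : (Nat.card A).Coprime (Nat.card B)) (hAB : ∀ g : G, ∃ a ∈ A, ∃ b ∈ B, g = a * b) : Group.IsSolvable G ∧ ∀ (p q : ℕ) [Fact p.Prime] [Fact q.Prime] (P : Sylow p A) (Q : Sylow q B), ∃ S : Subgroup G, (S : Set G) = (((P : Subgroup A).map A.subtype : Subgroup G) : Set G) * (((Q : Subgroup B).map B.subtype : Subgroup G) : Set G) := by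
  haveI hsol : Group.IsSolvable G := H33.isSolvable_of_prod_nilpotent A B hA hB hAB
  refine ⟨hsol, ?_⟩
  intro p q _ _ P Q
  haveI := hA
  haveI := hB
  have hcard : Nat.card A * Nat.card B = Nat.card G := by
    rw [H33.card_prod hAB, Subgroup.card_eq_one.2 (Subgroup.eq_bot_of_card_eq _
      (Nat.eq_one_of_dvd_coprimes hcop (Subgroup.card_dvd_of_le inf_le_left)
        (Subgroup.card_dvd_of_le inf_le_right)))]
    try simp
  have key : ∀ (X : Subgroup G) (r : ℕ) [Fact r.Prime] (R : Sylow r X), Group.IsNilpotent X →
      (Nat.card X).Coprime X.index →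
      X ≤ Subgroup.normalizer ((R : Subgroup X).map X.subtype : Set G) ∧
      (Nat.card ((R : Subgroup X).map X.subtype : Subgroup G)).Coprime
        ((R : Subgroup X).map X.subtype).index := by
    intro X r _ R hX hX'
    constructor
    · rw [← Subgroup.normal_subgroupOf_iff_le_normalizer (Subgroup.map_subtype_le _),
        Subgroup.subgroupOf, Subgroup.comap_map_eq_self_of_injective X.subtype_injective]
      exact (Group.isNilpotent_of_finite_tfae.out 0 3 rfl rfl).1 hX r ‹_› R
    · rw [Subgroup.index_map_subtype, Subgroup.card_map_of_injective X.subtype_injective]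
      exact Nat.Coprime.mul_right R.card_coprime_index
        (hX'.coprime_dvd_left (Subgroup.card_subgroup_dvd_card _))
  obtain ⟨h1, h2⟩ := key A p P hA (by
    rwa [← Nat.eq_of_mul_eq_mul_left Nat.card_pos (A.card_mul_index.trans hcard.symm).symm])
  obtain ⟨h3, h4⟩ := key B q Q hB (by
    rw [← Nat.eq_of_mul_eq_mul_left Nat.card_pos
      (B.card_mul_index.trans (hcard.symm.trans (mul_comm _ _))).symm]
    exact hcop.symm)
  have := H33.perm_conj_hall hAB h1 h3 h2 h4 1 1
  simp only [map_one, one_smul] at this
  exact ⟨_, this.coe_sup⟩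

end Cfsg.Agent.S0563
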