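import Cfsg.Statements.S0566
import Cfsg.Agent.H33.Kegel

set_option autoImplicit false
open Pointwise
open Cfsg

namespace Cfsg.Agent.S0566

/-- Let A and B be nontrivial subgroups of a finite group G such that for every x the product set of A and xBx⁻¹ is a proper subgroup of G. Then there is a proper normal subgroup of G containing A or containing B. -/
theorem result {G : Type*} [Group G] [Finite G] (A B : Subgroup G) (hA : A ≠ ⊥) (hB : B ≠ ⊥) (h : ∀ x : G, ∃ S : Subgroup G, S ≠ ⊤ ∧ (S : Set G) = (A : Set G) * ((MulAut.conj x • B : Subgroup G) : Set G)) : ∃ N : Subgroup G, N.Normal ∧ N ≠ ⊤ ∧ (A ≤ N ∨ B ≤ N) := by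
  have hperm : ∀ y : G, H33.Perm A (MulAut.conj y • B) := fun y =>
    (h y).elim fun S hS => H33.perm_of_coe_eq hS.2
  have hbase : ∀ y : G, A ⊔ MulAut.conj y • B ≠ ⊤ := fun y e => by
    obtain ⟨S, hS, hS'⟩ := h y
    rw [← (hperm y).coe_sup, SetLike.coe_set_eq] at hS'
    exact hS (hS'.trans e)
  obtain ⟨X, hAX, hQ, hX, hN⟩ := H33.exists_normalised_extension A B
    (fun X => ∀ y : G, X ⊔ MulAut.conj y • B ≠ ⊤) hbase hperm
    (fun X X' hQ _ hX' ⟨x, hx⟩ y e => by
      -- `G = X' B^y` would force `G = X' B^x`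
      obtain ⟨z, hz1, hz2⟩ := H33.exists_simul_conj
        (fun g => (hX' y).exists_mul g (e ▸ Subgroup.mem_top g)) 1 (x * y⁻¹)
      rw [map_one, one_smul] at hz1
      rw [← H19.conj_mul_smul, inv_mul_cancel_right] at hz2
      refine hQ x (eq_top_iff.2 ?_)
      refine le_trans ?_ (sup_le hx le_sup_right)
      rw [hz2]
      conv_rhs => rw [hz1]
      rw [← Subgroup.smul_sup, e]
      intro g _
      rw [H19.mem_conj_smul]
      exact Subgroup.mem_top _)
  by_cases hB' : Subgroup.normalClosure (B : Set G) = ⊤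
  · refine ⟨X, Subgroup.normalizer_eq_top_iff.1 (eq_top_iff.2 (hB'.ge.trans hN)), fun e => ?_,
      Or.inl hAX⟩
    exact hQ 1 (by rw [e, top_sup_eq])
  · exact ⟨_, Subgroup.normalClosure_normal, hB', Or.inr Subgroup.le_normalClosure⟩

end Cfsg.Agent.S0566
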