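import Cfsg.Statements.S0567
import Mathlib.GroupTheory.IsSubnormal

set_option autoImplicit false
open Cfsg

namespace Cfsg.Agent.S0567

/-- A subgroup H of a group G is subnormal exactly when, for some m, the subgroup obtained from G by taking the commutator with H m times in succession is contained in H. -/
theorem result {G : Type*} [Group G] (H : Subgroup G) : H.IsSubnormal ↔ ∃ m : ℕ, (fun K : Subgroup G => ⁅K, H⁆)^[m] ⊤ ≤ H := by
  have mono : ∀ (m : ℕ) (K : Subgroup G), H ≤ K →
      (fun X : Subgroup G => ⁅X, H⁆)^[m] ⊤ ≤ (fun X : Subgroup G => ⁅X, K⁆)^[m] ⊤ := by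
    intro m K hHK
    induction m with
    | zero => exact le_rfl
    | succ m ih =>
      rw [Function.iterate_succ', Function.iterate_succ', Function.comp_apply, Function.comp_apply]
      exact Subgroup.commutator_mono ih hHK
  constructor
  · intro h
    induction h with
    | top => exact ⟨0, le_rfl⟩
    | step H K hle _ hN ih =>
      obtain ⟨m, hm⟩ := ih (fun m L hL => by
        induction m with
        | zero => exact le_rfl
        | succ m ih =>
          rw [Function.iterate_succ', Function.iterate_succ', Function.comp_apply, Function.comp_apply]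
          exact Subgroup.commutator_mono ih hL)
      refine ⟨m + 1, ?_⟩
      rw [Function.iterate_succ', Function.comp_apply]
      refine (Subgroup.commutator_mono ((mono m K hle).trans hm) le_rfl).trans ?_
      rw [Subgroup.commutator_comm]
      exact Subgroup.le_normalizer_iff_commutator_le_left.1
        ((Subgroup.normal_subgroupOf_iff_le_normalizer hle).1 hN)
  · rintro ⟨m, hm⟩
    set L : ℕ → Subgroup G := fun i => (fun X : Subgroup G => ⁅X, H⁆)^[i] ⊤ ⊔ H with hL
    have hsucc : ∀ i, (fun X : Subgroup G => ⁅X, H⁆)^[i + 1] ⊤ ≤
        (fun X : Subgroup G => ⁅X, H⁆)^[i] ⊤ := by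
      intro i
      induction i with
      | zero => exact le_top
      | succ i ih =>
        rw [Function.iterate_succ', Function.comp_apply]
        conv_rhs => rw [Function.iterate_succ', Function.comp_apply]
        exact Subgroup.commutator_mono ih le_rfl
    have key : ∀ i, (L i).IsSubnormal := by
      intro i
      induction i with
      | zero => simp only [hL, Function.iterate_zero, id_eq, top_sup_eq]; exact .top
      | succ i ih =>
        have hle : L (i + 1) ≤ L i := sup_le_sup_right (hsucc i) H
        refine .step _ _ hle ih ((Subgroup.normal_subgroupOf_iff_le_normalizer hle).2 ?_)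
        simp only [hL, Function.iterate_succ', Function.comp_apply]
        set K := (fun X : Subgroup G => ⁅X, H⁆)^[i] ⊤
        have hconj : ∀ g : G, g ∈ (K : Set G) ∨ g ∈ (H : Set G) →
            ∀ x ∈ ⁅K, H⁆ ⊔ H, g * x * g⁻¹ ∈ ⁅K, H⁆ ⊔ H := by
          intro g hg
          have : ⁅K, H⁆ ⊔ H ≤ (⁅K, H⁆ ⊔ H).comap (MulAut.conj g).toMonoidHom := by
            refine sup_le (fun x hx => ?_) (fun x hx => ?_)
            · have hgN : g ∈ Subgroup.normalizer (⁅K, H⁆ : Subgroup G) :=
                hg.elim (fun h => Subgroup.normalizer_commutator_ge_left _ _ h)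
                  fun h => Subgroup.normalizer_commutator_ge_right _ _ h
              exact Subgroup.mem_sup_left ((Subgroup.mem_normalizer_iff.1 hgN x).1 hx)
            · rw [Subgroup.mem_comap]; simp only [MulEquiv.coe_toMonoidHom, MulAut.conj_apply]
              rcases hg with h | h
              · rw [show g * x * g⁻¹ = (g * x * g⁻¹ * x⁻¹) * x by simp]
                exact mul_mem (Subgroup.mem_sup_left (Subgroup.commutator_mem_commutator h hx))
                  (Subgroup.mem_sup_right hx)
              · exact Subgroup.mem_sup_right (H.mul_mem (H.mul_mem h hx) (H.inv_mem h))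
          exact fun x hx => this hx
        refine sup_le ?_ ?_ <;> intro g hg <;> rw [Subgroup.mem_normalizer_iff] <;>
          refine fun x => ⟨hconj g (by simp [hg]) x, fun hx => ?_⟩ <;>
          simpa [mul_assoc] using hconj g⁻¹ (by simp [hg]) _ hx
    have : L m = H := sup_eq_right.2 hm
    exact this ▸ key m

end Cfsg.Agent.S0567
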