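import Cfsg.Statements.S0576
import Cfsg.Agent.H19.Basic
import Mathlib.GroupTheory.Frattini

set_option autoImplicit false
open Cfsg

namespace Cfsg.Agent.S0576

/-- Let H be a normal subgroup of a finite group G with H contained in the Frattini subgroup of G. Then the group of inner automorphisms of H is contained in the Frattini subgroup of the automorphism group of H. -/
theorem result {G : Type*} [Group G] [Finite G] (H : Subgroup G) [H.Normal] (hH : H ≤ frattini G) : (MulAut.conj : ↥H →* MulAut ↥H).range ≤ frattini (MulAut ↥H) := by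
  refine le_iInf₂ fun M hM => ?_
  let φ : G →* MulAut ↥H := MulAut.conjNormal
  have hφ : ∀ h : H, φ (h : G) = MulAut.conj h := fun h => by
    ext x; simp [φ, MulAut.conjNormal_apply, MulAut.conj_apply]
  have hIn : (MulAut.conj : ↥H →* MulAut ↥H).range.Normal := by
    refine ⟨fun x hx σ => ?_⟩
    obtain ⟨h, rfl⟩ := hx
    exact ⟨σ h, by ext y; simp [MulAut.conj_apply]⟩
  by_contra hle
  have htop : (MulAut.conj : ↥H →* MulAut ↥H).range ⊔ M = ⊤ :=
    hM.2 _ (lt_of_le_of_ne le_sup_right fun e => hle (e ▸ le_sup_left))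
  have hU : M.comap φ ⊔ frattini G = ⊤ := by
    rw [eq_top_iff]
    intro g _
    obtain ⟨i, hi, m, hm, e⟩ := H19.exists_mul_of_sup_eq_top htop (φ g)
    obtain ⟨h, rfl⟩ := hi
    have hg : g = (h : G) * ((h : G)⁻¹ * g) := by group
    rw [hg]
    refine mul_mem (Subgroup.mem_sup_right (hH h.2)) (Subgroup.mem_sup_left ?_)
    rw [Subgroup.mem_comap, map_mul, map_inv, hφ, e, inv_mul_cancel_left]
    exact hm
  refine hle ?_
  rintro _ ⟨h, rfl⟩
  rw [← hφ]
  exact (Subgroup.mem_comap).1 ((frattini_nongenerating hU).ge (Subgroup.mem_top (h : G)))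

end Cfsg.Agent.S0576
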