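import Cfsg.Statements.S0577
import Cfsg.Agent.H33.MinimalNonNilpotent

set_option autoImplicit false
open Cfsg

namespace Cfsg.Agent.S0577

/-- Let G be a finite minimal non-nilpotent group and Q a normal Sylow q-subgroup of G, and let D be the commutator subgroup of Q regarded in G (a normal subgroup). Then G modulo D is non-abelian and all its proper subgroups are abelian. -/
theorem result {G : Type*} [Group G] [Finite G] (hG : Cfsg.IsMinimalNonNilpotent G) (q : ℕ) [Fact q.Prime] (hq : q ∣ Nat.card G) (Q : Sylow q G) (hQ : (Q : Subgroup G).Normal) (D : Subgroup G) [D.Normal] (hD : D = (commutator ↥(Q : Subgroup G)).map (Q : Subgroup G).subtype) : ¬ IsMulCommutative (G ⧸ D) ∧ ∀ K : Subgroup (G ⧸ D), K ≠ ⊤ → IsMulCommutative K := by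
  exact H33.minimalNonNilpotent_quotient hG q hq Q hQ D hD

end Cfsg.Agent.S0577
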