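import Cfsg.Statements.S0578
import Cfsg.Agent.H19.Misc
import Cfsg.Agent.H32.Basic
import Mathlib.GroupTheory.Transfer

set_option autoImplicit false
open Cfsg

namespace Cfsg.Agent.S0578

/-- If in a finite group the normalizer of each abelian subgroup coincides with its centralizer, then the group is abelian. -/
theorem result {G : Type*} [Group G] [Finite G] (h : ∀ A : Subgroup G, IsMulCommutative A → Subgroup.normalizer (A : Set G) = Subgroup.centralizer (A : Set G)) : IsMulCommutative G := by
  have nil : ∀ P : Subgroup G, Group.IsNilpotent P → IsMulCommutative P := by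
    intro P hP
    haveI := hP
    obtain ⟨A, ⟨hAn, hAc⟩, hmax⟩ := (wellFounded_gt (α := Subgroup ↥P)).has_min
      {A | A.Normal ∧ IsMulCommutative A} ⟨⊥, inferInstance, inferInstance⟩
    haveI := hAn
    haveI := hAc
    have hC := H19.centralizer_eq_of_max_abelian_normal A fun M hM hMc hle =>
      (eq_of_le_of_not_lt hle (hmax M ⟨hM, hMc⟩)).symm
    have hAG : IsMulCommutative (A.map P.subtype) := inferInstance
    have hPN : P ≤ Subgroup.normalizer (A.map P.subtype : Set G) := by
      rw [← Subgroup.normal_subgroupOf_iff_le_normalizer (Subgroup.map_subtype_le _),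
        Subgroup.subgroupOf, Subgroup.comap_map_eq_self_of_injective P.subtype_injective]
      exact hAn
    rw [h _ hAG] at hPN
    have htop : A = ⊤ := by
      rw [eq_top_iff, ← hC]
      intro x _
      rw [Subgroup.mem_centralizer_iff]
      intro a ha
      exact Subtype.ext (Subgroup.mem_centralizer_iff.1 (hPN x.2) a ⟨a, ha, rfl⟩)
    refine ⟨⟨fun x y => ?_⟩⟩
    have := hAc.is_comm.comm ⟨x, htop ▸ Subgroup.mem_top x⟩ ⟨y, htop ▸ Subgroup.mem_top y⟩
    exact congrArg Subtype.val this
  suffices hG : Group.IsNilpotent G by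
    have := nil ⊤ (Group.isNilpotent_top.2 hG)
    exact ⟨⟨fun x y => congrArg Subtype.val (this.is_comm.comm ⟨x, Subgroup.mem_top x⟩ ⟨y, Subgroup.mem_top y⟩)⟩⟩
  refine ((Group.isNilpotent_of_finite_tfae (G := G)).out 0 2).2 fun M hM => ?_
  by_contra hMn
  obtain ⟨p, hp, hdvd⟩ := Nat.exists_prime_and_dvd (mt Subgroup.index_eq_one.1 hM.1)
  haveI : Fact p.Prime := ⟨hp⟩
  obtain ⟨P⟩ := (inferInstance : Nonempty (Sylow p G))
  have hPc := nil P P.2.isNilpotent
  set K := (MonoidHom.transferSylow P (h _ hPc).le).ker
  have hK : K.IsComplement' (P : Subgroup G) := MonoidHom.ker_transferSylow_isComplement' P (h _ hPc).le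
  -- all commutators lie in `K`, so a maximal subgroup of index divisible by `p` is normal
  have hKM : K ≤ M := by
    by_contra hle
    have htop : K ⊔ M = ⊤ := hM.2 _ (lt_of_le_of_ne le_sup_right fun e => hle (e ▸ le_sup_left))
    have h1 : M.index ∣ Nat.card K := by
      rw [← Subgroup.relIndex_top_right, ← htop, sup_comm]
      haveI : K.Normal := MonoidHom.normal_ker _
      rw [H32.relIndex_sup_eq]
      exact Subgroup.relIndex_dvd_card M K
    exact MonoidHom.not_dvd_card_ker_transferSylow P (h _ hPc).le (hdvd.trans h1)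
  refine hMn (Subgroup.Normal.of_commutator_le _ ((le_trans ?_) hKM))
  haveI := hPc
  open scoped IsMulCommutative in exact Abelianization.commutator_subset_ker _

end Cfsg.Agent.S0578
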