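import Cfsg.Statements.S0583
import Cfsg.Agent.H19.Cores
import Cfsg.Agent.H19.Misc

set_option autoImplicit false
open Cfsg

namespace Cfsg.Agent.S0583

/-- In a finite group the Fitting subgroup is contained in the centralizer of each minimal normal subgroup. -/
theorem result {G : Type*} [Group G] [Finite G] (M : Subgroup G) [M.Normal] (hM : M ≠ ⊥) (hmin : ∀ K : Subgroup G, K.Normal → K ≤ M → K = ⊥ ∨ K = M) : Cfsg.fittingSubgroup G ≤ Subgroup.centralizer (M : Set G) := by
  set F := Cfsg.fittingSubgroup G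
  haveI hFn : F.Normal := H19.fitting_normal G
  haveI hFnil := H19.fitting_isNilpotent (G := G)
  rcases hmin (M ⊓ F) inferInstance inf_le_left with h | h
  · intro f hf
    rw [Subgroup.mem_centralizer_iff]
    intro m hm
    exact Subgroup.commute_of_normal_of_disjoint M F inferInstance hFn (disjoint_iff.2 h) m f hm hf
  · have hMF : M ≤ F := h ▸ inf_le_right
    haveI : Nontrivial (M.subgroupOf F) := (Subgroup.subgroupOfEquivOfLe hMF).toEquiv.nontrivial_congr.2
      ((Subgroup.nontrivial_iff_ne_bot M).2 hM)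
    obtain ⟨z, ⟨hzM, hzZ⟩, hz1⟩ : ∃ z : F, z ∈ M.subgroupOf F ⊓ Subgroup.center F ∧ z ≠ 1 :=
      (Subgroup.ne_bot_iff_exists_ne_one.1 (H19.inf_center_ne_bot (M.subgroupOf F)
        ((Subgroup.nontrivial_iff_ne_bot _).1 inferInstance))).elim
        fun z hz => ⟨z.1, z.2, fun e => hz (Subtype.ext e)⟩
    let K : Subgroup G := M ⊓ Subgroup.centralizer (F : Set G)
    have hzK : (z : G) ∈ K := ⟨hzM, Subgroup.mem_centralizer_iff.2 fun f hf =>
      congrArg Subtype.val (Subgroup.mem_center_iff.1 hzZ ⟨f, hf⟩)⟩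
    rcases hmin K inferInstance inf_le_left with h' | h'
    · rw [h', Subgroup.mem_bot] at hzK
      exact absurd (Subtype.ext hzK) hz1
    · exact Subgroup.le_centralizer_iff.1 (h' ▸ inf_le_right)

end Cfsg.Agent.S0583
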