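import Cfsg.Statements.S0586
import Cfsg.Agent.H33.Frattini
import Mathlib.Algebra.Group.Subgroup.Order
import Mathlib.GroupTheory.SpecificGroups.Cyclic
import Cfsg.Agent.H19.MinimalNormal

set_option autoImplicit false
open Cfsg

namespace Cfsg.Agent.S0586

/-- If the Frattini subgroup of a finite group G is trivial, then the Fitting subgroup of G equals the join of all abelian minimal normal subgroups of G. -/
theorem result {G : Type*} [Group G] [Finite G] (hΦ : frattini G = ⊥) : Cfsg.fittingSubgroup G = sSup {N : Subgroup G | N.Normal ∧ N ≠ ⊥ ∧ IsMulCommutative N ∧ ∀ K : Subgroup G, K.Normal → K ≤ N → K = ⊥ ∨ K = N} := by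
  have hFn := H19.fitting_normal G
  have hFnil := H19.fitting_isNilpotent (G := G)
  refine le_antisymm ?_ (sSup_le ?_)
  swap
  · rintro N ⟨hN, -, hab, -⟩
    refine H19.le_fitting hN ?_
    exact Subgroup.isNilpotent_of_lowerCentralSeries_eq_bot (n := 1) (by
      rw [Subgroup.lowerCentralSeries_succ, Subgroup.lowerCentralSeries_zero,
        Subgroup.commutator_eq_bot_iff_le_centralizer]
      exact Subgroup.le_centralizer_iff_isMulCommutative.2 hab)
  set F := Cfsg.fittingSubgroup G
  have hder : commutator ↥F ≤ frattini ↥F := by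
    refine le_iInf₂ fun M hM => ?_
    haveI : M.Normal := Subgroup.NormalizerCondition.normal_of_coatom M
      Group.normalizerCondition_of_isNilpotent hM
    refine (Subgroup.Normal.quotient_commutative_iff_commutator_le (N := M)).1 ?_
    have hpr : Fact (Nat.card (↥F ⧸ M)).Prime := ⟨by
      have hs : IsSimpleGroup (↥F ⧸ M) := by
        haveI : Nontrivial (↥F ⧸ M) := QuotientGroup.nontrivial_iff.2 hM.1
        refine ⟨fun K hK => ?_⟩
        rcases (hM.le_iff.1 (QuotientGroup.le_comap_mk' M K)) with h | h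
        · refine Or.inr (Subgroup.comap_injective (QuotientGroup.mk'_surjective M) ?_)
          rw [h, Subgroup.comap_top]
        · refine Or.inl (Subgroup.comap_injective (QuotientGroup.mk'_surjective M) ?_)
          rw [h, MonoidHom.comap_bot, QuotientGroup.ker_mk']
      exact IsSimpleGroup.prime_card⟩
    haveI : IsCyclic (↥F ⧸ M) := isCyclic_of_prime_card rfl
    infer_instance
  have hF' : (commutator ↥F).map F.subtype = ⊥ :=
    le_bot_iff.1 (((Subgroup.map_mono hder).trans (H33.map_frattini_le F)).trans hΦ.le)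
  rw [Subgroup.map_subtype_commutator, Subgroup.commutator_eq_bot_iff_le_centralizer] at hF'
  haveI : IsMulCommutative F := Subgroup.le_centralizer_iff_isMulCommutative.1 hF'
  set S := sSup {N : Subgroup G | N.Normal ∧ N ≠ ⊥ ∧ IsMulCommutative N ∧
    ∀ K : Subgroup G, K.Normal → K ≤ N → K = ⊥ ∨ K = N} with hSdef
  have hSn : S.Normal := Subgroup.sSup_normal _ fun N hN => hN.1
  have hSF : S ≤ F := by
    refine sSup_le ?_
    rintro N ⟨hN, -, hab, -⟩
    exact H19.le_fitting hN (Subgroup.isNilpotent_of_lowerCentralSeries_eq_bot (n := 1) (by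
      rw [Subgroup.lowerCentralSeries_succ, Subgroup.lowerCentralSeries_zero,
        Subgroup.commutator_eq_bot_iff_le_centralizer]
      exact Subgroup.le_centralizer_iff_isMulCommutative.2 hab))
  haveI : IsMulCommutative S := Subgroup.le_centralizer_iff_isMulCommutative.1
    ((hSF.trans hF').trans (Subgroup.centralizer_le hSF))
  obtain ⟨H, hH⟩ := H33.exists_complement_of_frattini_trivial hΦ S
  have hn : (F ⊓ H).Normal := by
    refine ⟨fun x hx g => ?_⟩
    obtain ⟨s, hs, h, hh, rfl⟩ := H19.exists_mul_of_sup_eq_top hH.sup_eq_top g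
    have hy : h * x * h⁻¹ ∈ F ⊓ H := Subgroup.mem_inf.2
      ⟨hFn.conj_mem _ (Subgroup.mem_inf.1 hx).1 h,
        H.mul_mem (H.mul_mem hh (Subgroup.mem_inf.1 hx).2) (H.inv_mem hh)⟩
    have hc : (h * x * h⁻¹) * s = s * (h * x * h⁻¹) :=
      Subgroup.mem_centralizer_iff.1 (hF' (hSF hs)) _ hy.1
    rw [show s * h * x * (s * h)⁻¹ = (s * (h * x * h⁻¹)) * s⁻¹ by group, ← hc]
    simpa [mul_assoc] using hy
  have h0 : F ⊓ H = ⊥ := by
    by_contra hne
    obtain ⟨M, hMn, hM0, hMle, hMmin⟩ := H19.exists_minimalNormal_le (F ⊓ H) hne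
    have hMF : M ≤ F := hMle.trans inf_le_left
    have hMS : M ≤ S := le_sSup ⟨hMn, hM0, Subgroup.le_centralizer_iff_isMulCommutative.1
      ((hMF.trans hF').trans (Subgroup.centralizer_le hMF)), hMmin⟩
    exact hM0 (le_bot_iff.1 ((le_inf hMS (hMle.trans inf_le_right)).trans
      hH.disjoint.eq_bot.le))
  intro x hx
  obtain ⟨s, hs, h, hh, e⟩ := H19.exists_mul_of_sup_eq_top hH.sup_eq_top x
  have hhF : h ∈ F := by
    rw [show h = s⁻¹ * x by rw [e]; group]
    exact F.mul_mem (F.inv_mem (hSF hs)) hx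
  have : h = 1 := by
    have := Subgroup.mem_inf.2 ⟨hhF, hh⟩
    rwa [h0, Subgroup.mem_bot] at this
  rw [e, this, mul_one]
  exact hs

end Cfsg.Agent.S0586
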