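import Cfsg.Statements.S0587
import Cfsg.Agent.H19.Cores
import Cfsg.Agent.H19.Frattini
import Cfsg.Agent.H33.Frattini

set_option autoImplicit false
open Cfsg

namespace Cfsg.Agent.S0587

/-- Let G be a finite group whose largest normal p-subgroup L is nontrivial, and M a maximal subgroup of G with trivial normal core. Then L is elementary abelian, M is a complement to L, L is a minimal normal subgroup of G, the centralizer of L is L, and for every prime q such that the largest normal q-subgroup of M is nontrivial, the order of L is congruent to 1 modulo q and q ≠ p. -/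
theorem result {G : Type*} [Group G] [Finite G] (p : ℕ) [Fact p.Prime] (hL : Cfsg.pCore p G ≠ ⊥) (M : Subgroup G) (hM : IsCoatom M) (hcore : M.normalCore = ⊥) : Cfsg.IsElementaryAbelian p (Cfsg.pCore p G) ∧ Subgroup.IsComplement' (Cfsg.pCore p G) M ∧ (∀ K : Subgroup G, K.Normal → K ≤ Cfsg.pCore p G → K = ⊥ ∨ K = Cfsg.pCore p G) ∧ Subgroup.centralizer ((Cfsg.pCore p G : Subgroup G) : Set G) = Cfsg.pCore p G ∧ ∀ (q : ℕ) [Fact q.Prime], Cfsg.pCore q ↥M ≠ ⊥ → Nat.card (Cfsg.pCore p G) % q = 1 % q ∧ q ≠ p := by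
  set L := Cfsg.pCore p G with hLdef
  haveI hLn : L.Normal := H19.pCore_normal p G
  have hLp : IsPGroup p L := H19.pCore_isPGroup p
  have hΦ : (frattini ↥L).map L.subtype = ⊥ := le_bot_iff.1 ((Subgroup.normal_le_normalCore.2
    ((H33.map_frattini_le L).trans (frattini_le_coatom hM))).trans hcore.le)
  rw [Subgroup.map_eq_bot_iff, L.ker_subtype, le_bot_iff] at hΦ
  obtain ⟨hc, hpow⟩ := H19.commutator_pow_mem_frattini hLp
  have hLc : IsMulCommutative L := (commutator_eq_bot_iff _).1 (le_bot_iff.1 (hc.trans hΦ.le))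
  have hel : ∀ a ∈ L, a ^ p = 1 := fun a ha => by
    have := hpow ⟨a, ha⟩
    rw [hΦ, Subgroup.mem_bot] at this
    exact congrArg Subtype.val this
  have hnotle : ∀ K : Subgroup G, K.Normal → K ≠ ⊥ → ¬ K ≤ M := fun K hK hK0 hKM =>
    hK0 (le_bot_iff.1 ((Subgroup.normal_le_normalCore.2 hKM).trans hcore.le))
  have hsup : ∀ K : Subgroup G, K.Normal → K ≠ ⊥ → K ⊔ M = ⊤ := fun K hK hK0 =>
    hM.2 _ (lt_of_le_of_ne le_sup_right fun e => hnotle K hK hK0 (e ▸ le_sup_left))
  -- subgroups between `1` and an abelian normal subgroup, normalised by `M`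
  have hnorm : ∀ (A : Subgroup G) (X : Subgroup G), A.Normal → A ≠ ⊥ →
      A ≤ Subgroup.centralizer (X : Set G) → M ≤ Subgroup.normalizer (X : Set G) → X.Normal := by
    intro A X hA hA0 hAX hMX
    refine Subgroup.normalizer_eq_top_iff.1 (eq_top_iff.2 ((hsup A hA hA0).ge.trans (sup_le ?_ hMX)))
    exact hAX.trans (Subgroup.centralizer_le_normalizer _)
  have hLC : L ≤ Subgroup.centralizer (L : Set G) := Subgroup.le_centralizer L
  have hinf : ∀ K : Subgroup G, K.Normal → K ≤ L → K ⊓ M = ⊥ ∨ K = ⊥ := by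
    intro K hK hKL
    by_cases hK0 : K = ⊥
    · exact Or.inr hK0
    refine Or.inl (by_contra fun hne => hnotle _ (hnorm L (K ⊓ M) hLn hL
      (hLC.trans (Subgroup.centralizer_le (inf_le_left.trans hKL))) ?_) hne inf_le_right)
    exact (le_inf ((hK.conj_mem) |> fun _ => Subgroup.le_normalizer_of_normal) Subgroup.le_normalizer).trans
      (Subgroup.inf_normalizer_le_normalizer_inf)
  have hLM : L ⊓ M = ⊥ := (hinf L hLn le_rfl).resolve_right hL
  have hcomp : Subgroup.IsComplement' L M := Subgroup.isComplement'_of_disjoint_and_mul_eq_univ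
    (disjoint_iff.2 hLM) (by rw [← Subgroup.normal_mul, hsup L hLn hL]; rfl)
  have hmin : ∀ K : Subgroup G, K.Normal → K ≤ L → K = ⊥ ∨ K = L := by
    intro K hK hKL
    refine or_iff_not_imp_left.2 fun hK0 => le_antisymm hKL fun x hx => ?_
    obtain ⟨k, hk, m, hm, rfl⟩ := H19.exists_mul_of_sup_eq_top (hsup K hK hK0) x
    have : m ∈ L ⊓ M := ⟨(L.mul_mem_cancel_left (hKL hk)).1 hx, hm⟩
    rw [hLM, Subgroup.mem_bot] at this
    rw [this, mul_one]; exact hk
  have hC : Subgroup.centralizer (L : Set G) = L := by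
    refine le_antisymm (fun x hx => ?_) hLC
    obtain ⟨l, hl, m, hm, rfl⟩ := H19.exists_mul_of_sup_eq_top (hsup L hLn hL) x
    have h1 : m ∈ Subgroup.centralizer (L : Set G) ⊓ M :=
      ⟨((Subgroup.centralizer (L : Set G)).mul_mem_cancel_left (hLC hl)).1 hx, hm⟩
    have h2 : Subgroup.centralizer (L : Set G) ⊓ M = ⊥ := by
      by_contra hne
      refine hnotle _ (hnorm L _ hLn hL ?_ ?_) hne inf_le_right
      · exact (Subgroup.le_centralizer_iff.1 le_rfl).trans (Subgroup.centralizer_le inf_le_left)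
      · exact (le_inf Subgroup.le_normalizer_of_normal Subgroup.le_normalizer).trans
          Subgroup.inf_normalizer_le_normalizer_inf
    rw [h2, Subgroup.mem_bot] at h1
    rw [h1, mul_one]; exact hl
  refine ⟨⟨hLc, hel⟩, hcomp, hmin, hC, fun q _ hq => ?_⟩
  set R := (Cfsg.pCore q ↥M).map M.subtype with hR
  have hRq : IsPGroup q R := (H19.pCore_isPGroup q).map _
  have hMR : M ≤ Subgroup.normalizer (R : Set G) := by
    rw [hR, ← Subgroup.normal_subgroupOf_iff_le_normalizer (Subgroup.map_subtype_le _),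
      Subgroup.subgroupOf, Subgroup.comap_map_eq_self_of_injective M.subtype_injective]
    exact H19.pCore_normal q ↥M
  have hfix : L ⊓ Subgroup.centralizer (R : Set G) = ⊥ := by
    have hn := hnorm L (L ⊓ Subgroup.centralizer (R : Set G)) hLn hL
      (hLC.trans (Subgroup.centralizer_le inf_le_left)) ((le_inf Subgroup.le_normalizer_of_normal
        (hMR.trans H33.normalizer_le_normalizer_centralizer)).trans
          Subgroup.inf_normalizer_le_normalizer_inf)
    refine (hmin _ hn inf_le_left).resolve_right fun e => ?_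
    have h1 : R ≤ L ⊓ M := le_inf
      ((Subgroup.le_centralizer_iff.1 (e ▸ inf_le_right)).trans hC.le) (Subgroup.map_subtype_le _)
    rw [hLM, le_bot_iff, hR, Subgroup.map_eq_bot_iff, M.ker_subtype, le_bot_iff] at h1
    exact hq h1
  let act : MulAction R L := MulAction.compHom L (MulAut.conjNormal.comp R.subtype : R →* MulAut L)
  have hone : Nat.card (MulAction.fixedPoints R L) = 1 := by
    rw [Nat.card_eq_one_iff_unique]
    refine ⟨⟨?_⟩, ⟨⟨1, fun r => MulEquiv.map_one _⟩⟩⟩
    suffices h1 : ∀ x : MulAction.fixedPoints R L, ((x : L) : G) = 1 from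
      fun a b => Subtype.ext (Subtype.ext ((h1 a).trans (h1 b).symm))
    rintro ⟨x, hx⟩
    have : (x : G) ∈ L ⊓ Subgroup.centralizer (R : Set G) := ⟨x.2, by
      refine Subgroup.mem_centralizer_iff.2 ?_
      intro r hr
      have := congrArg Subtype.val (hx ⟨r, hr⟩)
      change r * (x : G) * r⁻¹ = x at this
      exact mul_inv_eq_iff_eq_mul.1 this⟩
    rwa [hfix, Subgroup.mem_bot] at this
  have hmod := hRq.card_modEq_card_fixedPoints L
  rw [hone] at hmod
  refine ⟨hmod, ?_⟩
  rintro rfl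
  obtain ⟨k, hk⟩ := hLp.exists_card_eq
  have hk0 : k ≠ 0 := fun e => hL (Subgroup.card_eq_one.1 (by rw [hk, e, pow_zero]))
  rw [Nat.ModEq, hk, Nat.mod_eq_zero_of_dvd (dvd_pow_self q hk0) |>.trans rfl] at hmod
  · rw [Nat.mod_eq_of_lt (Fact.out : q.Prime).one_lt] at hmod
    exact zero_ne_one hmod

end Cfsg.Agent.S0587
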