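import Cfsg.Statements.S0588
import Mathlib.GroupTheory.Sylow

set_option autoImplicit false
open Cfsg

namespace Cfsg.Agent.S0588

/-- If a subgroup H of a finite group G contains the centralizer of every non-identity element of H, then the order of H is coprime to its index. -/
theorem result {G : Type*} [Group G] [Finite G] (H : Subgroup G) (h : ∀ x ∈ H, x ≠ 1 → Subgroup.centralizer ({x} : Set G) ≤ H) : (Nat.card H).Coprime H.index := by
  by_contra hcop
  obtain ⟨p, hp, hpH, hpi⟩ := Nat.Prime.not_coprime_iff_dvd.1 hcop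
  haveI : Fact p.Prime := ⟨hp⟩
  obtain ⟨P⟩ := (inferInstance : Nonempty (Sylow p H))
  obtain ⟨S, hS⟩ := (P.2.map H.subtype).exists_le_sylow
  have hne : Nat.card P ≠ 1 := fun e => P.ne_bot_of_dvd_card hpH (Subgroup.card_eq_one.1 e)
  obtain ⟨⟨x, hx⟩, hx1⟩ := Subgroup.ne_bot_iff_exists_ne_one.1 (P.ne_bot_of_dvd_card hpH)
  have hxS : (x : G) ∈ (S : Subgroup G) := hS ⟨x, hx, rfl⟩
  have hSne : Nontrivial (S : Subgroup G) := ⟨⟨_, hxS⟩, 1, fun e => hx1 (Subtype.ext (Subtype.ext
    (congrArg Subtype.val e :)))⟩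
  haveI := hSne
  have := S.2.center_nontrivial
  obtain ⟨⟨z, hz⟩, hz1⟩ := exists_ne (1 : Subgroup.center (S : Subgroup G))
  have hcomm : ∀ s ∈ (S : Subgroup G), s * (z : G) = (z : G) * s := fun s hs =>
    congrArg Subtype.val (Subgroup.mem_center_iff.1 hz ⟨s, hs⟩)
  have hzH : (z : G) ∈ H := h x x.2 (fun e => hx1 (Subtype.ext (Subtype.ext e)))
    (Subgroup.mem_centralizer_singleton_iff.2 (hcomm _ hxS).symm)
  have hSH : (S : Subgroup G) ≤ H := fun s hs => h z hzH
    (fun e => hz1 (Subtype.ext (Subtype.ext e)))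
    (Subgroup.mem_centralizer_singleton_iff.2 (hcomm s hs))
  exact S.not_dvd_index (hpi.trans (Subgroup.index_dvd_of_le hSH))

end Cfsg.Agent.S0588
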