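import Cfsg.Statements.S0589
import Cfsg.Agent.H33.FrobeniusSubgroup
import Cfsg.Agent.H19.Basic

set_option autoImplicit false
open Pointwise
open Cfsg

namespace Cfsg.Agent.S0589

/-- Let H be a Frobenius complement in a finite group G and L a subgroup of G whose order divides the order of H. Then L is contained in some conjugate of H. -/
theorem result {G : Type*} [Group G] [Finite G] (H : Subgroup G) (hH : Cfsg.IsFrobeniusComplement H) (L : Subgroup G) (hL : Nat.card L ∣ Nat.card H) : ∃ x : G, L ≤ MulAut.conj x • H := by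
  have huniq : ∀ l : L, l ≠ 1 → ∀ x y : G ⧸ H, l • x = x → l • y = y → x = y := by
    intro l hl x y hx hy
    induction x using QuotientGroup.induction_on with
    | _ x =>
    induction y using QuotientGroup.induction_on with
    | _ y =>
    have h1 : x⁻¹ * (l : G) * x ∈ H := by
      have := QuotientGroup.eq.1 (show ((x : G) : G ⧸ H) = ((l : G) * x : G) from hx.symm)
      simpa [mul_assoc] using this
    have h2 : y⁻¹ * (l : G) * y ∈ H := by
      have := QuotientGroup.eq.1 (show ((y : G) : G ⧸ H) = ((l : G) * y : G) from hy.symm)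
      simpa [mul_assoc] using this
    refine QuotientGroup.eq.2 (H21.fc_mem_of_conj hH h1 (fun e => hl ?_) ?_)
    · exact OneMemClass.coe_eq_one.1 ((conj_eq_one_iff (a := x⁻¹)).1 (by simpa using e))
    · rw [show (x⁻¹ * y)⁻¹ * (x⁻¹ * (l : G) * x) * (x⁻¹ * y) = y⁻¹ * (l : G) * y by group]
      exact h2
  obtain ⟨q, hq⟩ := H33.exists_fixed_of_unique_fixed huniq
    (by rw [← Subgroup.index_eq_card]; exact (H21.index_modEq_one hH).of_dvd hL)
  induction q using QuotientGroup.induction_on with
  | _ x =>
  refine ⟨x, fun l hl => ?_⟩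
  have := QuotientGroup.eq.1 (show ((x : G) : G ⧸ H) = (l * x : G) from (hq ⟨l, hl⟩).symm)
  rw [H19.mem_conj_smul]
  simpa [mul_assoc] using this

end Cfsg.Agent.S0589
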