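import Cfsg.Statements.S0590
import Cfsg.Agent.H34.Conj

set_option autoImplicit false
open Cfsg
open scoped commutatorElement

namespace Cfsg.Agent.S0590

/-- Quadratic action on an elementary abelian p-group forces the acting group modulo the kernel of the action to be elementary abelian. -/
theorem result {G : Type*} [Group G] [Finite G] {p : ℕ} [Fact p.Prime] (V H : Subgroup G) (hV : Cfsg.IsElementaryAbelian p V) (hHV : H ≤ Subgroup.normalizer (V : Set G)) (hq : ⁅⁅V, H⁆, H⁆ = ⊥) : ⁅H, H⁆ ≤ Subgroup.centralizer (V : Set G) ∧ ∀ a ∈ H, a ^ p ∈ Subgroup.centralizer (V : Set G) := by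
  haveI := hV.1
  have hd : ∀ a ∈ H, ∀ v ∈ V, ⁅a, v⁆ ∈ V ∧ ∀ b ∈ H, b * ⁅a, v⁆ = ⁅a, v⁆ * b := by
    intro a ha v hv
    refine ⟨H34.comm_mem_of_mem_normalizer (hHV ha) hv, ?_⟩
    have h1 : ⁅v, a⁆ ∈ Subgroup.centralizer (H : Set G) :=
      Subgroup.commutator_eq_bot_iff_le_centralizer.1 hq (Subgroup.commutator_mem_commutator hv ha)
    have h2 := inv_mem h1
    rw [commutatorElement_inv] at h2
    exact fun b hb => Subgroup.mem_centralizer_iff.1 h2 b hb
  have hmul : ∀ a ∈ H, ∀ b ∈ H, ∀ v ∈ V, ⁅a * b, v⁆ = ⁅b, v⁆ * ⁅a, v⁆ := by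
    intro a ha b hb v hv
    rw [H34.comm_mul_left, (hd b hb v hv).2 a ha, mul_inv_cancel_right]
  refine ⟨Subgroup.commutator_le.2 fun a ha b hb => H34.mem_centralizer_iff_comm.2 fun v hv => ?_,
    fun a ha => H34.mem_centralizer_iff_comm.2 fun v hv => ?_⟩
  · have e : ⁅a, b⁆ * (b * a) = a * b := by simp [commutatorElement_def, mul_assoc]
    have hcH : ⁅a, b⁆ ∈ H := by
      rw [commutatorElement_def]; exact H.mul_mem (H.mul_mem (H.mul_mem ha hb) (H.inv_mem ha)) (H.inv_mem hb)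
    have h1 := hmul _ hcH _ (H.mul_mem hb ha) v hv
    rw [e, hmul a ha b hb v hv, hmul b hb a ha v hv,
      setLike_mul_comm (s := V) (hd b hb v hv).1 (hd a ha v hv).1] at h1
    simpa using h1
  · have h : ∀ n : ℕ, ⁅a ^ n, v⁆ = ⁅a, v⁆ ^ n := by
      intro n
      induction n with
      | zero => simp
      | succ n ih => rw [pow_succ, hmul _ (H.pow_mem ha n) _ ha v hv, ih, ← pow_succ']
    rw [h, hV.2 _ (hd a ha v hv).1]

end Cfsg.Agent.S0590
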