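import Cfsg.Statements.S0591
import Cfsg.Agent.H34.Conj

set_option autoImplicit false
open Cfsg
open scoped commutatorElement

namespace Cfsg.Agent.S0591

/-- For a quadratically acting element a on an elementary abelian p-group V, the fixed points C_V(a) have order at least the square root of the order of V. -/
theorem result {G : Type*} [Group G] [Finite G] {p : ℕ} [Fact p.Prime] (V : Subgroup G) (hV : Cfsg.IsElementaryAbelian p V) (a : G) (ha : a ∈ Subgroup.normalizer (V : Set G)) (hq : ⁅⁅V, Subgroup.zpowers a⁆, Subgroup.zpowers a⁆ = ⊥) : Nat.card V ≤ Nat.card ↥(V ⊓ Subgroup.centralizer (Subgroup.zpowers a : Set G)) ^ 2 := by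
  haveI := hV.1
  set C := V ⊓ Subgroup.centralizer (Subgroup.zpowers a : Set G)
  have hd : ∀ v ∈ V, ⁅a, v⁆ ∈ C := by
    intro v hv
    refine ⟨H34.comm_mem_of_mem_normalizer ha hv, ?_⟩
    have h1 : ⁅v, a⁆ ∈ Subgroup.centralizer (Subgroup.zpowers a : Set G) :=
      Subgroup.commutator_eq_bot_iff_le_centralizer.1 hq
        (Subgroup.commutator_mem_commutator hv (Subgroup.mem_zpowers a))
    have h2 := inv_mem h1
    rw [commutatorElement_inv] at h2
    exact h2
  let f : V →* C :=
    { toFun := fun v => ⟨⁅a, (v : G)⁆, hd v v.2⟩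
      map_one' := by ext; simp
      map_mul' := fun v w => by
        ext
        push_cast
        rw [commutatorElement_mul_right_eq_mul_conj]
        have h := setLike_mul_comm (s := V) v.2 (hd w w.2).1
        rw [mul_assoc ⁅a, (v : G)⁆, h]
        simp [mul_assoc] }
  have hker : f.ker ≤ C.subgroupOf V := by
    intro v hv
    refine ⟨v.2, ?_⟩
    change v.1 ∈ Subgroup.centralizer (Subgroup.zpowers a : Set G)
    rw [Subgroup.zpowers_eq_closure, Subgroup.centralizer_closure,
      Subgroup.mem_centralizer_singleton_iff]
    exact (commutatorElement_eq_one_iff_mul_comm.1 (congrArg Subtype.val hv)).symm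
  calc Nat.card V = Nat.card f.ker * f.ker.index := (Subgroup.card_mul_index _).symm
    _ ≤ Nat.card C * Nat.card C := by
        apply Nat.mul_le_mul
        · calc Nat.card f.ker ≤ Nat.card (C.subgroupOf V) := Subgroup.card_le_of_le hker
            _ = Nat.card C := Nat.card_congr (Subgroup.subgroupOfEquivOfLe inf_le_left).toEquiv
        · rw [Subgroup.index_ker]; exact Subgroup.card_le_card_group _
    _ = _ := (sq _).symm

end Cfsg.Agent.S0591
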