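import Cfsg.Statements.S0592
import Cfsg.Agent.H34.QuadRep
import Mathlib.FieldTheory.Finite.GaloisField

set_option autoImplicit false
open Cfsg
open scoped commutatorElement Pointwise

namespace Cfsg.Agent.S0592

/-- Two quadratically acting generators of a linear group that is not a p-group, with the p'-part of the order of their product dividing q - 1, give a homomorphism onto a subgroup of SL(2, q) that is not a p-group. -/
theorem result {K : Type*} [Field K] [Fintype K] {p : ℕ} [Fact p.Prime] [CharP K p] {W : Type*} [AddCommGroup W] [Module K W] [FiniteDimensional K W] [Finite W] [Nontrivial W] (H : Subgroup (W ≃ₗ[K] W)) (a b : W ≃ₗ[K] W) (hH : H = Subgroup.closure {a, b}) (ha : ∀ w : W, a (a w - w) = a w - w) (hb : ∀ w : W, b (b w - w) = b w - w) (hnp : ¬ IsPGroup p H) (hk : ∃ e k : ℕ, orderOf (a * b) = p ^ e * k ∧ k ∣ Fintype.card K - 1) : ∃ φ : H →* Matrix.SpecialLinearGroup (Fin 2) K, ¬ IsPGroup p φ.range := by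
  obtain ⟨e, k, hek, hk⟩ := hk
  have ha' : a ∈ H := hH ▸ Subgroup.subset_closure (by simp)
  have hb' : b ∈ H := hH ▸ Subgroup.subset_closure (by simp)
  haveI : Finite (W ≃ₗ[K] W) := Finite.of_injective (fun f => (f : W → W)) DFunLike.coe_injective
  have hgen : Subgroup.closure ({⟨a, ha'⟩, ⟨b, hb'⟩} : Set H) = ⊤ := by
    apply Subgroup.map_injective H.subtype_injective
    rw [MonoidHom.map_closure, Set.image_pair, ← MonoidHom.range_eq_map, Subgroup.range_subtype]
    exact hH.symm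
  obtain ⟨h₀, hh₀⟩ : ∃ h₀ : H, ∀ n, h₀ ^ p ^ n ≠ 1 := by
    by_contra h
    exact hnp fun g => by_contra fun hg => h ⟨g, fun n hn => hg ⟨n, hn⟩⟩
  let ρ : H →* Module.End K W :=
    { toFun := fun g => ((g : W ≃ₗ[K] W) : W →ₗ[K] W)
      map_one' := rfl
      map_mul' := fun g h => rfl }
  have hρ : Function.Injective ρ := fun g h e => Subtype.ext (LinearEquiv.toLinearMap_injective e)
  have hq : ∀ (c : W ≃ₗ[K] W) (hc : c ∈ H), (∀ w : W, c (c w - w) = c w - w) →
      (ρ ⟨c, hc⟩ - 1) * (ρ ⟨c, hc⟩ - 1) = 0 := fun c hc h => LinearMap.ext fun w => by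
    show c (c w - w) - (c w - w) = 0
    rw [h, sub_self]
  have hN0 : 0 < p ^ e * k := hek ▸ orderOf_pos _
  have hk0 : k ≠ 0 := by rintro rfl; simp at hN0
  have hsplit : ((Polynomial.X : Polynomial K) ^ (p ^ e * k) - 1).Splits := by
    haveI : CharP (Polynomial K) p := inferInstance
    have h1 : ((Polynomial.X : Polynomial K) ^ (p ^ e * k) - 1) = (Polynomial.X ^ k - 1) ^ p ^ e := by
      rw [sub_pow_char_pow, one_pow, ← pow_mul, mul_comm]
    rw [h1]
    refine Polynomial.Splits.pow ?_ _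
    have hq1 : 1 < Fintype.card K := Fintype.one_lt_card
    letI : Algebra (ZMod p) K := ZMod.algebra K p
    have h2 := FiniteField.splits_X_pow_card_sub_X (K := K) (p := p)
    simp only [Polynomial.map_sub, Polynomial.map_pow, Polynomial.map_X] at h2
    refine h2.of_dvd (FiniteField.X_pow_card_sub_X_ne_zero K hq1)
      (dvd_trans (pow_one_sub_dvd_pow_mul_sub_one Polynomial.X k ((Fintype.card K - 1) / k)) ⟨Polynomial.X, ?_⟩)
    rw [Nat.mul_div_cancel' hk, sub_mul, one_mul, ← pow_succ, Nat.sub_add_cancel hq1.le]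
  obtain ⟨φ, -, -, hφ⟩ := H34.QuadRep.exists_sl2_hom (p := p) hN0 hsplit hgen
    (Subtype.ext (by rw [← hek]; exact pow_orderOf_eq_one (a * b))) h₀ W ρ (hq a ha' ha) (hq b hb' hb)
    (fun n hn => hh₀ n (hρ (by rw [map_pow, hn, map_one])))
  refine ⟨φ, fun h => ?_⟩
  obtain ⟨n, hn⟩ := h ⟨φ h₀, h₀, rfl⟩
  exact hφ n (congrArg Subtype.val hn)

end Cfsg.Agent.S0592
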