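import Cfsg.Statements.S0593
import Cfsg.Agent.H34.QuadPair

set_option autoImplicit false
open Cfsg
open scoped commutatorElement Pointwise

namespace Cfsg.Agent.S0593

/-- For odd p, a faithful group on an elementary abelian p-group generated by two quadratically acting elements is a p-group or has non-abelian Sylow 2-subgroups. -/
theorem result {G : Type*} [Group G] [Finite G] {p : ℕ} [Fact p.Prime] (hp : p ≠ 2) (V H : Subgroup G) (hV : Cfsg.IsElementaryAbelian p V) (hHV : H ≤ Subgroup.normalizer (V : Set G)) (hf : H ⊓ Subgroup.centralizer (V : Set G) = ⊥) (a b : G) (hab : H = Subgroup.closure {a, b}) (ha : ⁅⁅V, Subgroup.zpowers a⁆, Subgroup.zpowers a⁆ = ⊥) (hb : ⁅⁅V, Subgroup.zpowers b⁆, Subgroup.zpowers b⁆ = ⊥) (hnp : ¬ IsPGroup p H) (T : Sylow 2 H) : ¬ IsMulCommutative T := by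
  intro hT
  refine H34.QuadPair.not_abelian hp V H hV hHV hf ⟨a, hab ▸ Subgroup.subset_closure (by simp)⟩
    ⟨b, hab ▸ Subgroup.subset_closure (by simp)⟩ (H34.QuadPair.closure_pair_eq_top hab _ _) ha hb hnp
    fun R hR => ?_
  obtain ⟨U, hU⟩ := hR.exists_le_sylow
  obtain ⟨g, hg⟩ := MulAction.exists_smul_eq H T U
  have hUc : IsMulCommutative (U : Subgroup H) := by
    rw [← hg, Sylow.coe_subgroup_smul]
    haveI := hT
    exact Subgroup.map_isMulCommutative _ _
  exact Subgroup.le_centralizer_iff_isMulCommutative.1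
    (hU.trans ((Subgroup.le_centralizer_iff_isMulCommutative.2 hUc).trans (Subgroup.centralizer_le hU)))

end Cfsg.Agent.S0593
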