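import Cfsg.Statements.S0594
import Cfsg.Agent.H34.QuadPair

set_option autoImplicit false
open Cfsg
open scoped commutatorElement Pointwise

namespace Cfsg.Agent.S0594

/-- For odd p, two quadratic generators of a faithful group that is not a p-group, one of which acts nontrivially on a normal subgroup of order prime to p, force p = 3 and a section isomorphic to SL(2,3). -/
theorem result {G : Type*} [Group G] [Finite G] {p : ℕ} [Fact p.Prime] (hp : p ≠ 2) (V H : Subgroup G) (hV : Cfsg.IsElementaryAbelian p V) (hHV : H ≤ Subgroup.normalizer (V : Set G)) (hf : H ⊓ Subgroup.centralizer (V : Set G) = ⊥) (a b : G) (hab : H = Subgroup.closure {a, b}) (ha : ⁅⁅V, Subgroup.zpowers a⁆, Subgroup.zpowers a⁆ = ⊥) (hb : ⁅⁅V, Subgroup.zpowers b⁆, Subgroup.zpowers b⁆ = ⊥) (hnp : ¬ IsPGroup p H) (Q : Subgroup G) (hQH : Q ≤ H) (hQn : H ≤ Subgroup.normalizer (Q : Set G)) (hQ : (Nat.card Q).Coprime p) (hQa : ⁅Q, Subgroup.zpowers a⁆ ≠ ⊥) : p = 3 ∧ ∃ (K L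 : Subgroup G) (hL : (L.subgroupOf K).Normal), K ≤ H ∧ Nonempty ((K ⧸ L.subgroupOf K) ≃* Matrix.SpecialLinearGroup (Fin 2) (ZMod 3)) := by
  obtain ⟨q, hqQ, hq⟩ : ∃ q ∈ Q, ⁅q, a⁆ ≠ 1 := by
    by_contra h
    apply hQa
    rw [Subgroup.commutator_eq_bot_iff_le_centralizer]
    intro q hq
    rw [Subgroup.zpowers_eq_closure, Subgroup.centralizer_closure]
    rintro c rfl
    exact (commutatorElement_eq_one_iff_mul_comm.1 (not_not.1 fun hne => h ⟨q, hq, hne⟩)).symm
  have ha' : a ∈ H := hab ▸ Subgroup.subset_closure (by simp)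
  have hb' : b ∈ H := hab ▸ Subgroup.subset_closure (by simp)
  have hh₀Q : ⁅q, a⁆ ∈ Q := by
    rw [commutatorElement_def, mul_assoc, mul_assoc]
    refine Q.mul_mem hqQ ?_
    rw [← mul_assoc]
    exact (Subgroup.mem_normalizer_iff.1 (hQn ha') q⁻¹).1 (Q.inv_mem hqQ)
  set qH : H := ⟨q, hQH hqQ⟩
  set aH : H := ⟨a, ha'⟩
  have hh₀ : ∀ n, ⁅qH, aH⁆ ^ p ^ n ≠ 1 := by
    refine H34.QuadPair.pow_ne_one_of_coprime (m := Nat.card Q) (fun h => hq ?_) ?_ hQ
    · exact congrArg Subtype.val h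
    · have h1 := congrArg Subtype.val (pow_card_eq_one' (x := (⟨_, hh₀Q⟩ : Q)))
      exact Subtype.ext h1
  haveI : CharP (AlgebraicClosure (ZMod p)) p :=
    charP_of_injective_algebraMap (algebraMap (ZMod p) (AlgebraicClosure (ZMod p))).injective p
  obtain ⟨φ, hφa, hφb, hφ⟩ := H34.QuadPair.exists_hom V H hV hHV hf aH ⟨b, hb'⟩
    (H34.QuadPair.closure_pair_eq_top hab _ _) ha hb ⁅qH, aH⁆ hh₀
  haveI : Finite φ.range := Finite.of_surjective _ φ.rangeRestrict_surjective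
  obtain ⟨hp3, M, ⟨e⟩⟩ := H34.SL2U.exists_section hp φ.range (φ.rangeRestrict aH)
    (Subtype.ext hφa) ((Q.subgroupOf H).map φ.rangeRestrict)
    (Subgroup.le_normalizer_map φ.rangeRestrict (Subgroup.mem_map_of_mem φ.rangeRestrict (by
      have hn : (Q.subgroupOf H).Normal := (Subgroup.normal_subgroupOf_iff_le_normalizer hQH).2 hQn
      rw [Subgroup.normalizer_eq_top_iff.2 hn]; trivial)))
    (hQ.coprime_dvd_left ((Subgroup.card_map_dvd _ _).trans
      (dvd_of_eq (Nat.card_congr (Subgroup.subgroupOfEquivOfLe hQH).toEquiv))))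
    (fun h => hφ 0 (by
      rw [pow_zero, pow_one, map_commutatorElement, commutatorElement_eq_one_iff_mul_comm]
      exact congrArg Subtype.val (h _ (Subgroup.mem_map_of_mem φ.rangeRestrict (show qH ∈ Q.subgroupOf H from hqQ)))))
  subst hp3
  obtain ⟨Kk, L, hn, hle, hiso⟩ := H34.QuadPair.exists_section_of_range H φ M e
  exact ⟨rfl, Kk, L, hn, hle, hiso⟩

end Cfsg.Agent.S0594
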