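import Cfsg.Statements.S0596
import Cfsg.Agent.H34.QuadPair
import Cfsg.Agent.H19.Cores
import Cfsg.Agent.H44.HallHigman
import Cfsg.Agent.H84.PSolvable

set_option autoImplicit false
open Cfsg
open scoped commutatorElement Pointwise

namespace Cfsg.Agent.S0596

/-- For odd p, a p-separable group with a faithful action on an elementary abelian p-group that is not p-stable has p = 3 and involves SL(2,3). -/
theorem result {G : Type*} [Group G] [Finite G] {p : ℕ} [Fact p.Prime] (hp : p ≠ 2) (V H : Subgroup G) (hV : Cfsg.IsElementaryAbelian p V) (hHV : H ≤ Subgroup.normalizer (V : Set G)) (hf : H ⊓ Subgroup.centralizer (V : Set G) = ⊥) (hsep : Cfsg.IsPSolvable p H) (a : G) (haH : a ∈ H) (hq : ⁅⁅V, Subgroup.zpowers a⁆, Subgroup.zpowers a⁆ = ⊥) (hna : a ∉ (Cfsg.pCore p H).map H.subtype) : p = 3 ∧ ∃ (K L : Subgroup G) (hL : (L.subgroupOf K).Normal), K ≤ H ∧ Nonempty ((K ⧸ L.subgroupOf K) ≃* Matrix.SpecialLinearGroup (Fin 2) (ZMod 3)) := by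
  set P := Cfsg.pCore p H
  haveI : P.Normal := H19.pCore_normal p H
  set π := QuotientGroup.mk' P
  set aH : H := ⟨a, haH⟩
  haveI : CharP (AlgebraicClosure (ZMod p)) p :=
    charP_of_injective_algebraMap (algebraMap (ZMod p) (AlgebraicClosure (ZMod p))).injective p
  have hP1 := H19.pCore_quotient_pCore (G := H) p
  have hcen := H44.centralizer_pPrimeCore_le
    (H84.isPSolvable_of_surjective π (QuotientGroup.mk'_surjective P) hsep) hP1
  have hap : a ^ p = 1 := by
    obtain ⟨n, ρ, hρ, hρq⟩ := H34.QuadRep.exists_matrix_rep V H hV hHV hf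
    have h := H34.QuadRep.pow_char_eq_one_of_sq (K := ZMod p) (p := p) (hρq aH hq)
    have : aH ^ p = 1 := hρ (by rw [map_pow, map_one]; exact h)
    exact congrArg Subtype.val this
  have hapH : aH ^ p = 1 := Subtype.ext hap
  have haP : aH ∉ P := fun h => hna ⟨aH, h, rfl⟩
  have hanc : π aH ∉ Subgroup.centralizer (Cfsg.pPrimeCore p (H ⧸ P) : Set (H ⧸ P)) := by
    intro h
    have h1 := hcen h
    have h2 : π aH = 1 := by
      have hd : orderOf (π aH) ∣ Nat.gcd (Nat.card ↥(Cfsg.pPrimeCore p (H ⧸ P))) p := Nat.dvd_gcd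
        (by rw [← Subgroup.orderOf_mk _ h1]; exact orderOf_dvd_natCard _)
        (orderOf_dvd_of_pow_eq_one (by rw [← map_pow, hapH, map_one]))
      rw [H19.pPrimeCore_coprime p] at hd
      exact orderOf_eq_one_iff.1 (Nat.dvd_one.1 hd)
    exact haP ((QuotientGroup.eq_one_iff _).1 h2)
  obtain ⟨y, hy, hyne⟩ : ∃ y : H, π y ∈ Cfsg.pPrimeCore p (H ⧸ P) ∧ π (y * aH * y⁻¹ * aH⁻¹) ≠ 1 := by
    by_contra h
    apply hanc
    intro z hz
    obtain ⟨y, rfl⟩ := QuotientGroup.mk'_surjective P z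
    have h1 : π (y * aH * y⁻¹ * aH⁻¹) = 1 := not_not.1 fun hne => h ⟨y, hz, hne⟩
    rw [map_mul, map_mul, map_mul, map_inv, map_inv, mul_inv_eq_one, mul_inv_eq_iff_eq_mul] at h1
    exact h1
  set M := (Cfsg.pPrimeCore p (H ⧸ P)).comap π
  haveI hMn : M.Normal := (H19.pPrimeCore_normal p (H ⧸ P)).comap π
  set bH : H := y * aH * y⁻¹
  set H' := Subgroup.closure ({aH, bH} : Set H)
  have haH' : aH ∈ H' := Subgroup.subset_closure (by simp)
  have hbH' : bH ∈ H' := Subgroup.subset_closure (by simp)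
  set H₁ := H'.map H.subtype
  have hH₁ : H₁ ≤ H := Subgroup.map_subtype_le _
  have hgen : Subgroup.closure ({⟨(aH : G), Subgroup.mem_map_of_mem H.subtype haH'⟩,
      ⟨(bH : G), Subgroup.mem_map_of_mem H.subtype hbH'⟩} : Set H₁) = ⊤ :=
    H34.QuadPair.closure_pair_eq_top (by
      simp only [H₁, H', MonoidHom.map_closure, Set.image_pair]; rfl) _ _
  have hbq : ⁅⁅V, Subgroup.zpowers (bH : G)⁆, Subgroup.zpowers (bH : G)⁆ = ⊥ := by
    have h1 := congrArg (Subgroup.map (MulAut.conj (y : G)).toMonoidHom) hq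
    rw [Subgroup.map_commutator, Subgroup.map_commutator, Subgroup.map_bot, MonoidHom.map_zpowers] at h1
    have hVg : V.map (MulAut.conj (y : G)).toMonoidHom = V :=
      Subgroup.mem_normalizer_iff_map_conj_eq.1 (hHV y.2)
    rw [hVg] at h1
    exact h1
  set cH : H := bH * aH⁻¹
  have hcH' : cH ∈ H' := mul_mem hbH' (inv_mem haH')
  have hcM : cH ∈ M := by
    have e : cH = y * (aH * y⁻¹ * aH⁻¹) := by simp [cH, bH, mul_assoc]
    rw [e]
    exact mul_mem (show y ∈ M from hy) (hMn.conj_mem _ (inv_mem (show y ∈ M from hy)) aH)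
  have hcop := H19.pPrimeCore_coprime (G := H ⧸ P) p
  have hh₀ : ∀ n, (⟨(cH : G), Subgroup.mem_map_of_mem H.subtype hcH'⟩ : H₁) ^ p ^ n ≠ 1 := by
    intro n hn
    refine H34.QuadPair.pow_ne_one_of_coprime hyne ?_ hcop n ?_
    · exact congrArg Subtype.val (pow_card_eq_one' (x := (⟨π cH, hcM⟩ : Cfsg.pPrimeCore p (H ⧸ P))))
    · have h1 := congrArg Subtype.val hn
      rw [← map_pow, show (y * aH * y⁻¹ * aH⁻¹) ^ p ^ n = 1 from Subtype.ext h1, map_one]
  obtain ⟨φ, hφa, hφb, hφ⟩ := H34.QuadPair.exists_hom V H₁ hV (hH₁.trans hHV)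
    (eq_bot_iff.2 (le_trans (inf_le_inf_right _ hH₁) hf.le)) ⟨(aH : G), Subgroup.mem_map_of_mem H.subtype haH'⟩
    ⟨(bH : G), Subgroup.mem_map_of_mem H.subtype hbH'⟩ hgen hq hbq _ hh₀
  have hnc := H34.QuadPair.not_commute hgen φ hφa hφb hφ
  haveI : Finite φ.range := Finite.of_surjective _ φ.rangeRestrict_surjective
  set P₁ := (P.map H.subtype).subgroupOf H₁
  set M₁ := (M.map H.subtype).subgroupOf H₁
  have hkey : ∀ U : Subgroup H, (U.map H.subtype).subgroupOf H₁ = U.comap (Subgroup.inclusion hH₁) :=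
    fun U => by
      ext w
      constructor
      · rintro ⟨u, hu, huw⟩
        rw [Subgroup.mem_comap, show Subgroup.inclusion hH₁ w = u from Subtype.ext huw.symm]
        exact hu
      · intro hw
        exact ⟨_, hw, rfl⟩
  have hP₁n : P₁.Normal := by
    rw [show P₁ = _ from hkey P]
    exact Subgroup.Normal.comap ‹P.Normal› _
  have hM₁n : M₁.Normal := by
    rw [show M₁ = _ from hkey M]
    exact hMn.comap _
  have hP₁ : P₁.map φ = ⊥ := by
    haveI : Finite ↥(P₁.map φ) := Finite.of_surjective _ (φ.subgroupMap_surjective P₁)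
    refine H34.QuadPair.pGroup_eq_bot φ.range _
      ((((H19.pCore_isPGroup (G := H) p).map H.subtype).comap_of_injective _ H₁.subtype_injective).map φ)
      ?_ ⟨_, rfl⟩ ⟨_, rfl⟩ hφa hφb hnc
    have h2 := Subgroup.le_normalizer_map (H := P₁) φ
    rwa [Subgroup.normalizer_eq_top_iff.2 hP₁n, ← MonoidHom.range_eq_map] at h2
  obtain ⟨hp3, N, ⟨e⟩⟩ := H34.SL2U.exists_section hp φ.range
    (φ.rangeRestrict ⟨(aH : G), Subgroup.mem_map_of_mem H.subtype haH'⟩)
    (Subtype.ext hφa) (M₁.map φ.rangeRestrict)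
    (Subgroup.le_normalizer_map φ.rangeRestrict (Subgroup.mem_map_of_mem φ.rangeRestrict (by
      rw [Subgroup.normalizer_eq_top_iff.2 hM₁n]; trivial)))
    (by
      by_contra hnc'
      have hpd : p ∣ Nat.card ↥(M₁.map φ.rangeRestrict) := by
        by_contra hpd
        exact hnc' ((Nat.Prime.coprime_iff_not_dvd Fact.out).2 hpd).symm
      obtain ⟨⟨_, w, hw, rfl⟩, hu⟩ := exists_prime_orderOf_dvd_card' p hpd
      obtain ⟨m, hm, hmw⟩ := hw
      set k := Nat.card ↥(Cfsg.pPrimeCore p (H ⧸ P))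
      have hmk : m ^ k ∈ P := by
        rw [← QuotientGroup.eq_one_iff]
        change π (m ^ k) = 1
        rw [map_pow]
        exact congrArg Subtype.val (pow_card_eq_one' (x := (⟨π m, hm⟩ : Cfsg.pPrimeCore p (H ⧸ P))))
      have hwk : φ (w ^ k) ∈ P₁.map φ := Subgroup.mem_map_of_mem φ ⟨m ^ k, hmk, by
        rw [map_pow, hmw]; rfl⟩
      rw [hP₁, Subgroup.mem_bot] at hwk
      have hd : p ∣ k := by
        rw [← hu, ← Subgroup.orderOf_coe]
        refine orderOf_dvd_of_pow_eq_one (Subtype.ext ?_)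
        rw [← map_pow]
        exact hwk
      exact Nat.Prime.not_dvd_one (Fact.out : p.Prime) (hcop ▸ Nat.dvd_gcd hd dvd_rfl))
    (fun h => hnc (by
      have hc' := congrArg Subtype.val (h _ (Subgroup.mem_map_of_mem φ.rangeRestrict
        (show (⟨(cH : G), Subgroup.mem_map_of_mem H.subtype hcH'⟩ : H₁) ∈ M₁ from ⟨cH, hcM, rfl⟩)))
      have hb : φ ⟨(bH : G), Subgroup.mem_map_of_mem H.subtype hbH'⟩ =
          φ ⟨(cH : G), Subgroup.mem_map_of_mem H.subtype hcH'⟩ *
            φ ⟨(aH : G), Subgroup.mem_map_of_mem H.subtype haH'⟩ := by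
        rw [← map_mul]; congr 1; exact Subtype.ext (by simp [cH])
      rw [hb]
      exact Commute.mul_right (show Commute _ _ from hc'.symm) (Commute.refl _)))
  subst hp3
  obtain ⟨Kk, L, hn, hle, hiso⟩ := H34.QuadPair.exists_section_of_range H₁ φ N e
  exact ⟨rfl, Kk, L, hn, hle.trans hH₁, hiso⟩

end Cfsg.Agent.S0596
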