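import Cfsg.Statements.S0597
import Cfsg.Agent.H34.Conj
import Cfsg.Agent.H34.SubnormalCore
import Cfsg.Agent.H32.Subnormal

set_option autoImplicit false
open Cfsg
open scoped commutatorElement

namespace Cfsg.Agent.S0597

/-- If two subnormal subgroups of a faithful group on an elementary abelian p-group satisfy [V, E₁, E₂] = 1, then their commutator lies in the largest normal p-subgroup. -/
theorem result {G : Type*} [Group G] [Finite G] {p : ℕ} [Fact p.Prime] (V H : Subgroup G) (hV : Cfsg.IsElementaryAbelian p V) (hHV : H ≤ Subgroup.normalizer (V : Set G)) (hf : H ⊓ Subgroup.centralizer (V : Set G) = ⊥) (E₁ E₂ : Subgroup G) (h₁ : E₁ ≤ H) (h₂ : E₂ ≤ H) (hs₁ : (E₁.subgroupOf H).IsSubnormal) (hs₂ : (E₂.subgroupOf H).IsSubnormal) (hc : ⁅⁅V, E₁⁆, E₂⁆ = ⊥) : ⁅E₁, E₂⁆ ≤ (Cfsg.pCore p H).map H.subtype := by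
  haveI := hV.1
  set U := ⁅V, E₁⁆
  set M := E₁ ⊔ E₂
  have hMH : M ≤ H := sup_le h₁ h₂
  have hUV : U ≤ V := Subgroup.le_normalizer_iff_commutator_le_left.1 (h₁.trans hHV)
  have hUN : E₁ ≤ Subgroup.normalizer (U : Set G) := Subgroup.normalizer_commutator_ge_right _ _
  have hE₂U : E₂ ≤ Subgroup.centralizer (U : Set G) :=
    Subgroup.le_centralizer_iff.1 (Subgroup.commutator_eq_bot_iff_le_centralizer.1 hc)
  -- conjugation action and the two generators of `[E₁, E₂]`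
  have hgen : ∀ x ∈ E₁, ∀ y ∈ E₂,
      (∀ u ∈ U, ⁅⁅x, y⁆, u⁆ = 1) ∧ ∀ v ∈ V, ⁅⁅x, y⁆, v⁆ ∈ U := by
    intro x hx y hy
    have hyfix : ∀ u ∈ U, y * u * y⁻¹ = u := fun u hu => by
      rw [← Subgroup.mem_centralizer_iff.1 (hE₂U hy) u hu, mul_inv_cancel_right]
    have hyfix' : ∀ u ∈ U, y⁻¹ * u * y = u := fun u hu => by
      rw [mul_assoc, Subgroup.mem_centralizer_iff.1 (hE₂U hy) u hu, inv_mul_cancel_left]
    have hux : ∀ u ∈ U, x⁻¹ * u * x ∈ U := fun u hu =>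
      (Subgroup.mem_normalizer_iff''.1 (hUN hx) u).1 hu
    refine ⟨fun u hu => ?_, fun v hv => ?_⟩
    · have e : ⁅x, y⁆ * u * ⁅x, y⁆⁻¹ = x * (y * (x⁻¹ * (y⁻¹ * u * y) * x) * y⁻¹) * x⁻¹ := by
        simp [commutatorElement_def, mul_assoc]
      rw [commutatorElement_def, e, hyfix' u hu, hyfix _ (hux u hu)]
      simp [mul_assoc]
    · -- modulo `U`, `x` fixes everything
      have hq : ∀ w ∈ V, ⁅x, w⁆ ∈ U := fun w hw => by
        have h := Subgroup.commutator_mem_commutator (H₁ := V) (H₂ := E₁) hw hx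
        rw [← commutatorElement_inv]
        exact U.inv_mem h
      have hq' : ∀ w ∈ V, ⁅x⁻¹, w⁆ ∈ U := fun w hw => by
        have h := Subgroup.commutator_mem_commutator (H₁ := V) (H₂ := E₁) hw (E₁.inv_mem hx)
        rw [← commutatorElement_inv]
        exact U.inv_mem h
      have hyN : y ∈ Subgroup.normalizer (V : Set G) := hHV (h₂ hy)
      set v₁ := y⁻¹ * v * y with hv₁
      have hv₁V : v₁ ∈ V := (Subgroup.mem_normalizer_iff''.1 hyN v).1 hv
      have h1 : y * (x⁻¹ * v₁ * x) * y⁻¹ = ⁅x⁻¹, v₁⁆ * v := by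
        have : x⁻¹ * v₁ * x = ⁅x⁻¹, v₁⁆ * v₁ := by simp [commutatorElement_def]
        rw [this]
        calc y * (⁅x⁻¹, v₁⁆ * v₁) * y⁻¹ = (y * ⁅x⁻¹, v₁⁆ * y⁻¹) * (y * v₁ * y⁻¹) := by simp [mul_assoc]
          _ = _ := by rw [hyfix _ (hq' _ hv₁V), show y * v₁ * y⁻¹ = v by simp [hv₁, mul_assoc]]
      have e : ⁅⁅x, y⁆, v⁆ = x * (y * (x⁻¹ * v₁ * x) * y⁻¹) * x⁻¹ * v⁻¹ := by
        simp [commutatorElement_def, hv₁, mul_assoc]
      rw [e, h1]
      have : x * (⁅x⁻¹, v₁⁆ * v) * x⁻¹ * v⁻¹ = (x * ⁅x⁻¹, v₁⁆ * x⁻¹) * ⁅x, v⁆ := by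
        simp [commutatorElement_def, mul_assoc]
      rw [this]
      exact U.mul_mem (H34.conj_mem_of_mem_normalizer (hUN hx) (hq' _ hv₁V)) (hq v hv)
  let S : Subgroup G :=
    { carrier := {c | c ∈ H ∧ (∀ u ∈ U, ⁅c, u⁆ = 1) ∧ ∀ v ∈ V, ⁅c, v⁆ ∈ U}
      one_mem' := ⟨H.one_mem, by simp, by simp⟩
      mul_mem' := by
        rintro a b ⟨ha, ha1, ha2⟩ ⟨hb, hb1, hb2⟩
        refine ⟨H.mul_mem ha hb, fun u hu => ?_, fun v hv => ?_⟩
        · rw [H34.comm_mul_left, hb1 u hu, ha1 u hu]; simp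
        · rw [H34.comm_mul_left, show a * ⁅b, v⁆ * a⁻¹ = ⁅a, ⁅b, v⁆⁆ * ⁅b, v⁆ by
            simp [commutatorElement_def, mul_assoc], ha1 _ (hb2 v hv), one_mul]
          exact U.mul_mem (hb2 v hv) (ha2 v hv)
      inv_mem' := by
        rintro a ⟨ha, ha1, ha2⟩
        have hfix : ∀ u ∈ U, a⁻¹ * u * a = u := fun u hu => by
          rw [mul_assoc, ← commutatorElement_eq_one_iff_mul_comm.1 (ha1 u hu), inv_mul_cancel_left]
        refine ⟨H.inv_mem ha, fun u hu => ?_, fun v hv => ?_⟩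
        · rw [commutatorElement_def, inv_inv, hfix u hu, mul_inv_cancel]
        · have h := U.inv_mem (ha2 v hv)
          rw [commutatorElement_inv] at h
          rw [commutatorElement_inv_left, hfix _ h]
          exact h }
  have hS : ⁅E₁, E₂⁆ ≤ S := Subgroup.commutator_le.2 fun x hx y hy => by
    obtain ⟨a, b⟩ := hgen x hx y hy
    refine ⟨?_, a, b⟩
    rw [commutatorElement_def]
    exact H.mul_mem (H.mul_mem (H.mul_mem (h₁ hx) (h₂ hy)) (H.inv_mem (h₁ hx))) (H.inv_mem (h₂ hy))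
  have hSp : IsPGroup p S := by
    intro c
    obtain ⟨hcH, hc1, hc2⟩ := c.2
    refine ⟨1, Subtype.ext ?_⟩
    have hpow : ∀ (n : ℕ) (v : G), v ∈ V → ⁅(c : G) ^ n, v⁆ = ⁅(c : G), v⁆ ^ n := by
      intro n v hv
      induction n with
      | zero => simp
      | succ n ih =>
        rw [pow_succ', H34.comm_mul_left, ih,
          show (c : G) * ⁅(c : G), v⁆ ^ n * (c : G)⁻¹ = ⁅(c : G), ⁅(c : G), v⁆ ^ n⁆ * ⁅(c : G), v⁆ ^ n by
            simp [commutatorElement_def, mul_assoc], hc1 _ (U.pow_mem (hc2 v hv) n), one_mul, ← pow_succ]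
    have : (c : G) ^ p ∈ H ⊓ Subgroup.centralizer (V : Set G) :=
      ⟨H.pow_mem hcH p, H34.mem_centralizer_iff_comm.2 fun v hv => by
        rw [hpow p v hv, hV.2 _ (hUV (hc2 v hv))]⟩
    rw [hf, Subgroup.mem_bot] at this
    simpa using this
  -- subnormality
  have hn : M ≤ Subgroup.normalizer ((⁅E₁, E₂⁆ : Subgroup G) : Set G) :=
    sup_le (Subgroup.normalizer_commutator_ge_left _ _) (Subgroup.normalizer_commutator_ge_right _ _)
  have hDH : ⁅E₁, E₂⁆ ≤ H := fun c hc => (hS hc).1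
  have hle : ⁅E₁, E₂⁆ ≤ M := Subgroup.commutator_le_sup _ _
  have hsub : (⁅E₁, E₂⁆.subgroupOf H).IsSubnormal := by
    refine Subgroup.IsSubnormal.step _ (M.subgroupOf H) (fun c hc => hle hc) ?_ ?_
    · have : M.subgroupOf H = E₁.subgroupOf H ⊔ E₂.subgroupOf H := Subgroup.subgroupOf_sup h₁ h₂
      rw [this]
      exact H32.isSubnormal_sup hs₁ hs₂
    · refine (Subgroup.normal_subgroupOf_iff_le_normalizer
        (H := ⁅E₁, E₂⁆.subgroupOf H) (K := M.subgroupOf H) (fun c hc => hle hc)).2 ?_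
      intro m hm
      rw [Subgroup.mem_normalizer_iff]
      intro c
      exact Subgroup.mem_normalizer_iff.1 (hn hm) c
  have := H34.le_pCore_of_isSubnormal (p := p) hsub
    ((hSp.to_le hS).comap_of_injective H.subtype H.subtype_injective)
  intro c hc
  exact ⟨⟨c, hDH hc⟩, this hc, rfl⟩

end Cfsg.Agent.S0597
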