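import Cfsg.Statements.S0601
import Cfsg.Agent.H34.FixedClosure

set_option autoImplicit false
open Cfsg
open scoped commutatorElement

namespace Cfsg.Agent.S0601

/-- When O_p(G) contains its centralizer, the normal closure of Ω₁(Z(S)) is elementary abelian and G has no nontrivial normal p-subgroup modulo its centralizer. -/
theorem result {G : Type*} [Group G] [Finite G] {p : ℕ} [Fact p.Prime] (hc : Subgroup.centralizer (Cfsg.pCore p G : Set G) ≤ Cfsg.pCore p G) : (⨆ S : Sylow p G, Cfsg.omegaOne p (((S : Subgroup G)) ⊓ Subgroup.centralizer ((S : Subgroup G) : Set G))).Normal ∧ Cfsg.IsElementaryAbelian p (⨆ S : Sylow p G, Cfsg.omegaOne p (((S : Subgroup G)) ⊓ Subgroup.centralizer ((S : Subgroup G) : Set G))) ∧ ∀ D : Subgroup G, D.Normal → Subgroup.centralizer ((⨆ S : Sylow p G, Cfsg.omegaOne p (((S : Subgroup G)) ⊓ Subgroup.centralizer ((S : Subgroup G) : Set G)) : Subgroup G) : Set G) ≤ D → (∃ k : ℕ, (Subgroup.centralizer ((⨆ S : Sylow p G, Cfsg.omegaOne p (((S : Subgroup G)) ⊓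 Subgroup.centralizer ((S : Subgroup G) : Set G)) : Subgroup G) : Set G)).relIndex D = p ^ k) → D = Subgroup.centralizer ((⨆ S : Sylow p G, Cfsg.omegaOne p (((S : Subgroup G)) ⊓ Subgroup.centralizer ((S : Subgroup G) : Set G)) : Subgroup G) : Set G) := by
  have hN := H34.omegaZ_normal (G := G) (p := p)
  refine ⟨hN, H34.omegaZ_isElementaryAbelian hc, fun D hD hle ⟨k, hk⟩ => le_antisymm ?_ hle⟩
  haveI := hN
  refine H34.le_centralizer_of_generated (p := p) (H34.omegaZ p G)
    (Subgroup.centralizer (H34.omegaZ p G : Set G)) D hD H34.omegaZ_le_iSup_fixed le_rfl ?_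
  refine IsPGroup.of_card (n := k) ?_
  rw [← Subgroup.relIndex_ker, QuotientGroup.ker_mk']
  exact hk

end Cfsg.Agent.S0601
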