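import Cfsg.Statements.S0603
import Cfsg.Agent.H34.Thompson

set_option autoImplicit false
open Cfsg
open scoped commutatorElement

namespace Cfsg.Agent.S0603

/-- The Thompson subgroup of any subgroup containing J(G) is J(G) itself. -/
theorem result {G : Type*} [Group G] [Finite G] {p : ℕ} [Fact p.Prime] (U : Subgroup G) (hU : Cfsg.thompsonSubgroup p G ≤ U) : Cfsg.thompsonSubgroupOf p U = Cfsg.thompsonSubgroup p G := by
  obtain ⟨A, hA⟩ := H34.exists_maxElementaryAbelian (G := G) p
  rw [H34.thompsonSubgroupOf_eq_of_mem ((le_sSup hA).trans hU) hA]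
  exact le_antisymm (sSup_le_sSup fun B hB => hB.2)
    (sSup_le fun B hB => le_sSup ⟨(le_sSup hB).trans hU, hB⟩)

end Cfsg.Agent.S0603
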