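import Cfsg.Statements.S0604
import Cfsg.Agent.H34.Thompson

set_option autoImplicit false
open Cfsg
open scoped commutatorElement

namespace Cfsg.Agent.S0604

/-- The Thompson subgroup of G is the join of the Thompson subgroups of its Sylow p-subgroups. -/
theorem result {G : Type*} [Group G] [Finite G] {p : ℕ} [Fact p.Prime] : Cfsg.thompsonSubgroup p G = ⨆ S : Sylow p G, Cfsg.thompsonSubgroupOf p (S : Subgroup G) := by
  refine le_antisymm (sSup_le fun A hA => ?_) (iSup_le fun S => ?_)
  · obtain ⟨S, hS⟩ := (H34.IsPGroup_of_isElementaryAbelian hA.1).exists_le_sylow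
    refine le_iSup_of_le S ?_
    rw [H34.thompsonSubgroupOf_sylow]
    exact le_sSup ⟨hS, hA⟩
  · rw [H34.thompsonSubgroupOf_sylow]
    exact sSup_le_sSup fun B hB => hB.2

end Cfsg.Agent.S0604
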