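import Cfsg.Statements.S0605
import Cfsg.Agent.H34.Thompson

set_option autoImplicit false
open Cfsg
open scoped commutatorElement

namespace Cfsg.Agent.S0605

/-- Elements of order p in the centralizer of the Thompson subgroup belong to the Thompson subgroup (so to its centre). -/
theorem result {G : Type*} [Group G] [Finite G] {p : ℕ} [Fact p.Prime] (x : G) (hx : x ∈ Subgroup.centralizer (Cfsg.thompsonSubgroup p G : Set G)) (ho : orderOf x = p) : x ∈ Cfsg.thompsonSubgroup p G := by
  obtain ⟨A, hA⟩ := H34.exists_maxElementaryAbelian (G := G) p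
  have hB : Cfsg.IsElementaryAbelian p (Subgroup.zpowers x) := ⟨inferInstance, fun a ha => by
    obtain ⟨k, rfl⟩ := Subgroup.mem_zpowers_iff.1 ha
    rw [← zpow_natCast, ← zpow_mul, mul_comm, zpow_mul, zpow_natCast, ← ho, pow_orderOf_eq_one,
      one_zpow]⟩
  refine le_sSup hA (H34.le_of_mem_max hA hB ?_ (Subgroup.mem_zpowers x))
  rw [Subgroup.le_centralizer_iff, Subgroup.zpowers_le]
  exact Subgroup.centralizer_le (SetLike.coe_subset_coe.2 (le_sSup hA)) hx

end Cfsg.Agent.S0605
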