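import Cfsg.Statements.S0609
import Cfsg.Agent.H34.Quotient

set_option autoImplicit false
open Cfsg
open scoped commutatorElement

namespace Cfsg.Agent.S0609

/-- Thompson factorizability passes to and from the quotient by the largest normal subgroup of order prime to p. -/
theorem result {G : Type*} [Group G] [Finite G] {p : ℕ} [Fact p.Prime] : Cfsg.IsThompsonFactorizable p G ↔ Cfsg.IsThompsonFactorizable p (G ⧸ Cfsg.pPrimeCore p G) := by
  have hcop := H19.pPrimeCore_coprime (G := G) p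
  have hQ : Cfsg.pPrimeCore p (G ⧸ Cfsg.pPrimeCore p G) = ⊥ :=
    H19.pPrimeCore_quotient_pPrimeCore p
  set π := QuotientGroup.mk' (Cfsg.pPrimeCore p G) with hπ
  have hinf : ∀ S : Sylow p G, (S : Subgroup G) ⊓ π.ker = ⊥ := fun S => by
    rw [hπ, QuotientGroup.ker_mk']
    exact H34.inf_eq_bot_of_coprime S.isPGroup' hcop
  constructor
  · intro h T q
    obtain ⟨S, hS⟩ := H34.exists_sylow_map_mk_eq (Cfsg.pPrimeCore p G) T
    obtain ⟨g, rfl⟩ := QuotientGroup.mk'_surjective _ q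
    obtain ⟨x, hx, c, hc, n, hn, rfl⟩ := h S g
    refine ⟨π x, by rw [show π x = 1 from (QuotientGroup.eq_one_iff x).2 hx]; exact one_mem _,
      π c, ?_, π n, ?_, by simp [hπ]⟩
    · rw [hS, ← H34.map_omegaCenter_of_inf_ker _ _ (hinf S)]
      rintro _ ⟨y, hy, rfl⟩
      rw [← map_mul, ← map_mul, hc y hy]
    · rw [hS, ← H34.map_thompsonSubgroupOf_of_inf_ker _ _ (hinf S)]
      exact Subgroup.le_normalizer_map π (Subgroup.mem_map_of_mem π hn)
  · intro h S g
    obtain ⟨x, hx, c, hc, n, hn, he⟩ :=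
      h (S.mapSurjective (QuotientGroup.mk'_surjective _)) (π g)
    rw [hQ, Subgroup.mem_bot] at hx
    obtain ⟨c₀, rfl⟩ := QuotientGroup.mk'_surjective _ c
    obtain ⟨n₀, rfl⟩ := QuotientGroup.mk'_surjective _ n
    rw [Sylow.coe_mapSurjective, ← H34.map_omegaCenter_of_inf_ker _ _ (hinf S)] at hc
    rw [Sylow.coe_mapSurjective, ← H34.map_thompsonSubgroupOf_of_inf_ker _ _ (hinf S)] at hn
    obtain ⟨a, ha, hac⟩ := H34.exists_mem_centralizer_of_mk
      (S.isPGroup'.to_le ((H34.omegaOne_le _).trans inf_le_left)) hcop hc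
    obtain ⟨b, hb, hbn⟩ := H34.exists_mem_normalizer_of_mk
      (S.isPGroup'.to_le (H34.thompsonSubgroupOf_le _)) hcop hn
    refine ⟨g * ((a * c₀) * (b * n₀))⁻¹, ?_, _, hac, _, hbn, by simp [mul_assoc]⟩
    rw [← QuotientGroup.eq_one_iff, ← QuotientGroup.mk'_apply, map_mul, map_inv, he, hx, map_mul,
      map_mul, map_mul, show π a = 1 from (QuotientGroup.eq_one_iff a).2 ha,
      show π b = 1 from (QuotientGroup.eq_one_iff b).2 hb]
    simp [hπ]

end Cfsg.Agent.S0609
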