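import Cfsg.Statements.S0611
import Cfsg.Agent.H34.FFBasic

set_option autoImplicit false
open Cfsg
open scoped commutatorElement

namespace Cfsg.Agent.S0611

/-- Minimal nontrivially-acting best offenders in such a faithful group have order p, commutator [V, B] of order p and fixed points of index p. -/
theorem result {G : Type*} [Group G] [Finite G] {p : ℕ} [Fact p.Prime] (V H : Subgroup G) (hV : Cfsg.IsElementaryAbelian p V) (hHV : H ≤ Subgroup.normalizer (V : Set G)) (hf : H ⊓ Subgroup.centralizer (V : Set G) = ⊥) (hS1 : Subgroup.centralizer (Cfsg.pPrimeCore p ↥H : Set ↥H) ≤ Cfsg.pPrimeCore p ↥H) (hS3 : H = ⨆ A : {A : Subgroup G // A ≤ H ∧ Cfsg.IsBestOffenderOn p V A}, (A : Subgroup G)) (hH1 : H ≠ ⊥) (A : Subgroup G) (hAH : A ≤ H) (hA : Cfsg.IsBestOffenderOn p V A) (hAV : ⁅V, A⁆ ≠ ⊥) (hmin : ∀ B : Subgroup G, B ≤ A → Cfsg.IsBestOffenderOn p V B → ⁅V, B⁆ ≠ ⊥ → B = A) : Nat.card A = p ∧ Nat.card ↥(⁅V, A⁆) = p ∧ ((V ⊓ Subgroup.centralizer (A :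 Set G))).relIndex V = p := by
  have S : H34.FFSetup p V H := ⟨hV, hHV, hf, hS1⟩
  have hA1 : A ≠ ⊥ := by rintro rfl; exact hAV (Subgroup.commutator_bot_right V)
  have h : H34.IsTransvectionGroup p V H A := S.isTransvectionGroup_of_minimal hAH hA hA1
    fun B hB hb hB1 => hmin B hB hb (S.commutator_ne_bot (hB.trans hAH) hB1)
  refine ⟨h.2.1, S.card_commutator_transvection h, ?_⟩
  have h2 : Nat.card ↥(V ⊓ Subgroup.centralizer (A : Set G)) *
      (V ⊓ Subgroup.centralizer (A : Set G)).relIndex V = Nat.card V := by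
    rw [← Subgroup.relIndex_bot_left, ← Subgroup.relIndex_bot_left,
      Subgroup.relIndex_mul_relIndex _ _ _ bot_le inf_le_left]
  exact Nat.eq_of_mul_eq_mul_left Nat.card_pos (h2.trans h.2.2.symm)

end Cfsg.Agent.S0611
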