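import Cfsg.Statements.S0612
import Cfsg.Agent.H34.FFBasic

set_option autoImplicit false
open Cfsg
open scoped commutatorElement

namespace Cfsg.Agent.S0612

/-- In such a faithful group every nontrivial best offender decomposes as a direct product of minimal nontrivially-acting best offenders. -/
theorem result {G : Type*} [Group G] [Finite G] {p : ℕ} [Fact p.Prime] (V H : Subgroup G) (hV : Cfsg.IsElementaryAbelian p V) (hHV : H ≤ Subgroup.normalizer (V : Set G)) (hf : H ⊓ Subgroup.centralizer (V : Set G) = ⊥) (hS1 : Subgroup.centralizer (Cfsg.pPrimeCore p ↥H : Set ↥H) ≤ Cfsg.pPrimeCore p ↥H) (hS3 : H = ⨆ A : {A : Subgroup G // A ≤ H ∧ Cfsg.IsBestOffenderOn p V A}, (A : Subgroup G)) (hH1 : H ≠ ⊥) (A : Subgroup G) (hAH : A ≤ H) (hA : Cfsg.IsBestOffenderOn p V A) (hA1 : A ≠ ⊥) : ∃ (k : ℕ) (B : Fin k → Subgroup G), (∀ i, B i ≤ A ∧ Cfsg.IsBestOffenderOn p V (B i) ∧ ⁅V, B i⁆ ≠ ⊥ ∧ ∀ C : Subgroup G, C ≤ B i → Cfsg.IsBestOffenderOn p V C → ⁅V, C⁆ ≠ ⊥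 → C = B i) ∧ iSupIndep B ∧ ⨆ i, B i = A := by
  classical
  haveI := Fintype.ofFinite (Subgroup G)
  have S : H34.FFSetup p V H := ⟨hV, hHV, hf, hS1⟩
  obtain ⟨T, ⟨hT, hTA⟩, hmin⟩ := Set.exists_min_image
    {T : Finset (Subgroup G) | (∀ B ∈ T, H34.IsTransvectionGroup p V H B ∧ B ≤ A) ∧ A ≤ T.sup id}
    Finset.card (Set.toFinite _)
    ⟨Finset.univ.filter fun B : Subgroup G => H34.IsTransvectionGroup p V H B ∧ B ≤ A,
      fun B hB => (Finset.mem_filter.1 hB).2,
      (S.generated_by_transvections hAH hA).trans (sSup_le fun B hB =>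
        Finset.le_sup (f := id) (Finset.mem_filter.2 ⟨Finset.mem_univ _, hB⟩))⟩
  refine ⟨T.card, fun i => (T.equivFin.symm i : Subgroup G), fun i => ?_, ?_, ?_⟩
  · obtain ⟨h1, h2⟩ := hT _ (T.equivFin.symm i).2
    obtain ⟨a, b, c⟩ := S.minimal_of_isTransvectionGroup h1
    exact ⟨h2, a, b, c⟩
  · intro i
    set B := (T.equivFin.symm i : Subgroup G) with hB
    have hBT : B ∈ T := (T.equivFin.symm i).2
    have hrest : (⨆ (j : Fin T.card) (_ : j ≠ i), (T.equivFin.symm j : Subgroup G)) ≤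
        (T.erase B).sup id := by
      refine iSup₂_le fun j hj => Finset.le_sup (f := id) (Finset.mem_erase.2 ⟨fun h => hj ?_,
        (T.equivFin.symm j).2⟩)
      exact T.equivFin.symm.injective (Subtype.ext h)
    refine Disjoint.mono_right hrest (disjoint_iff.2 ?_)
    have hp := (Fact.out : p.Prime)
    rcases (Nat.dvd_prime hp).1 ((hT B hBT).1.2.1 ▸ Subgroup.card_dvd_of_le
      (inf_le_left : B ⊓ (T.erase B).sup id ≤ B)) with h | h
    · exact Subgroup.eq_bot_of_card_eq _ h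
    · have hle : B ≤ (T.erase B).sup id := inf_eq_left.1
        (Subgroup.eq_of_le_of_card_ge inf_le_left (by rw [h, (hT B hBT).1.2.1]))
      have := hmin (T.erase B) ⟨fun C hC => hT C (Finset.mem_of_mem_erase hC),
        hTA.trans (Finset.sup_le fun C hC => ?_)⟩
      · exact absurd this (Nat.not_le.2 (Finset.card_erase_lt_of_mem hBT))
      · by_cases hCB : C = B
        · exact hCB ▸ hle
        · exact Finset.le_sup (f := id) (Finset.mem_erase.2 ⟨hCB, hC⟩)
  · refine le_antisymm (iSup_le fun i => (hT _ (T.equivFin.symm i).2).2) (hTA.trans ?_)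
    refine Finset.sup_le fun C hC => le_iSup_of_le (T.equivFin ⟨C, hC⟩) ?_
    simp

end Cfsg.Agent.S0612
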