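import Cfsg.Statements.S0614
import Cfsg.Agent.H34.FFStructure

set_option autoImplicit false
open Cfsg
open scoped commutatorElement Pointwise

namespace Cfsg.Agent.S0614

/-- The commutator of the p'-core with a minimal nontrivially-acting best offender is a 3-group (when p = 2) or a non-abelian 2-group (when p = 3). -/
theorem result {G : Type*} [Group G] [Finite G] {p : ℕ} [Fact p.Prime] (V H : Subgroup G) (hV : Cfsg.IsElementaryAbelian p V) (hHV : H ≤ Subgroup.normalizer (V : Set G)) (hf : H ⊓ Subgroup.centralizer (V : Set G) = ⊥) (hS1 : Subgroup.centralizer (Cfsg.pPrimeCore p ↥H : Set ↥H) ≤ Cfsg.pPrimeCore p ↥H) (hS3 : H = ⨆ A : {A : Subgroup G // A ≤ H ∧ Cfsg.IsBestOffenderOn p V A}, (A : Subgroup G)) (hH1 : H ≠ ⊥) (A : Subgroup G) (hAH : A ≤ H) (hA : Cfsg.IsBestOffenderOn p V A) (hAV : ⁅V, A⁆ ≠ ⊥) (hmin : ∀ B : Subgroup G, B ≤ A → Cfsg.IsBestOffenderOn p V B → ⁅V, B⁆ ≠ ⊥ → B = A) : (p = 2 ∧ IsPGroup 3 ↥(⁅((Cfsg.pPrimeCore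 p ↥H).map H.subtype), A⁆)) ∨ (p = 3 ∧ IsPGroup 2 ↥(⁅((Cfsg.pPrimeCore p ↥H).map H.subtype), A⁆) ∧ ¬ IsMulCommutative ↥(⁅((Cfsg.pPrimeCore p ↥H).map H.subtype), A⁆)) := by
  have S : H34.FFSetup p V H := ⟨hV, hHV, hf, hS1⟩
  have hA1 : A ≠ ⊥ := by rintro rfl; exact hAV (Subgroup.commutator_bot_right V)
  have hT : H34.IsTransvectionGroup p V H A := S.isTransvectionGroup_of_minimal hAH hA hA1
    fun B hB hb hB1 => hmin B hB hb (S.commutator_ne_bot (hB.trans hAH) hB1)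
  obtain ⟨r, hr, hpr, hQr⟩ := S.exists_core_prime hT
  rcases hpr with ⟨hp2, rfl⟩ | ⟨hp3, rfl⟩
  · exact Or.inl ⟨hp2, hQr⟩
  refine Or.inr ⟨hp3, hQr, ?_⟩
  subst hp3
  have F := S.compFacts hT
  obtain ⟨e⟩ := F.iso
  obtain ⟨g, h, hg, hh, hne⟩ := H34.SL2.exists_noncomm_three
  set Q := ⁅H34.coreOf 3 H, A⁆
  set E := H34.compOf 3 H A
  have hn : (Q.subgroupOf E).Normal := by
    refine (Subgroup.normal_subgroupOf_iff_le_normalizer le_sup_left).2 (sup_le Subgroup.le_normalizer ?_)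
    exact Subgroup.normalizer_commutator_ge_right _ _
  have hidx : (Q.subgroupOf E).index = 3 := by
    have h1 := (Q.subgroupOf E).card_mul_index
    rw [Nat.card_congr (Subgroup.subgroupOfEquivOfLe (le_sup_left : Q ≤ E)).toEquiv, ← F.cardCore] at h1
    exact Nat.eq_of_mul_eq_mul_left Nat.card_pos h1
  have hmem : ∀ x : Matrix.SpecialLinearGroup (Fin 2) (ZMod 3), x ^ 4 = 1 → ((e.symm x : E) : G) ∈ Q := by
    intro x hx
    have h1 : (QuotientGroup.mk' (Q.subgroupOf E)) (e.symm x) = 1 := by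
      refine orderOf_eq_one_iff.1 (Nat.eq_one_of_dvd_coprimes (a := 4) (b := 3) (by decide) ?_ ?_)
      · exact orderOf_dvd_of_pow_eq_one (by rw [← map_pow, ← map_pow, hx, map_one, map_one])
      · exact (orderOf_dvd_natCard _).trans (dvd_of_eq hidx)
    exact Subgroup.mem_subgroupOf.1 ((QuotientGroup.eq_one_iff (e.symm x)).1 h1)
  intro hc
  refine hne (e.symm.injective ?_)
  rw [map_mul, map_mul]
  exact Subtype.ext (setLike_mul_comm (s := Q) (hmem g hg) (hmem h hh))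

end Cfsg.Agent.S0614
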