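import Cfsg.Statements.S0615
import Cfsg.Agent.H34.IrreduciblePair
import Cfsg.Agent.H34.SubnormalCore
import Cfsg.Agent.S0597

set_option autoImplicit false
open Cfsg
open scoped commutatorElement

namespace Cfsg.Agent.S0615

/-- Two subnormal subgroups acting irreducibly on their incomparable commutator modules, in a faithful group with trivial largest normal p-subgroup, generate their direct product, and the commutator module splits accordingly. -/
theorem result {G : Type*} [Group G] [Finite G] {p : ℕ} [Fact p.Prime] (V E E₁ E₂ : Subgroup G) (hV : Cfsg.IsElementaryAbelian p V) (hEV : E ≤ Subgroup.normalizer (V : Set G)) (hf : E ⊓ Subgroup.centralizer (V : Set G) = ⊥) (hgen : E = E₁ ⊔ E₂) (hs₁ : (E₁.subgroupOf E).IsSubnormal) (hs₂ : (E₂.subgroupOf E).IsSubnormal) (hOp : Cfsg.pCore p ↥E = ⊥) (hirr₁ : (∀ U : Subgroup G, U ≤ ⁅V, E₁⁆ → E₁ ≤ Subgroup.normalizer (U : Set G) → U = ⊥ ∨ U = ⁅V, E₁⁆)) (hirr₂ : (∀ U :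 Subgroup G, U ≤ ⁅V, E₂⁆ → E₂ ≤ Subgroup.normalizer (U : Set G) → U = ⊥ ∨ U = ⁅V, E₂⁆)) (h12 : ¬ ⁅V, E₁⁆ ≤ ⁅V, E₂⁆) (h21 : ¬ ⁅V, E₂⁆ ≤ ⁅V, E₁⁆) (hc₁ : 2 < Nat.card E₁) (hc₂ : 2 < Nat.card E₂) : ⁅E₁, E₂⁆ = ⊥ ∧ E₁ ⊓ E₂ = ⊥ ∧ ⁅V, E₁⁆ ⊓ ⁅V, E₂⁆ = ⊥ ∧ ⁅V, E⁆ = ⁅V, E₁⁆ ⊔ ⁅V, E₂⁆ := by
  haveI := hV.1
  have hcore : ∀ (A : Subgroup G), A ≤ E → (A.subgroupOf E).IsSubnormal → ∀ X : Subgroup G,
      X ≤ A → A ≤ Subgroup.normalizer (X : Set G) → IsPGroup p X → X = ⊥ := by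
    intro A hA hs X hX hN hXp
    have hsX : (X.subgroupOf E).IsSubnormal := by
      refine Subgroup.IsSubnormal.step _ (A.subgroupOf E) (fun c hc => hX hc) hs ?_
      refine (Subgroup.normal_subgroupOf_iff_le_normalizer
        (H := X.subgroupOf E) (K := A.subgroupOf E) (fun c hc => hX hc)).2 ?_
      intro m hm
      rw [Subgroup.mem_normalizer_iff]
      intro c
      exact Subgroup.mem_normalizer_iff.1 (hN hm) c
    have h := H34.le_pCore_of_isSubnormal (p := p) hsX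
      (hXp.comap_of_injective E.subtype E.subtype_injective)
    rw [hOp, le_bot_iff] at h
    rw [← inf_eq_left.2 (hX.trans hA), ← Subgroup.subgroupOf_map_subtype, h, Subgroup.map_bot]
  have hE₁ : E₁ ≤ E := hgen ▸ le_sup_left
  have hE₂ : E₂ ≤ E := hgen ▸ le_sup_right
  have i₁ : H34.IsIrrPart p V E E₁ := ⟨hE₁, hirr₁, hcore E₁ hE₁ hs₁, hc₁⟩
  have i₂ : H34.IsIrrPart p V E E₂ := ⟨hE₂, hirr₂, hcore E₂ hE₂ hs₂, hc₂⟩
  obtain ⟨hW, hc12, hc21⟩ :=
    H34.irreducible_pair hV hEV hf _ E E₁ E₂ rfl le_rfl hE₁ hE₂ hs₁ hs₂ i₁ i₂ h12 h21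
  have hW₁V : ⁅V, E₁⁆ ≤ V := i₁.commutator_le hV hEV
  have hW₂V : ⁅V, E₂⁆ ≤ V := i₂.commutator_le hV hEV
  refine ⟨?_, ?_, hW, ?_⟩
  · have h := Cfsg.Agent.S0597.result (p := p) V E hV hEV hf E₁ E₂ hE₁ hE₂ hs₁ hs₂
      (Subgroup.commutator_eq_bot_iff_le_centralizer.2 hc12)
    rwa [hOp, Subgroup.map_bot, le_bot_iff] at h
  · rw [eq_bot_iff, ← hf]
    refine le_inf (inf_le_left.trans hE₁) (Subgroup.le_centralizer_iff.1 ?_)
    rw [← Subgroup.commutator_eq_bot_iff_le_centralizer, eq_bot_iff, ← hW]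
    exact le_inf (Subgroup.commutator_mono le_rfl inf_le_left)
      (Subgroup.commutator_mono le_rfl inf_le_right)
  · refine le_antisymm ?_ (sup_le (Subgroup.commutator_mono le_rfl hE₁)
      (Subgroup.commutator_mono le_rfl hE₂))
    set W := ⁅V, E₁⁆ ⊔ ⁅V, E₂⁆
    have hWV : W ≤ V := sup_le hW₁V hW₂V
    let M : Subgroup G :=
      { carrier := {x | x ∈ Subgroup.normalizer (W : Set G) ∧ ∀ v ∈ V, ⁅x, v⁆ ∈ W}
        one_mem' := ⟨one_mem _, by simp⟩
        mul_mem' := by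
          rintro a b ⟨ha, ha'⟩ ⟨hb, hb'⟩
          refine ⟨mul_mem ha hb, fun v hv => ?_⟩
          rw [H34.comm_mul_left]
          exact W.mul_mem (H34.conj_mem_of_mem_normalizer ha (hb' v hv)) (ha' v hv)
        inv_mem' := by
          rintro a ⟨ha, ha'⟩
          refine ⟨inv_mem ha, fun v hv => ?_⟩
          rw [commutatorElement_inv_left, ← commutatorElement_inv]
          exact (Subgroup.mem_normalizer_iff''.1 ha _).1 (W.inv_mem (ha' v hv)) }
    have hN₁ : E₁ ≤ Subgroup.normalizer (W : Set G) := by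
      rw [Subgroup.le_normalizer_iff_commutator_le_left]
      exact (Subgroup.commutator_mono hWV le_rfl).trans le_sup_left
    have hN₂ : E₂ ≤ Subgroup.normalizer (W : Set G) := by
      rw [Subgroup.le_normalizer_iff_commutator_le_left]
      exact (Subgroup.commutator_mono hWV le_rfl).trans le_sup_right
    have hle : E ≤ M := by
      rw [hgen]
      refine sup_le (fun x hx => ⟨hN₁ hx, fun v hv => ?_⟩) (fun x hx => ⟨hN₂ hx, fun v hv => ?_⟩)
      · refine le_sup_left (a := ⁅V, E₁⁆) ?_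
        rw [Subgroup.commutator_comm]; exact Subgroup.commutator_mem_commutator hx hv
      · refine le_sup_right (b := ⁅V, E₂⁆) ?_
        rw [Subgroup.commutator_comm]; exact Subgroup.commutator_mem_commutator hx hv
    rw [Subgroup.commutator_comm, Subgroup.commutator_le]
    exact fun x hx v hv => (hle hx).2 v hv

end Cfsg.Agent.S0615
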