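import Cfsg.Statements.S0617
import Cfsg.Agent.H34.FFStructure

set_option autoImplicit false
open Cfsg
open scoped commutatorElement Pointwise

namespace Cfsg.Agent.S0617

/-- Structure Theorem for failure of factorization: a faithful group generated by best offenders, with self-centralizing p'-core, is a direct product of copies of SL(2, p) (p = 2 or 3), each acting on its own plane in V, which is the direct product of these planes and C_V(H). -/
theorem result {G : Type*} [Group G] [Finite G] {p : ℕ} [Fact p.Prime] (V H : Subgroup G) (hV : Cfsg.IsElementaryAbelian p V) (hHV : H ≤ Subgroup.normalizer (V : Set G)) (hf : H ⊓ Subgroup.centralizer (V : Set G) = ⊥) (hS1 : Subgroup.centralizer (Cfsg.pPrimeCore p ↥H : Set ↥H) ≤ Cfsg.pPrimeCore p ↥H) (hS3 : H = ⨆ A : {A : Subgroup G // A ≤ H ∧ Cfsg.IsBestOffenderOn p V A}, (A : Subgroup G)) (hH1 : H ≠ ⊥) : (p = 2 ∨ p = 3) ∧ (∀ E : {E : Subgroup G // ∃ A : Subgroup G, A ≤ H ∧ Cfsg.IsBestOffenderOn p V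 A ∧ ⁅V, A⁆ ≠ ⊥ ∧ (∀ B : Subgroup G, B ≤ A → Cfsg.IsBestOffenderOn p V B → ⁅V, B⁆ ≠ ⊥ → B = A) ∧ E = ⁅((Cfsg.pPrimeCore p ↥H).map H.subtype), A⁆ ⊔ A}, H ≤ Subgroup.normalizer ((E : Subgroup G) : Set G) ∧ Nonempty (↥(E : Subgroup G) ≃* Matrix.SpecialLinearGroup (Fin 2) (ZMod p)) ∧ Nat.card ↥(⁅V, (E : Subgroup G)⁆) = p ^ 2) ∧ iSupIndep (fun E : {E : Subgroup G // ∃ A : Subgroup G, A ≤ H ∧ Cfsg.IsBestOffenderOn p V A ∧ ⁅V, A⁆ ≠ ⊥ ∧ (∀ B : Subgroup G, B ≤ A → Cfsg.IsBestOffenderOn p V B → ⁅V, B⁆ ≠ ⊥ → B = A) ∧ E = ⁅((Cfsg.pPrimeCore p ↥H).map H.subtype), A⁆ ⊔ A} => (E : Subgroup G)) ∧ (⨆ E : {E : Subgroup G // ∃ A : Subgroup G, A ≤ H ∧ Cfsg.IsBestOffenderOn p V A ∧ ⁅V, A⁆ ≠ ⊥ ∧ (∀ B : Subgroup G, B ≤ A → Cfsg.IsBestOffenderOn p V B → ⁅V, B⁆ ≠ ⊥ → B = A) ∧ E = ⁅((Cfsg.pPrimeCore p ↥H).map H.subtype), A⁆ ⊔ A}, (E : Subgroup G)) = H ∧ iSupIndep (fun o : Option {E : Subgroup G // ∃ A : Subgroup G, A ≤ H ∧ Cfsg.IsBestOffenderOn p V A ∧ ⁅V, A⁆ ≠ ⊥ ∧ (∀ B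 : Subgroup G, B ≤ A → Cfsg.IsBestOffenderOn p V B → ⁅V, B⁆ ≠ ⊥ → B = A) ∧ E = ⁅((Cfsg.pPrimeCore p ↥H).map H.subtype), A⁆ ⊔ A} => o.elim (V ⊓ Subgroup.centralizer (H : Set G)) (fun E => ⁅V, (E : Subgroup G)⁆)) ∧ (V ⊓ Subgroup.centralizer (H : Set G)) ⊔ (⨆ E : {E : Subgroup G // ∃ A : Subgroup G, A ≤ H ∧ Cfsg.IsBestOffenderOn p V A ∧ ⁅V, A⁆ ≠ ⊥ ∧ (∀ B : Subgroup G, B ≤ A → Cfsg.IsBestOffenderOn p V B → ⁅V, B⁆ ≠ ⊥ → B = A) ∧ E = ⁅((Cfsg.pPrimeCore p ↥H).map H.subtype), A⁆ ⊔ A}, ⁅V, (E : Subgroup G)⁆) = V := by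
  classical
  have S : H34.FFSetup p V H := ⟨hV, hHV, hf, hS1⟩
  haveI := hV.1
  set P : Subgroup G → Prop := fun E => ∃ A : Subgroup G, A ≤ H ∧ Cfsg.IsBestOffenderOn p V A ∧
    ⁅V, A⁆ ≠ ⊥ ∧ (∀ B : Subgroup G, B ≤ A → Cfsg.IsBestOffenderOn p V B → ⁅V, B⁆ ≠ ⊥ → B = A) ∧
    E = ⁅((Cfsg.pPrimeCore p ↥H).map H.subtype), A⁆ ⊔ A
  have hP : ∀ E : {E // P E}, ∃ A, H34.IsTransvectionGroup p V H A ∧ E.1 = H34.compOf p H A := by
    rintro ⟨E, A, hAH, hA, hAV, hmin, rfl⟩
    have hA1 : A ≠ ⊥ := by rintro rfl; exact hAV (Subgroup.commutator_bot_right V)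
    exact ⟨A, S.isTransvectionGroup_of_minimal hAH hA hA1
      fun B hB hb hB1 => hmin B hB hb (S.commutator_ne_bot (hB.trans hAH) hB1), rfl⟩
  have hP' : ∀ A, H34.IsTransvectionGroup p V H A → P (H34.compOf p H A) := fun A hA =>
    ⟨A, hA.1, (S.minimal_of_isTransvectionGroup hA).1, (S.minimal_of_isTransvectionGroup hA).2.1,
      (S.minimal_of_isTransvectionGroup hA).2.2, rfl⟩
  choose A hA hEA using hP
  set W : {E // P E} → Subgroup G := fun i => ⁅V, i.1⁆
  set C : {E // P E} → Subgroup G := fun i => V ⊓ Subgroup.centralizer ((i.1 : Subgroup G) : Set G)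
  have hF : ∀ i, W i ≤ V ∧ W i ⊓ C i = ⊥ ∧ W i ⊔ C i = V ∧ Nat.card ↥(W i) = p ^ 2 := by
    intro i
    have F := S.compFacts (hA i)
    simp only [W, C, hEA i]
    exact ⟨F.moduleLe, F.inf, F.sup, F.card⟩
  have hWdisj : ∀ i j, i ≠ j → W i ⊓ W j = ⊥ := by
    intro i j hij
    simp only [W, hEA i, hEA j]
    refine (S.comp_eq_or_disjoint (hA i) (hA j)).2 fun h => hij (Subtype.ext ?_)
    rw [hEA i, hEA j]
    exact (S.comp_eq_or_disjoint (hA i) (hA j)).1 h
  have hnorm : ∀ i, H ≤ Subgroup.normalizer ((i.1 : Subgroup G) : Set G) ∧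
      H ≤ Subgroup.normalizer (W i : Set G) := by
    intro i
    simp only [W, hEA i]
    exact S.le_normalizer_comp hS3 (hA i)
  have hiH : ∀ i : {E // P E}, i.1 ≤ H := fun i => hEA i ▸ (S.compFacts (hA i)).le
  have hcent : ∀ i j, i ≠ j → W i ≤ Subgroup.centralizer ((j.1 : Subgroup G) : Set G) := by
    intro i j hij
    rw [← Subgroup.commutator_eq_bot_iff_le_centralizer, eq_bot_iff, ← hWdisj i j hij]
    exact le_inf (Subgroup.le_normalizer_iff_commutator_le_left.1 ((hiH j).trans (hnorm i).2))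
      (Subgroup.commutator_mono (hF i).1 le_rfl)
  have hsupH : (⨆ i : {E // P E}, (i.1 : Subgroup G)) = H := by
    refine le_antisymm (iSup_le hiH) ((S.le_sSup_transvections hS3).trans (sSup_le fun B hB => ?_))
    exact le_trans le_sup_right (le_iSup (fun i : {E // P E} => (i.1 : Subgroup G)) ⟨_, hP' B hB⟩)
  have hdisjC : ∀ i, W i ⊓ C i = ⊥ := fun i => (hF i).2.1
  have hCH : ∀ i, V ⊓ Subgroup.centralizer (H : Set G) ≤ C i := fun i =>
    inf_le_inf_left _ (Subgroup.centralizer_le (hiH i))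
  refine ⟨?_, fun i => ⟨(hnorm i).1, ?_, (hF i).2.2.2⟩, ?_, hsupH, ?_, ?_⟩
  · obtain ⟨B, hB⟩ : ∃ B, H34.IsTransvectionGroup p V H B := by
      by_contra h
      refine hH1 (eq_bot_iff.2 ((S.le_sSup_transvections hS3).trans (sSup_le fun B hB => ?_)))
      exact absurd ⟨B, hB⟩ h
    exact (S.compFacts hB).prime
  · rw [hEA i]; exact (S.compFacts (hA i)).iso
  · intro i
    rw [disjoint_iff, eq_bot_iff]
    have hrest : (⨆ (j : {E // P E}) (_ : j ≠ i), (j.1 : Subgroup G)) ≤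
        H ⊓ Subgroup.centralizer (W i : Set G) :=
      iSup₂_le fun j hj => le_inf (hiH j) (Subgroup.le_centralizer_iff.1 (hcent i j (Ne.symm hj)))
    refine (inf_le_inf_left _ hrest).trans ?_
    simp only [W, hEA i]
    refine le_trans ?_ (S.comp_direct_factor hS3 (hA i)).2.1.le
    exact le_rfl
  · intro o
    rw [disjoint_iff]
    cases o with
    | some i =>
      rw [eq_bot_iff]
      refine (inf_le_inf_left _ (iSup₂_le fun o ho => ?_)).trans (hdisjC i).le
      cases o with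
      | none => exact hCH i
      | some j =>
        have hji : j ≠ i := fun h => ho (by rw [h])
        exact le_inf (hF j).1 (hcent j i hji)
    | none =>
      rw [eq_bot_iff]
      have key : ∀ s : Finset {E // P E}, (V ⊓ Subgroup.centralizer (H : Set G)) ⊓ s.sup W ≤ ⊥ := by
        intro s
        induction s using Finset.induction_on with
        | empty => simp
        | @insert i s his ih =>
          have hsC : s.sup W ≤ C i := Finset.sup_le fun j hj =>
            le_inf (hF j).1 (hcent j i fun h => his (h ▸ hj))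
          rintro v ⟨hv, hvW⟩
          rw [Finset.sup_insert] at hvW
          have hN : s.sup W ≤ Subgroup.normalizer (W i : Set G) :=
            ((hsC.trans inf_le_left).trans (Subgroup.le_centralizer V)).trans
              ((Subgroup.centralizer_le (hF i).1).trans (Subgroup.centralizer_le_normalizer _))
          have hv' : v ∈ (W i : Set G) * ((s.sup W : Subgroup G) : Set G) := by
            rw [← Subgroup.coe_mul_of_right_le_normalizer_left _ _ hN]; exact hvW
          obtain ⟨w, hw, u, hu, rfl⟩ := Set.mem_mul.1 hv'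
          have hwC : w ∈ C i := by
            have h1 := mul_mem (hCH i hv) ((C i).inv_mem (hsC hu))
            simpa using h1
          have hw1 : w ∈ W i ⊓ C i := ⟨hw, hwC⟩
          rw [hdisjC i, Subgroup.mem_bot] at hw1
          subst hw1
          rw [one_mul] at hv ⊢
          exact ih ⟨hv, hu⟩
      haveI : Fintype {E // P E} := Fintype.ofFinite _
      refine le_trans (inf_le_inf_left _ (iSup₂_le fun o ho => ?_)) (key Finset.univ)
      cases o with
      | none => exact absurd rfl ho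
      | some j => exact Finset.le_sup (f := W) (Finset.mem_univ j)
  · haveI : Fintype {E // P E} := Fintype.ofFinite _
    refine le_antisymm (sup_le inf_le_left (iSup_le fun i => (hF i).1)) ?_
    have key : ∀ s : Finset {E // P E}, V ≤ (V ⊓ ⨅ i ∈ s, C i) ⊔ ⨆ i, W i := by
      intro s
      induction s using Finset.induction_on with
      | empty => simp
      | @insert i s his ih =>
        refine ih.trans (sup_le ?_ le_sup_right)
        rintro v ⟨hv, hvs⟩
        have hN : C i ≤ Subgroup.normalizer (W i : Set G) :=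
          (inf_le_left.trans (Subgroup.le_centralizer V)).trans
            ((Subgroup.centralizer_le (hF i).1).trans (Subgroup.centralizer_le_normalizer _))
        have hv' : v ∈ (W i : Set G) * (C i : Set G) := by
          rw [← Subgroup.coe_mul_of_right_le_normalizer_left _ _ hN, (hF i).2.2.1]; exact hv
        obtain ⟨w, hw, u, hu, rfl⟩ := Set.mem_mul.1 hv'
        refine mul_mem (Subgroup.mem_sup_right (le_iSup W i hw)) (Subgroup.mem_sup_left ⟨hu.1, ?_⟩)
        have hvs' : ∀ j ∈ s, w * u ∈ C j := fun j hj =>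
          Subgroup.mem_iInf.1 (Subgroup.mem_iInf.1 hvs j) hj
        refine Subgroup.mem_iInf.2 fun j => Subgroup.mem_iInf.2 fun hj => ?_
        rcases Finset.mem_insert.1 hj with rfl | hj
        · exact hu
        · have hwj : w ∈ C j := ⟨(hF i).1 hw, hcent i j (fun h => his (h ▸ hj)) hw⟩
          have := (C j).mul_mem ((C j).inv_mem hwj) (hvs' j hj)
          simpa using this
    refine (key Finset.univ).trans (sup_le_sup_right (le_inf inf_le_left ?_) _)
    rw [← hsupH, Subgroup.le_centralizer_iff]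
    refine iSup_le fun i => Subgroup.le_centralizer_iff.1 ?_
    exact (inf_le_right.trans (iInf₂_le i (Finset.mem_univ i))).trans inf_le_right

end Cfsg.Agent.S0617
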