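import Cfsg.Statements.S0618
import Cfsg.Agent.H34.Linear
import Cfsg.Agent.H34.FixedClosure
import Cfsg.Agent.H34.FFStructure
import Cfsg.Agent.H59.PSolvable
import Cfsg.Agent.S0608

set_option autoImplicit false
open Cfsg
open scoped commutatorElement Pointwise

namespace Cfsg.Agent.S0618

/-- A p-separable group with trivial p'-core in which the Thompson factorization fails has p = 2 or 3, and J(G) induces on the normal closure of Ω₁(Z(S)) a group containing a normal SL(2, p). -/
theorem result {G : Type*} [Group G] [Finite G] {p : ℕ} [Fact p.Prime] (hsep : Cfsg.IsPSolvable p G) (hO : Cfsg.pPrimeCore p G = ⊥) (hnf : ¬ Cfsg.IsThompsonFactorizable p G) : (p = 2 ∨ p = 3) ∧ ∃ E : Subgroup G, Subgroup.centralizer ((⨆ S : Sylow p G, Cfsg.omegaOne p ((S : Subgroup G) ⊓ Subgroup.centralizer ((S : Subgroup G) : Set G))) : Set G) ≤ E ∧ E ≤ Cfsg.thompsonSubgroup p G ⊔ Subgroup.centralizer ((⨆ S : Sylow p G, Cfsg.omegaOne p ((S : Subgroup G) ⊓ Subgroup.centralizer ((S : Subgroup G) : Set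 G))) : Set G) ∧ Cfsg.thompsonSubgroup p G ⊔ Subgroup.centralizer ((⨆ S : Sylow p G, Cfsg.omegaOne p ((S : Subgroup G) ⊓ Subgroup.centralizer ((S : Subgroup G) : Set G))) : Set G) ≤ Subgroup.normalizer (E : Set G) ∧ ∃ hn : ((Subgroup.centralizer ((⨆ S : Sylow p G, Cfsg.omegaOne p ((S : Subgroup G) ⊓ Subgroup.centralizer ((S : Subgroup G) : Set G))) : Set G)).subgroupOf E).Normal, Nonempty ((↥E ⧸ (Subgroup.centralizer ((⨆ S : Sylow p G, Cfsg.omegaOne p ((S : Subgroup G) ⊓ Subgroup.centralizer ((S : Subgroup G) : Set G))) : Set G)).subgroupOf E) ≃* Matrix.SpecialLinearGroup (Fin 2) (ZMod p)) := by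
  set Z := H34.omegaZ p G
  haveI hZn : Z.Normal := H34.omegaZ_normal
  set C := Subgroup.centralizer (Z : Set G) with hCdef
  have hc : Subgroup.centralizer (Cfsg.pCore p G : Set G) ≤ Cfsg.pCore p G :=
    H59.centralizer_pCore_le_of_isPSolvable hsep hO
  have hZe := H34.omegaZ_isElementaryAbelian (p := p) hc
  set J := Cfsg.thompsonSubgroup p G
  haveI hJch : J.Characteristic := H34.thompsonSubgroup_characteristic
  have hJn : J.Normal := inferInstance
  have hJC : ¬ J ≤ C := fun h => hnf ((S0608.result hO).2 h)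
  set f := H34.holHom Z
  have hker : f.ker = C := H34.holHom_ker Z
  have S : H34.FFSetup p (H34.holV Z).range (J.map f) :=
    H34.hol_setup hsep hZe J fun D hD hp =>
      H34.le_centralizer_of_generated Z C D hD H34.omegaZ_le_iSup_fixed le_rfl hp
  have hgen : J.map f = ⨆ A : {A : Subgroup (H34.Hol Z) // A ≤ J.map f ∧
      Cfsg.IsBestOffenderOn p (H34.holV Z).range A}, (A : Subgroup (H34.Hol Z)) := by
    refine le_antisymm ?_ (iSup_le fun A => A.2.1)
    rw [Subgroup.map_le_iff_le_comap]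
    refine sSup_le fun A hA => ?_
    rw [← Subgroup.map_le_iff_le_comap]
    have hAJ : A ≤ J := le_sSup hA
    exact le_iSup (fun B : {A : Subgroup (H34.Hol Z) // A ≤ J.map f ∧
      Cfsg.IsBestOffenderOn p (H34.holV Z).range A} => (B : Subgroup (H34.Hol Z)))
      ⟨A.map f, Subgroup.map_mono hAJ, H34.hol_bestOffender hZe S hAJ hA⟩
  obtain ⟨T, hT⟩ : ∃ T, H34.IsTransvectionGroup p (H34.holV Z).range (J.map f) T := by
    by_contra h
    refine hJC ?_
    rw [← hker, ← Subgroup.map_eq_bot_iff, eq_bot_iff]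
    exact (S.le_sSup_transvections hgen).trans (sSup_le fun B hB => absurd ⟨B, hB⟩ h)
  have F := S.compFacts hT
  set E₀ := H34.compOf p (J.map f) T
  have hCE : C ≤ E₀.comap f := hker ▸ MonoidHom.ker_le_comap f E₀
  have hX : Subgroup.centralizer ((⨆ S : Sylow p G, (Cfsg.omegaOne p ((S : Subgroup G) ⊓
      Subgroup.centralizer ((S : Subgroup G) : Set G)) : Set G))) = C := by
    rw [hCdef]
    change _ = Subgroup.centralizer ((⨆ S : Sylow p G, Cfsg.omegaOne p ((S : Subgroup G) ⊓
      Subgroup.centralizer ((S : Subgroup G) : Set G)) : Subgroup G) : Set G)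
    rw [Subgroup.iSup_eq_closure, Subgroup.centralizer_closure]
    rfl
  simp only [hX]
  refine ⟨F.prime, E₀.comap f, hCE, ?_, ?_, inferInstance, ?_⟩
  · refine (Subgroup.comap_mono F.le).trans ?_
    rw [Subgroup.comap_map_eq, hker]
  · rw [← hker, ← Subgroup.comap_map_eq]
    exact (Subgroup.comap_mono (S.le_normalizer_comp hgen hT).1).trans (Subgroup.le_normalizer_comap f)
  · obtain ⟨e⟩ := F.iso
    set φ := f.subgroupComap E₀
    have hsurj : Function.Surjective φ := by
      rintro ⟨y, hy⟩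
      obtain ⟨x, -, rfl⟩ := F.le hy
      exact ⟨⟨x, hy⟩, rfl⟩
    have hk : φ.ker = C.subgroupOf (E₀.comap f) := by
      ext x
      rw [MonoidHom.mem_ker, Subgroup.mem_subgroupOf, ← hker, MonoidHom.mem_ker]
      exact Subtype.ext_iff
    rw [← hX] at hk
    haveI : ((Subgroup.centralizer ((⨆ S : Sylow p G, (Cfsg.omegaOne p ((S : Subgroup G) ⊓
      Subgroup.centralizer ((S : Subgroup G) : Set G)) : Set G)))).subgroupOf (E₀.comap f)).Normal :=
      hk ▸ φ.normal_ker
    exact ⟨((QuotientGroup.quotientMulEquivOfEq hk.symm).trans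
      (QuotientGroup.quotientKerEquivOfSurjective φ hsurj)).trans e⟩

end Cfsg.Agent.S0618
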