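import Cfsg.Statements.S0619
import Cfsg.Agent.H34.Linear
import Cfsg.Agent.H34.FixedClosure

set_option autoImplicit false
open Cfsg
open scoped commutatorElement Pointwise

namespace Cfsg.Agent.S0619

/-- For a p-separable group and a normal elementary abelian p-subgroup V with no nontrivial normal p-subgroup modulo its centralizer C, the Thompson subgroup J(G) moves Ω₁(Z(J(C))) only inside V. -/
theorem result {G : Type*} [Group G] [Finite G] {p : ℕ} [Fact p.Prime] (hsep : Cfsg.IsPSolvable p G) (V : Subgroup G) [V.Normal] (hV : Cfsg.IsElementaryAbelian p V) (hO : Cfsg.pCore p (G ⧸ Subgroup.centralizer (V : Set G)) = ⊥) : ⁅Cfsg.omegaOne p (Cfsg.centerThompsonOf p (Subgroup.centralizer (V : Set G))), Cfsg.thompsonSubgroup p G⁆ ≤ V := by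
  set C := Subgroup.centralizer (V : Set G) with hCdef
  haveI hC : C.Normal := inferInstance
  haveI := hV.1
  have hVC : V ≤ C := Subgroup.le_centralizer V
  have S : H34.FFSetup p (H34.holV V).range ((⊤ : Subgroup G).map (H34.holHom V)) := by
    refine H34.hol_setup hsep hV ⊤ fun D hD hp => ?_
    have h := H19.le_pCore (hD.map _ (QuotientGroup.mk'_surjective C)) hp
    rw [hO, le_bot_iff, Subgroup.map_eq_bot_iff, QuotientGroup.ker_mk'] at h
    exact h
  set Y := Cfsg.omegaOne p (Cfsg.centerThompsonOf p C)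
  have hYe : Cfsg.IsElementaryAbelian p Y := by
    haveI : IsMulCommutative ↥(Cfsg.centerThompsonOf p C) := H34.isMulCommutative_inf_centralizer _
    exact H34.omegaOne_isElementaryAbelian
  have key : ∀ A ∈ Cfsg.maxElementaryAbelianSubgroups p G, Y ≤ A ⊔ V := by
    intro A hA
    have hA1e : Cfsg.IsElementaryAbelian p ((A ⊓ C) ⊔ V : Subgroup G) :=
      H34.isElementaryAbelian_sup (H34.isElementaryAbelian_mono hA.1 inf_le_left) hV inf_le_right
    have h1 : (A.map (H34.holHom V)) ≤ (⊤ : Subgroup G).map (H34.holHom V) := Subgroup.map_mono le_top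
    have h2 := S.offNum_le h1 (H34.isElementaryAbelian_map hA.1 _)
    have hcardV : Nat.card ↥(H34.holV V).range = Nat.card V :=
      (Nat.card_congr (MonoidHom.ofInjective SemidirectProduct.inl_injective).toEquiv).symm
    rw [H34.offNum, H34.hol_fixed_card, hcardV, H34.fixed_eq_inf_of_mem_max hV hA] at h2
    have h3 := H34.card_mul_card_le (A ⊓ C) V
    rw [inf_assoc, inf_eq_right.2 hVC] at h3
    have h4 : Nat.card A * Nat.card ↥(A ⊓ V) ≤ Nat.card ↥((A ⊓ C) ⊔ V) * Nat.card ↥(A ⊓ V) := by
      refine le_trans (le_trans (le_of_eq ?_) (Nat.mul_le_mul_left (Nat.card ↥(A ⊓ C)) h2)) h3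
      rw [← H34.hol_card_map V A]
      ring
    have hA1 := H34.mem_max_of_card_le hA hA1e (Nat.le_of_mul_le_mul_right h4 Nat.card_pos)
    have hA1C : (A ⊓ C) ⊔ V ≤ C := sup_le inf_le_right hVC
    have hA1J : (A ⊓ C) ⊔ V ≤ Cfsg.thompsonSubgroupOf p C := by
      rw [H34.thompsonSubgroupOf_eq_of_mem hA1C hA1]
      exact le_sSup ⟨hA1C, hA1⟩
    have hYA1 : Y ≤ (A ⊓ C) ⊔ V := H34.le_of_mem_max hA1 hYe (hA1J.trans (Subgroup.le_centralizer_iff.1
      ((H34.omegaOne_le (p := p) _).trans inf_le_right)))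
    exact hYA1.trans (sup_le_sup_right inf_le_left V)
  set π := QuotientGroup.mk' V
  have hJ : Cfsg.thompsonSubgroup p G ≤ (Subgroup.centralizer ((Y.map π : Subgroup (G ⧸ V)) : Set (G ⧸ V))).comap π := by
    refine sSup_le fun A hA => ?_
    rw [← Subgroup.map_le_iff_le_comap, Subgroup.le_centralizer_iff]
    refine (Subgroup.map_mono (key A hA)).trans ?_
    rw [Subgroup.map_sup, QuotientGroup.map_mk'_self, sup_bot_eq]
    haveI := hA.1.1
    exact Subgroup.le_centralizer_iff_isMulCommutative.2 (H34.isElementaryAbelian_map hA.1 π).1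
  rw [← QuotientGroup.ker_mk' V, ← Subgroup.map_eq_bot_iff, Subgroup.map_commutator,
    Subgroup.commutator_eq_bot_iff_le_centralizer, Subgroup.le_centralizer_iff,
    Subgroup.map_le_iff_le_comap]
  exact hJ

end Cfsg.Agent.S0619
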