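import Cfsg.Statements.S0620
import Cfsg.Agent.H34.Operators

set_option autoImplicit false
open Cfsg
open scoped commutatorElement Pointwise

namespace Cfsg.Agent.S0620

/-- Under coprime action of an elementary abelian q-group X on a p-separable group K with trivial p'-core, K is generated by the normalizer of J(S), the centralizer of Ω₁(Z(S)) and the fixed points of X. -/
theorem result {G : Type*} [Group G] [Finite G] {p : ℕ} [Fact p.Prime] {q : ℕ} [Fact q.Prime] (K X : Subgroup G) (hXK : X ≤ Subgroup.normalizer (K : Set G)) (hX : Cfsg.IsElementaryAbelian q X) (hq : ¬ q ∣ Nat.card K) (hsep : Cfsg.IsPSolvable p ↥K) (hO : Cfsg.pPrimeCore p ↥K = ⊥) (S : Sylow p ↥K) : (Subgroup.normalizer (Cfsg.thompsonSubgroupOf p (S : Subgroup ↥K) : Set ↥K) ⊔ Subgroup.centralizer (Cfsg.omegaOne p ((S : Subgroup ↥K) ⊓ Subgroup.centralizer ((S : Subgroup ↥K) : Set ↥K)) : Set ↥K) ⊔ (Subgroup.centralizer (X : Set G)).subgroupOf K) = ⊤ := by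
  rcases eq_or_ne q p with rfl | hne
  · haveI := H34.subsingleton_of_pPrimeCore hO hq
    exact eq_top_iff.2 fun k _ => by rw [Subsingleton.elim k 1]; exact one_mem _
  have c := H34.copExt_subgroupOf K X hXK hX hq hne hsep hO
  set ι : ↥K →* ↥(K ⊔ X) := Subgroup.inclusion le_sup_left
  have hι : Function.Injective ι := Subgroup.inclusion_injective _
  have hrange : ι.range = K.subgroupOf (K ⊔ X) := Subgroup.inclusion_range _
  obtain ⟨T, hT⟩ := (S.2.map ι).exists_le_sylow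
  have hTK : (T : Subgroup ↥(K ⊔ X)) ≤ K.subgroupOf (K ⊔ X) := c.pGroup_le T.2
  have hTS : (S : Subgroup ↥K).map ι = T := by
    have h1 : (T : Subgroup ↥(K ⊔ X)).comap ι = S :=
      S.3 (T.2.comap_of_injective _ hι) fun x hx => hT (Subgroup.mem_map_of_mem ι hx)
    rw [← h1, Subgroup.map_comap_eq_self (hTK.trans_eq hrange.symm)]
  have hker : (S : Subgroup ↥K) ⊓ ι.ker = ⊥ := by rw [(MonoidHom.ker_eq_bot_iff ι).2 hι, inf_bot_eq]
  have hJ := H34.map_thompsonSubgroupOf_of_inf_ker (p := p) ι _ hker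
  have hΩ := H34.map_omegaCenter_of_inf_ker (p := p) ι _ hker
  rw [hTS] at hJ hΩ
  apply Subgroup.map_injective hι
  rw [← MonoidHom.range_eq_map, hrange]
  refine le_antisymm ((Subgroup.map_le_range _ _).trans_eq hrange) ((c.factorisation T).trans ?_)
  rw [Subgroup.map_sup, Subgroup.map_sup]
  refine sup_le_sup (sup_le_sup ?_ ?_) ?_
  · rintro y ⟨hy, hyK⟩
    obtain ⟨k, rfl⟩ := (hrange ▸ hyK : y ∈ ι.range)
    refine ⟨k, Subgroup.mem_normalizer_iff.2 fun u => ?_, rfl⟩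
    have h := Subgroup.mem_normalizer_iff.1 hy (ι u)
    rw [← hJ, Subgroup.mem_map_iff_mem hι, ← map_inv, ← map_mul, ← map_mul, Subgroup.mem_map_iff_mem hι] at h
    exact h
  · rintro y ⟨hy, hyK⟩
    obtain ⟨k, rfl⟩ := (hrange ▸ hyK : y ∈ ι.range)
    refine ⟨k, fun u hu => hι ?_, rfl⟩
    rw [map_mul, map_mul]
    exact hy _ (hΩ ▸ Subgroup.mem_map_of_mem ι hu)
  · rintro y ⟨hy, hyK⟩
    obtain ⟨k, rfl⟩ := (hrange ▸ hyK : y ∈ ι.range)
    refine ⟨k, ?_, rfl⟩
    intro x hx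
    exact congrArg Subtype.val (hy ⟨x, Subgroup.mem_sup_right hx⟩ hx)

end Cfsg.Agent.S0620
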