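import Cfsg.Statements.S0621
import Cfsg.Agent.H34.Operators

set_option autoImplicit false
open Cfsg
open scoped commutatorElement Pointwise

namespace Cfsg.Agent.S0621

/-- Let K be p-separable with O_p'(K) = 1, normalized by an elementary abelian q-group X for a prime q not dividing the order of K. If the Thompson factorization fails in K, then p is 2 or 3 and the fixed points of X contain a plane W of order p² and a subgroup inducing SL(2, p) on it. -/
theorem result {G : Type*} [Group G] [Finite G] {p : ℕ} [Fact p.Prime] {q : ℕ} [Fact q.Prime] (K X : Subgroup G) (hXK : X ≤ Subgroup.normalizer (K : Set G)) (hX : Cfsg.IsElementaryAbelian q X) (hq : ¬ q ∣ Nat.card K) (hsep : Cfsg.IsPSolvable p ↥K) (hO : Cfsg.pPrimeCore p ↥K = ⊥) (hnf : ¬ Cfsg.IsThompsonFactorizable p ↥K) : (p = 2 ∨ p = 3) ∧ ∃ W D : Subgroup G, W ≤ K ⊓ Subgroup.centralizer (X : Set G) ∧ D ≤ K ⊓ Subgroup.centralizer (X : Set G) ∧ Cfsg.IsElementaryAbelian p W ∧ Nat.card W = p ^ 2 ∧ D ≤ Subgroup.normalizer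 (W : Set G) ∧ ∃ hn : ((Subgroup.centralizer (W : Set G)).subgroupOf D).Normal, Nonempty ((↥D ⧸ (Subgroup.centralizer (W : Set G)).subgroupOf D) ≃* Matrix.SpecialLinearGroup (Fin 2) (ZMod p)) := by
  rcases eq_or_ne q p with rfl | hne
  · haveI := H34.subsingleton_of_pPrimeCore hO hq
    exact absurd (fun S g => ⟨1, one_mem _, 1, one_mem _, 1, one_mem _, Subsingleton.elim _ _⟩) hnf
  have c := H34.copExt_subgroupOf K X hXK hX hq hne hsep hO
  have hnf' : ¬ Cfsg.IsThompsonFactorizable p ↥(K.subgroupOf (K ⊔ X)) := fun h =>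
    hnf (H34.isThompsonFactorizable_of_equiv (Subgroup.subgroupOfEquivOfLe le_sup_left) h c.core)
  obtain ⟨hp, W, D, hW, hD, hWe, hWc, hDW, ψ, hψ, hker⟩ := c.fixed_plane hnf'
  set f := (K ⊔ X).subtype
  have hinj : Function.Injective f := (K ⊔ X).subtype_injective
  have himg : ∀ U : Subgroup ↥(K ⊔ X),
      U ≤ K.subgroupOf (K ⊔ X) ⊓ Subgroup.centralizer (X.subgroupOf (K ⊔ X) : Set ↥(K ⊔ X)) →
      U.map f ≤ K ⊓ Subgroup.centralizer (X : Set G) := by
    rintro U hU _ ⟨u, hu, rfl⟩
    refine Subgroup.mem_inf.2 ⟨(hU hu).1, fun x hx => ?_⟩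
    exact congrArg Subtype.val ((hU hu).2 ⟨x, Subgroup.mem_sup_right hx⟩ hx)
  let e := (D.equivMapOfInjective f hinj).symm
  have hk : (ψ.comp e.toMonoidHom).ker = (Subgroup.centralizer ((W.map f : Subgroup G) : Set G)).subgroupOf (D.map f) := by
    ext y
    rw [MonoidHom.mem_ker, MonoidHom.comp_apply, ← MonoidHom.mem_ker, hker, Subgroup.mem_subgroupOf,
      Subgroup.mem_subgroupOf]
    have hy : f (e y : ↥(K ⊔ X)) = (y : G) :=
      congrArg Subtype.val ((D.equivMapOfInjective f hinj).apply_symm_apply y)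
    rw [MulEquiv.coe_toMonoidHom, ← hy]
    constructor
    · rintro h _ ⟨w, hw, rfl⟩
      rw [← map_mul, ← map_mul, h w hw]
    · intro h w hw
      exact hinj (by rw [map_mul, map_mul]; exact h _ (Subgroup.mem_map_of_mem f hw))
  refine ⟨hp, W.map f, D.map f, himg W hW, himg D hD, H34.isElementaryAbelian_map hWe f,
    (Subgroup.card_map_of_injective hinj).trans hWc,
    (Subgroup.map_mono hDW).trans (Subgroup.le_normalizer_map f), hk ▸ MonoidHom.normal_ker _, ?_⟩
  haveI : ((Subgroup.centralizer ((W.map f : Subgroup G) : Set G)).subgroupOf (D.map f)).Normal :=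
    hk ▸ MonoidHom.normal_ker _
  exact ⟨(QuotientGroup.quotientMulEquivOfEq hk.symm).trans
    (QuotientGroup.quotientKerEquivOfSurjective (ψ.comp e.toMonoidHom) (hψ.comp e.surjective))⟩

end Cfsg.Agent.S0621
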