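import Cfsg.Statements.S0625
import Cfsg.Agent.H34.ActionPStable
import Cfsg.Agent.S0596

set_option autoImplicit false
open Cfsg
open scoped commutatorElement Pointwise

namespace Cfsg.Agent.S0625

/-- A p-separable group with p at least 5 is p-stable in the action sense. -/
theorem result {G : Type*} [Group G] [Finite G] {p : ℕ} [Fact p.Prime] (hp : 5 ≤ p) (hsep : Cfsg.IsPSolvable p G) : Cfsg.IsActionPStable p G := by
  refine H34.isActionPStable_of_sections fun X _ _ M f hf V _ hV => ?_
  have hX : Cfsg.IsPSolvable p X :=
    H84.isPSolvable_of_surjective f hf (H35.isPSolvable_subgroup hsep M)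
  refine H34.isPStableOn_of_faithful V fun a ha hq => ?_
  by_contra hna
  have hR : Cfsg.IsPSolvable p ↥(H34.holHom V).range :=
    H84.isPSolvable_of_surjective (H34.holHom V).rangeRestrict (H34.holHom V).rangeRestrict_surjective hX
  have hN : (H34.holHom V).range ≤ Subgroup.normalizer ((H34.holV V).range : Set (H34.Hol V)) := by
    rw [MonoidHom.range_eq_map]; exact H34.hol_map_le_normalizer V ⊤
  have hf' : (H34.holHom V).range ⊓ Subgroup.centralizer ((H34.holV V).range : Set (H34.Hol V)) = ⊥ := by
    rw [MonoidHom.range_eq_map]; exact H34.hol_faithful V ⊤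
  obtain ⟨h3, -⟩ := Cfsg.Agent.S0596.result (p := p) (by omega) (H34.holV V).range (H34.holHom V).range
    (H34.hol_range_elem V hV) hN hf' hR a ha hq hna
  omega

end Cfsg.Agent.S0625
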