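import Cfsg.Statements.S0627
import Cfsg.Agent.H34.StableOf
import Cfsg.Agent.H59.PSolvable
import Cfsg.Agent.S0624
import Cfsg.Agent.S0625

set_option autoImplicit false
open Cfsg
open scoped commutatorElement Pointwise

namespace Cfsg.Agent.S0627

/-- In a p-separable group with p at least 5, the normalizer of W(S) supplements the largest normal subgroup of order prime to p. -/
theorem result {G : Type*} [Group G] [Finite G] {p : ℕ} [Fact p.Prime] (hp : 5 ≤ p) (hsep : Cfsg.IsPSolvable p G) (S : Sylow p G) : Cfsg.pPrimeCore p G ⊔ Subgroup.normalizer (((Cfsg.stableNormalClosure p ↥(S : Subgroup G)).map (S : Subgroup G).subtype) : Set G) = ⊤ := by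
  set N := Cfsg.pPrimeCore p G with hNdef
  haveI hNn : N.Normal := H19.pPrimeCore_normal p G
  have hN : (Nat.card N).Coprime p := H19.pPrimeCore_coprime p
  set π := QuotientGroup.mk' N
  have hbot : Cfsg.pPrimeCore p (G ⧸ N) = ⊥ := H19.pPrimeCore_quotient_pPrimeCore p
  have hsep' := H84.isPSolvable_of_surjective π (QuotientGroup.mk'_surjective N) hsep
  have hc := H59.centralizer_pCore_le_of_isPSolvable hsep' hbot
  have hn := Cfsg.Agent.S0624.result (Cfsg.Agent.S0625.result hp hsep') hc
    (S.mapSurjective (QuotientGroup.mk'_surjective N))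
  have hker : (S : Subgroup G) ⊓ π.ker = ⊥ := by
    rw [QuotientGroup.ker_mk']; exact H34.inf_eq_bot_of_coprime S.2 hN
  have hW : (H34.stableOf p (S : Subgroup G)).map π =
      H34.stableOf p ((S.mapSurjective (QuotientGroup.mk'_surjective N) : Sylow p (G ⧸ N)) : Subgroup (G ⧸ N)) :=
    H34.map_stableOf π _ hker
  rw [eq_top_iff]
  intro g _
  have hg : π g ∈ Subgroup.normalizer (((H34.stableOf p (S : Subgroup G)).map π : Subgroup (G ⧸ N)) : Set (G ⧸ N)) := by
    rw [hW, Subgroup.normalizer_eq_top_iff.2 hn]; trivial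
  obtain ⟨n, hnN, hng⟩ := H34.exists_mem_normalizer_of_mk (S.2.to_le (H34.stableOf_le _)) hN hg
  have e : g = n⁻¹ * (n * g) := (inv_mul_cancel_left n g).symm
  rw [e]
  exact mul_mem (Subgroup.mem_sup_left (N.inv_mem hnN)) (Subgroup.mem_sup_right hng)

end Cfsg.Agent.S0627
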