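import Cfsg.Statements.S0634
import Cfsg.Agent.H35.PLength

set_option autoImplicit false
open Cfsg

namespace Cfsg.Agent.S0634

/-- In a p-soluble group each p-factor of the upper p-series contains its own centralizer in the corresponding quotient. -/
theorem result {G : Type*} [Group G] [Finite G] {p : ℕ} [Fact p.Prime] (hsol : Cfsg.IsPSolvable p G) (k : ℕ) : Subgroup.centralizer ((((Cfsg.upperPSeries p G (2 * k + 2)).1.map (QuotientGroup.mk' (Cfsg.upperPSeries p G (2 * k + 1)).1)) : Subgroup (G ⧸ (Cfsg.upperPSeries p G (2 * k + 1)).1)) : Set (G ⧸ (Cfsg.upperPSeries p G (2 * k + 1)).1)) ≤ (Cfsg.upperPSeries p G (2 * k + 2)).1.map (QuotientGroup.mk' (Cfsg.upperPSeries p G (2 * k + 1)).1) := by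
  exact Cfsg.Agent.H35.upperPSeries_factor_centralizer_le hsol k

end Cfsg.Agent.S0634
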