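import Cfsg.Statements.S0646
import Cfsg.Agent.H35.SmallPGroups

set_option autoImplicit false
open Cfsg

namespace Cfsg.Agent.S0646

/-- Classification of non-abelian 2-groups with a cyclic maximal subgroup: dihedral, generalized quaternion, and for order at least 16 the modular group and the semidihedral group, each given by generators a (of index 2) and b with the stated relations. -/
theorem result {G : Type*} [Group G] [Finite G] (n : ℕ) (hn : 3 ≤ n) (hG : Nat.card G = 2 ^ n) (C : Subgroup G) (hC : IsCyclic C) (hCi : C.index = 2) (hna : ∃ x y : G, x * y ≠ y * x) : ∃ a b : G, orderOf a = 2 ^ (n - 1) ∧ b ∉ Subgroup.zpowers a ∧ ((b ^ 2 = 1 ∧ b * a * b⁻¹ = a⁻¹) ∨ (b ^ 2 = a ^ (2 ^ (n - 2)) ∧ b * a * b⁻¹ = a⁻¹) ∨ (4 ≤ n ∧ b ^ 2 = 1 ∧ b * a * b⁻¹ = a ^ (1 + 2 ^ (n - 2))) ∨ (4 ≤ n ∧ b ^ 2 = 1 ∧ b * a * b⁻¹ = a ^ (2 ^ (n - 2) - 1))) := by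
  exact Cfsg.Agent.H35.cyclic_maximal_two n hn hG C hC hCi hna

end Cfsg.Agent.S0646
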