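import Cfsg.Statements.S0656
import Cfsg.Agent.H35.Sections

set_option autoImplicit false
open Cfsg
open scoped commutatorElement

namespace Cfsg.Agent.S0656

/-- For odd p, a faithful group on an elementary abelian p-group with no nontrivial normal p-subgroup in which some nontrivial p-element acts quadratically has a section isomorphic to SL(2, p). -/
theorem result {G : Type*} [Group G] [Finite G] {p : ℕ} [Fact p.Prime] (hp : p ≠ 2) (V H : Subgroup G) (hV : Cfsg.IsElementaryAbelian p V) (hHV : H ≤ Subgroup.normalizer (V : Set G)) (hf : H ⊓ Subgroup.centralizer (V : Set G) = ⊥) (hO : Cfsg.pCore p ↥H = ⊥) (x : G) (hxH : x ∈ H) (hx1 : x ≠ 1) (hxp : ∃ k : ℕ, orderOf x = p ^ k) (hq : ⁅⁅V, Subgroup.zpowers x⁆, Subgroup.zpowers x⁆ = ⊥) : ∃ (K L : Subgroup G) (hL : (L.subgroupOf K).Normal), K ≤ H ∧ Nonempty ((K ⧸ L.subgroupOf K) ≃* Matrix.SpecialLinearGroup (Fin 2) (ZMod p)) := by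
  obtain ⟨n, hn⟩ := hxp
  obtain ⟨g, hg⟩ : ∃ g : H, ¬ IsPGroup p ↥(Subgroup.closure ({⟨x, hxH⟩, g * ⟨x, hxH⟩ * g⁻¹} : Set H)) := by
    by_contra hall
    push Not at hall
    obtain ⟨N, hN, hNp, hxN⟩ := Cfsg.Agent.H28.baer_suzuki_element (p := p) (⟨x, hxH⟩ : H) hall
    have : (⟨x, hxH⟩ : H) ∈ Cfsg.pCore p H :=
      (le_sSup (a := N) ⟨hN, hNp⟩ : N ≤ Cfsg.pCore p H) hxN
    rw [hO, Subgroup.mem_bot] at this
    exact hx1 (congrArg Subtype.val this)
  have hquad : ∀ v ∈ V, ⁅x, ⁅x, v⁆⁆ = 1 := fun v hv =>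
    Cfsg.Agent.H35.commutatorElement_quadratic hq (Subgroup.mem_zpowers x) hv
  have hgH : (g : G) ∈ Subgroup.normalizer (V : Set G) := hHV g.2
  have hbH : (g : G) * x * (g : G)⁻¹ ∈ H := mul_mem (mul_mem g.2 hxH) (inv_mem g.2)
  have hbot : ∀ y : G, y ∈ Subgroup.normalizer ((⊥ : Subgroup G) : Set G) := fun y => by
    rw [Subgroup.normalizer_eq_top]; exact Subgroup.mem_top y
  obtain ⟨H', W₁, φ, ψ, hle, -, hφ, -, -, -⟩ := Cfsg.Agent.H35.exists_natural_section hp (bot_le : ⊥ ≤ V)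
    (hHV hxH) (hbot x) (hHV hbH) (hbot _)
    (fun v hv => Subgroup.mem_bot.2 (hV.2 v hv))
    (fun v hv w hw => Subgroup.mem_bot.2 (commutatorElement_eq_one_iff_mul_comm.2
      (congrArg Subtype.val (hV.1.is_comm.comm (⟨v, hv⟩ : V) ⟨w, hw⟩))))
    (fun v hv => Subgroup.mem_bot.2 (hquad v hv))
    (fun v hv => by
      have hv' : (g : G)⁻¹ * v * g ∈ V := (Subgroup.mem_normalizer_iff''.1 hgH v).1 hv
      have e : ⁅(g : G) * x * (g : G)⁻¹, ⁅(g : G) * x * (g : G)⁻¹, v⁆⁆ =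
          g * ⁅x, ⁅x, (g : G)⁻¹ * v * g⁆⁆ * (g : G)⁻¹ := by
        simp only [commutatorElement_def]; group
      rw [Subgroup.mem_bot, e, hquad _ hv', mul_one, mul_inv_cancel])
    (fun hall => hg fun y => by
      obtain ⟨k, hk⟩ := hall ((y : H) : G) (by
        have hy := Subgroup.mem_map_of_mem H.subtype y.2
        rw [MonoidHom.map_closure, Set.image_pair] at hy
        exact hy)
      refine ⟨k, Subtype.ext (Subtype.ext ?_)⟩
      have : ((y : H) : G) ^ (p ^ k) ∈ H ⊓ Subgroup.centralizer (V : Set G) :=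
        ⟨pow_mem (y : H).2 _, Subgroup.mem_centralizer_iff.2 fun v hv =>
          (commutatorElement_eq_one_iff_mul_comm.1 (Subgroup.mem_bot.1 (hk v hv))).symm⟩
      rw [hf, Subgroup.mem_bot] at this
      simpa using this)
  have hleH : Subgroup.closure ({x, (g : G) * x * (g : G)⁻¹} : Set G) ≤ H := (Subgroup.closure_le _).2 (by
    rintro y (rfl | rfl) <;> assumption)
  obtain ⟨K, L, hL, hKY, he⟩ := Cfsg.Agent.H35.exists_section_of_surjective H' φ hφ
  exact ⟨K, L, hL, hKY.trans (hle.trans hleH), he⟩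

end Cfsg.Agent.S0656
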