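import Cfsg.Statements.S0657
import Cfsg.Agent.H35.Sections
import Cfsg.Agent.H51.PLayer

set_option autoImplicit false
open Cfsg

namespace Cfsg.Agent.S0657

/-- For odd p, a group that fails to be p-stable modulo its largest normal subgroup of order prime to p, and whose upper p-series does not stop there, has a section isomorphic to SL(2, p). -/
theorem result {G : Type*} [Group G] [Finite G] {p : ℕ} [Fact p.Prime] (hp : p ≠ 2) (hO : Cfsg.pPrimeCore p G < Cfsg.pPrimePCore p G) (hns : ¬ Cfsg.IsPStable p (G ⧸ Cfsg.pPrimeCore p G)) : ∃ (K L : Subgroup G) (hL : (L.subgroupOf K).Normal), K ≤ ⊤ ∧ Nonempty ((K ⧸ L.subgroupOf K) ≃* Matrix.SpecialLinearGroup (Fin 2) (ZMod p)) := by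
  have h0 := Cfsg.Agent.H51.pPrimeCore_normal p G
  set Gb := G ⧸ Cfsg.pPrimeCore p G
  have hodd : Odd p := (Fact.out : p.Prime).odd_of_ne_two hp
  have hne : Cfsg.pCore p Gb ≠ ⊥ := by
    intro h
    apply hO.ne
    show Cfsg.pPrimeCore p G = (Cfsg.pCore p Gb).comap (QuotientGroup.mk' _)
    rw [h, MonoidHom.comap_bot, QuotientGroup.ker_mk']
  simp only [Cfsg.IsPStable, not_and, not_forall] at hns
  obtain ⟨A, P, hA, hP, hAP, hPle, hPN, hPAA, hfail⟩ := hns hodd hne
  rw [Cfsg.Agent.H51.pPrimeCore_quotient_self, bot_sup_eq] at hPN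
  obtain ⟨a, ha, hfail⟩ := Set.not_subset.1 hfail
  obtain ⟨a', ha', rfl⟩ := ha
  have key : ∃ g : Gb, ¬ ∀ h ∈ Subgroup.closure ({(a' : Gb), g * a' * g⁻¹} : Set Gb),
      ∃ k : ℕ, h ^ (p ^ k) ∈ Subgroup.centralizer (P : Set Gb) := by
    by_contra hall
    push Not at hall
    refine hfail (Cfsg.Agent.H35.mk_mem_pCore_of_forall _ a' fun g h hh => ?_)
    obtain ⟨k, hk⟩ := hall g (h : Gb) (by
      have := Subgroup.mem_map_of_mem (Subgroup.normalizer (P : Set Gb)).subtype hh
      rw [MonoidHom.map_closure, Set.image_pair] at this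
      exact this)
    exact ⟨k, by simpa [Subgroup.mem_subgroupOf] using hk⟩
  obtain ⟨g, hg⟩ := key
  obtain ⟨⟨Y, f, hf⟩, -⟩ := Cfsg.Agent.H35.exists_sections_of_quadratic hp hP
    (fun x hx => Cfsg.Agent.H35.commutatorElement_quadratic hPAA ha' hx) g hg
  let q := QuotientGroup.mk' (Cfsg.pPrimeCore p G)
  have hq : Function.Surjective (q.subgroupComap Y) :=
    q.subgroupComap_surjective_of_surjective Y (QuotientGroup.mk'_surjective _)
  obtain ⟨K, L, hL, -, he⟩ := Cfsg.Agent.H35.exists_section_of_surjective _ (f.comp (q.subgroupComap Y))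
    (hf.comp hq)
  exact ⟨K, L, hL, le_top, he⟩

end Cfsg.Agent.S0657
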