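import Cfsg.Statements.S0662
import Cfsg.Agent.H35.MaxClass

set_option autoImplicit false
open Cfsg

namespace Cfsg.Agent.S0662

/-- In a p-group of maximal class of order at least p³ the normal subgroups of index at least p² are exactly the terms of the lower central series, and there are exactly p + 1 normal subgroups of index p. -/
theorem result {G : Type*} [Group G] [Finite G] {p : ℕ} [Fact p.Prime] (n : ℕ) (hG : Nat.card G = p ^ n) (hcl : Group.nilpotencyClass G = n - 1) (hn : 3 ≤ n) : (∀ (N : Subgroup G) [N.Normal] (r : ℕ), 2 ≤ r → N.index = p ^ r → N = (⊤ : Subgroup G).lowerCentralSeries (r - 1)) ∧ Nat.card {N : Subgroup G // N.Normal ∧ N.index = p} = p + 1 := by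
  exact ⟨fun N _ r hr hN => Cfsg.Agent.H35.eq_lowerCentralSeries_of_max_class n hG hcl hn N r hr hN,
    Cfsg.Agent.H35.card_maximal_normal_of_max_class n hG hcl hn⟩

end Cfsg.Agent.S0662
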