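import Cfsg.Statements.S0667
import Cfsg.Agent.H35.Stable
import Cfsg.Agent.H35.ThompsonA

set_option autoImplicit false
open Cfsg

namespace Cfsg.Agent.S0667

/-- Glauberman's Theorem in the p-constrained, p-stable vocabulary: for odd p such a group is the product of its largest normal subgroup of order prime to p with the normalizer of Z(J(P)), and Z(J(P)) is normal when that p'-subgroup is trivial. -/
theorem result {G : Type*} [Group G] [Finite G] {p : ℕ} [Fact p.Prime] (hp : p ≠ 2) (hc : Cfsg.IsPConstrained p G) (hs : Cfsg.IsPStable p G) (P : Sylow p G) : Cfsg.pPrimeCore p G ⊔ Subgroup.normalizer (Cfsg.centerThompsonAOf ((P : Subgroup G)) : Set G) = ⊤ ∧ (Cfsg.pPrimeCore p G = ⊥ → (Cfsg.centerThompsonAOf ((P : Subgroup G))).Normal) := by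
  have hn := Cfsg.Agent.H51.pPrimeCore_normal p G
  set q := QuotientGroup.mk' (Cfsg.pPrimeCore p G) with hq
  have hqs : Function.Surjective q := QuotientGroup.mk'_surjective _
  have hkeq : q.ker = Cfsg.pPrimeCore p G := QuotientGroup.ker_mk' _
  have hker : (Nat.card q.ker).Coprime p := by rw [hkeq]; exact Cfsg.Agent.H51.pPrimeCore_coprime p G
  have hX := Cfsg.Agent.H51.pPrimeCore_quotient_self (G := G) p
  have hc' := (Cfsg.Agent.H35.isPConstrained_iff_of_surjective q hqs hker hX).1 hc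
  have hs' := Cfsg.Agent.H35.isPStable_quotient hs
  let Pb : Sylow p (G ⧸ Cfsg.pPrimeCore p G) := P.mapSurjective hqs
  haveI := Cfsg.Agent.H35.centerThompsonAOf_characteristic hp hc'
    (fun V _ hV => Cfsg.Agent.H35.isPStableOn_of_isPStable hX hs' V hV) Pb
  set Z := Cfsg.centerThompsonAOf ((P : Subgroup G)) with hZ
  have hinj : Set.InjOn q (P : Subgroup G) := by
    intro x hx y hy h
    have h1 : x⁻¹ * y ∈ (P : Subgroup G) ⊓ q.ker := Subgroup.mem_inf.2 ⟨mul_mem (inv_mem (SetLike.mem_coe.1 hx)) (SetLike.mem_coe.1 hy), by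
      rw [MonoidHom.mem_ker, map_mul, map_inv, h, inv_mul_cancel]⟩
    rw [Cfsg.Agent.H35.inf_eq_bot_of_coprime P.isPGroup' hker, Subgroup.mem_bot] at h1
    exact inv_mul_eq_one.1 h1
  have hmap : Z.map q = Cfsg.centerThompsonAOf (Pb : Subgroup (G ⧸ Cfsg.pPrimeCore p G)) :=
    Cfsg.Agent.H35.map_centerThompsonAOf q _ hinj
  have hZn : (Z.map q).Normal := by rw [hmap]; exact Subgroup.normal_of_characteristic _
  have hZp : IsPGroup p Z := P.isPGroup'.to_le (Cfsg.Agent.H35.centerThompsonAOf_le _)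
  have hN : Cfsg.pPrimeCore p G ⊔ Subgroup.normalizer (Z : Set G) = ⊤ := by
    have h1 := Cfsg.Agent.H35.map_normalizer_eq q hqs hker hZp
    rw [Subgroup.normalizer_eq_top_iff.2 hZn] at h1
    have h2 := congrArg (Subgroup.comap q) h1
    rwa [Subgroup.comap_map_eq, Subgroup.comap_top, hkeq, sup_comm] at h2
  refine ⟨hN, fun hbot => Subgroup.normalizer_eq_top_iff.1 ?_⟩
  rwa [hbot, bot_sup_eq] at hN

end Cfsg.Agent.S0667
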