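import Cfsg.Statements.S0674
import Mathlib
import Cfsg.Agent.H36.PrimeDegree
-- import your own Cfsg.Agent.* helpers here

set_option autoImplicit false
open Cfsg

namespace Cfsg.Agent.S0674

/-- Let `G` be a non-solvable transitive permutation group of prime degree `p` and `K` a field of characteristic `p`. Then the heart of the permutation module is irreducible: an invariant subspace containing the constants and contained in the sum-zero functions is one or the other. -/
theorem result {α : Type*} [Fintype α] [DecidableEq α] {p : ℕ} [Fact p.Prime] (hα : Fintype.card α = p) (G : Subgroup (Equiv.Perm α)) [MulAction.IsPretransitive G α] (hG : ¬ Group.IsSolvable G) {K : Type*} [Field K] [CharP K p] (W : Subrepresentation (Cfsg.permRep K G α)) (h₁ : (Cfsg.permConstants K G α).toSubmodule ≤ W.toSubmodule) (h₂ : W.toSubmodule ≤ (Cfsg.permSumZero K G α).toSubmodule) : W = Cfsg.permConstants K G α ∨ W = Cfsg.permSumZero K G α := by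
  classical
  have ha : p ∣ Nat.card G := by
    obtain ⟨a⟩ := Fintype.card_pos_iff.1 (hα ▸ (Fact.out : p.Prime).pos)
    have h0 := MulAction.index_stabilizer_of_transitive G a
    rw [Nat.card_eq_fintype_card, hα] at h0
    exact h0 ▸ Subgroup.index_dvd_card _
  obtain ⟨σ, hσ⟩ := exists_prime_orderOf_dvd_card' p ha
  rw [← Subgroup.orderOf_coe] at hσ
  obtain ⟨e, he⟩ := Cfsg.Agent.H36.exists_zmod_numbering hα hσ
  exact (Cfsg.Agent.H36.affine_or_heart hα σ.2 e he W h₁ h₂).resolve_left
    fun h => hG (Cfsg.Agent.H36.isSolvable_of_affine e G h)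

end Cfsg.Agent.S0674
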