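import Cfsg.Statements.S0677
import Mathlib
import Cfsg.Agent.H36.PrimeNormalizer
-- import your own Cfsg.Agent.* helpers here

set_option autoImplicit false
open Cfsg

namespace Cfsg.Agent.S0677

/-- In a transitive permutation group of prime degree `p` whose Sylow `p`-normaliser has even order, the point stabilisers are the only subgroups of index `p`. -/
theorem result {α : Type*} [Fintype α] [DecidableEq α] {p : ℕ} [Fact p.Prime] (hα : Fintype.card α = p) (G : Subgroup (Equiv.Perm α)) [MulAction.IsPretransitive G α] (P : Sylow p G) (heven : Even (Nat.card (Subgroup.normalizer ((P : Subgroup G) : Set G)))) (H : Subgroup G) (hH : H.index = p) : ∃ a : α, H = MulAction.stabilizer G a := Cfsg.Agent.H36.index_p_eq_stabilizer hα G P heven H hH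

end Cfsg.Agent.S0677
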