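import Cfsg.Statements.S0680
import Mathlib
import Cfsg.Agent.H36.Regular
-- import your own Cfsg.Agent.* helpers here

set_option autoImplicit false
open Cfsg

namespace Cfsg.Agent.S0680

/-- A finite sharply doubly transitive permutation group has degree a prime power `p ^ j`; a Sylow `p`-subgroup is normal, elementary abelian and regular, and consists of the identity together with the elements without fixed points. (Frobenius' Theorem is not needed.) -/
theorem result {α : Type*} [Fintype α] [DecidableEq α] (G : Subgroup (Equiv.Perm α)) [MulAction.IsMultiplyPretransitive G α 2] (hsharp : ∀ x : Fin 2 ↪ α, MulAction.stabilizer G x = ⊥) (h2 : 2 ≤ Fintype.card α) : ∃ p j : ℕ, p.Prime ∧ 1 ≤ j ∧ Fintype.card α = p ^ j ∧ ∀ (hp : Fact p.Prime) (P : Sylow p G), (P : Subgroup G).Normal ∧ IsMulCommutative (P : Subgroup G) ∧ (∀ x ∈ (P : Subgroup G), x ^ p = 1) ∧ MulAction.IsPretransitive (P : Subgroup G) α ∧ (∀ a : α, MulAction.stabilizer (P : Subgroup G) a = ⊥) ∧ ∀ g : G, g ∈ (P : Subgroup G) ↔ g = 1 ∨ ∀ a :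 α, g • a ≠ a := by
  classical
  have hs : ∀ (g : G) (a b : α), a ≠ b → g • a = a → g • b = b → g = 1 := by
    intro g a b hab ha hb
    let e : Fin 2 ↪ α := ⟨![a, b], fun i j => by fin_cases i <;> fin_cases j <;> simp [hab, hab.symm]⟩
    have hm : g ∈ MulAction.stabilizer G e :=
      Function.Embedding.ext fun i => show g • e i = e i by fin_cases i <;> assumption
    rwa [hsharp, Subgroup.mem_bot] at hm
  have hX : 2 ≤ Nat.card α := by rwa [Nat.card_eq_fintype_card]
  obtain ⟨K, hK, hKt, hKreg, hcomm, p, hp, hexp⟩ :=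
    Cfsg.Agent.H36.exists_regular_subgroup_of_sharp (G := G) (X := α) inferInstance hs hX
  haveI := hKt
  haveI : Fact p.Prime := ⟨hp⟩
  obtain ⟨a⟩ := Fintype.card_pos_iff.1 (by omega : 0 < Fintype.card α)
  have hKcard : Nat.card K = Nat.card α := Cfsg.Agent.H36.regular_card (hKreg a)
  have hKp : IsPGroup p K := fun x => ⟨1, Subtype.ext (by rw [pow_one]; exact hexp x x.2)⟩
  obtain ⟨j, hj⟩ := IsPGroup.iff_card.1 hKp
  have hj1 : 1 ≤ j := by
    rcases Nat.eq_zero_or_pos j with rfl | h
    · rw [pow_zero] at hj; omega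
    · exact h
  refine ⟨p, j, hp, hj1, by rw [← Nat.card_eq_fintype_card, ← hKcard, hj], ?_⟩
  intro _ P
  haveI hKn : K.Normal := ⟨fun k hk g => (hK _).2 (by
    rcases (hK k).1 hk with rfl | h
    · exact Or.inl (by group)
    · refine Or.inr fun x hx => h (g⁻¹ • x) ?_
      rw [mul_smul, mul_smul] at hx
      exact eq_inv_smul_iff.2 hx)⟩
  have hnd : ¬ p ∣ K.index := by
    intro hd
    have h1 : Nat.card G = Nat.card α * (Nat.card α - 1) := by
      haveI : MulAction.IsPretransitive G α :=
        MulAction.isPretransitive_of_is_two_pretransitive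
      obtain ⟨b, hb⟩ := Fintype.exists_ne_of_one_lt_card (by omega : 1 < Fintype.card α) a
      rw [← Subgroup.index_mul_card (MulAction.stabilizer G a),
        MulAction.index_stabilizer_of_transitive, ← SubMulAction.nat_card_ofStabilizer_eq G a]
      congr 1
      refine Nat.card_congr (Equiv.ofBijective
        (fun g : MulAction.stabilizer G a => g • (⟨b, hb⟩ : SubMulAction.ofStabilizer G a))
        ⟨fun g g' h => ?_, fun w => ?_⟩)
      · refine Subtype.ext (inv_mul_eq_one.1 (hs _ a b hb.symm ?_ ?_))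
        · rw [mul_smul, show (g' : G) • a = a from g'.2, inv_smul_eq_iff]
          exact g.2.symm
        · rw [mul_smul, inv_smul_eq_iff]
          exact (congrArg Subtype.val h).symm
      · obtain ⟨g, g1, g2⟩ := MulAction.is_two_pretransitive_iff.1
          (inferInstance : MulAction.IsMultiplyPretransitive G α 2) hb.symm
          ((SubMulAction.mem_ofStabilizer_iff G a).1 w.2).symm
        exact ⟨⟨g, g1⟩, Subtype.ext g2⟩
    have h2 : K.index = Nat.card α - 1 := by
      have h3 := Subgroup.index_mul_card K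
      rw [h1, hKcard, mul_comm] at h3
      exact Nat.eq_of_mul_eq_mul_left (by omega) h3
    rw [h2] at hd
    have h4 : p ∣ Nat.card α := by rw [← hKcard, hj]; exact dvd_pow_self p (by omega)
    have h5 := Nat.dvd_sub h4 hd
    rw [show Nat.card α - (Nat.card α - 1) = 1 by omega] at h5
    exact hp.ne_one (Nat.dvd_one.1 h5)
  obtain rfl : K = (P : Subgroup G) := by
    obtain ⟨Q, hQ⟩ : ∃ Q : Sylow p G, (Q : Subgroup G) = K :=
      ⟨hKp.toSylow hnd, IsPGroup.toSylow_coe hKp hnd⟩
    haveI := Sylow.unique_of_normal Q (hQ.symm ▸ hKn)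
    rw [← hQ, Subsingleton.elim P Q]
  exact ⟨hKn, ⟨⟨fun x y => Subtype.ext (hcomm x x.2 y y.2)⟩⟩, hexp, hKt, hKreg, hK⟩

end Cfsg.Agent.S0680
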