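import Cfsg.Statements.S0681
import Mathlib
-- import your own Cfsg.Agent.* helpers here

set_option autoImplicit false
open Cfsg

namespace Cfsg.Agent.S0681

/-- The affine maps `x ↦ x * a + b`, `a ≠ 0`, of a near-field form a sharply doubly transitive permutation group. -/
theorem result {F : Type*} [Cfsg.NearField F] : ∃ H : Subgroup (Equiv.Perm F), (∀ σ : Equiv.Perm F, σ ∈ H ↔ ∃ a b : F, a ≠ 0 ∧ ∀ x : F, σ x = x * a + b) ∧ MulAction.IsMultiplyPretransitive H F 2 ∧ ∀ x : Fin 2 ↪ F, MulAction.stabilizer H x = ⊥ := by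
  have zero_mul' : ∀ a : F, 0 * a = 0 := fun a => by
    have h := Cfsg.NearField.right_distrib (0 : F) 0 a
    rw [add_zero] at h
    exact left_eq_add.1 h
  have neg_mul' : ∀ a b : F, (-a) * b = -(a * b) := fun a b => by
    refine eq_neg_of_add_eq_zero_left ?_
    rw [← Cfsg.NearField.right_distrib, neg_add_cancel, zero_mul']
  have hne : ∀ a b : F, a ≠ 0 → b ≠ 0 → a * b ≠ 0 := fun a b ha hb h => by
    obtain ⟨b', hb', -⟩ := Cfsg.NearField.exists_inv b hb
    apply ha
    rw [← mul_one a, ← hb', ← mul_assoc, h, zero_mul']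
  let H : Subgroup (Equiv.Perm F) :=
    { carrier := {σ | ∃ a b : F, a ≠ 0 ∧ ∀ x : F, σ x = x * a + b}
      one_mem' := ⟨1, 0, Cfsg.NearField.zero_ne_one.symm, fun x => by simp⟩
      mul_mem' := by
        rintro σ τ ⟨a, b, ha, hσ⟩ ⟨c, d, hc, hτ⟩
        refine ⟨c * a, d * a + b, hne c a hc ha, fun x => ?_⟩
        rw [Equiv.Perm.mul_apply, hτ, hσ, Cfsg.NearField.right_distrib, mul_assoc, add_assoc]
      inv_mem' := by
        rintro σ ⟨a, b, ha, hσ⟩
        obtain ⟨a', h1, h2⟩ := Cfsg.NearField.exists_inv a ha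
        refine ⟨a', -(b * a'), fun h => ?_, fun x => ?_⟩
        · rw [h, Cfsg.NearField.mul_zero] at h1
          exact Cfsg.NearField.zero_ne_one h1
        · apply σ.injective
          rw [Equiv.Perm.inv_def, Equiv.apply_symm_apply, hσ, Cfsg.NearField.right_distrib,
            neg_mul', mul_assoc, mul_assoc, h2, mul_one, mul_one, neg_add_cancel_right] }
  have hperm : ∀ a b : F, a ≠ 0 → ∃ σ : H, ∀ x : F, (σ : Equiv.Perm F) x = x * a + b := by
    intro a b ha
    obtain ⟨a', h1, h2⟩ := Cfsg.NearField.exists_inv a ha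
    exact ⟨⟨⟨fun x => x * a + b, fun x => (x + -b) * a',
      fun x => by dsimp only; rw [add_neg_cancel_right, mul_assoc, h1, mul_one],
      fun x => by dsimp only; rw [mul_assoc, h2, mul_one, neg_add_cancel_right]⟩, a, b, ha, fun x => rfl⟩,
      fun x => rfl⟩
  refine ⟨H, fun σ => Iff.rfl, ?_, ?_⟩
  · rw [MulAction.is_two_pretransitive_iff]
    have hto : ∀ u v : F, u ≠ v → ∃ g : H, g • (0 : F) = u ∧ g • (1 : F) = v := by
      intro u v huv
      obtain ⟨g, hg⟩ := hperm (v + -u) u (fun h => huv (add_neg_eq_zero.1 h).symm)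
      exact ⟨g, (hg 0).trans (by rw [zero_mul', zero_add]),
        (hg 1).trans (by rw [one_mul, neg_add_cancel_right])⟩
    intro a b c d hab hcd
    obtain ⟨g, g0, g1⟩ := hto a b hab
    obtain ⟨g', g0', g1'⟩ := hto c d hcd
    exact ⟨g' * g⁻¹, by rw [mul_smul, inv_smul_eq_iff.2 g0.symm, g0'],
      by rw [mul_smul, inv_smul_eq_iff.2 g1.symm, g1']⟩
  · intro e
    rw [Subgroup.eq_bot_iff_forall]
    rintro ⟨σ, a, b, ha, hσ⟩ hg
    have h0 : σ (e 0) = e 0 := DFunLike.congr_fun hg 0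
    have h1 : σ (e 1) = e 1 := DFunLike.congr_fun hg 1
    rw [hσ] at h0 h1
    have hd : e 0 + -(e 1) ≠ 0 := fun h => e.injective.ne (by decide : (0 : Fin 2) ≠ 1) (add_neg_eq_zero.1 h)
    have h2 : (e 0 + -(e 1)) * a = e 0 + -(e 1) := by
      rw [Cfsg.NearField.right_distrib, neg_mul', eq_add_neg_iff_add_eq.2 h0,
        eq_add_neg_iff_add_eq.2 h1, neg_add_rev, neg_neg, ← add_assoc, neg_add_cancel_right]
    obtain ⟨d', -, hd'⟩ := Cfsg.NearField.exists_inv _ hd
    have ha1 : a = 1 := by rw [← one_mul a, ← hd', mul_assoc, h2]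
    rw [ha1, mul_one, add_eq_left] at h0
    exact Subtype.ext (Equiv.ext fun x => (hσ x).trans (by simp [ha1, h0]))

end Cfsg.Agent.S0681
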