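import Cfsg.Statements.S0682
import Mathlib
-- import your own Cfsg.Agent.* helpers here

set_option autoImplicit false
open Cfsg

namespace Cfsg.Agent.S0682

/-- A finite near-field has prime-power order; its additive group is commutative of prime exponent. -/
theorem result {F : Type*} [Cfsg.NearField F] [Finite F] : ∃ p j : ℕ, p.Prime ∧ 1 ≤ j ∧ Nat.card F = p ^ j ∧ (∀ x y : F, x + y = y + x) ∧ ∀ x : F, p • x = 0 := by
  classical
  have hnz : ∀ x : F, x ≠ 0 → ∀ y : F, y ≠ 0 → ∃ φ : F →+ F, Function.Injective φ ∧ φ x = y := by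
    intro x hx y hy
    obtain ⟨x', hx1, hx2⟩ := Cfsg.NearField.exists_inv x hx
    obtain ⟨y', hy1, hy2⟩ := Cfsg.NearField.exists_inv y hy
    refine ⟨AddMonoidHom.mk' (fun z => z * (x' * y))
      (fun a b => Cfsg.NearField.right_distrib a b _), fun a b h => ?_, ?_⟩
    · have h' : a * (x' * y) * (y' * x) = b * (x' * y) * (y' * x) :=
        congrArg (· * (y' * x)) (h : a * (x' * y) = b * (x' * y))
      have e : (x' * y) * (y' * x) = 1 := by
        rw [mul_assoc, ← mul_assoc y, hy1, one_mul, hx2]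
      rwa [mul_assoc, mul_assoc b, e, mul_one, mul_one] at h'
    · change x * (x' * y) = y
      rw [← mul_assoc, hx1, one_mul]
  have hone : (1 : F) ≠ 0 := Cfsg.NearField.zero_ne_one.symm
  have hord : ∀ x : F, x ≠ 0 → addOrderOf x = addOrderOf (1 : F) := fun x hx => by
    obtain ⟨φ, hφ, hφx⟩ := hnz 1 hone x hx
    rw [← hφx, addOrderOf_injective φ hφ]
  have h0 : addOrderOf (1 : F) ≠ 0 := (addOrderOf_pos (1 : F)).ne'
  set p := addOrderOf (1 : F) with hpdef
  have hp : p.Prime := by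
    obtain ⟨q, hq, hqd⟩ := Nat.exists_prime_and_dvd (mt AddMonoid.addOrderOf_eq_one_iff.1 hone : p ≠ 1)
    haveI : Fact q.Prime := ⟨hq⟩
    obtain ⟨z, hz⟩ := exists_prime_addOrderOf_dvd_card' q (hqd.trans (addOrderOf_dvd_natCard _))
    have hz0 : z ≠ 0 := fun h => by rw [h, addOrderOf_zero] at hz; exact hq.ne_one hz.symm
    rw [← hord z hz0, hz]
    exact hq
  haveI : Fact p.Prime := ⟨hp⟩
  have hexp : ∀ x : F, p • x = 0 := fun x => by
    by_cases hx : x = 0
    · rw [hx, nsmul_zero]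
    · rw [← hord x hx]; exact addOrderOf_nsmul_eq_zero x
  have hP : IsPGroup p (Multiplicative F) := fun x =>
    ⟨1, by rw [pow_one]; exact hexp (Multiplicative.toAdd x)⟩
  haveI : Nontrivial F := ⟨⟨0, 1, Cfsg.NearField.zero_ne_one⟩⟩
  obtain ⟨j, hj⟩ := IsPGroup.iff_card.1 hP
  rw [Nat.card_congr Multiplicative.toAdd] at hj
  refine ⟨p, j, hp, ?_, hj, ?_, hexp⟩
  · rcases Nat.eq_zero_or_pos j with rfl | h
    · have := Finite.one_lt_card (α := F); rw [hj, pow_zero] at this; omega
    · exact h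
  haveI := hP.center_nontrivial
  obtain ⟨z, hz⟩ := exists_ne (1 : Subgroup.center (Multiplicative F))
  set w : F := Multiplicative.toAdd (z : Multiplicative F) with hw
  have hw0 : w ≠ 0 := fun h => hz (Subtype.ext h)
  have hwc : ∀ y : F, y + w = w + y := fun y =>
    Subgroup.mem_center_iff.1 z.2 (Multiplicative.ofAdd y)
  intro x y
  by_cases hx : x = 0
  · rw [hx, zero_add, add_zero]
  obtain ⟨φ, hφ, hφw⟩ := hnz w hw0 x hx
  obtain ⟨u, rfl⟩ := (Finite.injective_iff_surjective.1 hφ) y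
  rw [← hφw, ← map_add, ← map_add, hwc]

end Cfsg.Agent.S0682
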