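import Cfsg.Statements.S0684
import Mathlib
import Cfsg.Agent.H36.FpfLinear
-- import your own Cfsg.Agent.* helpers here

set_option autoImplicit false
open Cfsg

namespace Cfsg.Agent.S0684

/-- Point stabiliser of a sharply doubly transitive group not of semilinear type: a maximal normal abelian subgroup `A` of a linear group `H` that is regular on non-zero vectors and has no irreducible cyclic normal subgroup is cyclic and reducible, and the order of `A` divides `p ^ k - 1` for `k` the dimension of a minimal `A`-invariant subspace. -/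
theorem result {p : ℕ} [Fact p.Prime] {V : Type*} [AddCommGroup V] [Module (ZMod p) V] [Finite V] (H : Subgroup (V ≃ₗ[ZMod p] V)) (hreg : ∀ v w : V, v ≠ 0 → w ≠ 0 → ∃! h : H, (h : V ≃ₗ[ZMod p] V) v = w) (hI : ∀ A : Subgroup H, A.Normal → IsCyclic A → ∃ W : Submodule (ZMod p) V, W ≠ ⊥ ∧ W ≠ ⊤ ∧ ∀ a ∈ A, ∀ v ∈ W, ((a : H) : V ≃ₗ[ZMod p] V) v ∈ W) (A : Subgroup H) (hAn : A.Normal) (hAc : IsMulCommutative A) (hAmax : ∀ B : Subgroup H, B.Normal → IsMulCommutative B → A ≤ B → B = A) : IsCyclic A ∧ ∃ W : Submodule (ZMod p) V, W ≠ ⊥ ∧ W ≠ ⊤ ∧ (∀ a ∈ A, ∀ v ∈ W, ((a : H) : V ≃ₗ[ZMod p] V) v ∈ W) ∧ (∀ W' : Submodule (ZMod p) V, W' ≤ W → (∀ a ∈ A, ∀ v ∈ W', ((a : H) : V ≃ₗ[ZMod p] V) v ∈ W') → W' = ⊥ ∨ W' = W) ∧ Nat.card A ∣ p ^ Module.finrank (ZMod p) W - 1 := by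
  classical
  have hfree : ∀ h : H, ∀ v : V, v ≠ 0 → (h : V ≃ₗ[ZMod p] V) v = v → h = 1 :=
    fun h v hv e => Cfsg.Agent.H36.fpf_of_regular hreg hv e
  obtain ⟨W₁, hW₁, hW₁', -⟩ := hI ⊥ inferInstance inferInstance
  haveI : Nontrivial V := by
    obtain ⟨v, -, hv⟩ := Submodule.exists_mem_ne_zero_of_ne_bot hW₁
    exact ⟨⟨v, 0, hv⟩⟩
  haveI := hAn
  haveI := hAc
  haveI hAcyc : IsCyclic A := Cfsg.Agent.H36.isCyclic_of_fpf_linear hfree A
  obtain ⟨W₀, h0, h1, hW₀⟩ := hI A hAn hAcyc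
  obtain ⟨W, hW0, hWle, hWinv, hWmin⟩ := Cfsg.Agent.H36.exists_minimal_invariant A W₀ h0 hW₀
  exact ⟨hAcyc, W, hW0, fun h => h1 (top_le_iff.1 (h ▸ hWle)), hWinv, hWmin,
    Cfsg.Agent.H36.card_dvd_of_invariant hfree A W hWinv⟩

end Cfsg.Agent.S0684
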