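import Cfsg.Statements.S0687
import Mathlib
import Cfsg.Agent.H36.FpfSchur
-- import your own Cfsg.Agent.* helpers here

set_option autoImplicit false
open Cfsg

namespace Cfsg.Agent.S0687

/-- In a linear group over the prime field that is regular on non-zero vectors and has no irreducible cyclic normal subgroup, a normal subgroup `N` minimal among the non-abelian normal subgroups centralising a maximal normal abelian subgroup `A` is irreducible on `V`, and its centraliser is `A`. -/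
theorem result {p : ℕ} [Fact p.Prime] {V : Type*} [AddCommGroup V] [Module (ZMod p) V] [Finite V] (H : Subgroup (V ≃ₗ[ZMod p] V)) (hreg : ∀ v w : V, v ≠ 0 → w ≠ 0 → ∃! h : H, (h : V ≃ₗ[ZMod p] V) v = w) (hI : ∀ A : Subgroup H, A.Normal → IsCyclic A → ∃ W : Submodule (ZMod p) V, W ≠ ⊥ ∧ W ≠ ⊤ ∧ ∀ a ∈ A, ∀ v ∈ W, ((a : H) : V ≃ₗ[ZMod p] V) v ∈ W) (A : Subgroup H) (hAn : A.Normal) (hAc : IsMulCommutative A) (hAmax : ∀ B : Subgroup H, B.Normal → IsMulCommutative B → A ≤ B → B = A) (N : Subgroup H) (hNn : N.Normal) (hNle : N ≤ Subgroup.centralizer (A : Set H)) (hNna : ¬ IsMulCommutative N) (hNmin : ∀ M : Subgroup H, M.Normal → M ≤ N → ¬ IsMulCommutative M → M = N) : (∀ W : Submodule (ZMod p) V, (∀ n ∈ N, ∀ v ∈ W, ((n : H) : V ≃ₗ[ZMod p] V) v ∈ W) → W = ⊥ ∨ W = ⊤) ∧ Subgroup.centralizer (N : Set H) = A := by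
  classical
  haveI := hNn
  haveI := hAn
  haveI : Nontrivial V := by
    obtain ⟨W₁, hW₁, -⟩ := hI ⊥ inferInstance inferInstance
    obtain ⟨v, -, hv⟩ := Submodule.exists_mem_ne_zero_of_ne_bot hW₁
    exact ⟨⟨v, 0, hv⟩⟩
  refine ⟨fun W hW => Cfsg.Agent.H36.irreducible_of_normal hreg N hNna W hW, ?_⟩
  refine hAmax _ inferInstance (Cfsg.Agent.H36.centralizer_comm hreg N hNna) ?_
  intro a ha
  rw [Subgroup.mem_centralizer_iff]
  intro n hn
  exact (Subgroup.mem_centralizer_iff.1 (hNle hn) a ha).symm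

end Cfsg.Agent.S0687
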