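import Cfsg.Statements.S0691
import Mathlib
import Cfsg.Agent.H36.SmallLinear
-- import your own Cfsg.Agent.* helpers here

set_option autoImplicit false
open Cfsg

namespace Cfsg.Agent.S0691

/-- An exceptional sharply doubly transitive group of degree 5^2: the listed matrices generate a subgroup of GL(2,5) of order 24 acting regularly on the non-zero vectors. -/
theorem result (A : Matrix.GeneralLinearGroup (Fin 2) (ZMod 5)) (B : Matrix.GeneralLinearGroup (Fin 2) (ZMod 5)) (C : Matrix.GeneralLinearGroup (Fin 2) (ZMod 5)) (hA : (A : Matrix (Fin 2) (Fin 2) (ZMod 5)) = !![2, 0; 0, -2]) (hB : (B : Matrix (Fin 2) (Fin 2) (ZMod 5)) = !![0, -1; 1, 0]) (hC : (C : Matrix (Fin 2) (Fin 2) (ZMod 5)) = !![1, 2; 1, -2]) : Nat.card (Subgroup.closure ({A, B, C} : Set (Matrix.GeneralLinearGroup (Fin 2) (ZMod 5)))) = 24 ∧ ∀ v w : Fin 2 → ZMod 5, v ≠ 0 → w ≠ 0 → ∃! h : Subgroup.closure ({A, B, C} : Set (Matrix.GeneralLinearGroup (Fin 2) (ZMod 5))), Matrix.mulVec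 ((h : Matrix.GeneralLinearGroup (Fin 2) (ZMod 5)) : Matrix (Fin 2) (Fin 2) (ZMod 5)) v = w := by
  have eA : (A : Matrix (Fin 2) (Fin 2) (ZMod 5)) = Cfsg.Agent.H36.qmat ((2, 0, 0, 3) : Cfsg.Agent.H36.Quad 5) :=
    hA.trans (by decide)
  have eB : (B : Matrix (Fin 2) (Fin 2) (ZMod 5)) = Cfsg.Agent.H36.qmat ((0, 4, 1, 0) : Cfsg.Agent.H36.Quad 5) :=
    hB.trans (by decide)
  have eC : (C : Matrix (Fin 2) (Fin 2) (ZMod 5)) = Cfsg.Agent.H36.qmat ((1, 2, 1, 3) : Cfsg.Agent.H36.Quad 5) :=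
    hC.trans (by decide)
  let gens : List (Cfsg.Agent.H36.Quad 5) := [(2, 0, 0, 3), (0, 4, 1, 0), (1, 2, 1, 3)]
  let words : List (List ℕ) := [[],
      [0],
      [1],
      [2],
      [0,0],
      [0,1],
      [0,2],
      [1,0],
      [1,2],
      [2,0],
      [2,2],
      [0,0,0],
      [0,0,1],
      [0,0,2],
      [0,1,2],
      [0,2,2],
      [1,2,0],
      [1,2,2],
      [2,0,1],
      [2,0,2],
      [0,0,2,2],
      [0,1,2,2],
      [1,2,0,2],
      [2,0,1,2]]
  have hc : Cfsg.Agent.H36.qcheck gens words = true := by decide +kernel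
  haveI hpF : Fact (Nat.Prime 5) := ⟨by norm_num⟩
  obtain ⟨hcard, hfree⟩ := Cfsg.Agent.H36.closure_of_qcheck gens words hc ({A, B, C} : Set (Matrix.GeneralLinearGroup (Fin 2) (ZMod 5))) (by
    intro g
    simp only [gens, List.map_cons, List.map_nil, List.mem_cons, List.not_mem_nil, or_false,
      Set.mem_insert_iff, Set.mem_singleton_iff]
    simp only [← eA, ← eB, ← eC, Units.val_inj]) (by
    intro x hx
    simp only [gens, List.mem_cons, List.not_mem_nil, or_false] at hx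
    rcases hx with rfl | rfl | rfl
    · exact ⟨A, eA⟩
    · exact ⟨B, eB⟩
    · exact ⟨C, eC⟩
    )
  exact ⟨hcard.trans rfl, Cfsg.Agent.H36.regular_of_semiregular _ (hcard.trans rfl) hfree⟩

end Cfsg.Agent.S0691
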