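import Cfsg.Statements.S0695
import Mathlib
import Cfsg.Agent.H36.Regular
-- import your own Cfsg.Agent.* helpers here

set_option autoImplicit false
open Cfsg

namespace Cfsg.Agent.S0695

/-- A regular normal subgroup of a doubly primitive group of finite degree at least 2 is an elementary abelian 2-group (and the degree is a power of 2), unless the degree is 3. -/
theorem result {G : Type*} [Group G] {X : Type*} [Fintype X] [MulAction G X] (hX : 2 ≤ Fintype.card X) (h2 : MulAction.IsMultiplyPreprimitive G X 2) (N : Subgroup G) [N.Normal] (htrans : MulAction.IsPretransitive N X) (hreg : ∀ x : X, MulAction.stabilizer N x = ⊥) : Fintype.card X = 3 ∨ (IsMulCommutative N ∧ (∀ n ∈ N, n ^ 2 = 1) ∧ ∃ m : ℕ, Fintype.card X = 2 ^ m) := by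
  obtain ⟨a⟩ := Fintype.card_pos_iff.1 (by omega : 0 < Fintype.card X)
  haveI := htrans
  rcases Cfsg.Agent.H36.exp_two_or_card_three h2 N (hreg a) with h | h
  · refine Or.inr ⟨⟨⟨fun x y => ?_⟩⟩, h, ?_⟩
    · have hsq : ∀ z : N, z⁻¹ = z := fun z => inv_eq_of_mul_eq_one_right
        (Subtype.ext (by rw [Subgroup.coe_mul, ← pow_two]; exact h z z.2))
      rw [← hsq (x * y), mul_inv_rev, hsq, hsq]
    · haveI : Fact (Nat.Prime 2) := ⟨Nat.prime_two⟩
      have hc := Cfsg.Agent.H36.regular_card (hreg a)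
      haveI : Finite N := Nat.finite_of_card_ne_zero (by rw [hc, Nat.card_eq_fintype_card]; omega)
      obtain ⟨m, hm⟩ := IsPGroup.iff_card.1 (show IsPGroup 2 N from fun n =>
        ⟨1, Subtype.ext (by rw [pow_one]; exact h n n.2)⟩)
      exact ⟨m, by rw [← Nat.card_eq_fintype_card, ← hc, hm]⟩
  · exact Or.inl (by rwa [Nat.card_eq_fintype_card] at h)

end Cfsg.Agent.S0695
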