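import Cfsg.Statements.S0701
import Mathlib
-- import your own Cfsg.Agent.* helpers here

set_option autoImplicit false
open Cfsg

namespace Cfsg.Agent.S0701

/-- The centraliser in the full symmetric group of a transitive permutation group `G` is semiregular, and it is transitive if and only if `G` is regular. -/
theorem result {α : Type*} (G : Subgroup (Equiv.Perm α)) [MulAction.IsPretransitive G α] : (∀ c ∈ Subgroup.centralizer (G : Set (Equiv.Perm α)), ∀ a : α, c a = a → c = 1) ∧ (MulAction.IsPretransitive (Subgroup.centralizer (G : Set (Equiv.Perm α))) α ↔ ∀ a : α, MulAction.stabilizer G a = ⊥) := by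
  classical
  have hcom : ∀ c ∈ Subgroup.centralizer (G : Set (Equiv.Perm α)), ∀ (g : G) (x : α),
      c (g • x) = g • c x := by
    intro c hc g x
    exact (DFunLike.congr_fun (Subgroup.mem_centralizer_iff.1 hc g g.2) x).symm
  refine ⟨fun c hc a ha => Equiv.ext fun x => ?_, ⟨fun ht a => ?_, fun hreg => ⟨fun a b => ?_⟩⟩⟩
  · obtain ⟨g, rfl⟩ := MulAction.exists_smul_eq G a x
    rw [hcom c hc, ha, Equiv.Perm.one_apply]
  · rw [Subgroup.eq_bot_iff_forall]
    refine fun g hg => Subtype.ext (Equiv.ext fun x => ?_)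
    obtain ⟨c, rfl⟩ := MulAction.exists_smul_eq (Subgroup.centralizer (G : Set (Equiv.Perm α))) a x
    rw [OneMemClass.coe_one, Equiv.Perm.one_apply]
    exact (hcom c c.2 g a).symm.trans (congrArg _ hg)
  · have hinj : ∀ (c : α), Function.Injective (fun g : G => g • c) := by
      intro c g g' h
      have h1 : g⁻¹ * g' ∈ MulAction.stabilizer G c := by
        rw [MulAction.mem_stabilizer_iff, mul_smul, inv_smul_eq_iff]
        exact h.symm
      rw [hreg, Subgroup.mem_bot, inv_mul_eq_one] at h1
      exact h1
    let e : ∀ c : α, G ≃ α := fun c => Equiv.ofBijective (fun g : G => g • c)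
      ⟨hinj c, fun x => MulAction.exists_smul_eq G c x⟩
    have hcm : (e a).symm.trans (e b) ∈ Subgroup.centralizer (G : Set (Equiv.Perm α)) := by
      rw [Subgroup.mem_centralizer_iff]
      intro g hg
      refine Equiv.ext fun x => ?_
      obtain ⟨k, rfl⟩ := (e a).surjective x
      have h1 : g ((e a) k) = (e a) (⟨g, hg⟩ * k) := (mul_smul (⟨g, hg⟩ : G) k a).symm
      rw [Equiv.Perm.mul_apply, Equiv.Perm.mul_apply, h1]
      simp only [Equiv.trans_apply, Equiv.symm_apply_apply]
      exact (mul_smul (⟨g, hg⟩ : G) k b).symm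
    refine ⟨⟨_, hcm⟩, ?_⟩
    change (e b) ((e a).symm a) = b
    have h1 : (e a).symm a = 1 := by rw [Equiv.symm_apply_eq]; exact (one_smul G a).symm
    rw [h1]
    exact one_smul G b

end Cfsg.Agent.S0701
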