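import Cfsg.Statements.S0702
import Mathlib
-- import your own Cfsg.Agent.* helpers here

set_option autoImplicit false
open Cfsg

namespace Cfsg.Agent.S0702

/-- For a transitive permutation group `G` on a finite set, the centraliser of `G` in the symmetric group is isomorphic to `N_G(G_ω)/G_ω`, and its orbit of `ω` is the set of fixed points of `G_ω`. -/
theorem result {α : Type*} [Finite α] (G : Subgroup (Equiv.Perm α)) [MulAction.IsPretransitive G α] (a : α) : Nonempty (Subgroup.centralizer (G : Set (Equiv.Perm α)) ≃* Subgroup.normalizer ((MulAction.stabilizer G a : Subgroup G) : Set G) ⧸ (MulAction.stabilizer G a).subgroupOf (Subgroup.normalizer ((MulAction.stabilizer G a : Subgroup G) : Set G))) ∧ MulAction.orbit (Subgroup.centralizer (G : Set (Equiv.Perm α))) a = MulAction.fixedPoints (MulAction.stabilizer G a) α := by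
  classical
  set N := Subgroup.normalizer ((MulAction.stabilizer G a : Subgroup G) : Set G) with hN
  set C := Subgroup.centralizer (G : Set (Equiv.Perm α)) with hC
  choose k hk using fun x : α => MulAction.exists_smul_eq G a x
  have hstab : ∀ n ∈ N, ∀ h ∈ MulAction.stabilizer G a, h • n • a = n • a := by
    intro n hn h hh
    have h1 : n⁻¹ * h * n ∈ MulAction.stabilizer G a := by
      have := (Subgroup.mem_normalizer_iff.1 (N.inv_mem hn) h).1 hh
      rwa [inv_inv] at this
    rw [MulAction.mem_stabilizer_iff, mul_smul, mul_smul, inv_smul_eq_iff] at h1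
    exact h1
  have key : ∀ n ∈ N, ∀ g : G, (k (g • a) * n⁻¹) • a = (g * n⁻¹) • a := by
    intro n hn g
    have h1 : g⁻¹ * k (g • a) ∈ MulAction.stabilizer G a := by
      rw [MulAction.mem_stabilizer_iff, mul_smul, hk, inv_smul_smul]
    have h2 := hstab n⁻¹ (N.inv_mem hn) _ h1
    rw [mul_smul, inv_smul_eq_iff] at h2
    rw [mul_smul, mul_smul, h2]
  have hinv : ∀ n ∈ N, ∀ x, (k ((k x * n⁻¹) • a) * n) • a = x := by
    intro n hn x
    have h1 := key n⁻¹ (N.inv_mem hn) (k x * n⁻¹)
    rw [inv_inv] at h1
    rw [h1, inv_mul_cancel_right, hk]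
  let F : N → Equiv.Perm α := fun n =>
    { toFun := fun x => (k x * (n : G)⁻¹) • a
      invFun := fun x => (k x * (n : G)) • a
      left_inv := fun x => hinv n n.2 x
      right_inv := fun x => by
        have := hinv (n : G)⁻¹ (N.inv_mem n.2) x
        rwa [inv_inv] at this }
  have hF : ∀ (n : N) (g : G), F n (g • a) = (g * (n : G)⁻¹) • a := fun n g => key n n.2 g
  have hFC : ∀ n : N, F n ∈ C := by
    intro n
    rw [hC, Subgroup.mem_centralizer_iff]
    intro g hg
    refine Equiv.ext fun x => ?_
    rw [Equiv.Perm.mul_apply, Equiv.Perm.mul_apply, ← hk x, hF]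
    change (⟨g, hg⟩ : G) • _ = F n ((⟨g, hg⟩ : G) • k x • a)
    rw [← mul_smul, ← mul_smul, hF, mul_assoc]
  let φ : N →* C :=
    { toFun := fun n => ⟨F n, hFC n⟩
      map_one' := Subtype.ext (Equiv.ext fun x => by
        change (k x * (1 : G)⁻¹) • a = x
        rw [inv_one, mul_one, hk])
      map_mul' := fun n m => Subtype.ext (Equiv.ext fun x => by
        change F (n * m) x = F n (F m x)
        rw [← hk x, hF, hF, hF, Subgroup.coe_mul, mul_inv_rev, mul_assoc]) }
  have hcom : ∀ c ∈ C, ∀ (g : G) (x : α), c (g • x) = g • c x := fun c hc g x =>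
    (DFunLike.congr_fun (Subgroup.mem_centralizer_iff.1 hc g g.2) x).symm
  have hker : φ.ker = (MulAction.stabilizer G a).subgroupOf N := by
    ext n
    rw [MonoidHom.mem_ker, Subgroup.mem_subgroupOf, MulAction.mem_stabilizer_iff]
    constructor
    · intro h
      have h1 : F n ((1 : G) • a) = (1 : G) • a :=
        DFunLike.congr_fun (congrArg Subtype.val h) _
      rw [hF, one_mul, one_smul, inv_smul_eq_iff] at h1
      exact h1.symm
    · intro h
      refine Subtype.ext (Equiv.ext fun x => ?_)
      change F n x = x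
      rw [← hk x, hF, mul_smul, inv_smul_eq_iff.2 h.symm]
  have hsurj : Function.Surjective φ := by
    rintro ⟨c, hc⟩
    obtain ⟨g, hg⟩ := MulAction.exists_smul_eq G a (c a)
    have hst : MulAction.stabilizer G (c a) = MulAction.stabilizer G a := by
      ext h
      rw [MulAction.mem_stabilizer_iff, MulAction.mem_stabilizer_iff, ← hcom c hc]
      exact c.injective.eq_iff
    have hgN : g ∈ N := by
      rw [hN, Subgroup.mem_normalizer_iff]
      intro h
      conv_rhs => rw [← hst, MulAction.mem_stabilizer_iff, ← hg, mul_smul, mul_smul, inv_smul_smul]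
      rw [MulAction.mem_stabilizer_iff, smul_left_cancel_iff]
    refine ⟨⟨g⁻¹, N.inv_mem hgN⟩, Subtype.ext (Equiv.ext fun x => ?_)⟩
    change F _ x = c x
    rw [← hk x, hF, hcom c hc, mul_smul, inv_inv, hg]
  refine ⟨⟨((QuotientGroup.quotientMulEquivOfEq hker.symm).trans
    (QuotientGroup.quotientKerEquivOfSurjective φ hsurj)).symm⟩, ?_⟩
  ext x
  constructor
  · rintro ⟨c, rfl⟩ h
    change (h : G) • (c : Equiv.Perm α) a = (c : Equiv.Perm α) a
    rw [← hcom c c.2, show (h : G) • a = a from h.2]
  · intro hx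
    have h1 : MulAction.stabilizer G a ≤ MulAction.stabilizer G (k x • a) := fun h hh => by
      rw [hk]; exact hx ⟨h, hh⟩
    rw [MulAction.stabilizer_smul_eq_stabilizer_map_conj] at h1
    have h2 := Subgroup.eq_of_le_of_card_ge h1
      (le_of_eq (Subgroup.card_map_of_injective (MulEquiv.injective _)))
    have hkN : (k x)⁻¹ ∈ N := by
      refine N.inv_mem ?_
      rw [hN, Subgroup.mem_normalizer_iff]
      intro h
      conv_rhs => rw [h2, Subgroup.mem_map_equiv, MulAut.conj_symm_apply]
      rw [show (k x)⁻¹ * (k x * h * (k x)⁻¹) * k x = h by group]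
    refine ⟨φ ⟨_, hkN⟩, ?_⟩
    change F _ a = x
    conv_lhs => rw [← one_smul G a, hF, one_mul, inv_inv, hk]

end Cfsg.Agent.S0702
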