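import Cfsg.Statements.S0703
import Mathlib
import Cfsg.Agent.H36.Regular
-- import your own Cfsg.Agent.* helpers here

set_option autoImplicit false
open Cfsg

namespace Cfsg.Agent.S0703

/-- An abelian transitive minimal normal subgroup `M` of a permutation group on a finite set is self-centralising in the symmetric group, regular, elementary abelian, and is the unique minimal normal subgroup. -/
theorem result {α : Type*} [Finite α] (G : Subgroup (Equiv.Perm α)) (M : Subgroup G) [M.Normal] (hM : M ≠ ⊥) (hmin : ∀ L : Subgroup G, L.Normal → L ≤ M → L = ⊥ ∨ L = M) (hab : IsMulCommutative M) (htrans : MulAction.IsPretransitive M α) : Subgroup.centralizer ((M.map G.subtype : Subgroup (Equiv.Perm α)) : Set (Equiv.Perm α)) = M.map G.subtype ∧ (∀ a : α, MulAction.stabilizer M a = ⊥) ∧ (∃ p : ℕ, p.Prime ∧ ∀ m ∈ M, m ^ p = 1) ∧ ∀ L : Subgroup G, L.Normal → L ≠ ⊥ → (∀ L' : Subgroup G, L'.Normal → L' ≤ L → L' = ⊥ ∨ L' = L) → L = M := by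
  classical
  haveI := htrans
  set M' := M.map G.subtype with hM'
  haveI hM't : MulAction.IsPretransitive M' α := ⟨fun x y => by
    obtain ⟨m, hm⟩ := MulAction.exists_smul_eq M x y
    exact ⟨⟨_, Subgroup.mem_map_of_mem _ m.2⟩, hm⟩⟩
  obtain ⟨a⟩ : Nonempty α := by
    by_contra h
    rw [not_nonempty_iff] at h
    exact hM (Subsingleton.elim _ _)
  have hcomm : ∀ x ∈ M, ∀ y ∈ M, x * y = y * x := fun x hx y hy =>
    congrArg Subtype.val (hab.is_comm.comm (⟨x, hx⟩ : M) ⟨y, hy⟩)
  have hC : Subgroup.centralizer (M' : Set (Equiv.Perm α)) = M' := by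
    refine le_antisymm (fun c hc => ?_) ?_
    · obtain ⟨m, hm⟩ := MulAction.exists_smul_eq M' a (c a)
      have h1 : (m : Equiv.Perm α)⁻¹ * c = 1 := by
        refine Cfsg.Agent.H36.eq_one_of_commute_of_fixes M' (fun x hx => ?_) (a := a) ?_
        · have hxm : x * (m : Equiv.Perm α) = m * x := by
            obtain ⟨x, hx, rfl⟩ := hx
            obtain ⟨m', hm', hmm⟩ := m.2
            rw [← hmm, ← map_mul, ← map_mul, hcomm x hx m' hm']
          calc x * ((m : Equiv.Perm α)⁻¹ * c)
              = (m : Equiv.Perm α)⁻¹ * (x * c) := by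
                rw [← mul_assoc, ← mul_assoc]; congr 1
                rw [eq_inv_mul_iff_mul_eq, ← mul_assoc, ← hxm, mul_inv_cancel_right]
            _ = (m : Equiv.Perm α)⁻¹ * c * x := by
                rw [Subgroup.mem_centralizer_iff.1 hc x hx, mul_assoc]
        · rw [mul_smul, inv_smul_eq_iff]; exact hm.symm
      rw [inv_mul_eq_one] at h1
      exact h1 ▸ m.2
    · rintro _ ⟨x, hx, rfl⟩
      rw [Subgroup.mem_centralizer_iff]
      rintro _ ⟨y, hy, rfl⟩
      rw [← map_mul, ← map_mul, hcomm y hy x hx]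
  refine ⟨hC, fun b => Cfsg.Agent.H36.stabilizer_eq_bot_of_commute M M hcomm b, ?_, ?_⟩
  · obtain ⟨m, hm, hm1⟩ := (Subgroup.bot_or_exists_ne_one M).resolve_left hM
    obtain ⟨p, hp, hpd⟩ := Nat.exists_prime_and_dvd (orderOf_eq_one_iff.not.2 hm1)
    haveI : Fact p.Prime := ⟨hp⟩
    obtain ⟨y, hy⟩ := exists_prime_orderOf_dvd_card' (G := Subgroup.zpowers m) p
      (by rwa [Nat.card_zpowers])
    let L : Subgroup G :=
      { carrier := {x | x ∈ M ∧ x ^ p = 1}
        one_mem' := ⟨M.one_mem, one_pow p⟩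
        mul_mem' := fun {u v} hu hv => ⟨M.mul_mem hu.1 hv.1, by
          rw [Commute.mul_pow (hcomm u hu.1 v hv.1), hu.2, hv.2, mul_one]⟩
        inv_mem' := fun {u} hu => ⟨M.inv_mem hu.1, by rw [inv_pow, hu.2, inv_one]⟩ }
    have hL : L.Normal := ⟨fun x hx g => ⟨Subgroup.Normal.conj_mem ‹_› x hx.1 g, by
      rw [conj_pow, hx.2, mul_one, mul_inv_cancel]⟩⟩
    rcases hmin L hL (fun x hx => hx.1) with h | h
    · exfalso
      have hyL : (y : G) ∈ L := ⟨Subgroup.zpowers_le.2 hm y.2, by
        rw [← hy, ← SubmonoidClass.coe_pow, pow_orderOf_eq_one, Subgroup.coe_one]⟩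
      rw [h, Subgroup.mem_bot, OneMemClass.coe_eq_one] at hyL
      rw [hyL, orderOf_one] at hy
      exact hp.ne_one hy.symm
    · exact ⟨p, hp, fun x hx => (h.symm ▸ hx : x ∈ L).2⟩
  · intro L hL hL0 hLmin
    have hLM : L ⊓ M = L := (hLmin _ inferInstance inf_le_left).resolve_left fun h => by
      have hd : Disjoint L M := disjoint_iff.2 h
      have hle : L.map G.subtype ≤ Subgroup.centralizer (M' : Set (Equiv.Perm α)) := by
        rintro _ ⟨l, hl, rfl⟩
        rw [Subgroup.mem_centralizer_iff]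
        rintro _ ⟨m, hm, rfl⟩
        rw [← map_mul, ← map_mul,
          (Subgroup.commute_of_normal_of_disjoint L M hL inferInstance hd l m hl hm).eq]
      rw [hC, hM', Subgroup.map_le_map_iff_of_injective G.subtype_injective] at hle
      exact hL0 (by rw [← inf_eq_left.2 hle, h])
    exact (hmin L hL (inf_eq_left.1 hLM)).resolve_left hL0

end Cfsg.Agent.S0703
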