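import Cfsg.Statements.S0704
import Mathlib
import Cfsg.Agent.H36.Regular
-- import your own Cfsg.Agent.* helpers here

set_option autoImplicit false
open Cfsg

namespace Cfsg.Agent.S0704

/-- Two distinct transitive minimal normal subgroups `M`, `N` of a permutation group are regular, non-abelian, isomorphic, each other's centraliser in the symmetric group, and the only minimal normal subgroups. -/
theorem result {α : Type*} (G : Subgroup (Equiv.Perm α)) (M N : Subgroup G) [M.Normal] [N.Normal] (hM : M ≠ ⊥) (hN : N ≠ ⊥) (hMmin : ∀ L : Subgroup G, L.Normal → L ≤ M → L = ⊥ ∨ L = M) (hNmin : ∀ L : Subgroup G, L.Normal → L ≤ N → L = ⊥ ∨ L = N) (hMN : M ≠ N) (hMt : MulAction.IsPretransitive M α) (hNt : MulAction.IsPretransitive N α) : (∀ a : α, MulAction.stabilizer M a = ⊥) ∧ (∀ a : α, MulAction.stabilizer N a = ⊥) ∧ ¬ IsMulCommutative M ∧ Nonempty (M ≃* N) ∧ Subgroup.centralizer ((M.map G.subtype : Subgroup (Equiv.Perm α)) : Set (Equiv.Perm α)) = N.map G.subtype ∧ Subgroup.centralizer ((N.map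 G.subtype : Subgroup (Equiv.Perm α)) : Set (Equiv.Perm α)) = M.map G.subtype ∧ ∀ L : Subgroup G, L.Normal → L ≠ ⊥ → (∀ L' : Subgroup G, L'.Normal → L' ≤ L → L' = ⊥ ∨ L' = L) → L = M ∨ L = N := by
  classical
  haveI := hMt
  haveI := hNt
  have hdis : ∀ A B : Subgroup G, A.Normal → B.Normal → A ≠ ⊥ →
      (∀ L : Subgroup G, L.Normal → L ≤ A → L = ⊥ ∨ L = A) →
      (∀ L : Subgroup G, L.Normal → L ≤ B → L = ⊥ ∨ L = B) → A ≠ B →
      ∀ x ∈ A, ∀ y ∈ B, x * y = y * x := by
    intro A B hA hB hA0 hAmin hBmin hne x hx y hy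
    have hd : A ⊓ B = ⊥ := (hAmin _ inferInstance inf_le_left).resolve_right fun h =>
      hne ((hBmin A hA (inf_eq_left.1 h)).resolve_left hA0)
    exact (Subgroup.commute_of_normal_of_disjoint A B hA hB (disjoint_iff.2 hd) x y hx hy).eq
  have hc := hdis M N inferInstance inferInstance hM hMmin hNmin hMN
  have hregN := fun a : α => Cfsg.Agent.H36.stabilizer_eq_bot_of_commute M N hc a
  have hregM := fun a : α => Cfsg.Agent.H36.stabilizer_eq_bot_of_commute N M
    (fun n hn m hm => (hc m hm n hn).symm) a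
  obtain ⟨a⟩ : Nonempty α := by
    by_contra h
    rw [not_nonempty_iff] at h
    exact hM (Subsingleton.elim _ _)
  have hcent : ∀ A B : Subgroup G, MulAction.IsPretransitive A α → MulAction.IsPretransitive B α →
      (∀ x ∈ A, ∀ y ∈ B, x * y = y * x) →
      Subgroup.centralizer ((A.map G.subtype : Subgroup (Equiv.Perm α)) : Set (Equiv.Perm α)) =
        B.map G.subtype := by
    intro A B hAt hBt hAB
    haveI := hBt
    haveI : MulAction.IsPretransitive (A.map G.subtype) α := ⟨fun x y => by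
      obtain ⟨m, hm⟩ := MulAction.exists_smul_eq A x y
      exact ⟨⟨_, Subgroup.mem_map_of_mem _ m.2⟩, hm⟩⟩
    refine le_antisymm (fun c hcA => ?_) ?_
    · obtain ⟨m, hm⟩ := MulAction.exists_smul_eq B a (c a)
      have h1 : ((m : G) : Equiv.Perm α)⁻¹ * c = 1 := by
        refine Cfsg.Agent.H36.eq_one_of_commute_of_fixes (A.map G.subtype) (fun x hx => ?_)
          (a := a) ?_
        · obtain ⟨x, hx', rfl⟩ := hx
          have hxm : G.subtype x * ((m : G) : Equiv.Perm α) = ((m : G) : Equiv.Perm α) * G.subtype x := by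
            change G.subtype x * G.subtype (m : G) = G.subtype (m : G) * G.subtype x
            rw [← map_mul, ← map_mul, hAB x hx' m m.2]
          calc G.subtype x * (((m : G) : Equiv.Perm α)⁻¹ * c)
              = ((m : G) : Equiv.Perm α)⁻¹ * (G.subtype x * c) := by
                rw [← mul_assoc, ← mul_assoc]; congr 1
                rw [eq_inv_mul_iff_mul_eq, ← mul_assoc, ← hxm, mul_inv_cancel_right]
            _ = ((m : G) : Equiv.Perm α)⁻¹ * c * G.subtype x := by
                rw [Subgroup.mem_centralizer_iff.1 hcA _ ⟨x, hx', rfl⟩, mul_assoc]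
        · rw [mul_smul, inv_smul_eq_iff]; exact hm.symm
      rw [inv_mul_eq_one] at h1
      exact h1 ▸ ⟨(m : G), m.2, rfl⟩
    · rintro _ ⟨y, hy, rfl⟩
      rw [Subgroup.mem_centralizer_iff]
      rintro _ ⟨x, hx, rfl⟩
      rw [← map_mul, ← map_mul, hAB x hx y hy]
  have hC1 := hcent M N hMt hNt hc
  have hC2 := hcent N M hNt hMt (fun n hn m hm => (hc m hm n hn).symm)
  refine ⟨hregM, hregN, fun hab => ?_, ?_, hC1, hC2, fun L hL hL0 hLmin => ?_⟩
  · have hle : M.map G.subtype ≤ N.map G.subtype := by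
      rw [← hC1]
      rintro _ ⟨m, hm, rfl⟩
      rw [Subgroup.mem_centralizer_iff]
      rintro _ ⟨m', hm', rfl⟩
      rw [← map_mul, ← map_mul, show m' * m = m * m' from
        congrArg Subtype.val (hab.is_comm.comm (⟨m', hm'⟩ : M) ⟨m, hm⟩)]
    rw [Subgroup.map_le_map_iff_of_injective G.subtype_injective] at hle
    exact hMN ((hNmin M inferInstance hle).resolve_left hM)
  · choose e he using fun m : M => MulAction.exists_smul_eq N a (m⁻¹ • a)
    refine ⟨MulEquiv.ofBijective (⟨⟨e, ?_⟩, ?_⟩ : M →* N) ⟨fun m m' h => ?_, fun n => ?_⟩⟩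
    · apply Cfsg.Agent.H36.regular_injective (hregN a)
      simp only [he, inv_one, one_smul]
    · intro m₁ m₂
      apply Cfsg.Agent.H36.regular_injective (hregN a)
      simp only [he, mul_inv_rev, mul_smul]
      change (m₂ : G)⁻¹ • (m₁ : G)⁻¹ • a = (e m₁ : G) • (m₂ : G)⁻¹ • a
      rw [← mul_smul (e m₁ : G), ← hc _ (M.inv_mem m₂.2) _ (e m₁).2, mul_smul]
      exact congrArg _ (he m₁).symm
    · have h1 : m⁻¹ • a = m'⁻¹ • a := by
        rw [← he, ← he]
        exact congrArg (fun n : N => n • a) h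
      exact inv_injective (Cfsg.Agent.H36.regular_injective (hregM a) h1)
    · obtain ⟨m, hm⟩ := MulAction.exists_smul_eq M a (n • a)
      refine ⟨m⁻¹, Cfsg.Agent.H36.regular_injective (hregN a) ?_⟩
      change e m⁻¹ • a = n • a
      rw [he, inv_inv, hm]
  · by_cases hLM : L = M
    · exact Or.inl hLM
    right
    have hcL := hdis M L inferInstance hL hM hMmin hLmin (Ne.symm hLM)
    have hle : L.map G.subtype ≤ N.map G.subtype := by
      rw [← hC1]
      rintro _ ⟨l, hl, rfl⟩
      rw [Subgroup.mem_centralizer_iff]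
      rintro _ ⟨m, hm, rfl⟩
      rw [← map_mul, ← map_mul, hcL m hm l hl]
    rw [Subgroup.map_le_map_iff_of_injective G.subtype_injective] at hle
    exact (hNmin L hL hle).resolve_left hL0

end Cfsg.Agent.S0704
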