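import Cfsg.Statements.S0706
import Mathlib
import Cfsg.Agent.H36.Generous
-- import your own Cfsg.Agent.* helpers here

set_option autoImplicit false
open Cfsg

namespace Cfsg.Agent.S0706

/-- In a generously `k`-transitive permutation group, for a prime `p ≤ k` and a `k`-set `Γ`, there are no `p` points outside `Γ` lying in distinct orbits of the pointwise stabiliser of `Γ` all of length prime to `p` (at most `p - 1` such orbits). -/
theorem result {α : Type*} [Fintype α] [DecidableEq α] (G : Subgroup (Equiv.Perm α)) {k : ℕ} (hk : k < Fintype.card α) (hgen : ∀ s : Finset α, s.card = k + 1 → ∀ σ : Equiv.Perm ↥s, ∃ g ∈ G, ∀ x : ↥s, g (x : α) = σ x) {p : ℕ} (hp : p.Prime) (hpk : p ≤ k) (Γ : Finset α) (hΓ : Γ.card = k) (f : Fin p → α) (hf : ∀ i, f i ∉ Γ) (hdist : ∀ i j, i ≠ j → f j ∉ MulAction.orbit (fixingSubgroup G (Γ : Set α)) (f i)) : ∃ i, p ∣ Nat.card (MulAction.orbit (fixingSubgroup G (Γ : Set α)) (f i)) := Cfsg.Agent.H36.generous_exists_dvd_orbit hk hgen hp hpk Γ hΓ f hf hdist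

end Cfsg.Agent.S0706
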