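import Cfsg.Statements.S0707
import Mathlib
-- import your own Cfsg.Agent.* helpers here

set_option autoImplicit false
open Cfsg

namespace Cfsg.Agent.S0707

/-- In a primitive permutation group, distinct points have distinct stabilisers unless the group is regular of prime degree. -/
theorem result {α : Type*} (G : Subgroup (Equiv.Perm α)) [MulAction.IsPreprimitive G α] (h : ¬ (Nat.card α).Prime ∨ ∃ a : α, MulAction.stabilizer G a ≠ ⊥) {a b : α} (hab : a ≠ b) : MulAction.stabilizer G a ≠ MulAction.stabilizer G b := by
  intro hst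
  haveI : Nontrivial α := ⟨⟨a, b, hab⟩⟩
  have hblock : MulAction.IsBlock G {x : α | MulAction.stabilizer G x = MulAction.stabilizer G a} := by
    refine MulAction.isBlock_iff_smul_eq_of_mem.2 fun g y hy hgy => ?_
    have h1 : (MulAction.stabilizer G a).map (MulAut.conj g).toMonoidHom = MulAction.stabilizer G a := by
      have h2 := MulAction.stabilizer_smul_eq_stabilizer_map_conj g y
      rw [hy, hgy] at h2
      exact h2.symm
    ext x
    simp only [Set.mem_smul_set_iff_inv_smul_mem, Set.mem_ofPred_eq]
    constructor
    · intro hx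
      have h2 := MulAction.stabilizer_smul_eq_stabilizer_map_conj g (g⁻¹ • x)
      rw [smul_inv_smul, hx] at h2
      exact h2.trans h1
    · intro hx
      have h2 := MulAction.stabilizer_smul_eq_stabilizer_map_conj g (g⁻¹ • x)
      rw [smul_inv_smul, hx] at h2
      refine (Subgroup.map_injective (f := (MulAut.conj g).toMonoidHom) (MulEquiv.injective _)) ?_
      exact h2.symm.trans h1.symm
  rcases hblock.subsingleton_or_eq_univ with h1 | h1
  · exact hab (h1 rfl hst.symm)
  have hall : ∀ x : α, MulAction.stabilizer G x = MulAction.stabilizer G a := fun x =>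
    (Set.ext_iff.1 h1 x).2 trivial
  have hbot : MulAction.stabilizer G a = ⊥ := by
    rw [Subgroup.eq_bot_iff_forall]
    intro g hg
    exact Subtype.ext (Equiv.ext fun x => (hall x ▸ hg : g ∈ MulAction.stabilizer G x))
  rcases h with h | ⟨c, hc⟩
  · apply h
    have hco : IsCoatom (MulAction.stabilizer G a) :=
      (MulAction.isCoatom_stabilizer_iff_preprimitive (G := G) a).2 inferInstance
    rw [hbot] at hco
    haveI : Nontrivial G := by
      rcases subsingleton_or_nontrivial G with hs | hn
      · exact absurd (Subsingleton.elim (⊥ : Subgroup G) ⊤) hco.1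
      · exact hn
    have hgen : ∀ x : G, x ≠ 1 → Subgroup.zpowers x = ⊤ := fun x hx =>
      hco.2 _ (bot_lt_iff_ne_bot.2 (by simpa [Subgroup.zpowers_eq_bot] using hx))
    obtain ⟨x, hx⟩ := exists_ne (1 : G)
    letI : CommGroup G := { (inferInstance : Group G) with
      mul_comm := fun y z => by
        obtain ⟨i, rfl⟩ := Subgroup.mem_zpowers_iff.1 ((hgen x hx).symm ▸ Subgroup.mem_top y)
        obtain ⟨j, rfl⟩ := Subgroup.mem_zpowers_iff.1 ((hgen x hx).symm ▸ Subgroup.mem_top z)
        exact zpow_mul_comm x i j }
    haveI : IsSimpleGroup G := ⟨fun H _ => by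
      rcases eq_or_ne H ⊥ with h0 | h0
      · exact Or.inl h0
      · exact Or.inr (hco.2 H (bot_lt_iff_ne_bot.2 h0))⟩
    have hp : (Nat.card G).Prime := IsSimpleGroup.prime_card
    rw [← MulAction.index_stabilizer_of_transitive G a, hbot, Subgroup.index_bot]
    exact hp
  · exact hc ((hall c).trans hbot)

end Cfsg.Agent.S0707
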