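import Cfsg.Statements.S0709
import Mathlib

set_option autoImplicit false
open Cfsg

namespace Cfsg.Agent.S0709

/-- Witt's Lemma for constructing transitive extensions. Points `q 1, …, q t` (`t ≥ 2`) of a finite set are given; `G` fixes `q i` for `i ≥ 3` and is doubly transitive on the remaining points; `s 1 ∈ G` swaps `q 1, q 2`; for `2 ≤ i ≤ t-1`, `s i` swaps `q i, q (i+1)` and fixes the other `q j`; with `H` the stabiliser of `q 1, q 2` in `G`: `s i ^ 2 ∈ H`, `(s i * s (i+1)) ^ 3 ∈ H`, `(s i * s j) ^ 2 ∈ H` for `j ≥ i + 2`, and `s i` (`i ≥ 2`) normalises the stabiliser of `q 2` in `G`. Then `G` and the `s i` generate a `t`-transitive group whose pointwise stabiliser of the `q`'s is `H`. -/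
theorem result {α : Type*} [Fintype α] [DecidableEq α] (t : ℕ) (ht : 2 ≤ t) (q : ℕ → α) (hq : ∀ i j : ℕ, 1 ≤ i → i ≤ t → 1 ≤ j → j ≤ t → q i = q j → i = j) (G : Subgroup (Equiv.Perm α)) (hfix : ∀ g ∈ G, ∀ i : ℕ, 3 ≤ i → i ≤ t → g (q i) = q i) (h2 : ∀ a b c d : α, (∀ i, 3 ≤ i → i ≤ t → a ≠ q i ∧ b ≠ q i ∧ c ≠ q i ∧ d ≠ q i) → a ≠ b → c ≠ d → ∃ g ∈ G, g a = c ∧ g b = d) (s : ℕ → Equiv.Perm α) (hs1 : s 1 ∈ G) (hs1q : s 1 (q 1) = q 2 ∧ s 1 (q 2) = q 1) (hsq : ∀ i : ℕ, 2 ≤ i → i + 1 ≤ t → s i (q i) = q (i + 1) ∧ s i (q (i + 1)) = q i ∧ ∀ j : ℕ, 1 ≤ j → j ≤ t → j ≠ i → j ≠ i + 1 → s i (q j) = q j) (H : Subgroup (Equiv.Perm α)) (hH : H = G ⊓ MulAction.stabilizer (Equiv.Perm α) (q 1) ⊓ MulAction.stabilizer (Equiv.Perm α) (q 2)) (hsq2 : ∀ i : ℕ, 1 ≤ i → i + 1 ≤ t → s i ^ 2 ∈ H) (hbraid : ∀ i : ℕ, 1 ≤ i → i + 2 ≤ t → (s i * s (i + 1)) ^ 3 ∈ H) (hcomm : ∀ i j : ℕ, 1 ≤ i → i + 2 ≤ j → j + 1 ≤ t → (s i * s j) ^ 2 ∈ H ∧ (s j * s i) ^ 2 ∈ H) (hnorm : ∀ i : ℕ, 2 ≤ i → i + 1 ≤ t → ∀ g ∈ G ⊓ MulAction.stabilizer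 (Equiv.Perm α) (q 2), s i * g * (s i)⁻¹ ∈ G ⊓ MulAction.stabilizer (Equiv.Perm α) (q 2)) : MulAction.IsMultiplyPretransitive ↥(Subgroup.closure ((G : Set (Equiv.Perm α)) ∪ {x | ∃ i : ℕ, 2 ≤ i ∧ i + 1 ≤ t ∧ x = s i})) α t ∧ Subgroup.closure ((G : Set (Equiv.Perm α)) ∪ {x | ∃ i : ℕ, 2 ≤ i ∧ i + 1 ≤ t ∧ x = s i}) ⊓ fixingSubgroup (Equiv.Perm α) {x | ∃ i : ℕ, 1 ≤ i ∧ i ≤ t ∧ x = q i} = H := by
  classical
  let K : ℕ → Subgroup (Equiv.Perm α) := fun j =>
    Subgroup.closure ((G : Set (Equiv.Perm α)) ∪ {x | ∃ i : ℕ, 2 ≤ i ∧ i + 1 ≤ j ∧ x = s i})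
  let B : Subgroup (Equiv.Perm α) := G ⊓ MulAction.stabilizer (Equiv.Perm α) (q 2)
  let P : ℕ → Subgroup (Equiv.Perm α) := fun j => if j = 2 then B else K (j - 1)
  have hGK : ∀ j, G ≤ K j := fun j g hg => Subgroup.subset_closure (Or.inl hg)
  have hK2 : K 2 = G := by
    apply le_antisymm _ (hGK 2)
    rw [Subgroup.closure_le]
    rintro x (hx | ⟨i, h1, h2, -⟩)
    · exact hx
    · omega
  have hKmono : ∀ i j, i ≤ j → K i ≤ K j := by
    intro i j hij
    apply Subgroup.closure_mono
    rintro x (hx | ⟨k, h1, h2, h3⟩)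
    · exact Or.inl hx
    · exact Or.inr ⟨k, h1, by omega, h3⟩
  have hsK : ∀ i j, 1 ≤ i → i + 1 ≤ j → s i ∈ K j := by
    intro i j h1 h2
    rcases Nat.eq_or_lt_of_le h1 with rfl | h1
    · exact hGK j hs1
    · exact Subgroup.subset_closure (Or.inr ⟨i, h1, h2, rfl⟩)
  have hHB : H ≤ B := fun x hx => by
    rw [hH] at hx
    exact ⟨hx.1.1, hx.2⟩
  have hHK : ∀ j, H ≤ K j := fun j x hx => hGK j (hHB hx).1
  have hHP : ∀ j, H ≤ P j := by
    intro j
    by_cases hj : j = 2
    · simp only [P, if_pos hj]; exact hHB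
    · simp only [P, if_neg hj]; exact hHK _
  have main : ∀ j, 2 ≤ j → j ≤ t →
      (∀ g ∈ K j, ∀ i, j < i → i ≤ t → g (q i) = q i) ∧
      (∀ x y : Fin j → α, Function.Injective x → Function.Injective y →
        (∀ k i, j < i → i ≤ t → x k ≠ q i) → (∀ k i, j < i → i ≤ t → y k ≠ q i) → ∃ g ∈ K j, ∀ k, g (x k) = y k) ∧
      (∀ g ∈ K j, (∀ i, 1 ≤ i → i ≤ j → g (q i) = q i) → g ∈ H) ∧
      (∀ g ∈ K j, g ∈ P j ∨ ∃ u ∈ P j, ∃ v ∈ P j, g = u * s (j - 1) * v) := by
    intro j hj
    induction j, hj using Nat.le_induction with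
    | base =>
      intro _
      refine ⟨fun g hg i h1 h2 => hfix g (hK2 ▸ hg) i (by omega) h2, ?_, ?_, ?_⟩
      · intro x y hx hy hxa hya
        obtain ⟨g, hg, g1, g2⟩ := h2 (x 0) (x 1) (y 0) (y 1)
          (fun i h1 h2' => ⟨hxa 0 i (by omega) h2', hxa 1 i (by omega) h2', hya 0 i (by omega) h2', hya 1 i (by omega) h2'⟩)
          (hx.ne (by decide)) (hy.ne (by decide))
        refine ⟨g, hK2.symm ▸ hg, fun k => ?_⟩
        fin_cases k
        · exact g1
        · exact g2
      · intro g hg hgq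
        rw [hH]
        exact ⟨⟨hK2 ▸ hg, hgq 1 le_rfl (by omega)⟩, hgq 2 (by omega) le_rfl⟩
      · intro g hg
        rw [hK2] at hg
        have hP2 : P 2 = B := if_pos rfl
        rw [hP2]
        by_cases hgq : g (q 2) = q 2
        · exact Or.inl ⟨hg, hgq⟩
        right
        have h12 : q 1 ≠ q 2 := fun e => by have := hq 1 2 le_rfl (by omega) (by omega) ht e; omega
        have hav : ∀ i, 3 ≤ i → i ≤ t → q 2 ≠ q i ∧ q 1 ≠ q i ∧ q 2 ≠ q i ∧ g (q 2) ≠ q i := by
          intro i h1 h2'
          refine ⟨fun e => ?_, fun e => ?_, fun e => ?_, fun e => ?_⟩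
          · have := hq 2 i (by omega) ht (by omega) h2' e; omega
          · have := hq 1 i le_rfl (by omega) (by omega) h2' e; omega
          · have := hq 2 i (by omega) ht (by omega) h2' e; omega
          · rw [← hfix g hg i h1 h2'] at e
            have := hq 2 i (by omega) ht (by omega) h2' (g.injective e); omega
        obtain ⟨b, hb, b1, b2⟩ := h2 (q 2) (q 1) (q 2) (g (q 2)) hav h12.symm (Ne.symm hgq)
        refine ⟨b, ⟨hb, b1⟩, (s 1)⁻¹ * b⁻¹ * g, ⟨G.mul_mem (G.mul_mem (G.inv_mem hs1) (G.inv_mem hb)) hg, ?_⟩, by group⟩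
        show ((s 1)⁻¹ * b⁻¹ * g) (q 2) = q 2
        rw [Equiv.Perm.mul_apply, Equiv.Perm.mul_apply, ← b2, Equiv.Perm.inv_def, Equiv.Perm.inv_def,
          Equiv.symm_apply_apply, Equiv.symm_apply_eq, hs1q.2]
    | succ j hj ih =>
      intro hjt
      obtain ⟨ih1, ih2, ih3, ih4⟩ := ih (by omega)
      have hsj := hsq j hj hjt
      have hsH : ∀ h ∈ H, s j * h * (s j)⁻¹ ∈ H := by
        intro h hh
        have hb := hnorm j hj hjt h (hHB hh)
        have h1 : (s j) (q 1) = q 1 := hsj.2.2 1 le_rfl (by omega) (by omega) (by omega)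
        rw [hH] at hh ⊢
        refine ⟨⟨hb.1, ?_⟩, hb.2⟩
        show s j (h ((s j)⁻¹ (q 1))) = q 1
        rw [show (s j)⁻¹ (q 1) = q 1 by rw [Equiv.Perm.inv_def, Equiv.symm_apply_eq, h1], show h (q 1) = q 1 from hh.1.2, h1]
      have hj2 := hsq2 j (by omega) hjt
      have hsn : ∀ x ∈ P j, s j * x * (s j)⁻¹ ∈ P j := by
        by_cases hj2' : j = 2
        · subst hj2'
          simp only [P, if_true]
          exact hnorm 2 le_rfl hjt
        simp only [P, if_neg hj2']
        intro x hx
        have hle : K (j - 1) ≤ (K (j - 1)).comap (MulAut.conj (s j)).toMonoidHom := by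
          rw [show K (j - 1) = Subgroup.closure ((G : Set (Equiv.Perm α)) ∪ {x | ∃ i : ℕ, 2 ≤ i ∧ i + 1 ≤ j - 1 ∧ x = s i}) from rfl,
            Subgroup.closure_le]
          have hsi : ∀ i, 1 ≤ i → i + 1 ≤ j - 1 → s j * s i * (s j)⁻¹ ∈ K (j - 1) := by
            intro i h1 h2'
            have hc := (hcomm i j h1 (by omega) hjt).2
            have hi2 := hsq2 i h1 (by omega)
            have e : s j * s i * (s j)⁻¹ = (s j * s i) ^ 2 * (s i)⁻¹ * ((s j) ^ 2)⁻¹ := by
              rw [pow_two, pow_two]; group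
            rw [e]
            exact mul_mem (mul_mem (hHK _ hc) (inv_mem (hsK i _ h1 h2'))) (inv_mem (hHK _ hj2))
          have hB : ∀ b ∈ B, s j * b * (s j)⁻¹ ∈ K (j - 1) := fun b hb => hGK _ (hnorm j hj hjt b hb).1
          rintro x (hx | ⟨i, h1, h2', rfl⟩)
          · show s j * x * (s j)⁻¹ ∈ K (j - 1)
            have hdec : x ∈ B ∨ ∃ u ∈ B, ∃ v ∈ B, x = u * s 1 * v := by
              by_cases hgq : x (q 2) = q 2
              · exact Or.inl ⟨hx, hgq⟩
              right
              have h12 : q 1 ≠ q 2 := fun e => by have := hq 1 2 le_rfl (by omega) (by omega) ht e; omega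
              have hav : ∀ i, 3 ≤ i → i ≤ t → q 2 ≠ q i ∧ q 1 ≠ q i ∧ q 2 ≠ q i ∧ x (q 2) ≠ q i := by
                intro i h1 h2'
                refine ⟨fun e => ?_, fun e => ?_, fun e => ?_, fun e => ?_⟩
                · have := hq 2 i (by omega) ht (by omega) h2' e; omega
                · have := hq 1 i le_rfl (by omega) (by omega) h2' e; omega
                · have := hq 2 i (by omega) ht (by omega) h2' e; omega
                · rw [← hfix x hx i h1 h2'] at e
                  have := hq 2 i (by omega) ht (by omega) h2' (x.injective e); omega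
              obtain ⟨b, hb, b1, b2⟩ := h2 (q 2) (q 1) (q 2) (x (q 2)) hav h12.symm (Ne.symm hgq)
              refine ⟨b, ⟨hb, b1⟩, (s 1)⁻¹ * b⁻¹ * x, ⟨G.mul_mem (G.mul_mem (G.inv_mem hs1) (G.inv_mem hb)) hx, ?_⟩, by group⟩
              show ((s 1)⁻¹ * b⁻¹ * x) (q 2) = q 2
              rw [Equiv.Perm.mul_apply, Equiv.Perm.mul_apply, ← b2, Equiv.Perm.inv_def, Equiv.Perm.inv_def,
                Equiv.symm_apply_apply, Equiv.symm_apply_eq, hs1q.2]
            rcases hdec with hb | ⟨u, hu, v, hv, rfl⟩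
            · exact hB x hb
            · rw [show s j * (u * s 1 * v) * (s j)⁻¹ = (s j * u * (s j)⁻¹) * (s j * s 1 * (s j)⁻¹) * (s j * v * (s j)⁻¹) by group]
              exact mul_mem (mul_mem (hB u hu) (hsi 1 le_rfl (by omega))) (hB v hv)
          · exact hsi i (by omega) h2'
        exact hle hx
      have hPK : P j ≤ K j := by
        by_cases hj2' : j = 2
        · subst hj2'
          simp only [P, if_true]
          exact fun x hx => hGK 2 hx.1
        · simp only [P, if_neg hj2']
          exact hKmono _ _ (by omega)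
      have hsn' : ∀ x ∈ P j, (s j)⁻¹ * x * s j ∈ P j := by
        intro x hx
        rw [show (s j)⁻¹ * x * s j = ((s j) ^ 2)⁻¹ * (s j * x * (s j)⁻¹) * (s j) ^ 2 by rw [pow_two]; group]
        exact mul_mem (mul_mem (inv_mem (hHP j hj2)) (hsn x hx)) (hHP j hj2)
      let C : Equiv.Perm α → Prop := fun g => g ∈ K j ∨ ∃ u ∈ K j, ∃ v ∈ K j, g = u * s j * v
      have hsj2K : s j * s j ∈ K j := by rw [← pow_two]; exact hHK j hj2
      have hsjs : ∀ w ∈ K j, C (s j * w * s j) := by
        intro w hw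
        rcases ih4 w hw with hw | ⟨u, hu, v, hv, rfl⟩
        · left
          rw [show s j * w * s j = (s j * w * (s j)⁻¹) * (s j * s j) by group]
          exact mul_mem (hPK (hsn w hw)) hsj2K
        · right
          have hb := hbraid (j - 1) (by omega) (by omega)
          rw [show j - 1 + 1 = j by omega] at hb
          set r := s (j - 1) with hr
          have hrK : r ∈ K j := hsK (j - 1) j (by omega) (by omega)
          have hr2 : r ^ 2 ∈ H := hsq2 (j - 1) (by omega) (by omega)
          -- s r s = r⁻¹ ((r s)^3) s⁻¹ r⁻¹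
          refine ⟨(s j * u * (s j)⁻¹) * r⁻¹ * (r * s j) ^ 3 * ((s j) ^ 2)⁻¹, ?_, r⁻¹ * ((s j)⁻¹ * v * s j), ?_, ?_⟩
          · exact mul_mem (mul_mem (mul_mem (hPK (hsn u hu)) (inv_mem hrK)) (hHK j hb)) (inv_mem (hHK j hj2))
          · exact mul_mem (inv_mem hrK) (hPK (hsn' v hv))
          · rw [pow_succ (r * s j) 2, pow_two, pow_two]; group
      have hCmul : ∀ x y, C x → C y → C (x * y) := by
        intro x y hx hy
        rcases hx with hx | ⟨u, hu, v, hv, rfl⟩
        · rcases hy with hy | ⟨u, hu, v, hv, rfl⟩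
          · exact Or.inl (mul_mem hx hy)
          · exact Or.inr ⟨x * u, mul_mem hx hu, v, hv, by group⟩
        · rcases hy with hy | ⟨u', hu', v', hv', rfl⟩
          · exact Or.inr ⟨u, hu, v * y, mul_mem hv hy, by group⟩
          · rw [show u * s j * v * (u' * s j * v') = u * (s j * (v * u') * s j) * v' by group]
            rcases hsjs _ (mul_mem hv hu') with h | ⟨a, ha, b, hb, h⟩
            · exact Or.inl (mul_mem (mul_mem hu h) hv')
            · exact Or.inr ⟨u * a, mul_mem hu ha, b * v', mul_mem hb hv', by rw [h]; group⟩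
      let S : Subgroup (Equiv.Perm α) :=
        { carrier := {g | C g}
          one_mem' := Or.inl (one_mem _)
          mul_mem' := fun {x y} => hCmul x y
          inv_mem' := by
            intro x hx
            rcases hx with hx | ⟨u, hu, v, hv, rfl⟩
            · exact Or.inl (inv_mem hx)
            · exact Or.inr ⟨v⁻¹ * ((s j) ^ 2)⁻¹, mul_mem (inv_mem hv) (inv_mem (hHK j hj2)), u⁻¹, inv_mem hu,
                by rw [pow_two]; group⟩ }
      have hdec : ∀ g ∈ K (j + 1), C g := by
        have hle : K (j + 1) ≤ S := by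
          rw [Subgroup.closure_le]
          rintro x (hx | ⟨i, h1, h2', rfl⟩)
          · exact Or.inl (hGK j hx)
          · rcases Nat.eq_or_lt_of_le h2' with h | h
            · obtain rfl : i = j := by omega
              exact Or.inr ⟨1, one_mem _, 1, one_mem _, by group⟩
            · exact Or.inl (hsK i j (by omega) (by omega))
        exact fun g hg => hle hg
      have hqne : q j ≠ q (j + 1) := fun e => by
        have := hq j (j + 1) (by omega) (by omega) (by omega) hjt e
        omega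
      have hstab : ∀ g ∈ K (j + 1), g (q (j + 1)) = q (j + 1) → g ∈ K j := by
        intro g hg hgq
        rcases hdec g hg with h | ⟨u, hu, v, hv, rfl⟩
        · exact h
        exfalso
        rw [Equiv.Perm.mul_apply, Equiv.Perm.mul_apply, ih1 v hv (j + 1) (by omega) hjt, hsj.2.1] at hgq
        exact hqne (u.injective (hgq.trans (ih1 u hu (j + 1) (by omega) hjt).symm))
      refine ⟨?_, ?_, ?_, ?_⟩
      · intro g hg i h1 h2'
        rcases hdec g hg with h | ⟨u, hu, v, hv, rfl⟩
        · exact ih1 g h i (by omega) h2'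
        · rw [Equiv.Perm.mul_apply, Equiv.Perm.mul_apply, ih1 v hv i (by omega) h2',
            hsj.2.2 i (by omega) h2' (by omega) (by omega), ih1 u hu i (by omega) h2']
      · have hfixK : ∀ g ∈ K (j + 1), ∀ i, j + 1 < i → i ≤ t → g (q i) = q i := by
          intro g hg i h1 h2'
          rcases hdec g hg with h | ⟨u, hu, v, hv, rfl⟩
          · exact ih1 g h i (by omega) h2'
          · rw [Equiv.Perm.mul_apply, Equiv.Perm.mul_apply, ih1 v hv i (by omega) h2',
              hsj.2.2 i (by omega) h2' (by omega) (by omega), ih1 u hu i (by omega) h2']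
        have hmove : ∀ z, (∀ i, j + 1 < i → i ≤ t → z ≠ q i) → ∃ g ∈ K (j + 1), g z = q (j + 1) := by
          intro z hz
          by_cases hzq : z = q (j + 1)
          · exact ⟨1, one_mem _, by rw [hzq]; rfl⟩
          have hzav : ∀ i, j < i → i ≤ t → z ≠ q i := fun i h1 h2' =>
            (Nat.eq_or_lt_of_le (show j + 1 ≤ i from h1)).elim (fun e => e ▸ hzq) (fun h => hz i h h2')
          let u : Fin j → α := fun k => q (k + 1)
          have hu : Function.Injective u := fun k l e => by
            have := hq (k + 1) (l + 1) (by omega) (by omega) (by omega) (by omega) e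
            exact Fin.ext (by omega)
          have huav : ∀ k i, j < i → i ≤ t → u k ≠ q i := fun k i h1 h2' e => by
            have := hq (k + 1) i (by omega) (by omega) (by omega) h2' e
            omega
          let last : Fin j := ⟨j - 1, by omega⟩
          have hlast : u last = q j := by show q (j - 1 + 1) = q j; rw [show j - 1 + 1 = j by omega]
          obtain ⟨w, hw, hwu⟩ : ∃ w : Fin j → α, Function.Injective w ∧ (∀ k i, j < i → i ≤ t → w k ≠ q i) ∧ w last = z := by
            by_cases hzr : ∃ k, u k = z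
            · obtain ⟨k, hk⟩ := hzr
              exact ⟨u ∘ Equiv.swap last k, hu.comp (Equiv.injective _), fun k' => huav _, by simp [hk]⟩
            · push Not at hzr
              refine ⟨Function.update u last z, ?_, ?_, Function.update_self _ _ _⟩
              · intro k l e
                by_cases hk : k = last <;> by_cases hl : l = last
                · rw [hk, hl]
                · subst hk
                  rw [Function.update_self, Function.update_of_ne hl] at e
                  exact absurd e.symm (hzr l)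
                · subst hl
                  rw [Function.update_self, Function.update_of_ne hk] at e
                  exact absurd e (hzr k)
                · rw [Function.update_of_ne hk, Function.update_of_ne hl] at e
                  exact hu e
              · intro k i h1 h2'
                by_cases hk : k = last
                · rw [hk, Function.update_self]; exact hzav i h1 h2'
                · rw [Function.update_of_ne hk]; exact huav k i h1 h2'
          obtain ⟨g, hg, hgw⟩ := ih2 w u hw hu hwu.1 huav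
          refine ⟨s j * g, mul_mem (hsK j _ (by omega) le_rfl) (hKmono j _ (by omega) hg), ?_⟩
          rw [Equiv.Perm.mul_apply, ← hwu.2, hgw, hlast, hsj.1]
        intro x y hx hy hxa hya
        obtain ⟨gx, hgx, ex⟩ := hmove (x (Fin.last j)) (hxa _)
        obtain ⟨gy, hgy, ey⟩ := hmove (y (Fin.last j)) (hya _)
        have hav : ∀ (g : Equiv.Perm α) (z : Fin (j + 1) → α), g ∈ K (j + 1) → Function.Injective z →
            g (z (Fin.last j)) = q (j + 1) → (∀ k i, j + 1 < i → i ≤ t → z k ≠ q i) →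
            ∀ (k : Fin j) i, j < i → i ≤ t → g (z k.castSucc) ≠ q i := by
          intro g z hg hz he hza k i h1 h2' e
          rcases Nat.eq_or_lt_of_le (show j + 1 ≤ i from h1) with h | h
          · subst h
            exact (Fin.castSucc_lt_last k).ne (hz (g.injective (e.trans he.symm)))
          · exact hza _ i h h2' (g.injective (e.trans (hfixK g hg i h h2').symm))
        obtain ⟨g, hg, hgk⟩ := ih2 (fun k => gx (x k.castSucc)) (fun k => gy (y k.castSucc))
          ((gx.injective.comp hx).comp (Fin.castSucc_injective j)) ((gy.injective.comp hy).comp (Fin.castSucc_injective j))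
          (hav gx x hgx hx ex hxa) (hav gy y hgy hy ey hya)
        refine ⟨gy⁻¹ * g * gx, mul_mem (mul_mem (inv_mem hgy) (hKmono j _ (by omega) hg)) hgx, fun k => ?_⟩
        rw [Equiv.Perm.mul_apply, Equiv.Perm.mul_apply, Equiv.Perm.inv_def, Equiv.symm_apply_eq]
        induction k using Fin.lastCases with
        | last => rw [ex, ey, ih1 g hg (j + 1) (by omega) hjt]
        | cast k => exact hgk k
      · intro g hg hgq
        exact ih3 g (hstab g hg (hgq _ (by omega) le_rfl)) fun i h1 h2' => hgq i h1 (by omega)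
      · intro g hg
        have hP : P (j + 1) = K j := by simp only [P]; rw [if_neg (by omega)]; rfl
        rw [hP]
        exact hdec g hg
  obtain ⟨m1, m2, m3, -⟩ := main t ht le_rfl
  constructor
  · rw [MulAction.isMultiplyPretransitive_iff]
    intro x y
    obtain ⟨g, hg, hgk⟩ := m2 x y x.injective y.injective (fun _ i h1 h2' => absurd h2' (by omega)) (fun _ i h1 h2' => absurd h2' (by omega))
    exact ⟨⟨g, hg⟩, Function.Embedding.ext hgk⟩
  · refine le_antisymm (fun g hg => ?_) (fun g hg => ⟨hHK t hg, ?_⟩)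
    · obtain ⟨hg1, hg2⟩ := hg
      exact m3 g hg1 fun i h1 h2' => (mem_fixingSubgroup_iff (Equiv.Perm α)).1 hg2 (q i) ⟨i, h1, h2', rfl⟩
    · rw [hH] at hg
      show g ∈ fixingSubgroup (Equiv.Perm α) {x | ∃ i : ℕ, 1 ≤ i ∧ i ≤ t ∧ x = q i}
      rw [mem_fixingSubgroup_iff]
      rintro _ ⟨i, h1, h2', rfl⟩
      rcases Nat.lt_or_ge i 3 with h | h
      · interval_cases i
        · exact hg.1.2
        · exact hg.2
      · exact hfix g hg.1.1 i h h2'

end Cfsg.Agent.S0709
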