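import Cfsg.Statements.S0712
import Mathlib

set_option autoImplicit false
open Cfsg

namespace Cfsg.Agent.S0712

/-- Jordan: a primitive group in which the pointwise stabiliser of a set `s` is doubly transitive on the complement of `s` (which has at least 2 points) is `(|s| + 2)`-transitive. -/
theorem result {α : Type*} [Fintype α] [DecidableEq α] (G : Subgroup (Equiv.Perm α)) (hG : MulAction.IsPreprimitive G α) (s : Set α) {m : ℕ} (hsm : s.ncard = m) (hm : m + 2 ≤ Fintype.card α) (h2 : MulAction.IsMultiplyPretransitive (fixingSubgroup G s) (SubMulAction.ofFixingSubgroup G s) 2) : MulAction.IsMultiplyPretransitive G α (m + 2) := by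
  classical
  rcases m with _ | m
  · have hs0 : s = ∅ := (Set.ncard_eq_zero (Set.toFinite _)).1 hsm
    subst hs0
    rw [MulAction.is_two_pretransitive_iff] at h2 ⊢
    intro a b c d hab hcd
    obtain ⟨g, h1, h3⟩ := h2 (a := ⟨a, fun e => e.elim⟩) (b := ⟨b, fun e => e.elim⟩) (c := ⟨c, fun e => e.elim⟩) (d := ⟨d, fun e => e.elim⟩) (fun e => hab (congrArg Subtype.val e)) (fun e => hcd (congrArg Subtype.val e))
    exact ⟨(g : G), congrArg Subtype.val h1, congrArg Subtype.val h3⟩
  have hprim : MulAction.IsPreprimitive (fixingSubgroup G s) (SubMulAction.ofFixingSubgroup G s) :=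
    MulAction.isPreprimitive_of_is_two_pretransitive h2
  have hmp := hG.isMultiplyPreprimitive hsm (by rw [Nat.card_eq_fintype_card]; omega) hprim
  have hmt : MulAction.IsMultiplyPretransitive G α (m + 2) := hmp.isMultiplyPretransitive
  have hmt1 : MulAction.IsMultiplyPretransitive G α (m + 1) :=
    MulAction.isMultiplyPretransitive_of_le (n := m + 2) (Nat.le_succ _)
      (by rw [Nat.card_eq_fintype_card]; omega)
  have hex : ∃ e : Fin (m + 1) ↪ α, Set.range e = s := by
    obtain ⟨f⟩ : Nonempty (Fin (m + 1) ≃ s) := ⟨(Finite.equivFinOfCardEq (by rw [Nat.card_coe_set_eq, hsm])).symm⟩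
    exact ⟨f.toEmbedding.trans (Function.Embedding.subtype _), by
      rw [Function.Embedding.coe_trans, Set.range_comp]
      simp⟩
  obtain ⟨e, he⟩ := hex
  rw [MulAction.isMultiplyPretransitive_iff]
  intro x y
  let ι : Fin (m + 1) ↪ Fin (m + 1 + 2) := Fin.castAddEmb 2
  obtain ⟨g, hg⟩ := MulAction.exists_smul_eq G (ι.trans x) e
  obtain ⟨h, hh⟩ := MulAction.exists_smul_eq G (ι.trans y) e
  have hgx : ∀ i, g • x (ι i) = e i := fun i => by rw [← hg]; rfl
  have hhy : ∀ i, h • y (ι i) = e i := fun i => by rw [← hh]; rfl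
  have hout : ∀ (z : Fin (m + 1 + 2) ↪ α) (k : G), (∀ i, k • z (ι i) = e i) → ∀ j : Fin 2, k • z (Fin.natAdd (m + 1) j) ∉ s := by
    intro z k hk j hj
    rw [← he] at hj
    obtain ⟨i, hi⟩ := hj
    rw [← hk i] at hi
    have h1 := congrArg Fin.val (z.injective (smul_left_cancel k hi))
    have h2 : ((ι i : Fin (m + 1 + 2)) : ℕ) = i := rfl
    rw [h2, Fin.val_natAdd] at h1
    have := i.2
    omega
  rw [MulAction.is_two_pretransitive_iff] at h2
  have hne : ∀ (z : Fin (m + 1 + 2) ↪ α) (k : G), k • z (Fin.natAdd (m + 1) 0) ≠ k • z (Fin.natAdd (m + 1) 1) := by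
    intro z k hk
    have := congrArg Fin.val (z.injective (smul_left_cancel k hk))
    simp at this
  obtain ⟨f, f1, f2⟩ := h2 (a := ⟨_, hout x g hgx 0⟩) (b := ⟨_, hout x g hgx 1⟩) (c := ⟨_, hout y h hhy 0⟩) (d := ⟨_, hout y h hhy 1⟩) (fun e => hne x g (congrArg Subtype.val e)) (fun e => hne y h (congrArg Subtype.val e))
  refine ⟨h⁻¹ * f * g, ?_⟩
  ext i
  rw [Function.Embedding.smul_apply, mul_smul, mul_smul, inv_smul_eq_iff]
  induction i using Fin.addCases with
  | left i =>
    show (f : G) • g • x (ι i) = h • y (ι i)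
    rw [hgx, hhy]
    exact (mem_fixingSubgroup_iff G).1 f.2 _ (he ▸ Set.mem_range_self i)
  | right j =>
    fin_cases j
    · exact congrArg Subtype.val f1
    · exact congrArg Subtype.val f2

end Cfsg.Agent.S0712
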