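import Cfsg.Statements.S0714
import Mathlib

set_option autoImplicit false
open Cfsg

namespace Cfsg.Agent.S0714

/-- Over any field, the permutation module of the alternating group of degree at least 5 has exactly four invariant subspaces: zero, the constant functions, the functions with coordinate sum zero, and everything. -/
theorem result {α : Type*} [Fintype α] [DecidableEq α] (hα : 5 ≤ Fintype.card α) {K : Type*} [Field K] (W : Subrepresentation (Cfsg.permRep K (alternatingGroup α) α)) : W.toSubmodule = ⊥ ∨ W = Cfsg.permConstants K (alternatingGroup α) α ∨ W = Cfsg.permSumZero K (alternatingGroup α) α ∨ W.toSubmodule = ⊤ := by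
  classical
  have hmem : ∀ (p : Equiv.Perm α), Equiv.Perm.sign p = 1 → ∀ w ∈ W.toSubmodule,
      (fun x => w (p x)) ∈ W.toSubmodule := by
    intro p hp w hw
    have h := W.apply_mem_toSubmodule (⟨p⁻¹, Equiv.Perm.mem_alternatingGroup.2 (by rw [map_inv, hp, inv_one])⟩ : alternatingGroup α) hw
    refine (?_ : (fun x => w (p x)) = _) ▸ h
    funext x
    show w (p x) = w ((p⁻¹)⁻¹ x)
    rw [inv_inv]
  have hother : ∀ a b c : α, ∃ d e : α, d ≠ e ∧ d ≠ a ∧ d ≠ b ∧ d ≠ c ∧ e ≠ a ∧ e ≠ b ∧ e ≠ c := by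
    intro a b c
    have h : 1 < (({a, b, c} : Finset α)ᶜ).card := by
      rw [Finset.card_compl]
      have : ({a, b, c} : Finset α).card ≤ 3 := Finset.card_le_three
      omega
    obtain ⟨d, hd, e, he, hde⟩ := Finset.one_lt_card.1 h
    simp only [Finset.mem_compl, Finset.mem_insert, Finset.mem_singleton, not_or] at hd he
    exact ⟨d, e, hde, hd.1, hd.2.1, hd.2.2, he.1, he.2.1, he.2.2⟩
  by_cases hconst : W.toSubmodule ≤ (Cfsg.permConstants K (alternatingGroup α) α).toSubmodule
  · by_cases h0 : W.toSubmodule = ⊥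
    · exact Or.inl h0
    refine Or.inr (Or.inl (Subrepresentation.toSubmodule_injective (le_antisymm hconst ?_)))
    obtain ⟨v, hv, hv0⟩ := Submodule.exists_mem_ne_zero_of_ne_bot h0
    obtain ⟨c, hc⟩ := Submodule.mem_span_singleton.1 (hconst hv)
    refine (Submodule.span_singleton_le_iff_mem _ _).2 ?_
    have hc0 : c ≠ 0 := fun h => hv0 (by rw [← hc, h, zero_smul])
    have := W.toSubmodule.smul_mem c⁻¹ hv
    rwa [← hc, inv_smul_smul₀ hc0] at this
  obtain ⟨v, hv, hvc⟩ := SetLike.not_le_iff_exists.1 hconst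
  obtain ⟨a, b, hab⟩ : ∃ a b, v a ≠ v b := by
    by_contra h
    push Not at h
    obtain ⟨o⟩ : Nonempty α := Fintype.card_pos_iff.1 (by omega)
    refine hvc (Submodule.mem_span_singleton.2 ⟨v o, funext fun x => ?_⟩)
    simp [h x o]
  have htri : ∀ a b c : α, a ≠ b → b ≠ c → a ≠ c → v b - v a ≠ v c - v b →
      ∃ p q : α, p ≠ q ∧ (Pi.single p 1 - Pi.single q 1 : α → K) ∈ W.toSubmodule := by
    intro a b c hab hbc hac hne
    obtain ⟨d, e, hde, hda, hdb, hdc, hea, heb, hec⟩ := hother a b c
    let p : Equiv.Perm α := Equiv.swap a b * Equiv.swap b c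
    have hp : Equiv.Perm.sign p = 1 := by
      simp [p, Equiv.Perm.sign_swap hab, Equiv.Perm.sign_swap hbc]
    let u : α → K := (fun x => v (p x)) - v
    have hu : u ∈ W.toSubmodule := sub_mem (hmem p hp v hv) hv
    have hpa : p a = b := by simp [p, Equiv.swap_apply_of_ne_of_ne hab hac]
    have hpb : p b = c := by simp [p, Equiv.swap_apply_of_ne_of_ne (Ne.symm hac) (Ne.symm hbc)]
    let q : Equiv.Perm α := Equiv.swap a b * Equiv.swap d e
    have hq : Equiv.Perm.sign q = 1 := by simp [q, Equiv.Perm.sign_swap hab, Equiv.Perm.sign_swap hde]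
    have hw : u - (fun x => u (q x)) ∈ W.toSubmodule := sub_mem hu (hmem q hq u hu)
    have hua : u a = v b - v a := by simp [u, hpa]
    have hub : u b = v c - v b := by simp [u, hpb]
    have hpfix : ∀ x, x ≠ a → x ≠ b → x ≠ c → u x = 0 := fun x h1 h2 h3 => by
      simp [u, p, Equiv.swap_apply_of_ne_of_ne h2 h3, Equiv.swap_apply_of_ne_of_ne h1 h2]
    have hqa : q a = b := by simp [q, Equiv.swap_apply_of_ne_of_ne (Ne.symm hda) (Ne.symm hea)]
    have hqb : q b = a := by simp [q, Equiv.swap_apply_of_ne_of_ne (Ne.symm hdb) (Ne.symm heb)]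
    refine ⟨a, b, hab, ?_⟩
    have hd0 : u a - u b ≠ 0 := by rw [hua, hub]; exact sub_ne_zero.2 hne
    have := W.toSubmodule.smul_mem (u a - u b)⁻¹ hw
    refine (?_ : _ = (Pi.single a 1 - Pi.single b 1 : α → K)) ▸ this
    funext x
    simp only [Pi.smul_apply, Pi.sub_apply, smul_eq_mul]
    by_cases hxa : x = a
    · subst hxa
      rw [hqa, Pi.single_eq_same, Pi.single_eq_of_ne hab, sub_zero, inv_mul_cancel₀ hd0]
    by_cases hxb : x = b
    · subst hxb
      rw [hqb, Pi.single_eq_same, Pi.single_eq_of_ne hxa, zero_sub]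
      field_simp
      ring
    rw [Pi.single_eq_of_ne hxa, Pi.single_eq_of_ne hxb, sub_zero]
    by_cases hxd : x = d
    · subst hxd
      have hqd : q x = e := by simp [q, Equiv.swap_apply_of_ne_of_ne hea heb]
      rw [hqd, hpfix x hda hdb hdc, hpfix e hea heb hec, sub_zero, mul_zero]
    by_cases hxe : x = e
    · subst hxe
      have hqe : q x = d := by simp [q, Equiv.swap_apply_of_ne_of_ne hda hdb]
      rw [hqe, hpfix x hea heb hec, hpfix d hda hdb hdc, sub_zero, mul_zero]
    have hqx : q x = x := by simp [q, Equiv.swap_apply_of_ne_of_ne hxd hxe, Equiv.swap_apply_of_ne_of_ne hxa hxb]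
    rw [hqx, sub_self, mul_zero]
  obtain ⟨p, q, hpq, hW⟩ : ∃ p q : α, p ≠ q ∧ (Pi.single p 1 - Pi.single q 1 : α → K) ∈ W.toSubmodule := by
    have hab' : a ≠ b := fun h => hab (by rw [h])
    obtain ⟨c, d, hcd, hca, hcb, -, hda, hdb, -⟩ := hother a b b
    by_cases hc : v b - v a = v c - v b
    · by_cases hd : v b - v a = v d - v b
      · have hcd' : v c = v d := by
          have := hc.symm.trans hd
          simpa using this
        by_cases hac : v a = v c
        · -- then the differences are opposite and equal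
          refine htri a c b (Ne.symm hca) hcb hab' ?_
          rw [← hac, sub_self]
          exact (sub_ne_zero.2 (Ne.symm hab)).symm
        · refine htri a c d (Ne.symm hca) hcd (Ne.symm hda) ?_
          rw [← hcd', sub_self, sub_ne_zero]
          exact Ne.symm hac
      · exact htri a b d hab' (Ne.symm hdb) (Ne.symm hda) hd
    · exact htri a b c hab' (Ne.symm hcb) (Ne.symm hca) hc
  have hall : ∀ x y : α, (Pi.single x 1 - Pi.single y 1 : α → K) ∈ W.toSubmodule := by
    intro x y
    rcases eq_or_ne x y with rfl | hxy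
    · simp
    obtain ⟨s, hsx, hsy⟩ : ∃ s : Equiv.Perm α, s p = x ∧ s q = y := by
      have h2 : MulAction.IsMultiplyPretransitive (Equiv.Perm α) α 2 := Equiv.Perm.isMultiplyPretransitive α 2
      exact (MulAction.is_two_pretransitive_iff).1 h2 hpq hxy
    obtain ⟨d, e, hde, hdp, hdq, -, hep, heq, -⟩ := hother p q q
    obtain ⟨r, hr, hrx, hry⟩ : ∃ r : Equiv.Perm α, Equiv.Perm.sign r = 1 ∧ r p = x ∧ r q = y := by
      rcases Int.units_eq_one_or (Equiv.Perm.sign s) with h | h
      · exact ⟨s, h, hsx, hsy⟩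
      · exact ⟨s * Equiv.swap d e, by simp [h, Equiv.Perm.sign_swap hde],
          by simp [Equiv.swap_apply_of_ne_of_ne (Ne.symm hdp) (Ne.symm hep), hsx],
          by simp [Equiv.swap_apply_of_ne_of_ne (Ne.symm hdq) (Ne.symm heq), hsy]⟩
    have := hmem r⁻¹ (by simp [hr]) _ hW
    refine (?_ : _ = (Pi.single x 1 - Pi.single y 1 : α → K)) ▸ this
    funext z
    simp only [Pi.sub_apply, Pi.single_apply, Equiv.Perm.inv_eq_iff_eq, hrx, hry]
  have hge : (Cfsg.permSumZero K (alternatingGroup α) α).toSubmodule ≤ W.toSubmodule := by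
    intro f hf
    have hf' : ∑ x, f x = 0 := hf
    obtain ⟨o⟩ : Nonempty α := Fintype.card_pos_iff.1 (by omega)
    have e : f = ∑ x, f x • (Pi.single x 1 - Pi.single o 1 : α → K) := by
      funext z
      simp [Finset.sum_apply, mul_sub, Finset.sum_sub_distrib, ← Finset.sum_mul, hf', Pi.single_apply]
    rw [e]
    exact Submodule.sum_mem _ fun x _ => W.toSubmodule.smul_mem _ (hall x o)
  by_cases hle : W.toSubmodule ≤ (Cfsg.permSumZero K (alternatingGroup α) α).toSubmodule
  · exact Or.inr (Or.inr (Or.inl (Subrepresentation.toSubmodule_injective (le_antisymm hle hge))))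
  refine Or.inr (Or.inr (Or.inr (eq_top_iff.2 fun f _ => ?_)))
  obtain ⟨w, hw, hwn⟩ := SetLike.not_le_iff_exists.1 hle
  have hwn' : ∑ x, w x ≠ 0 := hwn
  have hsub : f - ((∑ x, f x) / ∑ x, w x) • w ∈ W.toSubmodule := hge (by
    show ∑ x, (f - ((∑ x, f x) / ∑ x, w x) • w) x = 0
    simp [Finset.sum_sub_distrib, ← Finset.mul_sum, div_mul_cancel₀ _ hwn'])
  simpa using add_mem hsub (W.toSubmodule.smul_mem ((∑ x, f x) / ∑ x, w x) hw)

end Cfsg.Agent.S0714
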