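import Cfsg.Statements.S0715
import Cfsg.Agent.H37.OrbitalMatrix

set_option autoImplicit false
open Cfsg
open Matrix

namespace Cfsg.Agent.S0715

/-- If a natural number `f` divides the degree of every non-principal irreducible constituent of the permutation character of a transitive group, then `f` divides every non-trivial subdegree. -/
theorem result {G : Type*} [Group G] [Fintype G] {Ω : Type*} [Fintype Ω] [MulAction G Ω] [MulAction.IsPretransitive G Ω] (f : ℕ) (hf : ∀ χ : G → ℂ, Cfsg.IsIrrCharacter G χ → χ ≠ (fun _ => 1) → Cfsg.classInner (fun g : G => (Nat.card (MulAction.fixedBy Ω g) : ℂ)) χ ≠ 0 → ∃ m : ℕ, χ 1 = (f : ℂ) * m) (a b : Ω) (hab : b ≠ a) : f ∣ Nat.card (MulAction.orbit (MulAction.stabilizer G a) b) := by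
  classical
  haveI : Nonempty Ω := ⟨a⟩
  obtain ⟨m, hm, -, -⟩ := H37.Orb.exists_mult G Ω
  obtain ⟨A₀, -, hinv₀, hdiag₀, -, hrow₀, hcol₀⟩ := H37.Orb.exists_orbital (G := G) hab
  set k := Nat.card (MulAction.orbit (MulAction.stabilizer G a) b)
  let A : Matrix Ω Ω ℂ := Matrix.of fun x y => (A₀ x y : ℂ)
  have hAinv : H37.Orb.Inv G A := fun g x y => by simp [A, hinv₀]
  have hrow : ∀ x, ∑ y, A x y = (k : ℂ) := fun x => by simp [A, ← Nat.cast_sum, hrow₀]
  have hcol : ∀ y, ∑ x, A x y = (k : ℂ) := fun y => by simp [A, ← Nat.cast_sum, hcol₀]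
  set N := A * H37.Orb.centering Ω with hN
  have hNcol : ∀ y, ∑ x, N x y = 0 := by
    intro y
    simp only [hN, Matrix.mul_apply]
    rw [Finset.sum_comm]
    simp [← Finset.sum_mul, hcol, ← Finset.mul_sum, H37.Orb.sum_centering]
  have htr : Matrix.trace N = -(k : ℂ) := by
    rw [hN, H37.Orb.trace_mul_centering hrow]
    simp [Matrix.trace, A, hdiag₀]
  set T : Module.End ℂ (Ω → ℂ) := Matrix.toLin' N with hT
  have hTsum : ∀ v, ∑ x, T v x = 0 := fun v => by
    rw [hT, Matrix.toLin'_apply]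
    exact H37.Orb.sum_mulVec_eq_zero hNcol v
  have hTc : ∀ g : G, Commute T (Cfsg.permRep ℂ G Ω g) := fun g =>
    H37.Orb.commute_of_inv (hAinv.mul H37.Orb.inv_centering) g
  have hdim : ∀ l : ℂ, l ≠ 0 → ∃ j : ℕ, Module.finrank ℂ (T.maxGenEigenspace l) = f * j := by
    intro l hl
    have hsz : ∀ v ∈ T.maxGenEigenspace l, ∑ x, v x = 0 := by
      intro v hv
      rw [Module.End.mem_maxGenEigenspace] at hv
      obtain ⟨j, hj⟩ := hv
      have key : ∀ (j : ℕ) (w : Ω → ℂ), ∑ x, ((T - l • 1) ^ j) w x = (-l) ^ j * ∑ x, w x := by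
        intro j
        induction j with
        | zero => intro w; simp
        | succ j ih =>
          intro w
          rw [pow_succ, Module.End.mul_apply, ih]
          simp [Finset.sum_sub_distrib, hTsum, ← Finset.mul_sum, pow_succ]
          ring
      have h := key j v
      rw [hj] at h
      simp only [Pi.zero_apply, Finset.sum_const_zero] at h
      exact (mul_eq_zero.1 h.symm).resolve_left (pow_ne_zero _ (neg_ne_zero.2 hl))
    obtain ⟨c, hc, hc1, hcd⟩ := H37.Orb.exists_coeff_sub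
      (fun g v hv => Module.End.mapsTo_maxGenEigenspace_of_comm (hTc g) l hv) hsz m hm
    have hdvd : ∀ ψ : Cfsg.IrrCharacter G, ∃ j : ℕ, (c ψ : ℂ) * ψ.1 1 = (f : ℂ) * j := by
      intro ψ
      rcases Nat.eq_zero_or_pos (c ψ) with h0 | h0
      · exact ⟨0, by simp [h0]⟩
      have hne1 : ψ.1 ≠ fun _ => 1 := by
        intro e
        have he : ψ = Cfsg.Agent.H26.oneIrr G := Subtype.ext e
        rw [he, hc1] at h0
        exact lt_irrefl _ h0
      have hmne : Cfsg.classInner (Cfsg.Agent.H26.permChar Ω) ψ.1 ≠ 0 := by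
        rw [hm, Nat.cast_ne_zero]
        have := hc ψ
        omega
      obtain ⟨j, hj⟩ := hf ψ.1 ψ.2 hne1 hmne
      exact ⟨c ψ * j, by rw [hj, Nat.cast_mul]; ring⟩
    choose J hJ using hdvd
    refine ⟨∑ ψ, J ψ, ?_⟩
    rw [Finset.sum_congr rfl (fun ψ _ => hJ ψ), ← Finset.mul_sum, ← Nat.cast_sum, ← Nat.cast_mul, Nat.cast_inj] at hcd
    exact hcd
  have hint : ∀ l ∈ N.charpoly.roots, l ≠ 0 → IsIntegral ℤ l := by
    intro l hl hl0
    have hev : T.HasEigenvalue l := by
      rw [Module.End.hasEigenvalue_iff_isRoot_charpoly, hT, Matrix.charpoly_toLin']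
      exact (Polynomial.mem_roots'.1 hl).2
    obtain ⟨v, hv, hv0⟩ := hev.exists_hasEigenvector
    have hTv : T v = l • v := Module.End.mem_eigenspace_iff.1 hv
    have hsv : ∑ x, v x = 0 := by
      have h := hTsum v
      rw [hTv] at h
      simp only [Pi.smul_apply, smul_eq_mul, ← Finset.mul_sum] at h
      exact (mul_eq_zero.1 h).resolve_left hl0
    have hP : H37.Orb.centering Ω *ᵥ v = v := by
      funext x
      simp [H37.Orb.centering, Matrix.sub_mulVec, Matrix.smul_mulVec, Matrix.mulVec, dotProduct, H37.Orb.jMat,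
        Matrix.one_apply, sub_mul, Finset.sum_sub_distrib, mul_assoc, ← Finset.mul_sum, hsv]
    have hAv : Matrix.toLin' A v = l • v := by
      rw [← hTv, hT, Matrix.toLin'_apply, Matrix.toLin'_apply, hN, ← Matrix.mulVec_mulVec, hP]
    have hroot : A.charpoly.IsRoot l := by
      rw [← Matrix.charpoly_toLin', ← Module.End.hasEigenvalue_iff_isRoot_charpoly]
      exact Module.End.hasEigenvalue_of_hasEigenvector ⟨Module.End.mem_eigenspace_iff.2 hAv, hv0⟩
    have hAmap : A = (Matrix.of fun x y => (A₀ x y : ℤ)).map (Int.castRingHom ℂ) := by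
      ext x y
      simp [A]
    rw [hAmap, Matrix.charpoly_map] at hroot
    refine ⟨_, Matrix.charpoly_monic (Matrix.of fun x y => (A₀ x y : ℤ)), ?_⟩
    rw [← Polynomial.eval_map]
    exact hroot
  have hsum : ∃ α : ℂ, IsIntegral ℤ α ∧ -(k : ℂ) = (f : ℂ) * α := by
    rw [← htr, Matrix.trace_eq_sum_roots_charpoly, Finset.sum_multiset_count]
    have hex : ∀ l ∈ N.charpoly.roots.toFinset, ∃ α : ℂ, IsIntegral ℤ α ∧ N.charpoly.roots.count l • l = (f : ℂ) * α := by
      intro l hl
      rw [Multiset.mem_toFinset] at hl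
      rcases eq_or_ne l 0 with rfl | hl0
      · exact ⟨0, isIntegral_zero, by simp⟩
      obtain ⟨j, hj⟩ := hdim l hl0
      rw [LinearMap.finrank_maxGenEigenspace_eq, hT, Matrix.charpoly_toLin', ← Polynomial.count_roots] at hj
      exact ⟨j • l, (hint l hl hl0).nsmul j, by rw [hj, nsmul_eq_mul, nsmul_eq_mul, Nat.cast_mul, mul_assoc]⟩
    choose α hα hαe using hex
    refine ⟨∑ l ∈ N.charpoly.roots.toFinset.attach, α l.1 l.2, IsIntegral.sum _ fun l _ => hα l.1 l.2, ?_⟩
    rw [← Finset.sum_attach N.charpoly.roots.toFinset, Finset.mul_sum]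
    exact Finset.sum_congr rfl fun l _ => hαe l.1 l.2
  obtain ⟨α, hα, he⟩ := hsum
  rcases eq_or_ne f 0 with rfl | hf0
  · simp only [Nat.cast_zero, zero_mul, neg_eq_zero, Nat.cast_eq_zero] at he
    rw [he]
  have hq : ((-((k : ℚ) / f) : ℚ) : ℂ) = α := by
    push_cast
    rw [← neg_div, he, mul_div_cancel_left₀ _ (Nat.cast_ne_zero.2 hf0)]
  have hqi : IsIntegral ℤ (-((k : ℚ) / f)) := by
    rw [← isIntegral_algebraMap_iff (B := ℂ) (algebraMap ℚ ℂ).injective]
    rw [eq_ratCast (algebraMap ℚ ℂ), hq]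
    exact hα
  obtain ⟨z, hz⟩ := IsIntegrallyClosed.isIntegral_iff.1 hqi
  rw [eq_intCast] at hz
  have hk : (k : ℤ) = (f : ℤ) * -z := by
    have hf0' : (f : ℚ) ≠ 0 := Nat.cast_ne_zero.2 hf0
    field_simp at hz
    have : ((k : ℤ) : ℚ) = (((f : ℤ) * -z : ℤ) : ℚ) := by push_cast; linarith
    exact_mod_cast this
  exact Int.natCast_dvd_natCast.1 ⟨-z, hk⟩

end Cfsg.Agent.S0715
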