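import Cfsg.Statements.S0716
import Cfsg.Agent.H37.OrbitalMatrix
import Cfsg.Agent.S0715

set_option autoImplicit false
open Cfsg

namespace Cfsg.Agent.S0716

open Cfsg.Agent.H26 (permChar oneIrr)

theorem card_orbits {G : Type*} [Group G] {Ω : Type*} [MulAction G Ω] [MulAction.IsPretransitive G Ω] (a : Ω) :
    Nat.card (MulAction.orbitRel.Quotient (MulAction.stabilizer G a) Ω) =
      Nat.card (MulAction.orbitRel.Quotient G (Ω × Ω)) := by
  refine Nat.card_congr (Equiv.ofBijective (Quotient.map' (fun x => (a, x)) ?_) ⟨?_, ?_⟩)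
  · rintro x y ⟨g, rfl⟩
    exact ⟨(g : G), Prod.ext g.2 rfl⟩
  · intro p q
    induction p using Quotient.inductionOn' with | h x => ?_
    induction q using Quotient.inductionOn' with | h y => ?_
    intro h
    obtain ⟨g, hg⟩ := Quotient.eq''.1 h
    exact Quotient.eq''.2 ⟨⟨g, congrArg Prod.fst hg⟩, congrArg Prod.snd hg⟩
  · intro q
    induction q using Quotient.inductionOn' with | h p => ?_
    obtain ⟨g, hg⟩ := MulAction.exists_smul_eq G p.1 a
    exact ⟨Quotient.mk'' (g • p.2), Quotient.eq''.2 ⟨g, Prod.ext hg rfl⟩⟩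

theorem equal_degree {G : Type*} [Group G] [Fintype G] {Ω : Type*} [Fintype Ω] [MulAction G Ω]
    [MulAction.IsPretransitive G Ω] (a : Ω) (f : ℕ)
    (hf : ∀ χ : G → ℂ, Cfsg.IsIrrCharacter G χ → χ ≠ (fun _ => 1) →
      Cfsg.classInner (permChar Ω) χ ≠ 0 → χ 1 = f) :
    (∀ χ : G → ℂ, Cfsg.IsIrrCharacter G χ →
      Cfsg.classInner (permChar Ω) χ = 0 ∨ Cfsg.classInner (permChar Ω) χ = 1) ∧
      ∀ b : Ω, b ≠ a → Nat.card (MulAction.orbit (MulAction.stabilizer G a) b) = f := by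
  classical
  obtain ⟨m, hm, hsq, hdeg⟩ := H37.Orb.exists_mult G Ω
  haveI : Nonempty Ω := ⟨a⟩
  have h1 : m (oneIrr G) = 1 := by
    have h := hm (oneIrr G)
    have e : ((oneIrr G : Cfsg.IrrCharacter G) : G → ℂ) = fun _ => 1 := funext Cfsg.Agent.H26.oneIrr_val
    rw [e, Cfsg.Agent.H26.classInner_permChar_one, Nat.cast_inj] at h
    rw [← h]
    haveI : Subsingleton (Quotient (MulAction.orbitRel G Ω)) := ⟨fun p q => by
      induction p using Quotient.inductionOn' with | h x => ?_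
      induction q using Quotient.inductionOn' with | h y => ?_
      exact Quotient.eq''.2 (MulAction.exists_smul_eq G y x)⟩
    exact Nat.card_eq_one_iff_unique.2 ⟨inferInstance, ⟨Quotient.mk'' a⟩⟩
  let S : Finset (Cfsg.IrrCharacter G) := Finset.univ.erase (oneIrr G)
  have hdegS : ∀ ψ ∈ S, (m ψ : ℂ) * ψ.1 1 = ((f * m ψ : ℕ) : ℂ) := by
    intro ψ hψ
    rcases Nat.eq_zero_or_pos (m ψ) with h | h
    · simp [h]
    rw [hf ψ.1 ψ.2 (fun e => (Finset.mem_erase.1 hψ).1 (Subtype.ext e)) (by rw [hm, Nat.cast_ne_zero]; omega)]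
    push_cast
    ring
  have hn : Fintype.card Ω = 1 + f * ∑ ψ ∈ S, m ψ := by
    rw [← Finset.add_sum_erase _ _ (Finset.mem_univ (oneIrr G)), Finset.sum_congr rfl hdegS, h1,
      Cfsg.Agent.H26.oneIrr_val, ← Nat.cast_sum, ← Finset.mul_sum] at hdeg
    push_cast at hdeg
    rw [one_mul] at hdeg
    have : ((1 + f * ∑ ψ ∈ S, m ψ : ℕ) : ℂ) = (Fintype.card Ω : ℂ) := by push_cast; exact hdeg
    exact (Nat.cast_inj.1 this).symm
  let q : Ω → MulAction.orbitRel.Quotient (MulAction.stabilizer G a) Ω := Quotient.mk''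
  haveI : Finite (MulAction.orbitRel.Quotient (MulAction.stabilizer G a) Ω) := Quotient.finite _
  haveI : Fintype (MulAction.orbitRel.Quotient (MulAction.stabilizer G a) Ω) := Fintype.ofFinite _
  let sz : MulAction.orbitRel.Quotient (MulAction.stabilizer G a) Ω → ℕ :=
    fun o => (Finset.univ.filter fun x => q x = o).card
  have hsz : ∀ x, sz (q x) = Nat.card (MulAction.orbit (MulAction.stabilizer G a) x) := by
    intro x
    rw [Nat.card_eq_card_toFinset]
    refine congrArg Finset.card (Finset.ext fun y => ?_)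
    simp only [Finset.mem_filter, Finset.mem_univ, true_and, Set.mem_toFinset]
    exact Quotient.eq''
  have hsza : sz (q a) = 1 := by
    rw [hsz, Nat.card_eq_one_iff_unique]
    refine ⟨⟨?_⟩, ⟨⟨a, MulAction.mem_orbit_self a⟩⟩⟩
    rintro ⟨_, g, rfl⟩ ⟨_, g', rfl⟩
    exact Subtype.ext (g.2.trans g'.2.symm)
  let O : Finset (MulAction.orbitRel.Quotient (MulAction.stabilizer G a) Ω) := Finset.univ.erase (q a)
  have htot : Fintype.card Ω = 1 + ∑ o ∈ O, sz o := by
    rw [← hsza, Finset.add_sum_erase _ _ (Finset.mem_univ _), ← Finset.card_univ]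
    exact Finset.card_eq_sum_card_fiberwise (fun x _ => Finset.mem_univ _)
  have hge : ∀ o ∈ O, f ≤ sz o := by
    intro o ho
    induction o using Quotient.inductionOn' with | h x => ?_
    have hxa : x ≠ a := fun e => (Finset.mem_erase.1 ho).1 (by rw [e])
    show f ≤ sz (q x)
    rw [hsz]
    haveI : Nonempty (MulAction.orbit (MulAction.stabilizer G a) x) := ⟨⟨x, MulAction.mem_orbit_self x⟩⟩
    refine Nat.le_of_dvd Nat.card_pos (Cfsg.Agent.S0715.result f ?_ a x hxa)
    intro χ hχ hne hcon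
    exact ⟨1, by rw [hf χ hχ hne hcon]; simp⟩
  have hOcard : O.card = ∑ ψ ∈ S, m ψ * m ψ := by
    have h := hsq
    rw [← card_orbits a, ← Finset.add_sum_erase _ _ (Finset.mem_univ (oneIrr G)), h1, Nat.card_eq_fintype_card] at h
    rw [Finset.card_erase_of_mem (Finset.mem_univ _), Finset.card_univ]
    show _ = ∑ ψ ∈ Finset.univ.erase (oneIrr G), m ψ * m ψ
    omega
  have hle : O.card * f ≤ ∑ o ∈ O, sz o := by
    rw [← smul_eq_mul]
    exact Finset.card_nsmul_le_sum O sz f hge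
  have hmle : ∑ ψ ∈ S, m ψ ≤ ∑ ψ ∈ S, m ψ * m ψ := Finset.sum_le_sum fun ψ _ => Nat.le_mul_self _
  have heq : ∑ o ∈ O, sz o = O.card * f := by
    refine le_antisymm ?_ hle
    rw [hOcard, mul_comm]
    have := Nat.mul_le_mul_left f hmle
    omega
  refine ⟨fun χ hχ => ?_, fun b hb => ?_⟩
  · rw [hm ⟨χ, hχ⟩, Nat.cast_eq_zero, Nat.cast_eq_one]
    rcases eq_or_ne (⟨χ, hχ⟩ : Cfsg.IrrCharacter G) (oneIrr G) with h | h
    · rw [h]; exact Or.inr h1
    by_contra hc
    have hψS : (⟨χ, hχ⟩ : Cfsg.IrrCharacter G) ∈ S := Finset.mem_erase.2 ⟨h, Finset.mem_univ _⟩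
    have hfpos : 0 < f := by
      rcases Nat.eq_zero_or_pos f with h0 | h0
      · exfalso
        refine Cfsg.Agent.H26.irr_one_ne_zero (⟨χ, hχ⟩ : Cfsg.IrrCharacter G) ?_
        show χ 1 = 0
        rw [hf χ hχ (fun e => h (Subtype.ext e)) (by rw [hm ⟨χ, hχ⟩, Nat.cast_ne_zero]; omega), h0, Nat.cast_zero]
      · exact h0
    have hlt : ∑ ψ ∈ S, m ψ < ∑ ψ ∈ S, m ψ * m ψ :=
      Finset.sum_lt_sum (fun ψ _ => Nat.le_mul_self _) ⟨_, hψS, lt_mul_of_one_lt_left (by omega) (by omega)⟩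
    have := Nat.mul_lt_mul_of_pos_left hlt hfpos
    rw [hOcard, mul_comm] at hle
    omega
  · have hbO : q b ∈ O := Finset.mem_erase.2 ⟨fun e => hb (by
      obtain ⟨g, hg⟩ := Quotient.eq''.1 e
      exact (hg : (g : G) • a = b).symm.trans g.2), Finset.mem_univ _⟩
    rw [← hsz]
    by_contra hne
    have hlt : ∑ o ∈ O, f < ∑ o ∈ O, sz o :=
      Finset.sum_lt_sum hge ⟨_, hbO, lt_of_le_of_ne (hge _ hbO) (Ne.symm hne)⟩
    rw [Finset.sum_const, smul_eq_mul, heq] at hlt
    omega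

/-- (a) If all non-principal irreducible constituents of the permutation character of a transitive group have the same degree `f`, the character is multiplicity-free and all non-trivial subdegrees equal `f`. (b) A transitive group of rank at most 5 has multiplicity-free permutation character. -/
theorem result {G : Type*} [Group G] [Fintype G] {Ω : Type*} [Fintype Ω] [MulAction G Ω] [MulAction.IsPretransitive G Ω] (a : Ω) : ((f : ℕ) → (∀ χ : G → ℂ, Cfsg.IsIrrCharacter G χ → χ ≠ (fun _ => 1) → Cfsg.classInner (fun g : G => (Nat.card (MulAction.fixedBy Ω g) : ℂ)) χ ≠ 0 → χ 1 = f) → (∀ χ : G → ℂ, Cfsg.IsIrrCharacter G χ → Cfsg.classInner (fun g : G => (Nat.card (MulAction.fixedBy Ω g) : ℂ)) χ = 0 ∨ Cfsg.classInner (fun g : G => (Nat.card (MulAction.fixedBy Ω g) : ℂ)) χ = 1) ∧ ∀ b : Ω, b ≠ a → Nat.card (MulAction.orbit (MulAction.stabilizer G a) b) = f) ∧ (Nat.card (MulAction.orbitRel.Quotient (MulAction.stabilizer G a) Ω) ≤ 5 → ∀ χ : G → ℂ, Cfsg.IsIrrCharacter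 G χ → Cfsg.classInner (fun g : G => (Nat.card (MulAction.fixedBy Ω g) : ℂ)) χ = 0 ∨ Cfsg.classInner (fun g : G => (Nat.card (MulAction.fixedBy Ω g) : ℂ)) χ = 1) := by
  classical
  refine ⟨fun f => equal_degree a f, fun hr => ?_⟩
  intro χ hχ
  obtain ⟨m, hm, hsq, -⟩ := H37.Orb.exists_mult G Ω
  change Cfsg.classInner (permChar Ω) χ = 0 ∨ Cfsg.classInner (permChar Ω) χ = 1
  rw [hm ⟨χ, hχ⟩, Nat.cast_eq_zero, Nat.cast_eq_one]
  by_contra hc
  push Not at hc
  set ψ : Cfsg.IrrCharacter G := ⟨χ, hχ⟩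
  have h1 : 1 ≤ m (oneIrr G) := by
    have h := hm (oneIrr G)
    have e : ((oneIrr G : Cfsg.IrrCharacter G) : G → ℂ) = fun _ => 1 := funext Cfsg.Agent.H26.oneIrr_val
    rw [e, Cfsg.Agent.H26.classInner_permChar_one, Nat.cast_inj] at h
    rw [← h]
    haveI : Nonempty (Quotient (MulAction.orbitRel G Ω)) := ⟨Quotient.mk'' a⟩
    exact Nat.card_pos
  have h2 : 4 ≤ m ψ * m ψ := le_trans (show 4 ≤ 2 * 2 by norm_num) (Nat.mul_le_mul (by omega) (by omega))
  rw [card_orbits a, ← hsq] at hr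
  have honly : ∀ φ, φ ≠ oneIrr G → m φ ≠ 0 → φ = ψ := by
    intro φ hφ1 hφ
    by_contra hne
    have hmφ : 0 < m φ * m φ := Nat.mul_pos (by omega) (by omega)
    rcases eq_or_ne ψ (oneIrr G) with hψ | hψ
    · rw [hψ] at h2
      have : ∑ x ∈ ({oneIrr G, φ} : Finset (Cfsg.IrrCharacter G)), m x * m x ≤ 5 :=
        le_trans (Finset.sum_le_sum_of_subset (Finset.subset_univ _)) hr
      rw [Finset.sum_pair (Ne.symm hφ1)] at this
      have hm1 : m (oneIrr G) = 1 := by
        refine le_antisymm ?_ h1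
        have h := hm (oneIrr G)
        have e : ((oneIrr G : Cfsg.IrrCharacter G) : G → ℂ) = fun _ => 1 := funext Cfsg.Agent.H26.oneIrr_val
        rw [e, Cfsg.Agent.H26.classInner_permChar_one, Nat.cast_inj] at h
        rw [← h, Nat.card_eq_fintype_card, Fintype.card_le_one_iff_subsingleton]
        exact ⟨fun p q => by
          induction p using Quotient.inductionOn' with | h x => ?_
          induction q using Quotient.inductionOn' with | h y => ?_
          exact Quotient.eq''.2 (MulAction.exists_smul_eq G y x)⟩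
      rw [hm1] at h2
      omega
    · have : ∑ x ∈ ({oneIrr G, φ, ψ} : Finset (Cfsg.IrrCharacter G)), m x * m x ≤ 5 :=
        le_trans (Finset.sum_le_sum_of_subset (Finset.subset_univ _)) hr
      rw [Finset.sum_insert (by simp [Ne.symm hφ1, Ne.symm hψ]), Finset.sum_pair hne] at this
      have := Nat.mul_le_mul h1 h1
      omega
  obtain ⟨f', hf'⟩ := Cfsg.Agent.H26.exists_nat_char_one (Cfsg.Agent.H26.irr_isCharacter ψ)
  have h3 := (equal_degree a f' (fun φ hφ hne hcon => by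
    have := honly ⟨φ, hφ⟩ (fun e => hne (by rw [show φ = (oneIrr G).1 from congrArg Subtype.val e]; exact funext Cfsg.Agent.H26.oneIrr_val)) (by
      rw [hm ⟨φ, hφ⟩, Nat.cast_ne_zero] at hcon; exact hcon)
    rw [show φ = ψ.1 from congrArg Subtype.val this, hf'])).1 χ hχ
  rw [hm ψ, Nat.cast_eq_zero, Nat.cast_eq_one] at h3
  omega

end Cfsg.Agent.S0716
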