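import Cfsg.Statements.S0718
import Cfsg.Agent.H37.Orbitals

set_option autoImplicit false
open Cfsg

namespace Cfsg.Agent.S0718

/-- Multiplicity-freeness of the permutation character is equivalent to commutativity of the centraliser ring, i.e. of the algebra of `G`-equivariant endomorphisms of the complex permutation module. -/
theorem result {G : Type*} [Group G] [Fintype G] {Ω : Type*} [Fintype Ω] [MulAction G Ω] : (∀ χ : G → ℂ, Cfsg.IsIrrCharacter G χ → Cfsg.classInner (fun g : G => (Nat.card (MulAction.fixedBy Ω g) : ℂ)) χ = 0 ∨ Cfsg.classInner (fun g : G => (Nat.card (MulAction.fixedBy Ω g) : ℂ)) χ = 1) ↔ ∀ S T : (Ω → ℂ) →ₗ[ℂ] (Ω → ℂ), S ∈ ((Cfsg.permRep ℂ G Ω).linHom (Cfsg.permRep ℂ G Ω)).invariants → T ∈ ((Cfsg.permRep ℂ G Ω).linHom (Cfsg.permRep ℂ G Ω)).invariants → S ∘ₗ T = T ∘ₗ S := by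
  classical
  constructor
  · intro hmf S T hS hT
    obtain ⟨c, -, rfl⟩ := H37.Orb.exists_coeff_of_mult_free hmf S hS
    refine LinearMap.ext fun v => ?_
    simp only [LinearMap.comp_apply, LinearMap.coe_sum, Finset.sum_apply, LinearMap.smul_apply, map_sum, map_smul]
    refine Finset.sum_congr rfl fun χ _ => ?_
    rw [← LinearMap.comp_apply T, H37.Orb.eOp_comm T ((H37.Orb.mem_invariants_iff T).1 hT), LinearMap.comp_apply]
  · intro hcomm χ hχ
    obtain ⟨m, hm, -, -⟩ := H37.Orb.exists_mult G Ω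
    have hm' := hm ⟨χ, hχ⟩
    change Cfsg.classInner (Cfsg.Agent.H26.permChar Ω) χ = 0 ∨ Cfsg.classInner (Cfsg.Agent.H26.permChar Ω) χ = 1
    rw [hm']
    by_contra hne
    simp only [Nat.cast_eq_zero, Nat.cast_eq_one] at hne
    obtain ⟨d, σ, i, hσ, hirr, hi, hii⟩ := H37.Orb.exists_embedding (Ω := Ω) ⟨χ, hχ⟩
      (by rw [hm', Nat.cast_ne_zero]; omega)
    have hr := Cfsg.Agent.H26.classInner_char_eq_finrank σ (Cfsg.permRep ℂ G Ω)
    rw [H37.Orb.char_perm', hσ, hm', Nat.cast_inj] at hr
    let iI : Representation.IntertwiningMap σ (Cfsg.permRep ℂ G Ω) := ⟨i, fun g => LinearMap.ext (hii g)⟩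
    have hiI : iI ≠ 0 := by
      intro h
      have h' : i = 0 := congrArg Representation.IntertwiningMap.toLinearMap h
      have := Cfsg.Agent.H26.finrank_pos_of_isIrreducible σ
      obtain ⟨w, hw⟩ := (Module.finrank_pos_iff_exists_ne_zero (R := ℂ)).1 this
      exact hw (hi (by rw [h']; simp))
    obtain ⟨j, hj⟩ := exists_linearIndependent_pair_of_one_lt_finrank (R := ℂ) (by omega) hiI
    obtain ⟨p₀, hp₀⟩ := i.exists_leftInverse_of_injective (LinearMap.ker_eq_bot.2 hi)
    have hp₀' : ∀ w, p₀ (i w) = w := LinearMap.congr_fun hp₀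
    let p : (Ω → ℂ) →ₗ[ℂ] (Fin d → ℂ) :=
      (Nat.card G : ℂ)⁻¹ • ∑ g : G, σ g ∘ₗ p₀ ∘ₗ Cfsg.permRep ℂ G Ω g⁻¹
    have hpi : ∀ w, p (i w) = w := by
      intro w
      simp only [p, LinearMap.smul_apply, LinearMap.coe_sum, Finset.sum_apply, LinearMap.comp_apply, ← hii, hp₀',
        Representation.self_inv_apply, Finset.sum_const, Finset.card_univ, ← Nat.card_eq_fintype_card]
      rw [← Nat.cast_smul_eq_nsmul ℂ, inv_smul_smul₀ (Nat.cast_ne_zero.2 Nat.card_pos.ne')]
    have hpc : ∀ g v, p (Cfsg.permRep ℂ G Ω g v) = σ g (p v) := by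
      intro g v
      simp only [p, LinearMap.smul_apply, LinearMap.coe_sum, Finset.sum_apply, LinearMap.comp_apply, map_smul, map_sum]
      congr 1
      refine Fintype.sum_equiv (Equiv.mulLeft g⁻¹) _ _ fun x => ?_
      simp [map_mul, Module.End.mul_apply]
    have hinv : ∀ k : Representation.IntertwiningMap σ (Cfsg.permRep ℂ G Ω),
        k.toLinearMap ∘ₗ p ∈ ((Cfsg.permRep ℂ G Ω).linHom (Cfsg.permRep ℂ G Ω)).invariants := by
      intro k
      rw [H37.Orb.mem_invariants_iff]
      refine fun g => LinearMap.ext fun v => ?_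
      simp only [LinearMap.comp_apply, hpc]
      exact LinearMap.congr_fun (k.isIntertwining' g) (p v)
    have hc := hcomm _ _ (hinv j) (hinv iI)
    let q : Representation.IntertwiningMap σ σ := ⟨p ∘ₗ j.toLinearMap, fun g => LinearMap.ext fun w => by
      simp only [LinearMap.comp_apply]
      rw [← hpc]
      exact congrArg p (LinearMap.congr_fun (j.isIntertwining' g) w)⟩
    obtain ⟨c, hcq⟩ := (Representation.IsIrreducible.algebraMap_intertwiningMap_bijective_of_isAlgClosed (ρ := σ)).2 q
    have hji : j = c • iI := by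
      refine Representation.IntertwiningMap.toLinearMap_injective _ _ (LinearMap.ext fun w => ?_)
      have h := LinearMap.congr_fun hc (i w)
      simp only [LinearMap.comp_apply, hpi] at h
      rw [show iI.toLinearMap w = i w from rfl, hpi] at h
      have hq : p (j.toLinearMap w) = c • w := by
        have := LinearMap.congr_fun (congrArg Representation.IntertwiningMap.toLinearMap hcq) w
        simpa [q, Algebra.algebraMap_eq_smul_one] using this.symm
      rw [h, hq]
      simp [iI]
    have h2 := LinearIndependent.pair_iff.1 hj c (-1) (by rw [hji]; simp)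
    simp at h2

end Cfsg.Agent.S0718
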