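import Cfsg.Statements.S0717
import Cfsg.Agent.H37.Orbitals
import Cfsg.Agent.S0718

set_option autoImplicit false
open Cfsg

namespace Cfsg.Agent.S0717

/-- All suborbits of a transitive group are self-paired (every pair of points is interchanged by some group element) if and only if the permutation character is multiplicity-free and each of its irreducible constituents is real-valued. -/
theorem result {G : Type*} [Group G] [Fintype G] {Ω : Type*} [Fintype Ω] [MulAction G Ω] [MulAction.IsPretransitive G Ω] : (∀ a b : Ω, ∃ g : G, g • a = b ∧ g • b = a) ↔ ∀ χ : G → ℂ, Cfsg.IsIrrCharacter G χ → Cfsg.classInner (fun g : G => (Nat.card (MulAction.fixedBy Ω g) : ℂ)) χ ≠ 0 → Cfsg.classInner (fun g : G => (Nat.card (MulAction.fixedBy Ω g) : ℂ)) χ = 1 ∧ ∀ g : G, (starRingEnd ℂ) (χ g) = χ g := by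
  classical
  constructor
  · intro hgen χ hχ hne
    have hsymm : ∀ M : Matrix Ω Ω ℂ, H37.Orb.Inv G M → M.transpose = M := by
      intro M hM
      ext x y
      obtain ⟨g, hgx, hgy⟩ := hgen x y
      rw [Matrix.transpose_apply, ← hM g x y, hgx, hgy]
    have hT : ∀ T : (Ω → ℂ) →ₗ[ℂ] (Ω → ℂ), T ∈ ((Cfsg.permRep ℂ G Ω).linHom (Cfsg.permRep ℂ G Ω)).invariants →
        H37.Orb.Inv G (LinearMap.toMatrix' T) := fun T h => H37.Orb.inv_of_commute ((H37.Orb.mem_invariants_iff T).1 h)
    have hmf := (Cfsg.Agent.S0718.result (G := G) (Ω := Ω)).2 fun S T hS hT' => by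
      apply LinearMap.toMatrix'.injective
      rw [LinearMap.toMatrix'_comp, LinearMap.toMatrix'_comp]
      have h := hsymm _ ((hT S hS).mul (hT T hT'))
      rw [Matrix.transpose_mul, hsymm _ (hT S hS), hsymm _ (hT T hT')] at h
      exact h.symm
    refine ⟨(hmf χ hχ).resolve_left hne, ?_⟩
    let χI : Cfsg.IrrCharacter G := ⟨χ, hχ⟩
    have he : H37.Orb.eOp (Cfsg.permRep ℂ G Ω) χI.1 = H37.Orb.eOp (Cfsg.permRep ℂ G Ω) (Cfsg.Agent.H26.conjIrr χI).1 := by
      apply LinearMap.toMatrix'.injective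
      rw [← H37.Orb.toMatrix_eOp_transpose, hsymm _ (hT _ (H37.Orb.eOp_mem_invariants χI))]
    obtain ⟨d, σ, i, hσ, hirr, hi, hii⟩ := H37.Orb.exists_embedding (Ω := Ω) χI hne
    have he' : H37.Orb.eOp σ χI.1 = H37.Orb.eOp σ (Cfsg.Agent.H26.conjIrr χI).1 := LinearMap.ext fun w => hi (by
      rw [← H37.Orb.eOp_intertwine (σ := σ) i hii, ← H37.Orb.eOp_intertwine (σ := σ) i hii, he])
    have h := congrArg (LinearMap.trace ℂ (Fin d → ℂ)) he'
    rw [H37.Orb.trace_eOp, H37.Orb.trace_eOp, hσ, Cfsg.Agent.H26.classInner_irr, Cfsg.Agent.H26.classInner_irr,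
      if_pos rfl] at h
    split_ifs at h with h2
    · exact fun g => (congrFun (congrArg Subtype.val h2) g).symm
    · simp [Nat.card_pos.ne'] at h
  · intro h a b
    let M : Matrix Ω Ω ℂ := Matrix.of fun x y => if (x, y) ∈ MulAction.orbit G (a, b) then 1 else 0
    have hM : H37.Orb.Inv G M := by
      intro g x y
      have e : ((g • x, g • y) : Ω × Ω) ∈ MulAction.orbit G (a, b) ↔ (x, y) ∈ MulAction.orbit G (a, b) := by
        constructor
        · rintro ⟨k, hk⟩
          refine ⟨g⁻¹ * k, ?_⟩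
          simp only at hk ⊢
          rw [mul_smul, hk, Prod.smul_mk, inv_smul_smul, inv_smul_smul]
        · rintro ⟨k, hk⟩
          refine ⟨g * k, ?_⟩
          simp only at hk ⊢
          rw [mul_smul, hk, Prod.smul_mk]
      simp [M, e]
    have hs := congrFun (congrFun (H37.Orb.symm_of_mult_free_real h hM) b) a
    simp only [M, Matrix.transpose_apply, Matrix.of_apply, MulAction.mem_orbit_self, if_true] at hs
    split_ifs at hs with h1
    · obtain ⟨g, hg⟩ := h1
      exact ⟨g, congrArg Prod.fst hg, congrArg Prod.snd hg⟩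
    · simp at hs

end Cfsg.Agent.S0717
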