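import Cfsg.Statements.S0719
import Cfsg.Agent.H37.OrbitalMatrix

set_option autoImplicit false
open Cfsg

namespace Cfsg.Agent.S0719

open Cfsg.Agent.H26 (permChar oneIrr conjIrr)
open Cfsg.Agent.H37.Orb (Inv centering)

theorem arith_nonneg {m k R z : ℤ} (hm : 2 ≤ m) (hk : 2 ≤ k) (hz : 0 ≤ z) (h1 : k = R - m * z)
    (h2 : 2 * m * k - k ^ 2 = (m - 1) * R ^ 2 + m * (z - R) ^ 2) : False := by
  rcases hz.eq_or_lt with rfl | hz
  · have hRk : R = k := by linarith
    rw [hRk] at h2
    have : k * (m * (k - 1)) = 0 := by nlinarith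
    rcases mul_eq_zero.1 this with h | h
    · omega
    · rcases mul_eq_zero.1 h with h | h <;> omega
  · have hR : k + m ≤ R := by nlinarith [mul_le_mul_of_nonneg_left (show 1 ≤ z from hz) (show 0 ≤ m by omega)]
    have hR2 : (k + m) ^ 2 ≤ R ^ 2 := by nlinarith
    have h3 : (m - 1) * (k + m) ^ 2 ≤ 2 * m * k - k ^ 2 := by
      nlinarith [mul_le_mul_of_nonneg_left hR2 (show 0 ≤ m - 1 by omega), mul_nonneg (show 0 ≤ m by omega) (sq_nonneg (z - R))]
    nlinarith [mul_le_mul_of_nonneg_right (show 1 ≤ m - 1 by omega) (sq_nonneg (k + m))]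

theorem arith {m k k' R z : ℤ} (hm : 2 ≤ m) (hk : 2 ≤ k) (hk' : 2 ≤ k') (hkk : k + k' = 2 * m - 1)
    (h1 : k = R - m * z) (h2 : 2 * m * k - k ^ 2 = (m - 1) * R ^ 2 + m * (z - R) ^ 2) :
    ∃ a : ℕ, 0 < a ∧ m = 2 * (a : ℤ) ^ 2 + 2 * a + 1 ∧ (k = a * (2 * a + 1) ∨ k = (a + 1) * (2 * a + 1)) := by
  obtain rfl : k' = 2 * m - 1 - k := by linarith
  rcases lt_trichotomy z (-1) with hz | rfl | hz
  · exfalso
    refine arith_nonneg hm hk' (show 0 ≤ -2 - z by omega) (R := -1 - R) (by rw [h1]; ring) ?_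
    subst h1
    nlinarith
  · subst h1
    have hmR : m = 2 * R ^ 2 + 2 * R + 1 := by
      have : m * (m - (2 * R ^ 2 + 2 * R + 1)) = 0 := by nlinarith
      rcases mul_eq_zero.1 this with h | h <;> omega
    rcases le_or_gt 0 R with hR | hR
    · obtain ⟨a, rfl⟩ := Int.eq_ofNat_of_zero_le hR
      refine ⟨a, ?_, hmR, Or.inr (by rw [hmR]; ring)⟩
      rcases Nat.eq_zero_or_pos a with rfl | h
      · norm_num at hmR; omega
      · exact h
    · obtain ⟨a, ha⟩ := Int.eq_ofNat_of_zero_le (show 0 ≤ -R - 1 by omega)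
      obtain rfl : R = -(a : ℤ) - 1 := by omega
      refine ⟨a, ?_, by rw [hmR]; ring, Or.inl (by rw [hmR]; ring)⟩
      rcases Nat.eq_zero_or_pos a with rfl | h
      · norm_num at hmR; omega
      · exact h
  · exact (arith_nonneg hm hk (by omega) h1 h2).elim

variable {G : Type*} [Group G] [Fintype G] {Ω : Type*} [Fintype Ω] [MulAction G Ω]

theorem subdegree_ne_one (hprim : MulAction.IsPreprimitive G Ω) {m : ℕ} (hm : Fintype.card Ω = 2 * m) (a₀ : Ω)
    (hrank : Nat.card (MulAction.orbitRel.Quotient (MulAction.stabilizer G a₀) Ω) = 3) {b : Ω} (hb : b ≠ a₀) :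
    Nat.card (MulAction.orbit (MulAction.stabilizer G a₀) b) ≠ 1 := by
  classical
  haveI := hprim
  haveI : MulAction.IsPretransitive G Ω := hprim.toIsPretransitive
  haveI : Nontrivial Ω := ⟨⟨b, a₀, hb⟩⟩
  intro h1
  obtain ⟨hsub, -⟩ := Nat.card_eq_one_iff_unique.1 h1
  have hfix : ∀ g ∈ MulAction.stabilizer G a₀, g • b = b := fun g hg =>
    congrArg Subtype.val (hsub.elim ⟨(⟨g, hg⟩ : MulAction.stabilizer G a₀) • b, ⟨⟨g, hg⟩, rfl⟩⟩ ⟨b, MulAction.mem_orbit_self b⟩)
  obtain ⟨t, ht⟩ := MulAction.exists_smul_eq G a₀ b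
  have heq : MulAction.stabilizer G a₀ = MulAction.stabilizer G b := by
    refine SetLike.ext' (Set.eq_of_subset_of_ncard_le (fun g hg => hfix g hg) (le_of_eq ?_) (Set.toFinite _))
    rw [← Nat.card_coe_set_eq, ← Nat.card_coe_set_eq, ← ht, MulAction.stabilizer_smul_eq_stabilizer_map_conj]
    exact (Nat.card_congr (Subgroup.equivMapOfInjective _ _ (MulAut.conj t).injective).toEquiv).symm
  have hco := (MulAction.isCoatom_stabilizer_iff_preprimitive G a₀).2 hprim
  have hnorm : (MulAction.stabilizer G a₀).Normal := by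
    rw [← Subgroup.normalizer_eq_top_iff]
    refine (hco.le_iff.1 Subgroup.le_normalizer).resolve_right fun h => ?_
    have htmem : t ∈ Subgroup.normalizer (MulAction.stabilizer G a₀ : Set G) := by
      rw [Subgroup.mem_normalizer_iff]
      intro g
      constructor
      · intro hg
        show (t * g * t⁻¹) ∈ MulAction.stabilizer G a₀
        rw [heq, MulAction.mem_stabilizer_iff, mul_smul, mul_smul, inv_smul_eq_iff.2 ht.symm,
          MulAction.mem_stabilizer_iff.1 hg, ht]
      · intro hg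
        show g ∈ MulAction.stabilizer G a₀
        have hg' : (t * g * t⁻¹) • b = b := by
          have : t * g * t⁻¹ ∈ MulAction.stabilizer G b := heq ▸ hg
          exact this
        rw [mul_smul, mul_smul, inv_smul_eq_iff.2 ht.symm] at hg'
        exact MulAction.mem_stabilizer_iff.2 (MulAction.injective t (hg'.trans ht.symm))
    rw [h] at htmem
    exact hb (ht.symm.trans htmem)
  have hall : ∀ g ∈ MulAction.stabilizer G a₀, ∀ x : Ω, g • x = x := by
    intro g hg x
    obtain ⟨h, rfl⟩ := MulAction.exists_smul_eq G a₀ x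
    have h2 := hnorm.conj_mem g hg h⁻¹
    rw [inv_inv, MulAction.mem_stabilizer_iff, mul_smul, mul_smul, inv_smul_eq_iff] at h2
    exact h2
  have hcard : Nat.card (MulAction.orbitRel.Quotient (MulAction.stabilizer G a₀) Ω) = Fintype.card Ω := by
    rw [← Nat.card_eq_fintype_card]
    refine (Nat.card_congr (Equiv.ofBijective Quotient.mk'' ⟨fun x y e => ?_, Quotient.mk''_surjective⟩)).symm
    obtain ⟨g, hg⟩ := Quotient.eq''.1 e
    exact hg.symm.trans (hall g g.2 y)
  omega

/-- Groups of Wielandt type: if a primitive group of degree `2m` has rank 3 and permutation character `1 + χ₁ + χ₂` with irreducible `χ₁, χ₂` of degrees `m - 1` and `m`, then `m = 2a² + 2a + 1` for some positive integer `a` and the two non-trivial subdegrees are `a(2a+1)` and `(a+1)(2a+1)`. -/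
theorem result {G : Type*} [Group G] [Fintype G] {Ω : Type*} [Fintype Ω] [MulAction G Ω] (hprim : MulAction.IsPreprimitive G Ω) {m : ℕ} (hm : Fintype.card Ω = 2 * m) (a₀ : Ω) (hrank : Nat.card (MulAction.orbitRel.Quotient (MulAction.stabilizer G a₀) Ω) = 3) (χ₁ χ₂ : G → ℂ) (h₁ : Cfsg.IsIrrCharacter G χ₁) (h₂ : Cfsg.IsIrrCharacter G χ₂) (hπ : (fun g : G => (Nat.card (MulAction.fixedBy Ω g) : ℂ)) = fun g => 1 + χ₁ g + χ₂ g) (hd₁ : χ₁ 1 = (m : ℂ) - 1) (hd₂ : χ₂ 1 = m) : ∃ a : ℕ, 0 < a ∧ m = 2 * a ^ 2 + 2 * a + 1 ∧ ∀ b : Ω, b ≠ a₀ → Nat.card (MulAction.orbit (MulAction.stabilizer G a₀) b) = a * (2 * a + 1) ∨ Nat.card (MulAction.orbit (MulAction.stabilizer G a₀) b) = (a + 1) * (2 * a + 1) := by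
  classical
  haveI : MulAction.IsPretransitive G Ω := hprim.toIsPretransitive
  haveI : Nonempty Ω := ⟨a₀⟩
  have hm2 : 2 ≤ m := by
    obtain ⟨d, hd⟩ := Cfsg.Agent.H26.exists_nat_char_one (Cfsg.Agent.H26.isCharacter_of_irr h₁)
    have hd0 : d ≠ 0 := fun e => Cfsg.Agent.H26.irr_one_ne_zero (⟨χ₁, h₁⟩ : Cfsg.IrrCharacter G) (by
      show χ₁ 1 = 0
      rw [hd, e, Nat.cast_zero])
    have : ((d + 1 : ℕ) : ℂ) = (m : ℂ) := by
      push_cast
      rw [← hd, hd₁]
      ring
    have := Nat.cast_inj.1 this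
    omega
  let X₁ : Cfsg.IrrCharacter G := ⟨χ₁, h₁⟩
  let X₂ : Cfsg.IrrCharacter G := ⟨χ₂, h₂⟩
  have hπ' : permChar Ω = (oneIrr G).1 + X₁.1 + X₂.1 := by
    rw [show (permChar Ω : G → ℂ) = fun g : G => (Nat.card (MulAction.fixedBy Ω g) : ℂ) from rfl, hπ]
    funext g
    simp [X₁, X₂, Cfsg.Agent.H26.oneIrr_val]
  have hmul : ∀ ψ : Cfsg.IrrCharacter G, Cfsg.classInner (permChar Ω) ψ.1 =
      (if oneIrr G = ψ then 1 else 0) + (if X₁ = ψ then 1 else 0) + (if X₂ = ψ then 1 else 0) := fun ψ => by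
    rw [hπ', Cfsg.Agent.H26.classInner_add_left, Cfsg.Agent.H26.classInner_add_left, Cfsg.Agent.H26.classInner_irr,
      Cfsg.Agent.H26.classInner_irr, Cfsg.Agent.H26.classInner_irr]
  have h12 : X₁ ≠ X₂ := fun e => by
    have h : χ₁ 1 = χ₂ 1 := congrFun (congrArg Subtype.val e) 1
    rw [hd₁, hd₂, sub_eq_self] at h
    exact one_ne_zero h
  have h20 : oneIrr G ≠ X₂ := fun e => by
    have h : (1 : ℂ) = χ₂ 1 := congrFun (congrArg Subtype.val e) 1
    rw [hd₂] at h
    have := (Nat.cast_eq_one (R := ℂ)).1 h.symm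
    omega
  have h10 : oneIrr G ≠ X₁ := fun e => by
    have h := hmul (oneIrr G)
    have e' : ((oneIrr G : Cfsg.IrrCharacter G) : G → ℂ) = fun _ => 1 := funext Cfsg.Agent.H26.oneIrr_val
    rw [if_pos rfl, if_pos e.symm, if_neg (Ne.symm h20)] at h
    rw [e', Cfsg.Agent.H26.classInner_permChar_one] at h
    haveI : Subsingleton (Quotient (MulAction.orbitRel G Ω)) := ⟨fun p q => by
      induction p using Quotient.inductionOn' with | h x => ?_
      induction q using Quotient.inductionOn' with | h y => ?_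
      exact Quotient.eq''.2 (MulAction.exists_smul_eq G y x)⟩
    rw [Nat.card_of_subsingleton (Quotient.mk'' a₀ : Quotient (MulAction.orbitRel G Ω))] at h
    norm_num at h
  have hreal : ∀ χ : G → ℂ, Cfsg.IsIrrCharacter G χ → Cfsg.classInner (permChar Ω) χ ≠ 0 →
      Cfsg.classInner (permChar Ω) χ = 1 ∧ ∀ g : G, (starRingEnd ℂ) (χ g) = χ g := by
    intro χ hχ hne
    let ψ : Cfsg.IrrCharacter G := ⟨χ, hχ⟩
    have hcases : oneIrr G = ψ ∨ X₁ = ψ ∨ X₂ = ψ := by
      by_contra hc
      push Not at hc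
      exact hne (by rw [show χ = ψ.1 from rfl, hmul, if_neg hc.1, if_neg hc.2.1, if_neg hc.2.2]; simp)
    refine ⟨?_, ?_⟩
    · rw [show χ = ψ.1 from rfl, hmul]
      rcases hcases with h | h | h <;> rw [← h] <;> simp [h12, h10, h20, Ne.symm h12, Ne.symm h10, Ne.symm h20]
    have hconj : Cfsg.classInner (permChar Ω) (conjIrr ψ).1 = Cfsg.classInner (permChar Ω) ψ.1 := by
      obtain ⟨j, hj⟩ := Cfsg.Agent.H26.exists_nat_classInner_irr (Cfsg.Agent.H26.isCharacter_permChar (G := G) Ω) ψ
      have h := congrArg (starRingEnd ℂ) hj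
      rw [map_natCast, ← hj] at h
      rw [← h]
      simp [Cfsg.classInner, Cfsg.Agent.H26.conjIrr_val, permChar]
    have hc : oneIrr G = conjIrr ψ ∨ X₁ = conjIrr ψ ∨ X₂ = conjIrr ψ := by
      by_contra hc
      push Not at hc
      rw [hmul (conjIrr ψ), if_neg hc.1, if_neg hc.2.1, if_neg hc.2.2] at hconj
      exact hne (by rw [show χ = ψ.1 from rfl, ← hconj]; simp)
    have hone : conjIrr (oneIrr G) = oneIrr G :=
      Subtype.ext (funext fun g => by simp [Cfsg.Agent.H26.conjIrr_val, Cfsg.Agent.H26.oneIrr_val])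
    suffices conjIrr ψ = ψ from fun g => congrFun (congrArg Subtype.val this) g
    rcases hcases with h | h | h
    · rw [← h]; exact hone
    · rcases hc with h' | h' | h'
      · exact absurd ((h.trans ((Cfsg.Agent.H26.conjIrr_conjIrr ψ).symm.trans (by rw [← h', hone]))).symm) h10
      · rw [← h', h]
      · exfalso
        have e := congrFun (congrArg Subtype.val h') 1
        rw [Cfsg.Agent.H26.conjIrr_val, ← h] at e
        simp only [X₁, X₂, hd₁, hd₂, map_sub, map_natCast, map_one] at e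
        exact one_ne_zero (sub_eq_self.1 e.symm)
    · rcases hc with h' | h' | h'
      · exact absurd ((h.trans ((Cfsg.Agent.H26.conjIrr_conjIrr ψ).symm.trans (by rw [← h', hone]))).symm) h20
      · exfalso
        have e := congrFun (congrArg Subtype.val h') 1
        rw [Cfsg.Agent.H26.conjIrr_val, ← h] at e
        simp only [X₁, X₂, hd₁, hd₂, map_natCast] at e
        exact one_ne_zero (sub_eq_self.1 e)
      · rw [← h', h]
  -- the orbits of the point stabiliser
  haveI : Finite (MulAction.orbitRel.Quotient (MulAction.stabilizer G a₀) Ω) := Quotient.finite _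
  haveI : Fintype (MulAction.orbitRel.Quotient (MulAction.stabilizer G a₀) Ω) := Fintype.ofFinite _
  let q : Ω → MulAction.orbitRel.Quotient (MulAction.stabilizer G a₀) Ω := Quotient.mk''
  have hq : ∀ x y, q x = q y ↔ x ∈ MulAction.orbit (MulAction.stabilizer G a₀) y := fun x y => Quotient.eq''
  have hqa : ∀ y, q y = q a₀ → y = a₀ := fun y h => by
    obtain ⟨g, hg⟩ := (hq _ _).1 h
    exact hg.symm.trans g.2
  have main : ∀ b : Ω, b ≠ a₀ → ∃ a : ℕ, 0 < a ∧ m = 2 * a ^ 2 + 2 * a + 1 ∧
      (Nat.card (MulAction.orbit (MulAction.stabilizer G a₀) b) = a * (2 * a + 1) ∨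
        Nat.card (MulAction.orbit (MulAction.stabilizer G a₀) b) = (a + 1) * (2 * a + 1)) := by
    intro b hb
    obtain ⟨o, ho1, ho2⟩ : ∃ o, o ≠ q a₀ ∧ o ≠ q b := by
      by_contra h
      push Not at h
      have hsub : (Finset.univ : Finset (MulAction.orbitRel.Quotient (MulAction.stabilizer G a₀) Ω)) ⊆ {q a₀, q b} := by
        intro o _
        by_cases ho : o = q a₀
        · simp [ho]
        · simp [h o ho]
      have := (Finset.card_le_card hsub).trans Finset.card_le_two
      rw [Finset.card_univ, ← Nat.card_eq_fintype_card, hrank] at this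
      omega
    obtain ⟨c, rfl⟩ : ∃ c, q c = o := ⟨_, Quotient.out_eq' o⟩
    have hca : c ≠ a₀ := fun e => ho1 (by rw [e])
    have hab : q b ≠ q a₀ := fun e => hb (hqa b e)
    have hthree : ∀ y, q y = q a₀ ∨ q y = q b ∨ q y = q c := by
      intro y
      by_contra h
      push Not at h
      have h4 : ({q y, q a₀, q b, q c} : Finset (MulAction.orbitRel.Quotient (MulAction.stabilizer G a₀) Ω)).card = 4 := by
        rw [Finset.card_insert_of_notMem (by simp [h.1, h.2.1, h.2.2]),
          Finset.card_insert_of_notMem (by simp [Ne.symm hab, Ne.symm ho1]), Finset.card_pair (Ne.symm ho2)]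
      have := Finset.card_le_univ ({q y, q a₀, q b, q c} : Finset (MulAction.orbitRel.Quotient (MulAction.stabilizer G a₀) Ω))
      rw [h4, ← Nat.card_eq_fintype_card, hrank] at this
      omega
    set k := Nat.card (MulAction.orbit (MulAction.stabilizer G a₀) b) with hkdef
    set k' := Nat.card (MulAction.orbit (MulAction.stabilizer G a₀) c) with hk'def
    have hsum : 1 + k + k' = 2 * m := by
      have hfib : ∀ x, (Finset.univ.filter fun y => q y = q x).card =
          Nat.card (MulAction.orbit (MulAction.stabilizer G a₀) x) := by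
        intro x
        rw [Nat.card_eq_card_toFinset]
        refine congrArg Finset.card (Finset.ext fun y => ?_)
        simp only [Finset.mem_filter, Finset.mem_univ, true_and, Set.mem_toFinset]
        exact hq y x
      have ha : (Finset.univ.filter fun y => q y = q a₀).card = 1 := by
        rw [Finset.card_eq_one]
        exact ⟨a₀, Finset.ext fun y => by simpa using ⟨hqa y, fun e => by rw [e]⟩⟩
      have h := Finset.card_eq_sum_card_fiberwise (f := q) (s := (Finset.univ : Finset Ω))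
        (t := ({q a₀, q b, q c} : Finset (MulAction.orbitRel.Quotient (MulAction.stabilizer G a₀) Ω)))
        (fun x _ => by simpa using hthree x)
      rw [Finset.sum_insert (by simp [Ne.symm hab, Ne.symm ho1]), Finset.sum_pair (Ne.symm ho2), ha, hfib, hfib,
        Finset.card_univ, hm] at h
      omega
    have hk1 : k ≠ 1 := subdegree_ne_one hprim hm a₀ hrank hb
    have hk'1 : k' ≠ 1 := subdegree_ne_one hprim hm a₀ hrank hca
    have hkpos : 0 < k := by
      haveI : Nonempty (MulAction.orbit (MulAction.stabilizer G a₀) b) := ⟨⟨b, MulAction.mem_orbit_self b⟩⟩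
      exact Nat.card_pos
    have hk'pos : 0 < k' := by
      haveI : Nonempty (MulAction.orbit (MulAction.stabilizer G a₀) c) := ⟨⟨c, MulAction.mem_orbit_self c⟩⟩
      exact Nat.card_pos
    obtain ⟨A₀, hle₀, hinv₀, hdiag₀, horb₀, hrow₀, hcol₀⟩ := H37.Orb.exists_orbital (G := G) hb
    rw [← hkdef] at hrow₀ hcol₀
    let A : Matrix Ω Ω ℂ := Matrix.of fun x y => (A₀ x y : ℂ)
    have hAinv : Inv G A := fun g x y => by simp [A, hinv₀]
    have hAsym : A.transpose = A := H37.Orb.symm_of_mult_free_real hreal hAinv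
    have hrow : ∀ x, ∑ y, A x y = (k : ℂ) := fun x => by simp [A, ← Nat.cast_sum, hrow₀]
    have hcol : ∀ y, ∑ x, A x y = (k : ℂ) := fun y => by simp [A, ← Nat.cast_sum, hcol₀]
    have hA2inv : Inv G (A * A) := hAinv.mul hAinv
    have hA2diag : ∀ x, (A * A) x x = (k : ℂ) := by
      intro x
      rw [Matrix.mul_apply, ← hrow x]
      refine Finset.sum_congr rfl fun y _ => ?_
      have e : A y x = A x y := congrFun (congrFun hAsym x) y
      rw [e]
      have := hle₀ x y
      interval_cases h : A₀ x y <;> simp [A, h]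
    let lam : ℕ := (A₀ * A₀) a₀ b
    let mu : ℕ := (A₀ * A₀) a₀ c
    have hcast : ∀ x y, (A * A) x y = (((A₀ * A₀) x y : ℕ) : ℂ) := fun x y => by simp [Matrix.mul_apply, A]
    have hA2 : A * A = ((k : ℂ) - mu) • (1 : Matrix Ω Ω ℂ) + (mu : ℂ) • H37.Orb.jMat Ω + ((lam : ℂ) - mu) • A := by
      ext x y
      obtain ⟨g, hg⟩ := MulAction.exists_smul_eq G x a₀
      have hA' : A x y = A a₀ (g • y) := by rw [← hg, hAinv]
      have hA2' : (A * A) x y = (A * A) a₀ (g • y) := by rw [← hg, hA2inv]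
      simp only [Matrix.add_apply, Matrix.smul_apply, H37.Orb.jMat, Matrix.of_apply, smul_eq_mul, mul_one]
      rcases hthree (g • y) with h | h | h
      · have hxy : x = y := MulAction.injective g (hg.trans (hqa _ h).symm)
        subst hxy
        rw [hA2diag, Matrix.one_apply_eq, show A x x = 0 by simp [A, hdiag₀]]
        ring
      · have hxy : x ≠ y := fun e => hab (by rw [← h, ← e, hg])
        obtain ⟨s, hs⟩ := (hq _ _).1 h
        have hs' : (s : G) • b = g • y := hs
        have e1 : A a₀ (g • y) = 1 := by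
          have := (horb₀ (g • y)).2 ((hq _ _).1 h)
          simp [A, this]
        have e2 : (A * A) a₀ (g • y) = (lam : ℂ) := by
          have hsa : (s : G) • a₀ = a₀ := s.2
          rw [← hs', show (A * A) a₀ ((s : G) • b) = (A * A) ((s : G) • a₀) ((s : G) • b) by rw [hsa], hA2inv, hcast]
        rw [hA', hA2', e1, e2, Matrix.one_apply_ne hxy]
        ring
      · have hxy : x ≠ y := fun e => ho1 (by rw [← h, ← e, hg])
        obtain ⟨s, hs⟩ := (hq _ _).1 h
        have hs' : (s : G) • c = g • y := hs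
        have e1 : A a₀ (g • y) = 0 := by
          have hne : A₀ a₀ (g • y) ≠ 1 := fun e => ho2 (h.symm.trans ((hq _ _).2 ((horb₀ _).1 e)))
          have := hle₀ a₀ (g • y)
          simp [A, show A₀ a₀ (g • y) = 0 by omega]
        have e2 : (A * A) a₀ (g • y) = (mu : ℂ) := by
          have hsa : (s : G) • a₀ = a₀ := s.2
          rw [← hs', show (A * A) a₀ ((s : G) • c) = (A * A) ((s : G) • a₀) ((s : G) • c) by rw [hsa], hA2inv, hcast]
        rw [hA', hA2', e1, e2, Matrix.one_apply_ne hxy]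
        ring
    set z : ℤ := (lam : ℤ) - mu with hz
    have hzC : (z : ℂ) = (lam : ℂ) - mu := by simp [hz]
    rw [← hzC] at hA2
    set x0 : ℂ := (k : ℂ) - mu with hx0
    let P : Matrix Ω Ω ℂ := centering Ω
    set T : Matrix Ω Ω ℂ := A * P with hT
    have hPA : P * A = A * P := H37.Orb.centering_comm hrow hcol
    have hPP : P * P = P := H37.Orb.centering_mul_self
    have hTP : T * P = T := by rw [hT, mul_assoc, hPP]
    have hPT : P * T = T := by rw [hT, ← mul_assoc, hPA, mul_assoc, hPP]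
    have hA2P : T * T = A * A * P := by
      rw [hT, mul_assoc, ← mul_assoc P A P, hPA, mul_assoc A P P, hPP, ← mul_assoc]
    have hTT : T * T = (z : ℂ) • T + x0 • P := by
      rw [hA2P, hA2, add_mul, add_mul, Matrix.smul_mul, Matrix.smul_mul, Matrix.smul_mul, one_mul, H37.Orb.jMat_mul_centering, smul_zero,
        add_zero, hT]
      exact add_comm _ _
    have htrP : Matrix.trace P = 2 * (m : ℂ) - 1 := by
      rw [H37.Orb.trace_centering, hm]; push_cast; rfl
    have htrT : Matrix.trace T = -(k : ℂ) := by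
      rw [hT, H37.Orb.trace_mul_centering hrow]
      simp [Matrix.trace, A, hdiag₀]
    have htrTT : Matrix.trace (T * T) = 2 * m * (k : ℂ) - (k : ℂ) ^ 2 := by
      rw [hA2P, H37.Orb.trace_mul_centering (k := (k : ℂ) ^ 2)]
      · simp [Matrix.trace, hA2diag, hm, mul_comm]
      · intro x
        simp only [Matrix.mul_apply]
        rw [Finset.sum_comm]
        simp [← Finset.mul_sum, hrow, ← Finset.sum_mul, pow_two]
    obtain ⟨δ, hδ⟩ := IsAlgClosed.exists_eq_mul_self ((z : ℂ) ^ 2 + 4 * x0)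
    set r : ℂ := ((z : ℂ) + δ) / 2 with hr
    set s : ℂ := ((z : ℂ) - δ) / 2 with hs
    have hrs : r + s = (z : ℂ) := by rw [hr, hs]; ring
    have hrs' : r * s = -x0 := by
      rw [hr, hs]
      linear_combination (-(1 : ℂ) / 4) * (-hδ)
    have hquad : 2 * (m : ℂ) * k - (k : ℂ) ^ 2 = (r + s) * (-(k : ℂ)) + (-(r * s)) * (2 * (m : ℂ) - 1) := by
      rw [← htrTT, hTT, Matrix.trace_add, Matrix.trace_smul, Matrix.trace_smul, htrT, htrP, hrs, hrs', neg_neg,
        smul_eq_mul, smul_eq_mul]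
    have hkC : (k : ℂ) ≠ 0 := Nat.cast_ne_zero.2 (by omega)
    have hN : (2 * (m : ℂ) - 1) ≠ 0 := by
      have : ((2 * m : ℕ) : ℂ) ≠ ((1 : ℕ) : ℂ) := fun e => by
        have := Nat.cast_inj.1 e
        omega
      push_cast at this
      exact sub_ne_zero.2 this
    have hsingle : ∀ u : ℂ, u * (2 * (m : ℂ) - 1) = -(k : ℂ) →
        2 * (m : ℂ) * k - (k : ℂ) ^ 2 = u ^ 2 * (2 * (m : ℂ) - 1) → False := by
      intro u h1 h2
      have h3 : (k : ℂ) * (2 * (m : ℂ)) * ((k : ℂ) - (2 * (m : ℂ) - 1)) = 0 := by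
        linear_combination (-(2 * (m : ℂ) - 1)) * h2 + (-(u * (2 * (m : ℂ) - 1)) + (k : ℂ)) * h1
      rcases mul_eq_zero.1 h3 with h | h
      · exact mul_ne_zero hkC (mul_ne_zero two_ne_zero (Nat.cast_ne_zero.2 (by omega))) h
      · have : ((k + 1 : ℕ) : ℂ) = ((2 * m : ℕ) : ℂ) := by push_cast; linear_combination h
        have := Nat.cast_inj.1 this
        omega
    by_cases hne : r = s
    · exfalso
      set D : Matrix Ω Ω ℂ := T - s • P with hD
      have hD2 : D * D = 0 := by
        rw [hD, sub_mul, mul_sub, mul_sub, hTT, Matrix.smul_mul, Matrix.mul_smul, Matrix.smul_mul, Matrix.mul_smul, hTP, hPT, hPP,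
          smul_smul, ← hrs, show x0 = -(r * s) by rw [hrs', neg_neg], hne]
        module
      have h0 : Matrix.trace D = 0 := (Matrix.isNilpotent_trace_of_isNilpotent ⟨2, by rw [pow_two, hD2]⟩).eq_zero
      rw [hD, Matrix.trace_sub, Matrix.trace_smul, htrT, htrP, smul_eq_mul, sub_eq_zero] at h0
      exact hsingle s h0.symm (by rw [hquad, hne]; linear_combination (-2 * s) * (-h0))
    -- the spectral projection
    have hrs0 : r - s ≠ 0 := sub_ne_zero.2 hne
    set E : Matrix Ω Ω ℂ := (r - s)⁻¹ • (T - s • P) with hE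
    have hE2 : E * E = E := by
      have : (T - s • P) * (T - s • P) = (r - s) • (T - s • P) := by
        rw [sub_mul, mul_sub, mul_sub, hTT, Matrix.smul_mul, Matrix.mul_smul, Matrix.smul_mul, Matrix.mul_smul, hTP, hPT, hPP,
          smul_smul, ← hrs, show x0 = -(r * s) by rw [hrs', neg_neg]]
        module
      rw [hE, Matrix.smul_mul, Matrix.mul_smul, this, smul_smul, smul_smul]
      congr 1
      field_simp
    have hEinv : Inv G E := by
      intro g x y
      have h1 := (hAinv.mul H37.Orb.inv_centering) g x y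
      have h2 := H37.Orb.inv_centering (G := G) g x y
      simp only [hE, hT, P, Matrix.smul_apply, Matrix.sub_apply] at h1 h2 ⊢
      rw [h1, h2]
    have hEcol : ∀ y, ∑ x, E x y = 0 := by
      intro y
      have h1 : ∑ x, T x y = 0 := by
        simp only [hT, Matrix.mul_apply]
        rw [Finset.sum_comm]
        simp [← Finset.sum_mul, hcol, ← Finset.mul_sum, P, H37.Orb.sum_centering]
      simp [hE, Finset.sum_sub_distrib, ← Finset.mul_sum, h1, P, H37.Orb.sum_centering]
    let W : Submodule ℂ (Ω → ℂ) := LinearMap.range (Matrix.toLin' E)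
    obtain ⟨mm, hmm, -, -⟩ := H37.Orb.exists_mult G Ω
    obtain ⟨cc, hcc, hcc1, hccd⟩ := H37.Orb.exists_coeff_sub (W := W) (G := G) (fun g v hv => by
      obtain ⟨w, rfl⟩ := hv
      exact ⟨Cfsg.permRep ℂ G Ω g w, LinearMap.congr_fun (H37.Orb.commute_of_inv hEinv g) w⟩) (fun v hv => by
      obtain ⟨w, rfl⟩ := hv
      rw [Matrix.toLin'_apply]
      exact H37.Orb.sum_mulVec_eq_zero hEcol w) mm hmm
    have htrE : Matrix.trace E = (Module.finrank ℂ W : ℂ) := by
      rw [← Matrix.trace_toLin'_eq]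
      refine LinearMap.IsProj.trace (p := W) ⟨fun v => ⟨v, rfl⟩, ?_⟩
      rintro _ ⟨w, rfl⟩
      rw [← LinearMap.comp_apply, ← Matrix.toLin'_mul, hE2]
    have htrE' : (-(k : ℂ)) - s * (2 * (m : ℂ) - 1) = (r - s) * (Module.finrank ℂ W : ℂ) := by
      rw [← htrE, hE, Matrix.trace_smul, Matrix.trace_sub, Matrix.trace_smul, htrT, htrP, smul_eq_mul, smul_eq_mul,
        mul_inv_cancel_left₀ hrs0]
    have hcmm : ∀ ψ, ψ ≠ X₁ → ψ ≠ X₂ → cc ψ = 0 := by
      intro ψ hne1 hne2
      rcases eq_or_ne ψ (oneIrr G) with rfl | hne0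
      · exact hcc1
      have := hmm ψ
      rw [hmul, if_neg (Ne.symm hne0), if_neg (Ne.symm hne1), if_neg (Ne.symm hne2)] at this
      have h0 : mm ψ = 0 := Nat.cast_eq_zero.1 (this.symm.trans (by simp))
      have := hcc ψ
      omega
    have hle1 : cc X₁ ≤ 1 := by
      have := hmm X₁
      rw [hmul, if_neg h10, if_pos rfl, if_neg (Ne.symm h12)] at this
      have h1 : mm X₁ = 1 := Nat.cast_eq_one.1 (this.symm.trans (by simp))
      exact h1 ▸ hcc X₁
    have hle2 : cc X₂ ≤ 1 := by
      have := hmm X₂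
      rw [hmul, if_neg h20, if_neg h12, if_pos rfl] at this
      have h1 : mm X₂ = 1 := Nat.cast_eq_one.1 (this.symm.trans (by simp))
      exact h1 ▸ hcc X₂
    rw [← Finset.sum_subset (Finset.subset_univ ({X₁, X₂} : Finset (Cfsg.IrrCharacter G))) (fun ψ _ hψ => by
        simp only [Finset.mem_insert, Finset.mem_singleton, not_or] at hψ
        simp [hcmm ψ hψ.1 hψ.2]), Finset.sum_pair h12] at hccd
    rw [show X₁.1 1 = (m : ℂ) - 1 from hd₁, show X₂.1 1 = (m : ℂ) from hd₂] at hccd
    rw [hccd] at htrE'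
    -- integrality
    have final : ∀ u v : ℂ, u + v = (z : ℂ) → ((m : ℂ) - 1) * u + (m : ℂ) * v = -(k : ℂ) →
        2 * (m : ℂ) * k - (k : ℂ) ^ 2 = ((m : ℂ) - 1) * u ^ 2 + (m : ℂ) * v ^ 2 →
        ∃ a : ℕ, 0 < a ∧ m = 2 * a ^ 2 + 2 * a + 1 ∧ (k = a * (2 * a + 1) ∨ k = (a + 1) * (2 * a + 1)) := by
      intro u v huv hlin hq2
      have hu : u = (((m : ℤ) * z + k : ℤ) : ℂ) := by push_cast; linear_combination (m : ℂ) * huv - hlin
      have hv : v = ((z - ((m : ℤ) * z + k) : ℤ) : ℂ) := by push_cast; push_cast at hu; linear_combination huv - hu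
      rw [hu, hv] at hq2
      have hq3 : (((2 * (m : ℤ) * k - (k : ℤ) ^ 2 : ℤ)) : ℂ) =
          ((((m : ℤ) - 1) * ((m : ℤ) * z + k) ^ 2 + (m : ℤ) * (z - ((m : ℤ) * z + k)) ^ 2 : ℤ) : ℂ) := by
        push_cast
        push_cast at hq2
        linear_combination hq2
      obtain ⟨a, ha, hma, hka⟩ := arith (m := (m : ℤ)) (k := (k : ℤ)) (k' := (k' : ℤ)) (R := (m : ℤ) * z + k) (z := z)
        (by omega) (by omega) (by omega) (by omega) (by ring) (Int.cast_injective hq3)
      refine ⟨a, ha, by exact_mod_cast hma, ?_⟩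
      rcases hka with h | h
      · exact Or.inl (by exact_mod_cast h)
      · exact Or.inr (by exact_mod_cast h)
    interval_cases h1 : cc X₁ <;> interval_cases h2 : cc X₂
    · exfalso
      refine hsingle s ?_ ?_
      · simp at htrE'; linear_combination -htrE'
      · rw [hquad]; simp at htrE'; linear_combination (r + s) * htrE'
    · refine final s r (by rw [add_comm, hrs]) ?_ ?_
      · simp at htrE'; linear_combination -htrE'
      · rw [hquad]; simp at htrE'; linear_combination (r + s) * htrE'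
    · refine final r s hrs ?_ ?_
      · simp at htrE'; linear_combination -htrE'
      · rw [hquad]; simp at htrE'; linear_combination (r + s) * htrE'
    · exfalso
      refine hsingle r ?_ ?_
      · simp at htrE'; linear_combination -htrE'
      · rw [hquad]; simp at htrE'; linear_combination (r + s) * htrE'
  obtain ⟨b₀, hb₀⟩ := Fintype.exists_ne_of_one_lt_card (show 1 < Fintype.card Ω by omega) a₀
  obtain ⟨a, ha, hma, -⟩ := main b₀ hb₀
  refine ⟨a, ha, hma, fun b hb => ?_⟩
  obtain ⟨a', -, hma', h⟩ := main b hb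
  have : a' = a := by
    rcases lt_trichotomy a' a with hlt | he | hlt
    · exfalso; nlinarith
    · exact he
    · exfalso; nlinarith
  rw [this] at h
  exact h

end Cfsg.Agent.S0719
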