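import Cfsg.Statements.S0722
import Mathlib

set_option autoImplicit false
open Cfsg

namespace Cfsg.Agent.S0722

/-- In a primitive group `H`, with `N` a minimal normal subgroup and `K` a point stabiliser, `K ⊓ N` is maximal among proper `K`-invariant subgroups of `N`. -/
theorem result {α : Type*} [Finite α] (H : Subgroup (Equiv.Perm α)) [MulAction.IsPreprimitive H α] (N : Subgroup H) [N.Normal] (hN : N ≠ ⊥) (hmin : ∀ M : Subgroup H, M.Normal → M ≤ N → M = ⊥ ∨ M = N) (a : α) (X : Subgroup H) (hX : X ≤ N) (hKX : MulAction.stabilizer H a ⊓ N ≤ X) (hinv : MulAction.stabilizer H a ≤ Subgroup.normalizer (X : Set H)) : X = MulAction.stabilizer H a ⊓ N ∨ X = N := by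
  classical
  have hnt : Nontrivial α := by
    by_contra h
    rw [not_nontrivial_iff_subsingleton] at h
    exact hN (Subsingleton.elim _ _)
  have hK := MulAction.IsPreprimitive.isCoatom_stabilizer_of_isPreprimitive (G := H) a
  rcases hK.le_iff.1 (le_sup_left (b := X)) with h | h
  · right
    refine le_antisymm hX fun n hn => ?_
    have hn' : n ∈ ((MulAction.stabilizer H a ⊔ X : Subgroup H) : Set H) := by
      rw [h]; trivial
    rw [Subgroup.coe_mul_of_left_le_normalizer_right _ _ hinv] at hn'
    obtain ⟨k, hk, x, hx, rfl⟩ := hn'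
    have hkN : k ∈ N := by simpa using N.mul_mem hn (N.inv_mem (hX hx))
    exact X.mul_mem (hKX ⟨hk, hkN⟩) hx
  · left
    exact le_antisymm (le_inf (sup_eq_left.1 h) hX) hKX

end Cfsg.Agent.S0722
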