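import Cfsg.Statements.S0723
import Cfsg.Agent.H37.MinimalNormal

set_option autoImplicit false
open Cfsg

namespace Cfsg.Agent.S0723

variable {T : Type} [Group T] [IsSimpleGroup T]

theorem commutator_eq_top (hT : ¬ IsMulCommutative T) : commutator T = ⊤ := by
  rcases (inferInstance : (commutator T).Normal).eq_bot_or_eq_top with h | h
  · exfalso
    refine hT ⟨⟨fun x y => ?_⟩⟩
    have h1 := (Subgroup.commutator_mem_commutator (Subgroup.mem_top x) (Subgroup.mem_top y))
    rw [← commutator_def, h, Subgroup.mem_bot, commutatorElement_eq_one_iff_mul_comm] at h1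
    exact h1
  · exact h

theorem exists_coord_of_hom (hT : ¬ IsMulCommutative T) {m : ℕ} (q : (Fin m → T) →* T)
    (hq : Function.Surjective q) :
    ∃ (i : Fin m) (ψ : T ≃* T), ∀ f, q f = ψ (f i) := by
  classical
  let r : Fin m → T →* T := fun i => q.comp (MonoidHom.mulSingle (fun _ => T) i)
  have hr : ∀ i, (r i).range = ⊥ ∨ (r i).range = ⊤ := by
    intro i
    have hn : (r i).range.Normal := by
      refine ⟨?_⟩
      rintro _ ⟨x, rfl⟩ g
      obtain ⟨f, rfl⟩ := hq g
      refine ⟨f i * x * (f i)⁻¹, ?_⟩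
      show q (Pi.mulSingle i (f i * x * (f i)⁻¹)) = q f * q (Pi.mulSingle i x) * (q f)⁻¹
      rw [← map_inv, ← map_mul, ← map_mul]
      congr 1
      funext l
      rcases eq_or_ne l i with rfl | hl
      · simp
      · simp [Pi.mulSingle_eq_of_ne hl]
    exact hn.eq_bot_or_eq_top
  obtain ⟨i, hi⟩ : ∃ i, (r i).range = ⊤ := by
    by_contra h
    push Not at h
    have hq1 : q = 1 := MonoidHom.pi_ext fun i x => by
      have : r i x ∈ (r i).range := ⟨x, rfl⟩
      rw [(hr i).resolve_right (h i), Subgroup.mem_bot] at this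
      exact this
    obtain ⟨x, hx⟩ := exists_ne (1 : T)
    obtain ⟨f, hf⟩ := hq x
    rw [hq1, MonoidHom.one_apply] at hf
    exact hx hf.symm
  have hother : ∀ j, j ≠ i → ∀ x, r j x = 1 := by
    intro j hj x
    by_contra hx
    have hjt : (r j).range = ⊤ := (hr j).resolve_left fun e => hx (by
      have : r j x ∈ (r j).range := ⟨x, rfl⟩
      rwa [e, Subgroup.mem_bot] at this)
    refine hT ⟨⟨fun u v => ?_⟩⟩
    obtain ⟨u', rfl⟩ : u ∈ (r j).range := hjt ▸ Subgroup.mem_top u
    obtain ⟨v', rfl⟩ : v ∈ (r i).range := hi ▸ Subgroup.mem_top v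
    show q (Pi.mulSingle j u') * q (Pi.mulSingle i v') = q (Pi.mulSingle i v') * q (Pi.mulSingle j u')
    rw [← map_mul, ← map_mul, (Pi.mulSingle_commute (f := fun _ : Fin m => T) hj u' v').eq]
  have hsurj : Function.Surjective (r i) := MonoidHom.range_eq_top.1 hi
  have hinj : Function.Injective (r i) := by
    rcases (inferInstance : (r i).ker.Normal).eq_bot_or_eq_top with h | h
    · exact (MonoidHom.ker_eq_bot_iff _).1 h
    · exfalso
      obtain ⟨x, hx⟩ := exists_ne (1 : T)
      obtain ⟨y, rfl⟩ := hsurj x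
      exact hx (MonoidHom.mem_ker.1 (h ▸ Subgroup.mem_top y))
  refine ⟨i, MulEquiv.ofBijective (r i) ⟨hinj, hsurj⟩, fun f => ?_⟩
  show q f = r i (f i)
  have e : q = (r i).comp (Pi.evalMonoidHom (fun _ => T) i) := MonoidHom.pi_ext fun j x => by
    rcases eq_or_ne j i with rfl | hj
    · simp [r]
    · rw [MonoidHom.comp_apply, Pi.evalMonoidHom_apply, Pi.mulSingle_eq_of_ne (Ne.symm hj), map_one]
      exact hother j hj x
  conv_lhs => rw [e]
  rfl

theorem exists_perm_of_aut (hT : ¬ IsMulCommutative T) {m : ℕ} (φ : (Fin m → T) ≃* (Fin m → T)) :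
    ∃ (σ : Equiv.Perm (Fin m)) (ψ : Fin m → T ≃* T), ∀ f j, φ f j = ψ j (f (σ j)) := by
  classical
  have h : ∀ j, ∃ (i : Fin m) (ψ : T ≃* T), ∀ f, φ f j = ψ (f i) := fun j =>
    exists_coord_of_hom hT ((Pi.evalMonoidHom (fun _ => T) j).comp φ.toMonoidHom)
      fun x => ⟨φ.symm (Pi.mulSingle j x), by simp⟩
  choose σ ψ hψ using h
  have hσ : Function.Surjective σ := by
    intro i
    by_contra hne
    push Not at hne
    obtain ⟨x, hx⟩ := exists_ne (1 : T)
    have : φ (Pi.mulSingle i x) = 1 := funext fun j => by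
      rw [hψ, Pi.mulSingle_eq_of_ne (hne j), map_one]
      rfl
    rw [MulEquiv.map_eq_one_iff] at this
    exact hx (Pi.mulSingle_eq_one_iff.1 this)
  exact ⟨Equiv.ofBijective σ (Finite.surjective_iff_bijective.1 hσ), ψ, fun f j => hψ j f⟩

theorem exists_separating (hT : ¬ IsMulCommutative T) {S : Type*} [Group S] {ι : Type*} (p : ι → S →* T)
    (hp : ∀ i, Function.Surjective (p i)) (i : ι) (F : Finset ι) (hF : ∀ l ∈ F, (p l).ker ≠ (p i).ker) (x : T) :
    ∃ s : S, p i s = x ∧ ∀ l ∈ F, p l s = 1 := by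
  classical
  induction F using Finset.induction_on generalizing x with
  | empty =>
    obtain ⟨s, hs⟩ := hp i x
    exact ⟨s, hs, fun l hl => absurd hl (Finset.notMem_empty l)⟩
  | @insert l F hl ih =>
    have hne := hF l (Finset.mem_insert_self l F)
    have hln : ((p l).ker.map (p i)).Normal := (inferInstance : (p l).ker.Normal).map _ (hp i)
    have hltop : (p l).ker.map (p i) = ⊤ := by
      refine hln.eq_bot_or_eq_top.resolve_left fun e => ?_
      rw [Subgroup.map_eq_bot_iff] at e
      rcases ((inferInstance : (p i).ker.Normal).map _ (hp l)).eq_bot_or_eq_top with h | h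
      · exact hne (le_antisymm e ((Subgroup.map_eq_bot_iff _).1 h))
      · obtain ⟨y, hy⟩ := exists_ne (1 : T)
        have htop : (p i).ker = ⊤ := by
          rw [eq_top_iff]
          intro s _
          obtain ⟨s', hs', hss⟩ : p l s ∈ (p i).ker.map (p l) := h ▸ Subgroup.mem_top _
          have hd : s'⁻¹ * s ∈ (p l).ker := by rw [MonoidHom.mem_ker, map_mul, map_inv, hss, inv_mul_cancel]
          have := mul_mem hs' (e hd)
          rwa [mul_inv_cancel_left] at this
        obtain ⟨s, rfl⟩ := hp i y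
        exact hy (MonoidHom.mem_ker.1 (htop ▸ Subgroup.mem_top s))
    let A : Subgroup T :=
      { carrier := {x | ∃ s : S, p i s = x ∧ ∀ l' ∈ insert l F, p l' s = 1}
        one_mem' := ⟨1, map_one _, fun l' _ => map_one _⟩
        mul_mem' := by
          rintro _ _ ⟨s, rfl, hs⟩ ⟨s', rfl, hs'⟩
          exact ⟨s * s', map_mul _ _ _, fun l' h => by rw [map_mul, hs l' h, hs' l' h, one_mul]⟩
        inv_mem' := by
          rintro _ ⟨s, rfl, hs⟩
          exact ⟨s⁻¹, map_inv _ _, fun l' h => by rw [map_inv, hs l' h, inv_one]⟩ }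
    have : commutator T ≤ A := by
      rw [commutator_def, Subgroup.commutator_le]
      intro u _ v _
      obtain ⟨s, hs, hsF⟩ := ih (fun l' h => hF l' (Finset.mem_insert_of_mem h)) u
      obtain ⟨s', hs', hs''⟩ : v ∈ (p l).ker.map (p i) := hltop ▸ Subgroup.mem_top v
      refine ⟨s * s' * s⁻¹ * s'⁻¹, by rw [map_mul, map_mul, map_mul, map_inv, map_inv, hs, hs'', commutatorElement_def],
        fun l' h => ?_⟩
      rw [map_mul, map_mul, map_mul, map_inv, map_inv]
      rcases Finset.mem_insert.1 h with rfl | h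
      · simp [MonoidHom.mem_ker.1 hs']
      · simp [hsF l' h]
    exact this ((commutator_eq_top hT).symm ▸ Subgroup.mem_top x)

/-- The core of the O'Nan–Scott Theorem. Let `H` be a primitive permutation group on a finite set whose unique minimal normal subgroup `N` is non-abelian, and `K` a point stabiliser. Then there are a non-abelian simple group `T` and an isomorphism `N ≃* T^m` (`m ≥ 1`) under which `K ⊓ N` becomes either a product `∏ K_i` of proper subgroups `K_i < T`, or the set of functions constant on each block of a partition of the index set into blocks of one common size `k ≥ 2`. -/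
theorem result {α : Type*} [Finite α] (H : Subgroup (Equiv.Perm α)) [MulAction.IsPreprimitive H α] (N : Subgroup H) [N.Normal] (hN : N ≠ ⊥) (hmin : ∀ M : Subgroup H, M.Normal → M ≤ N → M = ⊥ ∨ M = N) (huniq : ∀ L : Subgroup H, L.Normal → L ≠ ⊥ → (∀ M : Subgroup H, M.Normal → M ≤ L → M = ⊥ ∨ M = L) → L = N) (hnab : ¬ IsMulCommutative N) (a : α) : ∃ (T : Type) (_ : Group T) (m : ℕ) (e : N ≃* (Fin m → T)), IsSimpleGroup T ∧ ¬ IsMulCommutative T ∧ 0 < m ∧ ((∃ K : Fin m → Subgroup T, (∀ i, K i ≠ ⊤) ∧ ∀ n : N, (n : H) ∈ MulAction.stabilizer H a ↔ ∀ i, e n i ∈ K i) ∨ (∃ (k : ℕ) (c : Fin m → Fin m), 2 ≤ k ∧ (∀ j : Fin m, Nat.card {i : Fin m // c i = j} = k ∨ Nat.card {i : Fin m // c i = j} = 0) ∧ ∀ n : N, (n : H) ∈ MulAction.stabilizer H a ↔ ∀ i j : Fin m, c i = c j → e n i = e n j)) := by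
  classical
  obtain ⟨T, instT, m, hTs, hm, ⟨e₀⟩⟩ := H37.minimalNormal_iso_pow N hN hmin
  letI := instT
  haveI := hTs
  have hTna : ¬ IsMulCommutative T := fun h => hnab ⟨⟨fun x y => e₀.injective (by
    rw [map_mul, map_mul]
    funext l
    exact h.1.1 _ _)⟩⟩
  haveI : MulAction.IsPretransitive H α := MulAction.IsPreprimitive.toIsPretransitive
  set K := MulAction.stabilizer H a with hKdef
  have hNK : ¬ N ≤ K := fun hle => hN (by
    rw [eq_bot_iff]
    intro n hn
    rw [Subgroup.mem_bot]
    apply Subtype.ext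
    ext x
    obtain ⟨h, rfl⟩ := MulAction.exists_smul_eq H a x
    have h2 : h⁻¹ * n * h ∈ N := by
      have := (inferInstance : N.Normal).conj_mem n hn h⁻¹
      rwa [inv_inv] at this
    have h3 := MulAction.mem_stabilizer_iff.1 (hle h2)
    rw [mul_smul, mul_smul, inv_smul_eq_iff] at h3
    exact h3)
  haveI : Nontrivial α := by
    by_contra hc
    rw [not_nontrivial_iff_subsingleton] at hc
    exact hNK fun n _ => MulAction.mem_stabilizer_iff.2 (Subsingleton.elim _ _)
  have hKmax : IsCoatom K := (MulAction.isCoatom_stabilizer_iff_preprimitive H a).2 inferInstance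
  have hKN : K ⊔ N = ⊤ := (hKmax.le_iff.1 le_sup_left).resolve_right fun h => hNK (sup_eq_left.1 h)
  let φ : H → ((Fin m → T) ≃* (Fin m → T)) := fun h => e₀.symm.trans ((MulAut.conjNormal h : N ≃* N).trans e₀)
  have hφ : ∀ (h : H) (n : N), φ h (e₀ n) = e₀ ((MulAut.conjNormal h : N ≃* N) n) := fun h n => by simp [φ]
  choose σ ψ hσψ using fun h => exists_perm_of_aut hTna (φ h)
  -- the point stabiliser is transitive on coordinates
  have hcoord : ∀ J : Set (Fin m), (∀ k ∈ K, ∀ j, σ k j ∈ J → j ∈ J) → J.Nonempty → J = Set.univ := by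
    intro J hJ hne
    have hJ' : ∀ k ∈ K, ∀ j, j ∈ J → σ k j ∈ J := by
      intro k hk j hj
      have hsub : Set.MapsTo (σ k).symm J J := fun x hx => hJ k hk _ (by rw [Equiv.apply_symm_apply]; exact hx)
      have hbij : Set.SurjOn (σ k).symm J J :=
        ((Set.toFinite J).injOn_iff_bijOn_of_mapsTo hsub).1 (σ k).symm.injective.injOn |>.surjOn
      obtain ⟨x, hx, hxj⟩ := hbij hj
      rw [← hxj, Equiv.apply_symm_apply]
      exact hx
    let P : Subgroup (Fin m → T) := Subgroup.pi Set.univ fun j => if j ∈ J then ⊤ else ⊥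
    have hP : ∀ f, f ∈ P ↔ ∀ j, j ∉ J → f j = 1 := by
      intro f
      simp only [P, Subgroup.mem_pi, Set.mem_univ, true_implies]
      refine forall_congr' fun j => ?_
      split_ifs with h <;> simp [h]
    let M : Subgroup H := (P.comap e₀.toMonoidHom).map N.subtype
    have hMN : M ≤ N := Subgroup.map_subtype_le _
    have hMn : M.Normal := by
      rw [← Subgroup.normalizer_eq_top_iff, eq_top_iff, ← hKN, sup_le_iff]
      have key : ∀ g : H, (∀ j, j ∉ J → σ g j ∉ J) → ∀ x ∈ M, g * x * g⁻¹ ∈ M := by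
        rintro g hg _ ⟨n, hn, rfl⟩
        refine ⟨(MulAut.conjNormal g : N ≃* N) n, ?_, by simp⟩
        rw [SetLike.mem_coe, Subgroup.mem_comap, MulEquiv.coe_toMonoidHom, ← hφ, hP]
        intro j hj
        have hn' : e₀ n ∈ P := hn
        rw [hσψ, (hP _).1 hn' _ (hg j hj), map_one]
      constructor
      · intro k hk
        rw [Subgroup.mem_normalizer_iff]
        refine fun x => ⟨key k (fun j hj h => hj (hJ k hk j h)) x, fun h => ?_⟩
        have := key k⁻¹ (fun j hj h => hj (hJ k⁻¹ (inv_mem hk) j h)) _ h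
        simpa [mul_assoc] using this
      · intro n hn
        have hin : ∀ g ∈ N, ∀ x ∈ M, g * x * g⁻¹ ∈ M := by
          rintro g hg _ ⟨x, hx, rfl⟩
          refine ⟨⟨g, hg⟩ * x * ⟨g, hg⟩⁻¹, ?_, rfl⟩
          rw [SetLike.mem_coe, Subgroup.mem_comap, map_mul, map_mul, hP]
          intro j hj
          have hx' : e₀ x ∈ P := hx
          simp only [MulEquiv.coe_toMonoidHom]
          rw [Pi.mul_apply, Pi.mul_apply, (hP _).1 hx' j hj, mul_one, ← Pi.mul_apply, ← map_mul, mul_inv_cancel,
            map_one, Pi.one_apply]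
        rw [Subgroup.mem_normalizer_iff]
        refine fun x => ⟨hin n hn x, fun h => ?_⟩
        have := hin n⁻¹ (inv_mem hn) _ h
        simpa [mul_assoc] using this
    obtain ⟨j₀, hj₀⟩ := hne
    obtain ⟨t, ht⟩ := exists_ne (1 : T)
    rcases hmin M hMn hMN with h | h
    · exfalso
      have hmem : ((e₀.symm (Pi.mulSingle j₀ t) : N) : H) ∈ M := by
        refine ⟨_, ?_, rfl⟩
        rw [SetLike.mem_coe, Subgroup.mem_comap, MulEquiv.coe_toMonoidHom, MulEquiv.apply_symm_apply, hP]
        exact fun j hj => Pi.mulSingle_eq_of_ne (M := fun _ : Fin m => T) (show j ≠ j₀ from fun e => hj (e.symm ▸ hj₀)) t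
      rw [h, Subgroup.mem_bot, OneMemClass.coe_eq_one, MulEquiv.map_eq_one_iff, Pi.mulSingle_eq_one_iff] at hmem
      exact ht hmem
    · refine Set.eq_univ_of_forall fun j => by_contra fun hj => ?_
      have hmem : ((e₀.symm (Pi.mulSingle j t) : N) : H) ∈ M := by rw [h]; exact (e₀.symm (Pi.mulSingle j t)).2
      obtain ⟨n, hn, hne'⟩ := hmem
      rw [Subtype.ext hne', SetLike.mem_coe, Subgroup.mem_comap, MulEquiv.coe_toMonoidHom, MulEquiv.apply_symm_apply,
        hP] at hn
      have := hn j hj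
      rw [Pi.mulSingle_eq_same] at this
      exact ht this
  let S : Subgroup (Fin m → T) := (K.comap N.subtype).map e₀.toMonoidHom
  have hS : ∀ n : N, e₀ n ∈ S ↔ (n : H) ∈ K := fun n => by
    refine ⟨?_, fun h => ⟨n, h, rfl⟩⟩
    rintro ⟨n', hn', he⟩
    rw [← e₀.injective he]
    exact hn'
  have hSinv : ∀ k ∈ K, ∀ s ∈ S, φ k s ∈ S := by
    rintro k hk _ ⟨n, hn, rfl⟩
    show φ k (e₀ n) ∈ S
    rw [hφ, hS]
    simpa using mul_mem (mul_mem hk hn) (inv_mem hk)
  let R : Fin m → Subgroup T := fun j => S.map (Pi.evalMonoidHom (fun _ => T) j)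
  have hR : ∀ k ∈ K, ∀ j x, x ∈ R (σ k j) → ψ k j x ∈ R j := by
    rintro k hk j _ ⟨s, hs, rfl⟩
    exact ⟨φ k s, hSinv k hk s hs, hσψ k s j⟩
  by_cases hA : ∃ j, R j ≠ ⊤
  · have hall : ∀ j, R j ≠ ⊤ := by
      intro j hj
      obtain ⟨j₀, hj₀⟩ := hA
      have := hcoord {i | R i = ⊤} (fun k hk i hi => by
        show R i = ⊤
        rw [eq_top_iff]
        intro x _
        have h := hR k hk i ((ψ k i).symm x) (by rw [show R (σ k i) = ⊤ from hi]; exact Subgroup.mem_top _)
        rwa [MulEquiv.apply_symm_apply] at h) ⟨j, hj⟩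
      exact hj₀ (Set.eq_univ_iff_forall.1 this j₀)
    refine ⟨T, instT, m, e₀, hTs, hTna, hm, Or.inl ⟨R, hall, fun n => ⟨fun h i => ⟨e₀ n, (hS n).2 h, rfl⟩, fun h => ?_⟩⟩⟩
    let P : Subgroup H := ((Subgroup.pi Set.univ R).comap e₀.toMonoidHom).map N.subtype
    have hPn : K ≤ Subgroup.normalizer (P : Set H) := by
      have key : ∀ k ∈ K, ∀ x ∈ P, k * x * k⁻¹ ∈ P := by
        rintro k hk _ ⟨x, hx, rfl⟩
        refine ⟨(MulAut.conjNormal k : N ≃* N) x, ?_, by simp⟩
        rw [SetLike.mem_coe, Subgroup.mem_comap, MulEquiv.coe_toMonoidHom, ← hφ, Subgroup.mem_pi]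
        intro j _
        rw [hσψ]
        exact hR k hk j _ ((Subgroup.mem_pi _).1 hx _ (Set.mem_univ _))
      intro k hk
      rw [Subgroup.mem_normalizer_iff]
      refine fun x => ⟨key k hk x, fun h' => ?_⟩
      have := key k⁻¹ (inv_mem hk) _ h'
      simpa [mul_assoc] using this
    have hsub : P ≤ K := by
      rcases hKmax.le_iff.1 (le_sup_left : K ≤ K ⊔ P) with htop | heq
      · exfalso
        obtain ⟨j₀, hj₀⟩ := hA
        apply hj₀
        rw [eq_top_iff]
        intro x _
        have hmem : ((e₀.symm (Pi.mulSingle j₀ x) : N) : H) ∈ K ⊔ P := htop ▸ Subgroup.mem_top _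
        rw [← SetLike.mem_coe, Subgroup.coe_mul_of_left_le_normalizer_right K P hPn] at hmem
        obtain ⟨k, hk, p, hp, hkp⟩ := Set.mem_mul.1 hmem
        obtain ⟨n', hn', rfl⟩ := hp
        have hkN : k ∈ N := by
          have : k = ((e₀.symm (Pi.mulSingle j₀ x) : N) : H) * ((n' : H))⁻¹ := by
            rw [← hkp]; simp
          rw [this]
          exact mul_mem (e₀.symm _).2 (inv_mem n'.2)
        have e : e₀.symm (Pi.mulSingle j₀ x) = ⟨k, hkN⟩ * n' := Subtype.ext hkp.symm
        have h2 := congrFun (congrArg e₀ e) j₀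
        rw [MulEquiv.apply_symm_apply, Pi.mulSingle_eq_same, map_mul, Pi.mul_apply] at h2
        rw [h2]
        exact mul_mem ⟨e₀ ⟨k, hkN⟩, (hS _).2 hk, rfl⟩ ((Subgroup.mem_pi _).1 hn' j₀ (Set.mem_univ _))
      · exact sup_eq_left.1 heq
    exact hsub ⟨n, (Subgroup.mem_pi _).2 (fun j _ => h j), rfl⟩
  · push Not at hA
    let p : Fin m → S →* T := fun j => (Pi.evalMonoidHom (fun _ => T) j).comp S.subtype
    have hp : ∀ j, Function.Surjective (p j) := by
      intro j x
      obtain ⟨s, hs, hsx⟩ : x ∈ R j := hA j ▸ Subgroup.mem_top x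
      exact ⟨⟨s, hs⟩, hsx⟩
    let c : Fin m → Fin m := fun j => (Finset.univ.filter fun i => (p i).ker = (p j).ker).min'
      ⟨j, by simp⟩
    have hc : ∀ j, (p (c j)).ker = (p j).ker := fun j => by
      have h := Finset.min'_mem (Finset.univ.filter fun i => (p i).ker = (p j).ker) ⟨j, by simp⟩
      exact (Finset.mem_filter.1 h).2
    have hc_iff : ∀ i j, c i = c j ↔ (p i).ker = (p j).ker := by
      intro i j
      refine ⟨fun h => by rw [← hc i, h, hc], fun h => ?_⟩
      simp only [c, h]
    have hθ : ∀ j, ∃ θ : T ≃* T, ∀ s, θ (p j s) = p (c j) s := by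
      intro j
      let θ₀ : T →* T := (p j).liftOfSurjective (hp j) ⟨p (c j), (hc j).ge⟩
      have hθ₀ : ∀ s, θ₀ (p j s) = p (c j) s := fun s =>
        MonoidHom.liftOfRightInverse_comp_apply (p j) _ _ ⟨p (c j), (hc j).ge⟩ s
      refine ⟨MulEquiv.ofBijective θ₀ ⟨?_, fun x => ?_⟩, hθ₀⟩
      · rw [injective_iff_map_eq_one]
        intro x hx
        obtain ⟨s, rfl⟩ := hp j x
        rw [hθ₀] at hx
        exact MonoidHom.mem_ker.1 (hc j ▸ MonoidHom.mem_ker.2 hx)
      · obtain ⟨s, rfl⟩ := hp (c j) x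
        exact ⟨p j s, hθ₀ s⟩
    choose θ hθ using hθ
    let e : N ≃* (Fin m → T) := e₀.trans (MulEquiv.piCongrRight θ)
    have he : ∀ n j, e n j = θ j (e₀ n j) := fun n j => rfl
    have hconst : ∀ n : N, (n : H) ∈ K ↔ ∀ i j : Fin m, c i = c j → e n i = e n j := by
      intro n
      constructor
      · intro hn i j hij
        have h1 := hθ i ⟨e₀ n, (hS n).2 hn⟩
        have h2 := hθ j ⟨e₀ n, (hS n).2 hn⟩
        rw [hij] at h1
        exact h1.trans h2.symm
      · intro hcn
        have key : ∀ F : Finset (Fin m), ∃ s : S, ∀ j, (c j ∈ F → p j s = e₀ n j) ∧ (c j ∉ F → p j s = 1) := by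
          intro F
          induction F using Finset.induction_on with
          | empty => exact ⟨1, fun j => ⟨fun h => absurd h (Finset.notMem_empty _), fun _ => map_one _⟩⟩
          | @insert i F hi ih =>
            obtain ⟨s, hs⟩ := ih
            by_cases hfix : c i = i
            · obtain ⟨u, hu, hu'⟩ := exists_separating hTna p hp i (Finset.univ.filter fun l => c l ≠ i)
                (fun l hl hk => (Finset.mem_filter.1 hl).2 (((hc_iff l i).2 hk).trans hfix)) (e₀ n i)
              refine ⟨u * s, fun j => ⟨fun hj => ?_, fun hj => ?_⟩⟩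
              · rcases Finset.mem_insert.1 hj with hj | hj
                · rw [map_mul, (hs j).2 (fun h => hi (hj ▸ h)), mul_one]
                  apply (θ j).injective
                  rw [hθ, hj, hu, ← he n j, hcn j i (hj.trans hfix.symm), he]
                  have h1 := hθ i u
                  rw [hfix, hu] at h1
                  exact h1.symm
                · rw [map_mul, hu' j (Finset.mem_filter.2 ⟨Finset.mem_univ _, fun h => hi (h ▸ hj)⟩), one_mul,
                    (hs j).1 hj]
              · rw [Finset.mem_insert, not_or] at hj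
                rw [map_mul, hu' j (Finset.mem_filter.2 ⟨Finset.mem_univ _, hj.1⟩), one_mul, (hs j).2 hj.2]
            · refine ⟨s, fun j => ⟨fun hj => (hs j).1 ((Finset.mem_insert.1 hj).resolve_left fun h => hfix ?_),
                fun hj => (hs j).2 fun h => hj (Finset.mem_insert_of_mem h)⟩⟩
              rw [← h]
              exact (hc_iff _ _).2 (hc j)
        obtain ⟨s, hs⟩ := key Finset.univ
        rw [← hS, show e₀ n = (s : Fin m → T) from funext fun j => ((hs j).1 (Finset.mem_univ _)).symm]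
        exact s.2
    let cnt : Fin m → ℕ := fun j => Nat.card {i : Fin m // (p i).ker = (p j).ker}
    have hcnt : ∀ k ∈ K, ∀ j, cnt (σ k j) = cnt j := by
      intro k hk j
      refine (Nat.card_congr (Equiv.subtypeEquiv (σ k) fun i => ?_)).symm
      have hker : ∀ (l : Fin m) (s : S), s ∈ (p (σ k l)).ker ↔ (⟨φ k s, hSinv k hk s s.2⟩ : S) ∈ (p l).ker := by
        intro l s
        rw [MonoidHom.mem_ker, MonoidHom.mem_ker]
        show (s : Fin m → T) (σ k l) = 1 ↔ φ k s l = 1
        rw [hσψ, MulEquiv.map_eq_one_iff]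
      constructor
      · intro h
        ext s
        rw [hker, hker, h]
      · intro h
        ext s
        have hinv : e₀.symm (s : Fin m → T) = ⟨((e₀.symm (s : Fin m → T) : N) : H), (e₀.symm _).2⟩ := rfl
        obtain ⟨n, hn, hns⟩ := s.2
        have hk' : φ k⁻¹ (s : Fin m → T) ∈ S := hSinv _ (inv_mem hk) _ s.2
        have hback : φ k (φ k⁻¹ (s : Fin m → T)) = (s : Fin m → T) := by
          rw [← hns]
          show φ k (φ k⁻¹ (e₀ n)) = e₀ n
          rw [hφ, hφ]
          congr 1
          apply Subtype.ext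
          simp [mul_assoc]
        have h1 := hker i ⟨_, hk'⟩
        have h2 := hker j ⟨_, hk'⟩
        simp only [hback] at h1 h2
        rw [h] at h1
        exact h1.symm.trans h2
    let k₀ := cnt ⟨0, hm⟩
    have hcnt' : ∀ j, cnt j = k₀ := fun j => Set.eq_univ_iff_forall.1
      (hcoord {j | cnt j = k₀} (fun k hk i hi => (hcnt k hk i).symm.trans hi) ⟨⟨0, hm⟩, rfl⟩) j
    refine ⟨T, instT, m, e, hTs, hTna, hm, Or.inr ⟨k₀, c, ?_, fun j => ?_, hconst⟩⟩
    · by_contra h
      apply hNK
      intro n hn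
      refine (hconst ⟨n, hn⟩).2 fun i j hij => ?_
      have hle : cnt i ≤ 1 := by rw [hcnt']; omega
      have : Subsingleton {l : Fin m // (p l).ker = (p i).ker} := Finite.card_le_one_iff_subsingleton.1 hle
      rw [show j = i from congrArg Subtype.val (this.elim ⟨j, ((hc_iff i j).1 hij).symm⟩ ⟨i, rfl⟩)]
    · by_cases hj : ∃ i, c i = j
      · left
        obtain ⟨i, rfl⟩ := hj
        rw [← hcnt' i]
        exact Nat.card_congr (Equiv.subtypeEquivRight fun l => hc_iff l i)
      · right
        haveI : IsEmpty {i : Fin m // c i = j} := ⟨fun i => hj ⟨i, i.2⟩⟩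
        exact Nat.card_of_isEmpty

end Cfsg.Agent.S0723
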