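import Cfsg.Statements.S0724
import Mathlib

set_option autoImplicit false
open Cfsg

namespace Cfsg.Agent.S0724

/-- Blichfeldt's Theorem: if a finite set `L` of natural numbers contains the number of fixed points of every non-identity element of a permutation group `G` of degree `n`, then the order of `G` divides `∏ (n - l)` over `l ∈ L`. -/
theorem result {α : Type*} [Fintype α] [DecidableEq α] (G : Subgroup (Equiv.Perm α)) (L : Finset ℕ) (hL : ∀ g ∈ G, g ≠ 1 → Nat.card (MulAction.fixedBy α g) ∈ L) : Nat.card G ∣ ∏ l ∈ L, (Fintype.card α - l) := by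
  classical
  by_cases hbig : ∃ l ∈ L, Fintype.card α ≤ l
  · obtain ⟨l, hl, hn⟩ := hbig
    rw [Finset.prod_eq_zero hl (Nat.sub_eq_zero_of_le hn)]
    exact dvd_zero _
  push Not at hbig
  let P : Polynomial ℤ := ∏ l ∈ L, (Polynomial.X - Polynomial.C (l : ℤ))
  have hburn : ∀ j : ℕ, (Nat.card G : ℤ) ∣ ∑ g : G, (Nat.card (MulAction.fixedBy α g) : ℤ) ^ j := by
    intro j
    have hf : ∀ g : G, Nat.card (MulAction.fixedBy (Fin j → α) g) = Nat.card (MulAction.fixedBy α g) ^ j := by
      intro g
      rw [Nat.card_congr (show MulAction.fixedBy (Fin j → α) g ≃ (Fin j → MulAction.fixedBy α g) from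
        { toFun := fun f i => ⟨f.1 i, congrFun f.2 i⟩
          invFun := fun f => ⟨fun i => (f i).1, funext fun i => (f i).2⟩
          left_inv := fun f => rfl
          right_inv := fun f => rfl })]
      simp
    have hb := MulAction.sum_card_fixedBy_eq_card_orbits_mul_card_group G (Fin j → α)
    refine ⟨(Nat.card (MulAction.orbitRel.Quotient G (Fin j → α)) : ℤ), ?_⟩
    simp only [← Nat.card_eq_fintype_card] at hb
    have hb' := congrArg (fun n : ℕ => (n : ℤ)) hb
    simp only [hf, Nat.cast_sum, Nat.cast_mul, Nat.cast_pow] at hb'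
    rw [hb', mul_comm]
  have hsum : (Nat.card G : ℤ) ∣ ∑ g : G, P.eval (Nat.card (MulAction.fixedBy α g) : ℤ) := by
    simp only [Polynomial.eval_eq_sum_range]
    rw [Finset.sum_comm]
    exact Finset.dvd_sum fun j _ => by rw [← Finset.mul_sum]; exact (hburn j).mul_left _
  rw [Finset.sum_eq_single (1 : G)] at hsum
  · have h1 : Nat.card (MulAction.fixedBy α (1 : G)) = Fintype.card α := by simp
    rw [h1] at hsum
    simp only [P, Polynomial.eval_prod, Polynomial.eval_sub, Polynomial.eval_X, Polynomial.eval_C] at hsum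
    have h2 : (∏ l ∈ L, ((Fintype.card α : ℤ) - (l : ℤ))) = ((∏ l ∈ L, (Fintype.card α - l) : ℕ) : ℤ) := by
      rw [Nat.cast_prod]
      exact Finset.prod_congr rfl fun l hl => (Nat.cast_sub (hbig l hl).le).symm
    rw [h2] at hsum
    exact_mod_cast hsum
  · intro g _ hg
    simp only [P, Polynomial.eval_prod]
    refine Finset.prod_eq_zero (hL (g : Equiv.Perm α) g.2 (fun h => hg (Subtype.ext h))) ?_
    have : Nat.card (MulAction.fixedBy α g) = Nat.card (MulAction.fixedBy α (g : Equiv.Perm α)) := rfl
    rw [this]; simp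
  · simp

end Cfsg.Agent.S0724
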