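import Cfsg.Statements.S0726
import Mathlib

set_option autoImplicit false
open Cfsg

namespace Cfsg.Agent.S0726

/-- The left and right regular permutation representations of a group are each other's centralisers in the symmetric group: the centraliser of the left regular image is the right regular image, and a transitive subgroup centralising the left regular image is the whole right regular image. -/
theorem result {G : Type*} [Group G] : Subgroup.centralizer ((MulAction.toPermHom G G).range : Set (Equiv.Perm G)) = (MulAction.toPermHom Gᵐᵒᵖ G).range ∧ ∀ H : Subgroup (Equiv.Perm G), H ≤ Subgroup.centralizer ((MulAction.toPermHom G G).range : Set (Equiv.Perm G)) → MulAction.IsPretransitive H G → H = (MulAction.toPermHom Gᵐᵒᵖ G).range := by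
  have key : ∀ σ : Equiv.Perm G, σ ∈ Subgroup.centralizer ((MulAction.toPermHom G G).range : Set (Equiv.Perm G)) →
      σ = MulAction.toPermHom Gᵐᵒᵖ G (MulOpposite.op (σ 1)) := by
    intro σ hσ
    ext x
    have h := Equiv.ext_iff.1 (hσ (MulAction.toPermHom G G x) ⟨x, rfl⟩) 1
    simp at h ⊢
    exact h.symm
  have hsub : (MulAction.toPermHom Gᵐᵒᵖ G).range ≤ Subgroup.centralizer ((MulAction.toPermHom G G).range : Set (Equiv.Perm G)) := by
    rintro _ ⟨g, rfl⟩ _ ⟨x, rfl⟩
    ext y
    simp [MulOpposite.smul_eq_mul_unop, mul_assoc]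
  refine ⟨le_antisymm (fun σ hσ => ⟨_, (key σ hσ).symm⟩) hsub, fun H hH ht => ?_⟩
  refine le_antisymm (fun σ hσ => ⟨_, (key σ (hH hσ)).symm⟩) ?_
  rintro _ ⟨g, rfl⟩
  obtain ⟨h, hh⟩ := MulAction.exists_smul_eq H (1 : G) g.unop
  have h1 : (h : Equiv.Perm G) 1 = g.unop := hh
  have h2 := key (h : Equiv.Perm G) (hH h.2)
  rw [h1, MulOpposite.op_unop] at h2
  rw [← h2]
  exact h.2

end Cfsg.Agent.S0726
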