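import Cfsg.Statements.S0729
import Cfsg.Agent.H7.ZassSharp
-- import your own Cfsg.Agent.* helpers here

set_option autoImplicit false
open Cfsg

namespace Cfsg.Agent.S0729

/-- In a sharply triply transitive group of even degree at least 6, the two-point stabiliser `H = G_{a,b}` has a normal subgroup of index 2 that is normalised by the element `s` interchanging `a, b` and fixing a third point `c`. -/
theorem result {α : Type*} [Fintype α] [DecidableEq α] (heven : Even (Fintype.card α)) (h6 : 6 ≤ Fintype.card α) (G : Subgroup (Equiv.Perm α)) (h3 : MulAction.IsMultiplyPretransitive G α 3) (hsharp : ∀ x : Fin 3 ↪ α, MulAction.stabilizer G x = ⊥) {a b c : α} (hab : a ≠ b) (hac : a ≠ c) (hbc : b ≠ c) (s : G) (hsa : s • a = b) (hsb : s • b = a) (hsc : s • c = c) : ∃ N : Subgroup G, N ≤ MulAction.stabilizer G a ⊓ MulAction.stabilizer G b ∧ (N.subgroupOf (MulAction.stabilizer G a ⊓ MulAction.stabilizer G b)).Normal ∧ N.relIndex (MulAction.stabilizer G a ⊓ MulAction.stabilizer G b) =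 2 ∧ ∀ n ∈ N, s * n * s⁻¹ ∈ N := by
  obtain ⟨Z, hc⟩ := Cfsg.Agent.H7.ZHyp.of_sharply (by omega) h3 hsharp
  obtain ⟨N, hN, hinv⟩ := Z.exists_index_two_invariant hab heven h6 (hc hab) hsa hsb
  refine ⟨N.map (MulAction.stabilizer G a ⊓ MulAction.stabilizer G b).subtype, Subgroup.map_subtype_le N, ?_, ?_, ?_⟩
  · rw [Subgroup.subgroupOf, Subgroup.comap_map_eq_self_of_injective Subtype.val_injective]
    exact Subgroup.normal_of_index_eq_two hN
  · rw [Subgroup.relIndex, Subgroup.subgroupOf, Subgroup.comap_map_eq_self_of_injective Subtype.val_injective]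
    exact hN
  · rintro _ ⟨n, hn, rfl⟩
    have hm : s * n.1 * s⁻¹ ∈ MulAction.stabilizer G a ⊓ MulAction.stabilizer G b :=
      ⟨(show (s * n.1 * s⁻¹) • a = a by
          rw [mul_smul, mul_smul, inv_smul_eq_iff.2 hsb.symm, show n.1 • b = b from n.2.2, hsb]),
       (show (s * n.1 * s⁻¹) • b = b by
          rw [mul_smul, mul_smul, inv_smul_eq_iff.2 hsa.symm, show n.1 • a = a from n.2.1, hsa])⟩
    exact ⟨⟨_, hm⟩, (hinv n ⟨_, hm⟩ rfl).2 hn, rfl⟩

end Cfsg.Agent.S0729
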