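import Cfsg.Statements.S0731
import Cfsg.Agent.H7.ZassFeit
-- import your own Cfsg.Agent.* helpers here

set_option autoImplicit false
open Cfsg

namespace Cfsg.Agent.S0731

/-- A finite Zassenhaus group whose point stabiliser has an abelian regular normal subgroup on the remaining points is sharply triply transitive or isomorphic to `PSL(2, F)` for a finite field `F` of odd characteristic. -/
theorem result {G Ω : Type*} [Group G] [Finite G] [MulAction G Ω] [Finite Ω] (hZ : Cfsg.IsZassenhausGroup G Ω) (x : Ω) (F : Subgroup G) (hFle : F ≤ MulAction.stabilizer G x) (hFn : (F.subgroupOf (MulAction.stabilizer G x)).Normal) (hFab : IsMulCommutative F) (hreg : ∀ y z : Ω, y ≠ x → z ≠ x → ∃! u : F, (u : G) • y = z) : (MulAction.IsMultiplyPretransitive G Ω 3 ∧ ∀ t : Fin 3 ↪ Ω, MulAction.stabilizer G t = ⊥) ∨ ∃ (K : Type) (_ : Field K) (_ : Fintype K), ringChar K ≠ 2 ∧ Nonempty (G ≃* Matrix.ProjectiveSpecialLinearGroup (Fin 2) K) := by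
  haveI := Fintype.ofFinite Ω
  have Z := Cfsg.Agent.H7.ZHyp.of_zassenhaus hZ
  obtain ⟨y, hy⟩ : ∃ y, y ≠ x := by
    obtain ⟨g, -, u, v, huv, -, -⟩ := Z.fix
    by_cases h : u = x
    · exact ⟨v, fun e => huv (h.trans e.symm)⟩
    · exact ⟨u, h⟩
  have K := Cfsg.Agent.H7.ZK.of_normal hZ hy.symm hFle hFn hreg
  rcases Cfsg.Agent.H7.abelian_kernel_classify hZ K
    (fun u hu v hv => congrArg Subtype.val (mul_comm' (⟨u, hu⟩ : F) ⟨v, hv⟩)) with h | ⟨L, i1, i2, h1, -, h3⟩
  · exact Or.inl h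
  · exact Or.inr ⟨L, i1, i2, h1, h3⟩

end Cfsg.Agent.S0731
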