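import Cfsg.Statements.S0732
import Cfsg.Agent.H7.PrimeDegree
import Cfsg.Agent.H7.ZassFeit
import Cfsg.Agent.S0727
import Cfsg.Agent.S0730
import Cfsg.Agent.H6.FieldEquiv
-- import your own Cfsg.Agent.* helpers here

set_option autoImplicit false
open Cfsg

namespace Cfsg.Agent.S0732

/-- A transitive permutation group on `p + 1` points (`p` prime) of order `(p+1) p d` with `d < p` is isomorphic to `PGL(2,p)` with `d = p - 1`, or to `PSL(2,p)` with `2d = p - 1`, or else `p + 1 = 2^q` for a prime `q`, `d = 1` or `d = q`, and the group is permutation-isomorphic to a group of semi-affine maps `x ↦ a φ(x) + b` of the field with `2^q` elements. -/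
theorem result {α : Type*} [Fintype α] [DecidableEq α] {p d : ℕ} (hp : p.Prime) (hα : Fintype.card α = p + 1) (G : Subgroup (Equiv.Perm α)) [MulAction.IsPretransitive G α] (hG : Nat.card G = (p + 1) * p * d) (hd : d < p) : (d = p - 1 ∧ Nonempty (G ≃* Matrix.ProjGenLinGroup (Fin 2) (ZMod p))) ∨ (2 * d = p - 1 ∧ Nonempty (G ≃* Matrix.ProjectiveSpecialLinearGroup (Fin 2) (ZMod p))) ∨ (∃ q : ℕ, q.Prime ∧ p + 1 = 2 ^ q ∧ (d = 1 ∨ d = q) ∧ ∃ e : α ≃ GaloisField 2 q, ∀ g : G, (e.symm.trans (((g : Equiv.Perm α)).trans e)) ∈ Cfsg.semiaffineGroup (GaloisField 2 q)) := by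
  haveI hp' : Fact p.Prime := ⟨hp⟩
  haveI : Nonempty α := Fintype.card_pos_iff.1 (by omega)
  obtain ⟨a⟩ := ‹Nonempty α›
  obtain ⟨b, U, P⟩ := Cfsg.Agent.H7.exists_pdeg hp hα hG hd a
  have hd0 : 0 < d := P.cardH ▸ Nat.card_pos
  rcases eq_or_ne p 2 with rfl | hp2
  · -- three points
    obtain rfl : d = 1 := by omega
    refine Or.inl ⟨rfl, ?_⟩
    have hT : G = ⊤ := Subgroup.eq_top_of_card_eq G (by
      rw [hG, Nat.card_eq_fintype_card, Fintype.card_perm, hα]; rfl)
    have h3 : MulAction.IsMultiplyPretransitive G α 3 := by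
      refine MulAction.isMultiplyPretransitive_iff.2 fun x y => ?_
      have hb : ∀ z : Fin 3 ↪ α, Function.Bijective z := fun z =>
        (Fintype.bijective_iff_injective_and_card z).2 ⟨z.injective, by rw [hα, Fintype.card_fin]⟩
      refine ⟨⟨(Equiv.ofBijective x (hb x)).symm.trans (Equiv.ofBijective y (hb y)), hT ▸ Subgroup.mem_top _⟩, ?_⟩
      refine Function.Embedding.ext fun i => ?_
      show Equiv.ofBijective y (hb y) ((Equiv.ofBijective x (hb x)).symm (x i)) = y i
      rw [Equiv.ofBijective_symm_apply_apply]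
      rfl
    have hs : ∀ t : Fin 3 ↪ α, MulAction.stabilizer G t = ⊥ := fun t => by
      rw [Subgroup.eq_bot_iff_forall]
      intro g hg
      have h : ∀ i, g • t i = t i := fun i => congrFun (congrArg DFunLike.coe hg) i
      exact P.three g (t 0) (t 1) (t 2) (t.injective.ne (by decide)) (t.injective.ne (by decide))
        (t.injective.ne (by decide)) (h 0) (h 1) (h 2)
    obtain ⟨F, i1, i2, hF, ⟨e⟩⟩ := Cfsg.Agent.S0727.result (f := 1) le_rfl hα G h3 hs
    exact ⟨e.trans (Cfsg.Agent.H6.pglEquiv (FiniteField.ringEquivOfCardEq (by rw [hF, ZMod.card, pow_one])))⟩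
  by_cases hR : ∃ N : Subgroup G, N.Normal ∧ MulAction.IsPretransitive N α ∧
      ∀ x : α, MulAction.stabilizer N x = ⊥
  · obtain ⟨R, hR1, hR2, hR3⟩ := hR
    obtain ⟨q, _, h1, h2, h3, e, he⟩ := P.semiaffine hp hp2 hα R hR1 hR3
    exact Or.inr (Or.inr ⟨q, h1, h2, h3, e, fun g => he g⟩)
  have hd1 : 1 < d := by
    by_contra h
    obtain rfl : d = 1 := by omega
    exact hR (P.exists_regular hp)
  push Not at hR
  obtain ⟨hZ, K⟩ := P.zassenhaus hd1 hR
  have hk := K.dvd_degree
  rcases Cfsg.Agent.H7.abelian_kernel_classify hZ K P.comm with ⟨h3, hs⟩ | ⟨F, i1, i2, -, hF, ⟨e⟩⟩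
  · left
    obtain ⟨F, i1, i2, hF, ⟨e⟩⟩ := Cfsg.Agent.S0730.result hp hp2 odd_one (by rw [pow_one]; exact hα) G h3 hs
    rw [pow_one] at hF
    refine ⟨?_, ⟨e.trans (Cfsg.Agent.H6.pglEquiv (FiniteField.ringEquivOfCardEq (by rw [hF, ZMod.card])))⟩⟩
    obtain ⟨c, hca, hcb⟩ := K.z.exists_move P.ne
    let t : Fin 3 ↪ α := ⟨![a, b, c], by
      intro i j hij
      have := P.ne
      fin_cases i <;> fin_cases j <;> simp_all⟩
    have hbij : Function.Bijective fun g : G => g • t :=
      ⟨fun g k e => by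
        have hi : ∀ i, (k⁻¹ * g) • t i = t i := fun i => by
          rw [mul_smul, inv_smul_eq_iff]
          exact congrFun (congrArg DFunLike.coe e) i
        exact (inv_mul_eq_one.1 (P.three _ a b c P.ne hcb.symm hca.symm (hi 0) (hi 1) (hi 2))).symm, fun y => by
        obtain ⟨g, hg⟩ := MulAction.isMultiplyPretransitive_iff.1 h3 t y
        exact ⟨g, Function.Embedding.ext fun i => congrFun (congrArg DFunLike.coe hg) i⟩⟩
    have h := Nat.card_eq_of_bijective _ hbij
    rw [hG, Nat.card_eq_fintype_card, Fintype.card_embedding_eq, Fintype.card_fin, hα] at h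
    simp only [Nat.descFactorial_succ, Nat.descFactorial_zero, mul_one, Nat.sub_zero, Nat.add_sub_cancel] at h
    have h2 : p + 1 - 2 = p - 1 := by omega
    rw [h2] at h
    refine Nat.eq_of_mul_eq_mul_left (Nat.mul_pos (Nat.succ_pos p) hp.pos) ?_
    rw [h, Nat.succ_eq_add_one]; ring
  · right; left
    have hFp : Fintype.card F = p := by omega
    refine ⟨?_, ⟨e.trans (Cfsg.Agent.H6.pslEquiv (FiniteField.ringEquivOfCardEq (by rw [hFp, ZMod.card])))⟩⟩
    have h := Nat.card_congr e.toEquiv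
    have h2 := Cfsg.Agent.H6.card_psl2_mul (F := F) hFp
    rw [← h, hG, Nat.gcd_eq_left (even_iff_two_dvd.1 (hp.even_sub_one hp2)),
      show p ^ 2 - 1 = (p + 1) * (p - 1) by rw [← Nat.sq_sub_sq, one_pow]] at h2
    refine Nat.eq_of_mul_eq_mul_left (Nat.mul_pos (Nat.succ_pos p) hp.pos) ?_
    calc (p + 1) * p * (2 * d) = (p + 1) * p * d * 2 := by ring
      _ = p * ((p + 1) * (p - 1)) := h2
      _ = (p + 1) * p * (p - 1) := by ring

end Cfsg.Agent.S0732
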