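import Cfsg.Statements.S0733
import Mathlib

set_option autoImplicit false
open Cfsg
open scoped Pointwise

namespace Cfsg.Agent.S0733

/-- A permutation group of affine type — generated by the translations of a finite vector space `V` over `ZMod p` together with a group `G₀` of linear automorphisms — is primitive on `V` if and only if `G₀` is irreducible on `V`. -/
theorem result {p : ℕ} [Fact p.Prime] {V : Type*} [AddCommGroup V] [Module (ZMod p) V] [Finite V] [Nontrivial V] (G₀ : Subgroup (V ≃ₗ[ZMod p] V)) (G : Subgroup (Equiv.Perm V)) (hG : ∀ σ : Equiv.Perm V, σ ∈ G ↔ ∃ g ∈ G₀, ∃ b : V, ∀ x : V, σ x = (g : V ≃ₗ[ZMod p] V) x + b) : MulAction.IsPreprimitive G V ↔ ∀ W : Submodule (ZMod p) V, (∀ g ∈ G₀, ∀ v ∈ W, (g : V ≃ₗ[ZMod p] V) v ∈ W) → W = ⊥ ∨ W = ⊤ := by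
  classical
  have htr : ∀ b : V, Equiv.addRight b ∈ G := fun b => (hG _).2 ⟨1, one_mem _, b, fun x => rfl⟩
  haveI : MulAction.IsPretransitive G V :=
    ⟨fun x y => ⟨⟨Equiv.addRight (y - x), htr _⟩, show x + (y - x) = y by simp⟩⟩
  constructor
  · intro hP W hW
    have hB : MulAction.IsBlock G (W : Set V) := by
      rw [MulAction.isBlock_iff_smul_eq_or_disjoint]
      intro σ
      obtain ⟨g, hg, b, hb⟩ := (hG (σ : Equiv.Perm V)).1 σ.2
      by_cases hd : Disjoint (σ • (W : Set V)) (W : Set V)
      · exact Or.inr hd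
      left
      obtain ⟨y, ⟨x, hx, hxy⟩, hy⟩ := Set.not_disjoint_iff.1 hd
      have hbW : b ∈ W := by
        have e : (σ : Equiv.Perm V) x = y := hxy
        rw [hb x] at e
        have : b = y - g x := by rw [← e]; simp
        rw [this]
        exact W.sub_mem hy (hW g hg x hx)
      have hsub : σ • (W : Set V) ⊆ (W : Set V) := by
        rintro _ ⟨z, hz, rfl⟩
        show (σ : Equiv.Perm V) z ∈ W
        rw [hb z]
        exact W.add_mem (hW g hg z hz) hbW
      exact Set.eq_of_subset_of_ncard_le hsub (by rw [Set.ncard_smul_set]) (Set.toFinite _)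
    rcases hP.isTrivialBlock_of_isBlock hB with h | h
    · left
      rw [eq_bot_iff]
      intro x hx
      simpa using h hx W.zero_mem
    · right
      rw [eq_top_iff]
      intro x _
      show x ∈ (W : Set V)
      rw [h]; trivial
  · intro hirr
    refine MulAction.IsPreprimitive.of_isTrivialBlock_base (0 : V) fun {B} h0 hB => ?_
    have hstab : ∀ σ : G, (σ : Equiv.Perm V) 0 ∈ B → ∀ x ∈ B, (σ : Equiv.Perm V) x ∈ B := by
      intro σ hσ x hx
      have h1 : σ • (0 : V) ∈ σ • B := Set.smul_mem_smul_set h0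
      rcases (MulAction.isBlock_iff_smul_eq_or_disjoint.1 hB) σ with e | e
      · rw [← e]; exact Set.smul_mem_smul_set hx
      · exact absurd hσ (Set.disjoint_left.1 e h1)
    have hadd : ∀ x ∈ B, ∀ y ∈ B, x + y ∈ B := fun x hx y hy =>
      hstab ⟨Equiv.addRight y, htr y⟩ (show 0 + y ∈ B by rwa [zero_add]) x hx
    have hn : ∀ (n : ℕ), ∀ x ∈ B, n • x ∈ B := by
      intro n x hx
      induction n with
      | zero => rwa [zero_smul]
      | succ n ih => rw [succ_nsmul]; exact hadd _ ih _ hx
    let W : Submodule (ZMod p) V :=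
      { carrier := B
        add_mem' := fun {x y} hx hy => hadd x hx y hy
        zero_mem' := h0
        smul_mem' := by
          intro c x hx
          rw [← ZMod.natCast_zmod_val c, Nat.cast_smul_eq_nsmul]
          exact hn _ x hx }
    have hWinv : ∀ g ∈ G₀, ∀ v ∈ W, (g : V ≃ₗ[ZMod p] V) v ∈ W := by
      intro g hg v hv
      have hσ : g.toEquiv ∈ G := (hG _).2 ⟨g, hg, 0, fun x => by simp⟩
      exact hstab ⟨g.toEquiv, hσ⟩ (show g 0 ∈ B by rwa [map_zero]) v hv
    rcases hirr W hWinv with h | h
    · left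
      intro x hx y hy
      have hx' : x ∈ W := hx
      have hy' : y ∈ W := hy
      rw [h, Submodule.mem_bot] at hx' hy'
      rw [hx', hy']
    · right
      refine Set.eq_univ_of_forall fun x => ?_
      show x ∈ W
      rw [h]; trivial

end Cfsg.Agent.S0733
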