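import Cfsg.Statements.S0734
import Mathlib

set_option autoImplicit false
open Cfsg
open scoped Pointwise

namespace Cfsg.Agent.S0734

/-- Higman's criterion for primitivity: a transitive action on a finite set is primitive if and only if every non-trivial orbital graph (edges = images of a fixed pair of distinct points) is connected. -/
theorem result {G : Type*} [Group G] {Ω : Type*} [Finite Ω] [MulAction G Ω] [MulAction.IsPretransitive G Ω] [Nontrivial Ω] : MulAction.IsPreprimitive G Ω ↔ ∀ a b : Ω, a ≠ b → (SimpleGraph.fromRel fun x y : Ω => ∃ g : G, g • a = x ∧ g • b = y).Connected := by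
  classical
  constructor
  · intro hP a b hab
    set Γ := SimpleGraph.fromRel fun x y : Ω => ∃ g : G, g • a = x ∧ g • b = y with hΓ
    have hadj : ∀ (g : G) (x y : Ω), Γ.Adj x y → Γ.Adj (g • x) (g • y) := by
      intro g x y h
      rw [hΓ, SimpleGraph.fromRel_adj] at h ⊢
      refine ⟨fun e => h.1 (smul_left_cancel g e), ?_⟩
      rcases h.2 with ⟨k, h1, h2⟩ | ⟨k, h1, h2⟩
      · exact Or.inl ⟨g * k, by rw [mul_smul, h1], by rw [mul_smul, h2]⟩
      · exact Or.inr ⟨g * k, by rw [mul_smul, h1], by rw [mul_smul, h2]⟩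
    have hreach : ∀ (g : G) (x y : Ω), Γ.Reachable x y → Γ.Reachable (g • x) (g • y) := fun g x y h =>
      h.map (⟨fun z => g • z, fun {u v} huv => hadj g u v huv⟩ : Γ →g Γ)
    let B : Set Ω := {x | Γ.Reachable a x}
    have hB : MulAction.IsBlock G B := by
      rw [MulAction.isBlock_iff_smul_eq_smul_or_disjoint]
      intro g g'
      by_cases hd : Disjoint (g • B) (g' • B)
      · exact Or.inr hd
      left
      obtain ⟨x, ⟨u, hu, hux⟩, ⟨v, hv, hvx⟩⟩ := Set.not_disjoint_iff.1 hd
      have e1 : Γ.Reachable (g • a) x := hux ▸ hreach g _ _ hu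
      have e2 : Γ.Reachable (g' • a) x := hvx ▸ hreach g' _ _ hv
      have key : ∀ h : G, h • B = {y | Γ.Reachable (h • a) y} := by
        intro h
        ext y
        rw [Set.mem_smul_set_iff_inv_smul_mem]
        constructor
        · intro hy
          simpa using hreach h _ _ hy
        · intro hy
          simpa [B] using hreach h⁻¹ _ _ hy
      rw [key, key]
      ext y
      exact ⟨fun hy => e2.trans (e1.symm.trans hy), fun hy => e1.trans (e2.symm.trans hy)⟩
    have hbB : b ∈ B := by
      refine SimpleGraph.Adj.reachable ?_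
      rw [hΓ, SimpleGraph.fromRel_adj]
      exact ⟨hab, Or.inl ⟨1, one_smul _ _, one_smul _ _⟩⟩
    rcases hP.isTrivialBlock_of_isBlock hB with h | h
    · exact absurd (h (SimpleGraph.Reachable.refl a) hbB) hab
    · rw [SimpleGraph.connected_iff]
      refine ⟨fun x y => ?_, ⟨a⟩⟩
      have hx : x ∈ B := h ▸ Set.mem_univ x
      have hy : y ∈ B := h ▸ Set.mem_univ y
      exact hx.symm.trans hy
  · intro hconn
    refine ⟨fun {B} hB => ?_⟩
    by_cases hs : B.Subsingleton
    · exact Or.inl hs
    right
    rw [Set.not_subsingleton_iff] at hs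
    obtain ⟨a, ha, b, hb, hab⟩ := hs
    have hstep : ∀ x y, (SimpleGraph.fromRel fun x y : Ω => ∃ g : G, g • a = x ∧ g • b = y).Adj x y → x ∈ B → y ∈ B := by
      intro x y h hx
      rw [SimpleGraph.fromRel_adj] at h
      have hgB : ∀ g : G, (g • a ∈ B ∨ g • b ∈ B) → g • B = B := by
        intro g hg
        rcases hB.smul_eq_smul_or_disjoint g 1 with e | e
        · rwa [one_smul] at e
        · exfalso
          rw [one_smul, Set.disjoint_left] at e
          rcases hg with hg | hg
          · exact e (Set.smul_mem_smul_set ha) hg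
          · exact e (Set.smul_mem_smul_set hb) hg
      rcases h.2 with ⟨g, h1, h2⟩ | ⟨g, h1, h2⟩
      · rw [← hgB g (Or.inl (h1 ▸ hx)), ← h2]; exact Set.smul_mem_smul_set hb
      · rw [← hgB g (Or.inr (h2 ▸ hx)), ← h1]; exact Set.smul_mem_smul_set ha
    refine Set.eq_univ_of_forall fun x => ?_
    obtain ⟨w⟩ := (hconn a b hab).preconnected a x
    have hw : ∀ u v : Ω, ∀ p : (SimpleGraph.fromRel fun x y : Ω => ∃ g : G, g • a = x ∧ g • b = y).Walk u v, u ∈ B → v ∈ B := by
      intro u v p
      induction p with
      | nil => exact id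
      | cons h _ ih => exact fun hu => ih (hstep _ _ h hu)
    exact hw a x w ha

end Cfsg.Agent.S0734
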