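import Cfsg.Statements.S0736
import Mathlib

set_option autoImplicit false
open Cfsg
open scoped Pointwise

namespace Cfsg.Agent.S0736

/-- A `k`-homogeneous permutation group of degree `n`, `k ≥ 2`, with `k + q - 1 ≤ n` for every prime power `q` dividing `k`, is `(k-1)`-homogeneous. -/
theorem result {α : Type*} [Fintype α] [DecidableEq α] (G : Subgroup (Equiv.Perm α)) {k : ℕ} (hk : 2 ≤ k) (hG : MulAction.IsPretransitive G (Set.powersetCard α k)) (hq : ∀ q : ℕ, IsPrimePow q → q ∣ k → k + q - 1 ≤ Fintype.card α) : MulAction.IsPretransitive G (Set.powersetCard α (k - 1)) := by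
  classical
  refine ⟨fun S T => ?_⟩
  by_contra hne
  push Not at hne
  let O : Finset (Finset α) :=
    (Finset.univ.powersetCard (k - 1)).filter fun U => ∃ g : G, g • (S : Finset α) = U
  let cnt : Finset α → ℕ := fun K => (K.powerset.filter fun U => U ∈ O).card
  have hO : ∀ (g : G) (U : Finset α), U ∈ O → g • U ∈ O := by
    intro g U hU
    simp only [O, Finset.mem_filter, Finset.mem_powersetCard] at hU ⊢
    obtain ⟨⟨-, hc⟩, k, hk⟩ := hU
    exact ⟨⟨Finset.subset_univ _, by rw [Finset.card_smul_finset, hc]⟩, g * k, by rw [mul_smul, hk]⟩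
  have hSO : (S : Finset α) ∈ O := by
    simp only [O, Finset.mem_filter, Finset.mem_powersetCard]
    exact ⟨⟨Finset.subset_univ _, Set.powersetCard.card_eq S⟩, 1, one_smul _ _⟩
  have hTO : (T : Finset α) ∉ O := by
    simp only [O, Finset.mem_filter, not_and, not_exists]
    intro _ g hg
    exact hne g (Subtype.ext (hg))
  have hkn : k ≤ Fintype.card α := by
    rcases (Nat.eq_or_lt_of_le hk).symm with h | h
    · obtain ⟨q, hq1, hq2⟩ := Nat.exists_prime_and_dvd (by omega : k ≠ 1)
      have := hq q hq1.isPrimePow hq2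
      have := hq1.two_le
      omega
    · have := hq 2 (Nat.prime_two.isPrimePow) (h ▸ dvd_refl 2)
      omega
  have hcnt : ∀ (g : G) (K : Finset α), cnt (g • K) = cnt K := by
    intro g K
    refine (Finset.card_bij (fun U _ => g • U) ?_ ?_ ?_).symm
    · intro U hU
      simp only [Finset.mem_filter, Finset.mem_powerset] at hU ⊢
      exact ⟨Finset.smul_finset_subset_smul_finset hU.1, hO g U hU.2⟩
    · intro U _ V _ h
      exact smul_left_cancel g h
    · intro U hU
      simp only [Finset.mem_filter, Finset.mem_powerset] at hU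
      refine ⟨g⁻¹ • U, ?_, smul_inv_smul g U⟩
      simp only [Finset.mem_filter, Finset.mem_powerset]
      exact ⟨by rw [← inv_smul_smul g K]; exact Finset.smul_finset_subset_smul_finset hU.1, hO g⁻¹ U hU.2⟩
  obtain ⟨K₀, -, hK₀⟩ := Finset.exists_superset_card_eq (s := (S : Finset α)) (n := k)
    (by rw [Set.powersetCard.card_eq S]; omega) hkn
  set a := cnt K₀ with ha
  have hconst : ∀ K : Finset α, K.card = k → cnt K = a := by
    intro K hK
    obtain ⟨g, hg⟩ := MulAction.exists_smul_eq G (⟨K₀, hK₀⟩ : Set.powersetCard α k) ⟨K, hK⟩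
    have := congrArg (fun s : Set.powersetCard α k => (s : Finset α)) hg
    rw [show K = g • K₀ from this.symm, hcnt]
  have hle : ∀ K : Finset α, K.card = k → cnt K ≤ k := by
    intro K hK
    calc cnt K ≤ (K.powersetCard (k - 1)).card := by
          refine Finset.card_le_card fun U hU => ?_
          simp only [Finset.mem_filter, Finset.mem_powerset, O, Finset.mem_powersetCard] at hU ⊢
          exact ⟨hU.1, hU.2.1.2⟩
      _ = k := by
          rw [Finset.card_powersetCard, hK]
          conv_lhs => rw [← Nat.choose_symm (by omega : k - 1 ≤ k)]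
          rw [show k - (k - 1) = 1 by omega, Nat.choose_one_right]
  have ha0 : 0 < a := by
    obtain ⟨K, hSK, hK⟩ := Finset.exists_superset_card_eq (s := (S : Finset α)) (n := k)
      (by rw [Set.powersetCard.card_eq S]; omega) hkn
    rw [← hconst K hK]
    exact Finset.card_pos.2 ⟨_, Finset.mem_filter.2 ⟨Finset.mem_powerset.2 hSK, hSO⟩⟩
  have hak : a ≠ k := by
    intro hak
    obtain ⟨K, hTK, hK⟩ := Finset.exists_superset_card_eq (s := (T : Finset α)) (n := k)
      (by rw [Set.powersetCard.card_eq T]; omega) hkn
    have h1 : K.powerset.filter (fun U => U ∈ O) = K.powersetCard (k - 1) := by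
      refine Finset.eq_of_subset_of_card_le ?_ ?_
      · intro U hU
        simp only [Finset.mem_filter, Finset.mem_powerset, O, Finset.mem_powersetCard] at hU ⊢
        exact ⟨hU.1, hU.2.1.2⟩
      · rw [show (K.powerset.filter (fun U => U ∈ O)).card = a from hconst K hK, hak, Finset.card_powersetCard, hK]
        rw [← Nat.choose_symm (by omega : k - 1 ≤ k), show k - (k - 1) = 1 by omega, Nat.choose_one_right]
    have h2 : (T : Finset α) ∈ K.powerset.filter (fun U => U ∈ O) := by
      rw [h1, Finset.mem_powersetCard]; exact ⟨hTK, Set.powersetCard.card_eq T⟩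
    exact hTO (Finset.mem_filter.1 h2).2
  have hdiv : ∀ p e : ℕ, p.Prime → 1 ≤ e → p ^ e ∣ k → p ^ e ∣ a := by
    intro p e hp he hdvd
    have hq' := hq (p ^ e) (hp.isPrimePow.pow (by omega)) hdvd
    set q := p ^ e with hqdef
    have hq1 : 1 ≤ q := Nat.one_le_pow _ _ hp.pos
    obtain ⟨M, -, hM⟩ := Finset.exists_subset_card_eq (s := (Finset.univ : Finset α)) (n := k + q - 1) (by simpa using hq')
    have hdc : ∑ K ∈ M.powersetCard k, cnt K = ((M.powersetCard (k - 1)).filter fun U => U ∈ O).card * q := by
      rw [show (∑ K ∈ M.powersetCard k, cnt K) = ∑ K ∈ M.powersetCard k, (Finset.bipartiteBelow (fun U K => U ⊆ K) ((M.powersetCard (k - 1)).filter fun U => U ∈ O) K).card from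
        Finset.sum_congr rfl fun K hK => by
          refine congrArg Finset.card ?_
          ext U
          simp only [Finset.mem_powersetCard] at hK
          simp only [Finset.mem_filter, Finset.mem_powerset, Finset.mem_bipartiteBelow, Finset.mem_powersetCard, O]
          exact ⟨fun h => ⟨⟨⟨h.1.trans hK.1, h.2.1.2⟩, h.2⟩, h.1⟩, fun h => ⟨h.2, h.1.2⟩⟩]
      rw [← Finset.sum_card_bipartiteAbove_eq_sum_card_bipartiteBelow, Finset.sum_const_nat]
      intro U hU
      simp only [Finset.mem_filter, Finset.mem_powersetCard] at hU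
      have : Finset.bipartiteAbove (fun U K => U ⊆ K) (M.powersetCard k) U = (M.powersetCard k).filter fun K => U ⊆ K := rfl
      rw [this]
      trans (M \ U).card
      · refine (Finset.card_bij (fun x _ => insert x U) ?_ ?_ ?_).symm
        · intro x hx
          simp only [Finset.mem_sdiff] at hx
          simp only [Finset.mem_filter, Finset.mem_powersetCard]
          exact ⟨⟨Finset.insert_subset hx.1 hU.1.1, by rw [Finset.card_insert_of_notMem hx.2, hU.1.2]; omega⟩, Finset.subset_insert _ _⟩
        · intro x hx y hy h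
          simp only [Finset.mem_sdiff] at hx
          have := h ▸ Finset.mem_insert_self x U
          simp only [Finset.mem_insert] at this
          exact this.resolve_right hx.2
        · intro K hK
          simp only [Finset.mem_filter, Finset.mem_powersetCard] at hK
          obtain ⟨x, hx⟩ := Finset.card_eq_one.1 (show (K \ U).card = 1 by rw [Finset.card_sdiff_of_subset hK.2, hK.1.2, hU.1.2]; omega)
          have hx' : x ∈ K \ U := by rw [hx]; exact Finset.mem_singleton_self x
          simp only [Finset.mem_sdiff] at hx'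
          refine ⟨x, Finset.mem_sdiff.2 ⟨hK.1.1 hx'.1, hx'.2⟩, ?_⟩
          rw [Finset.insert_eq, ← hx, Finset.sdiff_union_of_subset hK.2]
      · rw [Finset.card_sdiff_of_subset hU.1.1, hM, hU.1.2]; omega
    rw [Finset.sum_const_nat (m := a) (fun K hK => hconst K (Finset.mem_powersetCard.1 hK).2), Finset.card_powersetCard, hM] at hdc
    haveI : Fact p.Prime := ⟨hp⟩
    have hco : ¬ p ∣ (k + q - 1).choose k := by
      rw [← Nat.choose_symm (by omega), show k + q - 1 - k = q - 1 by omega]
      intro hd
      obtain ⟨c, hc⟩ := hdvd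
      have h0 := Choose.choose_modEq_choose_mul_prod_range_choose (p := p) (n := k + q - 1) (k := q - 1) e
      rw [← hqdef, Nat.div_eq_of_lt (show q - 1 < q by omega), Nat.choose_zero_right, Nat.cast_one, one_mul] at h0
      rw [Finset.prod_eq_one (fun i hi => by
        rw [Finset.mem_range] at hi
        rw [show k + q - 1 = (q - 1) + p ^ i * (p * (p ^ (e - i - 1) * c)) by
          rw [← mul_assoc, ← mul_assoc, ← pow_succ, ← pow_add, show i + 1 + (e - i - 1) = e by omega, ← hqdef, ← hc]
          omega]
        rw [Nat.add_mul_div_left _ _ (Nat.pow_pos hp.pos), Nat.add_mul_mod_self_left, Nat.choose_self])] at h0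
      have h1 : (k + q - 1).choose (q - 1) ≡ 1 [MOD p] := Int.natCast_modEq_iff.1 h0
      have h2 : (k + q - 1).choose (q - 1) ≡ 0 [MOD p] := Nat.modEq_zero_iff_dvd.2 hd
      have h3 : 1 % p = 0 % p := h1.symm.trans h2
      rw [Nat.one_mod_eq_one.2 hp.ne_one, Nat.zero_mod] at h3
      omega
    refine (Nat.Coprime.pow_left e (hp.coprime_iff_not_dvd.2 hco)).dvd_of_dvd_mul_left (m := (k + q - 1).choose k) ?_
    rw [hdc]
    exact dvd_mul_left q _
  have hka : k ∣ a := by
    rw [← Nat.factorization_le_iff_dvd (by omega) (by omega)]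
    intro p
    by_cases hp : p.Prime
    · rcases Nat.eq_zero_or_pos (k.factorization p) with h | h
      · omega
      · exact (hp.pow_dvd_iff_le_factorization (by omega)).1 (hdiv p _ hp h (Nat.ordProj_dvd k p))
    · simp [Nat.factorization_eq_zero_of_not_prime _ hp]
  have := Nat.le_of_dvd ha0 hka
  have := hle K₀ hK₀
  omega

end Cfsg.Agent.S0736
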