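import Cfsg.Statements.S0738
import Cfsg.Agent.H7.ZassLarge
-- import your own Cfsg.Agent.* helpers here

set_option autoImplicit false
open Cfsg

namespace Cfsg.Agent.S0738

/-- Let a finite Zassenhaus group of degree `n + 1` have two-point stabilisers of order `d` with `2d ≥ n - 1`. Then a normal subgroup of a point stabiliser acting regularly on the remaining points is elementary abelian, and the degree is a prime power plus one. -/
theorem result {G Ω : Type*} [Group G] [Finite G] [MulAction G Ω] [Fintype Ω] (hZ : Cfsg.IsZassenhausGroup G Ω) {a b : Ω} (hab : a ≠ b) (hd : Fintype.card Ω - 2 ≤ 2 * Nat.card ↥(MulAction.stabilizer G a ⊓ MulAction.stabilizer G b)) (F : Subgroup G) (hFle : F ≤ MulAction.stabilizer G a) (hFn : (F.subgroupOf (MulAction.stabilizer G a)).Normal) (hreg : ∀ y z : Ω, y ≠ a → z ≠ a → ∃! u : F, (u : G) • y = z) : IsMulCommutative F ∧ ∃ p f : ℕ, p.Prime ∧ (∀ u ∈ F, u ^ p = 1) ∧ Fintype.card Ω = p ^ f + 1 := by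
  have K := Cfsg.Agent.H7.ZK.of_normal hZ hab hFle hFn hreg
  rw [← Nat.card_eq_fintype_card] at hd
  have hc := K.comm hd K.nilpotent
  obtain ⟨p, f, hp, he, hf⟩ := K.elementary hd hc
  refine ⟨⟨⟨fun x y => Subtype.ext (hc x.1 x.2 y.1 y.2)⟩⟩, p, f, hp, he, ?_⟩
  rw [← hf, ← Nat.card_eq_fintype_card]
  exact K.card_U.symm

end Cfsg.Agent.S0738
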