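import Cfsg.Statements.S0739
import Cfsg.Agent.H7.ZassOddComp
import Cfsg.Agent.H7.ZassCyclic
-- import your own Cfsg.Agent.* helpers here

set_option autoImplicit false
open Cfsg

namespace Cfsg.Agent.S0739

/-- In a finite Zassenhaus group whose two-point stabiliser `H = G_{a,b}` has odd order `d`, and which has no normal `q`-complement for any prime `q ∣ d`, `H` is cyclic, `C_G(H) = H`, and every element swapping `a` and `b` inverts each element of `H`. -/
theorem result {G Ω : Type*} [Group G] [Finite G] [MulAction G Ω] [Fintype Ω] (hZ : Cfsg.IsZassenhausGroup G Ω) {a b : Ω} (hab : a ≠ b) (hodd : Odd (Nat.card ↥(MulAction.stabilizer G a ⊓ MulAction.stabilizer G b))) (hnil : ∀ q : ℕ, q.Prime → q ∣ Nat.card ↥(MulAction.stabilizer G a ⊓ MulAction.stabilizer G b) → ¬ ∃ N : Subgroup G, N.Normal ∧ N.index = q ^ (Nat.card G).factorization q) : IsCyclic ↥(MulAction.stabilizer G a ⊓ MulAction.stabilizer G b) ∧ Subgroup.centralizer ((MulAction.stabilizer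 G a ⊓ MulAction.stabilizer G b : Subgroup G) : Set G) = MulAction.stabilizer G a ⊓ MulAction.stabilizer G b ∧ ∀ s : G, s • a = b → s • b = a → ∀ h ∈ MulAction.stabilizer G a ⊓ MulAction.stabilizer G b, s * h * s⁻¹ = h⁻¹ := by
  obtain ⟨S, rfl, rfl⟩ := Cfsg.Agent.H39.exists_zsetup (Cfsg.Agent.H7.ZHyp.of_zassenhaus hZ) hab
  haveI := S.finite
  have hodd' : Odd S.e := hodd
  have hD := Cfsg.Agent.H7.ZOdd.le_commutator S hodd' hnil
  obtain ⟨hcomm, -⟩ := Cfsg.Agent.H7.ZOdd.D_abelian S hD hodd'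
  refine ⟨S.Z.isCyclic_of_comm S.hab hcomm, le_antisymm (fun c hc => ?_) (fun c hc => ?_), fun s sa sb h hh =>
    (Cfsg.Agent.H7.ZOdd.swapper S hD hodd' sa sb).2.2 h hh⟩
  · obtain ⟨d, hd1, hda, hdb⟩ := S.Z.exists_fix S.hab
    exact Cfsg.Agent.H7.ZOdd.mem_D_of_commute S hD hodd' ⟨hda, hdb⟩ hd1
      (Subgroup.mem_centralizer_iff.1 hc d ⟨hda, hdb⟩).symm
  · exact Subgroup.mem_centralizer_iff.2 fun x hx => hcomm x hx c hc

end Cfsg.Agent.S0739
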