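import Cfsg.Statements.S0740
import Cfsg.Agent.H37.Zassenhaus

set_option autoImplicit false
open Cfsg

namespace Cfsg.Agent.S0740

/-- In a finite Zassenhaus group any two points `a ≠ b` are swapped by an involution; every such involution has exactly one fixed point when the degree is odd and 0 or 2 fixed points when the degree is even; and if the two-point stabiliser has even order, some such involution has exactly 2 fixed points. -/
theorem result {G Ω : Type*} [Group G] [Finite G] [MulAction G Ω] [Fintype Ω] (hZ : Cfsg.IsZassenhausGroup G Ω) {a b : Ω} (hab : a ≠ b) : (∃ s : G, orderOf s = 2 ∧ s • a = b ∧ s • b = a) ∧ (∀ s : G, orderOf s = 2 → s • a = b → s • b = a → (Odd (Fintype.card Ω) → Nat.card (MulAction.fixedBy Ω s) = 1) ∧ (Even (Fintype.card Ω) → Nat.card (MulAction.fixedBy Ω s) = 0 ∨ Nat.card (MulAction.fixedBy Ω s) = 2)) ∧ (Even (Fintype.card Ω) → Even (Nat.card ↥(MulAction.stabilizer G a ⊓ MulAction.stabilizer G b)) → ∃ s : G, orderOf s = 2 ∧ s • a = b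 ∧ s • b = a ∧ Nat.card (MulAction.fixedBy Ω s) = 2) := by
  classical
  haveI : FaithfulSMul G Ω := hZ.1
  obtain ⟨g, hga, hgb⟩ := Cfsg.Agent.H37.two_trans hZ hab hab.symm
  have hev : 2 ∣ Nat.card G := by
    refine dvd_trans ?_ (orderOf_dvd_natCard g)
    by_contra h
    obtain ⟨k, hk⟩ := Nat.odd_iff.2 (Nat.two_dvd_ne_zero.1 h)
    have h1 : (g * g) ^ k ∈ MulAction.stabilizer G a :=
      pow_mem (MulAction.mem_stabilizer_iff.2 (by rw [mul_smul, hga, hgb])) k
    have h2 : g ^ (2 * k + 1) • a = b := by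
      rw [pow_succ', mul_smul, pow_mul, pow_two, MulAction.mem_stabilizer_iff.1 h1, hga]
    rw [← hk, pow_orderOf_eq_one, one_smul] at h2
    exact hab h2
  haveI : Fact (Nat.Prime 2) := ⟨Nat.prime_two⟩
  obtain ⟨t, ht⟩ := exists_prime_orderOf_dvd_card' (G := G) 2 hev
  obtain ⟨c, hc⟩ : ∃ c : Ω, t • c ≠ c := by
    by_contra hall
    push Not at hall
    have : t = 1 := eq_of_smul_eq_smul fun x : Ω => (hall x).trans (one_smul G x).symm
    rw [this, orderOf_one] at ht
    omega
  have hsq : ∀ s : G, orderOf s = 2 → s * s = 1 ∧ s ≠ 1 := by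
    intro s hs
    refine ⟨by rw [← pow_two, ← hs, pow_orderOf_eq_one], fun e => ?_⟩
    rw [e, orderOf_one] at hs
    omega
  refine ⟨?_, ?_, ?_⟩
  · obtain ⟨k, h1, h2, h3, -, -⟩ := Cfsg.Agent.H37.exists_conj_swap hZ ht hc hab
    exact ⟨_, h1, h2, h3⟩
  · intro s hs hsa hsb
    have hle := Cfsg.Agent.H37.card_fixedBy_le_two hZ (hsq s hs).2
    have hpar := Cfsg.Agent.H37.card_fixedBy_mod_two (Ω := Ω) (hsq s hs).1
    refine ⟨fun ho => ?_, fun he => ?_⟩
    · rw [Nat.odd_iff] at ho; omega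
    · rw [Nat.even_iff] at he; omega
  · intro he hH
    obtain ⟨u, hu⟩ := exists_prime_orderOf_dvd_card' (G := ↥(MulAction.stabilizer G a ⊓ MulAction.stabilizer G b)) 2 hH.two_dvd
    rw [← Subgroup.orderOf_coe] at hu
    obtain ⟨d, hd⟩ : ∃ d : Ω, (u : G) • d ≠ d := by
      by_contra hall
      push Not at hall
      exact (hsq _ hu).2 (eq_of_smul_eq_smul fun x : Ω => (hall x).trans (one_smul G x).symm)
    obtain ⟨k, h1, h2, h3, -, -⟩ := Cfsg.Agent.H37.exists_conj_swap hZ hu hd hab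
    refine ⟨_, h1, h2, h3, ?_⟩
    have hle := Cfsg.Agent.H37.card_fixedBy_le_two hZ (hsq _ h1).2
    have hge : 2 ≤ Nat.card (MulAction.fixedBy Ω (k * (u : G) * k⁻¹)) := by
      rw [Nat.card_coe_set_eq]
      have hsub : ({k • a, k • b} : Set Ω) ⊆ MulAction.fixedBy Ω (k * (u : G) * k⁻¹) := by
        rintro x (rfl | rfl)
        · show (k * (u : G) * k⁻¹) • (k • a) = k • a
          rw [mul_smul, mul_smul, inv_smul_smul, MulAction.mem_stabilizer_iff.1 (Subgroup.mem_inf.1 u.2).1]
        · show (k * (u : G) * k⁻¹) • (k • b) = k • b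
          rw [mul_smul, mul_smul, inv_smul_smul, MulAction.mem_stabilizer_iff.1 (Subgroup.mem_inf.1 u.2).2]
      exact le_of_eq_of_le (Set.ncard_pair (fun e => hab (smul_left_cancel k e))).symm (Set.ncard_le_ncard hsub (Set.toFinite _))
    omega

end Cfsg.Agent.S0740
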