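import Cfsg.Statements.S0744
import Cfsg.Agent.H37.Transitivity

set_option autoImplicit false
open Cfsg

namespace Cfsg.Agent.S0744

/-- If for some `k > 1` the pointwise stabilisers of all `(k-1)`-subsets have the same order `> 1` and those of all `k`-subsets have the same order, then the group is `(k-1)`-transitive. -/
theorem result {α : Type*} [Fintype α] [DecidableEq α] (G : Subgroup (Equiv.Perm α)) {k : ℕ} (hk : 1 < k) (hkn : k ≤ Fintype.card α) (l m : ℕ) (hl : 1 < l) (hkm1 : ∀ s : Finset α, s.card = k - 1 → Nat.card (fixingSubgroup G (s : Set α)) = l) (hkm : ∀ s : Finset α, s.card = k → Nat.card (fixingSubgroup G (s : Set α)) = m) : MulAction.IsMultiplyPretransitive G α (k - 1) := by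
  classical
  refine Cfsg.Agent.H37.isMultiplyPretransitive_of_fixing_transitive (by omega) fun t ht a b hat hbt => ?_
  rcases eq_or_ne a b with rfl | hab
  · exact ⟨1, fun x _ => one_smul _ x, one_smul _ a⟩
  have hdiv : ∀ c, c ∉ t → ∀ x, x ∉ t → x ≠ c →
      (MulAction.orbit (fixingSubgroup G (insert c (t : Set α))) x).ncard * m = l := by
    intro c hc x hx hxc
    have hl' : Nat.card (fixingSubgroup G (insert c (t : Set α))) = l := by
      rw [← hkm1 (insert c t) (by rw [Finset.card_insert_of_notMem hc]; omega), Finset.coe_insert]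
    have hm' : Nat.card (fixingSubgroup G (insert x (insert c (t : Set α)))) = m := by
      rw [← hkm (insert x (insert c t)) (by
        rw [Finset.card_insert_of_notMem (by simp [hx, hxc]), Finset.card_insert_of_notMem hc]; omega),
        Finset.coe_insert, Finset.coe_insert]
    rw [← hl', ← hm', ← MulAction.index_stabilizer, ← Subgroup.index_mul_card
      (MulAction.stabilizer (fixingSubgroup G (insert c (t : Set α))) x)]
    congr 1
    exact Nat.card_congr
      { toFun := fun g => ⟨⟨g.1, (mem_fixingSubgroup_iff G).2 fun y hy =>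
            (mem_fixingSubgroup_iff G).1 g.2 y (Set.mem_insert_of_mem _ hy)⟩,
            MulAction.mem_stabilizer_iff.2 ((mem_fixingSubgroup_iff G).1 g.2 x (Set.mem_insert _ _))⟩
        invFun := fun g => ⟨g.1.1, (mem_fixingSubgroup_iff G).2 fun y hy => by
            rcases Set.mem_insert_iff.1 hy with rfl | hy
            · exact MulAction.mem_stabilizer_iff.1 g.2
            · exact (mem_fixingSubgroup_iff G).1 g.1.2 y hy⟩
        left_inv := fun g => rfl
        right_inv := fun g => rfl }
  have hm0 : 0 < m := by
    obtain ⟨s, hs⟩ := Finset.exists_subset_card_eq (s := (Finset.univ : Finset α)) (n := k) (by simpa using hkn)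
    rw [← hkm s hs.2]
    exact Nat.card_pos
  by_cases hlm : l = m
  · exfalso
    have hfix : fixingSubgroup G (insert a (t : Set α)) = ⊥ := by
      rw [eq_bot_iff]
      intro g hg
      rw [Subgroup.mem_bot]
      apply Subtype.ext
      ext x
      by_cases hx : x ∈ insert a (t : Set α)
      · exact (mem_fixingSubgroup_iff G).1 hg x hx
      · simp only [Set.mem_insert_iff, Finset.mem_coe, not_or] at hx
        have h := hdiv a hat x hx.2 hx.1
        rw [hlm] at h
        have h1 : (MulAction.orbit (fixingSubgroup G (insert a (t : Set α))) x).ncard = 1 :=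
          Nat.eq_of_mul_eq_mul_right hm0 (h.trans (one_mul m).symm)
        obtain ⟨y, hy⟩ := Set.ncard_eq_one.1 h1
        have hgy : (g : Equiv.Perm α) x ∈ MulAction.orbit (fixingSubgroup G (insert a (t : Set α))) x :=
          ⟨⟨g, hg⟩, rfl⟩
        have hxy : x ∈ MulAction.orbit (fixingSubgroup G (insert a (t : Set α))) x := MulAction.mem_orbit_self x
        rw [hy, Set.mem_singleton_iff] at hgy hxy
        rw [hgy]
        exact hxy.symm
    have := hkm1 (insert a t) (by rw [Finset.card_insert_of_notMem hat]; omega)
    rw [Finset.coe_insert, hfix, Subgroup.card_bot] at this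
    omega
  refine Cfsg.Agent.H37.exists_fix_smul_eq (r := l / m) ?_ (t : Set α) ?_ hat hbt
  · intro h
    obtain ⟨hc1, hc2⟩ : a ∉ t ∧ b ∉ t := ⟨hat, hbt⟩
    have := hdiv a hc1 b hc2 (Ne.symm hab)
    apply hlm
    rw [← this] at h ⊢
    rw [Nat.mul_div_cancel _ hm0] at h
    rw [h, one_mul]
  · intro c hc x hx hxc
    rw [← hdiv c hc x hx hxc, Nat.mul_div_cancel _ hm0]

end Cfsg.Agent.S0744
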