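import Cfsg.Statements.S0745
import Cfsg.Agent.H37.EvenInduced
import Cfsg.Agent.H37.PrimeDegree
import Cfsg.Agent.S0710
import Cfsg.Agent.S0735
import Cfsg.Agent.S0744

set_option autoImplicit false
open Cfsg
open scoped Pointwise

namespace Cfsg.Agent.S0745

open Cfsg.Agent.H37

variable {α : Type*} [Fintype α] [DecidableEq α]

theorem card_fixing_le {G : Subgroup (Equiv.Perm α)} (g : G) (s : Finset α) :
    Nat.card (fixingSubgroup G (s : Set α)) ≤ Nat.card (fixingSubgroup G ((g • s : Finset α) : Set α)) := by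
  refine Nat.card_le_card_of_injective (fun h : fixingSubgroup G (s : Set α) => ⟨g * (h : G) * g⁻¹, ?_⟩) ?_
  · rw [mem_fixingSubgroup_iff]
    intro y hy
    rw [Finset.coe_smul_finset] at hy
    obtain ⟨x, hx, rfl⟩ := hy
    rw [mul_smul, mul_smul, inv_smul_smul, (mem_fixingSubgroup_iff G).1 h.2 x hx]
  · intro a b h
    exact Subtype.ext (mul_left_cancel (mul_right_cancel (congrArg Subtype.val h)))

theorem card_fixing_eq {G : Subgroup (Equiv.Perm α)} {j : ℕ}
    (hh : MulAction.IsPretransitive G (Set.powersetCard α j)) {s t : Finset α} (hs : s.card = j) (ht : t.card = j) :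
    Nat.card (fixingSubgroup G (s : Set α)) = Nat.card (fixingSubgroup G (t : Set α)) := by
  obtain ⟨g, hg⟩ := hh.exists_smul_eq ⟨s, hs⟩ ⟨t, ht⟩
  have hg' : g • s = t := congrArg Subtype.val hg
  refine le_antisymm (hg' ▸ card_fixing_le g s) ?_
  have h := card_fixing_le g⁻¹ t
  rwa [show g⁻¹ • t = s by rw [← hg', inv_smul_smul]] at h

omit [DecidableEq α] in
theorem no_swap_fixed {Y : Type*} [Finite Y] {m : ℕ} (f : Equiv.Perm (Fin m) →* Equiv.Perm Y) (hY : Nat.card Y = 2)
    (hf : ∃ σ, f σ ≠ 1) {a b : Fin m} (hab : a ≠ b) (q : Y) : f (Equiv.swap a b) q ≠ q := by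
  classical
  intro hq
  have h1 : f (Equiv.swap a b) = 1 := by
    ext y
    rw [Equiv.Perm.one_apply]
    by_contra hne
    have hy : y ≠ q := fun e => hne (by rw [e]; exact hq)
    have hy' : f (Equiv.swap a b) y ≠ q := fun e => hy ((f (Equiv.swap a b)).injective (e.trans hq.symm))
    have : Fintype Y := Fintype.ofFinite Y
    have := Finset.card_le_univ ({y, q, f (Equiv.swap a b) y} : Finset Y)
    rw [Finset.card_insert_of_notMem (by simp [hy, Ne.symm hne]), Finset.card_pair (Ne.symm hy'),
      ← Nat.card_eq_fintype_card, hY] at this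
    omega
  obtain ⟨σ, hσ⟩ := hf
  apply hσ
  clear hσ
  induction σ using Equiv.Perm.swap_induction_on with
  | one => exact map_one f
  | swap_mul τ c e hce ih =>
    obtain ⟨u, hu⟩ := isConj_iff.1 (Equiv.Perm.isConj_swap hab hce)
    rw [map_mul, ih, mul_one, ← hu, map_mul, map_mul, h1, mul_one, ← map_mul, mul_inv_cancel, map_one]

/-- With two orbits on `(j+1)`-tuples, the stabiliser of a `j`-tuple has odd order. -/
theorem not_two_dvd {G : Subgroup (Equiv.Perm α)} {j : ℕ} (hj : 1 ≤ j)
    (htr : ∀ y y' : Fin (j + 1) ↪ α, ∃ σ : Equiv.Perm (Fin (j + 1)),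
      permTupleHom G α (j + 1) σ (Quotient.mk'' y) = Quotient.mk'' y')
    (hi : Nat.card (MulAction.orbitRel.Quotient G (Fin (j + 1) ↪ α)) = 2) (x : Fin j ↪ α) :
    ¬ 2 ∣ Nat.card (MulAction.stabilizer G x) := by
  classical
  intro h2
  haveI : Fact (Nat.Prime 2) := ⟨Nat.prime_two⟩
  have : Finite (MulAction.orbitRel.Quotient G (Fin (j + 1) ↪ α)) := Quotient.finite _
  obtain ⟨z, hz⟩ := exists_prime_orderOf_dvd_card' (G := MulAction.stabilizer G x) 2 h2
  have hzz : z * z = 1 := by rw [← pow_two, ← hz, pow_orderOf_eq_one]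
  have hz1 : z ≠ 1 := fun e => by rw [e, orderOf_one] at hz; omega
  obtain ⟨a, ha⟩ : ∃ a, (z : G) • a ≠ a := by
    by_contra h
    push Not at h
    exact hz1 (Subtype.ext (Subtype.ext (Equiv.ext h)))
  have hzza : (z : G) • (z : G) • a = a := by
    rw [← mul_smul, ← Subgroup.coe_mul, hzz, Subgroup.coe_one, one_smul]
  have hzx : ∀ i, (z : G) • x i = x i := fun i => DFunLike.congr_fun z.2 i
  obtain ⟨l, rfl⟩ : ∃ l, j = l + 1 := ⟨j - 1, by omega⟩
  let w : Fin (l + 1 + 1) → α := Fin.cons a (Fin.cons ((z : G) • a) fun i : Fin l => x i.succ)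
  have hw : Function.Injective w := by
    refine Fin.cons_injective_iff.2 ⟨?_, Fin.cons_injective_iff.2 ⟨?_, x.injective.comp (Fin.succ_injective _)⟩⟩
    · rintro ⟨i, hi'⟩
      induction i using Fin.cases with
      | zero => exact ha (by simpa using hi')
      | succ i =>
        rw [Fin.cons_succ] at hi'
        have hi'' : x i.succ = a := hi'
        exact ha (by rw [← hi'', hzx])
    · rintro ⟨i, hi'⟩
      refine ha ?_
      have h' := congrArg ((z : G) • ·) hi'
      simp only [hzx, hzza] at h'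
      exact hi'.symm.trans h'
  let y : Fin (l + 1 + 1) ↪ α := ⟨w, hw⟩
  have hind : ∀ i, (z : G) • y i = y (Equiv.swap 0 1 i) := by
    intro i
    induction i using Fin.cases with
    | zero => rw [Equiv.swap_apply_left]; rfl
    | succ i =>
      induction i using Fin.cases with
      | zero =>
        rw [show Fin.succ (0 : Fin (l + 1)) = 1 from rfl, Equiv.swap_apply_right]
        exact hzza
      | succ i =>
        rw [Equiv.swap_apply_of_ne_of_ne (show i.succ.succ ≠ (0 : Fin (l + 1 + 1)) from Fin.succ_ne_zero _)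
          (show i.succ.succ ≠ (1 : Fin (l + 1 + 1)) from fun e =>
            Fin.succ_ne_zero i (Fin.succ_injective _ (e : (Fin.succ (Fin.succ i)) = Fin.succ 0)))]
        exact hzx _
  refine no_swap_fixed _ hi ?_ (show (0 : Fin (l + 1 + 1)) ≠ 1 from fun e => by simp [Fin.ext_iff] at e) _ (fixed_of_exists hind)
  by_contra h
  push Not at h
  have hsub : Subsingleton (MulAction.orbitRel.Quotient G (Fin (l + 1 + 1) ↪ α)) := by
    refine ⟨fun p q => ?_⟩
    induction p using Quotient.inductionOn' with | h p => ?_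
    induction q using Quotient.inductionOn' with | h q => ?_
    obtain ⟨σ, hσ⟩ := htr p q
    exact (Equiv.ext_iff.1 (h σ) _).symm.trans hσ
  rw [Nat.card_of_subsingleton (Quotient.mk'' y)] at hi
  omega

theorem param_two (i m : ℕ) (hi : i < 7) (hm : m < 25) (h2 : 2 ≤ i) (hm2 : 2 ≤ m) (hd : i ∣ 6) (hdvd : i * m ∣ 24)
    (hc : i ∣ m + 1) : (i = 2 ∧ m = 3) ∨ (i = 3 ∧ m = 2) ∨ (i = 3 ∧ m = 8) := by
  have key : ∀ i : Fin 7, ∀ m : Fin 25, (2 ≤ i.1 ∧ 2 ≤ m.1 ∧ i.1 ∣ 6 ∧ i.1 * m.1 ∣ 24 ∧ i.1 ∣ m.1 + 1) →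
      (i.1 = 2 ∧ m.1 = 3) ∨ (i.1 = 3 ∧ m.1 = 2) ∨ (i.1 = 3 ∧ m.1 = 8) := by decide +kernel
  exact key ⟨i, hi⟩ ⟨m, hm⟩ ⟨h2, hm2, hd, hdvd, hc⟩

theorem param_three (i m : ℕ) (hi : i < 25) (hm : m < 61) (h2 : 2 ≤ i) (hm2 : 2 ≤ m) (hd : i ∣ 24)
    (hdvd : i * m ∣ 120) (hc : i ∣ m + 1) :
    (i = 2 ∧ m ∈ [3, 5, 15]) ∨ (i = 3 ∧ m ∈ [2, 5, 8, 20]) ∨ (i = 4 ∧ m ∈ [3, 15]) ∨ (i = 6 ∧ m = 5) ∨
      (i = 8 ∧ m = 15) := by
  have key : ∀ i : Fin 25, ∀ m : Fin 61, (2 ≤ i.1 ∧ 2 ≤ m.1 ∧ i.1 ∣ 24 ∧ i.1 * m.1 ∣ 120 ∧ i.1 ∣ m.1 + 1) →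
      (i.1 = 2 ∧ m.1 ∈ [3, 5, 15]) ∨ (i.1 = 3 ∧ m.1 ∈ [2, 5, 8, 20]) ∨ (i.1 = 4 ∧ m.1 ∈ [3, 15]) ∨ (i.1 = 6 ∧ m.1 = 5) ∨
        (i.1 = 8 ∧ m.1 = 15) := by decide +kernel
  exact key ⟨i, hi⟩ ⟨m, hm⟩ ⟨h2, hm2, hd, hdvd, hc⟩

/-- Let `G` have degree `n` and `3 ≤ k ≤ n`; suppose `G` is `(k-2)`-transitive but not `(k-1)`-transitive, and is `(k-1)`-homogeneous and `k`-homogeneous. Then `k = n` and `G` is the alternating group, or `n = 5, k = 4, |G| = 20`, or `n = 6, k = 5, |G| = 120`, or `n = 9, k = 5, |G| ∈ {504, 1512}`. -/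
theorem result {α : Type*} [Fintype α] [DecidableEq α] (G : Subgroup (Equiv.Perm α)) {k : ℕ} (hk : 3 ≤ k) (hkn : k ≤ Fintype.card α) (ht : MulAction.IsMultiplyPretransitive G α (k - 2)) (hnt : ¬ MulAction.IsMultiplyPretransitive G α (k - 1)) (hh1 : MulAction.IsPretransitive G (Set.powersetCard α (k - 1))) (hh : MulAction.IsPretransitive G (Set.powersetCard α k)) : (k = Fintype.card α ∧ G = alternatingGroup α) ∨ (Fintype.card α = 5 ∧ k = 4 ∧ Nat.card G = 20) ∨ (Fintype.card α = 6 ∧ k = 5 ∧ Nat.card G = 120) ∨ (Fintype.card α = 9 ∧ k = 5 ∧ (Nat.card G = 504 ∨ Nat.card G = 1512)) := by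
  classical
  rcases hkn.eq_or_lt with hkn' | hlt
  · left
    refine ⟨hkn', ?_⟩
    have : MulAction.IsMultiplyPretransitive G α (Nat.card α - 2) := by rwa [Nat.card_eq_fintype_card, ← hkn']
    have hA : alternatingGroup α ≤ G := IsMultiplyPretransitive.alternatingGroup_le α G this
    haveI : Nontrivial α := Fintype.one_lt_card_iff_nontrivial.1 (by omega)
    refine (hA.antisymm ?_).symm
    intro g hg
    by_contra hgA
    refine hnt ⟨fun x y => ?_⟩
    obtain ⟨σ, hσ⟩ := (Equiv.Perm.isMultiplyPretransitive α (k - 1)).exists_smul_eq x y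
    have hmem : σ ∈ G := by
      by_cases hs : σ ∈ alternatingGroup α
      · exact hA hs
      · rw [Equiv.Perm.mem_alternatingGroup] at hs hgA
        have := hA (show σ * g⁻¹ ∈ alternatingGroup α by
          rw [Equiv.Perm.mem_alternatingGroup, map_mul, map_inv, (Int.units_eq_one_or _).resolve_left hs,
            (Int.units_eq_one_or _).resolve_left hgA]
          decide)
        have := mul_mem this hg
        rwa [inv_mul_cancel_right] at this
    exact ⟨⟨σ, hmem⟩, hσ⟩
  obtain ⟨j, rfl⟩ : ∃ j, k = j + 2 := ⟨k - 2, by omega⟩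
  replace hh1 : MulAction.IsPretransitive G (Set.powersetCard α (j + 1)) := hh1
  replace hnt : ¬ MulAction.IsMultiplyPretransitive G α (j + 1) := hnt
  replace ht : MulAction.IsMultiplyPretransitive G α j := ht
  -- only the identity fixes more than `j` points
  have hfree : ∀ g ∈ G, j < {x | g x = x}.ncard → g = 1 := by
    obtain ⟨s₁, -, hs₁⟩ := Finset.exists_subset_card_eq (s := (Finset.univ : Finset α)) (n := j + 1) (by rw [Finset.card_univ]; omega)
    obtain ⟨s₂, -, hs₂⟩ := Finset.exists_subset_card_eq (s := (Finset.univ : Finset α)) (n := j + 2) (by rw [Finset.card_univ]; omega)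
    have hl : Nat.card (fixingSubgroup G (s₁ : Set α)) = 1 := by
      by_contra h
      have hpos : 0 < Nat.card (fixingSubgroup G (s₁ : Set α)) := Nat.card_pos
      exact hnt (Cfsg.Agent.S0744.result G (k := j + 2) (by omega) hkn _ (Nat.card (fixingSubgroup G (s₂ : Set α))) (by omega)
        (fun s hs => card_fixing_eq hh1 hs hs₁) (fun s hs => card_fixing_eq hh hs hs₂))
    intro g hg hlt'
    rw [Set.ncard_eq_toFinset_card'] at hlt'
    obtain ⟨s, hs, hsc⟩ := Finset.exists_subset_card_eq (n := j + 1) hlt'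
    have hbot := Subgroup.card_eq_one.1 ((card_fixing_eq hh1 hsc hs₁).trans hl)
    have hmem : (⟨g, hg⟩ : G) ∈ fixingSubgroup G (s : Set α) := by
      rw [mem_fixingSubgroup_iff]
      intro y hy
      have := Set.mem_toFinset.1 (hs hy)
      exact this
    rw [hbot, Subgroup.mem_bot] at hmem
    exact congrArg Subtype.val hmem
  -- the symmetric group is transitive on orbits of `(j+1)`-tuples
  have htr : ∀ y y' : Fin (j + 1) ↪ α, ∃ σ : Equiv.Perm (Fin (j + 1)),
      permTupleHom G α (j + 1) σ (Quotient.mk'' y) = Quotient.mk'' y' := by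
    intro y y'
    obtain ⟨g, hg⟩ := hh1.exists_smul_eq ⟨Finset.univ.map y, by simp⟩ ⟨Finset.univ.map y', by simp⟩
    have hg' : g • Finset.univ.map y = Finset.univ.map y' := congrArg Subtype.val hg
    have hmem : ∀ i, ∃ i', y' i' = g • y i := by
      intro i
      have : g • y i ∈ g • Finset.univ.map y := Finset.smul_mem_smul_finset (by simp)
      rw [hg'] at this
      simpa using this
    choose τ hτ using hmem
    have hτb : Function.Bijective τ := Finite.injective_iff_bijective.1 fun a b e =>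
      y.injective (MulAction.injective g (by simp only; rw [← hτ, ← hτ, e]))
    refine ⟨Equiv.ofBijective τ hτb, ?_⟩
    rw [permTupleHom_mk, Quotient.eq'']
    refine ⟨g⁻¹, Function.Embedding.ext fun i => ?_⟩
    show g⁻¹ • y' i = y ((Equiv.ofBijective τ hτb)⁻¹ i)
    have h := hτ ((Equiv.ofBijective τ hτb)⁻¹ i)
    rw [inv_smul_eq_iff, ← h]
    exact congrArg y' ((Equiv.ofBijective τ hτb).apply_symm_apply i).symm
  obtain ⟨x⟩ : Nonempty (Fin j ↪ α) := Function.Embedding.nonempty_of_card_le (by rw [Fintype.card_fin]; omega)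
  obtain ⟨y₀⟩ : Nonempty (Fin (j + 1) ↪ α) := Function.Embedding.nonempty_of_card_le (by rw [Fintype.card_fin]; omega)
  have : Finite (MulAction.orbitRel.Quotient G (Fin (j + 1) ↪ α)) := Quotient.finite _
  have hfree' : ∀ (y : Fin (j + 1) ↪ α) (g : G), g • y = y → g = 1 := by
    intro y g hg
    apply Subtype.ext
    refine hfree g g.2 ?_
    have hsub : Set.range y ⊆ {z | (g : Equiv.Perm α) z = z} := by
      rintro _ ⟨i, rfl⟩
      exact DFunLike.congr_fun hg i
    have := Set.ncard_le_ncard hsub (Set.toFinite _)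
    rw [Set.ncard_range_of_injective y.injective, Nat.card_eq_fintype_card, Fintype.card_fin] at this
    omega
  have hY := card_quotient_mul (G := G) (α := α) (m := j + 1) hfree'
  set i := Nat.card (MulAction.orbitRel.Quotient G (Fin (j + 1) ↪ α)) with hidef
  have hi2 : 2 ≤ i := by
    by_contra h
    have hsub := (Finite.card_le_one_iff_subsingleton (α := MulAction.orbitRel.Quotient G (Fin (j + 1) ↪ α))).1 (by omega)
    refine hnt ⟨fun a b => ?_⟩
    obtain ⟨g, hg⟩ := Quotient.eq''.1 (hsub.elim (Quotient.mk'' b) (Quotient.mk'' a))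
    exact ⟨g, hg⟩
  have hidvd : i ∣ (j + 1).factorial := by
    letI : MulAction (Equiv.Perm (Fin (j + 1))) (MulAction.orbitRel.Quotient G (Fin (j + 1) ↪ α)) :=
      MulAction.compHom _ (M := Equiv.Perm (MulAction.orbitRel.Quotient G (Fin (j + 1) ↪ α))) (permTupleHom G α (j + 1))
    have huniv : MulAction.orbit (Equiv.Perm (Fin (j + 1))) (Quotient.mk'' y₀ : MulAction.orbitRel.Quotient G (Fin (j + 1) ↪ α)) = Set.univ := by
      refine Set.eq_univ_of_forall fun q => ?_
      induction q using Quotient.inductionOn' with | h y => ?_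
      exact htr y₀ y
    rw [hidef, ← Set.ncard_univ, ← huniv, ← MulAction.index_stabilizer]
    exact (Subgroup.index_dvd_card _).trans (by rw [Nat.card_perm, Nat.card_eq_fintype_card, Fintype.card_fin])
  set n := Fintype.card α with hn
  set d := Nat.card (MulAction.stabilizer G x) with hd
  have hG : n.descFactorial j * d = Nat.card G := card_mul_descFactorial G ht x
  have hpos : 0 < n.descFactorial j := Nat.descFactorial_pos.2 (by omega)
  have hdpos : 0 < d := Nat.card_pos
  have hid : i * d = n - j := by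
    change i * Nat.card G = _ at hY
    rw [← hG, Nat.descFactorial_succ] at hY
    refine Nat.eq_of_mul_eq_mul_left hpos ?_
    rw [mul_comm (n.descFactorial j) (n - j), ← hY]
    ring
  obtain ⟨t, htt⟩ : ∃ t, i * (n - (j + 1)) * t = (j + 2).factorial := by
    obtain ⟨s₂, -, hs₂⟩ := Finset.exists_subset_card_eq (s := (Finset.univ : Finset α)) (n := j + 2) (by rw [Finset.card_univ]; omega)
    haveI := hh
    have h := Subgroup.index_mul_card (MulAction.stabilizer G (⟨s₂, hs₂⟩ : Set.powersetCard α (j + 2)))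
    rw [MulAction.index_stabilizer_of_transitive, Set.powersetCard.card, Nat.card_eq_fintype_card, ← hn] at h
    refine ⟨Nat.card (MulAction.stabilizer G (⟨s₂, hs₂⟩ : Set.powersetCard α (j + 2))), ?_⟩
    have h' := congrArg ((j + 2).factorial * ·) h
    beta_reduce at h'
    rw [← mul_assoc, ← Nat.descFactorial_eq_factorial_mul_choose, Nat.descFactorial_succ, Nat.descFactorial_succ,
      ← hG, ← hid] at h'
    refine Nat.eq_of_mul_eq_mul_left (Nat.mul_pos hpos hdpos) ?_
    linarith
  -- odd permutations of tuples are never induced when even ones all are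
  have main : 4 ≤ j → i ≤ j → False := by
    intro hj hij
    obtain ⟨m, rfl⟩ : ∃ m, j = m + 4 := ⟨j - 4, by omega⟩
    have heven : ∀ g ∈ G, ∀ (y : Fin (m + 4 + 1) ↪ α) (σ : Equiv.Perm (Fin (m + 4 + 1))),
        (∀ l, g (y l) = y (σ l)) → Equiv.Perm.sign σ = 1 := by
      intro g hg y σ hσ
      by_contra hodd
      replace hodd := (Int.units_eq_one_or _).resolve_left hodd
      have hsmall : (Set.range fun τ => permTupleHom G α (m + 4 + 1) τ (Quotient.mk'' y)).ncard ≤ m + 4 := by
        refine le_trans ?_ hij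
        rw [hidef, ← Set.ncard_univ]
        exact Set.ncard_le_ncard (Set.subset_univ _) (Set.toFinite _)
      have hall : ∀ τ, permTupleHom G α (m + 4 + 1) τ (Quotient.mk'' y) = Quotient.mk'' y := by
        intro τ
        rcases Int.units_eq_one_or (Equiv.Perm.sign τ) with hτ | hτ
        · obtain ⟨e, he⟩ := even_induced_of_small (by omega) y hsmall τ hτ
          exact fixed_of_exists he
        · obtain ⟨e, he⟩ := even_induced_of_small (by omega) y hsmall (τ * σ) (by rw [map_mul, hτ, hodd]; decide)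
          refine fixed_of_exists (g := e * ⟨g, hg⟩⁻¹) fun l => ?_
          have h1 : (⟨g, hg⟩ : G)⁻¹ • y l = y (σ⁻¹ l) := by
            rw [inv_smul_eq_iff]
            show y l = g (y (σ⁻¹ l))
            rw [hσ]
            simp
          rw [mul_smul, h1, he]
          simp
      have hsub : Subsingleton (MulAction.orbitRel.Quotient G (Fin (m + 4 + 1) ↪ α)) := by
        refine ⟨fun p q => ?_⟩
        induction p using Quotient.inductionOn' with | h p => ?_
        induction q using Quotient.inductionOn' with | h q => ?_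
        obtain ⟨τ, hτ⟩ := htr y p
        obtain ⟨τ', hτ'⟩ := htr y q
        exact hτ.symm.trans ((hall τ).trans ((hall τ').symm.trans hτ'))
      have := Finite.card_le_one_iff_subsingleton.2 hsub
      omega
    have := card_le_of_even_induced ht (by omega) heven
    omega
  by_cases hj4 : 4 ≤ j
  · exfalso
    obtain ⟨m, rfl⟩ : ∃ m, j = m + 4 := ⟨j - 4, by omega⟩
    rcases tuple_orbit_count_bound ht (by omega) hfree with h | ⟨h7, hn11, hcard⟩
    · exact main hj4 (by omega)
    rw [← hidef] at h7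
    by_cases hm : 3 ≤ m
    · exact main hj4 (by omega)
    by_cases hm2 : m = 2
    · subst hm2
      haveI : MulAction.IsPretransitive G α := by
        rw [← MulAction.is_one_pretransitive_iff]
        exact MulAction.isMultiplyPretransitive_of_le (n := 2 + 4) (by norm_num) (by rw [Nat.card_eq_fintype_card]; omega)
      refine Cfsg.Agent.S0710.result hn11 G ?_
      rw [hcard, hn11]
      rfl
    rw [h7, Nat.Prime.dvd_factorial (by norm_num)] at hidvd
    omega
  have hile : i ≤ (j + 1).factorial := Nat.le_of_dvd (Nat.factorial_pos _) hidvd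
  have hmdvd : i * (n - (j + 1)) ∣ (j + 2).factorial := ⟨t, htt.symm⟩
  have hmle : i * (n - (j + 1)) ≤ (j + 2).factorial := Nat.le_of_dvd (Nat.factorial_pos _) hmdvd
  have hdvdc : i ∣ n - (j + 1) + 1 := ⟨d, by omega⟩
  have hm2' : 2 * (n - (j + 1)) ≤ i * (n - (j + 1)) := Nat.mul_le_mul_right _ hi2
  rcases (show j = 1 ∨ j = 2 ∨ j = 3 by omega) with rfl | rfl | rfl
  · -- j = 1
    exfalso
    simp only [Nat.reduceAdd] at hidvd hile hmle hmdvd hdvdc htt hh1 hnt hm2'
    norm_num [Nat.factorial] at hile htt hmle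
    have hi : i = 2 := by omega
    rw [hi] at htt hmle hid
    have hn5 : n = 5 := by
      have h3 : n - 2 ∣ 3 := ⟨t, by linarith⟩
      rcases (Nat.dvd_prime Nat.prime_three).1 h3 with e | e <;> omega
    have hGe : Nat.card G = 10 := by
      rw [← hG, hn5, show d = 2 by omega]
      rfl
    refine hnt ((Cfsg.Agent.S0735.result G hh1 (by omega)).1 ?_)
    rw [hGe]
    decide
  · -- j = 2
    norm_num [Nat.factorial] at hile hidvd hmle hmdvd
    simp only [Nat.reduceAdd] at hid hdvdc hm2'
    have hb := param_two i (n - 3) (by omega) (by omega) hi2 (by omega) hidvd hmdvd hdvdc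
    rcases hb with ⟨h, h'⟩ | ⟨h, h'⟩ | ⟨h, h'⟩
    · exfalso
      rw [h] at hid
      exact not_two_dvd (by omega) htr (hidef ▸ h) x ⟨1, by omega⟩
    · refine Or.inr (Or.inl ⟨by omega, rfl, ?_⟩)
      rw [h] at hid
      rw [← hG, show n = 5 by omega, show d = 1 by omega]
      rfl
    · exfalso
      rw [h] at hid
      have hGe : Nat.card G = 11 * 30 := by
        rw [← hG, show n = 11 by omega, show d = 3 by omega]
        rfl
      obtain ⟨e, he1, he2, he3⟩ := prime_degree_congr (by norm_num) (show Fintype.card α = 11 by omega) G hGe (by norm_num)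
      have := Nat.le_of_dvd (by norm_num) he1
      revert he1 he2 he3
      interval_cases e <;> decide
  · -- j = 3
    norm_num [Nat.factorial] at hile hidvd hmle hmdvd
    simp only [Nat.reduceAdd] at hid hdvdc hm2'
    have hb := param_three i (n - 4) (by omega) (by omega) hi2 (by omega) hidvd hmdvd hdvdc
    simp only [List.mem_cons, List.not_mem_nil, or_false] at hb
    obtain ⟨a⟩ : Nonempty (Fin 1 ↪ α) := Function.Embedding.nonempty_of_card_le (by rw [Fintype.card_fin]; omega)
    obtain ⟨H, hH2, hHfree, hHcard, hHG, -⟩ := exists_pointwise_restrict G (m := 1) (j := 2) ht (by omega) a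
    rw [← hG, Nat.descFactorial_one] at hHG
    have hHc : Fintype.card ↥((Set.range a)ᶜ : Set α) = n - 1 := by rw [← Nat.card_eq_fintype_card]; omega
    rw [← hn] at hHG
    rcases hb with ⟨h, hm | hm | hm⟩ | ⟨h, hm | hm | hm | hm⟩ | ⟨h, hm | hm⟩ | ⟨h, hm⟩ | ⟨h, hm⟩ <;>
      rw [h] at hid
    · exfalso
      exact not_two_dvd (by omega) htr (hidef ▸ h) x ⟨1, by omega⟩
    · refine Or.inr (Or.inr (Or.inr ⟨by omega, rfl, Or.inr ?_⟩))
      rw [← hG, show n = 9 by omega, show d = 3 by omega]
      rfl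
    · exfalso
      exact not_two_dvd (by omega) htr (hidef ▸ h) x ⟨4, by omega⟩
    · refine Or.inr (Or.inr (Or.inl ⟨by omega, rfl, ?_⟩))
      rw [← hG, show n = 6 by omega, show d = 1 by omega]
      rfl
    · exfalso
      rw [show n = 9 by omega, show d = 2 by omega] at hHG
      norm_num [Nat.descFactorial, -Nat.card_eq_fintype_card] at hHG
      exact no_two_transitive_eight (by omega) H hH2 (hHfree 2 hfree) (by omega)
    · exfalso
      rw [show n = 12 by omega, show d = 3 by omega] at hHG
      norm_num [Nat.descFactorial, -Nat.card_eq_fintype_card] at hHG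
      obtain ⟨e, he1, he2, he3⟩ := prime_degree_congr (c := 30) (show Nat.Prime 11 by norm_num) (by omega) H (by omega) (by norm_num)
      have := Nat.le_of_dvd (by norm_num) he1
      revert he1 he2 he3
      interval_cases e <;> decide
    · exfalso
      rw [show n = 24 by omega, show d = 7 by omega] at hHG
      norm_num [Nat.descFactorial, -Nat.card_eq_fintype_card] at hHG
      obtain ⟨e, he1, he2, he3⟩ := prime_degree_congr (c := 154) (show Nat.Prime 23 by norm_num) (by omega) H (by omega) (by norm_num)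
      have := Nat.le_of_dvd (by norm_num) he1
      revert he1 he2 he3
      interval_cases e <;> decide
    · exfalso
      rw [show n = 7 by omega, show d = 1 by omega] at hHG
      norm_num [Nat.descFactorial, -Nat.card_eq_fintype_card] at hHG
      exact no_two_transitive_six_thirty (by omega) H hH2 (by omega)
    · exfalso
      have hGe : Nat.card G = 19 * 1224 := by
        rw [← hG, show n = 19 by omega, show d = 4 by omega]
        rfl
      obtain ⟨e, he1, he2, he3⟩ := prime_degree_congr (by norm_num) (show Fintype.card α = 19 by omega) G hGe (by norm_num)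
      have := Nat.le_of_dvd (by norm_num) he1
      revert he1 he2 he3
      interval_cases e <;> decide
    · refine Or.inr (Or.inr (Or.inr ⟨by omega, rfl, Or.inl ?_⟩))
      rw [← hG, show n = 9 by omega, show d = 1 by omega]
      rfl
    · exfalso
      have hGe : Nat.card G = 19 * 612 := by
        rw [← hG, show n = 19 by omega, show d = 2 by omega]
        rfl
      obtain ⟨e, he1, he2, he3⟩ := prime_degree_congr (by norm_num) (show Fintype.card α = 19 by omega) G hGe (by norm_num)
      have := Nat.le_of_dvd (by norm_num) he1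
      revert he1 he2 he3
      interval_cases e <;> decide

end Cfsg.Agent.S0745
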