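import Cfsg.Statements.S0746
import Cfsg.Agent.S0736
import Cfsg.Agent.S0745

set_option autoImplicit false
open Cfsg
open scoped Pointwise

namespace Cfsg.Agent.S0746

/-- The Livingstone–Wagner Theorem, first form: a `k`-homogeneous group of degree `n` with `4 ≤ 2k ≤ n` is `(k-1)`-transitive. -/
theorem result {α : Type*} [Fintype α] [DecidableEq α] (G : Subgroup (Equiv.Perm α)) {k : ℕ} (hk : 2 ≤ k) (hkn : 2 * k ≤ Fintype.card α) (hh : MulAction.IsPretransitive G (Set.powersetCard α k)) : MulAction.IsMultiplyPretransitive G α (k - 1) := by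
  classical
  induction k using Nat.strong_induction_on with
  | _ k ih =>
  have hh1 : MulAction.IsPretransitive G (Set.powersetCard α (k - 1)) :=
    Cfsg.Agent.S0736.result G hk hh fun q _ hq => by
      have := Nat.le_of_dvd (by omega) hq
      omega
  rcases hk.eq_or_lt with rfl | hk3
  · refine ⟨fun x y => ?_⟩
    obtain ⟨g, hg⟩ := hh1.exists_smul_eq ⟨{x 0}, by simp⟩ ⟨{y 0}, by simp⟩
    have hg' : g • ({x 0} : Finset α) = {y 0} := congrArg Subtype.val hg
    rw [Finset.smul_finset_singleton, Finset.singleton_inj] at hg'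
    refine ⟨g, Function.Embedding.ext fun i => ?_⟩
    have hi : i = (0 : Fin 1) := Subsingleton.elim (α := Fin 1) i 0
    rw [hi]
    exact hg'
  · have ht : MulAction.IsMultiplyPretransitive G α (k - 2) := ih (k - 1) (by omega) (by omega) (by omega) hh1
    by_contra hnt
    rcases Cfsg.Agent.S0745.result G (by omega) (by omega) ht hnt hh1 hh with ⟨h, -⟩ | ⟨h, h', -⟩ | ⟨h, h', -⟩ | ⟨h, h', -⟩ <;>
      omega

end Cfsg.Agent.S0746
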