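import Cfsg.Statements.S0748
import Cfsg.Agent.S0746
import Cfsg.Agent.H37.EvenInduced

set_option autoImplicit false
open Cfsg
open scoped Pointwise

namespace Cfsg.Agent.S0748

/-- The Livingstone–Wagner Theorem: a `k`-homogeneous permutation group of degree `n` with `10 ≤ 2k ≤ n` is `k`-transitive. -/
theorem result {α : Type*} [Fintype α] [DecidableEq α] (G : Subgroup (Equiv.Perm α)) {k : ℕ} (hk : 5 ≤ k) (hkn : 2 * k ≤ Fintype.card α) (hh : MulAction.IsPretransitive G (Set.powersetCard α k)) : MulAction.IsMultiplyPretransitive G α k := by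
  classical
  obtain ⟨m, rfl⟩ : ∃ m, k = m + 4 + 1 := ⟨k - 5, by omega⟩
  have ht : MulAction.IsMultiplyPretransitive G α (m + 4) := Cfsg.Agent.S0746.result G (by omega) hkn hh
  obtain ⟨x, hx⟩ := Cfsg.Agent.H37.exists_even_induced (k := m + 4) (by omega) (by omega) ht
  let f := Cfsg.Agent.H37.permTupleHom G α (m + 4 + 1)
  let q : MulAction.orbitRel.Quotient G (Fin (m + 4 + 1) ↪ α) := Quotient.mk'' x
  have heven' : ∀ σ, Equiv.Perm.sign σ = 1 → f σ q = q := fun σ hσ => by
    obtain ⟨g, hg, hgx⟩ := hx σ hσ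
    exact Cfsg.Agent.H37.fixed_of_exists (g := (⟨g, hg⟩ : G)) hgx
  have htr : ∀ y : Fin (m + 4 + 1) ↪ α, ∃ σ, f σ q = Quotient.mk'' y := by
    intro y
    obtain ⟨g, hg⟩ := hh.exists_smul_eq ⟨Finset.univ.map x, by simp⟩ ⟨Finset.univ.map y, by simp⟩
    have hg' : g • Finset.univ.map x = Finset.univ.map y := congrArg Subtype.val hg
    have hmem : ∀ i, ∃ i', y i' = g • x i := by
      intro i
      have : g • x i ∈ g • Finset.univ.map x := Finset.smul_mem_smul_finset (by simp)
      rw [hg'] at this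
      simpa using this
    choose τ hτ using hmem
    have hτb : Function.Bijective τ := Finite.injective_iff_bijective.1 fun a b e =>
      x.injective (MulAction.injective g (by simp only; rw [← hτ, ← hτ, e]))
    refine ⟨Equiv.ofBijective τ hτb, ?_⟩
    refine (Cfsg.Agent.H37.permTupleHom_mk _ x).trans (Quotient.eq''.2 ?_)
    refine ⟨g⁻¹, Function.Embedding.ext fun i => ?_⟩
    show g⁻¹ • y i = x ((Equiv.ofBijective τ hτb)⁻¹ i)
    rw [inv_smul_eq_iff, ← hτ]
    exact congrArg y ((Equiv.ofBijective τ hτb).apply_symm_apply i).symm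
  by_cases hodd : ∃ σ, Equiv.Perm.sign σ = -1 ∧ f σ q = q
  · obtain ⟨σ, hσ, hσq⟩ := hodd
    have hall : ∀ y : Fin (m + 4 + 1) ↪ α, Quotient.mk'' y = q := by
      intro y
      obtain ⟨τ, hτ⟩ := htr y
      refine hτ.symm.trans ?_
      rcases Int.units_eq_one_or (Equiv.Perm.sign τ) with h | h
      · exact heven' τ h
      · have h' := heven' (τ * σ) (by rw [map_mul, h, hσ]; decide)
        rw [map_mul] at h'
        exact (congrArg (f τ) hσq).symm.trans h'
    refine ⟨fun a b => ?_⟩
    obtain ⟨g, hg⟩ := Quotient.eq''.1 ((hall b).trans (hall a).symm)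
    exact ⟨g, hg⟩
  · exfalso
    have := Cfsg.Agent.H37.card_le_of_even_induced ht (by omega) (by
      intro g hg y σ hσ
      by_contra hne
      obtain ⟨τ, hτ⟩ := htr y
      refine hodd ⟨τ⁻¹ * σ * τ, by
        rw [map_mul, map_mul, map_inv, (Int.units_eq_one_or _).resolve_left hne, mul_neg_one, neg_mul,
          inv_mul_cancel], ?_⟩
      rw [map_mul, map_mul, map_inv]
      show (f τ).symm (f σ (f τ q)) = q
      refine (f τ).symm_apply_eq.2 ?_
      exact ((congrArg (f σ) hτ).trans (Cfsg.Agent.H37.fixed_of_exists (g := (⟨g, hg⟩ : G)) hσ)).trans hτ.symm)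
    omega

end Cfsg.Agent.S0748
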