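import Cfsg.Statements.S0751
import Cfsg.Agent.H3.Form

set_option autoImplicit false
open Cfsg

namespace Cfsg.Agent.S0751

/-- Witt's Lemma for Hermitian forms. Let σ be a non-identity involutive automorphism of a finite field F and B a non-degenerate σ-sesquilinear form on a finite-dimensional F-space V which is conjugate-symmetric (σ (B x y) = B y x). Then every linear equivalence between subspaces X, Y of V preserving B extends to a B-preserving linear automorphism of V. -/
theorem result {F V : Type*} [Field F] [Finite F] [AddCommGroup V] [Module F V] [FiniteDimensional F V] (σ : F →+* F) (hσ : σ ≠ RingHom.id F) (hσ2 : ∀ a : F, σ (σ a) = a) (B : V →ₛₗ[σ] V →ₗ[F] F) (hS : B.IsSymm) (hB : B.Nondegenerate) (X Y : Submodule F V) (φ : X ≃ₗ[F] Y) (hφ : ∀ x x' : X, B (φ x : V) (φ x' : V) = B (x : V) (x' : V)) : ∃ g : V ≃ₗ[F] V, (∀ u v : V, B (g u) (g v) = B u v) ∧ ∀ x : X, g (x : V) = (φ x : V) := by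
  haveI := Fintype.ofFinite F
  obtain ⟨q, hq, hσq⟩ := H3.exists_q_of_involution σ hσ hσ2
  have hH : H3.IsHerm B q := ⟨hq, hσq, hS.eq, hB.1⟩
  let b := Module.finBasis F X
  obtain ⟨g, hg, hgb⟩ := hH.witt (fun i => ((b i : X) : V)) (fun i => ((φ (b i) : Y) : V))
    (b.linearIndependent.map' X.subtype X.ker_subtype)
    ((b.map φ).linearIndependent.map' Y.subtype Y.ker_subtype) (fun i j => (hφ _ _).symm)
  refine ⟨g, hg, fun x => ?_⟩
  have h : (g : V →ₗ[F] V).comp X.subtype = Y.subtype.comp (φ : X →ₗ[F] Y) := b.ext hgb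
  exact LinearMap.congr_fun h x

end Cfsg.Agent.S0751
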