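import Cfsg.Statements.S0756
import Cfsg.Agent.H4.SquareClass

set_option autoImplicit false
open Cfsg

namespace Cfsg.Agent.S0756

/-- Classification of symmetric bilinear forms over finite fields of odd characteristic: if B is non-degenerate symmetric on V of dimension n + 1 and α is a fixed non-square of F, there is an orthogonal basis b_0, ..., b_n with B(b_i, b_i) = 1 for i < n and B(b_n, b_n) ∈ {1, α}. -/
theorem result {F V : Type*} [Field F] [Finite F] [AddCommGroup V] [Module F V] [FiniteDimensional F V] (h2 : (2 : F) ≠ 0) (B : LinearMap.BilinForm F V) (hS : B.IsSymm) (hB : B.Nondegenerate) {n : ℕ} (hn : Module.finrank F V = n + 1) (α : F) (hα : ¬ IsSquare α) : ∃ b : Module.Basis (Fin (n + 1)) F V, (∀ i j, i ≠ j → B (b i) (b j) = 0) ∧ (∀ i, i ≠ Fin.last n → B (b i) (b i) = 1) ∧ (B (b (Fin.last n)) (b (Fin.last n)) = 1 ∨ B (b (Fin.last n)) (b (Fin.last n)) = α) := by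
  classical
  have hpol : ∀ x y, QuadraticMap.polar (LinearMap.BilinMap.toQuadraticMap B) x y = 2 * B x y := by
    intro x y
    rw [LinearMap.BilinMap.polar_toQuadraticMap, hS.eq y x]; ring
  have hQ : (QuadraticMap.polarBilin (LinearMap.BilinMap.toQuadraticMap B)).Nondegenerate := by
    refine ⟨fun x hx => hB.1 x fun y => ?_, fun y hy => hB.2 y fun x => ?_⟩
    · have h := (hpol x y).symm.trans (hx y)
      exact (mul_eq_zero.1 h).resolve_left h2
    · have h := (hpol x y).symm.trans (hy x)
      exact (mul_eq_zero.1 h).resolve_left h2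
  obtain ⟨b, d, hd, hperp, hq⟩ := H4.exists_orth_basis h2 hQ hn α hα
  simp only [LinearMap.BilinMap.toQuadraticMap_apply] at hq
  refine ⟨b, fun i j hij => ?_, fun i hi => by rw [hq, if_neg hi], ?_⟩
  · have := hperp i j hij
    rw [hpol] at this
    exact (mul_eq_zero.1 this).resolve_left h2
  · rw [hq, if_pos rfl]
    exact hd

end Cfsg.Agent.S0756
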