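import Cfsg.Statements.S0757
import Cfsg.Agent.H4.SquareClass

set_option autoImplicit false
open Cfsg

namespace Cfsg.Agent.S0757

/-- The two diagonal forms Σ x_i^2 and Σ_(i<n) x_i^2 + α x_n^2 on F^(n+1), with α a non-square and 2 ≠ 0 in F, are inequivalent quadratic forms (so over a finite field of odd order there are exactly two classes of non-singular symmetric bilinear forms in each dimension). -/
theorem result {F : Type*} [Field F] (h2 : (2 : F) ≠ 0) (n : ℕ) (α : F) (hα : ¬ IsSquare α) : ¬ (QuadraticMap.weightedSumSquares F (fun _ : Fin (n + 1) => (1 : F))).Equivalent (QuadraticMap.weightedSumSquares F (fun i : Fin (n + 1) => if i = Fin.last n then α else (1 : F))) := by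
  rintro ⟨e⟩
  classical
  obtain ⟨t, ht0, ht⟩ := H4.det_gram_isom e.toLinearEquiv (fun v => e.map_app v)
    (Pi.basisFun F _) (Pi.basisFun F _)
  rw [H4.det_gram_weightedSumSquares, H4.det_gram_weightedSumSquares, Finset.prod_mul_distrib,
    Finset.prod_mul_distrib, Finset.prod_ite_eq' Finset.univ (Fin.last n) (fun _ => α)] at ht
  simp only [Finset.prod_const, Finset.card_univ, Fintype.card_fin, one_pow, Finset.mem_univ,
    if_true] at ht
  apply hα
  refine ⟨t⁻¹, ?_⟩
  have h2n : (2 : F) ^ (n + 1) ≠ 0 := pow_ne_zero _ h2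
  have h1 : (1 : F) = t ^ 2 * α := mul_left_cancel₀ h2n (by linear_combination ht)
  field_simp
  linear_combination -h1

end Cfsg.Agent.S0757
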