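import Cfsg.Statements.S0758
import Cfsg.Agent.H4.SquareClass

set_option autoImplicit false
open Cfsg

namespace Cfsg.Agent.S0758

/-- For a finite field F of odd order q and a non-square α: the form x² + y² is isotropic iff q ≡ 1 mod 4, and the form x² + α y² is isotropic iff q ≡ 3 mod 4. -/
theorem result {F : Type*} [Field F] [Fintype F] (h2 : (2 : F) ≠ 0) (α : F) (hα : ¬ IsSquare α) : ((∃ x y : F, (x ≠ 0 ∨ y ≠ 0) ∧ x ^ 2 + y ^ 2 = 0) ↔ Fintype.card F % 4 = 1) ∧ ((∃ x y : F, (x ≠ 0 ∨ y ≠ 0) ∧ x ^ 2 + α * y ^ 2 = 0) ↔ Fintype.card F % 4 = 3) := by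
  have key : ∀ d : F, d ≠ 0 → ((∃ x y : F, (x ≠ 0 ∨ y ≠ 0) ∧ x ^ 2 + d * y ^ 2 = 0) ↔
      IsSquare (-d)) := by
    intro d hd
    constructor
    · rintro ⟨x, y, hne, h⟩
      have hy : y ≠ 0 := by
        rintro rfl
        have hx : x ^ 2 = 0 := by linear_combination h
        exact (hne.resolve_right (by simp)) (pow_eq_zero_iff two_ne_zero |>.1 hx)
      exact ⟨x / y, by field_simp; linear_combination -h⟩
    · rintro ⟨s, hs⟩
      exact ⟨s, 1, Or.inr one_ne_zero, by linear_combination -hs⟩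
  have hα0 : α ≠ 0 := fun h => hα (h ▸ IsSquare.zero)
  have hodd := H4.odd_card_of_two_ne_zero (F := F) h2
  have h1 : IsSquare (-1 : F) ↔ Fintype.card F % 4 = 1 := by
    rw [FiniteField.isSquare_neg_one_iff]; omega
  refine ⟨by simpa [h1] using key 1 one_ne_zero, ?_⟩
  rw [key α hα0]
  by_cases hs : IsSquare (-1 : F)
  · have := h1.1 hs
    refine iff_of_false (fun h => hα ?_) (by omega)
    have := h.mul hs
    simpa using this
  · have hne : ¬ Fintype.card F % 4 = 1 := fun h => hs (h1.2 h)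
    refine iff_of_true ?_ (by omega)
    have := H4.isSquare_mul_of_not hs hα
    simpa using this

end Cfsg.Agent.S0758
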