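import Cfsg.Statements.S0759
import Cfsg.Agent.H4.SquareClass

set_option autoImplicit false
open Cfsg

namespace Cfsg.Agent.S0759

/-- Type of the orthonormal form: over a finite field of odd order q and for m ≥ 1, the quadratic form Σ_(i<2m) x_i² on F^(2m) admits an m-dimensional subspace on which it vanishes identically if and only if it is not the case that q ≡ 3 (mod 4) and m is odd. -/
theorem result {F : Type*} [Field F] [Fintype F] (h2 : (2 : F) ≠ 0) (m : ℕ) (hm : 1 ≤ m) : (∃ W : Submodule F (Fin (2 * m) → F), Module.finrank F W = m ∧ ∀ w ∈ W, ∑ i, w i ^ 2 = 0) ↔ ¬ (Fintype.card F % 4 = 3 ∧ Odd m) := by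
  classical
  have hQ := H4.weightedSumSquares_nondegenerate (w := fun _ : Fin (2 * m) => (1 : F)) h2
    (fun _ => one_ne_zero)
  have h := H4.singular_iff_isSquare h2 hQ (m := m) (by simp) (Pi.basisFun F _)
  rw [H4.det_gram_weightedSumSquares] at h
  rw [← H4.isSquare_neg_one_pow (F := F)]
  have h2m : IsSquare ((-1 : F) ^ m * ∏ _i : Fin (2 * m), 2 * 1) ↔ IsSquare ((-1 : F) ^ m) := by
    simp only [mul_one, Finset.prod_const, Finset.card_univ, Fintype.card_fin]
    rw [two_mul m, pow_add]
    have h2' : (2 : F) ^ m ≠ 0 := pow_ne_zero _ h2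
    constructor <;> rintro ⟨r, hr⟩
    · exact ⟨r / 2 ^ m, by field_simp; linear_combination hr⟩
    · exact ⟨r * 2 ^ m, by rw [hr]; ring⟩
  rw [← h2m, ← h]
  simp [QuadraticMap.weightedSumSquares_apply, pow_two, and_comm]

end Cfsg.Agent.S0759
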