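import Cfsg.Statements.S0761
import Cfsg.Agent.H4.Basic

set_option autoImplicit false
open Cfsg

namespace Cfsg.Agent.S0761

/-- Hyperbolic partners: let B be a non-degenerate bilinear form on a finite-dimensional space, either alternating, or symmetric with 2 ≠ 0. If Z is a subspace on which B vanishes, x ∉ Z is isotropic and orthogonal to Z, then there is an isotropic y with B x y = 1 which is orthogonal to Z. -/
theorem result {F V : Type*} [Field F] [AddCommGroup V] [Module F V] [FiniteDimensional F V] (B : LinearMap.BilinForm F V) (hB : B.Nondegenerate) (hform : B.IsAlt ∨ (B.IsSymm ∧ (2 : F) ≠ 0)) (x : V) (Z : Submodule F V) (hxZ : x ∉ Z) (hx : B x x = 0) (hxz : ∀ z ∈ Z, B x z = 0) (hZ : ∀ z ∈ Z, ∀ z' ∈ Z, B z z' = 0) : ∃ y : V, B y y = 0 ∧ B x y = 1 ∧ ∀ z ∈ Z, B z y = 0 := by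
  have hx0 : x ∉ (⊥ : Submodule F V) := fun h => hxZ (by simp [(Submodule.mem_bot F).1 h])
  have hrefl : B.IsRefl := hform.elim (fun h => h.isRefl) (fun h => h.1.isRefl)
  obtain ⟨l, hl, hlZ⟩ := Submodule.exists_dual_map_eq_bot_of_notMem hxZ inferInstance
  obtain ⟨y₀, hy⟩ : ∃ y₀, ∀ z, B z y₀ = (l x)⁻¹ * l z := by
    refine ⟨(LinearMap.BilinForm.toDual (LinearMap.BilinForm.flip B)
      (LinearMap.BilinForm.Nondegenerate.flip hB)).symm ((l x)⁻¹ • l), fun z => ?_⟩
    exact LinearMap.BilinForm.apply_toDual_symm_apply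
      (hB := LinearMap.BilinForm.Nondegenerate.flip hB) ((l x)⁻¹ • l) z
  have hxy : B x y₀ = 1 := by rw [hy, inv_mul_cancel₀ hl]
  have hZy : ∀ z ∈ Z, B z y₀ = 0 := by
    intro z hz
    have : l z ∈ Z.map l := Submodule.mem_map_of_mem hz
    rw [hlZ, Submodule.mem_bot] at this
    rw [hy, this, mul_zero]
  rcases hform with hA | ⟨hS, h2⟩
  · exact ⟨y₀, hA y₀, hxy, hZy⟩
  · refine ⟨y₀ + (-(B y₀ y₀) / 2) • x, ?_, ?_, fun z hz => ?_⟩
    · have h' : B y₀ x = 1 := by rw [hS.eq y₀ x]; exact hxy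
      simp [hxy, h', hx]
      field_simp
      ring
    · simp [hxy, hx]
    · have : B z x = 0 := hrefl _ _ (hxz z hz)
      simp [hZy z hz, this]

end Cfsg.Agent.S0761
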