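import Cfsg.Statements.S0763
import Cfsg.Agent.H4.Decomp

set_option autoImplicit false
open Cfsg

namespace Cfsg.Agent.S0763

/-- Binary quadratic forms in characteristic two over a finite field: if Q is a quadratic form on a 2-dimensional space whose polar form is non-degenerate, then either there are vectors v, w with Q v = Q w = 0 and polar value 1 (Q is xy in these coordinates), or there are v, w and μ with Q v = 1, Q w = μ, polar value 1 and x² + x + μ without roots in F (Q is x² + xy + μy²). -/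
theorem result {F V : Type*} [Field F] [Finite F] [CharP F 2] [AddCommGroup V] [Module F V] (Q : QuadraticForm F V) (h2 : Module.finrank F V = 2) (hQ : (QuadraticMap.polarBilin Q).Nondegenerate) : (∃ v w : V, LinearIndependent F ![v, w] ∧ Q v = 0 ∧ Q w = 0 ∧ QuadraticMap.polar Q v w = 1) ∨ (∃ (v w : V) (μ : F), LinearIndependent F ![v, w] ∧ (∀ x : F, x ^ 2 + x + μ ≠ 0) ∧ Q v = 1 ∧ Q w = μ ∧ QuadraticMap.polar Q v w = 1) := by
  haveI : FiniteDimensional F V := Module.finite_of_finrank_eq_succ h2
  rcases Cfsg.Agent.H4.exists_standard_even (m := 1) hQ h2 with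
    ⟨b, h⟩ | ⟨-, b, ζ, hζ, h, hperp, h0, h1, h01⟩
  · refine Or.inl ⟨b (Sum.inl 0), b (Sum.inr 0), ?_, h.qe 0, h.qf 0, (h.ef 0 0).trans (if_pos rfl)⟩
    have e : ![b (Sum.inl 0), b (Sum.inr 0)] = b ∘ ![Sum.inl 0, Sum.inr 0] := by
      funext k; fin_cases k <;> rfl
    rw [e]
    refine b.linearIndependent.comp _ ?_
    intro i j; fin_cases i <;> fin_cases j <;> simp
  · refine Or.inr ⟨b (Sum.inr 0), b (Sum.inr 1), ζ, ?_, hζ, h0, h1, h01⟩
    have e : ![b (Sum.inr 0), b (Sum.inr 1)] = b ∘ ![Sum.inr 0, Sum.inr 1] := by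
      funext k; fin_cases k <;> rfl
    rw [e]
    refine b.linearIndependent.comp _ ?_
    intro i j; fin_cases i <;> fin_cases j <;> simp

end Cfsg.Agent.S0763
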