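import Cfsg.Statements.S0767
import Cfsg.Agent.H2.Form
-- import your own Cfsg.Agent.* helpers here

set_option autoImplicit false
open Cfsg

namespace Cfsg.Agent.S0767

/-- The root group of a point: T_v(c) T_v(d) = T_v(c + d), and for A in the symplectic group with A v = a v, the conjugate A T_v(c) A⁻¹ is again some T_v(d). -/
theorem result {F : Type*} [Field F] (m : ℕ) (v : Fin m ⊕ Fin m → F) : (∀ c d : F, Cfsg.sympTransvection m v c * Cfsg.sympTransvection m v d = Cfsg.sympTransvection m v (c + d)) ∧ ∀ (A : Matrix (Fin m ⊕ Fin m) (Fin m ⊕ Fin m) F) (a : F), A ∈ Matrix.symplecticGroup (Fin m) F → A.mulVec v = a • v → ∀ c : F, ∃ d : F, A * Cfsg.sympTransvection m v c * A⁻¹ = Cfsg.sympTransvection m v d := by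
  refine ⟨fun c d => Cfsg.Agent.H2.sympTransvection_mul v c d, fun A a hA hv c => ⟨a * a * c, ?_⟩⟩
  rw [show A * Cfsg.sympTransvection m v c = Cfsg.sympTransvection m (A.mulVec v) c * A from
    Cfsg.Agent.H2.mul_sympTransvection ⟨A, hA⟩ v c, hv, Cfsg.Agent.H2.sympTransvection_smul,
    Matrix.mul_assoc, Matrix.mul_nonsing_inv _ (SymplecticGroup.symplectic_det hA), Matrix.mul_one]

end Cfsg.Agent.S0767
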