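import Cfsg.Statements.S0768
import Cfsg.Agent.H2.SpGL
-- import your own Cfsg.Agent.* helpers here

set_option autoImplicit false
open scoped LinearAlgebra.Projectivization
open Cfsg

namespace Cfsg.Agent.S0768

/-- Primitivity: for m ≥ 1 and F finite, the symplectic group of the form sympForm (as a subgroup of the general linear group) acts primitively on the projective space of F^(2m). -/
theorem result {F : Type*} [Field F] [Finite F] (m : ℕ) (hm : 1 ≤ m) : MulAction.IsPreprimitive ↥(Cfsg.spGL m F) (ℙ F (Fin m ⊕ Fin m → F)) := @MulAction.IsPreprimitive.of_surjective _ _ _ _ _ _ _ _ (Cfsg.Agent.H2.spEquivSpGL m F).toMonoidHom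
    { toFun := id, map_smul' := fun g p => by
        induction p using Projectivization.ind with | _ v hv => rfl }
    Cfsg.Agent.H2.isPreprimitive_points Function.surjective_id

end Cfsg.Agent.S0768
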