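import Cfsg.Statements.S0769
import Cfsg.Agent.H1.Triangular

set_option autoImplicit false
open Cfsg

namespace Cfsg.Agent.S0769

/-- Order of the Borel subgroup of GL_n(q): the invertible lower-triangular n × n matrices over a field with q elements number q^(n(n-1)/2) (q-1)^n (unitriangular part times the diagonal torus). -/
theorem result {F : Type*} [Field F] [Fintype F] {q : ℕ} (hF : Fintype.card F = q) (n : ℕ) : Nat.card {g : Matrix.GeneralLinearGroup (Fin n) F // ∀ i j : Fin n, i < j → (g : Matrix (Fin n) (Fin n) F) i j = 0} = q ^ (n * (n - 1) / 2) * (q - 1) ^ n := by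
  exact Cfsg.Agent.H1.card_lowerTri hF n

end Cfsg.Agent.S0769
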