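import Cfsg.Statements.S0770
import Cfsg.Agent.H1.Monomial

set_option autoImplicit false
open Cfsg

namespace Cfsg.Agent.S0770

/-- For a field with at least 3 elements, an invertible matrix normalises the subgroup of invertible diagonal matrices of GL_n if and only if it is monomial (exactly one non-zero entry in each row). -/
theorem result {F : Type*} [Field F] (hF : ∃ a : F, a ≠ 0 ∧ a ≠ 1) (n : ℕ) (g : Matrix.GeneralLinearGroup (Fin n) F) : g ∈ Subgroup.normalizer ((Units.map (Matrix.diagonalRingHom (Fin n) F).toMonoidHom).range : Subgroup (Matrix.GeneralLinearGroup (Fin n) F)) ↔ ∀ i : Fin n, ∃! j : Fin n, (g : Matrix (Fin n) (Fin n) F) i j ≠ 0 := by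
  exact Cfsg.Agent.H1.mem_normalizer_diagonal_iff hF g

end Cfsg.Agent.S0770
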