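import Cfsg.Statements.S0776
import Cfsg.Agent.H2.Decomp

namespace Cfsg.Agent.S0776

open Cfsg.Agent.H2 in
/-- If W ≤ F^(2m) is a 2k-dimensional subspace on which the symplectic form is non-degenerate, then the stabiliser of W in Sp_2m(F) is isomorphic to Sp_2k(F) × Sp_(2m−2k)(F). -/
theorem result {F : Type*} [Field F] (m k : ℕ) (hk : k ≤ m) (W : Submodule F (Fin m ⊕ Fin m → F)) (hWk : Module.finrank F W = 2 * k) (hW : ∀ u ∈ W, (∀ v ∈ W, Cfsg.sympForm m F u v = 0) → u = 0) : Nonempty (↥(Cfsg.stabilizing (Cfsg.spToMat m F) (W : Set (Fin m ⊕ Fin m → F))) ≃* Matrix.symplecticGroup (Fin k) F × Matrix.symplecticGroup (Fin (m - k)) F) := by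
  set B := sympBilin m F
  have hA : B.IsAlt := sympBilin_isAlt m F
  have hW' : ∀ u ∈ W, (∀ v ∈ W, B u v = 0) → u = 0 := fun u hu h =>
    hW u hu fun v hv => by simpa [B] using h v hv
  have hc := isCompl_orth B hA hW'
  obtain ⟨e₁⟩ := isometries_equiv_sp (B.restrict W) (restrict_nondegenerate B hA hW')
    (fun x => hA _) hWk
  obtain ⟨e₂⟩ := isometries_equiv_sp (m := m - k) (B.restrict (orth B W))
    (restrict_orth_nondegenerate B hA (sympBilin_nondegenerate m F) hc) (fun x => hA _) (by
      have := Submodule.finrank_add_eq_of_isCompl hc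
      simp at this
      omega)
  let φ : isometries (B.restrict W) × isometries (B.restrict (orth B W)) →*
      ↥(Cfsg.stabilizing (Cfsg.spToMat m F) (W : Set (Fin m ⊕ Fin m → F))) :=
    ((spEquivIsometries m F).symm.toMonoidHom.comp (extendIso B hA hc)).codRestrict _ fun p v => by
      show v ∈ W ↔ ((spEquivIsometries m F).symm (extendIso B hA hc p) :
        Matrix (Fin m ⊕ Fin m) (Fin m ⊕ Fin m) F).mulVec v ∈ W
      rw [← spEquivIsometries_apply, MulEquiv.apply_symm_apply]
      exact extendIso_mem B hA hc p v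
  refine ⟨((MulEquiv.ofBijective φ ⟨fun a b hab => ?_, fun g => ?_⟩).symm.trans (e₁.prodCongr e₂))⟩
  · have h' : (spEquivIsometries m F).symm (extendIso B hA hc a) =
        (spEquivIsometries m F).symm (extendIso B hA hc b) := congrArg Subtype.val hab
    exact extendIso_injective B hA hc ((spEquivIsometries m F).symm.injective h')
  · obtain ⟨p, hp⟩ := mem_range_extendIso B hA hc (spEquivIsometries m F g.1) fun v => by
      rw [spEquivIsometries_apply]
      exact g.2 v
    refine ⟨p, Subtype.ext ?_⟩
    show (spEquivIsometries m F).symm (extendIso B hA hc p) = g.1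
    rw [hp, MulEquiv.symm_apply_apply]

end Cfsg.Agent.S0776
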