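import Cfsg.Statements.S0778
import Cfsg.Agent.H2.Form

namespace Cfsg.Agent.S0778

open Matrix

/-- The elements of Sp_2m(F) stabilising both W = ⟨e_1..e_m⟩ and U = ⟨f_1..f_m⟩ form a subgroup isomorphic to GL_m(F) (block-diagonal matrices diag(X, X^(−ᵀ)) up to the sign convention of J), for m ≥ 1 or m = 0 alike. -/
theorem result {F : Type*} [Field F] (m : ℕ) : Nonempty (↥(Cfsg.stabilizing (Cfsg.spToMat m F) {v : Fin m ⊕ Fin m → F | ∀ i : Fin m, v (Sum.inr i) = 0} ⊓ Cfsg.stabilizing (Cfsg.spToMat m F) {v : Fin m ⊕ Fin m → F | ∀ i : Fin m, v (Sum.inl i) = 0}) ≃* Matrix.GeneralLinearGroup (Fin m) F) := by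
  set H := Cfsg.stabilizing (Cfsg.spToMat m F) {v : Fin m ⊕ Fin m → F | ∀ i : Fin m, v (Sum.inr i) = 0} ⊓ Cfsg.stabilizing (Cfsg.spToMat m F) {v : Fin m ⊕ Fin m → F | ∀ i : Fin m, v (Sum.inl i) = 0} with hH
  have hblock : ∀ g : H, (g.1 : Matrix (Fin m ⊕ Fin m) (Fin m ⊕ Fin m) F) =
      fromBlocks (g.1 : Matrix (Fin m ⊕ Fin m) (Fin m ⊕ Fin m) F).toBlocks₁₁ 0 0 (g.1 : Matrix (Fin m ⊕ Fin m) (Fin m ⊕ Fin m) F).toBlocks₂₂ := by
    intro g
    ext (i | i) (j | j)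
    · rfl
    · have h := (g.2.2 (Pi.single (Sum.inr j) 1)).mp (fun l => by simp) i
      simpa [Cfsg.spToMat] using h
    · have h := (g.2.1 (Pi.single (Sum.inl j) 1)).mp (fun l => by simp) i
      simpa [Cfsg.spToMat] using h
    · rfl
  have hrel : ∀ g : H, (g.1 : Matrix (Fin m ⊕ Fin m) (Fin m ⊕ Fin m) F).toBlocks₁₁ᵀ *
      (g.1 : Matrix (Fin m ⊕ Fin m) (Fin m ⊕ Fin m) F).toBlocks₂₂ = 1 := by
    intro g
    have h := g.1.2
    rw [hblock g, SymplecticGroup.fromBlocks_mem_iff] at h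
    simpa using h.2.2
  have hinv : ∀ g : H, IsUnit (g.1 : Matrix (Fin m ⊕ Fin m) (Fin m ⊕ Fin m) F).toBlocks₁₁ := by
    intro g
    rw [← isUnit_transpose]
    exact IsUnit.of_mul_eq_one _ (hrel g)
  let f : H →* GeneralLinearGroup (Fin m) F := MonoidHom.mk' (fun g => (hinv g).unit) (by
    intro a b
    refine Units.ext ?_
    show ((a.1 : Matrix (Fin m ⊕ Fin m) (Fin m ⊕ Fin m) F) * (b.1 : Matrix (Fin m ⊕ Fin m) (Fin m ⊕ Fin m) F)).toBlocks₁₁ = _
    rw [Units.val_mul, IsUnit.unit_spec, IsUnit.unit_spec]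
    conv_lhs => rw [hblock a, hblock b, fromBlocks_multiply, toBlocks_fromBlocks₁₁]
    simp)
  refine ⟨MulEquiv.ofBijective f ⟨fun a b hab => ?_, fun X => ?_⟩⟩
  · have h1 : (a.1 : Matrix (Fin m ⊕ Fin m) (Fin m ⊕ Fin m) F).toBlocks₁₁ = (b.1 : Matrix (Fin m ⊕ Fin m) (Fin m ⊕ Fin m) F).toBlocks₁₁ :=
      congrArg Units.val hab
    have h2 : (a.1 : Matrix (Fin m ⊕ Fin m) (Fin m ⊕ Fin m) F).toBlocks₂₂ = (b.1 : Matrix (Fin m ⊕ Fin m) (Fin m ⊕ Fin m) F).toBlocks₂₂ := by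
      have ha := hrel a
      rw [h1] at ha
      exact ((isUnit_transpose _).mpr (hinv b)).mul_left_cancel (ha.trans (hrel b).symm)
    refine Subtype.ext (Subtype.ext ?_)
    rw [hblock a, hblock b, h1, h2]
  · let M : Matrix (Fin m ⊕ Fin m) (Fin m ⊕ Fin m) F :=
      fromBlocks (X : Matrix (Fin m) (Fin m) F) 0 0 ((↑X⁻¹ : Matrix (Fin m) (Fin m) F))ᵀ
    have hM : M ∈ Matrix.symplecticGroup (Fin m) F := by
      rw [SymplecticGroup.fromBlocks_mem_iff]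
      simp [← transpose_mul]
    have hstab : ∀ Y : Matrix (Fin m ⊕ Fin m) (Fin m ⊕ Fin m) F, Y.toBlocks₂₁ = 0 →
        ∀ v : Fin m ⊕ Fin m → F, (∀ i, v (Sum.inr i) = 0) → ∀ i, (Y *ᵥ v) (Sum.inr i) = 0 := by
      intro Y hY v hv i
      simp only [mulVec, dotProduct, Fintype.sum_sum_type, hv, mul_zero, Finset.sum_const_zero,
        add_zero]
      exact Finset.sum_eq_zero fun j _ => by
        have : Y (Sum.inr i) (Sum.inl j) = 0 := congrFun (congrFun hY i) j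
        simp [this]
    have hstab' : ∀ Y : Matrix (Fin m ⊕ Fin m) (Fin m ⊕ Fin m) F, Y.toBlocks₁₂ = 0 →
        ∀ v : Fin m ⊕ Fin m → F, (∀ i, v (Sum.inl i) = 0) → ∀ i, (Y *ᵥ v) (Sum.inl i) = 0 := by
      intro Y hY v hv i
      simp only [mulVec, dotProduct, Fintype.sum_sum_type, hv, mul_zero, Finset.sum_const_zero,
        zero_add]
      exact Finset.sum_eq_zero fun j _ => by
        have : Y (Sum.inl i) (Sum.inr j) = 0 := congrFun (congrFun hY i) j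
        simp [this]
    let M' : Matrix (Fin m ⊕ Fin m) (Fin m ⊕ Fin m) F :=
      fromBlocks (↑X⁻¹ : Matrix (Fin m) (Fin m) F) 0 0 ((X : Matrix (Fin m) (Fin m) F))ᵀ
    have hM'M : M' * M = 1 := by
      simp [M, M', fromBlocks_multiply, ← transpose_mul]
    have hback : ∀ v, M' *ᵥ (M *ᵥ v) = v := fun v => by
      rw [mulVec_mulVec, hM'M, one_mulVec]
    refine ⟨⟨⟨M, hM⟩, fun v => ⟨hstab M (by simp [M]) v, fun h => ?_⟩,
      fun v => ⟨hstab' M (by simp [M]) v, fun h => ?_⟩⟩, Units.ext (by simp [f, M])⟩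
    · exact fun i => by rw [← hback v]; exact hstab M' (by simp [M']) _ h i
    · exact fun i => by rw [← hback v]; exact hstab' M' (by simp [M']) _ h i

end Cfsg.Agent.S0778
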