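import Cfsg.Statements.S0783
import Cfsg.Agent.H3.Isotropic

set_option autoImplicit false
open Cfsg

namespace Cfsg.Agent.S0783

/-- PGU_n(q)/PSU_n(q) is cyclic of order (n, q+1): for n ≥ 2 and |F| = q² there is a surjective homomorphism from GU_n(q) onto the cyclic group of order gcd(n, q + 1) whose kernel is generated by the determinant-one elements together with the centre. -/
theorem result {F : Type*} [Field F] [Fintype F] {q : ℕ} (hF : Fintype.card F = q ^ 2) (n : ℕ) (hn : 2 ≤ n) : ∃ φ : ↥(Cfsg.GU n F q) →* Multiplicative (ZMod (Nat.gcd n (q + 1))), Function.Surjective φ ∧ φ.ker = (Matrix.GeneralLinearGroup.det : Matrix.GeneralLinearGroup (Fin n) F →* Fˣ).ker.subgroupOf (Cfsg.GU n F q) ⊔ Subgroup.center ↥(Cfsg.GU n F q) := by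
  classical
  set d := Nat.gcd n (q + 1) with hd
  set N := (powMonoidHom (q + 1) : Fˣ →* Fˣ).ker with hN
  have hNc : Nat.card N = q + 1 := H3.card_norm_one_units hF
  haveI : NeZero d := ⟨by simp [hd]⟩
  let e : Multiplicative (ZMod (Nat.card N)) ≃* N := zmodCyclicMulEquiv inferInstance
  have hdvd : d ∣ Nat.card N := hNc.symm ▸ Nat.gcd_dvd_right n (q + 1)
  let f : N →* Multiplicative (ZMod d) :=
    (AddMonoidHom.toMultiplicative (ZMod.castHom hdvd (ZMod d)).toAddMonoidHom).comp e.symm.toMonoidHom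
  have hfs : Function.Surjective f := fun y => by
    obtain ⟨x, hx⟩ := ZMod.castHom_surjective hdvd (Multiplicative.toAdd y)
    exact ⟨e (Multiplicative.ofAdd x), by simpa [f] using congrArg Multiplicative.ofAdd hx⟩
  have hker : (powMonoidHom n : N →* N).range = f.ker := by
    refine Subgroup.eq_of_le_of_card_ge ?_ ?_
    · rintro _ ⟨x, rfl⟩
      rw [MonoidHom.mem_ker, powMonoidHom_apply, map_pow]
      apply Multiplicative.toAdd.injective
      rw [toAdd_pow, toAdd_one, nsmul_eq_mul,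
        (ZMod.natCast_eq_zero_iff n d).2 (Nat.gcd_dvd_left n (q + 1)), zero_mul]
    · have h1 := f.ker.card_mul_index
      rw [Subgroup.index_ker, MonoidHom.range_eq_top.2 hfs, Subgroup.card_top,
        Nat.card_congr Multiplicative.toAdd, Nat.card_zmod] at h1
      have h2 := (powMonoidHom n : N →* N).ker.card_mul_index
      rw [Subgroup.index_ker, IsCyclic.card_powMonoidHom_ker, ← h1] at h2
      have hg : (Nat.card N).gcd n = d := by rw [hNc, Nat.gcd_comm]
      rw [h1, hg] at h2
      rw [← h1, mul_comm _ d] at h2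
      exact (Nat.eq_of_mul_eq_mul_left (Nat.pos_of_ne_zero (NeZero.ne d)) h2).ge
  have hrange := H3.range_guDet hF (show 1 ≤ n by omega)
  let δ : ↥(Cfsg.GU n F q) →* N := (H3.guDet n F q).codRestrict N fun g =>
    hrange.le ⟨g, rfl⟩
  have hδs : Function.Surjective δ := fun y => by
    obtain ⟨g, hg⟩ := hrange.ge y.2
    exact ⟨g, Subtype.ext hg⟩
  refine ⟨f.comp δ, hfs.comp hδs, le_antisymm (fun g hg => ?_) (sup_le (fun g hg => ?_) ?_)⟩
  · rw [MonoidHom.mem_ker, MonoidHom.comp_apply, ← MonoidHom.mem_ker, ← hker] at hg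
    obtain ⟨y, hy⟩ := hg
    have hy1 : ((y : Fˣ) : F) ^ (q + 1) = 1 := by simpa using congrArg Units.val y.2
    set s : ↥(Cfsg.GU n F q) := H3.guDiag (fun _ => ((y : Fˣ) : F)) fun _ => hy1 with hs
    have hsc : s ∈ Subgroup.center ↥(Cfsg.GU n F q) :=
      H3.mem_center_GU_of_scalar s (l := ((y : Fˣ) : F)) fun x => by ext i; simp [hs, H3.guDiag, Matrix.mulVec_diagonal]
    rw [show g = g * s⁻¹ * s by group]
    refine Subgroup.mul_mem _ (Subgroup.mem_sup_left ?_) (Subgroup.mem_sup_right hsc)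
    rw [Subgroup.mem_subgroupOf, MonoidHom.mem_ker]
    have hds : H3.guDet n F q s = (y : Fˣ) ^ n := by ext; simp [hs, H3.guDiag]
    have hg' : H3.guDet n F q g = (y : Fˣ) ^ n := (congrArg Subtype.val hy).symm
    show H3.guDet n F q (g * s⁻¹) = 1
    rw [map_mul, map_inv, hg', hds, mul_inv_cancel]
  · rw [MonoidHom.mem_ker, MonoidHom.comp_apply,
      show δ g = 1 from Subtype.ext hg, map_one]
  · intro g hg
    obtain ⟨l, hl⟩ := (H3.mem_center_GU_iff hF hn g).1 hg
    have hM := H3.eq_diagonal_of_scalar _ hl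
    have h1 := H3.scalar_norm_one hF (by omega) g hl
    have hl0 : l ≠ 0 := by rintro rfl; simp at h1
    rw [MonoidHom.mem_ker, MonoidHom.comp_apply, ← MonoidHom.mem_ker, ← hker]
    refine ⟨⟨Units.mk0 l hl0, Units.ext (by simpa using h1)⟩, Subtype.ext ?_⟩
    ext
    simp [δ, hM]

end Cfsg.Agent.S0783
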