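import Cfsg.Statements.S0785
import Cfsg.Agent.H5.OmegaMatrix

set_option autoImplicit false
open Cfsg

namespace Cfsg.Agent.S0785

/-- det(I) = {±1}: for a quadratic form on F^n whose polar form is non-degenerate, every element of the isometry group has determinant 1 or −1, and as soon as Q takes a non-zero value some isometry has determinant −1. -/
theorem result {F : Type*} [Field F] {n : ℕ} (Q : QuadraticForm F (Fin n → F)) (hQ : (QuadraticMap.polarBilin Q).Nondegenerate) : (∀ g : ↥(Cfsg.isometryGroup F ⇑Q), ((g : Matrix.GeneralLinearGroup (Fin n) F) : Matrix (Fin n) (Fin n) F).det = 1 ∨ ((g : Matrix.GeneralLinearGroup (Fin n) F) : Matrix (Fin n) (Fin n) F).det = -1) ∧ ((∃ v, Q v ≠ 0) → ∃ g : ↥(Cfsg.isometryGroup F ⇑Q), ((g : Matrix.GeneralLinearGroup (Fin n) F) : Matrix (Fin n) (Fin n) F).det = -1) := by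
  classical
  refine ⟨fun g => ?_, fun ⟨v, hv⟩ => ?_⟩
  · let M := ((g : Matrix.GeneralLinearGroup (Fin n) F) : Matrix (Fin n) (Fin n) F)
    let G := LinearMap.BilinForm.toMatrix' (QuadraticMap.polarBilin Q)
    have hG : G.det ≠ 0 := LinearMap.BilinForm.nondegenerate_toMatrix'_iff.2 hQ |>.det_ne_zero
    have h := congrArg Matrix.det (LinearMap.BilinForm.toMatrix'_comp (QuadraticMap.polarBilin Q)
      (Matrix.toLin' M) (Matrix.toLin' M))
    have hc : LinearMap.BilinForm.comp (QuadraticMap.polarBilin Q) (Matrix.toLin' M)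
        (Matrix.toLin' M) = QuadraticMap.polarBilin Q := by
      refine LinearMap.ext fun x => LinearMap.ext fun y => ?_
      simp [QuadraticMap.polar, Matrix.toLin'_apply, M, ← Matrix.mulVec_add,
        H5.mem_isometryGroup.1 g.2]
    rw [hc] at h
    simp only [Matrix.det_mul, Matrix.det_transpose, LinearMap.toMatrix'_toLin'] at h
    exact sq_eq_one_iff.1 (mul_left_cancel₀ hG (by linear_combination -h))
  · refine ⟨(H5.isoEquiv Q rfl).symm (H5.refl Q v), ?_⟩
    have hM := (H5.isoEquiv_eq_refl_iff Q rfl _ v).2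
      ((H5.isoEquiv Q rfl).apply_symm_apply (H5.refl Q v))
    rw [hM, Cfsg.reflectionMatrix, sub_eq_add_neg, ← neg_smul, ← Matrix.smul_vecMulVec,
      Matrix.vecMulVec_eq Unit, Matrix.det_one_add_replicateCol_mul_replicateRow,
      dotProduct_smul, H5.polarVec_dotProduct, H5.polar_self']
    rw [smul_eq_mul]
    field_simp
    norm_num

end Cfsg.Agent.S0785
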