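import Cfsg.Statements.S0786
import Cfsg.Agent.H5.OmegaMatrix

set_option autoImplicit false
open Cfsg

namespace Cfsg.Agent.S0786

/-- Generation by reflections: if F is finite, Q is a quadratic form on F^n with non-degenerate polar form, and (|F|, n) ≠ (2, 4), then the isometry group of Q is generated by the reflections r_v, Q(v) ≠ 0. -/
theorem result {F : Type*} [Field F] [Fintype F] {n : ℕ} (Q : QuadraticForm F (Fin n → F)) (hQ : (QuadraticMap.polarBilin Q).Nondegenerate) (h : Fintype.card F ≠ 2 ∨ n ≠ 4) : Subgroup.closure {g : ↥(Cfsg.isometryGroup F ⇑Q) | ∃ v : Fin n → F, Q v ≠ 0 ∧ ((g : Matrix.GeneralLinearGroup (Fin n) F) : Matrix (Fin n) (Fin n) F) = Cfsg.reflectionMatrix ⇑Q v} = ⊤ := by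
  have hg := H5.reflGroup_eq_top hQ (H5.std_of_card h)
  let e := H5.isoEquiv Q (f := ⇑Q) rfl
  refine top_le_iff.1 fun g _ => ?_
  have hmem : e g ∈ H5.reflGroup Q := by rw [hg]; trivial
  have hmap : H5.reflGroup Q ≤ (Subgroup.closure {k : ↥(Cfsg.isometryGroup F ⇑Q) | ∃ v : Fin n → F, Q v ≠ 0 ∧
      ((k : Matrix.GeneralLinearGroup (Fin n) F) : Matrix (Fin n) (Fin n) F) = Cfsg.reflectionMatrix ⇑Q v}).map e.toMonoidHom := by
    refine (Subgroup.closure_le _).2 ?_
    rintro _ ⟨v, hv, rfl⟩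
    refine ⟨e.symm (H5.refl Q v), Subgroup.subset_closure ⟨v, hv, ?_⟩, e.apply_symm_apply _⟩
    exact (H5.isoEquiv_eq_refl_iff Q rfl _ v).2 (e.apply_symm_apply _)
  exact (Subgroup.mem_map_iff_mem e.injective).1 (hmap hmem)

end Cfsg.Agent.S0786
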