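import Cfsg.Statements.S0787
import Cfsg.Agent.H4.IndexTwo

set_option autoImplicit false
open Cfsg

namespace Cfsg.Agent.S0787

/-- Existence and uniqueness of Ω: if F is finite, n ≥ 2, Q is a quadratic form on F^n with non-degenerate polar form and (|F|, n) ≠ (2, 4), then the group of isometries of determinant one has a unique subgroup of index 2. -/
theorem result {F : Type*} [Field F] [Fintype F] {n : ℕ} (hn : 2 ≤ n) (Q : QuadraticForm F (Fin n → F)) (hQ : (QuadraticMap.polarBilin Q).Nondegenerate) (h : Fintype.card F ≠ 2 ∨ n ≠ 4) : ∃! H : Subgroup ↥(Cfsg.specialIsometryGroup F ⇑Q), H.index = 2 := by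
  classical
  let e := H5.isoEquiv Q (f := ⇑Q) rfl
  have hgen := H5.reflGroup_eq_top hQ (H5.std_of_card h)
  let S := Cfsg.specialIsometryGroup F ⇑Q
  let N : Subgroup (H5.orth Q) := S.map e.toMonoidHom
  let f : S ≃* N := e.subgroupMap S
  have hN : ∀ k, k ∈ N ↔ e.symm k ∈ S := fun k => Subgroup.mem_map_equiv
  haveI : Finite ((Fin n → F) ≃ₗ[F] (Fin n → F)) :=
    Finite.of_injective (fun f => (f : (Fin n → F) → (Fin n → F))) DFunLike.coe_injective
  obtain ⟨v, hv⟩ : ∃ v, Q v ≠ 0 := by
    by_contra! hall
    haveI : Nonempty (Fin n) := ⟨⟨0, by omega⟩⟩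
    obtain ⟨x, hx⟩ := exists_ne (0 : Fin n → F)
    exact hx (hQ.1 x fun y => show QuadraticMap.polar Q x y = 0 by simp [QuadraticMap.polar, hall])
  have main : commutator (H5.orth Q) ≤ N ∧ (commutator (H5.orth Q)).index = 2 * N.index ∧
      ∀ H : Subgroup N, H.index = 2 → commutator (H5.orth Q) ≤ H.map N.subtype := by
    by_cases h2 : (2 : F) = 0
    · have hSt : ∀ g, g ∈ S := by
        intro g
        have hd := H5.det_eq_dick hQ (g := e g) (by rw [hgen]; trivial)
        have hm : ((e g : (Fin n → F) ≃ₗ[F] (Fin n → F)) : (Fin n → F) →ₗ[F] (Fin n → F))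
            = Matrix.mulVecLin ((g : Matrix.GeneralLinearGroup (Fin n) F) : Matrix (Fin n) (Fin n) F) := by
          ext1 x; rfl
        rw [hm, ← Matrix.toLin'_apply', LinearMap.det_toLin'] at hd
        show g ∈ Cfsg.specialIsometryGroup F ⇑Q
        rw [Cfsg.specialIsometryGroup, MonoidHom.mem_ker]
        simp only [MonoidHom.comp_apply, Subgroup.coe_subtype]
        rw [Units.ext_iff, Matrix.GeneralLinearGroup.val_det_apply, hd, Units.val_one]
        rcases Int.units_eq_one_or (H5.dick (e g)) with hh | hh <;> rw [hh]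
        · simp
        · simp; linear_combination -h2
      have hNt : N = ⊤ := Subgroup.ext fun k => by simp [hN, hSt]
      refine ⟨by rw [hNt]; exact le_top, by
        rw [H5.commutator_index_two h2 hQ (H5.std_of_card h) ⟨v, hv⟩, hNt, Subgroup.index_top],
        fun H hH => H4.commutator_le_of_index_two ?_⟩
      rw [Subgroup.index_map_subtype, hH, hNt, Subgroup.index_top]
    · have hd : ∀ k, k ∈ N ↔ H5.dick k = 1 := fun k => by
        rw [hN, H5.mem_specialIsometryGroup_iff Q rfl hQ hgen h2]
        show H5.dick (e (e.symm k)) = 1 ↔ _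
        rw [e.apply_symm_apply]
      have hNi : N.index = 2 := by
        rw [Subgroup.index_eq_two_iff]
        refine ⟨H5.refl Q v, fun b => ?_⟩
        rw [hd, hd, H5.dick_mul hQ (g := b) (by rw [hgen]; trivial), H5.dick_refl hQ hv]
        rcases Int.units_eq_one_or (H5.dick b) with hb | hb <;> simp [hb]
      refine ⟨fun k hk => (hd k).2 ((H5.mem_commutator_iff hQ (H5.std_of_card h)).1 hk).1,
        by rw [H5.commutator_index_four h2 hQ (by rwa [Module.finrank_fin_fun]), hNi],
        fun H hH => H4.commutator_le_map_of_index_two hgen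
          (fun g hg => (H5.mem_closure_pairs_iff hQ hgen).2 ((hd g).1 hg))
          (fun u w hu hw => (hd _).2 (by
            rw [H5.dick_refl_mul hQ hu, H5.dick_refl hQ hw, neg_neg])) hNi.le hH⟩
  obtain ⟨hCN, hci, hle⟩ := main
  have hrel := Subgroup.relIndex_mul_index hCN
  rw [hci] at hrel
  have h2' : ((commutator (H5.orth Q)).subgroupOf N).index = 2 :=
    Nat.eq_of_mul_eq_mul_right (Nat.pos_of_ne_zero (Subgroup.index_ne_zero_of_finite (H := N))) hrel
  have huniq : ∀ H : Subgroup N, H.index = 2 → H = (commutator (H5.orth Q)).subgroupOf N := by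
    intro H hH
    have hsub : (commutator (H5.orth Q)).subgroupOf N ≤ H := fun x hx =>
      (Subgroup.mem_map_iff_mem N.subtype_injective).1 (hle H hH hx)
    refine (Subgroup.eq_of_le_of_card_ge hsub ?_).symm
    have a := H.card_mul_index
    have b := ((commutator (H5.orth Q)).subgroupOf N).card_mul_index
    rw [hH] at a
    rw [h2'] at b
    omega
  refine ⟨((commutator (H5.orth Q)).subgroupOf N).comap f.toMonoidHom, ?_, fun H hH => ?_⟩
  · show _ = 2
    exact (Subgroup.index_comap_of_surjective _ f.surjective).trans h2'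
  · rw [← huniq (H.map f.toMonoidHom) ((Subgroup.index_map_of_bijective f.bijective _).trans hH)]
    exact (Subgroup.comap_map_eq_self_of_injective f.injective H).symm

end Cfsg.Agent.S0787
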