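import Cfsg.Statements.S0791
import Cfsg.Agent.H5.SpecialElements
import Cfsg.Agent.H4.NegOne
import Cfsg.Agent.H4.Disc

set_option autoImplicit false
open Cfsg

namespace Cfsg.Agent.S0791

/-- −1 ∈ Ω⁻_2m(q) iff q^m ≡ −1 (mod 4), for q odd and m ≥ 1; for the minus-type form quadFormMinus (m−1) with anisotropic binary part. -/
theorem result {F : Type*} [Field F] [Fintype F] {q : ℕ} (hF : Fintype.card F = q) (hodd : Odd q) (m : ℕ) (hm : 1 ≤ m) (a b : F) (hab : ∀ z₁ z₂ : F, z₁ ^ 2 + a * z₁ * z₂ + b * z₂ ^ 2 = 0 → z₁ = 0 ∧ z₂ = 0) : (∃ g : ↥(Cfsg.isometryGroup F (Cfsg.quadFormMinus (m - 1) F a b)), g ∈ Cfsg.Omega F (Cfsg.quadFormMinus (m - 1) F a b) ∧ ((g : Matrix.GeneralLinearGroup ((Fin (m - 1) ⊕ Fin (m - 1)) ⊕ Fin 2) F) : Matrix ((Fin (m - 1) ⊕ Fin (m - 1)) ⊕ Fin 2) ((Fin (m - 1) ⊕ Fin (m - 1)) ⊕ Fin 2) F) = -1) ↔ q ^ m % 4 = 3 := by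
  have h2 := H5.two_ne_zero_of_odd_card hF hodd
  have hQ := H5.qMinus_nondegenerate (m - 1) hab
  have heq : H5.qMinus (m - 1) F a b = H4.qMinus (m - 1) F a b :=
    QuadraticMap.ext fun x => by rw [H5.coe_qMinus, H4.coe_qMinus]
  have hM : ∀ x, ((H4.negOrth (H5.qMinus (m - 1) F a b) : H5.orth (H5.qMinus (m - 1) F a b)) :
      ((Fin (m - 1) ⊕ Fin (m - 1)) ⊕ Fin 2 → F) ≃ₗ[F] ((Fin (m - 1) ⊕ Fin (m - 1)) ⊕ Fin 2 → F)) x =
      (-1 : Matrix ((Fin (m - 1) ⊕ Fin (m - 1)) ⊕ Fin 2) ((Fin (m - 1) ⊕ Fin (m - 1)) ⊕ Fin 2) F).mulVec x :=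
    fun x => by rw [H4.negOrth_apply, Matrix.neg_mulVec, Matrix.one_mulVec]
  have hd : Module.finrank F ((Fin (m - 1) ⊕ Fin (m - 1)) ⊕ Fin 2 → F) = 2 * m := by
    simp only [Module.finrank_fintype_fun_eq_card, Fintype.card_sum, Fintype.card_fin]; omega
  rw [H5.exists_mem_Omega_iff (H5.qMinus (m - 1) F a b) (H5.coe_qMinus (m - 1) a b) _ hM,
    H4.negOrth_mem_iff h2 hQ (Pi.basisFun F _) (by rw [hd]; omega), hd, heq, H4.det_gram_qMinus,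
    and_iff_right (even_two_mul m)]
  have hd0 : (4 * b - a ^ 2 : F) ≠ 0 := H5.four_mul_sub_ne_zero hab
  have hns : ¬ IsSquare (a ^ 2 - 4 * b) := by
    rintro ⟨s, hs⟩
    exact h2 (hab (-a + s) 2 (by linear_combination -hs)).2
  rw [← H5.sqc_eq_one_iff, H5.sqc_mul (pow_ne_zero _ (neg_ne_zero.2 one_ne_zero)) hd0,
    show (4 * b - a ^ 2 : F) = (-1) * (a ^ 2 - 4 * b) by ring,
    H5.sqc_mul (neg_ne_zero.2 one_ne_zero) (by intro h; exact hd0 (by linear_combination -h)),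
    H5.sqc_eq_neg_one_iff.2 hns]
  have hp : H5.sqc ((-1 : F) ^ (m - 1)) = H5.sqc (-1 : F) ^ (m - 1) := by
    induction (m - 1) with
    | zero => simpa using H5.sqc_one
    | succ k ih =>
      rw [pow_succ, pow_succ,
        H5.sqc_mul (pow_ne_zero _ (neg_ne_zero.2 one_ne_zero)) (neg_ne_zero.2 one_ne_zero), ih]
  have hm1 : H5.sqc (-1 : F) ^ (m - 1) * H5.sqc (-1 : F) = H5.sqc (-1 : F) ^ m := by
    rw [← pow_succ, Nat.sub_add_cancel hm]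
  rw [hp, ← mul_assoc, hm1, mul_neg, mul_one, neg_eq_iff_eq_neg,
    (H5.sqc_neg_one_pow hF hodd m).2]

end Cfsg.Agent.S0791
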