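import Cfsg.Statements.S0792
import Cfsg.Agent.H5.OmegaMatrix

set_option autoImplicit false
open Cfsg

namespace Cfsg.Agent.S0792

/-- For q odd and Q with non-degenerate polar form on F^n, the determinant-one isometries form the subgroup generated by all products r_u r_v of two reflections (Q(u), Q(v) ≠ 0). -/
theorem result {F : Type*} [Field F] [Fintype F] (h2 : (2 : F) ≠ 0) {n : ℕ} (Q : QuadraticForm F (Fin n → F)) (hQ : (QuadraticMap.polarBilin Q).Nondegenerate) : Cfsg.specialIsometryGroup F ⇑Q = Subgroup.closure {g : ↥(Cfsg.isometryGroup F ⇑Q) | ∃ u v : Fin n → F, Q u ≠ 0 ∧ Q v ≠ 0 ∧ ((g : Matrix.GeneralLinearGroup (Fin n) F) : Matrix (Fin n) (Fin n) F) = Cfsg.reflectionMatrix ⇑Q u * Cfsg.reflectionMatrix ⇑Q v} := by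
  have hstd : Nat.card F ≠ 2 ∨ Module.finrank F (Fin n → F) ≠ 4 :=
    H5.std_of_two_ne_zero h2 _
  have hgen := H5.reflGroup_eq_top hQ hstd
  let e := H5.isoEquiv Q (f := ⇑Q) rfl
  ext g
  rw [H5.mem_specialIsometryGroup_iff Q rfl hQ hgen h2, ← H5.mem_closure_pairs_iff hQ hgen,
    ← Subgroup.mem_map_iff_mem (f := e.toMonoidHom) e.injective, MonoidHom.map_closure]
  refine Iff.of_eq (congrArg (fun s => e g ∈ Subgroup.closure s) (Set.ext fun k => ?_))
  constructor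
  · rintro ⟨u, v, hu, hv, rfl⟩
    refine ⟨e.symm (H5.refl Q u * H5.refl Q v), ⟨u, v, hu, hv, ?_⟩, e.apply_symm_apply _⟩
    refine Matrix.ext_of_mulVec_single fun i => ?_
    rw [H5.isoEquiv_symm_apply, H5.orth_mul_apply, ← Matrix.mulVec_mulVec,
      H5.reflectionMatrix_mulVec, H5.reflectionMatrix_mulVec]
  · rintro ⟨k', ⟨u, v, hu, hv, hk⟩, rfl⟩
    refine ⟨u, v, hu, hv, H5.orth_ext fun x => ?_⟩
    change (H5.isoEquiv Q rfl k' : (Fin n → F) ≃ₗ[F] (Fin n → F)) x = _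
    rw [H5.isoEquiv_apply, hk, ← Matrix.mulVec_mulVec, H5.reflectionMatrix_mulVec,
      H5.reflectionMatrix_mulVec, H5.orth_mul_apply]

end Cfsg.Agent.S0792
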