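import Cfsg.Statements.S0794
import Cfsg.Agent.H5.Siegel

set_option autoImplicit false
open Cfsg

namespace Cfsg.Agent.S0794

/-- For q odd, n ≥ 5 and Q with non-degenerate polar form: an isometry whose matrix is a Siegel transformation T_(u,v)(c) (u, v singular and orthogonal) is a commutator in the isometry group, so lies in Ω. -/
theorem result {F : Type*} [Field F] [Fintype F] (h2 : (2 : F) ≠ 0) {n : ℕ} (hn : 5 ≤ n) (Q : QuadraticForm F (Fin n → F)) (hQ : (QuadraticMap.polarBilin Q).Nondegenerate) (u v : Fin n → F) (hu : Q u = 0) (hv : Q v = 0) (huv : QuadraticMap.polar ⇑Q u v = 0) (c : F) (g : ↥(Cfsg.isometryGroup F ⇑Q)) (hg : ((g : Matrix.GeneralLinearGroup (Fin n) F) : Matrix (Fin n) (Fin n) F) = Cfsg.siegelMatrix ⇑Q u v c) : g ∈ commutatorSet ↥(Cfsg.isometryGroup F ⇑Q) ∧ g ∈ Cfsg.Omega F ⇑Q := by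
  let e := H5.isoEquiv Q (f := ⇑Q) rfl
  have he : e g = H5.eich Q u (c • v) :=
    H5.orth_ext fun x => by rw [H5.isoEquiv_apply, hg, H5.siegelMatrix_mulVec Q hu hv huv]
  obtain ⟨a, b, hab⟩ := H5.exists_commutator_eq_eich h2 hQ hu huv c
  have hmem : g ∈ commutatorSet ↥(Cfsg.isometryGroup F ⇑Q) := by
    refine ⟨e.symm a, e.symm b, e.injective ?_⟩
    rw [map_commutatorElement, e.apply_symm_apply, e.apply_symm_apply, he, hab]
  refine ⟨hmem, ?_⟩
  obtain ⟨a, b, hab⟩ := hmem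
  rw [← hab]
  exact Subgroup.commutator_mem_commutator (Subgroup.mem_top a) (Subgroup.mem_top b)

end Cfsg.Agent.S0794
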