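import Cfsg.Statements.S0795
import Cfsg.Agent.H5.Siegel

set_option autoImplicit false
open Cfsg

namespace Cfsg.Agent.S0795

/-- Generation of Ω by root elements: for q odd, n ≥ 5 and Q with non-degenerate polar form on F^n, the commutator subgroup of the isometry group equals the subgroup generated by the isometries whose matrices are Siegel transformations T_(u,v)(c) with u, v singular and orthogonal. -/
theorem result {F : Type*} [Field F] [Fintype F] (h2 : (2 : F) ≠ 0) {n : ℕ} (hn : 5 ≤ n) (Q : QuadraticForm F (Fin n → F)) (hQ : (QuadraticMap.polarBilin Q).Nondegenerate) : Cfsg.Omega F ⇑Q = Subgroup.closure {g : ↥(Cfsg.isometryGroup F ⇑Q) | ∃ (u v : Fin n → F) (c : F), Q u = 0 ∧ Q v = 0 ∧ QuadraticMap.polar ⇑Q u v = 0 ∧ ((g : Matrix.GeneralLinearGroup (Fin n) F) : Matrix (Fin n) (Fin n) F) = Cfsg.siegelMatrix ⇑Q u v c} := by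
  let e := H5.isoEquiv Q (f := ⇑Q) rfl
  have hn' : 5 ≤ Module.finrank F (Fin n → F) := by rwa [Module.finrank_fin_fun]
  refine le_antisymm (fun g hg => ?_) ((Subgroup.closure_le _).2 ?_)
  · have h1 : e g ∈ (Subgroup.closure {k : ↥(Cfsg.isometryGroup F ⇑Q) | ∃ (u v : Fin n → F) (c : F),
        Q u = 0 ∧ Q v = 0 ∧ QuadraticMap.polar ⇑Q u v = 0 ∧
        ((k : Matrix.GeneralLinearGroup (Fin n) F) : Matrix (Fin n) (Fin n) F) =
          Cfsg.siegelMatrix ⇑Q u v c}).map e.toMonoidHom := by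
      refine (H5.commutator_le_closure_long_root hQ hn').trans ((Subgroup.closure_le _).2 ?_)
        ((H5.mem_Omega_iff Q rfl g).1 hg)
      rintro _ ⟨u, v, c, hu, hv, huv, rfl⟩
      refine ⟨e.symm (H5.eich Q u (c • v)), Subgroup.subset_closure ⟨u, v, c, hu, hv, huv, ?_⟩,
        e.apply_symm_apply _⟩
      exact (H5.isoEquiv_matrix_eq_iff Q rfl _ _).2 fun x => by
        rw [e.apply_symm_apply, H5.siegelMatrix_mulVec Q hu hv huv]
    exact (Subgroup.mem_map_iff_mem e.injective).1 h1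
  · rintro g ⟨u, v, c, hu, hv, huv, hg⟩
    have he : e g = H5.eich Q u (c • v) :=
      H5.orth_ext fun x => by rw [H5.isoEquiv_apply, hg, H5.siegelMatrix_mulVec Q hu hv huv]
    refine (H5.mem_Omega_iff Q rfl g).2 ?_
    rw [show H5.isoEquiv Q rfl g = _ from he]
    exact H5.eichGroup_le_commutator hQ (Or.inr (by omega)) (H5.eich_mem_eichGroup _ _)

end Cfsg.Agent.S0795
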