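import Cfsg.Statements.S0796
-- import your own Cfsg.Agent.* helpers here

set_option autoImplicit false
open Cfsg

namespace Cfsg.Agent.S0796

/-- If G is finite and acts faithfully and primitively on X, H is the stabiliser of a point, A is a normal subgroup of H whose normal closure in G is G, then for every non-trivial normal subgroup K of G the quotient G ⧸ K is isomorphic to A ⧸ B for some normal subgroup B of A. -/
theorem result {G X : Type*} [Group G] [Finite G] [MulAction G X] [FaithfulSMul G X] (hprim : MulAction.IsPreprimitive G X) (x : X) (A : Subgroup G) (hA : A ≤ MulAction.stabilizer G x) (hAn : (A.subgroupOf (MulAction.stabilizer G x)).Normal) (hgen : Subgroup.normalClosure (A : Set G) = ⊤) (K : Subgroup G) [K.Normal] (hK : K ≠ ⊥) : ∃ (B : Subgroup A) (_ : B.Normal), Nonempty (G ⧸ K ≃* A ⧸ B) := by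
  classical
  haveI := hprim
  set H := MulAction.stabilizer G x with hH
  have hfix : MulAction.fixedPoints K X ≠ Set.univ := by
    intro huniv
    refine hK ((Subgroup.eq_bot_iff_forall K).2 fun k hk => ?_)
    refine FaithfulSMul.eq_of_smul_eq_smul (α := X) fun y => ?_
    rw [one_smul]
    exact Set.eq_univ_iff_forall.1 huniv y ⟨k, hk⟩
  haveI : MulAction.IsPretransitive K X :=
    MulAction.IsQuasiPreprimitive.isPretransitive_of_normal hfix
  have hnorm : (A ⊔ K).Normal := by
    constructor
    intro n hn g
    obtain ⟨k, hk⟩ := MulAction.exists_smul_eq K x (g • x)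
    have hh : (k : G)⁻¹ * g ∈ H := by
      rw [hH, MulAction.mem_stabilizer_iff, mul_smul, ← hk]
      exact inv_smul_smul (k : G) x
    set h := (k : G)⁻¹ * g
    have hg : g = (k : G) * h := by simp [h]
    have key : ∀ a ∈ A ⊔ K, h * a * h⁻¹ ∈ A ⊔ K := by
      intro a ha
      rw [Subgroup.sup_eq_closure] at ha
      induction ha using Subgroup.closure_induction with
      | mem a ha =>
        rcases ha with ha | ha
        · exact Subgroup.mem_sup_left (hAn.conj_mem ⟨a, hA ha⟩ ha ⟨h, hh⟩)
        · exact Subgroup.mem_sup_right (Subgroup.Normal.conj_mem inferInstance a ha h)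
      | one => simp
      | mul a b _ _ pa pb =>
        have e : h * (a * b) * h⁻¹ = (h * a * h⁻¹) * (h * b * h⁻¹) := by group
        rw [e]; exact mul_mem pa pb
      | inv a _ pa =>
        have e : h * a⁻¹ * h⁻¹ = (h * a * h⁻¹)⁻¹ := by group
        rw [e]; exact inv_mem pa
    have e : g * n * g⁻¹ = (k : G) * (h * n * h⁻¹) * (k : G)⁻¹ := by rw [hg]; group
    rw [e]
    exact mul_mem (mul_mem (Subgroup.mem_sup_right k.2) (key n hn))
      (inv_mem (Subgroup.mem_sup_right k.2))
  have htop : A ⊔ K = ⊤ := top_le_iff.1
    (hgen ▸ Subgroup.normalClosure_le_normal (N := A ⊔ K) (SetLike.coe_subset_coe.2 le_sup_left))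
  refine ⟨K.subgroupOf A, inferInstance, ⟨?_⟩⟩
  exact ((QuotientGroup.quotientInfEquivProdNormalQuotient A K).trans
    (QuotientGroup.congr _ _ ((MulEquiv.subgroupCongr htop).trans Subgroup.topEquiv) (by
      ext y
      simp only [Subgroup.mem_map, Subgroup.mem_subgroupOf]
      constructor
      · rintro ⟨z, hz, rfl⟩; exact hz
      · intro hy
        exact ⟨⟨y, Subgroup.mem_sup_right hy⟩, hy, rfl⟩))).symm

end Cfsg.Agent.S0796
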