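import Cfsg.Statements.S0798
import Cfsg.Agent.H5.FixedClass
import Cfsg.Agent.H5.OmegaMatrix

set_option autoImplicit false
open Cfsg

namespace Cfsg.Agent.S0798

/-- For q odd, n ≥ 2 even, Q with non-degenerate polar form (n, |F|) ≠ (4, 3), and a fixed c ≠ 0: the subgroup of the isometry group generated by the reflections r_v with Q(v) ∈ c·(F^×)² has index 2. -/
theorem result {F : Type*} [Field F] [Fintype F] (h2 : (2 : F) ≠ 0) {n : ℕ} (hn : 2 ≤ n) (heven : Even n) (Q : QuadraticForm F (Fin n → F)) (hQ : (QuadraticMap.polarBilin Q).Nondegenerate) (h43 : ¬ (n = 4 ∧ Fintype.card F = 3)) (c : F) (hc : c ≠ 0) : (Subgroup.closure {g : ↥(Cfsg.isometryGroup F ⇑Q) | ∃ (v : Fin n → F) (t : F), t ≠ 0 ∧ Q v = c * t ^ 2 ∧ ((g : Matrix.GeneralLinearGroup (Fin n) F) : Matrix (Fin n) (Fin n) F) = Cfsg.reflectionMatrix ⇑Q v}).index = 2 := by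
  have hfin : Module.finrank F (Fin n → F) = n := Module.finrank_fin_fun F
  let e := H5.isoEquiv Q (f := ⇑Q) rfl
  have hcase : n = 2 ∨ 4 ≤ n := by
    obtain ⟨k, rfl⟩ := heven; omega
  have h43' : ¬ (Module.finrank F (Fin n → F) = 4 ∧ ∀ t : F, t ≠ 0 → t * t = 1) := by
    classical
    rintro ⟨hn4, hall⟩
    refine h43 ⟨hfin.symm.trans hn4, ?_⟩
    have huniv : (Finset.univ : Finset F) = {0, 1, -1} := by
      ext a
      by_cases ha : a = 0
      · simp [ha]
      · rcases mul_self_eq_one_iff.1 (hall a ha) with h | h <;> simp [h]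
    rw [← Finset.card_univ, huniv]
    have h11 : (1 : F) ≠ -1 := fun h => h2 (by linear_combination h)
    simp [h11]
  have hmap : (Subgroup.closure {g : ↥(Cfsg.isometryGroup F ⇑Q) | ∃ (v : Fin n → F) (t : F), t ≠ 0 ∧
      Q v = c * t ^ 2 ∧ ((g : Matrix.GeneralLinearGroup (Fin n) F) : Matrix (Fin n) (Fin n) F) =
        Cfsg.reflectionMatrix ⇑Q v}).map e.toMonoidHom = H5.classGroup Q c := by
    rw [MonoidHom.map_closure]
    refine congrArg Subgroup.closure (Set.ext fun k => ⟨?_, ?_⟩)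
    · rintro ⟨g, ⟨v, t, ht, hv, hg⟩, rfl⟩
      exact ⟨v, t, ht, hv, (H5.isoEquiv_eq_refl_iff Q rfl g v).1 hg⟩
    · rintro ⟨v, t, ht, hv, rfl⟩
      exact ⟨e.symm (H5.refl Q v), ⟨v, t, ht, hv,
        (H5.isoEquiv_eq_refl_iff Q rfl _ v).2 (e.apply_symm_apply _)⟩, e.apply_symm_apply _⟩
  rw [← Subgroup.index_map_of_bijective (f := e.toMonoidHom) e.bijective, hmap]
  exact H5.classGroup_index h2 hQ (by rw [hfin]; exact hcase) h43' hc

end Cfsg.Agent.S0798
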