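import Cfsg.Statements.S0802
import Cfsg.Agent.H6.Exist

set_option autoImplicit false
open Cfsg
open Cfsg.Agent.H6

namespace Cfsg.Agent.S0802

/-- PSL_2(p^n) has a subgroup isomorphic to A_4 if and only if it is not the case that p = 2 and n is odd. -/
theorem result {F : Type*} [Field F] [Fintype F] (p n : ℕ) [Fact p.Prime] [CharP F p] (hF : Fintype.card F = p ^ n) : (∃ H : Subgroup (Matrix.ProjectiveSpecialLinearGroup (Fin 2) F), Nonempty (H ≃* alternatingGroup (Fin 4))) ↔ ¬ (p = 2 ∧ Odd n) := by
  classical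
  have hp : p.Prime := Fact.out
  by_cases h : p = 2
  · subst h
    have h2 : (2 : F) = 0 := by simpa using CharP.cast_eq_zero F 2
    have h23 : (3 ∣ 2 ^ n - 1) ↔ Even n := by
      have h1 : 1 ≤ 2 ^ n := Nat.one_le_two_pow
      rcases Nat.even_or_odd n with he | ho
      · obtain ⟨k, rfl⟩ := he
        have : 2 ^ (k + k) % 3 = 1 := by
          rw [← two_mul, pow_mul, Nat.pow_mod]; simp
        simp only [Even.add_self, iff_true]
        generalize 2 ^ (k + k) = N at this h1 ⊢
        omega
      · have hne : ¬ Even n := Nat.not_even_iff_odd.2 ho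
        obtain ⟨k, rfl⟩ := ho
        have : 2 ^ (2 * k + 1) % 3 = 2 := by
          rw [pow_succ, pow_mul, Nat.mul_mod, Nat.pow_mod]; simp
        simp only [hne, iff_false]
        generalize 2 ^ (2 * k + 1) = N at this h1 ⊢
        omega
    constructor
    · intro hex ⟨_, hodd⟩
      exact not_exists_alt_four_two hF h2
        (fun h3 => Nat.not_even_iff_odd.2 hodd (h23.1 h3)) hex
    · intro hne
      exact exists_alt_four_two hF h2
        (h23.2 (Nat.not_odd_iff_even.1 fun ho => hne ⟨rfl, ho⟩))
  · refine iff_of_true (exists_alt_four_odd hF fun h2 => h ?_) fun hh => h hh.1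
    exact (Nat.prime_dvd_prime_iff_eq hp Nat.prime_two).1
      ((CharP.cast_eq_zero_iff F p 2).1 (by exact_mod_cast h2))

end Cfsg.Agent.S0802
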