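import Cfsg.Statements.S0803
import Cfsg.Agent.H6.Exist

set_option autoImplicit false
open Cfsg
open Cfsg.Agent.H6

namespace Cfsg.Agent.S0803

/-- PSL_2(q) has a subgroup isomorphic to S_4 iff q² ≡ 1 (mod 16). -/
theorem result {F : Type*} [Field F] [Fintype F] {q : ℕ} (hF : Fintype.card F = q) : (∃ H : Subgroup (Matrix.ProjectiveSpecialLinearGroup (Fin 2) F), Nonempty (H ≃* Equiv.Perm (Fin 4))) ↔ q ^ 2 % 16 = 1 := by
  classical
  have hsq : q ^ 2 % 16 = (q % 16) ^ 2 % 16 := Nat.pow_mod _ _ _
  constructor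
  · rintro ⟨H, ⟨φ⟩⟩
    by_cases h2 : (2 : F) = 0
    · exfalso
      let s : Equiv.Perm (Fin 4) := Equiv.swap 0 1 * Equiv.swap 1 2 * Equiv.swap 2 3
      set ψ := H.subtype.comp φ.symm.toMonoidHom with hψdef
      have hψ : Function.Injective ψ := Subtype.val_injective.comp φ.symm.injective
      obtain ⟨g, hg⟩ := π_surjective (ψ s)
      have inj := π_injective_of_two h2
      have hs4 : s ^ 4 = 1 := by decide
      have hs2 : s ^ 2 ≠ 1 := by decide
      have h4 : (g * g) * (g * g) = 1 := inj (by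
        rw [map_one, map_mul, map_mul, hg, ← map_mul ψ, ← map_mul ψ, show s * s * (s * s) = s ^ 4 by simp [pow_succ, mul_assoc], hs4, map_one])
      have ht := (mul_self_eq_one_iff_two h2).1 h4
      have ht' : tr g = 0 := by
        have e00 := sl2_sq g 0 0
        have e11 := sl2_sq g 1 1
        simp only [tr, Matrix.SpecialLinearGroup.coe_one, Matrix.one_apply_eq] at ht e00 e11 ⊢
        exact mul_self_eq_zero.1 (show (g 0 0 + g 1 1) * (g 0 0 + g 1 1) = 0 by grind)
      apply hs2
      apply hψ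
      rw [map_pow, ← hg, ← map_pow, sq, (mul_self_eq_one_iff_two h2).2 ht', map_one, map_one]
    · have hodd := odd_of_two_ne hF h2
      have hc : Nat.card H = 24 := by
        rw [Nat.card_congr φ.toEquiv, Nat.card_perm, Nat.card_eq_fintype_card, Fintype.card_fin]
        rfl
      have hd : 24 ∣ Nat.card (Matrix.ProjectiveSpecialLinearGroup (Fin 2) F) :=
        hc ▸ H.card_subgroup_dvd_card
      have hcard := card_psl2_odd h2 hF
      have hm := (sq_sub_one_mod q).1
      have h16 : q % 16 < 16 := Nat.mod_lt _ (by norm_num)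
      have hq8 : ¬ (q % 8 = 3 ∨ q % 8 = 5) := fun h8 => by
        have := hm h8
        omega
      have : q % 16 = 1 ∨ q % 16 = 7 ∨ q % 16 = 9 ∨ q % 16 = 15 := by omega
      rcases this with h | h | h | h <;> rw [hsq, h] <;> rfl
  · intro hq
    have hqodd : q % 2 = 1 := by
      by_contra hne
      have h0 : 2 ∣ q := by omega
      have : 2 ∣ q ^ 2 := dvd_pow h0 two_ne_zero
      omega
    have h2 := two_ne_of_odd hF (Nat.odd_iff.2 hqodd)
    have h8 : q % 8 = 1 ∨ q % 8 = 7 := by
      have h16 : q % 16 < 16 := Nat.mod_lt _ (by norm_num)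
      rw [hsq] at hq
      have h' : q % 8 = (q % 16) % 8 := by omega
      rw [h']
      generalize q % 16 = r at h16 hq
      interval_cases r <;> simp at hq ⊢
    obtain ⟨V, hV⟩ := exists_four (F := F) h2
    exact ⟨_, (normalizer_four_iso hF h2 hV).1 h8⟩

end Cfsg.Agent.S0803
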