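import Cfsg.Statements.S0804
import Cfsg.Agent.H6.Exist

set_option autoImplicit false
open Cfsg
open Cfsg.Agent.H6

namespace Cfsg.Agent.S0804

/-- PSL_2(q) has a subgroup isomorphic to A_5 iff 5 ∣ q(q² − 1). -/
theorem result {F : Type*} [Field F] [Fintype F] {q : ℕ} (hF : Fintype.card F = q) : (∃ H : Subgroup (Matrix.ProjectiveSpecialLinearGroup (Fin 2) F), Nonempty (H ≃* alternatingGroup (Fin 5))) ↔ 5 ∣ q * (q ^ 2 - 1) := by
  constructor
  · rintro ⟨H, ⟨φ⟩⟩
    have hc : Nat.card H = 60 := by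
      rw [Nat.card_congr φ.toEquiv, nat_card_alternatingGroup, Nat.card_eq_fintype_card,
        Fintype.card_fin]
      rfl
    exact dvd_trans (by norm_num) (card_psl2_dvd hF hc)
  · intro h5
    obtain ⟨H, -, h⟩ := exists_alt_five hF h5
    exact ⟨H, h⟩

end Cfsg.Agent.S0804
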