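import Cfsg.Statements.S0808
import Cfsg.Agent.H6.Four

set_option autoImplicit false
open Cfsg
open Cfsg.Agent.H6

namespace Cfsg.Agent.S0808

/-- Conjugacy classes of four-groups in PSL_2(q), q odd: if q ≡ 3 or 5 (mod 8) all Klein four-subgroups are conjugate; if q ≡ 1 or 7 (mod 8) there are two Klein four-subgroups which are not conjugate, and every Klein four-subgroup is conjugate to one of them. -/
theorem result {F : Type*} [Field F] [Fintype F] {q : ℕ} (hF : Fintype.card F = q) (hodd : Odd q) : ((q % 8 = 3 ∨ q % 8 = 5) → ∀ V W : Subgroup (Matrix.ProjectiveSpecialLinearGroup (Fin 2) F), IsKleinFour V → IsKleinFour W → ∃ g : Matrix.ProjectiveSpecialLinearGroup (Fin 2) F, W = V.map (MulAut.conj g).toMonoidHom) ∧ ((q % 8 = 1 ∨ q % 8 = 7) → ∃ V₁ V₂ : Subgroup (Matrix.ProjectiveSpecialLinearGroup (Fin 2) F), IsKleinFour V₁ ∧ IsKleinFour V₂ ∧ (¬ ∃ g : Matrix.ProjectiveSpecialLinearGroup (Fin 2) F, V₂ = V₁.map (MulAut.conj g).toMonoidHom)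 ∧ ∀ W : Subgroup (Matrix.ProjectiveSpecialLinearGroup (Fin 2) F), IsKleinFour W → (∃ g : Matrix.ProjectiveSpecialLinearGroup (Fin 2) F, W = V₁.map (MulAut.conj g).toMonoidHom) ∨ (∃ g : Matrix.ProjectiveSpecialLinearGroup (Fin 2) F, W = V₂.map (MulAut.conj g).toMonoidHom)) := by
  classical
  have h2 := two_ne_of_odd hF hodd
  refine ⟨fun h8 V W hV hW => fours_conj h2 hF h8 V W hV hW, fun h8 => ?_⟩
  let K := {W : Subgroup (Matrix.ProjectiveSpecialLinearGroup (Fin 2) F) | IsKleinFour W}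
  let O := fun V : Subgroup (Matrix.ProjectiveSpecialLinearGroup (Fin 2) F) =>
    Set.range fun x => V.map (MulAut.conj x).toMonoidHom
  have hO : ∀ V : Subgroup (Matrix.ProjectiveSpecialLinearGroup (Fin 2) F), IsKleinFour V → O V ⊆ K := by
    rintro V hV _ ⟨x, rfl⟩
    exact H29.isKleinFour_map _ (MulEquiv.injective _) hV
  have hcard : ∀ V : Subgroup (Matrix.ProjectiveSpecialLinearGroup (Fin 2) F), IsKleinFour V → 2 * (O V).ncard = K.ncard := by
    intro V hV
    have h : (O V).ncard = _ := (Nat.card_coe_set_eq (O V)).symm.trans (card_conjugates V)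
    have hN := (Subgroup.normalizer
      (V : Set (Matrix.ProjectiveSpecialLinearGroup (Fin 2) F))).card_mul_index
    rw [card_normalizer_four_one h2 hF h8 hV, ← h, ← twelve_mul_card_fours h2,
      show Nat.card {W : Subgroup (Matrix.ProjectiveSpecialLinearGroup (Fin 2) F) // IsKleinFour W} =
        K.ncard from Nat.card_coe_set_eq K] at hN
    omega
  obtain ⟨V₁, hV₁⟩ := exists_four (F := F) h2
  have h1 := hcard V₁ hV₁
  have hpos : 0 < (O V₁).ncard := (Set.ncard_pos (Set.toFinite _)).2 ⟨_, 1, rfl⟩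
  obtain ⟨V₂, hV₂, hne⟩ : ∃ V₂ ∈ K, V₂ ∉ O V₁ := Set.exists_mem_notMem_of_ncard_lt_ncard
    (by omega) (Set.toFinite _)
  refine ⟨V₁, V₂, hV₁, hV₂, fun ⟨g, hg⟩ => hne ⟨g, hg.symm⟩, fun W hW => ?_⟩
  have hd : Disjoint (O V₁) (O V₂) := by
    rw [Set.disjoint_left]
    rintro X ⟨x, rfl⟩ ⟨y, hy⟩
    apply hne
    refine ⟨y⁻¹ * x, ?_⟩
    have e := congrArg (Subgroup.map (MulAut.conj y⁻¹).toMonoidHom) hy
    simp only [Subgroup.map_map] at e
    rw [show ((MulAut.conj y⁻¹).toMonoidHom.comp (MulAut.conj y).toMonoidHom) = MonoidHom.id _ by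
      ext z; simp [mul_assoc], Subgroup.map_id] at e
    rw [e]
    congr 1
    ext z
    simp [mul_assoc]
  have hu : O V₁ ∪ O V₂ = K := by
    refine Set.eq_of_subset_of_ncard_le (Set.union_subset (hO _ hV₁) (hO _ hV₂)) ?_ (Set.toFinite _)
    rw [Set.ncard_union_eq hd (Set.toFinite _) (Set.toFinite _)]
    have := hcard V₂ hV₂
    omega
  rcases (hu.symm ▸ hW : W ∈ O V₁ ∪ O V₂) with ⟨g, hg⟩ | ⟨g, hg⟩
  · exact Or.inl ⟨g, hg.symm⟩
  · exact Or.inr ⟨g, hg.symm⟩

end Cfsg.Agent.S0808
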