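import Cfsg.Statements.S0809
import Cfsg.Agent.H6.SylowTwo

set_option autoImplicit false
open Cfsg
open Cfsg.Agent.H6

namespace Cfsg.Agent.S0809

/-- In SL_2(q), q odd: any two subgroups of order 4 are conjugate, and the normaliser of a subgroup of order 4 has order 2(q − 1) if q ≡ 1 (mod 4) and 2(q + 1) if q ≡ 3 (mod 4); consequently all involutions of PSL_2(q) are conjugate. -/
theorem result {F : Type*} [Field F] [Fintype F] {q : ℕ} (hF : Fintype.card F = q) (hodd : Odd q) (A : Subgroup (Matrix.SpecialLinearGroup (Fin 2) F)) (hA : Nat.card A = 4) : (∀ B : Subgroup (Matrix.SpecialLinearGroup (Fin 2) F), Nat.card B = 4 → ∃ g : Matrix.SpecialLinearGroup (Fin 2) F, B = A.map (MulAut.conj g).toMonoidHom) ∧ (q % 4 = 1 → Nat.card ↥(Subgroup.normalizer (A : Set (Matrix.SpecialLinearGroup (Fin 2) F))) = 2 * (q - 1)) ∧ (q % 4 = 3 → Nat.card ↥(Subgroup.normalizer (A : Set (Matrix.SpecialLinearGroup (Fin 2) F))) = 2 * (q + 1)) ∧ (∀ x y : Matrix.ProjectiveSpecialLinearGroup (Fin 2)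 F, orderOf x = 2 → orderOf y = 2 → IsConj x y) := by
  have h2 := two_ne_of_odd hF hodd
  obtain ⟨a, ha, rfl⟩ := order_four_sl2 hF h2 hA
  have hs := ss_of_tr_zero h2 ha
  have hN : Subgroup.normalizer (Subgroup.zpowers a : Set (Matrix.SpecialLinearGroup (Fin 2) F)) =
      torNorm a := by
    ext x
    rw [mem_torNorm hs]
    constructor
    · intro hx
      exact conj_eq_or_eq_inv hs (not_isScal_of_ss hs)
        (Subgroup.zpowers_le.2 (self_mem_cent a)
          ((Subgroup.mem_normalizer_iff.1 hx a).1 (Subgroup.mem_zpowers a)))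
    · intro hx
      have e : (Subgroup.zpowers a).map (MulAut.conj x).toMonoidHom = Subgroup.zpowers a := by
        rw [MonoidHom.map_zpowers]
        show Subgroup.zpowers (x * a * x⁻¹) = _
        rcases hx with h | h <;> rw [h]
        exact Subgroup.zpowers_inv
      rw [Subgroup.mem_normalizer_iff]
      intro y
      conv_rhs => rw [← e]
      rw [Subgroup.mem_map_equiv]
      simp [mul_assoc]
  obtain ⟨h1, h3⟩ := card_cent_tr_zero hF h2 ha
  refine ⟨fun B hB => ?_, fun h => ?_, fun h => ?_, fun x y hx hy => isConj_involutions h2 hx hy⟩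
  · obtain ⟨b, hb, rfl⟩ := order_four_sl2 hF h2 hB
    obtain ⟨c, hc⟩ := isConj_iff.1 (isConj_of_tr_eq (not_isScal_of_ss hs)
      (not_isScal_of_ss (ss_of_tr_zero h2 hb)) (Or.inl hs) (ha.trans hb.symm))
    refine ⟨c, ?_⟩
    rw [MonoidHom.map_zpowers, ← hc]
    rfl
  · rw [hN, card_torNorm hs, h1 h]
  · rw [hN, card_torNorm hs, h3 h]

end Cfsg.Agent.S0809
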