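import Cfsg.Statements.S0813
import Mathlib
import Cfsg.Agent.H76.OutPSL
import Cfsg.Agent.H1.Orders

set_option autoImplicit false
open Cfsg

namespace Cfsg.Agent.S0813

theorem card_inn {F : Type*} [Field F] [Finite F] {n : ℕ} (hn : 2 ≤ n) :
    Nat.card (Cfsg.Inn (Matrix.ProjectiveSpecialLinearGroup (Fin n) F)) =
      Nat.card (Matrix.ProjectiveSpecialLinearGroup (Fin n) F) := by
  refine (Nat.card_congr (MonoidHom.ofInjective (f := (MulAut.conj :
    Matrix.ProjectiveSpecialLinearGroup (Fin n) F →* _)) ?_).toEquiv).symm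
  rw [← MonoidHom.ker_eq_bot_iff, eq_bot_iff]
  intro x hx
  obtain ⟨s, rfl⟩ := H70.AutPSL.proj_surjective x
  rw [MonoidHom.mem_ker, H76.OutPSL.conj_proj] at hx
  obtain ⟨-, c, -, e⟩ := H76.OutPSL.semiAut_eq_one hn hx
  rw [Subgroup.mem_bot, ← map_one (H70.AutPSL.proj (n := n) (F := F)), eq_comm, H70.AutPSL.proj_eq_iff]
  exact ⟨c, by simpa [H76.OutPSL.toGL_ne] using e⟩

/-- |Aut(PSL_n(q))|, q = p^f: for n ≥ 3 it is 2 f |PGL_n(q)|, and for n = 2 (q ≥ 4) it is f |PGL_2(q)|. -/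
theorem result {F : Type*} [Field F] [Fintype F] (p f : ℕ) [Fact p.Prime] (hf : 1 ≤ f) (hF : Fintype.card F = p ^ f) (n : ℕ) (hn : 2 ≤ n) (h2 : n = 2 → 4 ≤ p ^ f) : Nat.card (MulAut (Matrix.ProjectiveSpecialLinearGroup (Fin n) F)) = (if n = 2 then 1 else 2) * f * Nat.card (Matrix.ProjGenLinGroup (Fin n) F) := by
  classical
  have hN : Nonempty (Fin n) := ⟨⟨0, by omega⟩⟩
  have hF' : Nat.card F = p ^ f := by rw [Nat.card_eq_fintype_card, hF]
  have hsplit := (Cfsg.Inn (Matrix.ProjectiveSpecialLinearGroup (Fin n) F)).card_mul_index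
  rw [Subgroup.index_eq_card, card_inn hn] at hsplit
  have hpgl : Nat.card (Matrix.ProjGenLinGroup (Fin n) F) =
      Nat.gcd n (p ^ f - 1) * Nat.card (Matrix.ProjectiveSpecialLinearGroup (Fin n) F) := by
    rw [H1.card_PGL, ← H1.gcd_mul_card_PSL, Fintype.card_fin, ← hF', Nat.card_units]
  rw [hpgl, ← hsplit]
  rcases hn.lt_or_eq with h3 | rfl
  · rw [if_neg (by omega)]
    obtain ⟨φ, hs, -, hk⟩ := H76.OutPSL.out_structure (F := F) hf hF' h3
    have := φ.ker.card_mul_index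
    rw [Subgroup.index_ker, MonoidHom.range_eq_top.mpr hs, Subgroup.card_top, hk,
      Nat.card_congr Multiplicative.toAdd, Nat.card_prod, Nat.card_zmod, Nat.card_zmod] at this
    change _ * Nat.card (Cfsg.Out _) = _
    rw [← this]; ring
  · rw [if_pos rfl]
    obtain ⟨φ, hs, -, hk⟩ := H76.OutPSL.out_structure_two (F := F) hf hF'
    have := φ.ker.card_mul_index
    rw [Subgroup.index_ker, MonoidHom.range_eq_top.mpr hs, Subgroup.card_top, hk,
      Nat.card_congr Multiplicative.toAdd, Nat.card_zmod] at this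
    change _ * Nat.card (Cfsg.Out _) = _
    rw [← this]; ring

end Cfsg.Agent.S0813
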