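import Cfsg.Statements.S0817
import Cfsg.Agent.H4.Triality.CardAut
-- import your own Cfsg.Agent.* helpers here

set_option autoImplicit false
open Cfsg

namespace Cfsg.Agent.S0817

/-- |Aut(PΩ⁺_2m(q))| for q = p^f, m ≥ 4: |PΩ⁺_2m(q)| times f, times 3 when m = 4, times 2 if p = 2, and times 8 or 4 if p is odd according as m(q−1)/2 is even or odd. -/
theorem result {F : Type*} [Field F] [Fintype F] (p f : ℕ) [Fact p.Prime] (hf : 1 ≤ f) (hF : Fintype.card F = p ^ f) (m : ℕ) (hm : 4 ≤ m) : Nat.card (MulAut (Cfsg.POmega F (Cfsg.quadFormPlus m F))) = (if m = 4 then 3 else 1) * (if p = 2 then 2 else (if Even (m * (p ^ f - 1) / 2) then 8 else 4)) * f * Nat.card (Cfsg.POmega F (Cfsg.quadFormPlus m F)) := by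
  split_ifs with h4 hp he <;>
    first
    | (subst h4; rw [Cfsg.Agent.H4.card_aut_plus_eight hf hF]; simp_all)
    | (rw [Cfsg.Agent.H4.card_aut_plus hf hF (m := m) (by omega)]; simp_all)

end Cfsg.Agent.S0817
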