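import Cfsg.Statements.S0821
import Cfsg.Agent.H2.SpInvolution
import Cfsg.Agent.H2.OmegaInvolution
-- import your own Cfsg.Agent.* helpers here

set_option autoImplicit false
open Cfsg

namespace Cfsg.Agent.S0821

/-- PSp_2m(q) ≇ PΩ_(2m+1)(q) for q odd and m ≥ 3 (they have the same order). -/
theorem result {F : Type*} [Field F] [Fintype F] (hodd : Odd (Fintype.card F)) (m : ℕ) (hm : 3 ≤ m) : IsEmpty (Cfsg.PSp m F ≃* Cfsg.POmega F (Cfsg.quadFormOdd m F)) := by
  classical
  refine ⟨fun e => ?_⟩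
  have h2 : (2 : F) ≠ 0 := by
    intro h
    have h3 : ringChar F = 2 := CharP.ringChar_of_prime_eq_zero Nat.prime_two (by exact_mod_cast h)
    exact Nat.not_even_iff_odd.mpr hodd (Nat.even_iff.mpr (FiniteField.even_card_iff_char_two.mp h3))
  obtain ⟨L, hlen, hne, horth, hsq⟩ := Cfsg.Agent.H2.qOdd_list (F := F) m h2
  obtain ⟨y, hy, hyc⟩ := Cfsg.Agent.H2.exists_involutions
    (Cfsg.Agent.H5.qOdd_nondegenerate m h2) h2 (m := m) (by omega)
    (by simp; omega) L hlen hne horth hsq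
  let e' := e.trans (Cfsg.Agent.H5.pomegaEquiv (Cfsg.Agent.H5.qOdd m F) (Cfsg.Agent.H5.coe_qOdd m))
  have hex : ∀ i, ∃ j ≤ m / 2, Cfsg.Agent.H2.InvolutionType j (e'.symm (y i)) := fun i =>
    Cfsg.Agent.H2.exists_involutionType (by omega) h2
      (by rw [← map_mul, (hy i).1, map_one])
      (fun h => (hy i).2 (by simpa using congrArg e' h))
  choose j hj hjt using hex
  obtain ⟨a, b, hab, hjab⟩ := Fintype.exists_ne_map_eq_of_card_lt
    (fun i : Fin m => (⟨j i, Nat.lt_succ_of_le (hj i)⟩ : Fin (m / 2 + 1)))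
    (by simp only [Fintype.card_fin]; omega)
  have hjj : j a = j b := congrArg Fin.val hjab
  have hb := hjt b
  rw [← hjj] at hb
  have hc := MonoidHom.map_isConj e'.toMonoidHom
    (Cfsg.Agent.H2.isConj_of_involutionType h2 (hjt a) hb)
  simp only [MulEquiv.coe_toMonoidHom, MulEquiv.apply_symm_apply] at hc
  exact hab (hyc a b hc)

end Cfsg.Agent.S0821
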