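import Cfsg.Statements.S0822
import Cfsg.Agent.H5.RootsIso
import Cfsg.Agent.H5.FieldTransport
import Cfsg.Agent.S0301
import Cfsg.Agent.S0303

set_option autoImplicit false
open Cfsg

namespace Cfsg.Agent.S0822

/-- PSU_4(2) ≅ PSp_4(3): with |F| = 4 and |K| = 3, the projective special unitary group of the standard Hermitian form on F^4 is isomorphic to PSp_4(K). -/
theorem result {F K : Type*} [Field F] [Fintype F] [Field K] [Fintype K] (hF : Fintype.card F = 4) (hK : Fintype.card K = 3) : Nonempty (Cfsg.PSU 4 F 2 ≃* Cfsg.PSp 2 K) := by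
  classical
  have hab := H5.qMinus_two_hab
  obtain ⟨e₁⟩ := S0303.result (F := ZMod 2) (K := F) (q := 2) (ZMod.card 2) (by rw [hF]; norm_num)
    1 1 hab
  obtain ⟨e₂⟩ := S0301.result (F := K) (by rw [hK]; decide)
  obtain ⟨c⟩ := H5.nonempty_omega_six_five
  obtain ⟨c'⟩ := H5.nonempty_center_quot_congr c
  let r := ZMod.ringEquivOfPrime K Nat.prime_three hK
  obtain ⟨t⟩ := H5.nonempty_commutator_quot_congr (H5.isometryTransport r
    (f := Cfsg.quadFormOdd 2 (ZMod 3)) (f' := Cfsg.quadFormOdd 2 K)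
    (fun v => by simp [Cfsg.quadFormOdd, map_sum, map_mul, map_pow]))
  exact ⟨e₁.symm.trans (((H5.pomegaEquiv H5.formTwo (H5.coe_qMinus 2 1 1)).trans c').trans
    ((H5.pomegaEquiv H5.formThree (H5.coe_qOdd 2)).symm.trans (t.trans e₂)))⟩

end Cfsg.Agent.S0822
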