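import Cfsg.Statements.S0823
import Cfsg.Agent.H5.SmallOrth
import Cfsg.Agent.H5.FieldTransport

set_option autoImplicit false
open Cfsg

namespace Cfsg.Agent.S0823

/-- SO_3(3) ≅ S_4: the determinant-one isometries of the form x_0² + x_1y_1 over the field with 3 elements form a group isomorphic to the symmetric group on 4 letters. -/
theorem result {F : Type*} [Field F] [Fintype F] (hF : Fintype.card F = 3) : Nonempty (↥(Cfsg.specialIsometryGroup F (Cfsg.quadFormOdd 1 F)) ≃* Equiv.Perm (Fin 4)) := by
  classical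
  obtain ⟨e₀⟩ := H5.nonempty_so_three_three
  let e := ZMod.ringEquivOfPrime F Nat.prime_three hF
  obtain ⟨e₁⟩ := H5.nonempty_specialIsometry_transport e (f := Cfsg.quadFormOdd 1 (ZMod 3))
    (f' := Cfsg.quadFormOdd 1 F) (fun v => by simp [Cfsg.quadFormOdd, map_sum, map_mul, map_pow])
  exact ⟨e₁.symm.trans e₀⟩

end Cfsg.Agent.S0823
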