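import Cfsg.Statements.S0825
import Cfsg.Agent.H63.OPlusSix

set_option autoImplicit false
open Cfsg

namespace Cfsg.Agent.S0825

/-- O⁺_6(2) ≅ S_8: the isometry group of the hyperbolic form x_1y_1 + x_2y_2 + x_3y_3 over the field with 2 elements is isomorphic to the symmetric group on 8 letters. -/
theorem result {F : Type*} [Field F] [Fintype F] (hF : Fintype.card F = 2) : Nonempty (↥(Cfsg.isometryGroup F (Cfsg.quadFormPlus 3 F)) ≃* Equiv.Perm (Fin 8)) := by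
  classical
  obtain ⟨e₀⟩ := H63.nonempty_mulEquiv_plus_six
  let e := ZMod.ringEquivOfPrime F Nat.prime_two hF
  let ψ : GL (Fin 3 ⊕ Fin 3) (ZMod 2) ≃* GL (Fin 3 ⊕ Fin 3) F := Units.mapEquiv e.mapMatrix.toMulEquiv
  have hQ : ∀ v : Fin 3 ⊕ Fin 3 → ZMod 2,
      Cfsg.quadFormPlus 3 F (e ∘ v) = e (Cfsg.quadFormPlus 3 (ZMod 2) v) := fun v => by
    simp [Cfsg.quadFormPlus, map_sum, map_mul]
  have hψ : ∀ (g : GL (Fin 3 ⊕ Fin 3) (ZMod 2)) (v : Fin 3 ⊕ Fin 3 → ZMod 2),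
      Matrix.mulVec ((ψ g : GL _ F) : Matrix (Fin 3 ⊕ Fin 3) (Fin 3 ⊕ Fin 3) F) (e ∘ v) =
        e ∘ Matrix.mulVec (g : Matrix (Fin 3 ⊕ Fin 3) (Fin 3 ⊕ Fin 3) (ZMod 2)) v := fun g v => by
    funext i
    simp [ψ, Matrix.mulVec, dotProduct, map_sum, map_mul]
  have hmap : (Cfsg.isometryGroup F (Cfsg.quadFormPlus 3 F)).comap ψ.toMonoidHom =
      Cfsg.isometryGroup (ZMod 2) (Cfsg.quadFormPlus 3 (ZMod 2)) := by
    ext g
    constructor
    · intro h u _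
      apply e.injective
      have h' := h (e ∘ u) (e ∘ u)
      rw [← hQ, ← hQ]
      show Cfsg.quadFormPlus 3 F (e ∘ Matrix.mulVec (g : Matrix (Fin 3 ⊕ Fin 3) (Fin 3 ⊕ Fin 3) (ZMod 2)) u) = _
      rw [← hψ]
      exact h'
    · intro h u _
      have h' := h (e.symm ∘ u) (e.symm ∘ u)
      have hu : u = e ∘ (e.symm ∘ u) := by funext i; simp
      show Cfsg.quadFormPlus 3 F (Matrix.mulVec ((ψ g : GL _ F) : Matrix (Fin 3 ⊕ Fin 3) (Fin 3 ⊕ Fin 3) F) u) = _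
      rw [hu, hψ, hQ]
      exact (congrArg e h').trans (hQ _).symm
  have hmap' : (Cfsg.isometryGroup (ZMod 2) (Cfsg.quadFormPlus 3 (ZMod 2))).map ψ.toMonoidHom =
      Cfsg.isometryGroup F (Cfsg.quadFormPlus 3 F) := by
    rw [← hmap]
    exact Subgroup.map_comap_eq_self_of_surjective ψ.surjective _
  exact ⟨((e₀.trans (ψ.subgroupMap _)).trans (MulEquiv.subgroupCongr hmap')).symm⟩

end Cfsg.Agent.S0825
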