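import Cfsg.Statements.S0828
import Cfsg.Agent.H2.Stab

namespace Cfsg.Agent.S0828

open Cfsg.Agent.H2

/-- The number of totally isotropic lines through a point. -/
theorem key {F : Type*} [Field F] [Fintype F] (v : Fin 2 ⊕ Fin 2 → F) (hv : v ≠ 0) :
    Nat.card {W : Submodule F (Fin 2 ⊕ Fin 2 → F) // Module.finrank F W = 2 ∧ v ∈ W ∧
      ∀ u ∈ W, ∀ w ∈ W, Cfsg.sympForm 2 F u w = 0} = Fintype.card F + 1 := by
  classical
  set q := Fintype.card F
  have hq : 1 < q := Fintype.one_lt_card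
  have hfree : LinearIndependent F ![v] := LinearIndependent.of_subsingleton 0 hv
  set P := Submodule.span F (Set.range ![v])
  set O := orth (sympBilin 2 F) P
  set S := {W : Submodule F (Fin 2 ⊕ Fin 2 → F) // Module.finrank F W = 2 ∧ v ∈ W ∧
      ∀ u ∈ W, ∀ w ∈ W, Cfsg.sympForm 2 F u w = 0}
  set T := {w : Fin 2 ⊕ Fin 2 → F // w ∈ O ∧ w ∉ P}
  have hP : Module.finrank F P = 1 := by rw [finrank_span_eq_card hfree]; rfl
  have hO : Module.finrank F O = 3 := finrank_orth_span _ hfree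
  have hPO : P ≤ O := Submodule.span_le.mpr fun x hx => by
    obtain ⟨i, rfl⟩ := hx
    exact (mem_orth_span_iff _ _).mpr fun j => by simp [Subsingleton.elim i 0, Subsingleton.elim j 0]
  let φ : T → S := fun w => ⟨Submodule.span F (Set.range ![v, w.1]), by
    have hli : LinearIndependent F ![v, w.1] := by
      rw [LinearIndependent.pair_iff' hv]
      intro a ha
      exact w.2.2 (ha ▸ Submodule.smul_mem _ _ (Submodule.subset_span ⟨0, rfl⟩))
    refine ⟨by rw [finrank_span_eq_card hli]; rfl, Submodule.subset_span ⟨0, rfl⟩, ?_⟩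
    intro a ha b hb
    obtain ⟨c, rfl⟩ := (Submodule.mem_span_range_iff_exists_fun F).mp ha
    obtain ⟨d, rfl⟩ := (Submodule.mem_span_range_iff_exists_fun F).mp hb
    have hvw : Cfsg.sympForm 2 F v w.1 = 0 := (mem_orth_span_iff ![v] _).mp w.2.1 0
    simp [Fin.sum_univ_two, ← sympBilin_apply, map_add, map_smul, LinearMap.add_apply]
    simp [hvw, sympForm_swap v w.1]⟩
  have hφ : ∀ W : S, Nat.card {w : T // φ w = W} = q ^ 2 - q := by
    intro W
    have hPW : P ≤ W.1 := Submodule.span_le.mpr fun x hx => by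
      obtain ⟨i, rfl⟩ := hx
      rw [Subsingleton.elim i 0]
      exact W.2.2.1
    have e : {w : T // φ w = W} ≃ ↥((W.1 : Set (Fin 2 ⊕ Fin 2 → F)) \ (P : Set _)) :=
      { toFun := fun w => ⟨w.1.1, by
          refine ⟨?_, w.1.2.2⟩
          have h1 : w.1.1 ∈ (φ w.1).1 := Submodule.subset_span ⟨1, rfl⟩
          have h2 : (φ w.1).1 = W.1 := congrArg Subtype.val w.2
          exact h2 ▸ h1⟩
        invFun := fun w => ⟨⟨w.1, fun z hz => by
            rw [sympBilin_apply]
            exact W.2.2.2 _ (hPW hz) _ w.2.1, w.2.2⟩, by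
          refine Subtype.ext ?_
          refine Submodule.eq_of_le_of_finrank_eq ?_ ?_
          · refine Submodule.span_le.mpr fun x hx => ?_
            obtain ⟨i, rfl⟩ := hx
            fin_cases i
            · exact W.2.2.1
            · exact w.2.1
          · exact (φ ⟨w.1, fun z hz => by
              rw [sympBilin_apply]
              exact W.2.2.2 _ (hPW hz) _ w.2.1, w.2.2⟩).2.1.trans W.2.1.symm⟩
        left_inv := fun w => rfl
        right_inv := fun w => rfl }
    rw [Nat.card_congr e, Nat.card_coe_set_eq, Set.ncard_sdiff (by exact hPW), ← Nat.card_coe_set_eq,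
      ← Nat.card_coe_set_eq, SetLike.coe_sort_coe, SetLike.coe_sort_coe,
      Module.natCard_eq_pow_finrank (K := F) (V := ↥W.1),
      Module.natCard_eq_pow_finrank (K := F) (V := ↥P), W.2.1, hP, pow_one, Nat.card_eq_fintype_card]
  have hT : Nat.card T = q ^ 3 - q := by
    rw [show Nat.card T = Nat.card ↥((O : Set (Fin 2 ⊕ Fin 2 → F)) \ (P : Set _)) from rfl,
      Nat.card_coe_set_eq, Set.ncard_sdiff (by exact hPO), ← Nat.card_coe_set_eq,
      ← Nat.card_coe_set_eq, SetLike.coe_sort_coe, SetLike.coe_sort_coe,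
      Module.natCard_eq_pow_finrank (K := F) (V := ↥O),
      Module.natCard_eq_pow_finrank (K := F) (V := ↥P), hO, hP, pow_one, Nat.card_eq_fintype_card]
  rw [Nat.card_congr (Equiv.sigmaFiberEquiv φ).symm, Nat.card_sigma,
    Finset.sum_congr rfl fun W _ => hφ W,
    Finset.sum_const, smul_eq_mul, Finset.card_univ, ← Nat.card_eq_fintype_card] at hT
  have h1 : q ≤ q ^ 2 := Nat.le_self_pow two_ne_zero q
  have h2 : q ^ 3 - q = (q + 1) * (q ^ 2 - q) := by
    rw [Nat.mul_sub, show (q + 1) * q ^ 2 = q ^ 3 + q ^ 2 by ring,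
      show (q + 1) * q = q ^ 2 + q by ring]
    omega
  rw [h2] at hT
  exact Nat.eq_of_mul_eq_mul_right (by
    have : q < q ^ 2 := by nlinarith
    omega) hT

/-- The symplectic generalised quadrangle over a field with q elements: the number of 2-dimensional subspaces of F^4 on which the symplectic form vanishes is (q + 1)(q² + 1), and every non-zero vector lies in exactly q + 1 of them. -/
theorem result {F : Type*} [Field F] [Fintype F] {q : ℕ} (hF : Fintype.card F = q) : Nat.card {W : Submodule F (Fin 2 ⊕ Fin 2 → F) // Module.finrank F W = 2 ∧ ∀ u ∈ W, ∀ v ∈ W, Cfsg.sympForm 2 F u v = 0} = (q + 1) * (q ^ 2 + 1) ∧ ∀ v : Fin 2 ⊕ Fin 2 → F, v ≠ 0 → Nat.card {W : Submodule F (Fin 2 ⊕ Fin 2 → F) // Module.finrank F W = 2 ∧ v ∈ W ∧ ∀ u ∈ W, ∀ w ∈ W, Cfsg.sympForm 2 F u w = 0} = q + 1 := by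
  classical
  subst hF
  refine ⟨?_, key⟩
  set q := Fintype.card F with hqdef
  set S := {W : Submodule F (Fin 2 ⊕ Fin 2 → F) // Module.finrank F W = 2 ∧
    ∀ u ∈ W, ∀ v ∈ W, Cfsg.sympForm 2 F u v = 0}
  set V' := {v : Fin 2 ⊕ Fin 2 → F // v ≠ 0}
  have hW : ∀ W : S, Nat.card {v : V' // v.1 ∈ W.1} = q ^ 2 - 1 := by
    intro W
    have e' : {v : V' // v.1 ∈ W.1} ≃ {v : W.1 // v ≠ 0} :=
      { toFun := fun v => ⟨⟨v.1.1, v.2⟩, fun h0 => v.1.2 (congrArg Subtype.val h0)⟩
        invFun := fun v => ⟨⟨v.1.1, fun h0 => v.2 (Subtype.ext h0)⟩, v.1.2⟩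
        left_inv := fun v => rfl
        right_inv := fun v => rfl }
    have hc : Nat.card W.1 = q ^ 2 := by
      rw [Module.natCard_eq_pow_finrank (K := F), W.2.1, Nat.card_eq_fintype_card]
    rw [Nat.card_congr e', Nat.card_eq_fintype_card, Fintype.card_subtype_compl,
      Fintype.card_subtype_eq, ← hc, Nat.card_eq_fintype_card]
  have e : (Σ W : S, {v : V' // v.1 ∈ W.1}) ≃
      Σ v : V', {W : Submodule F (Fin 2 ⊕ Fin 2 → F) // Module.finrank F W = 2 ∧ v.1 ∈ W ∧
        ∀ u ∈ W, ∀ w ∈ W, Cfsg.sympForm 2 F u w = 0} :=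
    { toFun := fun s => ⟨s.2.1, s.1.1, s.1.2.1, s.2.2, s.1.2.2⟩
      invFun := fun s => ⟨⟨s.2.1, s.2.2.1, s.2.2.2.2⟩, s.1, s.2.2.2.1⟩
      left_inv := fun s => rfl
      right_inv := fun s => rfl }
  have h := Nat.card_congr e
  rw [Nat.card_sigma, Nat.card_sigma, Finset.sum_congr rfl fun W _ => hW W,
    Finset.sum_congr rfl fun (v : V') _ => key v.1 v.2,
    Finset.sum_const, Finset.sum_const, smul_eq_mul, smul_eq_mul, Finset.card_univ, Finset.card_univ,
    ← Nat.card_eq_fintype_card, ← Nat.card_eq_fintype_card] at h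
  have hV : Nat.card V' = q ^ 4 - 1 := by
    rw [Nat.card_eq_fintype_card, Fintype.card_subtype_compl, Fintype.card_subtype_eq,
      Fintype.card_fun]
    rfl
  rw [hV] at h
  have hq : 1 < q := Fintype.one_lt_card
  have h1 : 1 < q ^ 2 := Nat.one_lt_pow two_ne_zero hq
  have h2 : q ^ 4 - 1 = (q ^ 2 + 1) * (q ^ 2 - 1) := by
    rw [Nat.mul_sub, show (q ^ 2 + 1) * q ^ 2 = q ^ 4 + q ^ 2 by ring]
    omega
  rw [h2] at h
  refine Nat.eq_of_mul_eq_mul_right (m := q ^ 2 - 1) (by omega) ?_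
  rw [h]; ring

end Cfsg.Agent.S0828
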