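import Cfsg.Statements.S0829
import Cfsg.Agent.H3.Geometry

set_option autoImplicit false
open Cfsg

namespace Cfsg.Agent.S0829

/-- The unitary quadrangle of PSU_4(q): with |F| = q², the number of 2-dimensional subspaces of F^4 on which the Hermitian form Σ x_i y_i^q vanishes is (q + 1)(q³ + 1). -/
theorem result {F : Type*} [Field F] [Fintype F] {q : ℕ} (hF : Fintype.card F = q ^ 2) : Nat.card {W : Submodule F (Fin 4 → F) // Module.finrank F W = 2 ∧ ∀ u ∈ W, ∀ v ∈ W, Cfsg.hermForm 4 F q u v = 0} = (q + 1) * (q ^ 3 + 1) := by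
  have h := H3.card_isotropic_lines hF 0
  have z4 := H3.card_isotropic_int hF 4
  have z2 := H3.card_isotropic_int hF 2
  have hq : (2 : ℤ) ≤ q := by exact_mod_cast H3.two_le_q hF
  have h2 : (q : ℤ) ^ 2 - 1 ≠ 0 := by nlinarith
  have h4 : (q : ℤ) ^ 4 - 1 ≠ 0 := by
    rw [show (q : ℤ) ^ 4 - 1 = ((q : ℤ) ^ 2 - 1) * ((q : ℤ) ^ 2 + 1) by ring]
    exact mul_ne_zero h2 (by positivity)
  have hq2 : (q : ℤ) ≠ 0 := by omega
  simp only [Nat.reduceAdd] at h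
  generalize Nat.card {W : Submodule F (Fin 4 → F) //
    Module.finrank F W = 2 ∧ ∀ u ∈ W, ∀ v ∈ W, Cfsg.hermForm 4 F q u v = 0} = A at h ⊢
  zify
  apply mul_right_cancel₀ (mul_ne_zero (mul_ne_zero (mul_ne_zero hq2 hq2) h4) (mul_ne_zero (pow_ne_zero 2 hq2) h2))
  linear_combination (q : ℤ) ^ 2 * h
    + (q : ℤ) ^ 2 * ((q : ℤ) * Nat.card {v : Fin 2 → F // Cfsg.hermForm 2 F q v v = 0} - q) * z4
    + (q : ℤ) ^ 2 * ((q : ℤ) ^ (2 * 4) + (-1) ^ 4 * ((q : ℤ) - 1) * (q : ℤ) ^ 4 - q) * z2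

end Cfsg.Agent.S0829
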