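import Cfsg.Statements.S0831
import Cfsg.Agent.H4.MaxSingular
import Cfsg.Agent.H4.DiscClass

set_option autoImplicit false
open Cfsg

namespace Cfsg.Agent.S0831

/-- The two families of maximal totally singular subspaces of the hyperbolic quadric: for the form Σ x_i y_i on F^(2m), m ≥ 1, and m-dimensional subspaces U, W, X on which it vanishes, the parities of m − dim(U ∩ W), m − dim(W ∩ X) and m − dim(U ∩ X) sum to an even number (so 'even codimension of the intersection' is an equivalence relation), and there exist two such subspaces meeting in codimension 1 (so there are exactly two classes). -/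
theorem result {F : Type*} [Field F] (m : ℕ) (hm : 1 ≤ m) : (∀ U W X : Submodule F (Fin m ⊕ Fin m → F), (Module.finrank F U = m ∧ ∀ w ∈ U, Cfsg.quadFormPlus m F w = 0) → (Module.finrank F W = m ∧ ∀ w ∈ W, Cfsg.quadFormPlus m F w = 0) → (Module.finrank F X = m ∧ ∀ w ∈ X, Cfsg.quadFormPlus m F w = 0) → Even ((m - Module.finrank F ↥(U ⊓ W)) + (m - Module.finrank F ↥(W ⊓ X)) + (m - Module.finrank F ↥(U ⊓ X)))) ∧ ∃ U W : Submodule F (Fin m ⊕ Fin m → F), (Module.finrank F U = m ∧ ∀ w ∈ U, Cfsg.quadFormPlus m F w = 0) ∧ (Module.finrank F W = m ∧ ∀ w ∈ W, Cfsg.quadFormPlus m F w = 0) ∧ Module.finrank F ↥(U ⊓ W) + 1 = m := by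
  have hQ := H4.qPlus_nondegenerate (F := F) m
  have hV : Module.finrank F (Fin m ⊕ Fin m → F) = 2 * m := by simp; omega
  have conv : ∀ W : Submodule F (Fin m ⊕ Fin m → F),
      (Module.finrank F W = m ∧ ∀ w ∈ W, Cfsg.quadFormPlus m F w = 0) ↔
        H4.IsSingSub (H4.qPlus m F) m W := fun W => by rw [H4.IsSingSub, H4.coe_qPlus]
  refine ⟨fun U W X hU hW hX => H4.even_codim_sum hQ hV ((conv U).1 hU) ((conv W).1 hW) ((conv X).1 hX), ?_⟩
  obtain ⟨W₀, hW₀, hr⟩ := H4.exists_singular_map (LinearEquiv.refl F _) (fun _ => rfl)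
    (H4.qPlus_singular (F := F) m)
  obtain ⟨M, -, hMW, hM⟩ := H4.exists_hyperplane_ge (bot_le : ⊥ ≤ W₀) (by rw [finrank_bot, hr]; omega)
  rw [hr] at hM
  obtain ⟨W', hW', -, -, hint, -⟩ := H4.exists_other hQ hV ⟨hr, hW₀⟩ hMW hM
  exact ⟨W₀, W', (conv W₀).2 ⟨hr, hW₀⟩, (conv W').2 hW', by rw [hint]; exact hM⟩

end Cfsg.Agent.S0831
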