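import Cfsg.Statements.S0832
import Cfsg.Agent.H4.MaxSingular
import Cfsg.Agent.H4.DiscClass

set_option autoImplicit false
open Cfsg

namespace Cfsg.Agent.S0832

/-- For the form Σ x_i y_i on F^(2m) over a finite field, m ≥ 1: an (m−1)-dimensional subspace on which the form vanishes is contained in exactly two m-dimensional subspaces on which it vanishes. -/
theorem result {F : Type*} [Field F] [Finite F] (m : ℕ) (hm : 1 ≤ m) (U : Submodule F (Fin m ⊕ Fin m → F)) (hU : Module.finrank F U + 1 = m ∧ ∀ u ∈ U, Cfsg.quadFormPlus m F u = 0) : Nat.card {W : Submodule F (Fin m ⊕ Fin m → F) // Module.finrank F W = m ∧ (∀ w ∈ W, Cfsg.quadFormPlus m F w = 0) ∧ U ≤ W} = 2 := by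
  have hQ := H4.qPlus_nondegenerate (F := F) m
  have hV : Module.finrank F (Fin m ⊕ Fin m → F) = 2 * m := by simp; omega
  obtain ⟨hUr, hU0⟩ := hU
  rw [← H4.coe_qPlus] at hU0
  obtain ⟨W₀, hW₀, hr⟩ := H4.qPlus_singular (F := F) m
  obtain ⟨W, hW, hUW⟩ := H4.exists_ge_singSub hQ hV hU0 ⟨W₀, hr, hW₀⟩
  obtain ⟨W', hW', hUW', hne, -, huniq⟩ := H4.exists_other hQ hV hW hUW hUr
  have conv : ∀ X : Submodule F (Fin m ⊕ Fin m → F),
      (Module.finrank F X = m ∧ (∀ w ∈ X, Cfsg.quadFormPlus m F w = 0) ∧ U ≤ X) ↔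
        (H4.IsSingSub (H4.qPlus m F) m X ∧ U ≤ X) := fun X => by
    rw [H4.IsSingSub, H4.coe_qPlus, and_assoc]
  rw [Nat.card_eq_two_iff]
  refine ⟨⟨W, (conv W).2 ⟨hW, hUW⟩⟩, ⟨W', (conv W').2 ⟨hW', hUW'⟩⟩,
    fun h => hne (congrArg Subtype.val h).symm, ?_⟩
  ext ⟨X, hX⟩
  simp only [Set.mem_insert_iff, Set.mem_singleton_iff, Set.mem_univ, iff_true, Subtype.mk.injEq]
  exact huniq X ((conv X).1 hX).1 ((conv X).1 hX).2

end Cfsg.Agent.S0832
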