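import Cfsg.Statements.S0833
import Cfsg.Agent.H4.Tensor

set_option autoImplicit false
open Cfsg

namespace Cfsg.Agent.S0833

/-- If B₁, B₂ are non-degenerate alternating forms on U (dim 2k) and W (dim 2l), then B₁ ⊗ B₂ on U ⊗ W is symmetric, non-degenerate, and vanishes identically on some subspace of dimension 2kl (half of dim U ⊗ W). -/
theorem result {F U W : Type*} [Field F] [Fintype F] [AddCommGroup U] [Module F U] [FiniteDimensional F U] [AddCommGroup W] [Module F W] [FiniteDimensional F W] (B₁ : LinearMap.BilinForm F U) (B₂ : LinearMap.BilinForm F W) (h₁ : B₁.Nondegenerate) (h₂ : B₂.Nondegenerate) (hA₁ : B₁.IsAlt) (hA₂ : B₂.IsAlt) (k l : ℕ) (hU : Module.finrank F U = 2 * k) (hW : Module.finrank F W = 2 * l) : (B₁.tmul B₂).IsSymm ∧ (B₁.tmul B₂).Nondegenerate ∧ (∃ X : Submodule F (TensorProduct F U W), Module.finrank F X = 2 * k * l ∧ ∀ x ∈ X, ∀ y ∈ X, (B₁.tmul B₂) x y = 0) := by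
  refine ⟨⟨fun x y => ?_⟩, H4.tmul_nondegenerate h₁ h₂, ?_⟩
  · have h : LinearMap.flip (B₁.tmul B₂) = B₁.tmul B₂ := by
      refine TensorProduct.ext' fun u w => TensorProduct.ext' fun u' w' => ?_
      rw [LinearMap.flip_apply, H4.tmul_bilin_apply, H4.tmul_bilin_apply, ← hA₁.neg_eq u u',
        ← hA₂.neg_eq w w']
      ring
    exact (LinearMap.congr_fun (LinearMap.congr_fun h x) y).symm
  · obtain ⟨L, hL, hiso⟩ := H4.exists_lagrangian h₁ hA₁ hU
    let f := TensorProduct.map L.subtype (LinearMap.id : W →ₗ[F] W)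
    have hinj : Function.Injective f := by
      obtain ⟨p, hp⟩ := LinearMap.exists_leftInverse_of_injective L.subtype L.ker_subtype
      refine Function.LeftInverse.injective (g := TensorProduct.map p LinearMap.id) fun z => ?_
      show (TensorProduct.map p LinearMap.id ∘ₗ f) z = z
      rw [← TensorProduct.map_comp, hp, LinearMap.id_comp, TensorProduct.map_id]
      rfl
    refine ⟨LinearMap.range f, ?_, ?_⟩
    · rw [LinearMap.finrank_range_of_inj hinj, Module.finrank_tensorProduct, hL, hW]; ring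
    · have h0 : ((B₁.tmul B₂).compl₂ f) ∘ₗ f = 0 := by
        refine TensorProduct.ext' fun u w => TensorProduct.ext' fun u' w' => ?_
        simp [f, hiso _ u.2 _ u'.2]
      rintro _ ⟨x, rfl⟩ _ ⟨y, rfl⟩
      exact LinearMap.congr_fun (LinearMap.congr_fun h0 x) y

end Cfsg.Agent.S0833
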