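import Cfsg.Statements.S0835
import Cfsg.Agent.H4.Tensor

set_option autoImplicit false
open Cfsg

namespace Cfsg.Agent.S0835

/-- Over a finite field with 2 ≠ 0: if B₁ on U (dim 2k, k ≥ 1) is non-degenerate symmetric of minus type (no totally isotropic k-subspace) and B₂ on W (dim 2l + 1) is non-degenerate symmetric, then B₁ ⊗ B₂ (dimension 2k(2l+1)) admits no totally isotropic subspace of dimension k(2l+1) (minus type). -/
theorem result {F U W : Type*} [Field F] [Fintype F] [AddCommGroup U] [Module F U] [FiniteDimensional F U] [AddCommGroup W] [Module F W] [FiniteDimensional F W] (h2 : (2 : F) ≠ 0) (B₁ : LinearMap.BilinForm F U) (B₂ : LinearMap.BilinForm F W) (h₁ : B₁.Nondegenerate) (h₂ : B₂.Nondegenerate) (hS₁ : B₁.IsSymm) (hS₂ : B₂.IsSymm) (k l : ℕ) (hk : 1 ≤ k) (hU : Module.finrank F U = 2 * k) (hW : Module.finrank F W = 2 * l + 1) (hm₁ : ¬ (∃ X : Submodule F (U), Module.finrank F X = k ∧ ∀ x ∈ X, ∀ y ∈ X, (B₁) x y = 0)) : ¬ (∃ X : Submodule F (TensorProduct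 F U W), Module.finrank F X = k * (2 * l + 1) ∧ ∀ x ∈ X, ∀ y ∈ X, (B₁.tmul B₂) x y = 0) := by
  classical
  let b := Module.finBasisOfFinrankEq F U hU
  let c := Module.finBasisOfFinrankEq F W hW
  have hdim : Module.finrank F (TensorProduct F U W) = 2 * (k * (2 * l + 1)) := by
    rw [Module.finrank_tensorProduct, hU, hW]; ring
  rw [H4.bilin_isotropic_iff_isSquare h2 (H4.tmul_nondegenerate h₁ h₂)
    (H4.isSymm_tmul hS₁ hS₂) hdim (b.tensorProduct c), H4.det_toMatrix_tmul, Fintype.card_fin,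
    Fintype.card_fin]
  rw [H4.bilin_isotropic_iff_isSquare h2 h₁ hS₁ hU b] at hm₁
  rintro ⟨r, hr⟩
  apply hm₁
  have hd₁ := (LinearMap.BilinForm.nondegenerate_iff_det_ne_zero b).1 h₁
  have hd₂ := (LinearMap.BilinForm.nondegenerate_iff_det_ne_zero c).1 h₂
  refine ⟨r / ((-1) ^ (k * l) * (LinearMap.BilinForm.toMatrix b B₁).det ^ l *
    (LinearMap.BilinForm.toMatrix c B₂).det ^ k), ?_⟩
  field_simp
  simp only [show k * (2 * l + 1) = k * l + k * l + k by ring, pow_add, two_mul, pow_one] at hr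
  linear_combination hr

end Cfsg.Agent.S0835
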