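import Cfsg.Statements.S0836
import Cfsg.Agent.H1.Generation

set_option autoImplicit false
open Cfsg

namespace Cfsg.Agent.S0836

/-- For i ≠ j and any scalar c, the elementary transvection 1 + c E_ij is a commutator ⁅g, h⁆ of two elements of SL_n(F) provided n ≥ 3, or n = 2 and F contains x ≠ 0 with x² ≠ 1. -/
theorem result {F : Type*} [Field F] (n : ℕ) (hn : 3 ≤ n ∨ (n = 2 ∧ ∃ x : F, x ≠ 0 ∧ x ^ 2 ≠ 1)) (i j : Fin n) (hij : i ≠ j) (c : F) (t : Matrix.SpecialLinearGroup (Fin n) F) (ht : (t : Matrix (Fin n) (Fin n) F) = Matrix.transvection i j c) : t ∈ commutatorSet (Matrix.SpecialLinearGroup (Fin n) F) := by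
  have h : 3 ≤ Fintype.card (Fin n) ∨ ∃ x : F, x ≠ 0 ∧ x ^ 2 ≠ 1 := by
    rcases hn with h | ⟨_, h⟩
    · exact .inl (by simpa using h)
    · exact .inr h
  have he : t = Matrix.SpecialLinearGroup.transvection hij c := Subtype.ext ht
  rw [he]
  exact Cfsg.Agent.H1.transvection_mem_commutatorSet h hij c

end Cfsg.Agent.S0836
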