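import Cfsg.Statements.S0838
import Cfsg.Agent.H4.SquareClass

set_option autoImplicit false
open Cfsg

namespace Cfsg.Agent.S0838

/-- Over a finite field with 2 ≠ 0 and n odd: two quadratic forms Q₁, Q₂ on F^n with non-degenerate polar forms are similar — there are an invertible linear map g and a scalar c ≠ 0 with Q₂ (g v) = c · Q₁ v for all v. -/
theorem result {F : Type*} [Field F] [Fintype F] (h2 : (2 : F) ≠ 0) {n : ℕ} (hn : Odd n) (Q₁ Q₂ : QuadraticForm F (Fin n → F)) (h₁ : (QuadraticMap.polarBilin Q₁).Nondegenerate) (h₂ : (QuadraticMap.polarBilin Q₂).Nondegenerate) : ∃ (g : (Fin n → F) ≃ₗ[F] (Fin n → F)) (c : F), c ≠ 0 ∧ ∀ v, Q₂ (g v) = c * Q₁ v := by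
  obtain ⟨k, rfl⟩ := hn
  obtain ⟨-, c₁, hc₁, g₁, hg₁⟩ := H4.isom_std_odd h₁ (m := k) (by simp)
  obtain ⟨-, c₂, hc₂, g₂, hg₂⟩ := H4.isom_std_odd h₂ (m := k) (by simp)
  refine ⟨g₁.trans g₂.symm, c₂ / c₁, div_ne_zero hc₂ hc₁, fun v => ?_⟩
  rw [← hg₂, LinearEquiv.trans_apply, LinearEquiv.apply_symm_apply, ← hg₁]
  field_simp

end Cfsg.Agent.S0838
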