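import Cfsg.Statements.S0839
import Cfsg.Agent.H1.Transitive

set_option autoImplicit false
open Cfsg

namespace Cfsg.Agent.S0839

/-- Every transvection t ∈ SL_(n+2)(F) (rank(t − 1) = 1, (t − 1)² = 0) is conjugate in SL_(n+2)(F) to 1 + v·e_0ᵀ for some column vector v with v_0 = 0 (the group A of matrices that are the identity except in the first column below the diagonal); the dimension is written n + 2 ≥ 2. -/
theorem result {F : Type*} [Field F] (n : ℕ) (t : Matrix.SpecialLinearGroup (Fin (n + 2)) F) (ht : Cfsg.IsTransvection (t : Matrix (Fin (n + 2)) (Fin (n + 2)) F)) : ∃ (g : Matrix.SpecialLinearGroup (Fin (n + 2)) F) (v : Fin (n + 2) → F), v 0 = 0 ∧ ((g⁻¹ * t * g : Matrix.SpecialLinearGroup (Fin (n + 2)) F) : Matrix (Fin (n + 2)) (Fin (n + 2)) F) = 1 + Matrix.vecMulVec v (Pi.single 0 1) := by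
  obtain ⟨hrank, hsq⟩ := ht
  obtain ⟨u, w, hu, hw, hM⟩ := Cfsg.Agent.H1.exists_vecMulVec_of_rank_one hrank
  have hwu : w ⬝ᵥ u = 0 := by
    rw [hM, Matrix.vecMulVec_mul_vecMulVec] at hsq
    obtain ⟨i, hi⟩ := Function.ne_iff.1 hu
    obtain ⟨j, hj⟩ := Function.ne_iff.1 hw
    have := congrFun (congrFun hsq i) j
    simp only [Matrix.vecMulVec_apply, Pi.smul_apply, smul_eq_mul, Matrix.zero_apply,
      mul_eq_zero] at this
    rcases this with h | h | h
    · exact absurd h hi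
    · exact h
    · exact absurd h hj
  have he : (Pi.single 0 1 : Fin (n + 2) → F) ≠ 0 := Pi.single_ne_zero_iff.2 one_ne_zero
  obtain ⟨h, hh⟩ := Cfsg.Agent.H1.exists_SL_smul_eq he hw
  have hwh : Matrix.vecMul (Pi.single 0 1 : Fin (n + 2) → F)
      (h.transpose : Matrix (Fin (n + 2)) (Fin (n + 2)) F) = w := by
    rw [Matrix.SpecialLinearGroup.coe_transpose, Matrix.vecMul_transpose]
    exact hh
  refine ⟨h.transpose⁻¹,
    Matrix.mulVec (h.transpose : Matrix (Fin (n + 2)) (Fin (n + 2)) F) u, ?_, ?_⟩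
  · rw [← hwu, ← hwh, ← Matrix.dotProduct_mulVec, single_one_dotProduct]
  · rw [inv_inv, Matrix.SpecialLinearGroup.coe_mul, Matrix.SpecialLinearGroup.coe_mul,
      sub_eq_iff_eq_add'.1 hM]
    have hinv : (h.transpose : Matrix (Fin (n + 2)) (Fin (n + 2)) F) *
        ((h.transpose⁻¹ : Matrix.SpecialLinearGroup (Fin (n + 2)) F) :
          Matrix (Fin (n + 2)) (Fin (n + 2)) F) = 1 := by
      rw [← Matrix.SpecialLinearGroup.coe_mul, mul_inv_cancel, Matrix.SpecialLinearGroup.coe_one]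
    rw [Matrix.mul_add, Matrix.add_mul, Matrix.mul_one, hinv, Matrix.mul_vecMulVec,
      Matrix.vecMulVec_mul]
    rw [← hwh, Matrix.vecMul_vecMul, hinv, Matrix.vecMul_one]

end Cfsg.Agent.S0839
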