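import Cfsg.Statements.S0841
import Mathlib.Algebra.BigOperators.Intervals
import Mathlib.GroupTheory.Abelianization.Defs
-- import your own Cfsg.Agent.* helpers here

set_option autoImplicit false
open Cfsg

open scoped commutatorElement
namespace Cfsg.Agent.S0841

/-- If the commutator subgroup of G lies in the centre, then for all x, y in G and every natural number n one has (x * y) ^ n = x ^ n * y ^ n * c ^ (n * (n - 1) / 2) with c = y⁻¹ * x⁻¹ * y * x. -/
theorem result {G : Type*} [Group G] (hG : commutator G ≤ Subgroup.center G) (x y : G) (n : ℕ) : (x * y) ^ n = x ^ n * y ^ n * (y⁻¹ * x⁻¹ * y * x) ^ (n * (n - 1) / 2) := by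
  set c := y⁻¹ * x⁻¹ * y * x with hc
  have hcz : c ∈ Subgroup.center G := by
    apply hG
    have h : c = ⁅y⁻¹, x⁻¹⁆ := by simp [hc, commutatorElement_def]
    rw [h]
    exact Subgroup.commutator_mem_commutator (Subgroup.mem_top _) (Subgroup.mem_top _)
  have hcc : ∀ g, g * c = c * g := fun g => (Subgroup.mem_center_iff.mp hcz) g
  have hyx : y * x = x * y * c := by simp [hc, mul_assoc]
  have key : ∀ m : ℕ, y ^ m * x = x * y ^ m * c ^ m := by
    intro m
    induction m with
    | zero => simp
    | succ m ih =>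
      calc y ^ (m + 1) * x = y * (y ^ m * x) := by rw [pow_succ', mul_assoc]
        _ = y * x * y ^ m * c ^ m := by rw [ih]; simp [mul_assoc]
        _ = x * y * (c * y ^ m) * c ^ m := by rw [hyx]; simp [mul_assoc]
        _ = x * y * (y ^ m * c) * c ^ m := by rw [hcc]
        _ = x * y ^ (m + 1) * c ^ (m + 1) := by rw [pow_succ' y, pow_succ' c]; simp [mul_assoc]
  have comm : ∀ (k : ℕ) (g : G), c ^ k * g = g * c ^ k := fun k g =>
    ((Commute.pow_right (hcc g) k).eq).symm
  induction n with
  | zero => simp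
  | succ n ih =>
    have ht : (n + 1) * (n + 1 - 1) / 2 = n * (n - 1) / 2 + n := by
      rw [← Finset.sum_range_id, ← Finset.sum_range_id, Finset.sum_range_succ]
    calc (x * y) ^ (n + 1) = x ^ n * y ^ n * c ^ (n * (n - 1) / 2) * (x * y) := by rw [pow_succ, ih]
      _ = x ^ n * (y ^ n * x) * y * c ^ (n * (n - 1) / 2) := by
          rw [mul_assoc (x ^ n * y ^ n), comm]; simp [mul_assoc]
      _ = x ^ n * (x * y ^ n) * (c ^ n * y) * c ^ (n * (n - 1) / 2) := by
          rw [key]; simp [mul_assoc]
      _ = x ^ n * x * (y ^ n * y) * (c ^ n * c ^ (n * (n - 1) / 2)) := by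
          rw [comm]; simp [mul_assoc]
      _ = x ^ (n + 1) * y ^ (n + 1) * c ^ (n * (n - 1) / 2 + n) := by
          rw [← pow_succ, ← pow_succ, ← pow_add, Nat.add_comm n (n * (n - 1) / 2)]
      _ = _ := by rw [ht]

end Cfsg.Agent.S0841
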