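import Cfsg.Statements.S0844
import Cfsg.Agent.H38.BrauerSuzuki
-- import your own Cfsg.Agent.* helpers here

set_option autoImplicit false
open Cfsg

namespace Cfsg.Agent.S0844

/-- Suppose a Sylow 2-subgroup S of the finite group G is generalized quaternion of order at least 16. Then G has two non-principal irreducible characters χ₁ and χ₂ with χ₁ 1 = χ₂ 1 + 1 such that χ₁ g - χ₂ g = 1 for every element g whose order is not divisible by 4. -/
theorem result {G : Type*} [Group G] [Fintype G] (S : Sylow 2 G) (n : ℕ) (e : (S : Subgroup G) ≃* QuaternionGroup (2 ^ (n + 2))) : ∃ χ₁ χ₂ : G → ℂ, Cfsg.IsIrrCharacter G χ₁ ∧ Cfsg.IsIrrCharacter G χ₂ ∧ χ₁ ≠ (fun _ => 1) ∧ χ₂ ≠ (fun _ => 1) ∧ χ₁ 1 = χ₂ 1 + 1 ∧ ∀ g : G, ¬ 4 ∣ orderOf g → χ₁ g - χ₂ g = 1 := by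
  obtain ⟨A, hA⟩ := H38.exists_quatData (S : Subgroup G) n e
  obtain ⟨χ₁, χ₂, h1, h2, -, hdeg, hval, -⟩ := hA.exists_pair
  refine ⟨χ₁.1, χ₂.1, χ₁.2, χ₂.2, fun h => h1 (Subtype.ext h), fun h => h2 (Subtype.ext h), hdeg,
    fun g hg => hval g fun hd => hg ((Dvd.intro (2 ^ n) ?_).trans hd)⟩
  rw [hA.card_D]
  ring

end Cfsg.Agent.S0844
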