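import Cfsg.Statements.S0851
import Cfsg.Agent.H38.TIFNChar
import Cfsg.Agent.H27.Exceptional
import Cfsg.Agent.H26.CharLinear
-- import your own Cfsg.Agent.* helpers here

set_option autoImplicit false
open Cfsg

namespace Cfsg.Agent.S0851

/-- Let K be a subgroup of the finite group G that meets each conjugate by an element outside its normalizer N trivially, is properly contained in N, and contains the centralizer of each of its non-identity elements (a T.I. subgroup with Frobenius normalizer). Suppose K is abelian, let e be the index of K in N, and call an irreducible character of N relevant when it takes at some element of K a value different from its degree. Then either there is exactly one relevant character and K is an elementary abelian p-group of order e + 1 for some prime p, or there are a sign ε and an injective map f from the relevant characters to the irreducible characters of G such that inducing χ - ξ to G gives ε (f χ - f ξ) for all relevant χ and ξ. -/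
theorem result {G : Type*} [Group G] [Fintype G] (K : Subgroup G) (hTI : ∀ g : G, g ∉ Subgroup.normalizer (K : Set G) → ∀ k ∈ K, g * k * g⁻¹ ∈ K → k = 1) (hlt : K < Subgroup.normalizer (K : Set G)) (hC : ∀ k ∈ K, k ≠ 1 → Subgroup.centralizer ({k} : Set G) ≤ K) (hab : ∀ a ∈ K, ∀ b ∈ K, a * b = b * a) : (Nat.card {χ : Cfsg.IrrCharacter (Subgroup.normalizer (K : Set G)) // ∃ k : Subgroup.normalizer (K : Set G), (k : G) ∈ K ∧ (χ : ↥(Subgroup.normalizer (K : Set G)) → ℂ) k ≠ (χ : ↥(Subgroup.normalizer (K : Set G)) → ℂ) 1} = 1 ∧ ∃ p : ℕ, p.Prime ∧ Cfsg.IsElementaryAbelian p K ∧ Nat.card K = (K.subgroupOf (Subgroup.normalizer (K : Set G))).index + 1) ∨ ∃ (ε : ℂ) (f : {χ : Cfsg.IrrCharacter (Subgroup.normalizer (K : Set G)) // ∃ k : Subgroup.normalizer (K : Set G), (k : G) ∈ K ∧ (χ : ↥(Subgroup.normalizer (K : Set G)) → ℂ) k ≠ (χ : ↥(Subgroup.normalizer (K : Set G)) → ℂ) 1} → Cfsg.IrrCharacter G), (ε = 1 ∨ ε = -1) ∧ Function.Injective f ∧ ∀ χ ξ, Cfsg.indFun (Subgroup.normalizer (K :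 Set G)) ((χ.1 : ↥(Subgroup.normalizer (K : Set G)) → ℂ) - (ξ.1 : ↥(Subgroup.normalizer (K : Set G)) → ℂ)) = ε • ((f χ : G → ℂ) - (f ξ : G → ℂ)) := by
  classical
  right
  haveI : (K.subgroupOf (Subgroup.normalizer (K : Set G))).Normal := Subgroup.normal_in_normalizer
  letI := Fintype.ofFinite (Subgroup.normalizer (K : Set G))
  letI := Fintype.ofFinite (K.subgroupOf (Subgroup.normalizer (K : Set G)))
  have hfrob := H38.tifn_inducesIrr K hC
  have hrel : ∀ χ : {χ : Cfsg.IrrCharacter (Subgroup.normalizer (K : Set G)) // ∃ k : Subgroup.normalizer (K : Set G), (k : G) ∈ K ∧ (χ : ↥(Subgroup.normalizer (K : Set G)) → ℂ) k ≠ (χ : ↥(Subgroup.normalizer (K : Set G)) → ℂ) 1},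
      χ.1.1 1 = ((K.subgroupOf (Subgroup.normalizer (K : Set G))).index : ℂ) ∧
        ∀ x : Subgroup.normalizer (K : Set G), (x : G) ∉ K → χ.1.1 x = 0 := by
    rintro ⟨χ, k, hk, hne⟩
    have hr : H38.RelevantOn (K.subgroupOf (Subgroup.normalizer (K : Set G))) χ.1 :=
      ⟨k, Subgroup.mem_subgroupOf.2 hk, hne⟩
    refine ⟨?_, fun x hx => H38.relevant_vanish hfrob χ.2 hr (fun h => hx (Subgroup.mem_subgroupOf.1 h))⟩
    obtain ⟨θ, hθ, -, he⟩ := H38.relevant_eq_indFun hfrob χ.2 hr
    have h1 : θ 1 = 1 := H26.irr_one_eq_one_of_comm (fun a b => Subtype.ext (Subtype.ext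
      (hab _ (Subgroup.mem_subgroupOf.1 a.2) _ (Subgroup.mem_subgroupOf.1 b.2)))) ⟨θ, hθ⟩
    show χ.1 1 = _
    rw [he, H25.indFun_one, h1, mul_one]
  let e := Fintype.equivFin {χ : Cfsg.IrrCharacter (Subgroup.normalizer (K : Set G)) // ∃ k : Subgroup.normalizer (K : Set G), (k : G) ∈ K ∧ (χ : ↥(Subgroup.normalizer (K : Set G)) → ℂ) k ≠ (χ : ↥(Subgroup.normalizer (K : Set G)) → ℂ) 1}
  rcases Nat.eq_zero_or_pos (Fintype.card {χ : Cfsg.IrrCharacter (Subgroup.normalizer (K : Set G)) // ∃ k : Subgroup.normalizer (K : Set G), (k : G) ∈ K ∧ (χ : ↥(Subgroup.normalizer (K : Set G)) → ℂ) k ≠ (χ : ↥(Subgroup.normalizer (K : Set G)) → ℂ) 1}) with h0 | hpos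
  · haveI := Fintype.card_eq_zero_iff.1 h0
    exact ⟨1, isEmptyElim, Or.inl rfl, fun a => isEmptyElim a, fun a => isEmptyElim a⟩
  obtain ⟨ε, hε, θ, hθ, hinj, hind⟩ := H27.exists_exceptional_ti (K : Set G) hTI _ hpos
    (fun i => (e.symm i).1.1) (fun i => (e.symm i).1.2)
    (fun a b h => e.symm.injective (Subtype.ext (Subtype.ext h)))
    (fun i x hx => (hrel _).2 x hx)
    (fun i j => (hrel _).1.trans (hrel _).1.symm)
  refine ⟨ε, fun χ => ⟨θ (e χ), hθ _⟩, hε, fun a b h => e.injective (hinj (congrArg Subtype.val h)),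
    fun χ ξ => ?_⟩
  have h := hind (e χ) (e ξ)
  simp only [Equiv.symm_apply_apply] at h
  rw [H25.indFun_sub]
  exact h

end Cfsg.Agent.S0851
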