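import Cfsg.Statements.S0852
import Cfsg.Agent.H38.TIFNChar
-- import your own Cfsg.Agent.* helpers here

set_option autoImplicit false
open Cfsg

namespace Cfsg.Agent.S0852

/-- Let K be a subgroup of the finite group G that meets each conjugate by an element outside its normalizer N trivially, is properly contained in N, and contains the centralizer of each of its non-identity elements (a T.I. subgroup with Frobenius normalizer). Let S be the set of irreducible characters of N taking at some element of K a value different from their degree, suppose S has at least two members, and let star be a linear isometry on the integer span of S into the generalized characters of G that agrees with induction on the members vanishing at the identity (so S is coherent, with star as the extending isometry). Then an irreducible character ψ of G is of the form star χ or -star χ for some χ in S if and only if ψ is not constant on the non-identity elements of K. -/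
theorem result {G : Type*} [Group G] [Fintype G] (K : Subgroup G) (hTI : ∀ g : G, g ∉ Subgroup.normalizer (K : Set G) → ∀ k ∈ K, g * k * g⁻¹ ∈ K → k = 1) (hlt : K < Subgroup.normalizer (K : Set G)) (hC : ∀ k ∈ K, k ≠ 1 → Subgroup.centralizer ({k} : Set G) ≤ K) [Fintype ↥(Subgroup.normalizer (K : Set G))] (S : Set (↥(Subgroup.normalizer (K : Set G)) → ℂ)) (hS : S = {χ : ↥(Subgroup.normalizer (K : Set G)) → ℂ | Cfsg.IsIrrCharacter ↥(Subgroup.normalizer (K : Set G)) χ ∧ ∃ k : ↥(Subgroup.normalizer (K : Set G)), (k : G) ∈ K ∧ χ k ≠ χ 1}) (htwo : ∃ χ ∈ S, ∃ ξ ∈ S, χ ≠ ξ) (star : (↥(Subgroup.normalizer (K : Set G)) → ℂ) → (G → ℂ)) (hstar : Cfsg.IsLinearIsometryOn (Cfsg.zspan S) star) (hext : ∀ α ∈ Cfsg.zspanOn S ({1}ᶜ : Set ↥(Subgroup.normalizer (K : Set G))), star α = Cfsg.indFun (Subgroup.normalizer (K : Set G)) α) (ψ : G → ℂ) (hψ : Cfsg.IsIrrCharacter G ψ) : (∃ χ ∈ S, ψ = star χ ∨ ψ = -star χ) ↔ ∃ a ∈ K, ∃ b ∈ K, a ≠ 1 ∧ b ≠ 1 ∧ ψ a ≠ ψ b := by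
  classical
  haveI : (K.subgroupOf (Subgroup.normalizer (K : Set G))).Normal := Subgroup.normal_in_normalizer
  letI := Fintype.ofFinite (K.subgroupOf (Subgroup.normalizer (K : Set G)))
  have hfrob := H38.tifn_inducesIrr K hC
  have hSirr : ∀ χ ∈ S, Cfsg.IsIrrCharacter ↥(Subgroup.normalizer (K : Set G)) χ :=
    fun χ hχ => by rw [hS] at hχ; exact hχ.1
  have hSrel : ∀ χ ∈ S, H38.RelevantOn (K.subgroupOf (Subgroup.normalizer (K : Set G))) χ :=
    fun χ hχ => by
      rw [hS] at hχ
      obtain ⟨-, k, hk, hne⟩ := hχ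
      exact ⟨k, Subgroup.mem_subgroupOf.2 hk, hne⟩
  obtain ⟨χ₁, hχ₁, χ₂, hχ₂, h12⟩ := htwo
  constructor
  · rintro ⟨χ, hχ, hcase⟩
    obtain ⟨ξ, hξ, hne⟩ : ∃ ξ ∈ S, χ ≠ ξ := by
      by_cases h : χ = χ₁
      · exact ⟨χ₂, hχ₂, h ▸ h12⟩
      · exact ⟨χ₁, hχ₁, h⟩
    obtain ⟨C, hC'⟩ := H38.star_sub_const K hS hstar hext hχ
    obtain ⟨a, ha, b, hb, ha1, hb1, hab⟩ :=
      H38.relevant_nonconstant hfrob (hSirr χ hχ) (hSrel χ hχ) (hSirr ξ hξ) (hSrel ξ hξ) hne
    refine ⟨a, Subgroup.mem_subgroupOf.1 ha, b, Subgroup.mem_subgroupOf.1 hb,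
      fun h => ha1 (Subtype.ext h), fun h => hb1 (Subtype.ext h), fun h => hab ?_⟩
    have hs : star χ a = star χ b := by
      rcases hcase with rfl | rfl
      · exact h
      · simpa using h
    rw [hC' a (Subgroup.mem_subgroupOf.1 ha) ha1, hC' b (Subgroup.mem_subgroupOf.1 hb) hb1] at hs
    exact add_right_cancel hs
  · rintro ⟨a, ha, b, hb, ha1, hb1, hab⟩
    by_contra hn
    push Not at hn
    obtain ⟨C, hC'⟩ := H38.restrict_kernel_eq K hS ⟨χ₁, hχ₁⟩ hstar hext (H57.gen_of_irr hψ)
    have h0 : ∀ χ ∈ S, Cfsg.classInner ψ (star χ) = 0 := by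
      intro χ hχ
      have hgen := hstar.2.2.2 χ (H57.zspan_subset_of_mem hχ)
      have hnorm : Cfsg.classInner (star χ) (star χ) = 1 := by
        rw [hstar.2.2.1 χ (H57.zspan_subset_of_mem hχ) χ (H57.zspan_subset_of_mem hχ),
          H57.irr_inner_self (hSirr χ hχ)]
      rcases H57.gen_norm_one hgen hnorm with hi | hi
      · exact H57.irr_inner_ne hψ hi (hn χ hχ).1
      · have := H57.irr_inner_ne hψ hi (hn χ hχ).2
        rw [H57.classInner_neg_right, neg_eq_zero] at this
        exact this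
    apply hab
    have hval : ∀ x, ∀ hx : x ∈ K, x ≠ 1 → ψ x = (C : ℂ) := by
      intro x hx hx1
      have h := hC' ⟨x, hlt.le hx⟩ hx (fun e => hx1 (congrArg Subtype.val e))
      rw [finsum_mem_congr rfl (g := fun _ => (0 : ℂ))
        (fun χ hχ => by rw [h0 χ hχ, zero_mul]), finsum_mem_zero, zero_add] at h
      exact h
    rw [hval a ha ha1, hval b hb hb1]

end Cfsg.Agent.S0852
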