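import Cfsg.Statements.S0853
import Cfsg.Agent.H38.TIFNChar
-- import your own Cfsg.Agent.* helpers here

set_option autoImplicit false
open Cfsg

namespace Cfsg.Agent.S0853

/-- Let K be a subgroup of the finite group G that meets each conjugate by an element outside its normalizer N trivially, is properly contained in N, and contains the centralizer of each of its non-identity elements (a T.I. subgroup with Frobenius normalizer). Let S be the set of irreducible characters of N taking at some element of K a value different from their degree, suppose S has at least two members, and let star be a linear isometry on the integer span of S into the generalized characters of G that agrees with induction on the members vanishing at the identity (so S is coherent, with star as the extending isometry). Then there is a single integer m such that star χ k - χ k = m * χ 1 / e for every χ in S and every non-identity element k of K, where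 e is the index of K in N. -/
theorem result {G : Type*} [Group G] [Fintype G] (K : Subgroup G) (hTI : ∀ g : G, g ∉ Subgroup.normalizer (K : Set G) → ∀ k ∈ K, g * k * g⁻¹ ∈ K → k = 1) (hlt : K < Subgroup.normalizer (K : Set G)) (hC : ∀ k ∈ K, k ≠ 1 → Subgroup.centralizer ({k} : Set G) ≤ K) [Fintype ↥(Subgroup.normalizer (K : Set G))] (S : Set (↥(Subgroup.normalizer (K : Set G)) → ℂ)) (hS : S = {χ : ↥(Subgroup.normalizer (K : Set G)) → ℂ | Cfsg.IsIrrCharacter ↥(Subgroup.normalizer (K : Set G)) χ ∧ ∃ k : ↥(Subgroup.normalizer (K : Set G)), (k : G) ∈ K ∧ χ k ≠ χ 1}) (htwo : ∃ χ ∈ S, ∃ ξ ∈ S, χ ≠ ξ) (star : (↥(Subgroup.normalizer (K : Set G)) → ℂ) → (G → ℂ)) (hstar : Cfsg.IsLinearIsometryOn (Cfsg.zspan S) star) (hext : ∀ α ∈ Cfsg.zspanOn S ({1}ᶜ : Set ↥(Subgroup.normalizer (K : Set G))), star α = Cfsg.indFun (Subgroup.normalizer (K : Set G)) α) : ∃ m : ℤ, ∀ χ ∈ S, ∀ k : ↥(Subgroup.normalizer (K : Set G)), (k : G) ∈ K → k ≠ 1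 → star χ k - χ k = (m : ℂ) * χ 1 / ((K.subgroupOf (Subgroup.normalizer (K : Set G))).index : ℂ) := by
  classical
  haveI : (K.subgroupOf (Subgroup.normalizer (K : Set G))).Normal := Subgroup.normal_in_normalizer
  letI := Fintype.ofFinite (K.subgroupOf (Subgroup.normalizer (K : Set G)))
  have hfrob := H38.tifn_inducesIrr K hC
  have hSirr : ∀ χ ∈ S, Cfsg.IsIrrCharacter ↥(Subgroup.normalizer (K : Set G)) χ :=
    fun χ hχ => by rw [hS] at hχ; exact hχ.1
  have hSrel : ∀ χ ∈ S, H38.RelevantOn (K.subgroupOf (Subgroup.normalizer (K : Set G))) χ :=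
    fun χ hχ => by
      rw [hS] at hχ
      obtain ⟨-, k, hk, hne⟩ := hχ
      exact ⟨k, Subgroup.mem_subgroupOf.2 hk, hne⟩
  obtain ⟨χ₀, hχ₀, -⟩ := htwo
  obtain ⟨θ₀, hθ₀, hθ₀1, -⟩ := H38.relevant_eq_indFun hfrob (hSirr χ₀ hχ₀) (hSrel χ₀ hχ₀)
  obtain ⟨k₀, hk₀, hk₀ne⟩ := hSrel χ₀ hχ₀
  have hk₀1 : k₀ ≠ 1 := fun e => hk₀ne (by rw [e])
  -- a common ratio
  have hcross : ∀ χ ∈ S, ∀ k : ↥(Subgroup.normalizer (K : Set G)), (k : G) ∈ K → k ≠ 1 →
      χ₀ 1 * (star χ k - χ k) = χ 1 * (star χ₀ k - χ₀ k) := by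
    intro χ hχ k hk hk1
    have hcl : Cfsg.IsClassFunction ↥(Subgroup.normalizer (K : Set G))
        ((χ₀ 1) • χ - (χ 1) • χ₀) := fun g x => by
      have e1 : χ (x * g * x⁻¹) = χ g := H26.irr_conj ⟨χ, hSirr χ hχ⟩ g x
      have e2 : χ₀ (x * g * x⁻¹) = χ₀ g := H26.irr_conj ⟨χ₀, hSirr χ₀ hχ₀⟩ g x
      simp only [Pi.sub_apply, Pi.smul_apply, e1, e2]
    have h := (S0850.result K hTI hlt hC).2 _ hcl (fun x hx => by
      have hxM : x ∉ K.subgroupOf (Subgroup.normalizer (K : Set G)) :=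
        fun h => hx (Subgroup.mem_subgroupOf.1 h)
      simp [H38.relevant_vanish hfrob (hSirr χ hχ) (hSrel χ hχ) hxM,
        H38.relevant_vanish hfrob (hSirr χ₀ hχ₀) (hSrel χ₀ hχ₀) hxM]) (by simp [mul_comm]) k
    rw [H38.star_weighted K hSirr hstar hext hχ hχ₀] at h
    simp only [Pi.sub_apply, Pi.smul_apply, smul_eq_mul] at h
    linear_combination h
  obtain ⟨C₀, hC₀⟩ := H38.star_sub_const K hS hstar hext hχ₀
  have hd0 : χ₀ 1 ≠ 0 := H26.irr_one_ne_zero ⟨χ₀, hSirr χ₀ hχ₀⟩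
  have hdiff : ∀ χ ∈ S, ∀ k : ↥(Subgroup.normalizer (K : Set G)), (k : G) ∈ K → k ≠ 1 →
      star χ k - χ k = χ 1 * ((C₀ : ℂ) / χ₀ 1) := by
    intro χ hχ k hk hk1
    have h := hcross χ hχ k hk hk1
    rw [hC₀ k hk hk1, add_sub_cancel_left] at h
    field_simp
    linear_combination h
  -- each of these differences is an integer
  have hint : ∀ χ ∈ S, ∃ z : ℤ, χ 1 * ((C₀ : ℂ) / χ₀ 1) = z := by
    intro χ hχ
    obtain ⟨C, hC'⟩ := H38.star_sub_const K hS hstar hext hχ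
    have hCeq := hdiff χ hχ k₀ (Subgroup.mem_subgroupOf.1 hk₀) hk₀1
    rw [hC' k₀ (Subgroup.mem_subgroupOf.1 hk₀) hk₀1, add_sub_cancel_left] at hCeq
    have hI : IsIntegral ℤ (star χ k₀ - χ k₀) := by
      obtain ⟨c, hc⟩ := H57.gen_exists_coef (hstar.2.2.2 χ (H57.zspan_subset_of_mem hχ))
      refine IsIntegral.sub ?_ (H43.irr_isIntegral ⟨χ, hSirr χ hχ⟩ k₀)
      rw [hc, Finset.sum_apply]
      refine IsIntegral.sum _ fun φ _ => ?_
      rw [Pi.smul_apply]
      exact IsIntegral.smul (c φ) (H43.irr_isIntegral φ k₀)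
    rw [hC' k₀ (Subgroup.mem_subgroupOf.1 hk₀) hk₀1, add_sub_cancel_left] at hI
    have hI' : IsIntegral ℤ C := (isIntegral_algebraMap_iff (algebraMap ℚ ℂ).injective).1 hI
    obtain ⟨z, hz⟩ := IsIntegrallyClosed.isIntegral_iff.1 hI'
    refine ⟨z, ?_⟩
    rw [← hCeq, ← hz]
    simp
  -- the integer `m`
  let M := K.subgroupOf (Subgroup.normalizer (K : Set G))
  set r : ℂ := (M.index : ℂ) * ((C₀ : ℂ) / χ₀ 1) with hr
  have hθint : ∀ θ : Cfsg.IrrCharacter M, θ.1 ≠ (fun _ => 1) → ∃ z : ℤ, θ.1 1 * r = z := by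
    intro θ hθ1
    have hmem : Cfsg.indFun M θ.1 ∈ S := by
      obtain ⟨k, hk, hne⟩ := H38.relevant_indFun hfrob (H38.tifn_kernel_ne_top K hlt) θ.2 hθ1
      rw [hS]
      exact ⟨hfrob θ.1 θ.2 hθ1, k, Subgroup.mem_subgroupOf.1 hk, hne⟩
    obtain ⟨z, hz⟩ := hint _ hmem
    refine ⟨z, ?_⟩
    rw [← hz, H25.indFun_one, hr]
    ring
  obtain ⟨u, hu⟩ : ∃ u : ℤ, (Nat.card M : ℂ) * r = u := by
    obtain ⟨z, hz⟩ := hθint ⟨θ₀, hθ₀⟩ hθ₀1
    obtain ⟨d, hd, ⟨q, hq⟩, -, -⟩ := H43.irr_exists_degree (⟨θ₀, hθ₀⟩ : Cfsg.IrrCharacter M)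
    refine ⟨q * z, ?_⟩
    rw [hq]
    push_cast
    rw [← hz, hd]
    ring
  have hv : ∀ θ ∈ Finset.univ.erase (H26.oneIrr M), ∃ z : ℤ, θ.1 1 ^ 2 * r = z := by
    intro θ hθ
    obtain ⟨z, hz⟩ := hθint θ (fun e => (Finset.mem_erase.1 hθ).1 (Subtype.ext e))
    obtain ⟨d, -, hd⟩ := H57.irr_degree θ.2
    refine ⟨d * z, ?_⟩
    push_cast
    rw [← hz, hd]
    ring
  choose! w hw using hv
  refine ⟨u - ∑ θ ∈ Finset.univ.erase (H26.oneIrr M), w θ, fun χ hχ k hk hk1 => ?_⟩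
  have hm : ((u - ∑ θ ∈ Finset.univ.erase (H26.oneIrr M), w θ : ℤ) : ℂ) = r := by
    push_cast
    rw [← hu, ← H26.sum_sq_degrees (G := M), Finset.sum_mul,
      ← Finset.add_sum_erase _ _ (Finset.mem_univ (H26.oneIrr M)),
      Finset.sum_congr rfl (fun θ hθ => (hw θ hθ).symm), H26.oneIrr_val]
    ring
  rw [hdiff χ hχ k hk hk1, hm, hr]
  have hidx : (M.index : ℂ) ≠ 0 := Nat.cast_ne_zero.2 Subgroup.index_ne_zero_of_finite
  rw [eq_div_iff hidx]
  ring

end Cfsg.Agent.S0853
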