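import Cfsg.Statements.S0855
import Cfsg.Agent.S0169
import Cfsg.Agent.S4456
import Cfsg.Agent.H43.Constituents
import Cfsg.Agent.H26.CharLinear
-- import your own Cfsg.Agent.* helpers here

set_option autoImplicit false
open Cfsg

namespace Cfsg.Agent.S0855

/-- For a finite group G and a prime p: every irreducible character of G has degree a power of p if and only if G has an abelian normal subgroup whose order is prime to p and whose index is a power of p. -/
theorem result {G : Type*} [Group G] [Finite G] (p : ℕ) (hp : p.Prime) : (∀ χ : Cfsg.IrrCharacter G, ∃ k : ℕ, (χ : G → ℂ) 1 = (p : ℂ) ^ k) ↔ ∃ A : Subgroup G, A.Normal ∧ (∀ a ∈ A, ∀ b ∈ A, a * b = b * a) ∧ Nat.Coprime (Nat.card A) p ∧ ∃ k : ℕ, A.index = p ^ k := by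
  classical
  haveI := Fintype.ofFinite G
  constructor
  · intro hdeg
    have hdeg' : ∀ χ : Cfsg.IrrCharacter G, ∃ k : ℕ, Cfsg.charDegree χ.1 = p ^ k := fun χ => by
      obtain ⟨k, hk⟩ := hdeg χ
      rw [H43.irr_charDegree_spec, ← Nat.cast_pow, Nat.cast_inj] at hk
      exact ⟨k, hk⟩
    obtain ⟨K, hK, hcop, hidx⟩ := S4456.result p hp fun χ hne => by
      obtain ⟨k, hk⟩ := hdeg' χ
      cases k with
      | zero => exact absurd (hk.trans (pow_zero p)) hne
      | succ k => exact hk ▸ dvd_pow_self p (Nat.succ_ne_zero k)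
    haveI := hK
    haveI := Fintype.ofFinite K
    refine ⟨K, hK, ?_, hcop, hidx⟩
    have hlin : ∀ θ : Cfsg.IrrCharacter K, θ.1 1 = 1 := by
      intro θ
      obtain ⟨χ, hχ⟩ := H43.exists_above K θ
      obtain ⟨k, hk⟩ := hdeg' χ
      have h1 : Cfsg.charDegree θ.1 ∣ p ^ k :=
        hk ▸ (dvd_mul_left _ _).trans (H43.restrMult_mul_degree_dvd K χ hχ)
      have h2 := Nat.eq_one_of_dvd_coprimes ((hcop.symm).pow_left k) h1 (H43.irr_charDegree_dvd θ)
      rw [H43.irr_charDegree_spec, h2, Nat.cast_one]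
    intro a ha b hb
    exact congrArg Subtype.val (H26.comm_iff_forall_irr_one.mpr hlin ⟨a, ha⟩ ⟨b, hb⟩)
  · rintro ⟨A, hA, hab, -, k, hk⟩ χ
    haveI := hA
    obtain ⟨n, ρ, hρ, e⟩ := χ.2
    haveI := hρ
    have h := S0169.result ρ A hab
    rw [hk, Nat.dvd_prime_pow hp] at h
    obtain ⟨j, -, hj⟩ := h
    exact ⟨j, by rw [← e, Representation.char_one, hj, Nat.cast_pow]⟩

end Cfsg.Agent.S0855
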