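import Cfsg.Statements.S0858
import Cfsg.Agent.H38.RelativeM
-- import your own Cfsg.Agent.* helpers here

set_option autoImplicit false
open Cfsg

namespace Cfsg.Agent.S0858

/-- Let N be a normal subgroup of the finite group G with G / N solvable, and suppose that for every subgroup H containing N and all subgroups L < K between N and H that are normal in H with no subgroup normal in H strictly between them, the index of L in K is not a perfect square. Then every irreducible character χ of G is induced from an irreducible character ψ of some subgroup H containing N such that the restriction of ψ to N is irreducible. -/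
theorem result {G : Type*} [Group G] [Fintype G] (N : Subgroup G) [N.Normal] (hsolv : Group.IsSolvable (G ⧸ N)) (hchief : ∀ (H K L : Subgroup G), N ≤ L → L < K → K ≤ H → (∀ h ∈ H, ∀ k ∈ K, h * k * h⁻¹ ∈ K) → (∀ h ∈ H, ∀ l ∈ L, h * l * h⁻¹ ∈ L) → (∀ M : Subgroup G, L ≤ M → M ≤ K → (∀ h ∈ H, ∀ m ∈ M, h * m * h⁻¹ ∈ M) → M = L ∨ M = K) → ¬ IsSquare (L.relIndex K)) (χ : G → ℂ) (hχ : Cfsg.IsIrrCharacter G χ) : ∃ (H : Subgroup G) (hNH : N ≤ H) (ψ : H → ℂ), Cfsg.IsIrrCharacter H ψ ∧ Cfsg.indFun H ψ = χ ∧ Cfsg.IsIrrCharacter N (fun n : N => ψ ⟨(n : G), hNH n.2⟩) := by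
  classical
  suffices h : ∀ (H : Subgroup G), N ≤ H → ∀ (ξ : H → ℂ), Cfsg.IsIrrCharacter H ξ →
      ∃ (U : Subgroup G) (hNU : N ≤ U) (ψ : U → ℂ), Cfsg.IsIrrCharacter U ψ ∧
        Cfsg.indFun U ψ = Cfsg.indFun H ξ ∧ Cfsg.IsIrrCharacter N (fun n : N => ψ ⟨(n : G), hNU n.2⟩) by
    obtain ⟨U, hNU, ψ, h1, h2, h3⟩ := h ⊤ le_top (fun x => χ x)
      (H56.isIrrCharacter_comp_equiv hχ (Subgroup.topEquiv (G := G)))
    refine ⟨U, hNU, ψ, h1, h2.trans ?_, h3⟩
    funext g
    have := H25.indFun_apply_eq_self (⊤ : Subgroup G) (fun x => χ x)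
      (fun a b => H26.isClassFunction_of_isCharacter (H26.isCharacter_of_irr hχ) (a : G) (b : G))
      ⟨g, Subgroup.mem_top g⟩ (fun x hx => absurd (Subgroup.mem_top x) hx)
    exact this
  intro H
  induction H using WellFoundedLT.induction with
  | _ H ih =>
  intro hNH ξ hξ
  haveI := Fintype.ofFinite H
  by_cases hirr : Cfsg.IsIrrCharacter N (fun n : N => ξ ⟨(n : G), hNH n.2⟩)
  · exact ⟨H, hNH, ξ, hξ, rfl, hirr⟩
  have hsolv' : Group.IsSolvable (H ⧸ N.subgroupOf H) := by
    haveI := hsolv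
    exact solvable_of_solvable_injective (f := QuotientGroup.map (N.subgroupOf H) N H.subtype le_rfl)
      ((injective_iff_map_eq_one _).2 fun q hq => by
        obtain ⟨x, rfl⟩ := QuotientGroup.mk'_surjective _ q
        exact (QuotientGroup.eq_one_iff x).2 ((QuotientGroup.eq_one_iff (x : G)).1 hq))
  have hchief' : ∀ (K L : Subgroup H), K.Normal → L.Normal → N.subgroupOf H ≤ L → L < K →
      (∀ M : Subgroup H, M.Normal → L ≤ M → M ≤ K → M = L ∨ M = K) → ¬ IsSquare (L.relIndex K) := by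
    intro K L hK hL hNL hLK hch
    rw [← Subgroup.relIndex_map_map_of_injective L K H.subtype_injective]
    refine hchief H _ _ (fun n hn => ⟨⟨n, hNH hn⟩, hNL (Subgroup.mem_subgroupOf.2 hn), rfl⟩)
      ((Subgroup.map_lt_map_iff_of_injective H.subtype_injective).2 hLK) (Subgroup.map_subtype_le K)
      ?_ ?_ ?_
    · rintro h hh _ ⟨k, hk, rfl⟩
      exact ⟨⟨h, hh⟩ * k * ⟨h, hh⟩⁻¹, hK.conj_mem k hk _, rfl⟩
    · rintro h hh _ ⟨k, hk, rfl⟩
      exact ⟨⟨h, hh⟩ * k * ⟨h, hh⟩⁻¹, hL.conj_mem k hk _, rfl⟩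
    · intro M h1 h2 hMn
      have hMH : M ≤ H := h2.trans (Subgroup.map_subtype_le K)
      have hMn' : (M.subgroupOf H).Normal := ⟨fun m hm h =>
        Subgroup.mem_subgroupOf.2 (hMn h h.2 m (Subgroup.mem_subgroupOf.1 hm))⟩
      have e : (M.subgroupOf H).map H.subtype = M := by
        rw [Subgroup.subgroupOf_map_subtype]; exact inf_of_le_left hMH
      rcases hch (M.subgroupOf H) hMn'
        ((Subgroup.map_le_map_iff_of_injective H.subtype_injective).1 (by rw [e]; exact h1))
        ((Subgroup.map_le_map_iff_of_injective H.subtype_injective).1 (by rw [e]; exact h2)) with h | h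
      · exact Or.inl (by rw [← e, h])
      · exact Or.inr (by rw [← e, h])
  have hirr' : ¬ Cfsg.IsIrrCharacter (N.subgroupOf H) (fun n : N.subgroupOf H => ξ n) := fun h =>
    hirr (H56.isIrrCharacter_comp_equiv h (Subgroup.subgroupOfEquivOfLe hNH).symm)
  obtain ⟨T, hT, hNT, η, hη, hind⟩ := H38.relative_m_step (N.subgroupOf H) hsolv' hchief' hξ hirr'
  let U : Subgroup G := T.map H.subtype
  let e := T.equivMapOfInjective H.subtype H.subtype_injective
  have hNU : N ≤ U := fun n hn => ⟨⟨n, hNH hn⟩, hNT (Subgroup.mem_subgroupOf.2 hn), rfl⟩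
  have hUH : U < H := lt_of_le_of_ne (Subgroup.map_subtype_le T) fun h => hT (by
    apply Subgroup.map_injective H.subtype_injective
    rw [← MonoidHom.range_eq_map, Subgroup.range_subtype]
    exact h)
  obtain ⟨V, hNV, ψ, h1, h2, h3⟩ := ih U hUH hNU (fun u => η (e.symm u))
    (H56.isIrrCharacter_comp_equiv hη e.symm)
  refine ⟨V, hNV, ψ, h1, h2.trans ?_, h3⟩
  rw [← H25.indFun_trans U H hUH.le (fun u => η (e.symm u)), ← hind]
  congr 1
  refine H38.indFun_congr (Subgroup.comap_map_eq_self_of_injective H.subtype_injective T) _ _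
    fun x hx hxT => congrArg η ?_
  apply e.injective
  rw [e.apply_symm_apply]
  exact Subtype.ext rfl

end Cfsg.Agent.S0858
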