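import Cfsg.Statements.S0859
import Cfsg.Agent.H38.MGroup
-- import your own Cfsg.Agent.* helpers here

set_option autoImplicit false
open Cfsg

namespace Cfsg.Agent.S0859

/-- Let G be a finite solvable group and N a normal subgroup such that for every prime p every Sylow p-subgroup of N is abelian. Suppose every irreducible character of G is induced from an irreducible character of some subgroup containing N whose restriction to N is irreducible. Then every irreducible character of G is induced from a character of degree 1 of some subgroup. -/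
theorem result {G : Type*} [Group G] [Fintype G] [Group.IsSolvable G] (N : Subgroup G) [N.Normal] (hab : ∀ (p : ℕ) [Fact p.Prime] (P : Sylow p N), ∀ a ∈ P, ∀ b ∈ P, a * b = b * a) (hrel : ∀ χ : G → ℂ, Cfsg.IsIrrCharacter G χ → ∃ (H : Subgroup G) (hNH : N ≤ H) (ψ : H → ℂ), Cfsg.IsIrrCharacter H ψ ∧ Cfsg.indFun H ψ = χ ∧ Cfsg.IsIrrCharacter N (fun n : N => ψ ⟨(n : G), hNH n.2⟩)) (χ : G → ℂ) (hχ : Cfsg.IsIrrCharacter G χ) : ∃ (U : Subgroup G) (lam : U → ℂ), Cfsg.IsCharacter U lam ∧ lam 1 = 1 ∧ Cfsg.indFun U lam = χ := by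
  classical
  obtain ⟨H, hNH, ψ, hψ, hind, hψN⟩ := hrel χ hχ
  haveI := Fintype.ofFinite H
  have hab' : ∀ (p : ℕ) [Fact p.Prime] (P : Subgroup G), P ≤ N → IsPGroup p P →
      ∀ a ∈ P, ∀ b ∈ P, a * b = b * a := by
    intro p _ P hPN hP a ha b hb
    have hP' : IsPGroup p (P.subgroupOf N) :=
      hP.of_equiv (Subgroup.subgroupOfEquivOfLe hPN).symm
    obtain ⟨S, hS⟩ := hP'.exists_le_sylow
    exact congrArg Subtype.val (hab p S ⟨a, hPN ha⟩ (hS (Subgroup.mem_subgroupOf.2 ha))
      ⟨b, hPN hb⟩ (hS (Subgroup.mem_subgroupOf.2 hb)))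
  haveI : (N.subgroupOf H).Normal := Subgroup.normal_subgroupOf
  obtain ⟨U, lam, hlam, hlam1, hlamind⟩ := H38.monomial_of_restrict_irr (N.subgroupOf H)
    (fun p _ P hP hPp a ha b hb => Subtype.ext (hab' p (P.map H.subtype)
      (fun x ⟨y, hy, e⟩ => e ▸ Subgroup.mem_subgroupOf.1 (hP hy)) (hPp.map _)
      a ⟨a, ha, rfl⟩ b ⟨b, hb, rfl⟩)) hψ
    (H56.isIrrCharacter_comp_equiv hψN (Subgroup.subgroupOfEquivOfLe hNH))
  let e := U.equivMapOfInjective H.subtype H.subtype_injective
  refine ⟨U.map H.subtype, fun x => lam (e.symm x),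
    H26.isCharacter_comp hlam e.symm.toMonoidHom, by show lam (e.symm 1) = 1; rw [map_one]; exact hlam1, ?_⟩
  rw [← H25.indFun_trans (U.map H.subtype) H (Subgroup.map_subtype_le U), ← hind, ← hlamind]
  congr 1
  refine H38.indFun_congr (Subgroup.comap_map_eq_self_of_injective H.subtype_injective U) _ _
    fun x hx hxT => congrArg lam ?_
  apply e.injective
  rw [e.apply_symm_apply]
  exact Subtype.ext rfl

end Cfsg.Agent.S0859
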