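import Cfsg.Statements.S0860
import Cfsg.Agent.H26.CharOrtho
-- import your own Cfsg.Agent.* helpers here

set_option autoImplicit false
open Cfsg

open scoped ComplexConjugate

namespace Cfsg.Agent.S0860

/-- Let a group A act on the set of irreducible characters and on the set of conjugacy classes of a finite group G in such a way that (a • χ) evaluated on the class a • C equals χ evaluated on C, for all a, χ and C. Then every element of A fixes exactly as many irreducible characters as it fixes conjugacy classes. -/
theorem result {G : Type*} [Group G] [Finite G] {A : Type*} [Group A] [MulAction A (Cfsg.IrrCharacter G)] [MulAction A (ConjClasses G)] (hcompat : ∀ (a : A) (χ : Cfsg.IrrCharacter G) (g g' : G), ConjClasses.mk g' = a • ConjClasses.mk g → ((a • χ : Cfsg.IrrCharacter G) : G → ℂ) g' = (χ : G → ℂ) g) (a : A) : Nat.card {χ : Cfsg.IrrCharacter G // a • χ = χ} = Nat.card {C : ConjClasses G // a • C = C} := by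
  classical
  have := Fintype.ofFinite G
  let f : G → G := fun g => (a⁻¹ • ConjClasses.mk g).exists_rep.choose
  have hf : ∀ g, ConjClasses.mk (f g) = a⁻¹ • ConjClasses.mk g := fun g =>
    (a⁻¹ • ConjClasses.mk g).exists_rep.choose_spec
  have hcomp : ∀ χ : Cfsg.IrrCharacter G, ∀ g, ((a • χ : Cfsg.IrrCharacter G) : G → ℂ) g = χ.1 (f g) :=
    fun χ g => hcompat a χ (f g) g (by rw [hf, smul_inv_smul])
  let T : ℂ := ∑ χ : Cfsg.IrrCharacter G, ∑ g : G, χ.1 g * conj (χ.1 (f g))
  have h1 : T = (Nat.card G : ℂ) * (Nat.card {χ : Cfsg.IrrCharacter G // a • χ = χ} : ℂ) := by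
    rw [Nat.card_eq_fintype_card (α := {χ : Cfsg.IrrCharacter G // _}), Fintype.card_subtype,
      Finset.card_filter, Nat.cast_sum, Finset.mul_sum]
    refine Finset.sum_congr rfl fun χ _ => ?_
    have hi : ∑ g : G, χ.1 g * conj (χ.1 (f g)) =
        (Nat.card G : ℂ) * Cfsg.classInner χ.1 (a • χ : Cfsg.IrrCharacter G).1 := by
      rw [Cfsg.classInner, mul_inv_cancel_left₀ (by exact_mod_cast Nat.card_pos.ne')]
      exact Finset.sum_congr rfl fun g _ => by rw [hcomp]
    rw [hi, H26.classInner_irr]
    split_ifs with h2 h3 h3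
    · simp
    · exact absurd h2.symm h3
    · exact absurd h3.symm h2
    · simp
  have h2 : T = (Nat.card G : ℂ) * (Nat.card {C : ConjClasses G // a • C = C} : ℂ) := by
    simp only [T]
    rw [Finset.sum_comm]
    simp only [H26.column_orthogonality]
    rw [← Finset.sum_fiberwise Finset.univ ConjClasses.mk,
      Nat.card_eq_fintype_card (α := {C : ConjClasses G // _}), Fintype.card_subtype,
      Finset.card_filter, Nat.cast_sum, Finset.mul_sum]
    refine Finset.sum_congr rfl fun C _ => ?_
    obtain ⟨c, rfl⟩ := C.exists_rep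
    have hc : ∀ g, ConjClasses.mk g = ConjClasses.mk c →
        (Nat.card (Subgroup.centralizer ({f g} : Set G)) : ℂ) * H26.classIndicator (f g) g =
          if a • ConjClasses.mk c = ConjClasses.mk c
            then (Nat.card (Subgroup.centralizer ({c} : Set G)) : ℂ) else 0 := by
      intro g hg
      have hiff : IsConj g (f g) ↔ a • ConjClasses.mk c = ConjClasses.mk c := by
        rw [← ConjClasses.mk_eq_mk_iff_isConj, hf, ← hg, eq_inv_smul_iff]
      unfold H26.classIndicator
      by_cases h : IsConj g (f g)
      · rw [if_pos h, if_pos (hiff.1 h), mul_one, H26.card_centralizer_eq_of_isConj h.symm,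
          H26.card_centralizer_eq_of_isConj (ConjClasses.mk_eq_mk_iff_isConj.1 hg)]
      · rw [if_neg h, if_neg fun e => h (hiff.2 e), mul_zero]
    rw [Finset.sum_congr rfl fun g hg => hc g (Finset.mem_filter.1 hg).2, Finset.sum_const,
      nsmul_eq_mul]
    split_ifs
    · rw [Nat.cast_one, mul_one, ← H26.card_class_mul_card_centralizer c, Nat.cast_mul]
    · simp
  exact_mod_cast (mul_left_cancel₀ (by exact_mod_cast Nat.card_pos.ne') (h1.symm.trans h2))

end Cfsg.Agent.S0860
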