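import Cfsg.Statements.S0864
import Cfsg.Agent.H38.Linear
-- import your own Cfsg.Agent.* helpers here

set_option autoImplicit false
open Cfsg

namespace Cfsg.Agent.S0864

/-- Let N be a normal subgroup of the finite group G and λ a character of N of degree 1 invariant under conjugation by G. Suppose that for every prime p dividing the order of λ (in the group of functions under pointwise multiplication) there is a subgroup H containing N, of index prime to p and with the index of N in H a power of p, together with a character of H of degree 1 restricting to λ. Then λ is the restriction of a character of G of degree 1. -/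
theorem result {G : Type*} [Group G] [Finite G] (N : Subgroup G) [hN : N.Normal] (lam : N → ℂ) (hlam : Cfsg.IsCharacter N lam ∧ lam 1 = 1) (hinv : ∀ (g : G) (n : N), lam ⟨g * n * g⁻¹, hN.conj_mem (n : G) n.2 g⟩ = lam n) (hsyl : ∀ p : ℕ, p.Prime → p ∣ orderOf lam → ∃ (H : Subgroup G) (hNH : N ≤ H) (ν : H → ℂ), Nat.Coprime H.index p ∧ (∃ k : ℕ, N.relIndex H = p ^ k) ∧ Cfsg.IsCharacter H ν ∧ ν 1 = 1 ∧ ∀ n : N, ν ⟨(n : G), hNH n.2⟩ = lam n) : ∃ μ : G → ℂ, Cfsg.IsCharacter G μ ∧ μ 1 = 1 ∧ ∀ n : N, μ n = lam n := by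
  classical
  obtain ⟨f, hf⟩ := H38.exists_hom_of_linear hlam.1 hlam.2
  subst hf
  have hinv' : ∀ (g : G) (n : N), f ⟨g * n * g⁻¹, hN.conj_mem (n : G) n.2 g⟩ = f n :=
    fun g n => Units.ext (hinv g n)
  have hd : (∃ μ : G →* ℂˣ, ∀ n : N, μ n = f n ^ orderOf f) :=
    ⟨1, fun n => by rw [← MonoidHom.pow_apply, pow_orderOf_eq_one]; rfl⟩
  have hex : ∃ j : ℕ, 0 < j ∧ ∃ μ : G →* ℂˣ, ∀ n : N, μ n = f n ^ j :=
    ⟨orderOf f, (H38.isOfFinOrder_hom f).orderOf_pos, hd⟩
  obtain ⟨hjpos, hj⟩ := Nat.find_spec hex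
  have hdvd : ∀ a : ℕ, (∃ μ : G →* ℂˣ, ∀ n : N, μ n = f n ^ a) → Nat.find hex ∣ a := by
    intro a ha
    have h := Nat.find_min' hex ⟨Nat.gcd_pos_of_pos_left a hjpos,
      H38.exists_extension_of_pows N f hj ha⟩
    have : Nat.gcd (Nat.find hex) a = Nat.find hex :=
      le_antisymm (Nat.le_of_dvd hjpos (Nat.gcd_dvd_left _ _)) h
    exact this ▸ Nat.gcd_dvd_right _ _
  have hone : Nat.find hex = 1 := by
    by_contra hne
    obtain ⟨p, hp, hpj⟩ := Nat.exists_prime_and_dvd hne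
    obtain ⟨H, hNH, ν, hco, -, hν, hν1, hres⟩ :=
      hsyl p hp (by rw [H38.orderOf_hom_fun]; exact hpj.trans (hdvd _ hd))
    obtain ⟨g, hg⟩ := H38.exists_hom_of_linear hν hν1
    subst hg
    obtain ⟨μ, hμ⟩ := H38.exists_extension_pow_index N H hNH g f (fun n => Units.ext (hres n)) hinv'
    exact hp.not_dvd_one
      (hco.symm.gcd_eq_one ▸ Nat.dvd_gcd dvd_rfl (hpj.trans (hdvd _ ⟨μ, hμ⟩)))
  rw [hone] at hj
  obtain ⟨μ, hμ⟩ := hj
  exact ⟨fun g => (μ g : ℂ), (H38.linear_of_hom μ).1, (H38.linear_of_hom μ).2,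
    fun n => by simp [hμ n]⟩

end Cfsg.Agent.S0864
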