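import Cfsg.Statements.S0865
import Cfsg.Agent.H38.Linear
-- import your own Cfsg.Agent.* helpers here

set_option autoImplicit false
open Cfsg

namespace Cfsg.Agent.S0865

/-- Let N be a normal subgroup of the finite group G and λ a character of N of degree 1, invariant under conjugation by G, whose order (under pointwise multiplication) is coprime to the index of N. Then there is a character μ of G of degree 1 restricting to λ with the same order as λ, and μ is the only degree-1 character of G restricting to λ whose order is coprime to the index of N. -/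
theorem result {G : Type*} [Group G] [Finite G] (N : Subgroup G) [hN : N.Normal] (lam : N → ℂ) (hlam : Cfsg.IsCharacter N lam ∧ lam 1 = 1) (hinv : ∀ (g : G) (n : N), lam ⟨g * n * g⁻¹, hN.conj_mem (n : G) n.2 g⟩ = lam n) (hcop : Nat.Coprime N.index (orderOf lam)) : ∃ μ : G → ℂ, (Cfsg.IsCharacter G μ ∧ μ 1 = 1 ∧ (∀ n : N, μ n = lam n) ∧ orderOf μ = orderOf lam) ∧ ∀ μ' : G → ℂ, Cfsg.IsCharacter G μ' ∧ μ' 1 = 1 → (∀ n : N, μ' n = lam n) → Nat.Coprime N.index (orderOf μ') → μ' = μ := by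
  obtain ⟨f, hf⟩ := H38.exists_hom_of_linear hlam.1 hlam.2
  subst hf
  have hinv' : ∀ (g : G) (n : N), f ⟨g * n * g⁻¹, hN.conj_mem (n : G) n.2 g⟩ = f n :=
    fun g n => Units.ext (hinv g n)
  rw [H38.orderOf_hom_fun] at hcop
  obtain ⟨μ, hμ⟩ := H38.exists_extension_pow_index N N le_rfl f.rangeRestrict f.rangeRestrict
    (fun n => rfl) (fun g n => Subtype.ext (hinv' g n))
  set m := N.index
  set o := orderOf f
  have hfn : ∀ n : N, f n ^ o = 1 := fun n => by
    rw [← MonoidHom.pow_apply, pow_orderOf_eq_one]; rfl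
  set b : ℤ := Nat.gcdA m o
  have hb : (m : ℤ) * b + (o : ℤ) * Nat.gcdB m o = 1 := by
    rw [← Nat.gcd_eq_gcd_ab, hcop.gcd_eq_one]; rfl
  set ν : G →* ℂˣ := (f.range.subtype.comp μ) ^ b with hνdef
  have hνo : ν ^ o = 1 := by
    refine MonoidHom.ext fun g => ?_
    obtain ⟨n, hn⟩ := (μ g).2
    rw [MonoidHom.pow_apply, hνdef, MonoidHom.zpow_apply, MonoidHom.comp_apply,
      Subgroup.coe_subtype, ← hn, ← zpow_natCast, ← zpow_mul, mul_comm, zpow_mul, zpow_natCast,
      hfn, one_zpow, MonoidHom.one_apply]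
  have hres : ∀ n : N, ν n = f n := by
    intro n
    calc ν n = f n ^ ((m : ℤ) * b) := by
          rw [hνdef, MonoidHom.zpow_apply, MonoidHom.comp_apply, hμ, zpow_mul, zpow_natCast]
          rfl
      _ = f n ^ ((m : ℤ) * b + (o : ℤ) * Nat.gcdB m o) := by
          rw [zpow_add, zpow_mul (f n) (o : ℤ), zpow_natCast (f n) o, hfn, one_zpow, mul_one]
      _ = f n := by rw [hb, zpow_one]
  have hord : orderOf ν = o := by
    refine Nat.dvd_antisymm (orderOf_dvd_of_pow_eq_one hνo) (orderOf_dvd_of_pow_eq_one ?_)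
    refine MonoidHom.ext fun n => ?_
    rw [MonoidHom.pow_apply, ← hres, ← MonoidHom.pow_apply, pow_orderOf_eq_one]; rfl
  refine ⟨fun g => (ν g : ℂ), ⟨(H38.linear_of_hom ν).1, (H38.linear_of_hom ν).2,
    fun n => by simp [hres n], by rw [H38.orderOf_hom_fun, H38.orderOf_hom_fun, hord]⟩, ?_⟩
  rintro μ' ⟨h1, h2⟩ hN' hco'
  obtain ⟨ν', hν'⟩ := H38.exists_hom_of_linear h1 h2
  subst hν'
  rw [H38.orderOf_hom_fun] at hco'
  suffices h : ν' = ν by rw [h]
  refine MonoidHom.ext fun g => ?_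
  have hq : (ν' g / ν g) ^ m = 1 := by
    have hg : g ^ m ∈ N := N.pow_index_mem g
    rw [div_pow, div_eq_one, ← map_pow, ← map_pow]
    exact Units.ext ((hN' ⟨_, hg⟩).trans (congrArg Units.val (hres ⟨_, hg⟩)).symm)
  have hq' : (ν' g / ν g) ^ (orderOf ν' * o) = 1 := by
    rw [div_pow, div_eq_one, pow_mul, mul_comm, pow_mul, ← MonoidHom.pow_apply ν',
      ← MonoidHom.pow_apply ν, pow_orderOf_eq_one, hνo, MonoidHom.one_apply, one_pow, one_pow]
  have h3 := pow_gcd_eq_one.mpr ⟨hq, hq'⟩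
  rwa [(hco'.mul_right hcop).gcd_eq_one, pow_one, div_eq_one] at h3

end Cfsg.Agent.S0865
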