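import Cfsg.Statements.S0869
import Cfsg.Agent.H39.Solomon
-- import your own Cfsg.Agent.* helpers here

set_option autoImplicit false
open Cfsg

namespace Cfsg.Agent.S0869

/-- Let S be a nonempty finite type and R an additive subgroup of the integer-valued functions on S that is closed under pointwise multiplication. If the constant function 1 is not in R, then there exist a point x of S and a prime p such that p divides f x for every f in R. -/
theorem result {S : Type*} [Finite S] [Nonempty S] (R : AddSubgroup (S → ℤ)) (hmul : ∀ f ∈ R, ∀ g ∈ R, f * g ∈ R) (h1 : (1 : S → ℤ) ∉ R) : ∃ (x : S) (p : ℕ), p.Prime ∧ ∀ f ∈ R, (p : ℤ) ∣ f x := by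
  classical
  by_contra hcon
  push Not at hcon
  have hone : ∀ x : S, ∃ f ∈ R, f x = 1 := by
    intro x
    let ev : (S → ℤ) →+ ℤ := Pi.evalAddMonoidHom (fun _ => ℤ) x
    obtain ⟨d, hd⟩ := Int.subgroup_cyclic (R.map ev)
    rw [← AddSubgroup.zmultiples_eq_closure] at hd
    by_cases hu : IsUnit d
    · have h1 : (1 : ℤ) ∈ R.map ev := by
        rw [hd, Int.mem_zmultiples_iff]; exact hu.dvd
      exact h1
    · obtain ⟨q, hq, hqd⟩ := Nat.exists_prime_and_dvd
        (fun h => hu (Int.isUnit_iff_natAbs_eq.2 h) : d.natAbs ≠ 1)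
      obtain ⟨f, hf, hfq⟩ := hcon x q hq
      have h2 : f x ∈ R.map ev := ⟨f, hf, rfl⟩
      rw [hd, Int.mem_zmultiples_iff] at h2
      exact absurd ((Int.natCast_dvd.2 hqd).trans h2) hfq
  choose f hf hfx using hone
  haveI := Fintype.ofFinite S
  have key : ∀ s : Finset S, ∃ r ∈ R, ∀ x ∈ s, r x = 1 := by
    intro s
    induction s using Finset.induction with
    | empty => exact ⟨0, R.zero_mem, fun x hx => absurd hx (Finset.notMem_empty x)⟩
    | @insert a s _ ih =>
      obtain ⟨r, hr, hrs⟩ := ih
      refine ⟨r + f a - r * f a, R.sub_mem (R.add_mem hr (hf a)) (hmul r hr _ (hf a)), ?_⟩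
      intro x hx
      simp only [Pi.sub_apply, Pi.add_apply, Pi.mul_apply]
      rcases Finset.mem_insert.1 hx with rfl | hx
      · rw [hfx]; ring
      · rw [hrs x hx]; ring
  obtain ⟨r, hr, hrs⟩ := key Finset.univ
  exact h1 ((funext fun x => hrs x (Finset.mem_univ x) : r = 1) ▸ hr)

end Cfsg.Agent.S0869
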