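import Cfsg.Statements.S0872
import Cfsg.Agent.H39.Solomon
-- import your own Cfsg.Agent.* helpers here

set_option autoImplicit false
open Cfsg

namespace Cfsg.Agent.S0872

/-- For a finite group G and a prime p there are an integer m not divisible by p and a ℤ-linear combination of functions induced from the constant function 1 on subgroups H, each having a cyclic normal subgroup of order prime to p and p-power index in H, that equals the constant function m. -/
theorem result {G : Type*} [Group G] [Fintype G] (p : ℕ) (hp : p.Prime) : ∃ (m : ℤ) (a : Subgroup G → ℤ), ¬ (p : ℤ) ∣ m ∧ (∀ H, a H ≠ 0 → (∃ C : Subgroup G, C ≤ H ∧ H ≤ Subgroup.normalizer (C : Set G) ∧ IsCyclic C ∧ Nat.Coprime (Nat.card C) p ∧ ∃ k : ℕ, C.relIndex H = p ^ k)) ∧ (fun _ : G => (m : ℂ)) = ∑ H : Subgroup G, (a H : ℂ) • Cfsg.indFun H (fun _ => 1) := by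
  exact Cfsg.Agent.H39.solomon_local hp

end Cfsg.Agent.S0872
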