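import Cfsg.Statements.S0876
import Cfsg.Agent.H39.PiSection
import Cfsg.Agent.H40.CharCongr
import Cfsg.Agent.H40.Residue
-- import your own Cfsg.Agent.* helpers here

set_option autoImplicit false
open Cfsg

namespace Cfsg.Agent.S0876

/-- Let G be a finite group, p a prime and M a maximal ideal of the ring of algebraic integers containing p. Let x, y be elements with p-parts a and b (so a⁻¹ * x and b⁻¹ * y are their p-regular parts). Then a⁻¹ * x and b⁻¹ * y are conjugate in G if and only if, for every irreducible character χ, the difference χ x - χ y lies in the local ideal at M. -/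
theorem result {G : Type*} [Group G] [Finite G] (p : ℕ) (M : Ideal Cfsg.AlgInt) (hM : Cfsg.IsPModular p M) (x y a b : G) (ha : Cfsg.IsPPart p x a) (hb : Cfsg.IsPPart p y b) : IsConj (a⁻¹ * x) (b⁻¹ * y) ↔ ∀ χ : Cfsg.IrrCharacter G, Cfsg.MemLocalIdeal M ((χ : G → ℂ) x - (χ : G → ℂ) y) := by
  classical
  haveI : Fact p.Prime := ⟨hM.1⟩
  haveI := hM.2.1
  haveI := hM.2.1.isPrime
  haveI := Fintype.ofFinite G
  obtain ⟨s, hx, hcs, ⟨i, hai⟩, hs⟩ := ha
  obtain ⟨t, hy, hct, ⟨j, hbj⟩, ht⟩ := hb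
  have es : a⁻¹ * x = s := by rw [← hx, inv_mul_cancel_left]
  have et : b⁻¹ * y = t := by rw [← hy, inv_mul_cancel_left]
  rw [es, et, ← hx, ← hy]
  have hxs : ∀ χ : Cfsg.IrrCharacter G, Cfsg.MemLocalIdeal M (χ.1 (a * s) - χ.1 s) := fun χ =>
    H40.memLocalIdeal_char_mul_sub hM (H26.irr_isCharacter χ) hcs hai
  have hyt : ∀ χ : Cfsg.IrrCharacter G, Cfsg.MemLocalIdeal M (χ.1 (b * t) - χ.1 t) := fun χ =>
    H40.memLocalIdeal_char_mul_sub hM (H26.irr_isCharacter χ) hct hbj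
  have hval : ∀ (χ : Cfsg.IrrCharacter G) (g : G), χ.1 g ∈ H41.localRing M := fun χ g =>
    H41.isIntegral_mem_localRing (H39.isIntegral_irr χ g)
  have key : ∀ χ : Cfsg.IrrCharacter G,
      Cfsg.MemLocalIdeal M (χ.1 (a * s) - χ.1 (b * t)) ↔
        Cfsg.MemLocalIdeal M (χ.1 s - χ.1 t) := by
    intro χ
    have e1 := (H41.memLocalIdeal_sub_iff ⟨_, hval χ _⟩ ⟨_, hval χ _⟩).1 (hxs χ)
    have e2 := (H41.memLocalIdeal_sub_iff ⟨_, hval χ _⟩ ⟨_, hval χ _⟩).1 (hyt χ)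
    rw [H41.memLocalIdeal_sub_iff ⟨_, hval χ _⟩ ⟨_, hval χ _⟩,
      H41.memLocalIdeal_sub_iff ⟨_, hval χ s⟩ ⟨_, hval χ t⟩, e1, e2]
  constructor
  · intro hc χ
    rw [key χ, H26.irr_eq_of_isConj χ hc, sub_self]
    exact (H41.memLocalIdeal_algInt_iff (M := M) 0).2 (zero_mem M)
  · intro h
    by_contra hc
    obtain ⟨v, n, hn, hGn⟩ := Nat.exists_eq_pow_mul_and_not_dvd
      (Nat.card_pos (α := G)).ne' p hM.1.ne_one
    have hcop : Nat.Coprime (p ^ v) n := (hM.1.coprime_iff_not_dvd.2 hn).pow_left v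
    obtain ⟨k, hk0, hk1⟩ := H39.exists_partExp hcop
    have hreg : ∀ {w : G}, ¬ p ∣ orderOf w → w ^ k = w := fun {w} hw =>
      H39.pow_partExp_of_dvd hk1 (((hM.1.coprime_iff_not_dvd.2 hw).symm.pow_right v).dvd_of_dvd_mul_left
        (hGn ▸ orderOf_dvd_natCard w))
    obtain ⟨c, hc', he⟩ := H39.exists_coeffs_finsum (H39.section_mem_coeffSpan hGn hcop hk0 hk1 s)
    rw [finsum_eq_sum_of_fintype] at he
    have e1 := congrFun he s
    have e2 := congrFun he t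
    simp only [Finset.sum_apply, Pi.smul_apply, smul_eq_mul, hreg hs, hreg ht] at e1 e2
    rw [if_pos (IsConj.refl s)] at e1
    rw [if_neg (fun h' => hc h'.symm)] at e2
    apply hn
    apply H40.dvd_of_memLocalIdeal_natCast hM
    have e3 : (n : ℂ) = ∑ χ : Cfsg.IrrCharacter G, c χ * (χ.1 s - χ.1 t) := by
      simp only [mul_sub, Finset.sum_sub_distrib, ← e1, ← e2, sub_zero]
    have hmem : ∀ χ : Cfsg.IrrCharacter G, c χ * (χ.1 s - χ.1 t) ∈ H41.localRing M := fun χ =>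
      mul_mem (H41.isIntegral_mem_localRing (hc' χ)) (sub_mem (hval χ s) (hval χ t))
    rw [e3, show (∑ χ : Cfsg.IrrCharacter G, c χ * (χ.1 s - χ.1 t)) =
        ((∑ χ : Cfsg.IrrCharacter G, (⟨_, hmem χ⟩ : H41.localRing M) : H41.localRing M) : ℂ) by
      push_cast; rfl, H41.memLocalIdeal_coe_iff, map_sum]
    refine Finset.sum_eq_zero fun χ _ => ?_
    have h1 := (H41.memLocalIdeal_sub_iff ⟨_, hval χ s⟩ ⟨_, hval χ t⟩).1 ((key χ).1 (h χ))
    rw [show (⟨_, hmem χ⟩ : H41.localRing M) =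
        (⟨c χ, H41.isIntegral_mem_localRing (hc' χ)⟩ : H41.localRing M) *
          (⟨χ.1 s, hval χ s⟩ - ⟨χ.1 t, hval χ t⟩) from rfl, map_mul, map_sub, h1, sub_self,
      mul_zero]

end Cfsg.Agent.S0876
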