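import Cfsg.Statements.S0878
import Cfsg.Agent.H39.ZassSetup
-- import your own Cfsg.Agent.* helpers here

set_option autoImplicit false
open Cfsg

namespace Cfsg.Agent.S0878

/-- Let G be a Zassenhaus group on the finite set Ω, a a point, and let H be the subgroup of the stabilizer of a consisting of the identity and the elements fixing no point other than a (given here as a subgroup of the stabilizer of order one less than the number of points whose non-identity elements fix only a; it is the Frobenius kernel of the stabilizer). Then an element outside the stabilizer of a conjugates no non-identity element of H into H, and the normalizer of H is exactly the stabilizer of a. -/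
theorem result {G Ω : Type*} [Group G] [Finite G] [MulAction G Ω] [Fintype Ω] (hZ : Cfsg.IsZassenhausGroup G Ω) (a : Ω) (H : Subgroup G) (hHa : H ≤ MulAction.stabilizer G a) (hHcard : Nat.card H + 1 = Fintype.card Ω) (hHfix : ∀ u ∈ H, u ≠ 1 → ∀ c : Ω, u • c = c → c = a) : (∀ g : G, g ∉ MulAction.stabilizer G a → ∀ u ∈ H, g * u * g⁻¹ ∈ H → u = 1) ∧ Subgroup.normalizer (H : Set G) = MulAction.stabilizer G a := by
  classical
  obtain ⟨b, hb⟩ : ∃ b : Ω, a ≠ b := by
    by_contra hc
    push Not at hc
    obtain ⟨g, -, x, y, hxy, -⟩ := hZ.2.2.2.1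
    exact hxy ((hc x).symm.trans (hc y))
  let S : H39.ZSetup G Ω := ⟨a, b, hb, H7.ZHyp.of_zassenhaus hZ, H, hHa, hHcard, hHfix⟩
  refine ⟨fun g hg u hu hgu => by_contra fun hu1 => hg (S.mem_N_of_conj_mem_H hu hu1 hgu), ?_⟩
  exact S.normalizer_H

end Cfsg.Agent.S0878
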