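import Cfsg.Statements.S0880
import Cfsg.Agent.H39.ZassClasses
-- import your own Cfsg.Agent.* helpers here

set_option autoImplicit false
open Cfsg

namespace Cfsg.Agent.S0880

/-- Let G be a finite simple Zassenhaus group on Ω with n points whose two-point stabilizer E has odd order less than n - 2. Then there are two elements of G, each fixing no point of Ω, that are not conjugate. -/
theorem result {G Ω : Type*} [Group G] [Finite G] [MulAction G Ω] [Fintype Ω] (hZ : Cfsg.IsZassenhausGroup G Ω) {a b : Ω} (hab : a ≠ b) [IsSimpleGroup G] (hodd : Odd (Nat.card ↥(MulAction.stabilizer G a ⊓ MulAction.stabilizer G b : Subgroup G))) (hlt : Nat.card ↥(MulAction.stabilizer G a ⊓ MulAction.stabilizer G b : Subgroup G) < Fintype.card Ω - 2) : ∃ x y : G, (∀ c : Ω, x • c ≠ c) ∧ (∀ c : Ω, y • c ≠ c) ∧ ¬ IsConj x y := by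
  classical
  haveI := Fintype.ofFinite G
  obtain ⟨S, rfl, rfl⟩ := H39.exists_zsetup (H7.ZHyp.of_zassenhaus hZ) hab
  have h1 := S.two_mul_fpfClasses_ge hodd
  have h2 := S.two_le_e
  obtain ⟨m, hm⟩ : Odd S.e := hodd
  obtain ⟨C, hC, C', hC', hne⟩ := Finset.one_lt_card.1 (show 1 < S.fpfClasses.card by omega)
  obtain ⟨x, rfl⟩ := ConjClasses.exists_rep C
  obtain ⟨y, rfl⟩ := ConjClasses.exists_rep C'
  refine ⟨x, y, fun c hc => ?_, fun c hc => ?_, fun h => hne (ConjClasses.mk_eq_mk_iff_isConj.2 h)⟩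
  · exact Finset.card_ne_zero_of_mem (S.mem_fix.2 hc) (S.mem_fpfClasses hC rfl)
  · exact Finset.card_ne_zero_of_mem (S.mem_fix.2 hc) (S.mem_fpfClasses hC' rfl)

end Cfsg.Agent.S0880
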