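import Cfsg.Statements.S0881
import Cfsg.Agent.H39.ZassChar
-- import your own Cfsg.Agent.* helpers here

set_option autoImplicit false
open Cfsg

namespace Cfsg.Agent.S0881

/-- Let G be a finite simple Zassenhaus group on Ω with n points, a ≠ b points with two-point stabilizer E of odd order less than n - 2, and let H be the subgroup of the stabilizer of a consisting of the identity and the elements fixing no point other than a (given here as a subgroup of the stabilizer of order one less than the number of points whose non-identity elements fix only a; it is the Frobenius kernel of the stabilizer). Let μ be a character of degree 1 of the stabilizer of a that is identically 1 on H but not identically 1. Then the function induced from μ to G is an irreducible character of G, and it takes the value 1 at every non-identity element of H. -/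
theorem result {G Ω : Type*} [Group G] [Fintype G] [MulAction G Ω] [Fintype Ω] (hZ : Cfsg.IsZassenhausGroup G Ω) {a b : Ω} (hab : a ≠ b) [IsSimpleGroup G] (hodd : Odd (Nat.card ↥(MulAction.stabilizer G a ⊓ MulAction.stabilizer G b : Subgroup G))) (hlt : Nat.card ↥(MulAction.stabilizer G a ⊓ MulAction.stabilizer G b : Subgroup G) < Fintype.card Ω - 2) (H : Subgroup G) (hHa : H ≤ MulAction.stabilizer G a) (hHcard : Nat.card H + 1 = Fintype.card Ω) (hHfix : ∀ u ∈ H, u ≠ 1 → ∀ c : Ω, u • c = c → c = a) (μ : MulAction.stabilizer G a → ℂ) (hμ : Cfsg.IsCharacter (MulAction.stabilizer G a) μ ∧ μ 1 = 1) (hμH : ∀ u : MulAction.stabilizer G a, (u : G) ∈ H → μ u = 1) (hμne : μ ≠ fun _ => 1) : Cfsg.IsIrrCharacter G (Cfsg.indFun (MulAction.stabilizer G a) μ) ∧ ∀ u ∈ H, u ≠ 1 → Cfsg.indFun (MulAction.stabilizer G a) μ u = 1 := by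
  classical
  let S : H39.ZSetup G Ω := ⟨a, b, hab, H7.ZHyp.of_zassenhaus hZ, H, hHa, hHcard, hHfix⟩
  have hoddS : Odd S.e := hodd
  obtain ⟨f, hf⟩ := H26.exists_hom_of_isCharacter_one hμ.1 hμ.2
  let f' : S.D →* ℂˣ := f.comp (Subgroup.inclusion (inf_le_left : S.D ≤ S.N))
  let l : Cfsg.IrrCharacter S.D := ⟨fun d => (f' d : ℂ), H26.isIrrCharacter_hom f'⟩
  have hμl : μ = S.lamN l := by
    funext n
    have h1 : (n : G) * (S.projD n : G)⁻¹ ∈ H := S.projFun_spec n
    have hd : (S.projD n : G) ∈ S.N := (S.projD n).2.1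
    have h2 : n = ⟨_, S.hHa h1⟩ * ⟨(S.projD n : G), hd⟩ := Subtype.ext (by simp)
    have h3 := hμH ⟨_, S.hHa h1⟩ h1
    show μ n = ((f ⟨(S.projD n : G), hd⟩ : ℂˣ) : ℂ)
    conv_lhs => rw [h2]
    rw [← hf, map_mul, Units.val_mul, hf, hf, h3, one_mul]
  have hl : l ≠ H26.oneIrr S.D := by
    intro h
    refine hμne ?_
    rw [hμl]
    funext n
    simp [H39.ZSetup.lamN, h, H26.oneIrr_val]
  rw [hμl]
  refine ⟨S.isIrrCharacter_xi hoddS hl, fun u hu hu1 => ?_⟩
  exact S.xi_H hoddS l hu hu1

end Cfsg.Agent.S0881
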