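import Cfsg.Statements.S0889
import Cfsg.Agent.H39.Berger
-- import your own Cfsg.Agent.* helpers here

set_option autoImplicit false
open Cfsg

namespace Cfsg.Agent.S0889

/-- Let G be a finite solvable group and χ an irreducible character of G such that for every normal subgroup N the restriction of χ to N is a natural-number multiple of one irreducible character of N. Then χ is not induced from a character of any proper subgroup. -/
theorem result {G : Type*} [Group G] [Fintype G] [Group.IsSolvable G] (χ : G → ℂ) (hχ : Cfsg.IsIrrCharacter G χ) (hqp : ∀ (N : Subgroup G), N.Normal → ∃ (ϑ : N → ℂ) (e : ℕ), Cfsg.IsIrrCharacter N ϑ ∧ (fun n : N => χ n) = (e : ℂ) • ϑ) (K : Subgroup G) (hK : K ≠ ⊤) (ψ : K → ℂ) (hψ : Cfsg.IsCharacter K ψ) : Cfsg.indFun K ψ ≠ χ := by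
  obtain ⟨n, ρ, hρ, rfl⟩ := hχ
  haveI : Group.IsSolvable (G ⧸ (⊥ : Subgroup G)) :=
    solvable_of_surjective (QuotientGroup.mk'_surjective (⊥ : Subgroup G))
  intro h
  refine Cfsg.Agent.H39.not_induced_of_homog _ G (Fin n → ℂ) ρ ⊥ rfl inferInstance
    (fun N hN _ => ?_) K hK bot_le ψ hψ h.symm
  obtain ⟨ϑ, e, hϑ, he⟩ := hqp N hN
  exact Cfsg.Agent.H39.isHomog_of_char ρ N hϑ (e : ℂ) he

end Cfsg.Agent.S0889
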