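import Cfsg.Statements.S0893
import Cfsg.Agent.H39.ExtraChar
-- import your own Cfsg.Agent.* helpers here

set_option autoImplicit false
open Cfsg

namespace Cfsg.Agent.S0893

/-- Let P be an extraspecial p-group of order p ^ (2 * n + 1), A an abelian subgroup of order p ^ (n + 1), and λ a character of A of degree 1 that is not identically 1 on the elements of A lying in the centre of P. Then the function induced from λ to P is an irreducible character of P and vanishes at every element outside the centre. -/
theorem result {P : Type*} [Group P] [Fintype P] (p n : ℕ) [Fact p.Prime] (hP : Cfsg.IsExtraspecial p P) (hcard : Nat.card P = p ^ (2 * n + 1)) (A : Subgroup P) (hab : ∀ a ∈ A, ∀ b ∈ A, a * b = b * a) (hA : Nat.card A = p ^ (n + 1)) (lam : A → ℂ) (hlam : Cfsg.IsCharacter A lam ∧ lam 1 = 1) (hZ : ∃ a : A, (a : P) ∈ Subgroup.center P ∧ lam a ≠ 1) : Cfsg.IsIrrCharacter P (Cfsg.indFun A lam) ∧ ∀ x : P, x ∉ Subgroup.center P → Cfsg.indFun A lam x = 0 := by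
  classical
  obtain ⟨f, hf⟩ := H26.exists_hom_of_isCharacter_one hlam.1 hlam.2
  obtain ⟨a, ha, hne⟩ := hZ
  have hl : lam = fun x => (f x : ℂ) := funext fun x => (hf x).symm
  rw [hl]
  exact H39.espec_indFun_linear hP hcard A hA f a ha
    (fun h => hne (by rw [← hf, h, Units.val_one]))

end Cfsg.Agent.S0893
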