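import Cfsg.Statements.S0894
import Cfsg.Agent.H39.ExtraChar
-- import your own Cfsg.Agent.* helpers here

set_option autoImplicit false
open Cfsg

namespace Cfsg.Agent.S0894

/-- Let P be an extraspecial p-group of order p ^ (2 * n + 1). Then every irreducible character of P has degree 1 or p ^ n, and exactly p - 1 of them have degree p ^ n. -/
theorem result {P : Type*} [Group P] [Finite P] (p n : ℕ) [Fact p.Prime] (hP : Cfsg.IsExtraspecial p P) (hcard : Nat.card P = p ^ (2 * n + 1)) : (∀ χ : Cfsg.IrrCharacter P, (χ : P → ℂ) 1 = 1 ∨ (χ : P → ℂ) 1 = (p : ℂ) ^ n) ∧ Nat.card {χ : Cfsg.IrrCharacter P // (χ : P → ℂ) 1 = (p : ℂ) ^ n} = p - 1 := by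
  classical
  haveI := Fintype.ofFinite P
  refine ⟨fun χ => ?_, ?_⟩
  · by_cases h : H39.TrivOn (Subgroup.center P) χ
    · left
      rw [H39.degOf_spec, H39.espec_deg_of_trivOn hP h, Nat.cast_one]
    · right
      rw [H39.degOf_spec, H39.espec_deg_of_not_trivOn hP hcard h, Nat.cast_pow]
  · rw [← H39.espec_card_faithful hP hcard, ← Fintype.card_subtype, ← Nat.card_eq_fintype_card]
    exact Nat.card_congr (Equiv.subtypeEquivRight fun χ => by
      rw [H39.degOf_spec, ← Nat.cast_pow, Nat.cast_inj])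

end Cfsg.Agent.S0894
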