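import Cfsg.Statements.S0895
import Cfsg.Agent.H26.CharFS
-- import your own Cfsg.Agent.* helpers here

set_option autoImplicit false
open Cfsg

namespace Cfsg.Agent.S0895

/-- Let χ be a real-valued irreducible character of a finite group G whose degree is an odd natural number. Then the average over s in G of χ (s * s) equals 1. -/
theorem result {G : Type*} [Group G] [Fintype G] (χ : G → ℂ) (hχ : Cfsg.IsIrrCharacter G χ) (hreal : ∀ g : G, (χ g).im = 0) (d : ℕ) (hd : χ 1 = d) (hodd : Odd d) : (Nat.card G : ℂ)⁻¹ * ∑ s : G, χ (s * s) = 1 := by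
  classical
  let χ' : Cfsg.IrrCharacter G := ⟨χ, hχ⟩
  obtain ⟨n, ρ, hirr, e⟩ := id hχ
  have hn : n = d := by
    have h1 : (n : ℂ) = d := by
      rw [← hd, ← e, Representation.char_one, Module.finrank_fin_fun]
    exact_mod_cast h1
  let A : G →* Matrix (Fin n) (Fin n) ℂ :=
    { toFun := fun x => LinearMap.toMatrix' (ρ x)
      map_one' := by simp [Module.End.one_eq_id]
      map_mul' := fun x y => by simp [LinearMap.toMatrix'_comp, Module.End.mul_eq_comp] }
  have hA : ∀ g, Matrix.trace (A g) = χ'.1 g := fun g => by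
    show _ = χ g
    rw [← e]
    exact (LinearMap.trace_eq_matrix_trace ℂ (Pi.basisFun ℂ (Fin n)) (ρ g)).symm
  obtain ⟨hsign, ⟨M, hM, hM0⟩, htr⟩ :=
    (H26.formRep_invariants A χ' hA).2 ((H26.conjIrr_eq_self_iff χ').2 hreal)
  show H26.fsIndicator χ'.1 = 1
  refine hsign.resolve_right fun hneg => ?_
  have hMT : M.transpose = -M := by rw [htr M hM, hneg, neg_one_smul]
  have hdet : M.det = 0 := by
    have h1 := congrArg Matrix.det hMT
    rw [Matrix.det_transpose, Matrix.det_neg, Fintype.card_fin, (hn ▸ hodd : Odd n).neg_one_pow] at h1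
    linear_combination h1 / 2
  have hstable : ∀ (g : G), ∀ v ∈ LinearMap.range (Matrix.toLin' M),
      ρ g v ∈ LinearMap.range (Matrix.toLin' M) := by
    rintro g _ ⟨w, rfl⟩
    have h1 : A g * M = M * (A g⁻¹).transpose := by
      have h2 : A g * (M * (A g).transpose) = M := hM g
      have h3 : (A g).transpose * (A g⁻¹).transpose = 1 := by
        rw [← Matrix.transpose_mul, ← map_mul, inv_mul_cancel, map_one, Matrix.transpose_one]
      conv_rhs => rw [← h2]
      rw [mul_assoc, mul_assoc, h3, mul_one]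
    refine ⟨(A g⁻¹).transpose.mulVec w, ?_⟩
    rw [Matrix.toLin'_apply, Matrix.toLin'_apply, Matrix.mulVec_mulVec, ← h1,
      ← Matrix.mulVec_mulVec]
    exact LinearMap.toMatrix'_mulVec (ρ g) _
  have htop : LinearMap.range (Matrix.toLin' M) = ⊤ := by
    refine (((H26.isIrreducible_iff_forall ρ).1 hirr).2 _ hstable).resolve_left fun hbot => hM0 ?_
    exact Matrix.toLin'.map_eq_zero_iff.1 (LinearMap.range_eq_bot.1 hbot)
  have hsurj : Function.Surjective M.mulVec := fun v => by
    obtain ⟨w, hw⟩ := LinearMap.range_eq_top.1 htop v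
    exact ⟨w, by rwa [Matrix.toLin'_apply] at hw⟩
  exact ((Matrix.isUnit_iff_isUnit_det M).1 (Matrix.mulVec_surjective_iff_isUnit.1 hsurj)).ne_zero
    hdet

end Cfsg.Agent.S0895
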