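import Cfsg.Statements.S0900
import Cfsg.Agent.H39.FullyRamified
-- import your own Cfsg.Agent.* helpers here

set_option autoImplicit false
open Cfsg

namespace Cfsg.Agent.S0900

/-- Let N be a normal subgroup of the finite group G, χ an irreducible character of G and ϑ an irreducible character of N having nonzero inner product with the restriction of χ. Consider: (a) the restriction of χ to N is e • ϑ for a natural number e with e ^ 2 equal to the index of N; (b) χ vanishes outside N and ϑ is invariant under conjugation by G; (c) ϑ is invariant and every irreducible character of G having nonzero inner product with the function induced from ϑ equals χ. Then (a) ↔ (b) and (a) ↔ (c). -/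
theorem result {G : Type*} [Group G] [Fintype G] (N : Subgroup G) [hN : N.Normal] [Fintype N] (χ : G → ℂ) (hχ : Cfsg.IsIrrCharacter G χ) (ϑ : N → ℂ) (hϑ : Cfsg.IsIrrCharacter N ϑ) (hcon : Cfsg.classInner (fun n : N => χ n) ϑ ≠ 0) : ((∃ e : ℕ, (fun n : N => χ n) = (e : ℂ) • ϑ ∧ e ^ 2 = N.index) ↔ ((∀ g : G, g ∉ N → χ g = 0) ∧ ∀ (g : G) (n : N), ϑ ⟨g * n * g⁻¹, hN.conj_mem (n : G) n.2 g⟩ = ϑ n)) ∧ ((∃ e : ℕ, (fun n : N => χ n) = (e : ℂ) • ϑ ∧ e ^ 2 = N.index) ↔ (∀ (g : G) (n : N), ϑ ⟨g * n * g⁻¹, hN.conj_mem (n : G) n.2 g⟩ = ϑ n ∧ ∀ ψ : G → ℂ, Cfsg.IsIrrCharacter G ψ → Cfsg.classInner (Cfsg.indFun N ϑ) ψ ≠ 0 → ψ = χ)) := by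
  classical
  have hchi0 : χ 1 ≠ 0 := Cfsg.Agent.H26.irr_one_ne_zero ⟨χ, hχ⟩
  have inv_of : ∀ e : ℕ, (fun n : N => χ n) = (e : ℂ) • ϑ →
      ∀ (g : G) (n : N), ϑ ⟨g * n * g⁻¹, hN.conj_mem (n : G) n.2 g⟩ = ϑ n := by
    intro e he g n
    have he0 : (e : ℂ) ≠ 0 := by
      intro h0
      apply hchi0
      have h := congrFun he 1
      simp [h0] at h
      exact h
    have h1 := congrFun he ⟨g * n * g⁻¹, hN.conj_mem (n : G) n.2 g⟩
    have h2 := congrFun he n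
    simp only [Pi.smul_apply, smul_eq_mul] at h1 h2
    rw [show χ (g * (n : G) * g⁻¹) = χ n from Cfsg.Agent.H26.irr_conj ⟨χ, hχ⟩ (n : G) g] at h1
    exact mul_left_cancel₀ he0 (h1.symm.trans h2)
  refine ⟨⟨?_, ?_⟩, ⟨?_, ?_⟩⟩
  · rintro ⟨e, he, hsq⟩
    exact ⟨(Cfsg.Agent.H39.vanish_iff_sq_eq_index hχ hϑ he).2 hsq, inv_of e he⟩
  · rintro ⟨hv, hinv⟩
    obtain ⟨e, -, -, he⟩ := Cfsg.Agent.H39.restrict_eq_smul_of_invariant hχ hϑ hinv hcon
    exact ⟨e, he, (Cfsg.Agent.H39.vanish_iff_sq_eq_index hχ hϑ he).1 hv⟩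
  · rintro ⟨e, he, hsq⟩ g n
    have hinv := inv_of e he
    refine ⟨hinv g n, fun ψ hψ hne => ?_⟩
    obtain ⟨m, hm, hind, hsum⟩ := Cfsg.Agent.H39.sum_classInner_sq_eq_index hϑ hinv
    have hmχ : m ⟨χ, hχ⟩ = e := by
      have h : Cfsg.classInner (fun n : N => χ n) ϑ = (m ⟨χ, hχ⟩ : ℂ) := hm ⟨χ, hχ⟩
      have h1 : Cfsg.classInner ϑ ϑ = 1 := by
        have := Cfsg.Agent.H26.classInner_irr (⟨ϑ, hϑ⟩ : Cfsg.IrrCharacter N) ⟨ϑ, hϑ⟩
        simpa using this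
      rw [he, Cfsg.Agent.H26.classInner_smul_left, h1, mul_one] at h
      exact_mod_cast h.symm
    by_contra hne2
    rw [← Finset.add_sum_erase _ _ (Finset.mem_univ ⟨χ, hχ⟩), hmχ, hsq] at hsum
    have hz : ∑ φ ∈ Finset.univ.erase (⟨χ, hχ⟩ : Cfsg.IrrCharacter G), m φ ^ 2 = 0 := Nat.add_eq_left.1 hsum
    have h0 := Finset.sum_eq_zero_iff.1 hz ⟨ψ, hψ⟩
      (Finset.mem_erase.2 ⟨fun h => hne2 (congrArg Subtype.val h), Finset.mem_univ _⟩)
    apply hne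
    rw [hind ⟨ψ, hψ⟩, pow_eq_zero_iff (two_ne_zero) |>.1 h0, Nat.cast_zero]
  · intro h
    have hinv : ∀ (g : G) (n : N), ϑ ⟨g * n * g⁻¹, hN.conj_mem (n : G) n.2 g⟩ = ϑ n :=
      fun g n => (h g n).1
    obtain ⟨e, -, he', he⟩ := Cfsg.Agent.H39.restrict_eq_smul_of_invariant hχ hϑ hinv hcon
    refine ⟨e, he, ?_⟩
    obtain ⟨m, hm, hind, hsum⟩ := Cfsg.Agent.H39.sum_classInner_sq_eq_index hϑ hinv
    have hmχ : m ⟨χ, hχ⟩ = e := by
      have h1 := hm ⟨χ, hχ⟩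
      rw [he'] at h1
      exact_mod_cast h1.symm
    rw [Finset.sum_eq_single (⟨χ, hχ⟩ : Cfsg.IrrCharacter G) (fun φ _ hφ => ?_)
      (fun hn => absurd (Finset.mem_univ _) hn), hmχ] at hsum
    · exact hsum
    · by_contra h0
      refine hφ (Subtype.ext ((h 1 1).2 φ φ.2 ?_))
      rw [hind φ, Nat.cast_ne_zero]
      intro hm0
      simp [hm0] at h0

end Cfsg.Agent.S0900
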