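import Cfsg.Statements.S0901
import Cfsg.Agent.H40.Residue

set_option autoImplicit false
open Cfsg

namespace Cfsg.Agent.S0901

/-- Let M be a maximal ideal of the ring of algebraic integers containing the prime p, and let U be the set of complex roots of unity of order prime to p. Then reduction modulo M is injective on U, and every algebraic integer not in M is congruent modulo M to an element of U (so U maps bijectively onto the nonzero residues). -/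
theorem result (p : ℕ) [Fact p.Prime] (M : Ideal Cfsg.AlgInt) (hM : Cfsg.IsPModular p M) : (∀ ε₁ ε₂ : Cfsg.AlgInt, (∃ m : ℕ, ¬ p ∣ m ∧ (ε₁ : ℂ) ^ m = 1) → (∃ m : ℕ, ¬ p ∣ m ∧ (ε₂ : ℂ) ^ m = 1) → ε₁ - ε₂ ∈ M → ε₁ = ε₂) ∧ (∀ a : Cfsg.AlgInt, a ∉ M → ∃ ε : Cfsg.AlgInt, (∃ m : ℕ, ¬ p ∣ m ∧ (ε : ℂ) ^ m = 1) ∧ a - ε ∈ M) := by
  refine ⟨?_, fun a ha => ?_⟩
  · rintro ε₁ ε₂ ⟨m₁, hm₁, h₁⟩ ⟨m₂, hm₂, h₂⟩ h
    have h₁' : ε₁ ^ m₁ = 1 := Subtype.ext (by push_cast; exact h₁)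
    have h₂' : ε₂ ^ m₂ = 1 := Subtype.ext (by push_cast; exact h₂)
    have hm : ¬ p ∣ m₁ * m₂ := (Fact.out : p.Prime).not_dvd_mul hm₁ hm₂
    have hpow : ∀ n, n = m₁ * m₂ → ε₁ ^ n = 1 ∧ ε₂ ^ n = 1 := by
      rintro n rfl
      refine ⟨by rw [pow_mul, h₁', one_pow], by rw [mul_comm, pow_mul, h₂', one_pow]⟩
    obtain ⟨e₁, e₂⟩ := hpow _ rfl
    obtain ⟨k, hk⟩ : ∃ k, m₁ * m₂ = k + 1 :=
      Nat.exists_eq_succ_of_ne_zero (fun e => hm (e ▸ dvd_zero p))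
    rw [hk] at e₁ e₂ hm
    have hinv : ε₂ ^ k * ε₂ = 1 := by rw [← pow_succ, e₂]
    have hone : ε₁ * ε₂ ^ k = 1 := by
      refine Cfsg.Agent.H40.eq_one_of_sub_one_mem hM hm ?_ ?_
      · rw [mul_pow, e₁, one_mul, ← pow_mul, mul_comm, pow_mul, e₂, one_pow]
      · have : ε₁ * ε₂ ^ k - 1 = ε₂ ^ k * (ε₁ - ε₂) := by
          rw [mul_sub, hinv, mul_comm]
        rw [this]
        exact M.mul_mem_left _ h
    calc ε₁ = ε₁ * (ε₂ ^ k * ε₂) := by rw [hinv, mul_one]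
      _ = ε₂ := by rw [← mul_assoc, hone, one_mul]
  · obtain ⟨ε, ⟨m, hm, hε⟩, h⟩ := Cfsg.Agent.H40.exists_root_congr hM ha
    exact ⟨ε, ⟨m, hm, by rw [← SubmonoidClass.coe_pow, hε]; rfl⟩, h⟩

end Cfsg.Agent.S0901
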