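import Cfsg.Statements.S0903
import Cfsg.Agent.H40.BrauerMap

set_option autoImplicit false
open Cfsg

namespace Cfsg.Agent.S0903

/-- Let P be a p-subgroup of the finite group G, let c centralize P and let g, h ∈ G. The number of pairs (x, y) with x conjugate to g, y conjugate to h and x * y = c is congruent modulo p to the number of such pairs in which x and y both centralize P. (This is why the Brauer map on class sums is multiplicative.) -/
theorem result {G : Type*} [Group G] [Finite G] (p : ℕ) [Fact p.Prime] (P : Subgroup G) (hP : IsPGroup p P) (c : G) (hc : c ∈ Subgroup.centralizer (P : Set G)) (g h : G) : Nat.card {xy : G × G // IsConj g xy.1 ∧ IsConj h xy.2 ∧ xy.1 * xy.2 = c} ≡ Nat.card {xy : G × G // IsConj g xy.1 ∧ IsConj h xy.2 ∧ xy.1 * xy.2 = c ∧ xy.1 ∈ Subgroup.centralizer (P : Set G) ∧ xy.2 ∈ Subgroup.centralizer (P : Set G)} [MOD p] := by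
  classical
  have : Fintype G := Fintype.ofFinite G
  have h1 := Cfsg.Agent.H40.coeff_mul_centralizer (R := ZMod p) hP
    (Cfsg.Agent.H40.coeffInvariant_of_mem_center P (Cfsg.Agent.H40.classSum_mem_center g))
    (Cfsg.Agent.H40.coeffInvariant_of_mem_center P (Cfsg.Agent.H40.classSum_mem_center h)) hc
  rw [Cfsg.Agent.H40.coeff_classSum_mul_classSum] at h1
  simp only [Cfsg.Agent.H40.coeff_classSum, ← ite_and, mul_ite, mul_one, mul_zero,
    Finset.sum_boole] at h1
  rw [ZMod.natCast_eq_natCast_iff] at h1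
  refine h1.trans (Nat.ModEq.symm ?_)
  rw [Finset.filter_filter, ← Fintype.card_subtype, ← Nat.card_eq_fintype_card]
  refine congrArg (· % p) (Nat.card_congr ⟨fun z => ⟨z.1.1, ?_⟩,
    fun x => ⟨(x.1, x.1⁻¹ * c), ?_⟩, ?_, ?_⟩)
  · obtain ⟨⟨x, y⟩, hg1, h2, h3, h4, -⟩ := z
    subst h3
    exact ⟨h4, by simpa using h2, hg1⟩
  · obtain ⟨x, hx, hy, hxg⟩ := x
    exact ⟨hxg, hy, by simp, hx, mul_mem (inv_mem hx) hc⟩
  · rintro ⟨⟨x, y⟩, h1, h2, h3, h4, h5⟩
    subst h3
    simp
  · intro x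
    rfl

end Cfsg.Agent.S0903
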