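import Cfsg.Statements.S0905
import Cfsg.Agent.H40.BrauerMap
import Cfsg.Agent.H40.PCore

set_option autoImplicit false
open Cfsg

namespace Cfsg.Agent.S0905

/-- Let F be a field of characteristic p and let g be an element of the finite group G no conjugate of which centralizes O_p(G). Then the class sum of g is a nilpotent element of the group algebra F[G]. -/
theorem result {G : Type*} [Group G] [Finite G] (p : ℕ) [Fact p.Prime] (F : Type*) [Field F] [CharP F p] (g : G) (hg : ∀ x : G, IsConj g x → x ∉ Subgroup.centralizer (Cfsg.pCore p G : Set G)) : IsNilpotent (∑ᶠ x ∈ ConjClasses.carrier (ConjClasses.mk g), MonoidAlgebra.single x (1 : F) : MonoidAlgebra F G) := by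
  classical
  have : Fintype G := Fintype.ofFinite G
  have := Cfsg.Agent.H40.pCore_normal' p G
  have h := Cfsg.Agent.H40.isNilpotent_classSum F (Cfsg.Agent.H40.isPGroup_pCore p G) hg
  convert h using 1
  rw [Cfsg.Agent.H40.classSum_eq_sum, finsum_mem_eq_finite_toFinset_sum _ (Set.toFinite _)]
  refine Finset.sum_congr ?_ fun _ _ => rfl
  ext x
  simp only [Set.Finite.mem_toFinset, ConjClasses.mem_carrier_iff_mk_eq, Finset.mem_filter,
    Finset.mem_univ, true_and, ConjClasses.mk_eq_mk_iff_isConj]
  exact ⟨fun h => h.symm, fun h => h.symm⟩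

end Cfsg.Agent.S0905
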