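import Cfsg.Statements.S0909
import Cfsg.Agent.H40.BlockSets

set_option autoImplicit false
open Cfsg

namespace Cfsg.Agent.S0909

/-- Let A be a set of irreducible characters of the finite group G such that, for every g, the inverse of the group order times the sum over χ ∈ A of χ 1 * conj (χ g) is a local integer at the maximal ideal M (containing the prime p) of the algebraic integers. Then A is a union of blocks relative to M: it contains the whole block of each of its members. -/
theorem result {G : Type*} [Group G] [Finite G] (p : ℕ) [Fact p.Prime] (M : Ideal Cfsg.AlgInt) (hM : Cfsg.IsPModular p M) (A : Set (Cfsg.IrrCharacter G)) (hA : ∀ g : G, Cfsg.MemLocalRing M (Cfsg.blockCoeff A g)) (χ : Cfsg.IrrCharacter G) (hχ : χ ∈ A) : Cfsg.blockOf M (χ : G → ℂ) ⊆ A := by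
  have := hM.2.1
  exact fun ψ hψ => Cfsg.Agent.H40.mem_of_sameBlock_of_coeff_mem hA hχ hψ

end Cfsg.Agent.S0909
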