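import Cfsg.Statements.S0911
import Cfsg.Agent.H40.BlockBasic

set_option autoImplicit false
open Cfsg

namespace Cfsg.Agent.S0911

/-- The min–max Theorem for defect classes. Let B be a block of the finite group G relative to a maximal ideal M of the algebraic integers containing the prime p, let g represent a defect class of B and let D be a Sylow p-subgroup of the centralizer of g (viewed in G). For any h: (a) if the idempotent coefficient of B at h is a local integer outside the local ideal, then some conjugate of D contains a Sylow p-subgroup of the centralizer of h; (b) if the central character of some member of B at h is outside the local ideal, then some conjugate of D is contained in a Sylow p-subgroup of the centralizer of h. -/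
theorem result {G : Type*} [Group G] [Finite G] (p : ℕ) [Fact p.Prime] (M : Ideal Cfsg.AlgInt) (hM : Cfsg.IsPModular p M) (B : Set (Cfsg.IrrCharacter G)) (hB : Cfsg.IsPBlock M B) (g : G) (hg : Cfsg.IsDefectClass M B g) (D : Sylow p (Subgroup.centralizer ({g} : Set G))) (h : G) : (Cfsg.MemLocalRing M (Cfsg.blockCoeff B h) → ¬ Cfsg.MemLocalIdeal M (Cfsg.blockCoeff B h) → ∃ (x : G) (Q : Sylow p (Subgroup.centralizer ({h} : Set G))), (Q : Subgroup (Subgroup.centralizer ({h} : Set G))).map (Subgroup.centralizer ({h} : Set G)).subtype ≤ ((D : Subgroup (Subgroup.centralizer ({g} : Set G))).map (Subgroup.centralizer ({g} : Set G)).subtype).map (MulAut.conj x).toMonoidHom) ∧ ((∃ χ ∈ B, ¬ Cfsg.MemLocalIdeal M (Cfsg.centralChar (χ : G → ℂ) h)) → ∃ (x : G) (Q : Sylow p (Subgroup.centralizer ({h} : Set G))), ((D : Subgroup (Subgroup.centralizer ({g} : Set G))).map (Subgroup.centralizer ({g} : Set G)).subtype).map (MulAut.conj x).toMonoidHom ≤ (Q : Subgroup (Subgroup.centralizer ({h} : Set G))).map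 (Subgroup.centralizer ({h} : Set G)).subtype) := by
  have := hM.2.1
  have hD := Cfsg.Agent.H40.isSylowIn_map_subtype D
  obtain ⟨χ₀, hχ₀⟩ := Cfsg.Agent.H41.IsPBlock.nonempty hB
  obtain ⟨P, hP⟩ := Cfsg.Agent.H40.exists_isSylowIn p (Subgroup.centralizer ({h} : Set G))
  obtain ⟨Q, hQ⟩ := Cfsg.Agent.H40.exists_sylow_of_isSylowIn hP
  refine ⟨fun h1 h2 => ?_, fun ⟨χ, hχ, hne⟩ => ?_⟩
  · obtain ⟨x, hx⟩ := Cfsg.Agent.H40.subConj_of_coeffUnit hM hB hχ₀ ⟨h1, h2⟩ (hg.2.2 χ₀ hχ₀) hP hD
    refine ⟨x, Q, ?_⟩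
    rw [hQ]
    have h3 := Cfsg.Agent.H23.rconj_mono x⁻¹ hx
    rw [Cfsg.Agent.H23.rconj_rconj, mul_inv_cancel, Cfsg.Agent.H23.rconj_one] at h3
    simpa [Cfsg.Agent.H23.rconj] using h3
  · obtain ⟨x, hx⟩ := Cfsg.Agent.H40.subConj_of_coeffUnit hM hB hχ ⟨hg.1, hg.2.1⟩ hne hD hP
    refine ⟨x⁻¹, Q, ?_⟩
    rw [hQ]
    simpa [Cfsg.Agent.H23.rconj] using hx

end Cfsg.Agent.S0911
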