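import Cfsg.Statements.S0913
import Cfsg.Agent.H41.Blocks

set_option autoImplicit false
open Cfsg

namespace Cfsg.Agent.S0913

/-- Osima's Theorem on block idempotents. Let B be a block of the finite group G relative to a maximal ideal M of the algebraic integers containing the prime p. Then for every g the coefficient of g in the sum of the central idempotents of the members of B, namely the inverse of the group order times the sum over χ ∈ B of χ 1 * conj (χ g), is a quotient a / b of algebraic integers with b outside M. -/
theorem result {G : Type*} [Group G] [Finite G] (p : ℕ) [Fact p.Prime] (M : Ideal Cfsg.AlgInt) (hM : Cfsg.IsPModular p M) (B : Set (Cfsg.IrrCharacter G)) (hB : Cfsg.IsPBlock M B) (g : G) : Cfsg.MemLocalRing M (Cfsg.blockCoeff B g) := by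
  have := hM.2.1
  exact Cfsg.Agent.H41.blockCoeff_mem hB g

end Cfsg.Agent.S0913
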