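import Cfsg.Statements.S0921
import Cfsg.Agent.H41.Covering
import Cfsg.Agent.H19.Cores

set_option autoImplicit false
open Cfsg

namespace Cfsg.Agent.S0921

/-- Let N = O_p'(G) be the largest normal subgroup of the finite group G of order prime to p, and fix a maximal ideal M of the algebraic integers containing p. If two irreducible characters χ, ψ of G lie in the same block relative to M, then an irreducible character of N occurs in the restriction of χ exactly when it occurs in the restriction of ψ. -/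
theorem result {G : Type*} [Group G] [Finite G] (p : ℕ) [Fact p.Prime] (M : Ideal Cfsg.AlgInt) (hM : Cfsg.IsPModular p M) [Fintype G] (χ ψ : Cfsg.IrrCharacter G) (h : Cfsg.SameBlock M (χ : G → ℂ) (ψ : G → ℂ)) (θ : Cfsg.IrrCharacter (Cfsg.pPrimeCore p G)) [Fintype (Cfsg.pPrimeCore p G)] : Cfsg.classInner (fun n : Cfsg.pPrimeCore p G => (χ : G → ℂ) n) (θ : Cfsg.pPrimeCore p G → ℂ) ≠ 0 ↔ Cfsg.classInner (fun n : Cfsg.pPrimeCore p G => (ψ : G → ℂ) n) (θ : Cfsg.pPrimeCore p G → ℂ) ≠ 0 := by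
  haveI := hM.2.1
  haveI hn : (Cfsg.pPrimeCore p G).Normal := Subgroup.sSup_normal _ fun _ h => h.1
  have hco : ¬ p ∣ Nat.card (Cfsg.pPrimeCore p G) :=
    ((Fact.out : p.Prime).coprime_iff_not_dvd).1 (Cfsg.Agent.H19.pPrimeCore_coprime (G := G) p).symm
  have hblock : ∀ φ : Cfsg.IrrCharacter (Cfsg.pPrimeCore p G), Cfsg.blockOf M (φ : Cfsg.pPrimeCore p G → ℂ) = {φ} :=
    fun φ => Cfsg.Agent.H40.blockOf_eq_singleton hM φ (by
      rw [Nat.factorization_eq_zero_of_not_dvd hco]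
      exact Nat.zero_le _)
  have key : ∀ χ ψ : Cfsg.IrrCharacter G, Cfsg.SameBlock M (χ : G → ℂ) (ψ : G → ℂ) →
      Cfsg.classInner (fun n : Cfsg.pPrimeCore p G => (χ : G → ℂ) n)
        (θ : Cfsg.pPrimeCore p G → ℂ) ≠ 0 →
      Cfsg.classInner (fun n : Cfsg.pPrimeCore p G => (ψ : G → ℂ) n)
        (θ : Cfsg.pPrimeCore p G → ℂ) ≠ 0 := by
    intro χ ψ h hθ
    obtain ⟨φ, hφ⟩ := Cfsg.Agent.H41.exists_constituent (Cfsg.pPrimeCore p G) ψ
    obtain ⟨g, hg⟩ := Cfsg.Agent.H41.constituent_mem_twistClosure (Cfsg.pPrimeCore p G)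
      (Cfsg.Agent.H41.isPBlock_blockOf (M := M) χ) (Cfsg.Agent.H41.isPBlock_blockOf (M := M) θ)
      (Cfsg.Agent.H41.mem_blockOf_self χ) h (Cfsg.Agent.H41.mem_blockOf_self θ) hθ hφ
    rw [hblock, Set.mem_singleton_iff] at hg
    rw [← hg, Cfsg.Agent.H41.classInner_twistIrr]
    exact hφ
  exact ⟨key χ ψ h, key ψ χ (Cfsg.Agent.H41.sameBlock_symm h)⟩

end Cfsg.Agent.S0921
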