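import Cfsg.Statements.S0922
import Cfsg.Agent.H40.SecondMain

set_option autoImplicit false
open Cfsg

namespace Cfsg.Agent.S0922

/-- Let H be a subgroup of the finite group G and let the block b of H induce the block B of G (relative to a maximal ideal M of the algebraic integers containing the prime p). Let h ∈ H be such that the centralizer in G of the p-part of h lies in H, and let χ be an irreducible character of G not in B. Then the sum over k ∈ H of (the idempotent coefficient of b at k) times χ (k * h) vanishes; that is, χ annihilates f_b h where f_b is the sum of the central idempotents of the members of b. -/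
theorem result {G : Type*} [Group G] [Finite G] (p : ℕ) [Fact p.Prime] (M : Ideal Cfsg.AlgInt) (hM : Cfsg.IsPModular p M) (H : Subgroup G) (b : Set (Cfsg.IrrCharacter H)) (B : Set (Cfsg.IrrCharacter G)) (hind : Cfsg.IsInducedBlock M H b B) (h : H) (hC : ∀ z : G, Cfsg.IsPPart p (h : G) z → Subgroup.centralizer ({z} : Set G) ≤ H) (χ : Cfsg.IrrCharacter G) (hχ : χ ∉ B) : ∑ᶠ k : H, Cfsg.blockCoeff b k * (χ : G → ℂ) ((k : G) * (h : G)) = 0 := by
  haveI := hM.2.1
  classical
  haveI : Fintype G := Fintype.ofFinite G
  haveI : Fintype H := Fintype.ofFinite H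
  obtain ⟨χ', hχ'⟩ := Cfsg.Agent.H41.IsPBlock.nonempty hind.2.1
  rw [finsum_eq_sum_of_fintype]
  refine Cfsg.Agent.H40.sum_blockCoeff_mul_eq_zero hM
    (Cfsg.Agent.H40.blockClosed_of_isPBlock hind.1) (Cfsg.Agent.H40.blockClosed_of_isPBlock hind.2.1)
    (fun ψ hψ => ?_) hC hχ
  rw [Cfsg.Agent.H40.omegaBar_restrictZ_of_isInducedBlock hind hψ hχ',
    Cfsg.Agent.H40.omegaBar_setLocIdem, if_pos hχ']

end Cfsg.Agent.S0922
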