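import Cfsg.Statements.S0926
import Cfsg.Agent.H40.CentralPart

set_option autoImplicit false
open Cfsg

namespace Cfsg.Agent.S0926

/-- Let B be a block of the finite group G with defect group D (relative to a maximal ideal M of the algebraic integers containing p), let χ ∈ B have height zero, and let x be a p-element. Then some conjugate of x lies in D if and only if χ does not vanish on the whole p-section of x (the elements whose p-part is conjugate to x). -/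
theorem result {G : Type*} [Group G] [Finite G] (p : ℕ) [Fact p.Prime] (M : Ideal Cfsg.AlgInt) (hM : Cfsg.IsPModular p M) (B : Set (Cfsg.IrrCharacter G)) (hB : Cfsg.IsPBlock M B) (D : Subgroup G) (hD : Cfsg.IsDefectGroup p M B D) (χ : Cfsg.IrrCharacter G) (hχ : χ ∈ B) (h0 : Cfsg.blockHeight p B (χ : G → ℂ) = 0) (x : G) (hx : ∃ k : ℕ, orderOf x = p ^ k) : (∃ g : G, g * x * g⁻¹ ∈ D) ↔ ∃ u : G, (∃ z : G, Cfsg.IsPPart p u z ∧ IsConj x z) ∧ (χ : G → ℂ) u ≠ 0 := by
  haveI := hM.2.1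
  obtain ⟨y, hy, hDy⟩ := Cfsg.Agent.H40.isDefectGroup_iff.1 hD
  have hreg := Cfsg.Agent.H40.not_dvd_orderOf_of_coeffUnit hM hB
    (⟨hy.1, hy.2.1⟩ : Cfsg.Agent.H40.CoeffUnit M B y)
  constructor
  · rintro ⟨g, hg⟩
    obtain ⟨k, hk⟩ := hx
    have hord : orderOf (g * x * g⁻¹) = p ^ k := by
      rw [← hk]
      exact orderOf_injective (MulAut.conj g).toMonoidHom (MulAut.conj g).injective x
    have hc : Commute (g * x * g⁻¹) y := Subgroup.mem_centralizer_singleton_iff.1 (hDy.1 hg)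
    refine ⟨g * x * g⁻¹ * y, ⟨g * x * g⁻¹, Cfsg.Agent.H40.isPPart_mul hc hord hreg,
      isConj_iff.2 ⟨g, rfl⟩⟩, fun e => ?_⟩
    exact Cfsg.Agent.H40.not_memLocalIdeal_mul_of_height_zero hM hB hy hχ h0 hc hord
      (e ▸ Cfsg.Agent.H40.memLocalIdeal_zero)
  · rintro ⟨u, ⟨z, hz, hxz⟩, hne⟩
    by_contra hno
    refine hne (Cfsg.Agent.H40.eq_zero_of_pPart_notMem_defectGroup hM χ hz fun E hE hzE => hno ?_)
    rw [← Cfsg.Agent.H41.eq_blockOf_of_mem hB hχ] at hE
    obtain ⟨v, hv⟩ := Cfsg.Agent.H40.subConj_defectGroup hM hB hE hD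
    obtain ⟨c, hc⟩ := isConj_iff.1 hxz
    refine ⟨v⁻¹ * c, hv (Cfsg.Agent.H23.mem_rconj.2 ?_)⟩
    have e : v * (v⁻¹ * c * x * (v⁻¹ * c)⁻¹) * v⁻¹ = z := by rw [← hc]; group
    rwa [e]

end Cfsg.Agent.S0926
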