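import Cfsg.Statements.S0933
import Cfsg.Agent.H40.InducedBlocks

set_option autoImplicit false
open Cfsg

namespace Cfsg.Agent.S0933

/-- Let H be a subgroup of the finite group G and ξ an irreducible character of H such that the induced function ξ^G is an irreducible character of G. Then, relative to any maximal ideal M of the algebraic integers containing the prime p, the block of ξ induces the block of ξ^G. -/
theorem result {G : Type*} [Group G] [Fintype G] (p : ℕ) [Fact p.Prime] (M : Ideal Cfsg.AlgInt) (hM : Cfsg.IsPModular p M) (H : Subgroup G) (ξ : Cfsg.IrrCharacter H) (hind : Cfsg.IsIrrCharacter G (Cfsg.indFun H (ξ : H → ℂ))) : Cfsg.IsInducedBlock M H (Cfsg.blockOf M (ξ : H → ℂ)) (Cfsg.blockOf M (Cfsg.indFun H (ξ : H → ℂ))) := by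
  haveI := hM.2.1
  refine (Cfsg.Agent.H40.isInducedBlock_iff (Cfsg.Agent.H41.isPBlock_blockOf ξ)
    (Cfsg.Agent.H41.isPBlock_blockOf (⟨_, hind⟩ : Cfsg.IrrCharacter G))
    (Cfsg.Agent.H41.mem_blockOf_self ξ) (Cfsg.Agent.H41.mem_blockOf_self
      (⟨_, hind⟩ : Cfsg.IrrCharacter G))).2 fun z => ?_
  refine LinearMap.congr_fun (Cfsg.Agent.H40.linearMap_ext_classSum
    (f := (Cfsg.Agent.H41.omegaBar M ξ).toLinearMap ∘ₗ Cfsg.Agent.H40.restrictZ M H)
    (f' := (Cfsg.Agent.H41.omegaBar M (⟨_, hind⟩ : Cfsg.IrrCharacter G)).toLinearMap) fun g => ?_) z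
  refine (Cfsg.Agent.H40.memLocalIdeal_inducedCentralChar_sub_iff H ξ ⟨_, hind⟩ g).1 ?_
  rw [Cfsg.Agent.H40.inducedCentralChar_eq_centralChar_indFun, sub_self]
  exact ⟨0, 1, M.zero_mem, (Ideal.ne_top_iff_one M).1 Ideal.IsPrime.ne_top', by simp⟩

end Cfsg.Agent.S0933
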