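import Cfsg.Statements.S0934
import Cfsg.Agent.H41.InducedCentral

set_option autoImplicit false
open Cfsg

namespace Cfsg.Agent.S0934

/-- Let H be a subgroup of the finite group G and fix a maximal ideal M of the algebraic integers containing the prime p. If the block b of H induces the block B of G and ξ ∈ b, then there is χ ∈ B whose restriction to H has nonzero inner product with ξ. -/
theorem result {G : Type*} [Group G] [Fintype G] (p : ℕ) [Fact p.Prime] (M : Ideal Cfsg.AlgInt) (hM : Cfsg.IsPModular p M) (H : Subgroup G) [Fintype H] (b : Set (Cfsg.IrrCharacter H)) (B : Set (Cfsg.IrrCharacter G)) (hind : Cfsg.IsInducedBlock M H b B) (ξ : Cfsg.IrrCharacter H) (hξ : ξ ∈ b) : ∃ χ ∈ B, Cfsg.classInner (fun h : H => (χ : G → ℂ) h) (ξ : H → ℂ) ≠ 0 := by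
  classical
  have := hM.2.1
  by_contra hcon
  push Not at hcon
  obtain ⟨χ, hχ⟩ := H41.IsPBlock.nonempty hind.2.1
  have h := H41.res_omegaLoc_restrCenter H hind hξ hχ (H41.locIdem hind.2.1)
  have h1 : H41.omegaLoc M χ (H41.locIdem hind.2.1) = 1 := Subtype.ext (by
    rw [H41.coe_omegaLoc, H41.incl_locIdem, H41.omega_blockIdem, if_pos hχ]; rfl)
  have h0 : H41.omegaLoc M ξ (H41.restrCenter H (H41.locIdem hind.2.1)) = 0 := by
    apply Subtype.ext
    rw [H41.coe_omegaLoc, H41.omega_apply, div_eq_zero_iff.2 (Or.inl ?_)]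
    · rfl
    have hcoef : ∀ x : H, ((H41.incl M (H41.restrCenter H (H41.locIdem hind.2.1)) :
        H41.groupAlgCenter ℂ H) : MonoidAlgebra ℂ H).coeff x = blockCoeff B (x : G) := fun x => by
      rw [H41.coeff_incl, H41.restrCenter, H41.coeff_centerOfFun, ← H41.coeff_blockIdem B,
        ← H41.incl_locIdem hind.2.1, H41.coeff_incl]
    simp only [hcoef, H41.blockCoeff_eq_sum, Finset.mul_sum, Finset.sum_mul]
    rw [Finset.sum_comm]
    refine Finset.sum_eq_zero fun φ hφ => ?_
    have h2 := congr_arg (starRingEnd ℂ) (hcon φ (Finset.mem_filter.1 hφ).2)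
    rw [map_zero, classInner, map_mul, map_sum, mul_eq_zero] at h2
    have h3 := h2.resolve_left (by simp [Nat.card_pos.ne'])
    simp only [map_mul, Complex.conj_conj] at h3
    simp only [mul_assoc, ← Finset.mul_sum]
    rw [h3, mul_zero, mul_zero]
  rw [h0, h1, map_zero, map_one] at h
  exact zero_ne_one h

end Cfsg.Agent.S0934
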