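import Cfsg.Statements.S0940
import Cfsg.Agent.H41.Kulshammer

set_option autoImplicit false
open Cfsg

namespace Cfsg.Agent.S0940

/-- Let G be a finite group and M a maximal ideal of the algebraic integers containing the prime p. For every p-regular g, the idempotent coefficient of the principal block at g (the inverse of the group order times the sum over χ in the principal block of χ 1 * conj (χ g)) is congruent modulo the local ideal at M to N / R, where N is the number of pairs (x, y) with x of p-power order, y of order prime to p and x * y = g, and R is the number of elements of G of order prime to p. -/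
theorem result {G : Type*} [Group G] [Finite G] (p : ℕ) [Fact p.Prime] (M : Ideal Cfsg.AlgInt) (hM : Cfsg.IsPModular p M) (g : G) (hg : ¬ p ∣ orderOf g) : Cfsg.MemLocalIdeal M (Cfsg.blockCoeff (Cfsg.principalBlock M G) g - (Nat.card {xy : G × G // (∃ k : ℕ, orderOf xy.1 = p ^ k) ∧ ¬ p ∣ orderOf xy.2 ∧ xy.1 * xy.2 = g} : ℂ) / (Nat.card {y : G // ¬ p ∣ orderOf y} : ℂ)) := by
  classical
  have := hM.2.1
  have := Fintype.ofFinite G
  have hB := H41.isPBlock_principalBlock (M := M) (G := G)
  have h := H41.idemBar_principal_eq hM g hg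
  have hne := H41.card_regular_ne_zero (G := G) hM
  set R := Nat.card {y : G // ¬ p ∣ orderOf y}
  set N := Nat.card {xy : G × G // (∃ k : ℕ, orderOf xy.1 = p ^ k) ∧ ¬ p ∣ orderOf xy.2 ∧
    xy.1 * xy.2 = g}
  have hinv := H41.IsPModular.inv_natCast_mem hM
    (fun hd => hne ((H41.IsPModular.natCast_eq_zero_iff hM R).2 hd))
  have hres : H41.res M ⟨(R : ℂ)⁻¹, hinv⟩ * (R : H41.ResField M) = 1 := by
    rw [← map_natCast (H41.res M), ← map_mul]
    refine (congr_arg _ (Subtype.ext ?_)).trans (map_one (H41.res M))
    push_cast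
    exact inv_mul_cancel₀ (Nat.cast_ne_zero.2 fun e => hne (by rw [e, Nat.cast_zero]))
  have key : H41.res M ((N : H41.localRing M) * ⟨(R : ℂ)⁻¹, hinv⟩) =
      H41.res M ⟨blockCoeff (principalBlock M G) g, H41.blockCoeff_mem hB g⟩ := by
    rw [map_mul, map_natCast, ← h, H41.coeff_idemBar, mul_comm, ← mul_assoc, hres, one_mul]
  have key' := (H41.memLocalIdeal_sub_iff _ _).2 key.symm
  push_cast at key'
  rwa [← div_eq_mul_inv] at key'

end Cfsg.Agent.S0940
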