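import Cfsg.Statements.S0941
import Cfsg.Agent.H41.Blocks
import Cfsg.Agent.H41.RegularInner
import Cfsg.Agent.H41.PrimeNormal
import Cfsg.Agent.H40.BlockSets
import Cfsg.Agent.H40.PPart
import Cfsg.Agent.H44.Inflation

set_option autoImplicit false
open Cfsg

namespace Cfsg.Agent.S0941

/-- Let P be a normal p-subgroup of the finite group G such that the index of C_G(P) is a power of p, and fix a maximal ideal M of the algebraic integers containing p. Then (i) two irreducible characters of G ⧸ P lie in the same block if and only if their inflations to G do, and (ii) every block of G contains the inflation of some irreducible character of G ⧸ P; so inflation induces a bijection between the blocks of G ⧸ P and the blocks of G. -/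
theorem result {G : Type*} [Group G] [Finite G] (p : ℕ) [Fact p.Prime] (M : Ideal Cfsg.AlgInt) (hM : Cfsg.IsPModular p M) (P : Subgroup G) [P.Normal] (hP : IsPGroup p P) (hC : ∃ k : ℕ, (Subgroup.centralizer (P : Set G)).index = p ^ k) : (∀ χ ψ : Cfsg.IrrCharacter (G ⧸ P), Cfsg.SameBlock M (χ : G ⧸ P → ℂ) (ψ : G ⧸ P → ℂ) ↔ Cfsg.SameBlock M ((χ : G ⧸ P → ℂ) ∘ QuotientGroup.mk) ((ψ : G ⧸ P → ℂ) ∘ QuotientGroup.mk)) ∧ ∀ B : Set (Cfsg.IrrCharacter G), Cfsg.IsPBlock M B → ∃ χ : Cfsg.IrrCharacter (G ⧸ P), ∃ θ ∈ B, (θ : G → ℂ) = (χ : G ⧸ P → ℂ) ∘ QuotientGroup.mk := by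
  classical
  haveI := hM.2.1
  haveI := Fintype.ofFinite G
  haveI := Fintype.ofFinite (G ⧸ P)
  have hmem : ∀ x : G, ¬ p ∣ orderOf x → x ∈ Subgroup.centralizer (P : Set G) := fun x hx =>
    Cfsg.Agent.H41.mem_of_regular_of_index _ hC hx
  have hcomm : ∀ x : G, ¬ p ∣ orderOf x → ∀ u ∈ P, Commute u x := fun x hx u hu =>
    Subgroup.mem_centralizer_iff.1 (hmem x hx) u hu
  have hppow : ∀ u ∈ P, ∃ j, orderOf u = p ^ j := fun u hu => by
    obtain ⟨j, hj⟩ := IsPGroup.iff_orderOf.1 hP (⟨u, hu⟩ : P)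
    exact ⟨j, by rw [← hj]; exact Subgroup.orderOf_coe (⟨u, hu⟩ : P)⟩
  have hinj : ∀ x y : G, ¬ p ∣ orderOf x → ¬ p ∣ orderOf y → (x : G ⧸ P) = (y : G ⧸ P) → x = y := by
    intro x y hx hy h
    have hu : x⁻¹ * y ∈ P := QuotientGroup.eq.1 h
    obtain ⟨j, hj⟩ := hppow _ hu
    have h1 : Cfsg.IsPPart p y (x⁻¹ * y) := by
      have h2 := Cfsg.Agent.H40.isPPart_mul (hcomm x hx _ hu) hj hx
      have e : x⁻¹ * y * x = y := by rw [(hcomm x hx _ hu).eq, mul_inv_cancel_left]
      rwa [e] at h2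
    have := (Cfsg.Agent.H40.regular_iff_pPart_eq_one h1).1 hy
    exact inv_mul_eq_one.1 this
  have hlift : ∀ q : G ⧸ P, ¬ p ∣ orderOf q → ∃ x : G, ¬ p ∣ orderOf x ∧ (x : G ⧸ P) = q := by
    intro q hq
    obtain ⟨g, rfl⟩ := QuotientGroup.mk_surjective q
    obtain ⟨a, b, hab, hcab, ⟨j, hj⟩, hb⟩ := Cfsg.Agent.H40.exists_isPPart p g
    refine ⟨b, hb, ?_⟩
    have hbq : ¬ p ∣ orderOf (b : G ⧸ P) :=
      fun h => hb (h.trans (orderOf_map_dvd (QuotientGroup.mk' P) b))
    obtain ⟨i, -, hi⟩ := (Nat.dvd_prime_pow (Fact.out : p.Prime)).1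
      (hj ▸ orderOf_map_dvd (QuotientGroup.mk' P) a)
    have h1 : Cfsg.IsPPart p (g : G ⧸ P) (a : G ⧸ P) :=
      ⟨(b : G ⧸ P), by rw [← QuotientGroup.mk_mul, hab], hcab.map (QuotientGroup.mk' P), ⟨i, hi⟩, hbq⟩
    rw [← hab, QuotientGroup.mk_mul, (Cfsg.Agent.H40.regular_iff_pPart_eq_one h1).1 hq, one_mul]
  have hregq : ∀ x : G, ¬ p ∣ orderOf x → ¬ p ∣ orderOf (x : G ⧸ P) :=
    fun x hx h => hx (h.trans (orderOf_map_dvd (QuotientGroup.mk' P) x))
  constructor
  · intro χ ψ
    constructor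
    · intro h g
      obtain ⟨m, hm⟩ : (Subgroup.centralizer ({(g : G ⧸ P)} : Set (G ⧸ P))).index ∣
          (Subgroup.centralizer ({g} : Set G)).index := by
        refine (Subgroup.index_dvd_of_le ?_).trans (Subgroup.index_map_dvd
          (Subgroup.centralizer ({g} : Set G)) (QuotientGroup.mk'_surjective P))
        rintro _ ⟨c, hc, rfl⟩
        refine Subgroup.mem_centralizer_singleton_iff.2 ?_
        show (c : G ⧸ P) * (g : G ⧸ P) = (g : G ⧸ P) * (c : G ⧸ P)
        rw [← QuotientGroup.mk_mul, ← QuotientGroup.mk_mul,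
          Subgroup.mem_centralizer_singleton_iff.1 hc]
      have e : ∀ φ : Cfsg.IrrCharacter (G ⧸ P),
          Cfsg.centralChar ((φ : G ⧸ P → ℂ) ∘ QuotientGroup.mk) g =
            (m : ℂ) * Cfsg.centralChar (φ : G ⧸ P → ℂ) (g : G ⧸ P) := fun φ => by
        simp only [Cfsg.centralChar, Function.comp_apply, QuotientGroup.mk_one, hm, Nat.cast_mul]
        ring
      rw [e χ, e ψ, ← mul_sub]
      obtain ⟨a, b, ha, hb, hab⟩ := h g
      exact ⟨(m : Cfsg.AlgInt) * a, b, M.mul_mem_left _ ha, hb, by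
        push_cast; rw [mul_div_assoc, hab]⟩
    · intro h
      have hB := Cfsg.Agent.H41.isPBlock_blockOf (M := M) χ
      set B := Cfsg.blockOf M (χ : G ⧸ P → ℂ) with hBdef
      let F : G → Cfsg.Agent.H41.localRing M := fun x =>
        if p ∣ orderOf x then 0 else ⟨_, Cfsg.Agent.H41.blockCoeff_mem hB (x : G ⧸ P)⟩
      have hF : ∀ g x : G, F (x * g * x⁻¹) = F g := fun g x => by
        have ho : orderOf (x * g * x⁻¹) = orderOf g := (MulAut.conj x).orderOf_eq g
        simp only [F, ho]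
        split_ifs with hg
        · rfl
        · refine Subtype.ext ?_
          simp only [QuotientGroup.mk_mul, QuotientGroup.mk_inv]
          exact Cfsg.Agent.H41.blockCoeff_conj_inv _ _ _
      let z := Cfsg.Agent.H41.centerOfFun F hF
      have key : ∀ φ : Cfsg.IrrCharacter (G ⧸ P),
          ((Cfsg.Agent.H41.omegaLoc M (Cfsg.Agent.H44.inflate P φ) z : Cfsg.Agent.H41.localRing M)
            : ℂ) = if φ ∈ B then 1 else 0 := by
        intro φ
        rw [← Cfsg.Agent.H41.omega_blockIdem B φ, Cfsg.Agent.H41.coe_omegaLoc,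
          Cfsg.Agent.H41.omega_apply, Cfsg.Agent.H41.omega_apply]
        refine congrArg₂ (· / ·) ?_ rfl
        refine Finset.sum_bij_ne_zero (fun x _ _ => (x : G ⧸ P)) (fun _ _ _ => Finset.mem_univ _)
          ?_ ?_ ?_
        · intro x _ hx y _ hy hxy
          refine hinj x y (fun hd => hx ?_) (fun hd => hy ?_) hxy <;>
          · rw [Cfsg.Agent.H41.coeff_incl, Cfsg.Agent.H41.coeff_centerOfFun]
            simp only [F, if_pos hd]
            simp
        · intro q _ hq
          have hqreg : ¬ p ∣ orderOf q := fun hd => hq (by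
            rw [Cfsg.Agent.H41.coeff_blockIdem,
              Cfsg.Agent.H40.blockCoeff_eq_zero_of_singular hM hB hd, zero_mul])
          obtain ⟨x, hx, rfl⟩ := hlift q hqreg
          refine ⟨x, Finset.mem_univ _, ?_, rfl⟩
          rw [Cfsg.Agent.H41.coeff_incl, Cfsg.Agent.H41.coeff_centerOfFun]
          simp only [F, if_neg hx]
          simpa [Cfsg.Agent.H41.coeff_blockIdem, Cfsg.Agent.H44.inflate_apply] using hq
        · intro x _ hx
          have hxreg : ¬ p ∣ orderOf x := fun hd => hx (by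
            rw [Cfsg.Agent.H41.coeff_incl, Cfsg.Agent.H41.coeff_centerOfFun]
            simp only [F, if_pos hd]
            simp)
          rw [Cfsg.Agent.H41.coeff_incl, Cfsg.Agent.H41.coeff_centerOfFun,
            Cfsg.Agent.H41.coeff_blockIdem, Cfsg.Agent.H44.inflate_apply]
          simp only [F, if_neg hxreg]
      have hres := Cfsg.Agent.H41.res_omegaLoc_eq_of_mem
        (Cfsg.Agent.H41.isPBlock_blockOf (Cfsg.Agent.H44.inflate P χ))
        (Cfsg.Agent.H41.mem_blockOf_self _) (φ := Cfsg.Agent.H44.inflate P ψ) h z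
      have h1 : Cfsg.Agent.H41.omegaLoc M (Cfsg.Agent.H44.inflate P χ) z = 1 := Subtype.ext (by
        rw [key χ, if_pos (Cfsg.Agent.H41.mem_blockOf_self χ)]
        rfl)
      by_contra hne
      have h0 : Cfsg.Agent.H41.omegaLoc M (Cfsg.Agent.H44.inflate P ψ) z = 0 := Subtype.ext (by
        rw [key ψ, if_neg (show ψ ∉ B from hne)]
        rfl)
      rw [h1, h0, map_one, map_zero] at hres
      exact one_ne_zero hres
  · intro B hB
    by_contra hno
    push_neg at hno
    have hzero : ∀ φ : Cfsg.IrrCharacter (G ⧸ P),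
        ∑ x : G, Cfsg.blockCoeff B x * (φ : G ⧸ P → ℂ) (x : G ⧸ P) = 0 := by
      intro φ
      have h1 := Cfsg.Agent.H41.omega_blockIdem B (Cfsg.Agent.H44.inflate P φ)
      rw [if_neg (fun hm => hno φ _ hm rfl), Cfsg.Agent.H41.omega_apply,
        div_eq_zero_iff, or_iff_left (Cfsg.Agent.H26.irr_one_ne_zero _)] at h1
      simpa [Cfsg.Agent.H41.coeff_blockIdem, Cfsg.Agent.H44.inflate_apply] using h1
    have hsum : ∑ φ : Cfsg.IrrCharacter (G ⧸ P),
        starRingEnd ℂ ((φ : G ⧸ P → ℂ) 1) *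
          ∑ x : G, Cfsg.blockCoeff B x * (φ : G ⧸ P → ℂ) (x : G ⧸ P) = 0 :=
      Finset.sum_eq_zero fun φ _ => by rw [hzero φ, mul_zero]
    simp only [Finset.mul_sum] at hsum
    rw [Finset.sum_comm, Finset.sum_eq_single 1] at hsum
    · have e : ∀ φ : Cfsg.IrrCharacter (G ⧸ P), starRingEnd ℂ ((φ : G ⧸ P → ℂ) 1) *
          (Cfsg.blockCoeff B 1 * (φ : G ⧸ P → ℂ) ((1 : G) : G ⧸ P)) =
          Cfsg.blockCoeff B 1 * ((φ : G ⧸ P → ℂ) 1 * starRingEnd ℂ ((φ : G ⧸ P → ℂ) 1)) := fun φ => by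
        rw [QuotientGroup.mk_one]; ring
      rw [Finset.sum_congr rfl fun φ _ => e φ, ← Finset.mul_sum,
        Cfsg.Agent.H26.column_orthogonality, Cfsg.Agent.H26.classIndicator,
        if_pos (IsConj.refl _), mul_one] at hsum
      obtain ⟨χ, hχ⟩ := Cfsg.Agent.H41.IsPBlock.nonempty hB
      have h0 := (mul_eq_zero.1 hsum).resolve_right (Nat.cast_ne_zero.2 Nat.card_pos.ne')
      rw [Cfsg.Agent.H41.blockCoeff_eq_sum] at h0
      have h1 := congrArg Complex.re ((mul_eq_zero.1 h0).resolve_left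
        (inv_ne_zero (Nat.cast_ne_zero.2 Nat.card_pos.ne')))
      simp only [Complex.mul_conj, Complex.re_sum, Complex.ofReal_re, Complex.zero_re] at h1
      exact Cfsg.Agent.H26.irr_one_ne_zero χ (Complex.normSq_eq_zero.1
        ((Finset.sum_eq_zero_iff_of_nonneg fun φ _ => Complex.normSq_nonneg _).1 h1 χ
          (by simpa using hχ)))
    · intro x _ hx
      have e : ∀ φ : Cfsg.IrrCharacter (G ⧸ P), starRingEnd ℂ ((φ : G ⧸ P → ℂ) 1) *
          (Cfsg.blockCoeff B x * (φ : G ⧸ P → ℂ) (x : G ⧸ P)) = Cfsg.blockCoeff B x *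
          ((φ : G ⧸ P → ℂ) (x : G ⧸ P) * starRingEnd ℂ ((φ : G ⧸ P → ℂ) 1)) := fun φ => by ring
      rw [Finset.sum_congr rfl fun φ _ => e φ,
        ← Finset.mul_sum, Cfsg.Agent.H26.column_orthogonality, Cfsg.Agent.H26.classIndicator]
      by_cases hxP : x ∈ P
      · obtain ⟨j, hj⟩ := hppow x hxP
        rw [Cfsg.Agent.H40.blockCoeff_eq_zero_of_singular hM hB, zero_mul]
        rcases j with _ | j
        · exact absurd (orderOf_eq_one_iff.1 (by rwa [pow_zero] at hj)) hx
        · rw [hj]; exact dvd_pow_self p j.succ_ne_zero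
      · rw [if_neg fun hc => hxP ((QuotientGroup.eq_one_iff x).1 (isConj_one_left.1 hc)), mul_zero,
          mul_zero]
    · intro h; exact absurd (Finset.mem_univ _) h

end Cfsg.Agent.S0941
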