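import Cfsg.Statements.S0945
import Cfsg.Agent.H41.AbelianSylowAction

set_option autoImplicit false
open Cfsg

namespace Cfsg.Agent.S0945

/-- Let P be a Sylow 2-subgroup of the finite group G isomorphic to Z/2^m × Z/2^m with m ≥ 1. Then (i) the index of C_G(P) in N_G(P) is 1 or 3, and (ii) if it is not 1, then for every z ≠ 1 in P, C_G(z) ∩ N_G(P) = C_G(P). -/
theorem result {G : Type*} [Group G] [Finite G] (P : Sylow 2 G) (m : ℕ) (hm : 1 ≤ m) (e : (P : Subgroup G) ≃* Multiplicative (ZMod (2 ^ m) × ZMod (2 ^ m))) : ((Subgroup.centralizer (P : Set G)).relIndex (Subgroup.normalizer (P : Set G)) = 1 ∨ (Subgroup.centralizer (P : Set G)).relIndex (Subgroup.normalizer (P : Set G)) = 3) ∧ ((Subgroup.centralizer (P : Set G)).relIndex (Subgroup.normalizer (P : Set G)) ≠ 1 → ∀ z ∈ (P : Subgroup G), z ≠ 1 → Subgroup.centralizer ({z} : Set G) ⊓ Subgroup.normalizer (P : Set G) = Subgroup.centralizer (P : Set G)) := by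
  have hab : ∀ a ∈ (P : Subgroup G), ∀ b ∈ (P : Subgroup G), a * b = b * a := fun a ha b hb => by
    have : (⟨a, ha⟩ : (P : Subgroup G)) * ⟨b, hb⟩ = ⟨b, hb⟩ * ⟨a, ha⟩ :=
      e.injective (by rw [map_mul, map_mul, mul_comm])
    exact congr_arg Subtype.val this
  have hCN : Subgroup.centralizer (P : Set G) ≤ Subgroup.normalizer (P : Set G) := fun c hc =>
    Subgroup.mem_normalizer_iff.2 fun x => by
      constructor
      · intro hx
        rw [← hc x hx, mul_inv_cancel_right]
        exact hx
      · intro hx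
        have h : c * (c * x * c⁻¹) = (c * x * c⁻¹) * c := (hc _ hx).symm
        have h' : x = c * x * c⁻¹ := by
          rw [inv_mul_cancel_right, mul_assoc c x] at h
          rw [mul_assoc c x]
          exact (mul_left_cancel h).symm
        rw [h']
        exact hx
  rcases H41.homocyclic_sylow_normalizer P hm e with h | ⟨h3, hfix, -⟩
  · exact ⟨Or.inl h, fun hne => absurd h hne⟩
  · refine ⟨Or.inr h3, fun _ z hz hz1 => le_antisymm (fun n hn => ?_) (le_inf ?_ hCN)⟩
    · by_contra hnC
      exact hfix n hn.2 hnC z hz hz1 (Subgroup.mem_centralizer_singleton_iff.1 hn.1)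
    · exact Subgroup.centralizer_le (Set.singleton_subset_iff.2 hz)

end Cfsg.Agent.S0945
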