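import Cfsg.Statements.S0950
import Cfsg.Agent.H22.Frobenius
import Cfsg.Agent.H41.QuaternionFusion

set_option autoImplicit false
open Cfsg

namespace Cfsg.Agent.S0950

/-- Let S be a Sylow 2-subgroup of the finite group G that is isomorphic to the quaternion group of order 8, and suppose S has no normal complement in G. Then any two subgroups of order 4 of S are conjugate by an element of the normalizer of S. -/
theorem result {G : Type*} [Group G] [Finite G] (S : Sylow 2 G) (e : (S : Subgroup G) ≃* QuaternionGroup 2) (hnc : ∀ N : Subgroup G, N.Normal → ¬ Subgroup.IsComplement' N (S : Subgroup G)) (A B : Subgroup G) (hA : A ≤ S) (hB : B ≤ S) (hA4 : Nat.card A = 4) (hB4 : Nat.card B = 4) : ∃ n ∈ Subgroup.normalizer ((S : Subgroup G) : Set G), B = A.map (MulAut.conj n).toMonoidHom := by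
  classical
  have hS8 : Nat.card (S : Subgroup G) = 8 := by
    rw [Nat.card_congr e.toEquiv, Nat.card_eq_fintype_card, QuaternionGroup.card]
  by_cases hex : ∃ g ∈ Subgroup.normalizer ((S : Subgroup G) : Set G),
      Nat.Coprime (orderOf g) 2 ∧ g ∉ Subgroup.centralizer ((S : Subgroup G) : Set G)
  · obtain ⟨g, hg, hgo, hgc⟩ := hex
    let c : MulAut (S : Subgroup G) :=
      { toFun := fun x => ⟨g * x * g⁻¹, (Subgroup.mem_normalizer_iff.1 hg x).1 x.2⟩
        invFun := fun x => ⟨g⁻¹ * x * g, (Subgroup.mem_normalizer_iff.1 hg _).2 (by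
          simpa [mul_assoc] using x.2)⟩
        left_inv := fun x => Subtype.ext (by simp [mul_assoc])
        right_inv := fun x => Subtype.ext (by simp [mul_assoc])
        map_mul' := fun x y => Subtype.ext (by simp [mul_assoc]) }
    have hck : ∀ (k : ℕ) (x : (S : Subgroup G)), (((c ^ k) x : (S : Subgroup G)) : G) =
        g ^ k * x * (g ^ k)⁻¹ := by
      intro k
      induction k with
      | zero => simp
      | succ k ih =>
        intro x
        rw [pow_succ', MulAut.mul_apply]
        show g * (((c ^ k) x : (S : Subgroup G)) : G) * g⁻¹ = _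
        rw [ih, pow_succ']
        group
    let T : MulAut (S : Subgroup G) ≃* MulAut (QuaternionGroup 2) := MulAut.congr e
    have hT : ∀ (k : ℕ) (q : QuaternionGroup 2), (T c ^ k) q = e ((c ^ k) (e.symm q)) := by
      intro k q
      rw [← map_pow]
      rfl
    have hr : Odd (orderOf g) := Nat.coprime_two_right.1 hgo
    have hcr : T c ^ orderOf g = 1 := by
      rw [← map_pow, ← map_one T]
      congr 1
      ext x
      rw [hck, pow_orderOf_eq_one]
      simp
    have hne : T c ≠ 1 := by
      intro h
      rw [← map_one T] at h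
      refine hgc fun x hx => ?_
      have h1 : g * x * g⁻¹ = x :=
        congr_arg Subtype.val (DFunLike.congr_fun (T.injective h) ⟨x, hx⟩)
      exact (mul_inv_eq_iff_eq_mul.1 h1).symm
    have hcard : ∀ C : Subgroup G, C ≤ S → Nat.card C = 4 →
        Nat.card ((C.subgroupOf (S : Subgroup G)).map e.toMonoidHom) = 4 := by
      intro C hC hC4
      rw [← hC4, ← Nat.card_congr (Subgroup.subgroupOfEquivOfLe hC).toEquiv]
      exact Nat.card_congr ((C.subgroupOf (S : Subgroup G)).equivMapOfInjective _
        e.injective).symm.toEquiv
    obtain ⟨k, hk⟩ := H41.q8_exists_pow_map (T c) hr hcr hne (hcard A hA hA4) (hcard B hB hB4)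
    refine ⟨g ^ k, pow_mem hg k, ?_⟩
    ext x
    constructor
    · intro hx
      have h1 : e ⟨x, hB hx⟩ ∈ (B.subgroupOf (S : Subgroup G)).map e.toMonoidHom :=
        Subgroup.mem_map_of_mem e.toMonoidHom (Subgroup.mem_subgroupOf.2 hx)
      rw [hk] at h1
      obtain ⟨q, ⟨y, hy, rfl⟩, hq⟩ := h1
      refine ⟨y, hy, ?_⟩
      have h2 : (T c ^ k) (e y) = e ⟨x, hB hx⟩ := hq
      rw [hT, MulEquiv.symm_apply_apply] at h2
      show g ^ k * (y : G) * (g ^ k)⁻¹ = x
      rw [← hck, e.injective h2]
    · rintro ⟨y, hy, rfl⟩
      have h1 : (T c ^ k) (e ⟨y, hA hy⟩) ∈ (B.subgroupOf (S : Subgroup G)).map e.toMonoidHom := by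
        rw [hk]
        exact Subgroup.mem_map_of_mem _ (Subgroup.mem_map_of_mem e.toMonoidHom
          (Subgroup.mem_subgroupOf.2 hy))
      rw [hT, MulEquiv.symm_apply_apply] at h1
      obtain ⟨z, hz, hz'⟩ := h1
      have h2 := Subgroup.mem_subgroupOf.1 hz
      rw [show z = (c ^ k) ⟨y, hA hy⟩ from e.injective hz', hck] at h2
      exact h2
  · exfalso
    push Not at hex
    obtain ⟨N, hN, hNc⟩ := (H22.hasNormalPComplement_iff_exists S).1
      (H22.hasNormalPComplement_of_frobenius (H22.frobeniusCondition_of_sylow S (fun Q hQ g hg hgo => by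
        rcases eq_or_lt_of_le hQ with rfl | hlt
        · exact hex g hg hgo
        · have hcyc : IsCyclic Q := by
            have hlt' : Nat.card Q < 8 := hS8 ▸
              Set.Finite.card_lt_card (Set.toFinite _) (SetLike.coe_ssubset_coe.2 hlt)
            obtain ⟨j, hj⟩ := (S.2.to_le hQ).exists_card_eq
            have hj3 : j < 3 := (Nat.pow_lt_pow_iff_right (by norm_num : 1 < 2)).1 (hj ▸ hlt')
            interval_cases j
            · have := (Nat.card_eq_one_iff_unique.1 hj).1
              exact isCyclic_of_subsingleton
            · exact isCyclic_of_prime_card (p := 2) (by simpa using hj)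
            · have h4 : Nat.card Q = 4 := by simpa using hj
              have hc4 : Nat.card ((Q.subgroupOf (S : Subgroup G)).map e.toMonoidHom) = 4 := by
                rw [← h4, ← Nat.card_congr (Subgroup.subgroupOfEquivOfLe hQ).toEquiv]
                exact Nat.card_congr ((Q.subgroupOf (S : Subgroup G)).equivMapOfInjective _
                  e.injective).symm.toEquiv
              obtain ⟨x, -, hx⟩ := H41.q8_exists_generator hc4
              have : IsCyclic ((Q.subgroupOf (S : Subgroup G)).map e.toMonoidHom) := by
                rw [hx]; exact Subgroup.isCyclic_zpowers x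
              exact isCyclic_of_surjective
                ((((Q.subgroupOf (S : Subgroup G)).equivMapOfInjective (e.toMonoidHom) e.injective).symm).trans
                  (Subgroup.subgroupOfEquivOfLe hQ)).toMonoidHom (MulEquiv.surjective _)
          let σ : MulAut Q :=
            { toFun := fun x => ⟨g * x * g⁻¹, (Subgroup.mem_normalizer_iff.1 hg x).1 x.2⟩
              invFun := fun x => ⟨g⁻¹ * x * g, (Subgroup.mem_normalizer_iff.1 hg _).2 (by
                simpa [mul_assoc] using x.2)⟩
              left_inv := fun x => Subtype.ext (by simp [mul_assoc])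
              right_inv := fun x => Subtype.ext (by simp [mul_assoc])
              map_mul' := fun x y => Subtype.ext (by simp [mul_assoc]) }
          have hσ : ∀ (k : ℕ) (x : Q), (((σ ^ k) x : Q) : G) = g ^ k * x * (g ^ k)⁻¹ := by
            intro k
            induction k with
            | zero => simp
            | succ k ih =>
              intro x
              rw [pow_succ', MulAut.mul_apply]
              show g * (((σ ^ k) x : Q) : G) * g⁻¹ = _
              rw [ih, pow_succ']
              group
          have h1 : σ = 1 := H23.mulAut_eq_one_of_isCyclic (S.2.to_le hQ) σ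
            (Nat.coprime_two_right.1 hgo)
            (MulEquiv.ext fun x => Subtype.ext (by rw [hσ, pow_orderOf_eq_one]; simp))
          intro x hx
          have h2 : g * x * g⁻¹ = x := congr_arg Subtype.val (DFunLike.congr_fun h1 ⟨x, hx⟩)
          exact (mul_inv_eq_iff_eq_mul.1 h2).symm)))
    exact hnc N hN hNc

end Cfsg.Agent.S0950
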