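import Cfsg.Statements.S0951
import Cfsg.Agent.H41.CentralInvolution
import Cfsg.Agent.S0941
import Cfsg.Agent.S0942
import Cfsg.Agent.S0946
import Cfsg.Agent.S0948
import Cfsg.Agent.H28.Q8.Reduction

set_option autoImplicit false
set_option maxHeartbeats 1000000
open Cfsg

namespace Cfsg.Agent.S0951

/-- Let S be a Sylow 2-subgroup of the finite group G isomorphic to the quaternion group of order 8. Suppose G has no nontrivial normal subgroup of odd order and G ≠ S. Then, relative to any maximal ideal M of the algebraic integers containing 2, the principal block of G consists of exactly 7 irreducible characters. -/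
theorem result {G : Type*} [Group G] [Finite G] (M : Ideal Cfsg.AlgInt) (hM : Cfsg.IsPModular 2 M) (S : Sylow 2 G) (e : (S : Subgroup G) ≃* QuaternionGroup 2) (hO : ∀ N : Subgroup G, N.Normal → Odd (Nat.card N) → N = ⊥) (hG : (S : Subgroup G) ≠ ⊤) : Nat.card (Cfsg.principalBlock M G) = 7 := by
  classical
  haveI : Fact (Nat.Prime 2) := ⟨Nat.prime_two⟩
  haveI := hM.2.1
  haveI := Fintype.ofFinite G
  obtain ⟨z₀, i₀, q⟩ := Cfsg.Agent.H28.Q8.exists_quat (S : Subgroup G) e
  have hZ2 : Nat.card (Subgroup.center G) = 2 :=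
    Cfsg.Agent.H28.Q8.card_center_eq_two (Nat.card G) G le_rfl S e hO
  obtain ⟨⟨z, hz⟩, hzo⟩ := exists_prime_orderOf_dvd_card' (G := Subgroup.center G) 2 (by rw [hZ2])
  rw [Subgroup.orderOf_mk] at hzo
  have hcen : ∀ g : G, g * z = z * g := fun g => Subgroup.mem_center_iff.1 hz g
  have hzS : z ∈ (S : Subgroup G) := by
    obtain ⟨g, hg⟩ := Cfsg.Agent.H28.Q8.exists_conj_mem (k := 1) S (x := z) (by rw [hzo, pow_one])
    rwa [hcen g, mul_inv_cancel_right] at hg
  have hzz0 : z * z = 1 := by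
    have h := pow_orderOf_eq_one z
    rwa [hzo, pow_two] at h
  have hz1 : z ≠ 1 := fun h => by rw [h, orderOf_one] at hzo; omega
  have hzeq : z = z₀ := (q.invol z hzS hzz0).resolve_left hz1
  subst hzeq
  have hZ : Subgroup.center G = Subgroup.zpowers z :=
    (Subgroup.eq_of_le_of_card_ge (Subgroup.zpowers_le.2 hz) (by rw [hZ2, Nat.card_zpowers, hzo])).symm
  have hzmem : ∀ g ∈ Subgroup.center G, g = 1 ∨ g = z := fun g hg => by
    have hgS : g ∈ (S : Subgroup G) := by
      rw [hZ] at hg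
      exact (Subgroup.zpowers_le.2 hzS) hg
    refine q.invol g hgS ?_
    have h := pow_card_eq_one' (x := (⟨g, hg⟩ : Subgroup.center G))
    rw [hZ2, pow_two] at h
    exact congrArg Subtype.val h
  set Z := Subgroup.center G with hZdef
  have hZS : Z ≤ (S : Subgroup G) := by rw [hZ]; exact Subgroup.zpowers_le.2 hzS
  -- elements of order four
  have hfour : ∀ g : G, ¬ 2 ∣ orderOf g ∨ ¬ 2 ∣ orderOf (z * g) ∨
      ∃ x : G, Cfsg.IsPPart 2 g x ∧ x * x = z ∧ ∃ u : G, u * x * u⁻¹ ∈ (S : Subgroup G) := by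
    intro g
    obtain ⟨x, y, hxy, hcxy, ⟨j, hj⟩, hy⟩ := Cfsg.Agent.H40.exists_isPPart 2 g
    obtain ⟨u, hu⟩ := Cfsg.Agent.H28.Q8.exists_conj_mem S hj
    have e : u * x * u⁻¹ * (u * x * u⁻¹) = u * (x * x) * u⁻¹ := by group
    have hback : ∀ w, u * w * u⁻¹ = z → w = z := fun w hw => by
      have : w = u⁻¹ * (u * w * u⁻¹) * u := by group
      rw [this, hw, hcen, mul_assoc, inv_mul_cancel, mul_one]
    by_cases hxx : x * x = 1
    · rcases q.invol _ hu (by rw [e, hxx]; group) with h | h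
      · left
        rw [← hxy, conj_eq_one_iff.1 h, one_mul]
        exact hy
      · right; left
        rw [← hxy, hback x h, ← mul_assoc, hzz0, one_mul]
        exact hy
    · right; right
      refine ⟨x, ⟨y, hxy, hcxy, ⟨j, hj⟩, hy⟩, ?_, u, hu⟩
      refine hback _ ?_
      rw [← e]
      refine ((q.invol _ (mul_mem hu hu) (q.four _ hu)).resolve_left ?_)
      rw [e, conj_eq_one_iff]
      exact hxx
  -- constancy on a section of an element of order four
  have hsec : ∀ g x : G, Cfsg.IsPPart 2 g x → x * x = z → ∀ χ ∈ Cfsg.principalBlock M G,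
      (χ : G → ℂ) g = (χ : G → ℂ) x := by
    intro g x hgx hxx χ hχ
    obtain ⟨y, hy, hxy, ⟨j, hj⟩, hyreg⟩ := id hgx
    set C := Subgroup.centralizer ({x} : Set G) with hC
    have hxC : x ∈ C := Subgroup.mem_centralizer_singleton_iff.2 rfl
    obtain ⟨P⟩ : Nonempty (Sylow 2 C) := inferInstance
    have hxP : (⟨x, hxC⟩ : C) ∈ (P : Subgroup C) := by
      obtain ⟨R, hR⟩ := (IsPGroup.of_card (p := 2) (n := j)
        (G := Subgroup.zpowers (⟨x, hxC⟩ : C)) (by
          rw [Nat.card_zpowers, Subgroup.orderOf_mk, hj])).exists_le_sylow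
      obtain ⟨c, hc⟩ := MulAction.exists_smul_eq C R P
      rw [← hc]
      have hcm : MulAut.conj c (⟨x, hxC⟩ : C) = (⟨x, hxC⟩ : C) := by
        refine mul_inv_eq_iff_eq_mul.2 (Subtype.ext ?_)
        exact Subgroup.mem_centralizer_singleton_iff.1 c.2
      rw [← hcm]
      exact Subgroup.smul_mem_pointwise_smul _ (MulAut.conj c) _ (hR (Subgroup.mem_zpowers _))
    obtain ⟨u, hu⟩ := Cfsg.Agent.H38.exists_conj_mem_sylow S (P.isPGroup'.map C.subtype)
    have himg : ((P : Subgroup C).map C.subtype).map (MulAut.conj u).toMonoidHom ≤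
        (S : Subgroup G) := by
      rintro _ ⟨w, hw, rfl⟩
      exact hu w hw
    have hne : ((P : Subgroup C).map C.subtype).map (MulAut.conj u).toMonoidHom ≠
        (S : Subgroup G) := by
      intro heq
      have h := q.central (u * x * u⁻¹) (hu x ⟨_, hxP, rfl⟩) (fun w hw => by
        rw [← heq] at hw
        obtain ⟨_, ⟨v, hv, rfl⟩, rfl⟩ := hw
        have hcv : (v : G) * x = x * v := Subgroup.mem_centralizer_singleton_iff.1 v.2
        show u * x * u⁻¹ * (u * v * u⁻¹) = u * v * u⁻¹ * (u * x * u⁻¹)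
        calc u * x * u⁻¹ * (u * v * u⁻¹) = u * (x * v) * u⁻¹ := by group
          _ = u * (v * x) * u⁻¹ := by rw [hcv]
          _ = u * v * u⁻¹ * (u * x * u⁻¹) := by group)
      rw [show u * x * u⁻¹ * (u * x * u⁻¹) = u * (x * x) * u⁻¹ by group, conj_eq_one_iff, hxx] at h
      exact hz1 h
    haveI := q.isCyclic_of_lt himg hne
    haveI hPc : IsCyclic P := isCyclic_of_surjective _
      (((P : Subgroup C).equivMapOfInjective C.subtype C.subtype_injective).trans
        (((P : Subgroup C).map C.subtype).equivMapOfInjective (MulAut.conj u).toMonoidHom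
          (MulAut.conj u).injective)).symm.surjective
    have hxo : orderOf x ≠ 1 := fun h => hz1 (by
      rw [← hxx, orderOf_eq_one_iff.1 h, one_mul])
    have h2C : 2 ∣ Nat.card C := by
      refine dvd_trans ?_ (Subgroup.orderOf_dvd_natCard _ hxC)
      rw [hj]
      exact dvd_pow_self 2 fun h0 => hxo (by rw [hj, h0, pow_zero])
    have hmin : (Nat.card C).minFac = 2 := (Nat.minFac_eq_two_iff _).2 h2C
    have hcompl := IsCyclic.isComplement' hmin hPc
    set K := (MonoidHom.transferSylow P (hPc.normalizer_le_centralizer hmin)).ker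
    have hKle : K ≤ Cfsg.pPrimeCore 2 C := Cfsg.Agent.H19.le_pPrimeCore (MonoidHom.normal_ker _)
      ((Nat.prime_two.coprime_iff_not_dvd).2
        (MonoidHom.not_dvd_card_ker_transferSylow P _)).symm
    have hidx : ∃ k : ℕ, (Cfsg.pPrimeCore 2 C).index = 2 ^ k := by
      have h := Subgroup.index_dvd_of_le hKle
      rw [hcompl.symm.index_eq_card, P.card_eq_multiplicity] at h
      obtain ⟨k, -, hk⟩ := (Nat.dvd_prime_pow Nat.prime_two).1 h
      exact ⟨k, hk⟩
    have hyC : y ∈ C := Subgroup.mem_centralizer_singleton_iff.2 hxy.eq.symm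
    haveI := Cfsg.Agent.H19.pPrimeCore_normal 2 C
    have hyN : y ∈ Cfsg.centralizerPPrimeCore 2 x :=
      Subgroup.mem_map.2 ⟨⟨y, hyC⟩, Cfsg.Agent.H41.mem_of_regular_of_index _ hidx
        (by rwa [Subgroup.orderOf_mk]), rfl⟩
    rw [← hy]
    exact Cfsg.Agent.S0942.result 2 M hM x ⟨j, hj⟩ y hyN χ hχ
  -- the quotient by the centre
  set π := QuotientGroup.mk' Z with hπ
  let S' : Sylow 2 (G ⧸ Z) := S.mapSurjective (QuotientGroup.mk'_surjective Z)
  have hmem' : ∀ w ∈ (S' : Subgroup (G ⧸ Z)), ∃ x ∈ (S : Subgroup G), π x = w := fun w hw => by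
    obtain ⟨x, hx, rfl⟩ := hw
    exact ⟨x, hx, rfl⟩
  have hS4 : Nat.card (S' : Subgroup (G ⧸ Z)) = 4 := by
    have h := S.card_eq_multiplicity
    rw [q.card] at h
    have h1 : (Nat.card G).factorization 2 = 3 :=
      Nat.pow_right_injective le_rfl (h.symm.trans (by norm_num))
    rw [S'.card_eq_multiplicity]
    have hm := Z.card_mul_index
    rw [hZ2] at hm
    rw [← hm, Nat.factorization_mul two_ne_zero Z.index_ne_zero_of_finite, Finsupp.add_apply,
      Nat.prime_two.factorization_self] at h1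
    have hi : (Nat.card (G ⧸ Z)).factorization 2 = 2 := by
      have : Nat.card (G ⧸ Z) = Z.index := rfl
      rw [this]
      omega
    rw [hi]
    norm_num
  have hexp : ∀ w : (S' : Subgroup (G ⧸ Z)), w * w = 1 := by
    rintro ⟨w, hw⟩
    obtain ⟨x, hx, rfl⟩ := hmem' w hw
    refine Subtype.ext ?_
    show π x * π x = 1
    rw [← map_mul]
    refine (QuotientGroup.eq_one_iff _).2 ?_
    rcases q.invol _ (mul_mem hx hx) (q.four x hx) with h | h <;> rw [h]
    · exact one_mem _
    · exact hz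
  haveI hK : IsKleinFour (S' : Subgroup (G ⧸ Z)) := by
    refine ⟨hS4, ?_⟩
    haveI : Nontrivial (S' : Subgroup (G ⧸ Z)) := Finite.one_lt_card_iff_nontrivial.1 (by omega)
    refine (Monoid.exponent_eq_prime_iff Nat.prime_two).2 fun w hw => orderOf_eq_prime ?_ hw
    rw [pow_two]
    exact hexp w
  haveI : IsKleinFour (Multiplicative (ZMod (2 ^ 1) × ZMod (2 ^ 1))) :=
    inferInstanceAs (IsKleinFour (Multiplicative (ZMod 2 × ZMod 2)))
  obtain ⟨e'⟩ := IsKleinFour.nonempty_mulEquiv (G₁ := (S' : Subgroup (G ⧸ Z)))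
    (G₂ := Multiplicative (ZMod (2 ^ 1) × ZMod (2 ^ 1)))
  have hone : ∀ s t : G ⧸ Z, orderOf s = 2 → orderOf t = 2 → IsConj s t := by
    rcases Cfsg.Agent.S0946.result S' 1 le_rfl e' with ⟨N, hN, hcompl⟩ | h
    · exfalso
      set K := N.comap π with hK'
      have hKc : K.index = 4 := by
        rw [hK', Subgroup.index_comap_of_surjective _ (QuotientGroup.mk'_surjective Z),
          hcompl.symm.index_eq_card, hS4]
      -- the elements of odd order in `K`
      have hZK : Z ≤ K := fun w hw => by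
        show π w ∈ N
        rw [show π w = 1 from (QuotientGroup.eq_one_iff _).2 hw]
        exact one_mem N
      have hKodd : ∀ n ∈ N, ¬ 2 ∣ orderOf n := fun n hn h => by
        have h1 := h.trans (Subgroup.orderOf_dvd_natCard N hn)
        rw [← hcompl.index_eq_card] at h1
        exact S'.not_dvd_index h1
      obtain ⟨H, hH⟩ := Subgroup.exists_right_complement'_of_coprime (N := Z.subgroupOf K) (by
        rw [Nat.card_congr (Subgroup.subgroupOfEquivOfLe hZK).toEquiv, hZ2,
          Nat.prime_two.coprime_iff_not_dvd]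
        intro h
        have h1 : (Z.subgroupOf K).index = Z.relIndex K := rfl
        rw [h1] at h
        have h2 : Nat.card N = Z.relIndex K := by
          have h3 := Subgroup.relIndex_mul_index hZK
          have h4 := N.card_mul_index
          rw [hcompl.symm.index_eq_card, hS4] at h4
          rw [hKc] at h3
          have : Nat.card (G ⧸ Z) = Z.index := rfl
          omega
        rw [← h2, ← hcompl.index_eq_card] at h
        exact S'.not_dvd_index h)
      have hHn : H.Normal := Subgroup.normal_of_index_eq_two (by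
        rw [hH.index_eq_card, Nat.card_congr (Subgroup.subgroupOfEquivOfLe hZK).toEquiv, hZ2])
      have hHreg : ∀ w : K, ¬ 2 ∣ orderOf w → w ∈ H := fun w hw =>
        Cfsg.Agent.H41.mem_of_regular_of_index H ⟨1, by
          rw [hH.index_eq_card, Nat.card_congr (Subgroup.subgroupOfEquivOfLe hZK).toEquiv, hZ2,
            pow_one]⟩ hw
      have hHodd : ¬ 2 ∣ Nat.card H := by
        intro h
        obtain ⟨w, hw⟩ := exists_prime_orderOf_dvd_card' (G := H) 2 h
        rw [← Subgroup.orderOf_coe, ← Subgroup.orderOf_coe] at hw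
        have hne : ((w : K) : G) ≠ 1 := fun h => by rw [h, orderOf_one] at hw; omega
        have hmemN : π ((w : K) : G) ∈ N := (w : K).2
        have h1 : π ((w : K) : G) = 1 := by
          by_contra hn
          refine hKodd _ hmemN ?_
          rw [orderOf_eq_prime (p := 2) ?_ hn]
          rw [← map_pow, ← hw, pow_orderOf_eq_one, map_one]
        have hwz : ((w : K) : G) = z :=
          (hzmem _ ((QuotientGroup.eq_one_iff _).1 h1)).resolve_left hne
        have := hH.disjoint.le_bot (x := (w : K))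
          ⟨Subgroup.mem_subgroupOf.2 (by rw [hwz]; exact hz), w.2⟩
        exact hne (congrArg Subtype.val (Subgroup.mem_bot.1 this))
      have hmap : (H.map K.subtype).Normal := by
        refine ⟨fun w hw g => ?_⟩
        obtain ⟨v, hv, rfl⟩ := hw
        haveI : K.Normal := Subgroup.Normal.comap hN π
        refine ⟨⟨g * v * g⁻¹, Subgroup.Normal.conj_mem inferInstance _ v.2 g⟩, hHreg _ ?_, rfl⟩
        rw [Subgroup.orderOf_mk, show orderOf (g * (v : G) * g⁻¹) = orderOf (v : G) from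
          (MulAut.conj g).orderOf_eq _, Subgroup.orderOf_coe]
        exact fun h => hHodd (h.trans (Subgroup.orderOf_dvd_natCard H hv))
      have hbot := hO _ hmap (by
        rw [Subgroup.card_map_of_injective K.subtype_injective]
        exact Nat.odd_iff.2 (by omega))
      rw [Subgroup.map_eq_bot_iff_of_injective _ K.subtype_injective] at hbot
      have h1 := hH.card_mul
      rw [hbot, Subgroup.card_bot, Nat.card_congr (Subgroup.subgroupOfEquivOfLe hZK).toEquiv, hZ2]
        at h1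
      have h2 := K.card_mul_index
      rw [hKc] at h2
      refine hG (Subgroup.eq_top_of_card_eq _ ?_)
      rw [q.card]
      omega
    · exact h
  obtain ⟨ζ₂, ζ₃, ζ₄, ε, hε, hζ2, hζ3, h23, h24, h34, hB', hval, -, -, -, hrel⟩ :=
    Cfsg.Agent.S0948.result M hM S' hK hone
  set Z1 := Cfsg.Agent.H26.oneIrr (G ⧸ Z) with hZ1def
  have h1ne : ∀ ζ : Cfsg.IrrCharacter (G ⧸ Z), (ζ : G ⧸ Z → ℂ) = (fun _ => 1) ↔ ζ = Z1 := fun ζ =>
    ⟨fun h => Subtype.ext (h.trans (funext fun g => (Cfsg.Agent.H26.oneIrr_val g).symm)),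
      fun h => funext fun g => h ▸ Cfsg.Agent.H26.oneIrr_val g⟩
  -- an involution of the quotient
  have hinv : ∀ x : G, x * x = z → orderOf (π x) = 2 := fun x hx => orderOf_eq_prime
    (by rw [pow_two, ← map_mul, hx]; exact (QuotientGroup.eq_one_iff _).2 hz)
    (fun h => by
      rcases hzmem x ((QuotientGroup.eq_one_iff _).1 h) with h1 | h1
      · rw [h1, one_mul] at hx; exact hz1 hx.symm
      · rw [h1, hzz0] at hx; exact hz1 hx.symm)
  have h4ne : ζ₄ ≠ Z1 := by
    intro h
    have h1 := (hval (π i₀) (hinv i₀ q.hiz)).2.2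
    rw [h, Cfsg.Agent.H26.oneIrr_val] at h1
    norm_num at h1
  have h2ne : ζ₂ ≠ Z1 := fun h => hζ2 ((h1ne _).2 h)
  have h3ne : ζ₃ ≠ Z1 := fun h => hζ3 ((h1ne _).2 h)
  -- the two kinds of characters
  set B := Cfsg.principalBlock M G with hBdef
  let f := Cfsg.Agent.H44.inflate Z
  set U : Set (Cfsg.IrrCharacter G) := {ψ | ψ ∈ B ∧ ∀ g : G, (ψ : G → ℂ) (z * g) = 1 * (ψ : G → ℂ) g}
    with hU
  set F : Set (Cfsg.IrrCharacter G) := {ψ | ψ ∈ B ∧ ∀ g : G, (ψ : G → ℂ) (z * g) = -1 * (ψ : G → ℂ) g}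
    with hF
  have hfsame : ∀ ζ, f ζ ∈ B ↔ ζ ∈ Cfsg.principalBlock M (G ⧸ Z) := by
    intro ζ
    have hidx : ∃ k : ℕ, (Subgroup.centralizer (Z : Set G)).index = 2 ^ k := ⟨0, by
      rw [pow_zero, Subgroup.index_eq_one, eq_top_iff]
      intro g _
      exact Subgroup.mem_centralizer_iff.2 fun w hw => (Subgroup.mem_center_iff.1 hw g).symm⟩
    have h := (Cfsg.Agent.S0941.result 2 M hM Z
      (IsPGroup.of_card (n := 1) (by rw [hZ2, pow_one])) hidx).1 Z1 ζ
    have e1 : ((Z1 : G ⧸ Z → ℂ) ∘ QuotientGroup.mk : G → ℂ) = fun _ => 1 :=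
      funext fun g => Cfsg.Agent.H26.oneIrr_val _
    rw [e1] at h
    exact h.symm
  have hUeq : U = f '' {Z1, ζ₂, ζ₃, ζ₄} := by
    ext ψ
    constructor
    · rintro ⟨hψB, hψz⟩
      obtain ⟨ζ, rfl⟩ := Cfsg.Agent.H44.exists_eq_inflate Z ψ (fun g hg => by
        rw [Cfsg.Agent.H44.mem_kerOf]
        rcases hzmem g hg with h | h <;> rw [h]
        have := hψz 1
        rwa [mul_one, one_mul] at this)
      have h := (hfsame ζ).1 hψB
      rw [hB'] at h
      refine ⟨ζ, ?_, rfl⟩
      simp only [Set.mem_setOf_eq, h1ne] at h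
      simpa using h
    · rintro ⟨ζ, hζ, rfl⟩
      refine ⟨(hfsame ζ).2 ?_, fun g => ?_⟩
      · rw [hB']
        simp only [Set.mem_setOf_eq, h1ne]
        simpa using hζ
      · rw [one_mul, Cfsg.Agent.H44.inflate_apply, Cfsg.Agent.H44.inflate_apply, QuotientGroup.mk_mul,
          (QuotientGroup.eq_one_iff z).2 hz, one_mul]
  let r : Cfsg.IrrCharacter G → (G → ℂ) := fun ψ => Cfsg.Agent.H42.regRes 2 (ψ : G → ℂ)
  have hspan : ∀ s : ℂ, s = 1 ∨ s = -1 → Submodule.span ℂ (r '' B) = Submodule.span ℂ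
      (r '' {ψ | ψ ∈ B ∧ ∀ g : G, (ψ : G → ℂ) (z * g) = s * (ψ : G → ℂ) g}) := by
    intro s hs
    refine le_antisymm (Submodule.span_le.2 ?_) (Submodule.span_mono (Set.image_mono fun ψ h => h.1))
    rintro _ ⟨χ, hχ, rfl⟩
    exact Cfsg.Agent.H41.regRes_mem_span_of_sign hM Cfsg.Agent.H41.isPBlock_principalBlock hz hzo hs hχ
  -- independence
  have hvanish : ∀ ψ ∈ F, ∀ g x : G, Cfsg.IsPPart 2 g x → x * x = z → (∃ u, u * x * u⁻¹ ∈ (S : Subgroup G)) →
      (ψ : G → ℂ) g = 0 := by
    intro ψ hψ g x hgx hxx ⟨u, hu⟩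
    rw [hsec g x hgx hxx ψ hψ.1]
    obtain ⟨w, -, hw⟩ := q.invert _ hu
    have h1 : (u⁻¹ * w * u) * x * (u⁻¹ * w * u)⁻¹ = z * x := by
      have h2 : (u⁻¹ * w * u) * x * (u⁻¹ * w * u)⁻¹ = u⁻¹ * (w * (u * x * u⁻¹) * w⁻¹) * u := by group
      rw [h2, hw]
      have h3 : x⁻¹ = z * x := inv_eq_of_mul_eq_one_left (by rw [mul_assoc, hxx, hzz0])
      rw [show u⁻¹ * (u * x * u⁻¹)⁻¹ * u = x⁻¹ by group, h3]
    have h4 := Cfsg.Agent.H26.irr_conj ψ x (u⁻¹ * w * u)
    rw [h1, hψ.2 x] at h4
    have h5 : (ψ : G → ℂ) x = 0 := by linear_combination -(1 / 2 : ℂ) * h4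
    exact h5
  have hliF : LinearIndependent ℂ (fun ψ : F => r ψ.1) := by
    rw [Fintype.linearIndependent_iff]
    intro c hc
    have hθ : ∀ g : G, ∑ ψ : F, c ψ * ((ψ : Cfsg.IrrCharacter G) : G → ℂ) g = 0 := by
      have hreg : ∀ g : G, ¬ 2 ∣ orderOf g →
          ∑ ψ : F, c ψ * ((ψ : Cfsg.IrrCharacter G) : G → ℂ) g = 0 := fun g hg => by
        have := congrFun hc g
        simpa [r, Cfsg.Agent.H42.regRes, hg, Finset.sum_apply] using this
      intro g
      rcases hfour g with h | h | ⟨x, hx, hxx, hu⟩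
      · exact hreg g h
      · rw [← neg_eq_zero, ← Finset.sum_neg_distrib, ← hreg _ h]
        exact Finset.sum_congr rfl fun ψ _ => by rw [ψ.2.2 g]; ring
      · exact Finset.sum_eq_zero fun ψ _ => by rw [hvanish ψ.1 ψ.2 g x hx hxx hu, mul_zero]
    refine Fintype.linearIndependent_iff.1
      (Cfsg.Agent.H26.irr_linearIndependent.comp (fun ψ : F => ψ.1) Subtype.val_injective) c ?_
    funext g
    simpa [Finset.sum_apply] using hθ g
  have hr1 : ∀ (ζ : Cfsg.IrrCharacter (G ⧸ Z)) (g : G), ¬ 2 ∣ orderOf g →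
      r (f ζ) g = (ζ : G ⧸ Z → ℂ) (π g) := fun ζ g hg => by
    simp only [r, Cfsg.Agent.H42.regRes, if_neg hg]
    rfl
  have hr4 : r (f ζ₄) = r (f Z1) + r (f ζ₂) + (ε : ℂ) • r (f ζ₃) := by
    funext g
    by_cases hg : 2 ∣ orderOf g
    · simp [r, Cfsg.Agent.H42.regRes, hg]
    · simp only [Pi.add_apply, Pi.smul_apply, smul_eq_mul, hr1 _ g hg]
      have hodd : Odd (orderOf (π g)) := by
        rw [← Nat.not_even_iff_odd, even_iff_two_dvd]
        exact fun h => hg (h.trans (orderOf_map_dvd π g))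
      have h := hrel (π g) hodd
      rw [Cfsg.Agent.H26.oneIrr_val]
      linear_combination -h
  let v : Fin 3 → (G → ℂ) := ![r (f Z1), r (f ζ₂), r (f ζ₃)]
  have hliV : LinearIndependent ℂ v := by
    rw [Fintype.linearIndependent_iff]
    intro c hc
    simp only [v, Fin.sum_univ_three, Matrix.cons_val_zero, Matrix.cons_val_one,
      Matrix.cons_val_two, Matrix.tail_cons, Matrix.head_cons] at hc
    let θ : G → ℂ := fun g => c 0 * (f Z1 : G → ℂ) g + c 1 * (f ζ₂ : G → ℂ) g + c 2 * (f ζ₃ : G → ℂ) g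
    let s : ℂ := c 0 + c 1 + c 2 * (ε : ℂ)
    have hreg : ∀ g : G, ¬ 2 ∣ orderOf g → θ g = 0 := fun g hg => by
      have := congrFun hc g
      simpa [θ, r, Cfsg.Agent.H42.regRes, hg] using this
    have hfz : ∀ (ζ : Cfsg.IrrCharacter (G ⧸ Z)) (g : G),
        (f ζ : G → ℂ) (z * g) = (f ζ : G → ℂ) g := fun ζ g => by
      simp only [f, Cfsg.Agent.H44.inflate_apply, QuotientGroup.mk_mul,
        (QuotientGroup.eq_one_iff z).2 hz, one_mul]
    have hsing : ∀ g x : G, Cfsg.IsPPart 2 g x → x * x = z → ∀ ζ ∈ ({Z1, ζ₂, ζ₃, ζ₄} : Set _),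
        (f ζ : G → ℂ) g = (ζ : G ⧸ Z → ℂ) (π x) := fun g x hgx hxx ζ hζ => by
      have hm : f ζ ∈ U := by rw [hUeq]; exact ⟨ζ, hζ, rfl⟩
      rw [hsec g x hgx hxx _ hm.1]
      rfl
    have hθval : ∀ g : G, θ g = if (∃ x, Cfsg.IsPPart 2 g x ∧ x * x = z) then s else 0 := by
      intro g
      by_cases h : ∃ x, Cfsg.IsPPart 2 g x ∧ x * x = z
      · rw [if_pos h]
        obtain ⟨x, hgx, hxx⟩ := h
        obtain ⟨e2, e3, -⟩ := hval (π x) (hinv x hxx)
        simp only [θ, s]
        rw [hsing g x hgx hxx Z1 (by simp), hsing g x hgx hxx ζ₂ (by simp),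
          hsing g x hgx hxx ζ₃ (by simp), e2, e3, Cfsg.Agent.H26.oneIrr_val]
        ring
      · rw [if_neg h]
        rcases hfour g with h1 | h1 | ⟨x, hgx, hxx, -⟩
        · exact hreg g h1
        · have h2 := hreg _ h1
          simp only [θ, hfz] at h2
          exact h2
        · exact absurd ⟨x, hgx, hxx⟩ h
    have horth : ∀ a : Cfsg.IrrCharacter (G ⧸ Z), a ≠ ζ₄ →
        ∑ g : G, (f a : G → ℂ) g * starRingEnd ℂ ((f ζ₄ : G → ℂ) g) = 0 := fun a ha => by
      have h := Cfsg.Agent.H26.classInner_irr (f a) (f ζ₄)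
      rw [if_neg (fun e => ha (Cfsg.Agent.H44.inflate_injective Z e)), Cfsg.classInner,
        mul_eq_zero] at h
      exact h.resolve_left (inv_ne_zero (Nat.cast_ne_zero.2 Nat.card_pos.ne'))
    have hs : s = 0 := by
      have h0 : ∑ g : G, θ g * starRingEnd ℂ ((f ζ₄ : G → ℂ) g) = 0 := by
        simp only [θ, add_mul, Finset.sum_add_distrib, mul_assoc, ← Finset.mul_sum]
        rw [horth Z1 h4ne.symm, horth ζ₂ h24, horth ζ₃ h34]
        simp
      have h1 : ∀ g : G, θ g * starRingEnd ℂ ((f ζ₄ : G → ℂ) g) =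
          if (∃ x, Cfsg.IsPPart 2 g x ∧ x * x = z) then -s else 0 := fun g => by
        rw [hθval]
        by_cases h : ∃ x, Cfsg.IsPPart 2 g x ∧ x * x = z
        · rw [if_pos h, if_pos h]
          obtain ⟨x, hgx, hxx⟩ := h
          rw [hsing g x hgx hxx ζ₄ (by simp), (hval (π x) (hinv x hxx)).2.2]
          simp
        · rw [if_neg h, if_neg h, zero_mul]
      rw [Finset.sum_congr rfl fun g _ => h1 g, ← Finset.sum_filter, Finset.sum_const,
        nsmul_eq_mul, mul_eq_zero, Nat.cast_eq_zero, neg_eq_zero] at h0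
      refine h0.resolve_left (Finset.card_pos.2 ⟨i₀, Finset.mem_filter.2 ⟨Finset.mem_univ _,
        i₀, ⟨1, mul_one _, Commute.one_right _, ⟨2, ?_⟩, by simp⟩, q.hiz⟩⟩).ne'
      exact (q.orderOf_four q.hiS).2 (by rw [q.hiz]; exact hz1)
    have hθ0 : ∀ g, θ g = 0 := fun g => by rw [hθval, hs]; simp
    have hli : LinearIndependent ℂ (fun j : Fin 3 => (((![f Z1, f ζ₂, f ζ₃] : Fin 3 → _) j :
        Cfsg.IrrCharacter G) : G → ℂ)) := Cfsg.Agent.H26.irr_linearIndependent.comp _ (by
      have hinj := Cfsg.Agent.H44.inflate_injective Z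
      intro a b hab
      fin_cases a <;> fin_cases b <;> simp only [Matrix.cons_val_zero, Matrix.cons_val_one,
        Matrix.cons_val_two, Matrix.tail_cons, Matrix.head_cons, Fin.zero_eta, Fin.mk_one,
        Fin.reduceFinMk, f, hinj.eq_iff] at hab ⊢
      all_goals first | rfl | exact absurd hab h2ne | exact absurd hab h2ne.symm |
        exact absurd hab h3ne | exact absurd hab h3ne.symm | exact absurd hab h23 |
        exact absurd hab h23.symm)
    refine Fintype.linearIndependent_iff.1 hli c ?_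
    funext g
    simpa [θ, Fin.sum_univ_three] using hθ0 g
  have hVspan : Submodule.span ℂ (r '' U) = Submodule.span ℂ (Set.range v) := by
    refine le_antisymm (Submodule.span_le.2 ?_) (Submodule.span_le.2 ?_)
    · rintro _ ⟨ψ, hψ, rfl⟩
      rw [hUeq] at hψ
      obtain ⟨ζ, hζ, rfl⟩ := hψ
      have hm : ∀ j, v j ∈ Submodule.span ℂ (Set.range v) := fun j => Submodule.subset_span ⟨j, rfl⟩
      simp only [Set.mem_insert_iff, Set.mem_singleton_iff] at hζ
      rcases hζ with rfl | rfl | rfl | rfl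
      · exact hm 0
      · exact hm 1
      · exact hm 2
      · rw [SetLike.mem_coe, hr4]
        exact add_mem (add_mem (hm 0) (hm 1)) (Submodule.smul_mem _ _ (hm 2))
    · rintro _ ⟨j, rfl⟩
      refine Submodule.subset_span ?_
      fin_cases j
      · exact ⟨f Z1, hUeq ▸ ⟨Z1, by simp, rfl⟩, rfl⟩
      · exact ⟨f ζ₂, hUeq ▸ ⟨ζ₂, by simp, rfl⟩, rfl⟩
      · exact ⟨f ζ₃, hUeq ▸ ⟨ζ₃, by simp, rfl⟩, rfl⟩
  have hFcard : Nat.card F = 3 := by
    have h1 := finrank_span_eq_card hliF
    have h2 := finrank_span_eq_card hliV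
    have hrange : Set.range (fun ψ : F => r ψ.1) = r '' F := by
      ext w; simp [Set.mem_image]
    rw [hrange, ← hspan (-1) (Or.inr rfl)] at h1
    rw [← hVspan, ← hspan 1 (Or.inl rfl)] at h2
    rw [Nat.card_eq_fintype_card, ← h1, h2, Fintype.card_fin]
  have hBU : B = U ∪ F := by
    ext ψ
    constructor
    · intro hψ
      obtain ⟨s, rfl | rfl, hs⟩ := Cfsg.Agent.H41.exists_sign_central_involution ψ hz hzz0
      · exact Or.inl ⟨hψ, hs⟩
      · exact Or.inr ⟨hψ, hs⟩
    · rintro (h | h) <;> exact h.1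
  have hdisj : Disjoint U F := Set.disjoint_left.2 fun ψ h1 h2 => by
    have a := h1.2 1
    have b := h2.2 1
    rw [mul_one] at a b
    exact Cfsg.Agent.H26.irr_one_ne_zero ψ (by linear_combination (1 / 2 : ℂ) * b - (1 / 2 : ℂ) * a)
  have hUcard : U.ncard = 4 := by
    rw [hUeq, Set.ncard_image_of_injective _ (Cfsg.Agent.H44.inflate_injective Z),
      Set.ncard_insert_of_notMem (by simp [h2ne.symm, h3ne.symm, h4ne.symm]),
      Set.ncard_insert_of_notMem (by simp [h23, h24]), Set.ncard_pair h34]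
  rw [Nat.card_coe_set_eq, hBU, Set.ncard_union_eq hdisj (Set.toFinite _) (Set.toFinite _), hUcard,
    ← Nat.card_coe_set_eq, hFcard]

end Cfsg.Agent.S0951
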