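import Cfsg.Statements.S0953
import Cfsg.Agent.H41.SylowDefect

set_option autoImplicit false
open Cfsg

namespace Cfsg.Agent.S0953

/-- Let P be a Sylow p-subgroup of the finite group G with normalizer N, and fix a maximal ideal M of the algebraic integers containing p. The number of blocks of G having P as a defect group equals the number of conjugacy classes of N consisting of elements of order prime to p that centralize P. -/
theorem result {G : Type*} [Group G] [Finite G] (p : ℕ) [Fact p.Prime] (M : Ideal Cfsg.AlgInt) (hM : Cfsg.IsPModular p M) (P : Sylow p G) : Nat.card {B : Set (Cfsg.IrrCharacter G) // Cfsg.IsPBlock M B ∧ Cfsg.IsDefectGroup p M B (P : Subgroup G)} = Nat.card {C : ConjClasses (Subgroup.normalizer ((P : Subgroup G) : Set G)) // ∀ n : Subgroup.normalizer ((P : Subgroup G) : Set G), ConjClasses.mk n = C → ¬ p ∣ orderOf n ∧ (n : G) ∈ Subgroup.centralizer ((P : Subgroup G) : Set G)} := by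
  classical
  haveI := hM.2.1
  have hP : IsPGroup p (P : Subgroup G) := P.2
  have hPN : (P : Subgroup G) ≤ Subgroup.normalizer ((P : Subgroup G) : Set G) := Subgroup.le_normalizer
  haveI : ((P : Subgroup G).subgroupOf (Subgroup.normalizer ((P : Subgroup G) : Set G))).Normal :=
    Subgroup.normal_subgroupOf_of_le_normalizer le_rfl
  have hQ : IsPGroup p ((P : Subgroup G).subgroupOf (Subgroup.normalizer ((P : Subgroup G) : Set G))) :=
    hP.of_equiv (Subgroup.subgroupOfEquivOfLe hPN).symm
  have hidx : ¬ p ∣ ((P : Subgroup G).subgroupOf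
      (Subgroup.normalizer ((P : Subgroup G) : Set G))).index := (P.subtype hPN).not_dvd_index
  have hdef := fun b (hb : Cfsg.IsPBlock M b) =>
    Cfsg.Agent.H41.isDefectGroup_normalSylow hM hQ hidx hb
  choose f hf using fun (b : {b // Cfsg.IsPBlock M b}) =>
    Cfsg.Agent.H40.exists_isInducedBlock_defectGroup hM hP b.2 (hdef b.1 b.2)
  let F : {b // Cfsg.IsPBlock M b} →
      {B : Set (Cfsg.IrrCharacter G) // Cfsg.IsPBlock M B ∧ Cfsg.IsDefectGroup p M B (P : Subgroup G)} :=
    fun b => ⟨f b, (hf b).1, (hf b).2.1⟩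
  have hbij : Function.Bijective F := by
    constructor
    · intro b b' h
      have e : f b = f b' := congrArg Subtype.val h
      exact Subtype.ext (Cfsg.Agent.H40.inducing_block_unique hM hP (hdef b.1 b.2) (hdef b'.1 b'.2)
        (hf b).2.2 (e ▸ (hf b').2.2))
    · rintro ⟨B, hB, hBD⟩
      obtain ⟨b, hb, -, hind⟩ := Cfsg.Agent.H40.exists_inducing_block hM hB hBD
      refine ⟨⟨b, hb⟩, Subtype.ext ?_⟩
      obtain ⟨ξ, hξ⟩ := Cfsg.Agent.H41.IsPBlock.nonempty hb
      obtain ⟨χ, hχ⟩ := Cfsg.Agent.H41.IsPBlock.nonempty hB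
      obtain ⟨χ', hχ'⟩ := Cfsg.Agent.H41.IsPBlock.nonempty (hf ⟨b, hb⟩).1
      show f ⟨b, hb⟩ = B
      refine Cfsg.Agent.H41.block_eq_of_mem_of_mem (hf ⟨b, hb⟩).1 hB hχ'
        ((Cfsg.Agent.H41.mem_iff_of_sameBlock hB (fun g => ?_)).1 hχ)
      have h1 := hind.2.2 ξ hξ χ hχ g
      have h2 := (hf ⟨b, hb⟩).2.2.2.2 ξ hξ χ' hχ' g
      obtain ⟨a1, e1⟩ := Cfsg.Agent.H41.memLocalIdeal_iff_res.1 h1
      obtain ⟨a2, e2⟩ := Cfsg.Agent.H41.memLocalIdeal_iff_res.1 h2
      refine Cfsg.Agent.H41.memLocalIdeal_iff_res.2 ⟨?_, ?_⟩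
      · simpa using sub_mem a2 a1
      · have h3 := congrArg₂ (· - ·) e2 e1
        simp only [← map_sub, sub_zero] at h3
        convert h3 using 3
        push_cast
        ring
  rw [← Nat.card_eq_of_bijective F hbij, Cfsg.Agent.H41.card_blocks_normalSylow hM _ hQ hidx]
  refine Nat.card_congr (Equiv.subtypeEquivRight fun C => forall_congr' fun n =>
    imp_congr_right fun _ => and_congr_right fun _ => ?_)
  simp only [Subgroup.mem_centralizer_iff]
  constructor
  · intro h a ha
    exact congrArg Subtype.val (h ⟨a, hPN ha⟩ ha)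
  · intro h a ha
    exact Subtype.ext (h a ha)

end Cfsg.Agent.S0953
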