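import Cfsg.Statements.S0954
import Cfsg.Agent.H41.PrimeNormal

set_option autoImplicit false
open Cfsg

namespace Cfsg.Agent.S0954

/-- Let N be a normal subgroup of the finite group G of order prime to p and of p-power index (a normal p-complement), and fix a maximal ideal M of the algebraic integers containing p. Then two irreducible characters χ, ψ of G lie in the same block if and only if some irreducible character of N has nonzero inner product with both the restriction of χ and the restriction of ψ. -/
theorem result {G : Type*} [Group G] [Fintype G] (p : ℕ) [Fact p.Prime] (M : Ideal Cfsg.AlgInt) (hM : Cfsg.IsPModular p M) (N : Subgroup G) [N.Normal] [Fintype N] (hN : ¬ p ∣ Nat.card N) (hidx : ∃ k : ℕ, N.index = p ^ k) (χ ψ : Cfsg.IrrCharacter G) : Cfsg.SameBlock M (χ : G → ℂ) (ψ : G → ℂ) ↔ ∃ θ : Cfsg.IrrCharacter N, Cfsg.classInner (fun n : N => (χ : G → ℂ) n) (θ : N → ℂ) ≠ 0 ∧ Cfsg.classInner (fun n : N => (ψ : G → ℂ) n) (θ : N → ℂ) ≠ 0 := by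
  classical
  have := hM.2.1
  constructor
  · intro h
    obtain ⟨θ, hθ⟩ := H41.exists_constituent N χ
    obtain ⟨φ, hφ⟩ := H41.exists_constituent N ψ
    obtain ⟨g, hg⟩ := H41.exists_twistIrr_eq_of_sameBlock N hM hN h hθ hφ
    exact ⟨θ, hθ, by rwa [← hg, H41.classInner_twistIrr]⟩
  · rintro ⟨θ, h1, h2⟩
    exact H41.mem_block_of_regular_in (p := p) N hM
      (fun g hg => H41.mem_of_regular_of_index N hidx hg)
      (H41.isPBlock_blockOf θ) (H41.isPBlock_blockOf χ) (H41.mem_blockOf_self χ)
      (H41.mem_blockOf_self θ) (H41.mem_blockOf_self θ) h1 h2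

end Cfsg.Agent.S0954
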