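import Cfsg.Statements.S0957
import Mathlib.GroupTheory.Sylow
import Mathlib.GroupTheory.GroupAction.Quotient

set_option autoImplicit false
open Cfsg

namespace Cfsg.Agent.S0957

/-- Let P be a Sylow p-subgroup of the finite group G, let g, h ∈ G and let p ^ d be the order of a Sylow p-subgroup of the centralizer of g. Then the number of pairs (y, z) with y conjugate to g, z conjugate to h and z * y⁻¹ ∈ P is divisible by the order of P divided by p ^ d. -/
theorem result {G : Type*} [Group G] [Finite G] (p : ℕ) [Fact p.Prime] (P : Sylow p G) (g h : G) (S : Sylow p (Subgroup.centralizer ({g} : Set G))) : Nat.card P / Nat.card S ∣ Nat.card {yz : G × G // IsConj g yz.1 ∧ IsConj h yz.2 ∧ yz.2 * yz.1⁻¹ ∈ (P : Subgroup G)} := by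
  classical
  have := Fintype.ofFinite G
  let X := {yz : G × G // IsConj g yz.1 ∧ IsConj h yz.2 ∧ yz.2 * yz.1⁻¹ ∈ (P : Subgroup G)}
  let c : P → X → X := fun u w => ⟨((u : G) * w.1.1 * (u : G)⁻¹, (u : G) * w.1.2 * (u : G)⁻¹),
    w.2.1.trans (isConj_iff.2 ⟨u, rfl⟩), w.2.2.1.trans (isConj_iff.2 ⟨u, rfl⟩), by
      have : (u : G) * w.1.2 * (u : G)⁻¹ * ((u : G) * w.1.1 * (u : G)⁻¹)⁻¹ =
          (u : G) * (w.1.2 * w.1.1⁻¹) * (u : G)⁻¹ := by group
      rw [this]
      exact mul_mem (mul_mem u.2 w.2.2.2) (inv_mem u.2)⟩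
  let _ : MulAction P X :=
    { smul := c
      one_smul := fun w => Subtype.ext (Prod.ext
        (show ((1 : P) : G) * w.1.1 * ((1 : P) : G)⁻¹ = w.1.1 by simp)
        (show ((1 : P) : G) * w.1.2 * ((1 : P) : G)⁻¹ = w.1.2 by simp))
      mul_smul := fun a b w => Subtype.ext (Prod.ext
        (show ((a * b : P) : G) * w.1.1 * ((a * b : P) : G)⁻¹ =
            (a : G) * ((b : G) * w.1.1 * (b : G)⁻¹) * (a : G)⁻¹ by simp [mul_assoc])
        (show ((a * b : P) : G) * w.1.2 * ((a * b : P) : G)⁻¹ =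
            (a : G) * ((b : G) * w.1.2 * (b : G)⁻¹) * (a : G)⁻¹ by simp [mul_assoc])) }
  show Nat.card P / Nat.card S ∣ Nat.card X
  rw [Nat.card_congr (MulAction.selfEquivSigmaOrbits' P X), Nat.card_sigma]
  refine Finset.dvd_sum fun w _ => ?_
  obtain ⟨x, rfl⟩ := Quotient.mk_surjective w
  rw [MulAction.orbitRel.Quotient.orbit_mk, Nat.card_coe_set_eq, ← MulAction.index_stabilizer]
  set T := MulAction.stabilizer P x with hTdef
  have hT := Subgroup.card_mul_index T
  obtain ⟨k, hk⟩ := (P.2.to_subgroup T).exists_card_eq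
  obtain ⟨d, hd⟩ := S.2.exists_card_eq
  obtain ⟨a, ha⟩ := isConj_iff.1 x.2.1
  have hmem : ∀ t : T, a⁻¹ * ((t : P) : G) * a ∈ Subgroup.centralizer ({g} : Set G) := fun t => by
    rw [Subgroup.mem_centralizer_singleton_iff]
    have h1 : ((t : P) : G) * x.1.1 * ((t : P) : G)⁻¹ = x.1.1 :=
      congr_arg (fun w : X => w.1.1) (MulAction.mem_stabilizer_iff.1 t.2)
    rw [← ha, mul_inv_eq_iff_eq_mul] at h1
    rw [show a⁻¹ * ((t : P) : G) * a * g = a⁻¹ * (((t : P) : G) * (a * g * a⁻¹)) * a by group, h1]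
    group
  let f : T →* Subgroup.centralizer ({g} : Set G) :=
    { toFun := fun t => ⟨_, hmem t⟩
      map_one' := Subtype.ext (by simp)
      map_mul' := fun s t => Subtype.ext (by simp [mul_assoc]) }
  have hfinj : Function.Injective f := fun s t e => by
    have : a⁻¹ * ((s : P) : G) * a = a⁻¹ * ((t : P) : G) * a := congr_arg Subtype.val e
    exact Subtype.ext (Subtype.ext (mul_left_cancel (mul_right_cancel this)))
  have hTC := Subgroup.card_dvd_of_injective f hfinj
  have hTS : Nat.card T ∣ Nat.card S := by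
    rw [hk] at hTC ⊢
    exact S.pow_dvd_card_of_pow_dvd_card hTC
  have hSP : Nat.card S ∣ Nat.card P := by
    rw [hd]
    refine P.pow_dvd_card_of_pow_dvd_card ?_
    rw [← hd]
    exact (Subgroup.card_subgroup_dvd_card _).trans (Subgroup.card_subgroup_dvd_card _)
  obtain ⟨m, hm⟩ := hTS
  have hm' : m ∣ T.index := by
    rw [hm, ← hT] at hSP
    exact Nat.dvd_of_mul_dvd_mul_left Nat.card_pos hSP
  rw [← hT, hm, Nat.mul_div_mul_left _ _ Nat.card_pos]
  exact Nat.div_dvd_of_dvd hm'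

end Cfsg.Agent.S0957
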