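import Cfsg.Statements.S0958
import Cfsg.Agent.H41.DefectLocal

set_option autoImplicit false
open Cfsg

namespace Cfsg.Agent.S0958

/-- Let P be a p-subgroup of the finite group G and H a subgroup with P ⊔ C_G(P) ≤ H ≤ N_G(P); fix a maximal ideal M of the algebraic integers containing p. Then a block B of G is induced by some block of H if and only if some conjugate of P is contained in a defect group of B. -/
theorem result {G : Type*} [Group G] [Finite G] (p : ℕ) [Fact p.Prime] (M : Ideal Cfsg.AlgInt) (hM : Cfsg.IsPModular p M) (P H : Subgroup G) (hP : IsPGroup p P) (hPH : P ⊔ Subgroup.centralizer (P : Set G) ≤ H) (hHN : H ≤ Subgroup.normalizer (P : Set G)) (B : Set (Cfsg.IrrCharacter G)) (hB : Cfsg.IsPBlock M B) : (∃ b : Set (Cfsg.IrrCharacter H), Cfsg.IsInducedBlock M H b B) ↔ ∃ D : Subgroup G, Cfsg.IsDefectGroup p M B D ∧ ∃ x : G, P.map (MulAut.conj x).toMonoidHom ≤ D := by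
  have := hM.2.1
  constructor
  · rintro ⟨b, hind⟩
    obtain ⟨E, hE⟩ := H40.exists_isDefectGroup hM hind.1
    obtain ⟨E', hE', hle⟩ := H40.exists_defectGroup_ge_of_isInducedBlock hM hind hE
    have : (P.subgroupOf H).Normal := Subgroup.normal_subgroupOf_of_le_normalizer hHN
    have h1 := H40.normal_le_defectGroup hM hind.1 hE (Q := P.subgroupOf H)
      (hP.of_equiv (Subgroup.subgroupOfEquivOfLe (le_sup_left.trans hPH)).symm)
    refine ⟨E', hE', 1, ?_⟩
    refine le_trans ?_ hle
    rintro _ ⟨q, hq, rfl⟩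
    exact ⟨⟨q, le_sup_left.trans hPH hq⟩, h1 (Subgroup.mem_subgroupOf.2 hq), by simp⟩
  · rintro ⟨D, hD, x, hx⟩
    exact H41.exists_inducing_block_of_subConj hM hP (le_sup_left.trans hPH)
      (le_sup_right.trans hPH) hHN hB hD (H41.subConj_of_map_conj_le hx)

end Cfsg.Agent.S0958
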