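import Cfsg.Statements.S0962
import Cfsg.Agent.H41.DefectLocal

set_option autoImplicit false
open Cfsg

namespace Cfsg.Agent.S0962

/-- Fix a maximal ideal M of the algebraic integers containing the prime p and a natural number d. The number of blocks of the finite group G of defect at least d is at most the number of conjugacy classes of p-regular elements of G of defect at least d, where the defect of a class is the exponent of p in the order of the centralizer of any of its elements. -/
theorem result {G : Type*} [Group G] [Finite G] (p : ℕ) [Fact p.Prime] (M : Ideal Cfsg.AlgInt) (hM : Cfsg.IsPModular p M) (d : ℕ) : Nat.card {B : Set (Cfsg.IrrCharacter G) // Cfsg.IsPBlock M B ∧ d ≤ Cfsg.blockDefect p B} ≤ Nat.card {C : ConjClasses G // ∃ g : G, ConjClasses.mk g = C ∧ Cfsg.IsPRegular p g ∧ d ≤ (Nat.card (Subgroup.centralizer ({g} : Set G))).factorization p} := by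
  have := hM.2.1
  have := Fintype.ofFinite G
  exact H41.card_blocks_le hM d

end Cfsg.Agent.S0962
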