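import Cfsg.Statements.S0963
import Cfsg.Agent.H41.Covering

set_option autoImplicit false
open Cfsg

namespace Cfsg.Agent.S0963

/-- Let N be a normal subgroup of the finite group G, χ an irreducible character of G and θ an irreducible character of N. Then θ occurs in the restriction of χ to N if and only if, for every n ∈ N, the central character of χ at n (class size in G times χ n over χ 1) equals the sum of θ m / θ 1 over the elements m of N conjugate in G to n. -/
theorem result {G : Type*} [Group G] [Fintype G] (N : Subgroup G) [N.Normal] [Fintype N] (χ : Cfsg.IrrCharacter G) (θ : Cfsg.IrrCharacter N) : Cfsg.classInner (fun n : N => (χ : G → ℂ) n) (θ : N → ℂ) ≠ 0 ↔ ∀ n : N, Cfsg.centralChar (χ : G → ℂ) (n : G) = Cfsg.inducedCentralChar N (θ : N → ℂ) (n : G) := by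
  exact H41.constituent_iff_centralChar N χ θ

end Cfsg.Agent.S0963
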