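import Cfsg.Statements.S0966
import Cfsg.Agent.H41.PrimeNormal

set_option autoImplicit false
open Cfsg

namespace Cfsg.Agent.S0966

/-- Let N be a normal subgroup of p-power index in the finite group G and b a block of N relative to a maximal ideal M of the algebraic integers containing p. Then there is exactly one block B of G containing a character whose restriction to N has a constituent in b. -/
theorem result {G : Type*} [Group G] [Fintype G] (p : ℕ) [Fact p.Prime] (M : Ideal Cfsg.AlgInt) (hM : Cfsg.IsPModular p M) (N : Subgroup G) [N.Normal] [Fintype N] (hidx : ∃ k : ℕ, N.index = p ^ k) (b : Set (Cfsg.IrrCharacter N)) (hb : Cfsg.IsPBlock M b) : ∃! B : Set (Cfsg.IrrCharacter G), Cfsg.IsPBlock M B ∧ ∃ χ ∈ B, ∃ θ ∈ b, Cfsg.classInner (fun n : N => (χ : G → ℂ) n) (θ : N → ℂ) ≠ 0 := by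
  classical
  have := hM.2.1
  obtain ⟨θ₀, hθ₀⟩ := H41.IsPBlock.nonempty hb
  obtain ⟨χ₀, hχ₀⟩ := H41.exists_over N θ₀
  refine ⟨blockOf M (χ₀ : G → ℂ),
    ⟨H41.isPBlock_blockOf χ₀, χ₀, H41.mem_blockOf_self χ₀, θ₀, hθ₀, hχ₀⟩, ?_⟩
  rintro B ⟨hB, χ, hχ, θ, hθ, hcon⟩
  have h := H41.mem_block_of_regular_in (p := p) N hM
    (fun g hg => H41.mem_of_regular_of_index N hidx hg) hb hB hχ hθ hθ₀ hcon hχ₀
  exact H41.eq_blockOf_of_mem hB h

end Cfsg.Agent.S0966
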