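import Cfsg.Statements.S0968
import Cfsg.Agent.H40.CentricDefect

set_option autoImplicit false
open Cfsg

namespace Cfsg.Agent.S0968

/-- Let P be a p-subgroup of the finite group G with P ⊔ C_G(P) = G, and let B be a block with defect group P relative to a maximal ideal M of the algebraic integers containing p. Then there is exactly one θ ∈ B with θ x = θ 1 for all x ∈ P; for this θ the exponent of p in θ(1) equals the exponent of p in the index of P; and the number of members of B equals the number of conjugacy classes of P. -/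
theorem result {G : Type*} [Group G] [Finite G] (p : ℕ) [Fact p.Prime] (M : Ideal Cfsg.AlgInt) (hM : Cfsg.IsPModular p M) (P : Subgroup G) (hP : IsPGroup p P) (hG : P ⊔ Subgroup.centralizer (P : Set G) = ⊤) (B : Set (Cfsg.IrrCharacter G)) (hB : Cfsg.IsPBlock M B) (hD : Cfsg.IsDefectGroup p M B P) : (∃! θ : Cfsg.IrrCharacter G, θ ∈ B ∧ ∀ x ∈ P, (θ : G → ℂ) x = (θ : G → ℂ) 1) ∧ (∀ θ ∈ B, (∀ x ∈ P, (θ : G → ℂ) x = (θ : G → ℂ) 1) → (Cfsg.charDegree (θ : G → ℂ)).factorization p = P.index.factorization p) ∧ Nat.card B = Nat.card (ConjClasses P) := by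
  haveI := hM.2.1
  classical
  haveI : Fintype G := Fintype.ofFinite G
  haveI : Fintype P := Fintype.ofFinite P
  have hiff : ∀ θ : Cfsg.IrrCharacter G,
      Cfsg.Agent.H40.OverP θ (Cfsg.Agent.H26.oneIrr P) ↔
        ∀ x ∈ P, (θ : G → ℂ) x = (θ : G → ℂ) 1 := by
    intro θ
    have h1 := Cfsg.Agent.H26.irr_one_ne_zero θ
    constructor
    · intro h x hx
      have := h ⟨x, hx⟩
      rw [Cfsg.Agent.H26.oneIrr_val, Cfsg.Agent.H26.oneIrr_val, div_one, div_eq_one_iff_eq h1] at this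
      exact this
    · intro h y
      rw [Cfsg.Agent.H26.oneIrr_val, Cfsg.Agent.H26.oneIrr_val, div_one, h y y.2, div_self h1]
  refine ⟨?_, fun θ hθ hker =>
    Cfsg.Agent.H40.factorization_eq_index_of_overP_one hM hP hG hB hD hθ ((hiff θ).2 hker),
    Cfsg.Agent.H40.card_block_eq_card_conjClasses hM hP hG hB hD⟩
  obtain ⟨θ, hθ, ho⟩ := Cfsg.Agent.H40.exists_mem_overP hM hP hG hB hD (Cfsg.Agent.H26.oneIrr P)
  exact ⟨θ, ⟨hθ, (hiff θ).1 ho⟩, fun θ' h' =>
    Cfsg.Agent.H40.overP_one_unique hM hP hG hB hD h'.1 hθ ((hiff θ').2 h'.2) ho⟩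

end Cfsg.Agent.S0968
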