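import Cfsg.Statements.S0969
import Cfsg.Agent.H41.RegularInner
import Cfsg.Agent.H41.PrincipalSection
import Cfsg.Agent.H42.RegularPart
import Cfsg.Agent.H40.BlockDefect
import Cfsg.Agent.H40.PPart

set_option autoImplicit false
open Cfsg

namespace Cfsg.Agent.S0969

/-- Let D be a central p-subgroup of the finite group G and χ an irreducible character with the exponent of p in χ(1) equal to the exponent of p in the index of D; fix a maximal ideal M of the algebraic integers containing p. Then D is a defect group of the block of χ, and χ g = 0 whenever the p-part of g does not lie in D. -/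
theorem result {G : Type*} [Group G] [Finite G] (p : ℕ) [Fact p.Prime] (M : Ideal Cfsg.AlgInt) (hM : Cfsg.IsPModular p M) (D : Subgroup G) (hD : IsPGroup p D) (hDZ : D ≤ Subgroup.center G) (χ : Cfsg.IrrCharacter G) (hdeg : (Cfsg.charDegree (χ : G → ℂ)).factorization p = D.index.factorization p) : Cfsg.IsDefectGroup p M (Cfsg.blockOf M (χ : G → ℂ)) D ∧ ∀ g x : G, Cfsg.IsPPart p g x → x ∉ D → (χ : G → ℂ) g = 0 := by
  classical
  haveI := hM.2.1
  haveI := Fintype.ofFinite G
  haveI := Fintype.ofFinite D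
  obtain ⟨d, hd⟩ := IsPGroup.iff_card.1 hD
  set v := (Cfsg.charDegree (χ : G → ℂ)).factorization p with hv
  have ha : (Nat.card G).factorization p = d + v := by
    rw [← D.card_mul_index, hd, Nat.factorization_mul (pow_ne_zero _ (Fact.out : p.Prime).ne_zero)
      D.index_ne_zero_of_finite, Finsupp.add_apply, (Fact.out : p.Prime).factorization_pow,
      Finsupp.single_eq_same, hdeg]
  -- elements with central p-part
  let reg := Finset.univ.filter fun y : G => ¬ p ∣ orderOf y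
  let T := Finset.univ.filter fun g : G => ∃ x ∈ D, Cfsg.IsPPart p g x
  let S := ∑ y ∈ reg, ‖(χ : G → ℂ) y‖ ^ 2
  have hDp : ∀ u : D, ∃ j, orderOf (u : G) = p ^ j := fun u => by
    obtain ⟨j, hj⟩ := IsPGroup.iff_orderOf.1 hD u
    exact ⟨j, by rw [← hj, Subgroup.orderOf_coe]⟩
  have hpart : ∀ (u : D) (y : G), ¬ p ∣ orderOf y → Cfsg.IsPPart p ((u : G) * y) u := fun u y hy => by
    obtain ⟨j, hj⟩ := hDp u
    exact Cfsg.Agent.H40.isPPart_mul
      ((Subgroup.mem_center_iff.1 (hDZ u.2) y).symm) hj hy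
  have hT : ∑ g ∈ T, ‖(χ : G → ℂ) g‖ ^ 2 = (Nat.card D : ℝ) * S := by
    have h1 : ∑ q ∈ (Finset.univ : Finset D) ×ˢ reg, ‖(χ : G → ℂ) q.2‖ ^ 2 =
        ∑ g ∈ T, ‖(χ : G → ℂ) g‖ ^ 2 := by
      refine Finset.sum_bij (fun q _ => (q.1 : G) * q.2) ?_ ?_ ?_ ?_
      · intro q hq
        exact Finset.mem_filter.2 ⟨Finset.mem_univ _, q.1, q.1.2,
          hpart q.1 q.2 (Finset.mem_filter.1 (Finset.mem_product.1 hq).2).2⟩
      · intro q hq q' hq' e
        have h1 := hpart q.1 q.2 (Finset.mem_filter.1 (Finset.mem_product.1 hq).2).2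
        rw [e] at h1
        have h2 := Cfsg.Agent.H40.isPPart_unique h1
          (hpart q'.1 q'.2 (Finset.mem_filter.1 (Finset.mem_product.1 hq').2).2)
        refine Prod.ext (Subtype.ext h2) ?_
        rw [h2] at e
        exact mul_left_cancel e
      · intro g hg
        obtain ⟨x, hx, y, hy, -, -, hreg⟩ := (Finset.mem_filter.1 hg).2
        exact ⟨(⟨x, hx⟩, y), Finset.mem_product.2 ⟨Finset.mem_univ _,
          Finset.mem_filter.2 ⟨Finset.mem_univ _, hreg⟩⟩, hy⟩
      · intro q _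
        rw [Cfsg.Agent.H41.norm_central_mul χ (hDZ q.1.2)]
    rw [← h1, Finset.sum_product]
    show ∑ _u : D, S = _
    rw [Finset.sum_const, Finset.card_univ, nsmul_eq_mul, Nat.card_eq_fintype_card]
  have hall : ∑ g : G, ‖(χ : G → ℂ) g‖ ^ 2 = (Nat.card G : ℝ) := by
    have h := Cfsg.Agent.H26.classInner_irr χ χ
    rw [if_pos rfl, Cfsg.classInner, inv_mul_eq_iff_eq_mul₀ (Nat.cast_ne_zero.2 Nat.card_pos.ne'),
      mul_one] at h
    simp only [Complex.mul_conj'] at h
    exact Complex.ofReal_injective (by push_cast; exact h)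
  have hSsum : (S : ℂ) = ∑ y ∈ reg, (χ : G → ℂ) y⁻¹ * (χ : G → ℂ) y := by
    simp only [S, Complex.ofReal_sum, Complex.ofReal_pow]
    exact Finset.sum_congr rfl fun y _ => by
      rw [Cfsg.Agent.H26.irr_inv, ← Complex.conj_mul']
  obtain ⟨z, hz⟩ := Cfsg.Agent.H42.exists_int_classInner_regRes p χ χ
  rw [ha, ← hv, Nat.add_sub_cancel, ← hd, Cfsg.classInner] at hz
  have hz' : ((Nat.card D : ℝ) * S : ℝ) = (z : ℝ) * Nat.card G := by
    refine Complex.ofReal_injective ?_
    push_cast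
    rw [← hz, hSsum]
    field_simp [Nat.cast_ne_zero.2 (Nat.card_pos (α := G)).ne']
    simp only [reg, Finset.sum_filter]
    refine Finset.sum_congr rfl fun y _ => ?_
    by_cases hy : p ∣ orderOf y
    · simp [Cfsg.Agent.H42.regRes, hy]
    · simp [Cfsg.Agent.H42.regRes, hy, Cfsg.Agent.H26.irr_inv, mul_comm]
  have hSpos : 0 < S := by
    refine lt_of_lt_of_le ?_ (Finset.single_le_sum (f := fun y => ‖(χ : G → ℂ) y‖ ^ 2)
      (fun y _ => sq_nonneg _) (Finset.mem_filter.2 ⟨Finset.mem_univ (1 : G), by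
        simp [(Fact.out : p.Prime).ne_one]⟩))
    exact pow_pos (norm_pos_iff.2 (Cfsg.Agent.H26.irr_one_ne_zero χ)) 2
  have hle : (Nat.card D : ℝ) * S ≤ Nat.card G := by
    rw [← hT, ← hall]
    exact Finset.sum_le_sum_of_subset_of_nonneg (Finset.subset_univ _) fun g _ _ => sq_nonneg _
  have hGpos : (0 : ℝ) < Nat.card G := Nat.cast_pos.2 Nat.card_pos
  have hz1 : z = 1 := by
    have h1 : (0 : ℝ) < z := by
      have := mul_pos (Nat.cast_pos.2 (Nat.card_pos (α := D)) : (0 : ℝ) < Nat.card D) hSpos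
      rw [hz'] at this
      exact pos_of_mul_pos_left this hGpos.le
    have h2 : (z : ℝ) ≤ 1 := by
      rw [hz'] at hle
      nlinarith
    have h3 : 0 < z := by exact_mod_cast h1
    have h4 : z ≤ 1 := by exact_mod_cast h2
    omega
  rw [hz1, Int.cast_one, one_mul] at hz'
  have hvan : ∀ g ∉ T, (χ : G → ℂ) g = 0 := by
    intro g hg
    have h0 : ∑ g ∈ Finset.univ \ T, ‖(χ : G → ℂ) g‖ ^ 2 = 0 := by
      rw [Finset.sum_sdiff_eq_sub (Finset.subset_univ _), hall, hT, hz', sub_self]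
    have := (Finset.sum_eq_zero_iff_of_nonneg fun g _ => sq_nonneg _).1 h0 g
      (Finset.mem_sdiff.2 ⟨Finset.mem_univ _, hg⟩)
    exact norm_eq_zero.1 (pow_eq_zero_iff two_ne_zero |>.1 this)
  refine ⟨?_, fun g x hx hxD => hvan g fun hg => ?_⟩
  swap
  · obtain ⟨x', hx', hxp⟩ := (Finset.mem_filter.1 hg).2
    exact hxD (Cfsg.Agent.H40.isPPart_unique hxp hx ▸ hx')
  -- the defect
  set B := Cfsg.blockOf M (χ : G → ℂ) with hB
  have hBb : Cfsg.IsPBlock M B := Cfsg.Agent.H41.isPBlock_blockOf χ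
  have hχB : χ ∈ B := Cfsg.Agent.H41.mem_blockOf_self χ
  have hh : Cfsg.blockHeight p B (χ : G → ℂ) = 0 := by
    by_contra hne
    obtain ⟨ψ, hψ, hψ0⟩ := Cfsg.Agent.H41.exists_height_zero (p := p) (B := B) ⟨χ, hχB⟩
    have h0 := Cfsg.Agent.H41.res_omegaLoc_zChar_eq_zero_of_height hM hψ hχB hψ0 hne
    rw [Cfsg.Agent.H41.res_omegaLoc_eq_of_mem hBb hψ hχB] at h0
    set w := Cfsg.Agent.H41.omegaLoc M χ (Cfsg.Agent.H41.zChar p M χ) with hw
    have hdeg1 : (χ : G → ℂ) 1 = (Cfsg.charDegree (χ : G → ℂ) : ℂ) :=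
      Cfsg.Agent.H43.irr_charDegree_spec χ
    have hwv : (w : ℂ) = (D.index : ℂ) / (Cfsg.charDegree (χ : G → ℂ) : ℂ) := by
      rw [hw, Cfsg.Agent.H41.coe_omegaLoc_zReg, hdeg1]
      congr 1
      rw [← hSsum, ← mul_right_inj' (Nat.cast_ne_zero.2 (Nat.card_pos (α := D)).ne'),
        ← Nat.cast_mul, D.card_mul_index]
      exact_mod_cast hz'
    obtain ⟨hmem, -⟩ := Cfsg.Agent.H41.degree_div_mem hM D.index_ne_zero_of_finite
      (Cfsg.Agent.H42.charDegree_pos χ).ne' hdeg.ge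
    have hinv : w * ⟨_, hmem⟩ = 1 := Subtype.ext (by
      rw [MulMemClass.coe_mul, hwv]
      show (D.index : ℂ) / _ * (_ / (D.index : ℂ)) = 1
      field_simp [Nat.cast_ne_zero.2 D.index_ne_zero_of_finite,
        Nat.cast_ne_zero.2 (Cfsg.Agent.H42.charDegree_pos χ).ne'])
    have h1 := congrArg (Cfsg.Agent.H41.res M) hinv
    rw [map_mul, h0, zero_mul, map_one] at h1
    exact zero_ne_one h1
  have hdef : Cfsg.blockDefect p B = d := by
    have hmin : Cfsg.Agent.H41.minDegVal p B = v := by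
      have h1 := Cfsg.Agent.H41.minDegVal_le (p := p) hχB
      rw [Cfsg.Agent.H41.blockHeight_eq] at hh
      omega
    show (Nat.card G).factorization p - Cfsg.Agent.H41.minDegVal p B = d
    omega
  obtain ⟨E, hE⟩ := Cfsg.Agent.H40.exists_isDefectGroup hM hBb
  haveI : D.Normal := ⟨fun n hn g => by
    rw [Subgroup.mem_center_iff.1 (hDZ hn) g, mul_inv_cancel_right]; exact hn⟩
  have hDE : D ≤ E := Cfsg.Agent.H40.normal_le_defectGroup hM hBb hE hD
  rwa [Subgroup.eq_of_le_of_card_ge hDE (le_of_eq (by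
    rw [Cfsg.Agent.H40.card_defectGroup hM hBb hE, hd, hdef]))]

end Cfsg.Agent.S0969
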