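import Cfsg.Statements.S0986
import Mathlib

set_option autoImplicit false
open Cfsg

namespace Cfsg.Agent.S0986

/-- Let P and Q be distinct Sylow p-subgroups of a finite group G chosen so that the order of P ∩ Q is as large as possible among intersections of two distinct Sylow p-subgroups, and let N be the normalizer of P ∩ Q. Then N has more than one Sylow p-subgroup, any two distinct Sylow p-subgroups of N intersect exactly in P ∩ Q, and each Sylow p-subgroup of N lies in exactly one Sylow p-subgroup of G. -/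
theorem result {G : Type*} [Group G] [Finite G] (p : ℕ) [Fact p.Prime] (P Q : Sylow p G) (hPQ : P ≠ Q) (hmax : ∀ P' Q' : Sylow p G, P' ≠ Q' → Nat.card ↥((P' : Subgroup G) ⊓ (Q' : Subgroup G)) ≤ Nat.card ↥((P : Subgroup G) ⊓ (Q : Subgroup G))) : 1 < Nat.card (Sylow p ↥(Subgroup.normalizer (((P : Subgroup G) ⊓ (Q : Subgroup G) : Subgroup G) : Set G))) ∧ (∀ S T : Sylow p ↥(Subgroup.normalizer (((P : Subgroup G) ⊓ (Q : Subgroup G) : Subgroup G) : Set G)), S ≠ T → (S : Subgroup _) ⊓ (T : Subgroup _) = ((P : Subgroup G) ⊓ (Q : Subgroup G)).subgroupOf (Subgroup.normalizer (((P : Subgroup G) ⊓ (Q : Subgroup G) : Subgroup G) : Set G))) ∧ ∀ S : Sylow p ↥(Subgroup.normalizer (((P : Subgroup G) ⊓ (Q : Subgroup G) : Subgroup G) : Set G)), ∃! T : Sylow p G, (S : Subgroup _).map (Subgroup.normalizer (((P : Subgroup G) ⊓ (Q : Subgroup G) : Subgroup G) : Set G)).subtype ≤ (T : Subgroup G) := by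
  classical
  generalize hDdef : (P : Subgroup G) ⊓ (Q : Subgroup G) = D at hmax ⊢
  generalize hNdef : Subgroup.normalizer (D : Set G) = N
  have hDN : D ≤ N := hNdef ▸ Subgroup.le_normalizer
  have hDp : IsPGroup p D := hDdef ▸ P.2.to_inf_left
  have hDn : (D.subgroupOf N).Normal := by subst hNdef; exact Subgroup.normal_in_normalizer
  have hDle : ∀ S : Sylow p N, D.subgroupOf N ≤ (S : Subgroup N) := fun S =>
    (hDp.of_equiv (Subgroup.subgroupOfEquivOfLe hDN).symm).le_sylow_of_normal S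
  have hext : ∀ S : Sylow p N, ∃ T : Sylow p G, (S : Subgroup N).map N.subtype ≤ (T : Subgroup G) :=
    fun S => (S.2.map N.subtype).exists_le_sylow
  have hgrow : ∀ R : Sylow p G, D ≤ (R : Subgroup G) → D ≠ (R : Subgroup G) →
      ¬ ((R : Subgroup G) ⊓ N ≤ D) := by
    intro R hDR hne hle
    have : Group.IsNilpotent (R : Subgroup G) := R.2.isNilpotent
    have hnc := Group.normalizerCondition_of_isNilpotent (G := (R : Subgroup G))
    have hlt := hnc (D.subgroupOf R) (lt_top_iff_ne_top.mpr fun h => hne (le_antisymm hDR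
      (Subgroup.subgroupOf_eq_top.mp h)))
    rw [← Subgroup.subgroupOf_normalizer_eq hDR, hNdef] at hlt
    exact hlt.not_ge fun x hx => hle ⟨x.2, hx⟩
  have hDP : D ≠ (P : Subgroup G) := fun h => hPQ (Sylow.ext (by
    have h1 : (P : Subgroup G) ≤ Q := h ▸ hDdef ▸ inf_le_right
    exact (P.3 Q.2 h1).symm))
  have hDQ : D ≠ (Q : Subgroup G) := fun h => hPQ (Sylow.ext (by
    have h1 : (Q : Subgroup G) ≤ P := h ▸ hDdef ▸ inf_le_left
    exact Q.3 P.2 h1))
  -- a subgroup above `D` lies in at most one Sylow subgroup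
  have huniq : ∀ (H : Subgroup G) (T T' : Sylow p G), D ≤ H → ¬ H ≤ D →
      H ≤ (T : Subgroup G) → H ≤ (T' : Subgroup G) → T = T' := by
    intro H T T' hDH hHD h1 h2
    by_contra hne
    have hcard := hmax T T' hne
    have := Subgroup.eq_of_le_of_card_ge (hDH.trans (le_inf h1 h2)) hcard
    exact hHD ((le_inf h1 h2).trans this.ge)
  have hone : 1 < Nat.card (Sylow p N) := by
    by_contra hle
    have hc : Nat.card (Sylow p N) = 1 := by
      have : 0 < Nat.card (Sylow p N) := Nat.card_pos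
      omega
    have := (Nat.card_eq_one_iff_unique.mp hc).1
    let S : Sylow p N := default
    obtain ⟨T, hT⟩ := hext S
    have hall : ∀ R : Sylow p G, (R : Subgroup G) ⊓ N ≤ (T : Subgroup G) := by
      intro R x hx
      have hp' : IsPGroup p (((R : Subgroup G) ⊓ N).subgroupOf N) :=
        R.2.to_inf_left.of_equiv (Subgroup.subgroupOfEquivOfLe inf_le_right).symm
      obtain ⟨S', hS'⟩ := hp'.exists_le_sylow
      rw [Subsingleton.elim S' S] at hS'
      exact hT ⟨⟨x, hx.2⟩, hS' (show (⟨x, hx.2⟩ : N) ∈ ((R : Subgroup G) ⊓ N).subgroupOf N from hx),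
        rfl⟩
    have hP1 : D ≤ (P : Subgroup G) := hDdef ▸ inf_le_left
    have hQ1 : D ≤ (Q : Subgroup G) := hDdef ▸ inf_le_right
    exact hPQ ((huniq _ P T (le_inf hP1 hDN) (hgrow P hP1 hDP) inf_le_left (hall P)).trans
      (huniq _ Q T (le_inf hQ1 hDN) (hgrow Q hQ1 hDQ) inf_le_left (hall Q)).symm)
  have hbig : ∀ S : Sylow p N, ¬ (S : Subgroup N).map N.subtype ≤ D := by
    intro S hS
    have hSD : (S : Subgroup N) = D.subgroupOf N :=
      le_antisymm (fun x hx => hS ⟨x, hx, rfl⟩) (hDle S)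
    have : Subsingleton (Sylow p N) :=
      ⟨fun A B => Sylow.ext (by
        have e : ∀ A : Sylow p N, (A : Subgroup N) = D.subgroupOf N := fun A =>
          hSD ▸ S.3 A.2 (hSD ▸ hDle A)
        rw [e A, e B])⟩
    have := Finite.card_le_one_iff_subsingleton.mpr this
    omega
  have hDmap : ∀ S : Sylow p N, D ≤ (S : Subgroup N).map N.subtype := fun S x hx =>
    ⟨⟨x, hDN hx⟩, hDle S (show (⟨x, hDN hx⟩ : N) ∈ D.subgroupOf N from hx), rfl⟩
  refine ⟨hone, fun S T hST => le_antisymm ?_ (le_inf (hDle S) (hDle T)), fun S => ?_⟩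
  · obtain ⟨S', hS'⟩ := hext S
    obtain ⟨T', hT'⟩ := hext T
    have hne : S' ≠ T' := by
      rintro rfl
      have hp' : IsPGroup p ((S' : Subgroup G).subgroupOf N) := S'.2.comap_subtype
      have e1 := S.3 hp' (fun x hx => hS' ⟨x, hx, rfl⟩)
      have e2 := T.3 hp' (fun x hx => hT' ⟨x, hx, rfl⟩)
      exact hST (Sylow.ext (e1.symm.trans e2))
    intro x hx
    have hD' : D ≤ (S' : Subgroup G) ⊓ (T' : Subgroup G) :=
      le_inf ((hDmap S).trans hS') ((hDmap T).trans hT')
    have := Subgroup.eq_of_le_of_card_ge hD' (hmax S' T' hne)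
    show (x : G) ∈ D
    rw [this]
    exact ⟨hS' ⟨x, hx.1, rfl⟩, hT' ⟨x, hx.2, rfl⟩⟩
  · obtain ⟨T, hT⟩ := hext S
    exact ⟨T, hT, fun T' hT' => huniq _ T' T (hDmap S) (hbig S) hT' hT⟩

end Cfsg.Agent.S0986
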