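import Cfsg.Statements.S0987
import Cfsg.Agent.H30.Basics

set_option autoImplicit false
open Cfsg

namespace Cfsg.Agent.S0987

/-- If a finite group has order pqr for primes p < q < r, then its Sylow r-subgroups are normal. -/
theorem result {G : Type*} [Group G] [Finite G] (p q r : ℕ) (hp : p.Prime) (hq : q.Prime) [Fact r.Prime] (hpq : p < q) (hqr : q < r) (hG : Nat.card G = p * q * r) (R : Sylow r G) : (R : Subgroup G).Normal := by
  have hr : r.Prime := Fact.out
  have : Fact p.Prime := ⟨hp⟩
  have hqpos := hq.pos
  have hrpos := hr.pos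
  have hppos := hp.pos
  have hmin : (Nat.card G).minFac = p := by
    have h1 : 1 < p * q * r := by
      calc 1 < p := hp.one_lt
        _ ≤ p * q * r := Nat.le_of_dvd (by positivity) ((dvd_mul_right p q).trans (dvd_mul_right _ r))
    rw [hG]
    refine le_antisymm (Nat.minFac_le_of_dvd hp.two_le ((dvd_mul_right p q).trans (dvd_mul_right _ r))) ?_
    have hm := Nat.minFac_prime (n := p * q * r) (by omega)
    rcases (hm.dvd_mul).mp (Nat.minFac_dvd (p * q * r)) with h' | h'
    · rcases hm.dvd_mul.mp h' with h'' | h''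
      · exact ((Nat.prime_dvd_prime_iff_eq hm hp).mp h'').ge
      · have := (Nat.prime_dvd_prime_iff_eq hm hq).mp h''; omega
    · have := (Nat.prime_dvd_prime_iff_eq hm hr).mp h'; omega
  let P : Sylow p G := default
  have hcp : Nat.card (P : Subgroup G) = p ^ 1 :=
    Cfsg.Agent.H30.card_sylow_subgroup P (m := q * r) (by rw [hG, pow_one, mul_assoc]) (fun h => by
      rcases hp.dvd_mul.mp h with h' | h'
      · have := (Nat.prime_dvd_prime_iff_eq hp hq).mp h'; omega
      · have := (Nat.prime_dvd_prime_iff_eq hp hr).mp h'; omega)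
  rw [pow_one] at hcp
  have hcyc : IsCyclic (P : Subgroup G) := isCyclic_of_prime_card hcp
  have hcompl := IsCyclic.isComplement' hmin hcyc
  generalize hK' : (MonoidHom.transferSylow P (IsCyclic.normalizer_le_centralizer hmin hcyc)).ker = K
    at hcompl
  have hKn : K.Normal := hK' ▸ inferInstance
  have hKc : Nat.card K = q * r := by
    have := hcompl.card_mul_card
    rw [hcp, hG] at this
    exact mul_right_cancel₀ hppos.ne' (by rw [this]; ring)
  have hRK : (R : Subgroup G) ≤ K := by
    have hcR : Nat.card (R : Subgroup G) = r ^ 1 :=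
      Cfsg.Agent.H30.card_sylow_subgroup R (m := p * q) (by rw [hG, pow_one]; ring) (fun h => by
        rcases hr.dvd_mul.mp h with h' | h'
        · have := (Nat.prime_dvd_prime_iff_eq hr hp).mp h'; omega
        · have := (Nat.prime_dvd_prime_iff_eq hr hq).mp h'; omega)
    intro x hx
    have hidx : K.index = p := by
      rw [hcompl.symm.index_eq_card, hcp]
    have h1 : x ^ p ∈ K := hidx ▸ Subgroup.pow_index_mem _ x
    have h2 : x ^ r = 1 := by
      have : (⟨x, hx⟩ : (R : Subgroup G)) ^ Nat.card (R : Subgroup G) = 1 := pow_card_eq_one'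
      rw [hcR, pow_one] at this
      simpa using congrArg Subtype.val this
    obtain ⟨a, -, ha⟩ := Nat.exists_mul_mod_eq_one_of_coprime
      ((Nat.coprime_primes hp hr).mpr (by omega)) hr.one_lt
    have : x = (x ^ p) ^ a := by
      rw [← pow_mul, ← pow_mod_orderOf]
      conv_lhs => rw [← pow_one x, ← pow_mod_orderOf]
      congr 1
      have hdvd : orderOf x ∣ r := orderOf_dvd_of_pow_eq_one h2
      have h4 : (p * a) % orderOf x = 1 % orderOf x := by
        rw [← Nat.mod_mod_of_dvd (p * a) hdvd, ha]
      exact h4.symm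
    exact this ▸ pow_mem h1 a
  let R' : Sylow r K := R.subtype hRK
  have hn1 : Nat.card (Sylow r K) = 1 := by
    have hdq : Nat.card (Sylow r K) ∣ q :=
      Cfsg.Agent.H30.card_sylow_dvd (a := 1) (by rw [hKc, pow_one, mul_comm]) (fun h => by
        have := (Nat.prime_dvd_prime_iff_eq hr hq).mp h; omega)
    rcases (Nat.dvd_prime hq).mp hdq with h | h
    · exact h
    · exfalso
      have hm : Nat.card (Sylow r K) % r = 1 % r := card_sylow_modEq_one r K
      rw [h, Nat.mod_eq_of_lt hqr, Nat.mod_eq_of_lt hr.one_lt] at hm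
      exact hq.one_lt.ne' hm
  have : Subsingleton (Sylow r K) := (Nat.card_eq_one_iff_unique.mp hn1).1
  have hR'n : (R' : Subgroup K).Normal := Sylow.normal_of_subsingleton R'
  have hchar : (R' : Subgroup K).Characteristic := Sylow.characteristic_of_normal R' hR'n
  have h := ConjAct.normal_of_characteristic_of_normal (H := K) (K := (R' : Subgroup K))
  rwa [Sylow.coe_subtype, Subgroup.map_subgroupOf_eq_of_le hRK] at h

end Cfsg.Agent.S0987
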