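import Cfsg.Statements.S0988
import Cfsg.Agent.H30.Basics

set_option autoImplicit false
open Cfsg

namespace Cfsg.Agent.S0988

/-- If a finite simple group has order p^2 * q * r with p, q and r prime, then its order is 60. -/
theorem result {G : Type*} [Group G] [Finite G] [IsSimpleGroup G] (p q r : ℕ) (hp : p.Prime) (hq : q.Prime) (hr : r.Prime) (hG : Nat.card G = p ^ 2 * q * r) : Nat.card G = 60 := by
  by_contra h60
  have hn1 : ¬ (Nat.card G).Prime := by
    rw [hG]
    intro h
    have h1 : p ∣ p ^ 2 * q * r := ⟨p * q * r, by ring⟩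
    have h2 := (Nat.prime_dvd_prime_iff_eq hp h).mp h1
    have h4 := hp.two_le
    have h3 : p * p * (q * r) = p := by rw [← mul_assoc, ← pow_two]; exact h2.symm
    nlinarith [Nat.mul_le_mul hq.two_le hr.two_le]
  have hna := Cfsg.Agent.H30.not_comm_of_not_prime hn1
  -- prime powers
  have hpp : ∀ s a : ℕ, s.Prime → Nat.card G ≠ s ^ a := by
    intro s a hs h
    have : Fact s.Prime := ⟨hs⟩
    exact Cfsg.Agent.H30.sylow_ne_top hna s ⊤
      ((IsPGroup.of_card h).of_equiv Subgroup.topEquiv.symm) rfl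
  -- the possible numbers of Sylow subgroups
  have hsyl : ∀ s a m : ℕ, ∀ [Fact s.Prime], 0 < a → Nat.card G = s ^ a * m → ¬ s ∣ m →
      Nat.card (Sylow s G) ∣ m ∧ Nat.card (Sylow s G) % s = 1 ∧ Nat.card (Sylow s G) ≠ 1 ∧
      2 * Nat.card G ∣ Nat.factorial (Nat.card (Sylow s G)) := by
    intro s a m hs ha h hm
    have hd : s ∣ Nat.card G := h ▸ (dvd_pow_self s (by omega)).mul_right m
    refine ⟨Cfsg.Agent.H30.card_sylow_dvd h hm, ?_, Cfsg.Agent.H30.card_sylow_ne_one hna s hd,
      Cfsg.Agent.H30.two_mul_card_dvd_factorial_sylow hna s hd⟩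
    have := card_sylow_modEq_one s G
    rwa [Nat.ModEq, Nat.mod_eq_of_lt hs.out.one_lt] at this
  have hsq : ∀ s t : ℕ, s.Prime → t.Prime → s < t → t ∣ (s - 1) * (s + 1) → s = 2 ∧ t = 3 := by
    intro s t hs ht hlt h
    have h2 := hs.two_le
    rcases ht.dvd_mul.mp h with h' | h'
    · have := Nat.le_of_dvd (by omega) h'; omega
    · have hle := Nat.le_of_dvd (by omega) h'
      have he : t = s + 1 := by omega
      rcases hs.eq_two_or_odd with h2' | h2'
      · omega
      · have : 2 ∣ t := by omega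
        have := (Nat.prime_dvd_prime_iff_eq Nat.prime_two ht).mp this
        omega
  have hmodsq : ∀ s t : ℕ, 1 < t → 1 ≤ s → s ^ 2 % t = 1 → t ∣ (s - 1) * (s + 1) := by
    intro s t ht hs h
    have : t ∣ s ^ 2 - 1 := by
      have := Nat.div_add_mod (s ^ 2) t
      exact ⟨s ^ 2 / t, by omega⟩
    rwa [show (s - 1) * (s + 1) = s ^ 2 - 1 by
      rw [mul_comm, ← Nat.sq_sub_sq, one_pow]]
  -- s ^ 2 * t ^ 2
  have h22 : ∀ s t : ℕ, s.Prime → t.Prime → s < t → Nat.card G ≠ s ^ 2 * t ^ 2 := by
    intro s t hs ht hlt h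
    have : Fact t.Prime := ⟨ht⟩
    obtain ⟨hd, hm, hne, hf⟩ := hsyl t 2 (s ^ 2) two_pos (by rw [h]; ring) (fun h' => by
      have := (Nat.prime_dvd_prime_iff_eq ht hs).mp (ht.dvd_of_dvd_pow h'); omega)
    obtain ⟨j, hj, hj'⟩ := (Nat.dvd_prime_pow hs).mp hd
    rw [hj'] at hm hne hf
    interval_cases j
    · simp at hne
    · rw [pow_one, Nat.mod_eq_of_lt hlt] at hm
      exact hs.one_lt.ne' hm
    · obtain ⟨rfl, rfl⟩ := hsq s t hs ht hlt (hmodsq s t ht.one_lt hs.one_lt.le hm)
      rw [h] at hf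
      norm_num [Nat.factorial] at hf
  -- s ^ 3 * t
  have h31 : ∀ s t : ℕ, s.Prime → t.Prime → s ≠ t → Nat.card G ≠ s ^ 3 * t := by
    intro s t hs ht hne' h
    have : Fact t.Prime := ⟨ht⟩
    have : Fact s.Prime := ⟨hs⟩
    rcases Nat.lt_or_gt_of_ne hne' with hlt | hlt
    · have hnd : ¬ t ∣ s ^ 3 := fun h' => by
        have := (Nat.prime_dvd_prime_iff_eq ht hs).mp (ht.dvd_of_dvd_pow h'); omega
      obtain ⟨hd, hm, hne, hf⟩ := hsyl t 1 (s ^ 3) one_pos (by rw [h]; ring) hnd
      obtain ⟨j, hj, hj'⟩ := (Nat.dvd_prime_pow hs).mp hd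
      interval_cases j
      · rw [hj'] at hne; simp at hne
      · rw [hj', pow_one, Nat.mod_eq_of_lt hlt] at hm
        exact hs.one_lt.ne' hm
      · rw [hj'] at hm hf
        obtain ⟨rfl, rfl⟩ := hsq s t hs ht hlt (hmodsq s t ht.one_lt hs.one_lt.le hm)
        rw [h] at hf
        norm_num [Nat.factorial] at hf
      · let P : Sylow t G := default
        have hP : Nat.card (P : Subgroup G) = t := by
          simpa using Cfsg.Agent.H30.card_sylow_subgroup (a := 1) P (m := s ^ 3) (by rw [h]; ring) hnd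
        obtain ⟨e, c, -, he, hN, hC⟩ := Cfsg.Agent.H30.exists_automizer_of_prime_order hna t P hP
        have hmul := Cfsg.Agent.H30.card_sylow_mul_normalizer t P
        rw [hj', hN, h] at hmul
        have h1 : c * e = 1 := mul_left_cancel₀ ht.ne_zero
          (mul_left_cancel₀ (pow_ne_zero 3 hs.ne_zero) (by rw [← mul_assoc t, hmul, mul_one]))
        have := Nat.eq_one_of_mul_eq_one_left h1
        omega
    · obtain ⟨hd, hm, hne, -⟩ := hsyl s 3 t (by norm_num) h (fun h' => by
        have := (Nat.prime_dvd_prime_iff_eq hs ht).mp h'; omega)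
      rcases (Nat.dvd_prime ht).mp hd with h' | h'
      · exact hne h'
      · rw [h', Nat.mod_eq_of_lt hlt] at hm
        exact ht.one_lt.ne' hm
  -- smallest prime cannot have a Sylow subgroup of prime order
  have hcyc : ∀ s m : ℕ, ∀ [Fact s.Prime], Nat.card G = s * m → ¬ s ∣ m →
      (Nat.card G).minFac ≠ s := by
    intro s m hs h hm hmin
    let P : Sylow s G := default
    have hP : Nat.card (P : Subgroup G) = s := by
      simpa using Cfsg.Agent.H30.card_sylow_subgroup (a := 1) P (m := m) (by rw [h, pow_one]) hm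
    exact Cfsg.Agent.H30.not_normalizer_le_centralizer hna s (h ▸ dvd_mul_right s m) P
      (IsCyclic.normalizer_le_centralizer hmin (isCyclic_of_prime_card hP))
  by_cases hqr : q = r
  · subst hqr
    rcases lt_trichotomy p q with hlt | rfl | hlt
    · exact h22 p q hp hq hlt (by rw [hG]; ring)
    · exact hpp p 4 hp (by rw [hG]; ring)
    · exact h22 q p hq hp hlt (by rw [hG]; ring)
  by_cases hpq : p = q
  · subst hpq
    exact h31 p r hp hr hqr (by rw [hG]; ring)
  by_cases hpr : p = r
  · subst hpr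
    exact h31 p q hp hq hpq (by rw [hG]; ring)
  have : Fact p.Prime := ⟨hp⟩
  have : Fact q.Prime := ⟨hq⟩
  have : Fact r.Prime := ⟨hr⟩
  have hndp : ¬ p ∣ q * r := fun h => by
    rcases hp.dvd_mul.mp h with h' | h'
    · exact hpq ((Nat.prime_dvd_prime_iff_eq hp hq).mp h')
    · exact hpr ((Nat.prime_dvd_prime_iff_eq hp hr).mp h')
  have hndq : ¬ q ∣ p ^ 2 * r := fun h => by
    rcases hq.dvd_mul.mp h with h' | h'
    · exact hpq ((Nat.prime_dvd_prime_iff_eq hq hp).mp (hq.dvd_of_dvd_pow h')).symm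
    · exact hqr ((Nat.prime_dvd_prime_iff_eq hq hr).mp h')
  have hndr : ¬ r ∣ p ^ 2 * q := fun h => by
    rcases hr.dvd_mul.mp h with h' | h'
    · exact hpr ((Nat.prime_dvd_prime_iff_eq hr hp).mp (hr.dvd_of_dvd_pow h')).symm
    · exact hqr ((Nat.prime_dvd_prime_iff_eq hr hq).mp h').symm
  have hs : (Nat.card G).minFac = p := by
    have hne : Nat.card G ≠ 1 := Finite.one_lt_card.ne'
    have hm := Nat.minFac_prime hne
    have hd : (Nat.card G).minFac ∣ p ^ 2 * q * r := hG ▸ Nat.minFac_dvd (Nat.card G)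
    rcases hm.dvd_mul.mp hd with h | h
    · rcases hm.dvd_mul.mp h with h' | h'
      · exact (Nat.prime_dvd_prime_iff_eq hm hp).mp (hm.dvd_of_dvd_pow h')
      · exact absurd ((Nat.prime_dvd_prime_iff_eq hm hq).mp h')
          (hcyc q (p ^ 2 * r) (by rw [hG]; ring) hndq)
    · exact absurd ((Nat.prime_dvd_prime_iff_eq hm hr).mp h)
        (hcyc r (p ^ 2 * q) (by rw [hG]; ring) hndr)
  have hle : ∀ s : ℕ, s.Prime → s ∣ Nat.card G → p ≤ s := fun s hs' hd =>
    hs ▸ Nat.minFac_le_of_dvd hs'.two_le hd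
  have hpq' : p < q := lt_of_le_of_ne (hle q hq ⟨p ^ 2 * r, by rw [hG]; ring⟩) hpq
  have hpr' : p < r := lt_of_le_of_ne (hle r hr ⟨p ^ 2 * q, by rw [hG]; ring⟩) hpr
  -- the automizer of the Sylow p-subgroup forces p = 2 and a prime 3
  let P : Sylow p G := default
  have hpd : p ∣ Nat.card G := hs ▸ Nat.minFac_dvd _
  have hP : Nat.card (P : Subgroup G) = p ^ 2 :=
    Cfsg.Agent.H30.card_sylow_subgroup P (m := q * r) (by rw [hG]; ring) hndp
  have : IsMulCommutative (P : Subgroup G) :=
    IsPGroup.isMulCommutative_of_card_eq_prime_sq hP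
  have hPC := Subgroup.le_centralizer (P : Subgroup G)
  have hnc : ¬ IsCyclic (P : Subgroup G) := fun h =>
    Cfsg.Agent.H30.not_normalizer_le_centralizer hna p hpd P
      (IsCyclic.normalizer_le_centralizer hs h)
  have he1 : (Subgroup.centralizer ((P : Subgroup G) : Set G)).relIndex
      (Subgroup.normalizer ((P : Subgroup G) : Set G)) ≠ 1 := by
    rw [Ne, Subgroup.relIndex_eq_one]
    exact Cfsg.Agent.H30.not_normalizer_le_centralizer hna p hpd P
  obtain ⟨t, ht, htd⟩ := Nat.exists_prime_and_dvd he1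
  have htqr : t ∣ q * r := by
    have h1 : (P : Subgroup G).index = q * r := by
      have := Subgroup.card_mul_index (P : Subgroup G)
      rw [hP, hG, mul_assoc] at this
      exact mul_left_cancel₀ (pow_ne_zero 2 hp.ne_zero) this
    exact htd.trans (h1 ▸ (Subgroup.relIndex_dvd_of_le_left _ hPC).trans
      (Subgroup.relIndex_dvd_index_of_le P.le_normalizer))
  have hpt : p < t := by
    rcases ht.dvd_mul.mp htqr with h' | h'
    · rw [(Nat.prime_dvd_prime_iff_eq ht hq).mp h']; exact hpq'
    · rw [(Nat.prime_dvd_prime_iff_eq ht hr).mp h']; exact hpr'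
  have hautd : t ∣ Nat.card (MulAut (P : Subgroup G)) :=
    htd.trans (Cfsg.Agent.H30.relIndex_centralizer_dvd_card_mulAut _)
  have ht2 : t ∣ (p - 1) * (p + 1) := by
    -- an automorphism of order t permutes the points other than 1 in orbits of length t
    have : Fact t.Prime := ⟨ht⟩
    obtain ⟨σ, hσ⟩ := exists_prime_orderOf_dvd_card' t hautd
    by_contra hnd
    have hz : IsPGroup t (Subgroup.zpowers σ) :=
      IsPGroup.of_card (n := 1) (by rw [Nat.card_zpowers, hσ, pow_one])
    have hfix := hz.card_modEq_card_fixedPoints (P : Subgroup G)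
    let F : Subgroup (P : Subgroup G) :=
      { carrier := {x | σ x = x}
        mul_mem' := fun {a b} ha hb => by
          show σ (a * b) = a * b
          rw [map_mul, ha, hb]
        one_mem' := map_one σ
        inv_mem' := fun {a} ha => by
          show σ a⁻¹ = a⁻¹
          rw [map_inv, ha] }
    have hFset : MulAction.fixedPoints (Subgroup.zpowers σ) (P : Subgroup G) = (F : Set _) := by
      ext x
      simp only [MulAction.mem_fixedPoints]
      constructor
      · intro h; exact h ⟨σ, Subgroup.mem_zpowers σ⟩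
      · rintro h ⟨g, hg⟩
        obtain ⟨k, rfl⟩ := Subgroup.mem_zpowers_iff.mp hg
        have : σ ∈ MulAction.stabilizer (MulAut (P : Subgroup G)) x := h
        exact zpow_mem this k
    rw [hFset, hP] at hfix
    change p ^ 2 ≡ Nat.card F [MOD t] at hfix
    have hFd := Subgroup.card_subgroup_dvd_card F
    rw [hP] at hFd
    obtain ⟨j, hj, hj'⟩ := (Nat.dvd_prime_pow hp).mp hFd
    rw [hj'] at hfix
    have hp1 := hp.one_lt
    have hcop : Nat.Coprime t p := (Nat.coprime_primes ht hp).mpr (by omega)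
    interval_cases j
    · exact hnd (hmodsq p t ht.one_lt hp1.le (by
        rw [pow_zero, Nat.ModEq, Nat.mod_eq_of_lt ht.one_lt] at hfix; exact hfix))
    · rw [pow_two, pow_one] at hfix
      have h' : p * p ≡ 1 * p [MOD t] := by rwa [one_mul]
      have := Nat.ModEq.cancel_right_of_coprime (by simpa [Nat.coprime_iff_gcd_eq_one] using hcop) h'
      rw [Nat.ModEq, Nat.mod_eq_of_lt hpt, Nat.mod_eq_of_lt ht.one_lt] at this
      omega
    · have hFtop : F = ⊤ := Subgroup.eq_top_of_card_eq F (by rw [hj', hP])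
      have : σ = 1 := MulEquiv.ext fun x => (hFtop ▸ Subgroup.mem_top x : x ∈ F)
      rw [this, orderOf_one] at hσ
      exact ht.one_lt.ne hσ
  obtain ⟨rfl, rfl⟩ := hsq p t hp ht hpt ht2
  have key : ∀ s : ℕ, s.Prime → s ≠ 3 → s ≠ 2 → Nat.card G = 2 ^ 2 * 3 * s → False := by
    intro s hs hs3 hs2 h
    have : Fact s.Prime := ⟨hs⟩
    have hs5 : 5 ≤ s := by
      have := hs.two_le
      rcases hs.eq_two_or_odd with h' | h' <;> omega
    have hnd : ¬ s ∣ 12 := fun h' => by
      have hle := Nat.le_of_dvd (by norm_num) h'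
      interval_cases s <;> first | omega | norm_num at *
    obtain ⟨hd, hm, hne, -⟩ := hsyl s 1 12 one_pos (by rw [h]; ring) hnd
    have hle := Nat.le_of_dvd (by norm_num) hd
    by_cases hs12 : s ≤ 12
    · generalize hn : Nat.card (Sylow s G) = n at hd hm hne hle
      rcases (show s = 5 ∨ s = 7 ∨ s = 11 by
        interval_cases s <;> first | omega | norm_num at hs) with rfl | rfl | rfl
      · exact h60 (by rw [h]; norm_num)
      · interval_cases n <;> norm_num at *
      · have hn12 : n = 12 := by interval_cases n <;> omega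
        let P : Sylow 11 G := default
        obtain ⟨e, c, he, he1', hN, -⟩ := Cfsg.Agent.H30.exists_automizer_of_prime_order hna 11 P
          (by simpa using
            Cfsg.Agent.H30.card_sylow_subgroup (a := 1) P (m := 12) (by rw [h]; norm_num) hnd)
        have hmul := Cfsg.Agent.H30.card_sylow_mul_normalizer 11 P
        rw [hn, hn12, hN, h] at hmul
        have hle' : e ≤ 10 := Nat.le_of_dvd (by norm_num) he
        interval_cases e <;> omega
    · rw [Nat.mod_eq_of_lt (by omega)] at hm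
      exact hne hm
  rcases ht.dvd_mul.mp htqr with h' | h'
  · have h3 := (Nat.prime_dvd_prime_iff_eq ht hq).mp h'
    subst h3
    exact key r hr (fun e => hqr e.symm) (by omega) hG
  · have h3 := (Nat.prime_dvd_prime_iff_eq ht hr).mp h'
    subst h3
    exact key q hq hqr (by omega) (by rw [hG]; ring)

end Cfsg.Agent.S0988
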