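import Cfsg.Statements.S0995
import Cfsg.Agent.H31.SylowPrime

open Cfsg.Agent.H31

set_option autoImplicit false
open Cfsg

namespace Cfsg.Agent.S0995

/-- Let G be a finite perfect group containing an element z of prime order p whose centralizer is the cyclic group it generates. Let t be the number of conjugacy classes of elements of order p. Then t divides p - 1, the number of Sylow p-subgroups has the form 1 + n * p, and |G| * t = (p - 1) * p * (1 + n * p). -/
theorem result {G : Type*} [Group G] [Finite G] (hperf : commutator G = ⊤) (p : ℕ) [Fact p.Prime] (z : G) (hz : orderOf z = p) (hC : Subgroup.centralizer ({z} : Set G) = Subgroup.zpowers z) : ∃ n t : ℕ, t = Nat.card {c : ConjClasses G // ∃ g : G, ConjClasses.mk g = c ∧ orderOf g = p} ∧ t ∣ p - 1 ∧ Nat.card (Sylow p G) = 1 + n * p ∧ Nat.card G * t = (p - 1) * p * (1 + n * p) := by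
  classical
  have hp : p.Prime := Fact.out
  have hzc : Nat.card ↥(Subgroup.zpowers z) = p := by rw [Nat.card_zpowers, hz]
  obtain ⟨P, hPz⟩ := (IsPGroup.of_card (p := p) (n := 1)
    (show Nat.card ↥(Subgroup.zpowers z) = p ^ 1 by rw [hzc, pow_one])).exists_le_sylow
  have hzP : z ∈ (P : Subgroup G) := hPz (Subgroup.mem_zpowers z)
  have hz1 : z ≠ 1 := by rintro rfl; rw [orderOf_one] at hz; exact hp.ne_one hz.symm
  have : Nontrivial ↥(P : Subgroup G) := ⟨⟨⟨z, hzP⟩, 1, fun h => hz1 (congrArg Subtype.val h)⟩⟩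
  obtain ⟨w, hw, hw1⟩ := (Subgroup.bot_or_exists_ne_one
    (Subgroup.center ↥(P : Subgroup G))).resolve_left (P.isPGroup'.bot_lt_center).ne'
  have hwC : (w : G) ∈ Subgroup.zpowers z := by
    rw [← hC, Subgroup.mem_centralizer_singleton_iff]
    exact (congrArg Subtype.val (Subgroup.mem_center_iff.1 hw ⟨z, hzP⟩)).symm
  have hzw : z ∈ Subgroup.zpowers (w : G) := by
    rw [(zpowers_eq_of_prime_card hzc hwC fun h => hw1 (Subtype.ext h)).1]
    exact Subgroup.mem_zpowers z
  have hPle : (P : Subgroup G) ≤ Subgroup.zpowers z := by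
    intro y hy
    rw [← hC, Subgroup.mem_centralizer_singleton_iff]
    obtain ⟨k, rfl⟩ := Subgroup.mem_zpowers_iff.1 hzw
    have hcomm : Commute y (w : G) := congrArg Subtype.val (Subgroup.mem_center_iff.1 hw ⟨y, hy⟩)
    exact (hcomm.zpow_right k).eq
  have hPeq : (P : Subgroup G) = Subgroup.zpowers z := le_antisymm hPle hPz
  have hPcard : Nat.card ↥(P : Subgroup G) = p := by rw [hPeq, hzc]
  let E := {g : G // orderOf g = p}
  let T := {c : ConjClasses G // ∃ g : G, ConjClasses.mk g = c ∧ orderOf g = p}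
  obtain ⟨n, hn⟩ : ∃ n, Nat.card (Sylow p G) = 1 + n * p := by
    refine ⟨Nat.card (Sylow p G) / p, ?_⟩
    have h1 := card_sylow_modEq_one p G
    rw [Nat.ModEq, Nat.mod_eq_of_lt hp.one_lt] at h1
    have := Nat.mod_add_div (Nat.card (Sylow p G)) p
    rw [h1] at this
    rw [mul_comm]; exact this.symm
  have hE : Nat.card E = Nat.card (Sylow p G) * (p - 1) := card_orderOf_eq_prime P hPcard
  have hcls : ∀ g : G, orderOf g = p → p * Nat.card {h : G // IsConj g h} = Nat.card G := by
    intro g hg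
    obtain ⟨Q, hQ⟩ := exists_sylow_eq_zpowers P hPcard hg
    obtain ⟨c, hc⟩ := MulAction.exists_smul_eq G P Q
    have hgQ : g ∈ (Q : Subgroup G) := hQ ▸ Subgroup.mem_zpowers g
    rw [← hc, Sylow.coe_subgroup_smul] at hgQ
    obtain ⟨u, hu, hug⟩ := hgQ
    have hug' : c * u * c⁻¹ = g := hug
    have hu1 : u ≠ 1 := by
      rintro rfl
      rw [← hug', mul_one, mul_inv_cancel, orderOf_one] at hg
      exact hp.ne_one hg.symm
    have huP := (zpowers_eq_of_prime_card hzc (hPle hu) hu1).1
    have hCu : Subgroup.centralizer ({u} : Set G) = Subgroup.zpowers z := by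
      rw [← Subgroup.centralizer_closure ({u} : Set G), ← Subgroup.zpowers_eq_closure u, huP,
        Subgroup.zpowers_eq_closure z, Subgroup.centralizer_closure ({z} : Set G), hC,
        Subgroup.zpowers_eq_closure z]
    have hcardu := card_class_mul_centralizer u
    rw [hCu, hzc] at hcardu
    rw [mul_comm, ← hcardu]
    congr 1
    have hug'' : IsConj u g := isConj_iff.2 ⟨c, hug'⟩
    exact Nat.card_congr (Equiv.subtypeEquivRight fun h =>
      ⟨fun e => hug''.trans e, fun e => hug''.symm.trans e⟩)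
  have hcount : p * Nat.card E = Nat.card T * Nat.card G := by
    have : Fintype T := Fintype.ofFinite _
    let π : E → T := fun u => ⟨ConjClasses.mk u.1, u.1, rfl, u.2⟩
    rw [← Nat.card_congr (Equiv.sigmaFiberEquiv π), Nat.card_sigma, Finset.mul_sum,
      Finset.sum_congr rfl (fun c _ => ?_), Finset.sum_const, smul_eq_mul, Finset.card_univ,
      ← Nat.card_eq_fintype_card]
    obtain ⟨c, g, rfl, hg⟩ := c
    rw [← hcls g hg]
    congr 1
    refine Nat.card_congr
      { toFun := fun u => ⟨u.1.1, (ConjClasses.mk_eq_mk_iff_isConj.1 (congrArg Subtype.val u.2)).symm⟩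
        invFun := fun h => ⟨⟨h.1, ?_⟩, Subtype.ext (ConjClasses.mk_eq_mk_iff_isConj.2 h.2.symm)⟩
        left_inv := fun _ => rfl
        right_inv := fun _ => rfl }
    obtain ⟨c, hc⟩ := isConj_iff.1 h.2
    rw [← hc, orderOf_conj_eq, hg]
  rw [hE, hn] at hcount
  obtain ⟨e, he⟩ : ∃ e, Nat.card G = p * e * (1 + n * p) := by
    have h1 := Subgroup.card_mul_index (Subgroup.normalizer ((P : Subgroup G) : Set G))
    have h0 : (Subgroup.normalizer ((P : Subgroup G) : Set G)).index = Nat.card (Sylow p G) :=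
      P.card_eq_index_normalizer.symm
    rw [h0, hn] at h1
    obtain ⟨e, he⟩ := hPcard ▸ Subgroup.card_dvd_of_le
      (Subgroup.le_normalizer (H := (P : Subgroup G)))
    exact ⟨e, by rw [← h1, he]⟩
  refine ⟨n, Nat.card T, rfl, ⟨e, ?_⟩, hn, ?_⟩
  · have h0 : 0 < p * (1 + n * p) := Nat.mul_pos hp.pos (by omega)
    refine Nat.eq_of_mul_eq_mul_left h0 ?_
    calc p * (1 + n * p) * (p - 1) = p * ((1 + n * p) * (p - 1)) := by ring
      _ = Nat.card T * Nat.card G := hcount
      _ = _ := by rw [he]; ring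
  · rw [mul_comm, ← hcount]; ring

end Cfsg.Agent.S0995
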