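import Cfsg.Statements.S1002
import Cfsg.Agent.H30.DegreeEquation

set_option autoImplicit false
open Cfsg

namespace Cfsg.Agent.S1002

/-- No finite simple group has order 1004913 = 3^3 * 7 * 13 * 409. -/
theorem result {G : Type*} [Group G] [Finite G] [IsSimpleGroup G] : Nat.card G ≠ 1004913 := by
  intro h
  have : Fact (Nat.Prime 409) := ⟨by norm_num⟩
  have hG : ¬ IsMulCommutative G := Cfsg.Agent.H30.not_comm_of_not_prime (by rw [h]; norm_num)
  have hd : Nat.card (Sylow 409 G) ∣ 2457 :=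
    Cfsg.Agent.H30.card_sylow_dvd (a := 1) (by rw [h]; norm_num) (by norm_num)
  have hm : Nat.card (Sylow 409 G) % 409 = 1 := card_sylow_modEq_one 409 G
  have h1 := Cfsg.Agent.H30.card_sylow_ne_one hG 409 (by rw [h]; norm_num)
  have hk : Nat.card (Sylow 409 G) = 819 := by
    have hall : ∀ j ∈ Nat.divisors 2457, j % 409 = 1 → j = 1 ∨ j = 819 := by decide +kernel
    exact (hall _ (Nat.mem_divisors.mpr ⟨hd, by norm_num⟩) hm).resolve_left h1
  obtain ⟨s, D, ε, hε, hs, hD, hD2, hDm, hx, hsum, hsq⟩ :=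
    Cfsg.Agent.H30.signed_degrees_of_sylow hG 409 819 3 (by norm_num) (by norm_num)
      (by rw [h]) (by norm_num) hk (by norm_num)
  rw [h] at hD hsq
  push_cast at hsq
  obtain ⟨x, y, rfl⟩ : ∃ x y, s = {x, y} := Multiset.card_eq_two.mp (by omega)
  obtain ⟨hxm, hxd, hx2⟩ := hx x (by simp)
  obtain ⟨hym, hyd, hy2⟩ := hx y (by simp)
  simp only [Multiset.insert_eq_cons, Multiset.map_cons, Multiset.map_singleton, Multiset.sum_cons,
    Multiset.sum_singleton] at hsum hsq
  rw [h] at hxd hyd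
  have hDb : D < 86 := by nlinarith [sq_nonneg x, sq_nonneg y]
  have hD3 : D = 3 ∧ ε = 1 := by
    obtain ⟨q, hq⟩ := hDm
    rcases hε with rfl | rfl <;> norm_num <;> omega
  obtain ⟨rfl, rfl⟩ := hD3
  have hb : ∀ z w : ℤ, z ^ 2 + w ^ 2 < 1004913 → z.natAbs < 1003 := by
    intro z w hzw
    by_contra hc
    have h5 : (1003 : ℤ) ^ 2 ≤ ((z.natAbs : ℕ) : ℤ) ^ 2 :=
      pow_le_pow_left₀ (by norm_num) (by exact_mod_cast (by omega : 1003 ≤ z.natAbs)) 2
    rw [Int.natAbs_sq] at h5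
    nlinarith [sq_nonneg w]
  have hxb := hb x y (by push_cast at hsq; nlinarith)
  have hyb := hb y x (by push_cast at hsq; nlinarith)
  have hval : ∀ z : ℤ, z.natAbs < 1003 → z.natAbs ∣ 1004913 → 2 ≤ z.natAbs → (409 : ℤ) ∣ z + 1 →
      z = -819 := by
    intro z hb hdv h2 hm
    have hall : ∀ a ∈ [408, 410, 817, 819], a ∣ 1004913 → a = 819 := by decide +kernel
    have ha : z.natAbs ∈ [408, 410, 817, 819] := by
      simp only [List.mem_cons, List.not_mem_nil, or_false]
      omega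
    have := hall _ ha hdv
    omega
  rw [hval x hxb hxd hx2 hxm, hval y hyb hyd hy2 hym] at hsum
  omega

end Cfsg.Agent.S1002
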