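import Cfsg.Statements.S1009
import Mathlib

set_option autoImplicit false
open Cfsg

namespace Cfsg.Agent.S1009

/-- Brodkey's Theorem: if a finite group has abelian Sylow p-subgroups, then there are two Sylow p-subgroups whose intersection equals the intersection of all Sylow p-subgroups. -/
theorem result {G : Type*} [Group G] [Finite G] (p : ℕ) [Fact p.Prime] (hab : ∀ P : Sylow p G, IsMulCommutative ↥(P : Subgroup G)) : ∃ P Q : Sylow p G, (P : Subgroup G) ⊓ (Q : Subgroup G) = ⨅ R : Sylow p G, (R : Subgroup G) := by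
  classical
  have := Fintype.ofFinite (Sylow p G)
  obtain ⟨⟨P, Q⟩, -, hmin⟩ := Finset.exists_min_image (Finset.univ : Finset (Sylow p G × Sylow p G))
    (fun PQ => Nat.card ↥((PQ.1 : Subgroup G) ⊓ PQ.2)) Finset.univ_nonempty
  refine ⟨P, Q, le_antisymm (le_iInf fun R => ?_) (le_inf (iInf_le _ P) (iInf_le _ Q))⟩
  set D := (P : Subgroup G) ⊓ Q with hD
  let N := Subgroup.centralizer (D : Set G)
  have hle : ∀ S : Sylow p G, D ≤ S → (S : Subgroup G) ≤ N := by
    intro S hS x hx
    rw [Subgroup.mem_centralizer_iff]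
    intro d hd
    exact congrArg Subtype.val ((hab S).is_comm.comm (⟨d, hS hd⟩ : (S : Subgroup G)) ⟨x, hx⟩)
  have hPN := hle P inf_le_left
  have hQN := hle Q inf_le_right
  obtain ⟨T, hT⟩ : ∃ T : Sylow p N, ((R : Subgroup G) ⊓ N).subgroupOf N ≤ T := by
    refine IsPGroup.exists_le_sylow ?_
    exact (R.isPGroup'.to_le inf_le_left).of_equiv (Subgroup.subgroupOfEquivOfLe inf_le_right).symm
  obtain ⟨n, hn⟩ := MulAction.exists_smul_eq N (P.subtype hPN) T
  have hmem : ∀ (S : Sylow p G) (x : G), x ∈ (((n : G) • S : Sylow p G) : Subgroup G) →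
      (n : G)⁻¹ * x * n ∈ (S : Subgroup G) := by
    intro S x hx
    rw [Sylow.coe_subgroup_smul] at hx
    obtain ⟨y, hy, rfl⟩ := hx
    simpa [mul_assoc, MulAut.conj_apply] using (show y ∈ (S : Subgroup G) from hy)
  have hP' : ∀ x : G, x ∈ (R : Subgroup G) → x ∈ N → (n : G)⁻¹ * x * n ∈ (P : Subgroup G) := by
    intro x hxR hxN
    have h1 := hT (show (⟨x, hxN⟩ : N) ∈ ((R : Subgroup G) ⊓ N).subgroupOf N from ⟨hxR, hxN⟩)
    rw [← hn, Sylow.coe_subgroup_smul] at h1
    obtain ⟨y, hy, hyx⟩ := h1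
    have hyx' : (n : G) * (y : G) * (n : G)⁻¹ = x := congrArg Subtype.val hyx
    rw [← hyx']
    simpa [mul_assoc] using (show (y : G) ∈ (P : Subgroup G) from hy)
  have hle2 : (R : Subgroup G) ⊓ (((n : G) • Q : Sylow p G) : Subgroup G) ≤ D := by
    intro x hx
    have hq : (n : G)⁻¹ * x * n ∈ (Q : Subgroup G) := hmem Q x hx.2
    have hxN : x ∈ N := by
      have := N.mul_mem (N.mul_mem n.2 (hQN hq)) (N.inv_mem n.2)
      simpa [mul_assoc] using this
    have hd : (n : G)⁻¹ * x * n ∈ D := ⟨hP' x hx.1 hxN, hq⟩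
    have hc := Subgroup.mem_centralizer_iff.1 n.2 _ hd
    -- `n` commutes with the element of `D`
    have hxd : x = (n : G)⁻¹ * x * n :=
      calc x = (n : G) * ((n : G)⁻¹ * x * n) * (n : G)⁻¹ := by simp [mul_assoc]
        _ = _ := by rw [← hc, mul_inv_cancel_right]
    rw [hxd]; exact hd
  have := Subgroup.eq_of_le_of_card_ge hle2 (hmin (R, (n : G) • Q) (Finset.mem_univ _))
  exact this ▸ inf_le_left

end Cfsg.Agent.S1009
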