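import Cfsg.Statements.S1013
import Cfsg.Agent.H31.LineRep
import Cfsg.Agent.H31.SylowPrime

open Cfsg.Agent.H31

set_option autoImplicit false
open Cfsg

namespace Cfsg.Agent.S1013

/-- Let G be a transitive permutation group of prime degree p having more than one Sylow p-subgroup, and suppose a Sylow p-subgroup P has prime index in its normalizer. Then G is simple. -/
theorem result {α : Type*} [Fintype α] [DecidableEq α] {p : ℕ} [Fact p.Prime] (hα : Fintype.card α = p) (G : Subgroup (Equiv.Perm α)) [MulAction.IsPretransitive ↥G α] (P : Sylow p ↥G) (hn : 1 < Nat.card (Sylow p ↥G)) (ht : (((P : Subgroup ↥G).subgroupOf (Subgroup.normalizer ((P : Subgroup ↥G) : Set ↥G))).index).Prime) : IsSimpleGroup ↥G := by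
  classical
  have hp : p.Prime := Fact.out
  have hne : Nonempty α := Fintype.card_pos_iff.1 (hα.symm ▸ hp.pos)
  obtain ⟨a⟩ := hne
  have hcardG : Nat.card ↥G ∣ p.factorial := by
    have := Subgroup.card_subgroup_dvd_card G
    rwa [Nat.card_eq_fintype_card (α := Equiv.Perm α), Fintype.card_perm, hα] at this
  have hidx : (MulAction.stabilizer ↥G a).index = p := by
    rw [MulAction.index_stabilizer_of_transitive, Nat.card_eq_fintype_card, hα]
  have hpG : p ∣ Nat.card ↥G := hidx ▸ Subgroup.index_dvd_card _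
  have hPcard : Nat.card ↥(P : Subgroup ↥G) = p := by
    obtain ⟨k, hk⟩ := hpG
    refine card_sylow_eq_prime hk (fun h => ?_) P
    have h2 : p * p ∣ p.factorial := (hk ▸ mul_dvd_mul_left p h).trans hcardG
    obtain ⟨q, hq⟩ := Nat.exists_eq_succ_of_ne_zero hp.ne_zero
    rw [hq, Nat.factorial_succ, mul_dvd_mul_iff_left (Nat.succ_ne_zero q), ← hq,
      hp.dvd_factorial] at h2
    omega
  have : MulAction.IsPreprimitive ↥G α :=
    MulAction.IsPreprimitive.of_prime_card (by rw [Nat.card_eq_fintype_card, hα]; exact hp)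
  have hnt : Nontrivial ↥G :=
    Finite.one_lt_card_iff_nontrivial.1 (hp.one_lt.trans_le (Nat.le_of_dvd Nat.card_pos hpG))
  refine ⟨fun N hN => ?_⟩
  by_contra hcon
  push Not at hcon
  obtain ⟨hNbot, hNtop⟩ := hcon
  have hdvd : ∀ M : Subgroup ↥G, M.Normal → M ≠ ⊥ → p ∣ Nat.card ↥M := by
    intro M hM hMb
    have : MulAction.IsPretransitive M α := by
      refine MulAction.IsQuasiPreprimitive.isPretransitive_of_normal (G := ↥G) fun h => hMb ?_
      rw [Subgroup.eq_bot_iff_forall]
      intro x hx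
      refine Subtype.ext (Equiv.ext fun b => ?_)
      exact (h ▸ Set.mem_univ b : b ∈ MulAction.fixedPoints M α) ⟨x, hx⟩
    have h2 := (MulAction.stabilizer M a).index_dvd_card
    rwa [MulAction.index_stabilizer_of_transitive, Nat.card_eq_fintype_card, hα] at h2
  have hPN : (P : Subgroup ↥G) ≤ N := by
    obtain ⟨x, hx⟩ := exists_prime_orderOf_dvd_card' p (hdvd N hN hNbot)
    obtain ⟨Q, hQ⟩ := exists_sylow_eq_zpowers P hPcard (x := (x : ↥G)) (by rw [Subgroup.orderOf_coe, hx])
    have hQN : (Q : Subgroup ↥G) ≤ N := hQ ▸ Subgroup.zpowers_le.2 x.2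
    obtain ⟨g, rfl⟩ := MulAction.exists_smul_eq ↥G Q P
    rw [Sylow.coe_subgroup_smul]
    rintro _ ⟨y, hy, rfl⟩
    exact hN.conj_mem y (hQN hy) g
  set H := Subgroup.normalizer ((P : Subgroup ↥G) : Set ↥G) with hH
  have hPH : (P : Subgroup ↥G) ≤ H := Subgroup.le_normalizer
  have hsup : H ⊔ N = ⊤ := by
    have := Sylow.normalizer_sup_eq_top (P.subtype hPN)
    rwa [Sylow.coe_subtype, Subgroup.subgroupOf_map_subtype, inf_eq_left.2 hPN] at this
  have hmid : ((P : Subgroup ↥G).subgroupOf H).index =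
      (P : Subgroup ↥G).relIndex (N ⊓ H) * (N ⊓ H).relIndex H := by
    rw [Subgroup.relIndex_mul_relIndex _ _ _ (le_inf hPN hPH) inf_le_right]
    rfl
  rcases (Nat.dvd_prime ht).1 ⟨_, hmid⟩ with h1 | h1
  · have heq : N ⊓ H = (P : Subgroup ↥G) :=
      le_antisymm (Subgroup.relIndex_eq_one.1 h1) (le_inf hPN hPH)
    let Q : Sylow p N := P.subtype hPN
    have hQc : Nat.card ↥(Q : Subgroup N) = p := by
      rw [Sylow.coe_subtype, Nat.card_congr (Subgroup.subgroupOfEquivOfLe hPN).toEquiv, hPcard]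
    have : IsCyclic ↥(Q : Subgroup N) := isCyclic_of_prime_card hQc
    have hQcomm := IsCyclic.commutative (α := ↥(Q : Subgroup N))
    have hNC : Subgroup.normalizer ((Q : Subgroup N) : Set N) ≤
        Subgroup.centralizer ((Q : Subgroup N) : Set N) := by
      intro g hg
      have hgP : (g : ↥G) ∈ H := by
        rw [hH, Subgroup.mem_normalizer_iff]
        intro y
        constructor
        · intro hy
          exact (Subgroup.mem_normalizer_iff.1 hg ⟨y, hPN hy⟩).1 hy
        · intro hy
          have hyN : y ∈ N := by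
            have h3 := N.mul_mem (N.mul_mem (N.inv_mem g.2) (hPN hy)) g.2
            simpa [mul_assoc] using h3
          exact (Subgroup.mem_normalizer_iff.1 hg ⟨y, hyN⟩).2 hy
      have hgQ : g ∈ (Q : Subgroup N) := by
        have : (g : ↥G) ∈ N ⊓ H := ⟨g.2, hgP⟩
        rwa [heq] at this
      rw [Subgroup.mem_centralizer_iff]
      intro y hy
      exact congrArg Subtype.val (hQcomm.is_comm.comm ⟨y, hy⟩ ⟨g, hgQ⟩)
    set K := (MonoidHom.transferSylow Q hNC).ker with hK
    have hKd : ¬ p ∣ Nat.card ↥K := hK ▸ MonoidHom.not_dvd_card_ker_transferSylow Q hNC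
    have hKchar : (K.map N.subtype).Normal := by
      refine ⟨fun y hy g => ?_⟩
      obtain ⟨k, hk, rfl⟩ := hy
      refine ⟨⟨g * k.1 * g⁻¹, hN.conj_mem _ k.2 g⟩, ?_, rfl⟩
      have hcop : ¬ p ∣ orderOf k := fun h => hKd (h.trans
        (by rw [← Subgroup.orderOf_mk k hk]; exact orderOf_dvd_natCard _))
      set k' : N := ⟨g * k.1 * g⁻¹, hN.conj_mem _ k.2 g⟩
      have hord : k' ^ orderOf k = 1 := by
        apply Subtype.ext
        rw [Subgroup.coe_pow, conj_pow, ← Subgroup.coe_pow, pow_orderOf_eq_one]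
        simp
      change k' ∈ K
      rw [hK, MonoidHom.mem_ker]
      have e1 : MonoidHom.transferSylow Q hNC k' ^ orderOf k = 1 := by
        rw [← map_pow, hord, map_one]
      have e2 : MonoidHom.transferSylow Q hNC k' ^ Nat.card ↥(Q : Subgroup N) = 1 := pow_card_eq_one'
      rw [hQc] at e2
      have := pow_gcd_eq_one.2 ⟨e1, e2⟩
      rwa [(Nat.Coprime.symm (hp.coprime_iff_not_dvd.2 hcop)), pow_one] at this
    have hKbot : K = ⊥ := by
      by_contra hKb
      have h3 : K.map N.subtype ≠ ⊥ := fun h =>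
        hKb ((Subgroup.map_eq_bot_iff_of_injective _ N.subtype_injective).1 h)
      have := hdvd _ hKchar h3
      rw [Subgroup.card_map_of_injective N.subtype_injective] at this
      exact hKd this
    have hcompl := MonoidHom.ker_transferSylow_isComplement' Q hNC
    rw [← hK, hKbot, Subgroup.isComplement'_bot_left, Sylow.coe_subtype,
      Subgroup.subgroupOf_eq_top] at hcompl
    have hNP : N = (P : Subgroup ↥G) := le_antisymm hcompl hPN
    have hPn : (P : Subgroup ↥G).Normal := hNP ▸ hN
    have : Subsingleton (Sylow p ↥G) := by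
      refine ⟨fun A B => ?_⟩
      obtain ⟨a', rfl⟩ := MulAction.exists_smul_eq ↥G P A
      obtain ⟨b', rfl⟩ := MulAction.exists_smul_eq ↥G P B
      have hfixP : ∀ g : ↥G, g • P = P := fun g => Sylow.smul_eq_iff_mem_normalizer.2
        (by
          have e : Subgroup.normalizer ((P : Subgroup ↥G) : Set ↥G) = ⊤ :=
            Subgroup.normalizer_eq_top_iff.2 hPn
          exact e ▸ Subgroup.mem_top g)
      rw [hfixP, hfixP]
    rw [Nat.card_eq_one_iff_unique.2 ⟨this, ⟨P⟩⟩] at hn
    omega
  · have h2 : (N ⊓ H).relIndex H = 1 := by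
      rw [h1] at hmid
      exact (Nat.eq_of_mul_eq_mul_left ht.pos (by rw [mul_one]; exact hmid)).symm
    rw [Subgroup.relIndex_eq_one] at h2
    exact hNtop (top_le_iff.1 (hsup ▸ sup_le (h2.trans inf_le_left) le_rfl))

end Cfsg.Agent.S1013
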