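import Cfsg.Statements.S1014
import Cfsg.Agent.H30.DegreeEquation

set_option autoImplicit false
open Cfsg

namespace Cfsg.Agent.S1014

/-- No finite simple group has order 1104 = 2^4 * 3 * 23. -/
theorem result {G : Type*} [Group G] [Finite G] [IsSimpleGroup G] : Nat.card G ≠ 1104 := by
  intro h
  have : Fact (Nat.Prime 23) := ⟨by norm_num⟩
  have hG : ¬ IsMulCommutative G := Cfsg.Agent.H30.not_comm_of_not_prime (by rw [h]; norm_num)
  have hd : Nat.card (Sylow 23 G) ∣ 48 :=
    Cfsg.Agent.H30.card_sylow_dvd (a := 1) (by rw [h]; norm_num) (by norm_num)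
  have hm : Nat.card (Sylow 23 G) % 23 = 1 := card_sylow_modEq_one 23 G
  have h1 := Cfsg.Agent.H30.card_sylow_ne_one hG 23 (by rw [h]; norm_num)
  have hk : Nat.card (Sylow 23 G) = 24 := by
    have hall : ∀ j ∈ Nat.divisors 48, j % 23 = 1 → j = 1 ∨ j = 24 := by decide +kernel
    exact (hall _ (Nat.mem_divisors.mpr ⟨hd, by norm_num⟩) hm).resolve_left h1
  obtain ⟨s, D, ε, hε, hs, hD, hD2, hDm, hx, hsum, hsq⟩ :=
    Cfsg.Agent.H30.signed_degrees_of_sylow hG 23 24 2 (by norm_num) (by norm_num)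
      (by rw [h]) (by norm_num) hk (by norm_num)
  rw [h] at hD hsq
  push_cast at hsq
  obtain ⟨x, rfl⟩ : ∃ x, s = {x} := Multiset.card_eq_one.mp (by omega)
  obtain ⟨hxm, hxd, hx2⟩ := hx x (Multiset.mem_singleton_self x)
  simp only [Multiset.map_singleton, Multiset.sum_singleton] at hsum hsq
  rw [h] at hxd
  have hDb : D < 11 := by nlinarith [sq_nonneg x]
  have hxe : x = 1 - ε * D := by linarith
  subst hxe
  interval_cases D <;> rcases hε with rfl | rfl <;> norm_num at *

end Cfsg.Agent.S1014
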