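import Cfsg.Statements.S1041
import Cfsg.Agent.H46.Mem

set_option autoImplicit false
open Cfsg

namespace Cfsg.Agent.S1041

/-- `U` and `V` generate the whole Chevalley group. -/
theorem result {F : Type*} [Field F] (D : Cfsg.Lie.ChevalleyDatum) (hD : D ∈ [Cfsg.Lie.chevG2, Cfsg.Lie.chevB2, Cfsg.Lie.chevD4, Cfsg.Lie.chevF4, Cfsg.Lie.chevE6, Cfsg.Lie.chevE7, Cfsg.Lie.chevE8]) : D.posUnipotent F ⊔ D.negUnipotent F = D.group F := by
  obtain ⟨G⟩ := Cfsg.Agent.H46.good_of_mem hD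
  refine le_antisymm (sup_le ?_ ?_) (G.group_le fun r hr t => ?_)
  · exact (Subgroup.closure_le _).2 fun g ⟨r, t, _, hg⟩ => by rw [G.eq_xg hg]; exact G.xg_mem_group r t
  · exact (Subgroup.closure_le _).2 fun g ⟨r, t, _, hg⟩ => by rw [G.eq_xg hg]; exact G.xg_mem_group r t
  · rcases G.isPosRoot_or_isNegRoot hr with h | h
    · exact Subgroup.mem_sup_left (Subgroup.subset_closure ⟨r, t, h, rfl⟩)
    · exact Subgroup.mem_sup_right (Subgroup.subset_closure ⟨r, t, h, rfl⟩)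

end Cfsg.Agent.S1041
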