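import Cfsg.Statements.S1045
import Cfsg.Agent.H46.Mem
import Cfsg.Agent.H46.Parabolic

set_option autoImplicit false
open Cfsg

namespace Cfsg.Agent.S1045

/-- For a fundamental root `p`, the subgroup `U_p` generated by the `X_s`, `s` positive and `s ≠ p`, is normalised by `X_p` and `X_{-p}`, and `U = U_p ⊔ X_p`. -/
theorem result {F : Type*} [Field F] (D : Cfsg.Lie.ChevalleyDatum) (hD : D ∈ [Cfsg.Lie.chevG2, Cfsg.Lie.chevB2, Cfsg.Lie.chevD4, Cfsg.Lie.chevF4, Cfsg.Lie.chevE6, Cfsg.Lie.chevE7, Cfsg.Lie.chevE8]) (i : ℕ) (hi : i < D.rank) :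
    D.rootSubgroup F (D.simple i) ⊔ D.rootSubgroup F (D.neg (D.simple i)) ≤
        Subgroup.normalizer (Subgroup.closure {g : GL D.Idx F | ∃ (s : ℕ) (t : F), D.IsPosRoot s ∧ s ≠ D.simple i ∧
          (g : Matrix D.Idx D.Idx F) = D.x F s t} : Set (GL D.Idx F)) ∧
      Subgroup.closure {g : GL D.Idx F | ∃ (s : ℕ) (t : F), D.IsPosRoot s ∧ s ≠ D.simple i ∧
          (g : Matrix D.Idx D.Idx F) = D.x F s t} ⊔ D.rootSubgroup F (D.simple i) = D.posUnipotent F := by
  obtain ⟨G⟩ := Cfsg.Agent.H46.good_of_mem hD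
  rw [G.radical_singleton hi]
  exact G.simple_root_complement hi

end Cfsg.Agent.S1045
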