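import Cfsg.Statements.S1079
import Cfsg.Agent.H47.CenterCard

set_option autoImplicit false
open Cfsg

namespace Cfsg.Agent.S1079

/-- `|Z(Ḡ)| = gcd(3, q-1)` for E₆ and `gcd(2, q-1)` for E₇ over a field with `q` elements (the centre is dual to the weight lattice modulo the root lattice). -/
theorem result {K : Type*} [Field K] [Fintype K] {q : ℕ} (hq : Fintype.card K = q)
    (p : Cfsg.Lie.ChevalleyDatum × ℕ) (hp : p ∈ [(Cfsg.Lie.chevE6, 3), (Cfsg.Lie.chevE7, 2)]) :
    Nat.card (Subgroup.center (p.1.SteinbergGroup K)) = Nat.gcd p.2 (q - 1) := by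
  simp only [List.mem_cons, List.not_mem_nil, or_false] at hp
  rcases hp with rfl | rfl
  · exact Cfsg.Agent.H47.CenterCard.card_center Cfsg.Agent.H46.goodE6 Cfsg.Agent.H46.goodE8
      (Cfsg.Agent.H70.Steinberg.cert_of_mem (by simp)) Cfsg.Agent.H47.CenterCard.chk_E6 _
      Cfsg.Agent.H70.Steinberg.chkInv_E8 Cfsg.Agent.H47.CenterCard.kerChk_E6 hq
  · exact Cfsg.Agent.H47.CenterCard.card_center Cfsg.Agent.H46.goodE7 Cfsg.Agent.H46.goodE8
      (Cfsg.Agent.H70.Steinberg.cert_of_mem (by simp)) Cfsg.Agent.H47.CenterCard.chk_E7 _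
      Cfsg.Agent.H70.Steinberg.chkInv_E8 Cfsg.Agent.H47.CenterCard.kerChk_E7 hq

end Cfsg.Agent.S1079
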