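import Cfsg.Statements.S1081
import Cfsg.Agent.H47.SymTables

set_option autoImplicit false
open Cfsg

namespace Cfsg.Agent.S1081

/-- Graph automorphisms: for E₆ with ρ = (p₁ p₆)(p₃ p₅) and for D₄ with ρ the 3-cycle on the outer nodes there is a group automorphism sending `x_p(t) ↦ x_{ρ(p)}(t)` and `x_{-p}(t) ↦ x_{-ρ(p)}(t)` for every fundamental root `p`. -/
theorem result {F : Type*} [Field F] (p : Cfsg.Lie.ChevalleyDatum × List ℕ)
    (hp : p ∈ [(Cfsg.Lie.chevE6, [5, 1, 4, 3, 2, 0]), (Cfsg.Lie.chevD4, [2, 1, 3, 0]), (Cfsg.Lie.chevD4, [3, 1, 0, 2])]) :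
    ∃ α : ↥(p.1.group F) ≃* ↥(p.1.group F), ∀ (g : ↥(p.1.group F)) (i : ℕ) (t : F), i < p.1.rank →
      (((g : GL p.1.Idx F) : Matrix p.1.Idx p.1.Idx F) = p.1.x F (p.1.simple i) t →
        ((α g : GL p.1.Idx F) : Matrix p.1.Idx p.1.Idx F) = p.1.x F (p.1.simple (p.2.getD i 0)) t) ∧
      (((g : GL p.1.Idx F) : Matrix p.1.Idx p.1.Idx F) = p.1.x F (p.1.neg (p.1.simple i)) t →
        ((α g : GL p.1.Idx F) : Matrix p.1.Idx p.1.Idx F) = p.1.x F (p.1.neg (p.1.simple (p.2.getD i 0))) t) := by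
  have key : ∀ (D : Cfsg.Lie.ChevalleyDatum) (S : H47.SymTable) (L : List ℕ), S.check D = true →
      ((List.range D.rank).all fun i => decide (D.simple i < D.nroots) &&
        decide (D.neg (D.simple i) < D.nroots) && decide (S.π (D.simple i) = D.simple (L.getD i 0)) &&
        decide (S.π (D.neg (D.simple i)) = D.neg (D.simple (L.getD i 0))) &&
        decide (S.ε (D.simple i) = 1) && decide (S.ε (D.neg (D.simple i)) = 1)) = true →
      ∃ α : ↥(D.group F) ≃* ↥(D.group F), ∀ (g : ↥(D.group F)) (i : ℕ) (t : F), i < D.rank →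
        (((g : GL D.Idx F) : Matrix D.Idx D.Idx F) = D.x F (D.simple i) t →
          ((α g : GL D.Idx F) : Matrix D.Idx D.Idx F) = D.x F (D.simple (L.getD i 0)) t) ∧
        (((g : GL D.Idx F) : Matrix D.Idx D.Idx F) = D.x F (D.neg (D.simple i)) t →
          ((α g : GL D.Idx F) : Matrix D.Idx D.Idx F) = D.x F (D.neg (D.simple (L.getD i 0))) t) := by
    intro D S L hS hL
    refine ⟨H47.SymTable.groupEquiv hS F, fun g i t hi => ?_⟩
    simp only [List.all_eq_true, List.mem_range, Bool.and_eq_true, decide_eq_true_eq] at hL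
    obtain ⟨⟨⟨⟨⟨a, b⟩, c⟩, d⟩, e⟩, f⟩ := hL i hi
    constructor <;> intro hg <;> rw [H47.SymTable.groupEquiv_coe, hg]
    · rw [H47.SymTable.matEquiv_x hS F _ a, c, e, Int.cast_one, one_mul]
    · rw [H47.SymTable.matEquiv_x hS F _ b, d, f, Int.cast_one, one_mul]
  simp only [List.mem_cons, List.not_mem_nil, or_false] at hp
  rcases hp with rfl | rfl | rfl
  · exact key _ _ _ H47.symE6_check (by decide +kernel)
  · exact key _ _ _ H47.symD4_check (by decide +kernel)
  · exact key _ _ _ H47.symD4'_check (by decide +kernel)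

end Cfsg.Agent.S1081
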