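import Cfsg.Statements.S1088
import Cfsg.Agent.H46.TwistOrder
-- import your own Cfsg.Agent.* helpers here

set_option autoImplicit false
open Cfsg

namespace Cfsg.Agent.S1088

/-- |U¹| = |G¹ ∩ U| = q ^ 12 for ³D₄(q). -/
theorem result {K : Type*} [Field K] [Fintype K] {q : ℕ} (hq : IsPrimePow q) (hK : Fintype.card K = q ^ 3) :
    Nat.card ↥(Cfsg.Lie.chevD4.posUnipotent K ⊓ Cfsg.Lie.twistedD4 K q) = q ^ 12 := by
  obtain ⟨f, hf⟩ := Cfsg.Agent.H46.exists_qFrob hq (by norm_num : 0 < 3) hK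
  rw [Cfsg.Agent.H46.twistedD4_eq f hf hK]
  exact Cfsg.Agent.H46.card_U1_D4 f hf hK

end Cfsg.Agent.S1088
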