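import Cfsg.Statements.S1095
import Cfsg.Agent.H46.Mem

set_option autoImplicit false
open Cfsg

namespace Cfsg.Agent.S1095

/-- `n_p` (p = p_{i+1} fundamental) is the signed monomial matrix `h_{p_j} ↦ h_{p_j} - A_{p_j,p} h_p`, `e_s ↦ η_s e_{w_p(s)}`, with `η_s = ±1`, `η_p = η_{-p} = -1`, `η_s η_{w_p(s)} = (-1)^{A_{p,s}}`, `η_s η_{-s} = 1`. -/
theorem result {F : Type*} [Field F] (D : Cfsg.Lie.ChevalleyDatum) (hD : D ∈ [Cfsg.Lie.chevG2, Cfsg.Lie.chevB2, Cfsg.Lie.chevD4, Cfsg.Lie.chevF4, Cfsg.Lie.chevE6, Cfsg.Lie.chevE7, Cfsg.Lie.chevE8]) (i : ℕ) (hi : i < D.rank) :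
    ∃ η : ℕ → ℤ, (∀ s < D.nroots, η s = 1 ∨ η s = -1) ∧ η (D.simple i) = -1 ∧ η (D.neg (D.simple i)) = -1 ∧
      (∀ s < D.nroots, η s * η (D.reflectRoot i s) = (-1) ^ (D.cartan i s).natAbs ∧ η s * η (D.neg s) = 1) ∧
      D.nMat F (D.simple i) 1 = Matrix.of (fun (row col : D.Idx) =>
        Sum.elim
          (fun j' : Fin D.rank => Sum.elim
            (fun j : Fin D.rank => (if j' = j then (1 : F) else 0) - (if (j' : ℕ) = i then ((D.cartan j (D.simple i) : ℤ) : F) else 0))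
            (fun _ => (0 : F)) col)
          (fun s' : Fin D.nroots => Sum.elim
            (fun _ => (0 : F))
            (fun s : Fin D.nroots => if (s' : ℕ) = D.reflectRoot i s then ((η s : ℤ) : F) else 0) col)
          row) := by
  obtain ⟨G⟩ := Cfsg.Agent.H46.good_of_mem hD
  have hp := G.simple_lt hi
  refine ⟨G.tab.eta i, fun s _ => G.eta_eq i s, G.eta_simple hi,
    (G.eta_neg hi hp).trans (G.eta_simple hi), fun s hs => ⟨?_, ?_⟩, ?_⟩
  · have h1 : D.nMat ℚ (D.simple i) 1 * D.nMat ℚ (D.simple i) 1 * D.hMat ℚ (D.simple i) (-1) = 1 := by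
      have hn : G.ng (D.simple i) (1 : ℚ) * G.ng (D.simple i) 1 * G.hg (D.simple i) (-1) = 1 := by
        rw [Cfsg.Agent.H46.Good.hg, ← G.ng_inv]
        group
      simpa using congrArg Units.val hn
    rw [G.nSimple_sq hi, G.hMat_eq_rdiag hp (by norm_num), Cfsg.Agent.H46.rdiag_mul] at h1
    have h2 := congrArg (fun M => M.mulVec (Cfsg.Agent.H46.bvec D ℚ (D.rank + s)) (Sum.inr ⟨s, hs⟩)) h1
    simp only [Cfsg.Agent.H46.rdiag_mulVec_e _ hs, Matrix.one_mulVec, Pi.smul_apply, smul_eq_mul,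
      Cfsg.Agent.H46.bvec, Cfsg.Agent.H46.code, Sum.elim_inr, if_true, mul_one,
      G.pairing_simple hi hs] at h2
    have h3 : ((-1 : ℚ)) ^ (D.cartan i s) = (((-1) ^ (D.cartan i s).natAbs : ℤ) : ℚ) := by
      push_cast
      rcases Int.natAbs_eq (D.cartan i s) with e | e <;> conv_lhs => rw [e]
      · rw [zpow_natCast]
      · rw [zpow_neg, zpow_natCast, ← inv_pow, inv_neg_one]
    rw [h3, ← Int.cast_mul, ← Int.cast_mul, Int.cast_eq_one] at h2
    have h4 : ((-1 : ℤ) ^ (D.cartan i s).natAbs) * (-1) ^ (D.cartan i s).natAbs = 1 := by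
      rw [← mul_pow]; norm_num
    linear_combination ((-1 : ℤ) ^ (D.cartan i s).natAbs) * h2 -
      G.tab.eta i s * G.tab.eta i (D.reflectRoot i s) * h4
  · rw [G.eta_neg hi hs, G.eta_sq]
  · refine Cfsg.Agent.H46.ext_bvec fun k hk => ?_
    obtain ⟨x, rfl⟩ := Cfsg.Agent.H46.exists_code_eq hk
    rw [Cfsg.Agent.H46.bvec_code x]
    rcases x with j | s
    · rw [← Cfsg.Agent.H46.bvec_code, show Cfsg.Agent.H46.code D (Sum.inl j) = j.val from rfl,
        G.nSimple_mulVec_h hi j.2, show j.val = Cfsg.Agent.H46.code D (Sum.inl j) from rfl,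
        Cfsg.Agent.H46.bvec_code]
      funext y
      rcases y with j' | s' <;>
        simp [Cfsg.Agent.H46.bvec, Cfsg.Agent.H46.code, Matrix.of_apply, Pi.single_apply, Fin.ext_iff,
          sub_eq_add_neg] <;> (try split_ifs) <;> simp_all <;> omega
    · rw [← Cfsg.Agent.H46.bvec_code, show Cfsg.Agent.H46.code D (Sum.inr s) = D.rank + s.val from rfl,
        G.nSimple_mulVec_e hi s.2, show D.rank + s.val = Cfsg.Agent.H46.code D (Sum.inr s) from rfl,
        Cfsg.Agent.H46.bvec_code]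
      funext y
      rcases y with j' | s' <;>
        simp [Cfsg.Agent.H46.bvec, Cfsg.Agent.H46.code, Matrix.of_apply, Fin.ext_iff]
      exact Or.inr (if_neg (show ¬ (j'.val = D.rank + _) by have := j'.isLt; omega))

end Cfsg.Agent.S1095
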