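import Cfsg.Statements.S1096
import Cfsg.Agent.H46.Mem

set_option autoImplicit false
open Cfsg

namespace Cfsg.Agent.S1096

/-- `n_p h_{p_j}(t) n_p⁻¹ = h_{w_p(p_j)}(t)` for fundamental `p`, `p_j` and `t ≠ 0`, stated as `n_p h_{p_j}(t) = h_{w_p(p_j)}(t) n_p`. -/
theorem result {F : Type*} [Field F] (D : Cfsg.Lie.ChevalleyDatum) (hD : D ∈ [Cfsg.Lie.chevG2, Cfsg.Lie.chevB2, Cfsg.Lie.chevD4, Cfsg.Lie.chevF4, Cfsg.Lie.chevE6, Cfsg.Lie.chevE7, Cfsg.Lie.chevE8]) (i j : ℕ) (hi : i < D.rank) (hj : j < D.rank) (t : F) (ht : t ≠ 0) :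
    D.nMat F (D.simple i) 1 * D.hMat F (D.simple j) t = D.hMat F (D.reflectRoot i (D.simple j)) t * D.nMat F (D.simple i) 1 := by
  obtain ⟨G⟩ := Cfsg.Agent.H46.good_of_mem hD
  have hr := G.simple_lt hj
  rw [G.hMat_eq_rdiag hr ht, G.hMat_eq_rdiag (G.reflectRoot_lt hi hr) ht]
  refine Cfsg.Agent.H46.ext_bvec fun k hk => ?_
  rw [← Matrix.mulVec_mulVec, ← Matrix.mulVec_mulVec]
  by_cases hkl : k < D.rank
  · simp only [G.nSimple_mulVec_h hi hkl, Cfsg.Agent.H46.rdiag_mulVec_h _ hkl, Matrix.mulVec_add,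
      Matrix.mulVec_smul, Cfsg.Agent.H46.rdiag_mulVec_h _ hi]
  · obtain ⟨s, rfl⟩ : ∃ s, k = D.rank + s := ⟨k - D.rank, by omega⟩
    have hs : s < D.nroots := by omega
    rw [G.nSimple_mulVec_e hi hs, Cfsg.Agent.H46.rdiag_mulVec_e _ hs, Matrix.mulVec_smul,
      Matrix.mulVec_smul, Cfsg.Agent.H46.rdiag_mulVec_e _ (G.reflectRoot_lt hi hs), G.nSimple_mulVec_e hi hs,
      G.pairing_reflect hi hr hs, smul_comm]

end Cfsg.Agent.S1096
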