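import Cfsg.Statements.S1099
import Cfsg.Agent.H47.SpecialTables

set_option autoImplicit false
open Cfsg

namespace Cfsg.Agent.S1099

/-- Graph automorphism of G₂ in characteristic 3 (K perfect): `x_a(t) ↦ x_b(t³)`, `x_b(t) ↦ x_a(t)`, `x_{-a}(t) ↦ x_{-b}(t³)`, `x_{-b}(t) ↦ x_{-a}(t)` extend to an automorphism of the group. -/
theorem result {K : Type*} [Field K] [CharP K 3] (hperf : ∀ x : K, ∃ y : K, y ^ 3 = x) :
    ∃ α : ↥(Cfsg.Lie.chevG2.group K) ≃* ↥(Cfsg.Lie.chevG2.group K), ∀ (g : ↥(Cfsg.Lie.chevG2.group K)) (t : K),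
      (((g : GL Cfsg.Lie.chevG2.Idx K) : Matrix _ _ K) = Cfsg.Lie.chevG2.x K Cfsg.Lie.g2a t →
        ((α g : GL Cfsg.Lie.chevG2.Idx K) : Matrix _ _ K) = Cfsg.Lie.chevG2.x K Cfsg.Lie.g2b (t ^ 3)) ∧
      (((g : GL Cfsg.Lie.chevG2.Idx K) : Matrix _ _ K) = Cfsg.Lie.chevG2.x K Cfsg.Lie.g2b t →
        ((α g : GL Cfsg.Lie.chevG2.Idx K) : Matrix _ _ K) = Cfsg.Lie.chevG2.x K Cfsg.Lie.g2a t) ∧
      (((g : GL Cfsg.Lie.chevG2.Idx K) : Matrix _ _ K) = Cfsg.Lie.chevG2.x K Cfsg.Lie.g2ma t →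
        ((α g : GL Cfsg.Lie.chevG2.Idx K) : Matrix _ _ K) = Cfsg.Lie.chevG2.x K Cfsg.Lie.g2mb (t ^ 3)) ∧
      (((g : GL Cfsg.Lie.chevG2.Idx K) : Matrix _ _ K) = Cfsg.Lie.chevG2.x K Cfsg.Lie.g2mb t →
        ((α g : GL Cfsg.Lie.chevG2.Idx K) : Matrix _ _ K) = Cfsg.Lie.chevG2.x K Cfsg.Lie.g2ma t) := by
  have hb := Cfsg.Agent.H47.g2Iso_bijective K hperf
  refine ⟨MulEquiv.ofBijective _ hb, fun g t => ?_⟩
  have key : ∀ r r' e : ℕ, r < Cfsg.Lie.chevG2.nroots → Cfsg.Agent.H47.g2Isogeny.β r = r' →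
      Cfsg.Agent.H47.g2Isogeny.e r = e →
      ((g : GL Cfsg.Lie.chevG2.Idx K) : Matrix _ _ K) = Cfsg.Lie.chevG2.x K r t →
      ((Cfsg.Agent.H47.g2Iso K g : GL Cfsg.Lie.chevG2.Idx K) : Matrix _ _ K) =
        Cfsg.Lie.chevG2.x K r' (t ^ e) := by
    intro r r' e hr h1 h2 hg
    rw [← h1, ← h2]
    exact Cfsg.Agent.H47.isogeny_x _ _ _ r hr t g hg
  refine ⟨fun hg => ?_, fun hg => ?_, fun hg => ?_, fun hg => ?_⟩
  · exact key Cfsg.Lie.g2a Cfsg.Lie.g2b 3 (by decide +kernel) (by decide +kernel) (by decide +kernel) hg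
  · simpa using key Cfsg.Lie.g2b Cfsg.Lie.g2a 1 (by decide +kernel) (by decide +kernel) (by decide +kernel) hg
  · exact key Cfsg.Lie.g2ma Cfsg.Lie.g2mb 3 (by decide +kernel) (by decide +kernel) (by decide +kernel) hg
  · simpa using key Cfsg.Lie.g2mb Cfsg.Lie.g2ma 1 (by decide +kernel) (by decide +kernel) (by decide +kernel) hg

end Cfsg.Agent.S1099
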