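-- S1100
import Cfsg.Statements.S1100
import Cfsg.Agent.H46.Mem
import Cfsg.Agent.H46.Borel
import Cfsg.Agent.H46.Bruhat

set_option autoImplicit false
open Cfsg

namespace Cfsg.Agent.S1100

open Cfsg.Lie Cfsg.Agent.H46

theorem gen_eq {F : Type*} [Field F] {D : ChevalleyDatum} (G : Good D) {n : GL D.Idx F}
    (hn : n ∈ D.monomialSubgroup F) :
    Subgroup.closure {x : GL D.Idx F | ∃ (r : ℕ) (t : F), D.IsPosRoot r ∧
            (D.rootSubgroup F r).map (MulAut.conj n).toMonoidHom ≤ D.negUnipotent F ∧ (x : Matrix D.Idx D.Idx F) = D.x F r t} =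
      G.posSub (G.invSet n) := by
  refine le_antisymm ((Subgroup.closure_le _).2 ?_) ((Subgroup.closure_le _).2 ?_)
  · rintro x ⟨r, t, hr, hle, hx⟩
    rw [G.eq_xg hx]
    obtain ⟨c, hc⟩ := G.conj_xg_eq hn ⟨r, hr.1⟩
    refine G.xg_mem_posSub (S := G.invSet n) hr ⟨hr.1, hr, ?_⟩ t
    refine (G.isPosRoot_or_isNegRoot (Fin.isLt _)).resolve_left fun hp => ?_
    have h1 : G.xg (G.perm n ⟨r, hr.1⟩ : Fin D.nroots) ((c : F) * 1) ∈ D.negUnipotent F :=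
      hle ⟨G.xg r 1, G.xg_mem_rootSubgroup r 1, hc 1⟩
    have h2 := (Subgroup.eq_bot_iff_forall _).1 (G.pos_inf_neg (F := F)) _ ⟨G.xg_mem_pos hp _, h1⟩
    rw [G.xg_eq_one_iff (Fin.isLt _), mul_one] at h2
    exact c.ne_zero h2
  · rintro x ⟨r, t, ⟨hr, hinv⟩, rfl⟩
    refine Subgroup.subset_closure ⟨r, t, hr, ?_, rfl⟩
    rintro y ⟨z, hz, rfl⟩
    obtain ⟨s, rfl⟩ := G.mem_rootSubgroup.1 hz
    exact G.conj_posSub_invSet hn (G.xg_mem_posSub hr hinv s)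

/-- Canonical form `g = b n_w u` (`b ∈ B`, `u ∈ U_w⁻ = ⟨X_r : r > 0, n_w X_r n_w⁻¹ ≤ V⟩`): such a decomposition exists for every element of the group; the coset `n_w H` is determined by `g`; and for a fixed representative `n_w` the factors `b`, `u` are unique. -/
theorem result {F : Type*} [Field F] (D : Cfsg.Lie.ChevalleyDatum) (hD : D ∈ [Cfsg.Lie.chevG2, Cfsg.Lie.chevB2, Cfsg.Lie.chevD4, Cfsg.Lie.chevF4, Cfsg.Lie.chevE6, Cfsg.Lie.chevE7, Cfsg.Lie.chevE8]) :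
    (∀ g ∈ D.group F, ∃ b ∈ D.borelSubgroup F, ∃ n ∈ D.monomialSubgroup F,
      ∃ u ∈ Subgroup.closure {x : GL D.Idx F | ∃ (r : ℕ) (t : F), D.IsPosRoot r ∧
            (D.rootSubgroup F r).map (MulAut.conj n).toMonoidHom ≤ D.negUnipotent F ∧ (x : Matrix D.Idx D.Idx F) = D.x F r t},
        g = b * n * u) ∧
    (∀ (b b' n n' u u' : GL D.Idx F), b ∈ D.borelSubgroup F → b' ∈ D.borelSubgroup F →
      n ∈ D.monomialSubgroup F → n' ∈ D.monomialSubgroup F →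
      u ∈ Subgroup.closure {x : GL D.Idx F | ∃ (r : ℕ) (t : F), D.IsPosRoot r ∧
            (D.rootSubgroup F r).map (MulAut.conj n).toMonoidHom ≤ D.negUnipotent F ∧ (x : Matrix D.Idx D.Idx F) = D.x F r t} →
      u' ∈ Subgroup.closure {x : GL D.Idx F | ∃ (r : ℕ) (t : F), D.IsPosRoot r ∧
            (D.rootSubgroup F r).map (MulAut.conj n').toMonoidHom ≤ D.negUnipotent F ∧ (x : Matrix D.Idx D.Idx F) = D.x F r t} →
      b * n * u = b' * n' * u' → n⁻¹ * n' ∈ D.diagonalSubgroup F ∧ (n = n' → b = b' ∧ u = u')) := by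
  obtain ⟨G⟩ := Cfsg.Agent.H46.good_of_mem hD
  refine ⟨fun g hg => ?_, fun b b' n n' u u' hb hb' hn hn' hu hu' h => ?_⟩
  · obtain ⟨n, hn, hc⟩ := G.bruhat hg
    obtain ⟨b, hb, u, hu, rfl⟩ := G.bruhatCell_normal_form hn hc
    refine ⟨b, hb, n, hn, u, ?_, rfl⟩
    rw [gen_eq G hn]
    exact hu
  · rw [gen_eq G hn] at hu
    rw [gen_eq G hn'] at hu'
    obtain ⟨h1, h2, h3⟩ := G.bruhat_unique hb hb' hn hn' hu hu' h
    exact ⟨h1, fun e => ⟨h3 e, h2⟩⟩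

end Cfsg.Agent.S1100
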