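import Cfsg.Statements.S1108
import Cfsg.Agent.H46.TwistPerfect
-- import your own Cfsg.Agent.* helpers here

set_option autoImplicit false
open Cfsg

namespace Cfsg.Agent.S1108

/-- ³D₄(q) equals its derived subgroup. -/
theorem result {K : Type*} [Field K] [Fintype K] {q : ℕ} (hq : IsPrimePow q) (hK : Fintype.card K = q ^ 3) : commutator ↥(Cfsg.Lie.twistedD4 K q) = ⊤ := by
  obtain ⟨f, hf⟩ := Cfsg.Agent.H46.exists_qFrob hq (by norm_num : 0 < 3) hK
  rw [Cfsg.Agent.H46.twistedD4_eq f hf hK]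
  exact Cfsg.Agent.H46.commutator_eq_top_of_self _ (Cfsg.Agent.H46.perfect_D4 f hf hK)

end Cfsg.Agent.S1108
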