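import Cfsg.Statements.S1112
import Cfsg.Agent.H65.Twist.F4Statements

set_option autoImplicit false
open Cfsg

namespace Cfsg.Agent.S1112

/-- ²F₄(2^(2m+1)) (m ≥ 1) equals its derived subgroup. -/
theorem result {K : Type*} [Field K] [Fintype K] {m : ℕ} (hK : Fintype.card K = 2 ^ (2 * m + 1)) (hm : 1 ≤ m) : commutator ↥(Cfsg.Lie.twistedF4 K (2 ^ m)) = ⊤ :=
  Cfsg.Agent.H65.Twist.f4_perfect' hK hm

end Cfsg.Agent.S1112
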