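import Cfsg.Statements.S1120
import Cfsg.Agent.H48.RankOneK

set_option autoImplicit false
open Cfsg

namespace Cfsg.Agent.S1120

/-- In the rank-one set-up (`G` finite and doubly transitive on `Ω`, `t` an involution moving `a`, `Q` normal in `G_a` with `G_a = Q D`, `Q ⊓ D = 1` for the two-point stabiliser `D = G_a ⊓ G_{t • a}`, `|Q|` even, `|D|` odd), if `G` has 2-rank at least 2 then `O_{2'}(G)` equals the normal core of `G_a`. -/
theorem result {G Ω : Type*} [Group G] [Finite G] [MulAction G Ω] {a : Ω} {t : G} {Q : Subgroup G}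
    (hS : Cfsg.IsRankOneSetup G Ω a t Q)
    (h2 : ∃ x y : G, x ≠ 1 ∧ y ≠ 1 ∧ x ≠ y ∧ x * x = 1 ∧ y * y = 1 ∧ x * y = y * x) :
    Cfsg.pPrimeCore 2 G = (MulAction.stabilizer G a).normalCore := by
  obtain ⟨x, y, hx1, hy1, hxy, hx2, hy2, hc⟩ := h2
  refine le_antisymm (sSup_le ?_) (le_sSup ⟨inferInstance, ?_⟩)
  · rintro N ⟨hN, hodd⟩
    have hN' : Odd (Nat.card N) := Nat.coprime_two_right.1 hodd
    obtain ⟨p, hp, huniq⟩ := Cfsg.Agent.H48.RankOne.exists_unique_fix hS hx1 hx2
    have hyp : y • p = p := huniq _ (by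
      change x • (y • p) = y • p
      rw [← mul_smul, hc, mul_smul, hp])
    have hfix : ∀ w : G, w ≠ 1 → w * w = 1 → w • p = p →
        N ⊓ Subgroup.centralizer {w} ≤ MulAction.stabilizer G p := by
      intro w hw1 hw2 hwp g hg
      refine (Cfsg.Agent.H48.RankOne.exists_unique_fix hS hw1 hw2).unique (y₂ := p) ?_ hwp
      rw [← mul_smul, ← Subgroup.mem_centralizer_singleton_iff.1 hg.2, mul_smul, hwp]
    have hle : N ≤ MulAction.stabilizer G p := by
      refine le_trans (Cfsg.Agent.H48.four_group_generation hx2 (fun g hg => hN.conj_mem g hg x) hy2 hc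
        (fun g hg => hN.conj_mem g hg y) hN') (sup_le (sup_le (hfix x hx1 hx2 hp)
          (hfix y hy1 hy2 hyp)) (hfix (x * y) ?_ ?_ ?_))
      · intro h
        exact hxy (by rw [← inv_eq_of_mul_eq_one_right h, inv_eq_of_mul_eq_one_right hx2])
      · calc x * y * (x * y) = x * (y * x) * y := by group
          _ = (x * x) * (y * y) := by rw [← hc]; group
          _ = 1 := by rw [hx2, hy2, one_mul]
      · rw [mul_smul, hyp, hp]
    refine Subgroup.normal_le_normalCore.2 ?_
    obtain ⟨g, hg⟩ := Cfsg.Agent.H48.RankOne.exists_smul_eq hS p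
    intro n hn
    have := hle (hN.conj_mem n hn g)
    rw [MulAction.mem_stabilizer_iff, ← hg, ← mul_smul] at this
    change n • a = a
    apply MulAction.injective g
    simpa [mul_smul] using this
  · rw [Nat.coprime_two_right]
    refine Odd.of_dvd_nat hS.odd_card (Subgroup.card_dvd_of_le (le_inf (Subgroup.normalCore_le _) ?_))
    intro n hn
    change n • (t • a) = t • a
    have := Subgroup.normalCore_le _ ((Subgroup.normalCore_normal _).conj_mem n hn t⁻¹)
    rw [MulAction.mem_stabilizer_iff, inv_inv, mul_smul, mul_smul, inv_smul_eq_iff] at this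
    exact this

end Cfsg.Agent.S1120
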