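import Cfsg.Statements.S1125
import Cfsg.Agent.H48.RankOneK

set_option autoImplicit false
open Cfsg

namespace Cfsg.Agent.S1125

/-- In the rank-one set-up (`G` finite and doubly transitive on `Ω`, `t` an involution moving `a`, `Q` normal in `G_a` with `G_a = Q D`, `Q ⊓ D = 1` for the two-point stabiliser `D = G_a ⊓ G_{t • a}`, `|Q|` even, `|D|` odd), let `X ⊆ D` fix at least three points of `Ω`. Then `C_G(X)` is doubly transitive on the fixed-point set of `X`, `|C_Q(X)|` is even, and `C_{G_a}(X) = C_Q(X) C_D(X)`. -/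
theorem result {G Ω : Type*} [Group G] [Finite G] [MulAction G Ω] {a : Ω} {t : G} {Q : Subgroup G}
    (hS : Cfsg.IsRankOneSetup G Ω a t Q)
    (X : Set G) (hX : X ⊆ ((MulAction.stabilizer G a ⊓ MulAction.stabilizer G (t • a)) : Set G))
    (h3 : ∃ b c d : Ω, b ≠ c ∧ b ≠ d ∧ c ≠ d ∧ ∀ x ∈ X, x • b = b ∧ x • c = c ∧ x • d = d) :
    (∀ b₁ b₂ c₁ c₂ : Ω, (∀ x ∈ X, x • b₁ = b₁ ∧ x • b₂ = b₂ ∧ x • c₁ = c₁ ∧ x • c₂ = c₂) →
        b₁ ≠ b₂ → c₁ ≠ c₂ → ∃ g ∈ Subgroup.centralizer X, g • b₁ = c₁ ∧ g • b₂ = c₂) ∧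
      Even (Nat.card ↥(Subgroup.centralizer X ⊓ Q)) ∧
      (Subgroup.centralizer X ⊓ Q) ⊔ (Subgroup.centralizer X ⊓ (MulAction.stabilizer G a ⊓ MulAction.stabilizer G (t • a))) = Subgroup.centralizer X ⊓ MulAction.stabilizer G a := by
  refine ⟨fun b₁ b₂ c₁ c₂ hf hb hc => Cfsg.Agent.H48.RankOne.centralizer_pair hS h3 hf hb hc,
    Cfsg.Agent.H48.RankOne.even_centralizer_Q hS h3 hX, Cfsg.Agent.H48.RankOne.centralizer_stab hS hX⟩

end Cfsg.Agent.S1125
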