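import Cfsg.Statements.S1129
import Cfsg.Agent.H48.RankOneNilpotent

set_option autoImplicit false
open Cfsg

namespace Cfsg.Agent.S1129

/-- In the rank-one set-up (`G` finite and doubly transitive on `Ω`, `t` an involution moving `a`, `Q` normal in `G_a` with `G_a = Q D`, `Q ⊓ D = 1` for the two-point stabiliser `D = G_a ⊓ G_{t • a}`, `|Q|` even, `|D|` odd), with the action faithful and `G` containing two distinct commuting involutions: `Q` is nilpotent. -/
theorem result {G Ω : Type*} [Group G] [Finite G] [MulAction G Ω] [FaithfulSMul G Ω] {a : Ω} {t : G} {Q : Subgroup G}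
    (hS : Cfsg.IsRankOneSetup G Ω a t Q)
    (h2 : ∃ x y : G, x ≠ 1 ∧ y ≠ 1 ∧ x ≠ y ∧ x * x = 1 ∧ y * y = 1 ∧ x * y = y * x) :
    Group.IsNilpotent Q := by
  exact Cfsg.Agent.H48.RankOne.nilpotent_Q hS h2

end Cfsg.Agent.S1129
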