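import Cfsg.Statements.S1151
import Cfsg.Agent.H48.Ree.Shape
import Cfsg.Agent.H65.Twist.ReeStatements

set_option autoImplicit false
open Cfsg

namespace Cfsg.Agent.S1151

/-- In the small Ree group ²G₂(q), q = 3^(2m+1), realised as G¹ inside the Chevalley group G₂ over the field with q elements (θ the 3^m-th power map), with H¹ = G¹ ∩ H and U¹ = G¹ ∩ U the intersections with the ambient diagonal and positive unipotent subgroups: `H¹` has exactly `(q - 1)/2` elements of odd order, and each non-identity one centralises no non-identity element of `U¹`. -/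
theorem result {K : Type*} [Field K] [Fintype K] {m : ℕ} (hK : Fintype.card K = 3 ^ (2 * m + 1)) :
    2 * Nat.card {h : ↥(Cfsg.Lie.chevG2.diagonalSubgroup K ⊓ Cfsg.Lie.twistedG2 K (3 ^ m)) // Odd (orderOf h)} = 3 ^ (2 * m + 1) - 1 ∧
      ∀ h ∈ (Cfsg.Lie.chevG2.diagonalSubgroup K ⊓ Cfsg.Lie.twistedG2 K (3 ^ m)), h ≠ 1 → Odd (orderOf h) →
        (Cfsg.Lie.chevG2.posUnipotent K ⊓ Cfsg.Lie.twistedG2 K (3 ^ m)) ⊓ Subgroup.centralizer {h} = ⊥ := by
  obtain ⟨h3, hq⟩ := Cfsg.Agent.H48.Ree.field_data hK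
  obtain ⟨k, hk, hk2⟩ := Cfsg.Agent.H48.Ree.exists_half m
  haveI := Cfsg.Agent.H48.Ree.isCyclic_diagonal (Cfsg.Agent.H48.Ree.uShape hK)
  refine ⟨?_, Cfsg.Agent.H48.Ree.diagonal_fixed_free hq (Cfsg.Agent.H48.Ree.uShape hK)⟩
  rw [Cfsg.Agent.H48.Ree.card_odd_orderOf hk ((Cfsg.Agent.H65.Twist.ree_card_diagonal hK).trans hk2), hk2]

end Cfsg.Agent.S1151
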