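import Cfsg.Statements.S1167
import Cfsg.Agent.H48.Zass.Main

set_option autoImplicit false
open Cfsg

namespace Cfsg.Agent.S1167

/-- Let `G` be a finite simple Zassenhaus group on `Ω`, `U` a normal subgroup of `G_a` regular on `Ω` minus `a` which is an abelian 2-group, and `v` an involution with `v • a ≠ a`. Then there is a unique `u₀ ∈ U`, `u₀ ≠ 1`, with `v u₀ v = u₀ v u₀`. -/
theorem result {G Ω : Type*} [Group G] [Finite G] [MulAction G Ω] [Finite Ω]
    (hZ : Cfsg.IsZassenhausGroup G Ω) [IsSimpleGroup G] {a : Ω}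
    (U : Subgroup G) (hUle : U ≤ MulAction.stabilizer G a)
    (hUn : ∀ h ∈ MulAction.stabilizer G a, ∀ u ∈ U, h * u * h⁻¹ ∈ U)
    (hreg : ∀ c d : Ω, c ≠ a → d ≠ a → ∃! u : U, (u : G) • c = d)
    (hU2 : IsPGroup 2 U) (hUab : ∀ u ∈ U, ∀ u' ∈ U, u * u' = u' * u)
    (v : G) (hv1 : v ≠ 1) (hv2 : v * v = 1) (hva : v • a ≠ a) :
    ∃! u₀ : G, u₀ ∈ U ∧ u₀ ≠ 1 ∧ v * u₀ * v = u₀ * v * u₀ := by
  classical
  have := Fintype.ofFinite Ω
  have Z := Cfsg.Agent.H7.ZHyp.of_zassenhaus hZ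
  obtain ⟨S, rfl, hb, rfl⟩ := Cfsg.Agent.H48.Zass.exists_setup hZ hva.symm U hUle hUn hreg
  have hodd := Cfsg.Agent.H48.Zass.odd_e S hU2
  have hvo : orderOf v = 2 := orderOf_eq_prime (by rw [sq, hv2]) hv1
  have hsq := Cfsg.Agent.H48.Zass.abelian_kernel_elementary S hU2
    fun x y => Subtype.ext (hUab x x.2 y y.2)
  have hvb : v • S.b = S.a := by rw [hb]; exact Cfsg.Agent.H39.involution_smul_smul hvo _
  have hfx := S.card_fixedBy_involution hodd hvo
  rw [if_pos (Cfsg.Agent.H48.Zass.kernel_two S hU2).1, Nat.card_eq_one_iff_unique] at hfx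
  obtain ⟨⟨c, hc⟩⟩ := hfx.2
  have hc' : v • c = c := hc
  have hca : c ≠ S.a := fun e => hva (by rw [← e]; exact hc')
  obtain ⟨u, hu, hub⟩ := S.exists_H_smul_b hca
  have hua : u • S.a = S.a := S.hHa hu
  have huu : u * u = 1 := congrArg Subtype.val (hsq ⟨u, hu⟩)
  have huc : u • c = S.b := by rw [← hub, ← mul_smul, huu, one_smul]
  have hcb : c ≠ S.b := fun e => S.hab (hvb.symm.trans (by rw [← e]; exact hc'))
  refine ⟨u, ⟨hu, fun e => hcb (by rw [← hub, e, one_smul]), ?_⟩, ?_⟩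
  · have h1 : (v * u * v) • S.a = (u * v * u) • S.a := by
      simp only [mul_smul, hua, ← hb, hub, hc']
    have h2 : (v * u * v) • S.b = (u * v * u) • S.b := by
      simp only [mul_smul, hvb, hua, ← hb, hub, hc', huc]
    have h3 : (v * u * v) • c = (u * v * u) • c := by
      simp only [mul_smul, hc', huc, hvb, hua]
    exact (inv_mul_eq_one.1 (Z.three ((u * v * u)⁻¹ * (v * u * v)) S.a S.b c S.hab hcb.symm hca.symm
      (by rw [mul_smul, h1, inv_smul_smul]) (by rw [mul_smul, h2, inv_smul_smul])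
      (by rw [mul_smul, h3, inv_smul_smul]))).symm
  · rintro u' ⟨hu', -, he⟩
    have h := congrArg (fun g : G => g • S.a) he
    have hu'a : u' • S.a = S.a := S.hHa hu'
    simp only [mul_smul, ← hb, hu'a] at h
    have hu'c : u' • S.b = c :=
      congrArg Subtype.val (hfx.1.elim (⟨_, h⟩ : MulAction.fixedBy Ω v) ⟨c, hc⟩)
    obtain ⟨w, -, hw⟩ := S.H_regular (y := S.b) (z := c) S.hab.symm hca
    exact congrArg Subtype.val ((hw ⟨u', hu'⟩ hu'c).trans (hw ⟨u, hu⟩ hub).symm)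

end Cfsg.Agent.S1167
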