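import Cfsg.Statements.S1176
import Cfsg.Agent.H50.TwoInvolutions

set_option autoImplicit false
open Cfsg
open scoped commutatorElement

namespace Cfsg.Agent.S1176

/-- Let x₀ be an involution of the finite group G and D its conjugacy class. Assume (a) for each x ∈ D the subgroup W(x) generated by the members of D commuting with x is a 2-group of nilpotency class at most 2, and (b) the product of two distinct commuting members of D again lies in D. Then for all x, y ∈ D, if xy has even order greater than 2, its order is 4. -/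
theorem result {G : Type*} [Group G] [Finite G] (x₀ : G) (hx₀ : orderOf x₀ = 2) (ha : ∀ x : G, IsConj x₀ x → IsPGroup 2 ↥(Subgroup.closure {y : G | IsConj x₀ y ∧ Commute y x}) ∧ ⁅⁅Subgroup.closure {y : G | IsConj x₀ y ∧ Commute y x}, Subgroup.closure {y : G | IsConj x₀ y ∧ Commute y x}⁆, Subgroup.closure {y : G | IsConj x₀ y ∧ Commute y x}⁆ = ⊥) (hb : ∀ x y : G, IsConj x₀ x → IsConj x₀ y → x ≠ y → Commute x y → IsConj x₀ (x * y)) (x y : G) (hx : IsConj x₀ x) (hy : IsConj x₀ y) (heven : Even (orderOf (x * y))) (hgt : 2 < orderOf (x * y)) : orderOf (x * y) = 4 := by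
  have hinv : ∀ a : G, IsConj x₀ a → orderOf a = 2 := fun a ha' => by
    obtain ⟨c, rfl⟩ := isConj_iff.1 ha'
    rw [H50.orderOf_conj]; exact hx₀
  obtain ⟨m, hm, hw, hxw, hyw, hcase⟩ := H50.central_involution_spec (hinv x hx) (hinv y hy) heven
  have hxwc : IsConj x₀ (x * (x * y) ^ m) := by
    rcases hcase with ⟨-, i, hi⟩ | ⟨-, i, hi⟩
    · exact hx.trans (isConj_iff.2 ⟨_, hi⟩)
    · exact hy.trans (isConj_iff.2 ⟨_, hi⟩)
  have hne : x ≠ x * (x * y) ^ m := fun h => by
    rw [left_eq_mul.1 h, orderOf_one] at hw; omega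
  have hwc : IsConj x₀ ((x * y) ^ m) := by
    have := hb x _ hx hxwc hne ((Commute.refl x).mul_right hxw)
    rwa [← mul_assoc, H50.inv_mul_self (hinv x hx), one_mul] at this
  have hcl := (ha _ hwc).2
  have hxP : x ∈ Subgroup.closure {v : G | IsConj x₀ v ∧ Commute v ((x * y) ^ m)} :=
    Subgroup.subset_closure ⟨hx, hxw⟩
  have hyP : y ∈ Subgroup.closure {v : G | IsConj x₀ v ∧ Commute v ((x * y) ^ m)} :=
    Subgroup.subset_closure ⟨hy, hyw⟩
  have h := hcl.le (Subgroup.commutator_mem_commutator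
    (Subgroup.commutator_mem_commutator hxP hyP) hxP)
  rw [Subgroup.mem_bot] at h
  have h1 : ⁅x, y⁆ = (x * y) ^ 2 := by
    rw [commutatorElement_def, H50.inv_eq_self (hinv x hx), H50.inv_eq_self (hinv y hy), pow_two]
    simp only [mul_assoc]
  rw [h1, commutatorElement_def, H50.pow_conj_left (hinv x hx) (hinv y hy) 2,
    mul_inv_cancel_right] at h
  have h4 : (x * y) ^ 4 = 1 := h
  have hd : orderOf (x * y) ∣ 4 := orderOf_dvd_of_pow_eq_one h4
  have := Nat.le_of_dvd (by norm_num) hd
  interval_cases hn : orderOf (x * y)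
  · norm_num at hd
  · rfl

end Cfsg.Agent.S1176
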