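import Cfsg.Statements.S1177
import Cfsg.Agent.H50.TIWeaklyClosed

set_option autoImplicit false
open Cfsg

namespace Cfsg.Agent.S1177

/-- Let A be a nontrivial elementary abelian 2-subgroup of a finite group G which is a T.I. set (each conjugate of A meets A trivially or equals A) and which does not commute elementwise with any conjugate of A other than A itself. Then for every a ∈ A, a ≠ 1, every conjugate of A contained in C_G(a) is equal to A (A is weakly closed in C_G(a)). -/
theorem result {G : Type*} [Group G] [Finite G] (A : Subgroup G) (hA : Cfsg.IsElementaryAbelian 2 A) (hA1 : A ≠ ⊥) (hTI : ∀ g : G, A.map (MulAut.conj g).toMonoidHom ⊓ A = ⊥ ∨ A.map (MulAut.conj g).toMonoidHom = A) (hb : ∀ g : G, (∀ a ∈ A, ∀ b ∈ A.map (MulAut.conj g).toMonoidHom, a * b = b * a) → A.map (MulAut.conj g).toMonoidHom = A) (a : G) (ha : a ∈ A) (ha1 : a ≠ 1) (g : G) (hg : A.map (MulAut.conj g).toMonoidHom ≤ Subgroup.centralizer ({a} : Set G)) : A.map (MulAut.conj g).toMonoidHom = A := by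
  exact H50.ti_weaklyClosed hA hTI hb ha ha1 hg

end Cfsg.Agent.S1177
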