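import Cfsg.Statements.S1181
import Cfsg.Agent.H50.IsolatedInverted

set_option autoImplicit false
open Cfsg

namespace Cfsg.Agent.S1181

/-- Let z be an isolated involution of the finite group G and N a normal subgroup with z ∉ N. Then the centralizer of zN in G/N is the image of C_G(z), and zN is an isolated involution of G/N. -/
theorem result {G : Type*} [Group G] [Finite G] (z : G) (hz : Cfsg.IsIsolatedInvolution z) (N : Subgroup G) [N.Normal] (hzN : z ∉ N) : Subgroup.centralizer ({(QuotientGroup.mk z : G ⧸ N)} : Set (G ⧸ N)) = (Subgroup.centralizer ({z} : Set G)).map (QuotientGroup.mk' N) ∧ Cfsg.IsIsolatedInvolution (QuotientGroup.mk z : G ⧸ N) := by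
  have hcent : Subgroup.centralizer ({(QuotientGroup.mk z : G ⧸ N)} : Set (G ⧸ N)) =
      (Subgroup.centralizer ({z} : Set G)).map (QuotientGroup.mk' N) := by
    refine le_antisymm ?_ ?_
    · intro x hx
      obtain ⟨g, rfl⟩ := QuotientGroup.mk_surjective x
      rw [Subgroup.mem_centralizer_singleton_iff] at hx
      have hn : z⁻¹ * (g * z * g⁻¹) ∈ N := by
        rw [← QuotientGroup.eq_one_iff]
        simp only [QuotientGroup.mk_mul, QuotientGroup.mk_inv]
        rw [hx, mul_inv_cancel_right, inv_mul_cancel]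
      have hmem : g * z * g⁻¹ ∈ N ⊔ Subgroup.zpowers z := by
        rw [show g * z * g⁻¹ = z * (z⁻¹ * (g * z * g⁻¹)) by group]
        exact mul_mem (Subgroup.mem_sup_right (Subgroup.mem_zpowers z)) (Subgroup.mem_sup_left hn)
      obtain ⟨h, hh, he⟩ :=
        H50.isolated_conj_mem hz (Subgroup.mem_sup_right (Subgroup.mem_zpowers z)) hmem
      have hh' : h ∈ ((N ⊔ Subgroup.zpowers z : Subgroup G) : Set G) := hh
      rw [Subgroup.normal_mul] at hh'
      obtain ⟨n, hnN, y, hy, rfl⟩ := hh'
      have hyz : Commute y z := by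
        obtain ⟨j, rfl⟩ := hy
        exact (Commute.refl z).zpow_left j
      have hc := H50.conj_eq_iff_mem_centralizer.1 he
      refine ⟨y * (g⁻¹ * (n * y))⁻¹, mul_mem (Subgroup.mem_centralizer_singleton_iff.2 hyz.eq)
        (inv_mem hc), ?_⟩
      simp [(QuotientGroup.eq_one_iff n).2 hnN]
    · rintro x ⟨c, hc, rfl⟩
      have h1 := Subgroup.mem_centralizer_singleton_iff.1 hc
      rw [Subgroup.mem_centralizer_singleton_iff, QuotientGroup.mk'_apply, ← QuotientGroup.mk_mul,
        h1, QuotientGroup.mk_mul]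
  refine ⟨hcent, H50.orderOf_eq_two ?_ ?_, fun x hx => ?_⟩
  · rw [← QuotientGroup.mk_mul, H50.inv_mul_self hz.1, QuotientGroup.mk_one]
  · rw [Ne, QuotientGroup.eq_one_iff]
    exact hzN
  · obtain ⟨g, rfl⟩ := QuotientGroup.mk_surjective x
    obtain ⟨k, hodd, hinv, hconj, -⟩ := H50.isolated_exists_inverted hz g
    have hk2 := H50.conj_of_inverted hz.1 hinv
    rw [hconj] at hk2
    have hd : orderOf (QuotientGroup.mk' N (k * k)) ∣ orderOf k :=
      (orderOf_map_dvd _ _).trans (by rw [← pow_two]; exact orderOf_pow_dvd 2)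
    have hm : (QuotientGroup.mk g : G ⧸ N) * QuotientGroup.mk z * (QuotientGroup.mk g)⁻¹ =
        QuotientGroup.mk' N (k * k) * QuotientGroup.mk' N z := by
      rw [← map_mul, ← hk2]
      simp
    rw [hm] at hx ⊢
    have hinvq : QuotientGroup.mk' N z * QuotientGroup.mk' N (k * k) * (QuotientGroup.mk' N z)⁻¹ =
        (QuotientGroup.mk' N (k * k))⁻¹ := by
      rw [← map_inv, ← map_mul, ← map_mul, ← map_inv, ← conj_mul, hinv, mul_inv_rev]
    have hcm : Commute (QuotientGroup.mk' N z) (QuotientGroup.mk' N (k * k)) := by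
      have := hx.mul_right (Commute.refl (QuotientGroup.mk z : G ⧸ N)).inv_right
      simpa using this
    rw [hcm.eq, mul_inv_cancel_right] at hinvq
    have h1 := H50.eq_one_of_inv_eq (Odd.of_dvd_nat hodd hd) hinvq.symm
    rw [h1, one_mul]
    rfl

end Cfsg.Agent.S1181
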