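import Cfsg.Statements.S1184
import Cfsg.Agent.H50.IsolatedInverted

set_option autoImplicit false
open Cfsg

namespace Cfsg.Agent.S1184

/-- Let z be an isolated involution of the finite group G. If s and t are distinct conjugates of z, then st does not commute with z. -/
theorem result {G : Type*} [Group G] [Finite G] (z : G) (hz : Cfsg.IsIsolatedInvolution z) (g h : G) (hne : g * z * g⁻¹ ≠ h * z * h⁻¹) : ¬ Commute (g * z * g⁻¹ * (h * z * h⁻¹)) z := by
  intro hc
  apply hne
  have hg2 : orderOf (g * z * g⁻¹) = 2 := by rw [H50.orderOf_conj]; exact hz.1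
  have hh2 : orderOf (h * z * h⁻¹) = 2 := by rw [H50.orderOf_conj]; exact hz.1
  have hodd : Odd (orderOf (g * z * g⁻¹ * (h * z * h⁻¹))) := by
    have := H50.isolated_odd (H50.isolated_conj hz g) (h * g⁻¹)
    simpa [mul_assoc] using this
  have h1 := H50.isolated_no_invert (h := 1) hz hodd (H50.conj_prod_left hg2 hh2)
    (by simpa using hc.symm)
  rw [← H50.inv_eq_self hh2]
  exact eq_inv_of_mul_eq_one_left h1

end Cfsg.Agent.S1184
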