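import Cfsg.Statements.S1185
import Cfsg.Agent.H50.IsolatedInverted

set_option autoImplicit false
open Cfsg

namespace Cfsg.Agent.S1185

/-- Let z be an isolated involution of the finite group G with centralizer C. Then for every g ∈ G there is exactly one element k in the coset gC that has odd order and is inverted by z. -/
theorem result {G : Type*} [Group G] [Finite G] (z : G) (hz : Cfsg.IsIsolatedInvolution z) (g : G) : ∃! k : G, (Odd (orderOf k) ∧ z * k * z⁻¹ = k⁻¹) ∧ g⁻¹ * k ∈ Subgroup.centralizer ({z} : Set G) := by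
  obtain ⟨k, hodd, hinv, hconj, -⟩ := H50.isolated_exists_inverted hz g
  refine ⟨k, ⟨⟨hodd, hinv⟩, H50.conj_eq_iff_mem_centralizer.1 hconj⟩, ?_⟩
  rintro k' ⟨⟨hodd', hinv'⟩, hmem⟩
  exact H50.inverted_unique hz.1 hodd' hinv' hodd hinv
    ((H50.conj_eq_iff_mem_centralizer.2 hmem).trans hconj.symm)

end Cfsg.Agent.S1185
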