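import Cfsg.Statements.S1226
import Cfsg.Agent.H50.InvolutionCA

set_option autoImplicit false
open Cfsg

namespace Cfsg.Agent.S1226

/-- Let G be a finite group with a Sylow 2-subgroup T that is neither cyclic nor normal, such that the centralizer of every involution is an elementary abelian 2-group. Then N_G(T) is a strongly embedded subgroup of G. -/
theorem result {G : Type*} [Group G] [Finite G] (T : Sylow 2 G) (hnc : ¬ IsCyclic (T : Subgroup G)) (hnn : ¬ (T : Subgroup G).Normal) (hC : ∀ t : G, orderOf t = 2 → IsMulCommutative (Subgroup.centralizer ({t} : Set G)) ∧ ∀ c ∈ Subgroup.centralizer ({t} : Set G), c ^ 2 = 1) : Cfsg.IsStronglyEmbedded (Subgroup.normalizer ((T : Subgroup G) : Set G)) := by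
  exact (⟨hnc, hnn, hC⟩ : H50.InvolutionCA T).stronglyEmbedded

end Cfsg.Agent.S1226
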