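import Cfsg.Statements.S1231
import Cfsg.Agent.H50.CoreInSubgroup

set_option autoImplicit false
open Cfsg

namespace Cfsg.Agent.S1231

/-- Let H be a subgroup of the finite group G, p a prime, k ≥ 1, and P a Sylow p-subgroup of H whose p-rank is at least k. Then N_G(X) ≤ H for every subgroup X of P of p-rank at least k if and only if H ∩ gHg⁻¹ has p-rank less than k for every g ∉ H. -/
theorem result {G : Type*} [Group G] [Finite G] {p : ℕ} [Fact p.Prime] (k : ℕ) (hk : 1 ≤ k) (H : Subgroup G) (P : Sylow p ↥H) (hP : ¬ Cfsg.PRankLE p (k - 1) ↥(P : Subgroup ↥H)) : (∀ X : Subgroup G, X ≤ (P : Subgroup ↥H).map H.subtype → ¬ Cfsg.PRankLE p (k - 1) ↥X → Subgroup.normalizer (X : Set G) ≤ H) ↔ (∀ g : G, g ∉ H → Cfsg.PRankLE p (k - 1) ↥(H ⊓ H.map (MulAut.conj g).toMonoidHom)) := by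
  have hr : ∀ {A B : Type _} [Group A] [Group B] (f : A →* B), Function.Injective f →
      Cfsg.PRankLE p (k - 1) B → Cfsg.PRankLE p (k - 1) A := by
    intro A B _ _ f hf hB C hC hCp
    rw [← Subgroup.card_map_of_injective hf]
    refine hB _ ⟨⟨?_⟩⟩ ?_
    · rintro ⟨_, a, ha, rfl⟩ ⟨_, b, hb, rfl⟩
      exact Subtype.ext (by
        simp only [MulMemClass.coe_mul, ← map_mul]
        exact congrArg f (congrArg Subtype.val (hC.is_comm.comm (⟨a, ha⟩ : C) ⟨b, hb⟩)))
    · rintro _ ⟨a, ha, rfl⟩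
      rw [← map_pow, hCp a ha, map_one]
  constructor
  · intro hN g hg
    by_contra hbig
    refine hg ?_
    obtain ⟨A, hAc, hAp, hA⟩ : ∃ A : Subgroup ↥(H ⊓ H.map (MulAut.conj g).toMonoidHom),
        IsMulCommutative A ∧ (∀ a ∈ A, a ^ p = 1) ∧ p ^ (k - 1) < Nat.card A := by
      simpa [Cfsg.PRankLE] using hbig
    refine H50.mem_of_big_inf P (fun X => ¬ Cfsg.PRankLE p (k - 1) ↥X)
      (fun X Y h hX hY => hX (hr (Subgroup.inclusion h) (Subgroup.inclusion_injective h) hY))
      (fun X a hX hY => hX (hr (X.equivMapOfInjective _ (MulAut.conj a).injective).toMonoidHom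
        (MulEquiv.injective _) hY))
      hN (X := A.map (H ⊓ H.map (MulAut.conj g).toMonoidHom).subtype) ?_
      (Subgroup.map_subtype_le _) ?_
    · exact (show IsPGroup p A from fun x => ⟨1, Subtype.ext (by rw [SubmonoidClass.coe_pow, OneMemClass.coe_one, pow_one]; exact hAp x.1 x.2)⟩).map _
    · intro hX
      have h1 := hr (A.equivMapOfInjective _
        (H ⊓ H.map (MulAut.conj g).toMonoidHom).subtype_injective).toMonoidHom
        (MulEquiv.injective _) hX
      have h2 := h1 ⊤ ⟨⟨fun a b => Subtype.ext (hAc.is_comm.comm (a : A) b)⟩⟩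
        fun a _ => Subtype.ext (hAp (a : _) a.2)
      rw [Subgroup.card_top] at h2
      omega
  · intro hg X hX hXbig n hn
    by_contra hnH
    have hle : X ≤ H ⊓ H.map (MulAut.conj n).toMonoidHom := by
      have h0 : X ≤ H := hX.trans (Subgroup.map_subtype_le _)
      refine le_inf h0 fun x hx => ?_
      have hx' : n⁻¹ * x * n ∈ X := by
        simpa [mul_assoc] using (Subgroup.mem_normalizer_iff.1 (inv_mem hn) x).1 hx
      exact ⟨_, h0 hx', by simp [mul_assoc]⟩
    exact hXbig (hr (Subgroup.inclusion hle) (Subgroup.inclusion_injective hle) (hg n hnH))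

end Cfsg.Agent.S1231
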