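import Cfsg.Statements.S1233
import Cfsg.Agent.H33.SelfCent.Quat
import Cfsg.Agent.S1232

set_option autoImplicit false
open Cfsg

namespace Cfsg.Agent.S1233

/-- Let S be a finite 2-group and Q a subgroup of order 32 generated by two elementwise-commuting subgroups Q₁, Q₂ each isomorphic to the quaternion group of order 8 (so Q = Q₁ ∗ Q₂). If C_S(Q) ≤ Q, then every section of S has 2-rank at most 4. -/
theorem result {S : Type*} [Group S] [Finite S] (hS : IsPGroup 2 S) (Q Q₁ Q₂ : Subgroup S) (e₁ : Q₁ ≃* QuaternionGroup 2) (e₂ : Q₂ ≃* QuaternionGroup 2) (hcomm : ∀ a ∈ Q₁, ∀ b ∈ Q₂, a * b = b * a) (hQ : Q₁ ⊔ Q₂ = Q) (hQ32 : Nat.card Q = 32) (hC : Subgroup.centralizer (Q : Set S) ≤ Q) : Cfsg.SectionalPRankLE 2 4 S := by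
  classical
  haveI : Fact (Nat.Prime 2) := ⟨Nat.prime_two⟩
  let f₁ : QuaternionGroup 2 →* S := Q₁.subtype.comp e₁.symm.toMonoidHom
  let f₂ : QuaternionGroup 2 →* S := Q₂.subtype.comp e₂.symm.toMonoidHom
  have hc12 : ∀ a b, Commute (f₁ a) (f₂ b) := fun a b => hcomm _ (e₁.symm a).2 _ (e₂.symm b).2
  let ψ := f₁.noncommCoprod f₂ hc12
  have hrange : ψ.range = Q := by
    show (f₁.noncommCoprod f₂ hc12).range = Q
    rw [MonoidHom.noncommCoprod_range, MonoidHom.range_comp, MonoidHom.range_comp,
      MonoidHom.range_eq_top.2 e₁.symm.surjective, MonoidHom.range_eq_top.2 e₂.symm.surjective,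
      ← MonoidHom.range_eq_map, ← MonoidHom.range_eq_map, Subgroup.range_subtype,
      Subgroup.range_subtype, hQ]
  have hcard : Nat.card ψ.ker = 2 := by
    have h := ψ.ker.card_mul_index
    have h8 : Nat.card (QuaternionGroup 2) = 8 := by rw [Nat.card_eq_fintype_card, QuaternionGroup.card]
    rw [Subgroup.index_ker, hrange, hQ32, Nat.card_prod, h8] at h
    omega
  have hf₁ : Function.Injective f₁ := Subtype.val_injective.comp e₁.symm.injective
  have hf₂ : Function.Injective f₂ := Subtype.val_injective.comp e₂.symm.injective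
  have hker : ∀ p, ψ p = 1 ↔ H33.SelfCent.IsK p := by
    obtain ⟨x, y, hxy, huniv⟩ := Nat.card_eq_two_iff.1 hcard
    obtain ⟨k, hk1⟩ : ∃ k : ψ.ker, k ≠ 1 := by
      by_cases h : x = 1
      · exact ⟨y, fun e => hxy (h.trans e.symm)⟩
      · exact ⟨x, h⟩
    have hall : ∀ w : ψ.ker, w = 1 ∨ w = k := by
      have hxy' : ∀ w : ψ.ker, w = x ∨ w = y := fun w => by
        have h := Set.mem_univ w
        rw [← huniv] at h
        exact h
      intro w
      rcases hxy' w with rfl | rfl <;> rcases hxy' k with hk | hk <;> rcases hxy' 1 with h1 | h1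
      all_goals first
        | exact Or.inr hk.symm
        | exact Or.inl h1.symm
        | exact absurd (hk.trans h1.symm) hk1
    have hsq : (k : QuaternionGroup 2 × QuaternionGroup 2) * k = 1 := by
      rcases hall (k * k) with h | h
      · exact congrArg Subtype.val h
      · exact absurd (mul_eq_left.1 h) hk1
    have hkz : (k : QuaternionGroup 2 × QuaternionGroup 2) = (H33.SelfCent.zq, H33.SelfCent.zq) := by
      have hk0 : f₁ (k : QuaternionGroup 2 × QuaternionGroup 2).1 *
          f₂ (k : QuaternionGroup 2 × QuaternionGroup 2).2 = 1 := MonoidHom.mem_ker.1 k.2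
      rcases H33.SelfCent.involution_cases _ hsq with h | h | h | h
      · exact absurd (Subtype.ext h) hk1
      · rw [h, map_one, one_mul, map_eq_one_iff _ hf₂] at hk0
        exact absurd (Subtype.ext (Prod.ext h hk0)) hk1
      · rw [h, map_one, mul_one, map_eq_one_iff _ hf₁] at hk0
        exact absurd (Subtype.ext (Prod.ext hk0 h)) hk1
      · exact h
    intro p
    constructor
    · intro hp
      rcases hall ⟨p, hp⟩ with h | h
      · exact Or.inl (congrArg Subtype.val h)
      · exact Or.inr ((congrArg Subtype.val h).trans hkz)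
    · rintro (rfl | rfl)
      · exact map_one ψ
      · rw [← hkz]; exact k.2
  obtain ⟨A, hA, hA8, hCA⟩ := H33.SelfCent.quat_exists hS hker (by rw [hrange]; exact hC)
  exact S1232.result hS A hA hA8 hCA

end Cfsg.Agent.S1233
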