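import Cfsg.Statements.S1234
import Cfsg.Agent.H33.SelfCent.Wreath
import Cfsg.Agent.S1232

set_option autoImplicit false
open Cfsg

namespace Cfsg.Agent.S1234

/-- Let S be a finite 2-group and Q ≤ S a subgroup of order 32 having an elementary abelian subgroup E of order 16 and an involution s ∉ E whose centralizer in E has order 4 (so Q ≅ (Z₂ × Z₂) ≀ Z₂). If C_S(Z(Q)) = Q, then every section of S has 2-rank at most 4. -/
theorem result {S : Type*} [Group S] [Finite S] (hS : IsPGroup 2 S) (Q E : Subgroup S) (hEQ : E ≤ Q) (hE : Cfsg.IsElementaryAbelian 2 E) (hE16 : Nat.card E = 16) (hQ32 : Nat.card Q = 32) (s : S) (hsQ : s ∈ Q) (hsE : s ∉ E) (hs : orderOf s = 2) (hfix : Nat.card ↥(E ⊓ Subgroup.centralizer ({s} : Set S)) = 4) (hC : Subgroup.centralizer (((Subgroup.center Q).map Q.subtype : Subgroup S) : Set S) = Q) : Cfsg.SectionalPRankLE 2 4 S := by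
  obtain ⟨A, hA, hA8, hCA⟩ := H33.SelfCent.wreath_exists Q E hEQ hE hE16 hQ32 s hsQ hsE hs hfix hC
  exact S1232.result hS A hA hA8 hCA

end Cfsg.Agent.S1234
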