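import Cfsg.Statements.S1236
import Cfsg.Agent.H50.MaxClassFour

set_option autoImplicit false
open Cfsg

namespace Cfsg.Agent.S1236

/-- Let R be a finite group, t a central involution of R such that R ⧸ ⟨t⟩ is dihedral (of order ≥ 4) or quasi-dihedral, and A ≤ R an elementary abelian subgroup of order 8 containing t. Then C_R(A) = A. -/
theorem result {R : Type*} [Group R] [Finite R] (t : R) (ht : orderOf t = 2) (htz : t ∈ Subgroup.center R) [(Subgroup.zpowers t).Normal] (hq : (∃ m : ℕ, 2 ≤ m ∧ Nonempty (R ⧸ Subgroup.zpowers t ≃* DihedralGroup m)) ∨ Cfsg.IsQuasiDihedral (R ⧸ Subgroup.zpowers t)) (A : Subgroup R) (hA : Cfsg.IsElementaryAbelian 2 A) (hA8 : Nat.card A = 8) (htA : t ∈ A) : Subgroup.centralizer (A : Set R) = A := by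
  refine le_antisymm ?_ fun a ha => Subgroup.mem_centralizer_iff.2 fun b hb =>
    congrArg Subtype.val (hA.1.is_comm.comm (⟨b, hb⟩ : A) ⟨a, ha⟩)
  let π := QuotientGroup.mk' (Subgroup.zpowers t)
  have hker : Nat.card ↥(π.domRestrict A).ker = 2 := by
    have he : (π.domRestrict A).ker = (Subgroup.zpowers t).subgroupOf A := by
      ext a
      simp [π, MonoidHom.mem_ker, Subgroup.mem_subgroupOf]
    rw [he, Nat.card_congr (Subgroup.subgroupOfEquivOfLe (Subgroup.zpowers_le.2 htA)).toEquiv,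
      Nat.card_zpowers, ht]
  have hV : Nat.card (A.map π) = 4 := by
    rw [← MonoidHom.domRestrict_range]
    have h1 := (π.domRestrict A).ker.card_mul_index
    rw [Subgroup.index_ker, hker, hA8] at h1
    omega
  have hsq : ∀ v ∈ A.map π, v * v = 1 := by
    rintro _ ⟨a, ha, rfl⟩
    rw [← map_mul, ← pow_two, hA.2 a ha, map_one]
  intro x hx
  have h1 : π x ∈ A.map π := H50.dihedral_qd_four hq hV hsq
    (Subgroup.mem_centralizer_iff.2 (by
      rintro _ ⟨a, ha, rfl⟩
      rw [← map_mul, ← map_mul, Subgroup.mem_centralizer_iff.1 hx a ha]))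
  obtain ⟨a, ha, hax⟩ := h1
  have h2 : a⁻¹ * x ∈ Subgroup.zpowers t := QuotientGroup.eq.1 hax
  have h3 := mul_mem ha ((Subgroup.zpowers_le.2 htA) h2)
  rwa [mul_inv_cancel_left] at h3

end Cfsg.Agent.S1236
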