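import Cfsg.Statements.S1239
import Cfsg.Agent.H49.ZStar
import Cfsg.Agent.H49.QGroup
import Cfsg.Agent.H28.ZStar

set_option autoImplicit false
open Cfsg

namespace Cfsg.Agent.S1239

/-- Let X be a finite group whose Sylow 2-subgroup S is quasi-dihedral or wreathed, and suppose some involution of S is isolated in X. Then the product of the largest normal odd-order subgroup O(X) with the centre of S is normal in X. -/
theorem result {X : Type*} [Group X] [Finite X] (S : Sylow 2 X) (hS : Cfsg.IsQuasiDihedral (S : Subgroup X) ∨ Cfsg.IsWreathed (S : Subgroup X)) (z : X) (hzS : z ∈ S) (hz : Cfsg.IsIsolatedInvolution z) : (Cfsg.oddCore X ⊔ (Subgroup.center (S : Subgroup X)).map (S : Subgroup X).subtype).Normal := by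
  haveI := Fact.mk Nat.prime_two
  have hz' : Agent.H28.IsIsolatedInvolution z := ⟨hz.1, hz.2⟩
  have hZp : Agent.H49.ZStarProp := fun H _ _ P x hx hxP hiso =>
    ⟨Cfsg.pPrimeCore 2 H, Agent.H19.pPrimeCore_normal 2 H,
      Nat.coprime_two_right.mp (Agent.H19.pPrimeCore_coprime 2),
      Agent.H28.zStar (Agent.H28.isIsolatedInvolution_of_sylow P hx hiso)⟩
  haveI hOn : (Cfsg.oddCore X).Normal := Agent.H19.pPrimeCore_normal 2 X
  set Z := (Subgroup.center (S : Subgroup X)).map (S : Subgroup X).subtype with hZ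
  have hzZ : z ∈ Z := ⟨⟨z, hzS⟩, Subgroup.mem_center_iff.2 fun s =>
    Subtype.ext (hz'.commute_of_mem S.2 hzS s.2).eq, rfl⟩
  have key : ∀ x ∈ Z, ∀ g : X, g * x * g⁻¹ ∈ (S : Subgroup X) → g * x * g⁻¹ = x := by
    rcases hS with hS | hS
    · obtain ⟨k, ⟨e⟩⟩ := Agent.H49.exists_equiv_QD hS
      have hc : ∀ x ∈ Z, x = 1 ∨ x = (e (Agent.H49.QD.cz k) : X) := by
        rintro _ ⟨s, hs, rfl⟩
        have hw : e.symm s ∈ Subgroup.center _ := Subgroup.mem_center_iff.2 fun u => e.injective (by
          rw [map_mul, map_mul, e.apply_symm_apply]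
          exact Subgroup.mem_center_iff.1 hs (e u))
        rcases Agent.H49.QD.eq_of_mem_center hw with h | h
        · left
          rw [← e.apply_symm_apply s, h]
          simp
        · right
          rw [← e.apply_symm_apply s, h]
          rfl
      intro x hx g hg
      rcases hc x hx with rfl | hx1
      · simp
      · have hzx : z = x := by
          rcases hc z hzZ with h | h
          · exact absurd h (Agent.H28.ne_one_of_orderOf_two hz.1)
          · rw [h, hx1]
        subst hzx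
        exact hz'.sylow S hzS g hg
    · obtain ⟨k, ⟨e⟩⟩ := Agent.H49.exists_equiv_Wr hS
      let f : Agent.H49.Wr k →* X := (S : Subgroup X).subtype.comp e.toMonoidHom
      have hf : Function.Injective f := (S : Subgroup X).subtype_injective.comp e.injective
      have hr : f.range = (S : Subgroup X) := by
        ext y
        exact ⟨fun ⟨w, hw⟩ => hw ▸ (e w).2, fun hy => ⟨e.symm ⟨y, hy⟩, by simp [f]⟩⟩
      have hSy : Agent.H49.IsSylTwo f.range := hr ▸ Agent.H49.isSylTwo_sylow S
      have hZG := Agent.H49.Wr.ZG_eq (S : Subgroup X) hf hr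
      have hzcz : z = f (Agent.H49.Wr.cz k) := by
        refine Agent.H49.Wr.eq_cz_of_ZG hf (hZG ▸ hzZ) ?_ (Agent.H28.ne_one_of_orderOf_two hz.1)
        exact Agent.H28.mul_self_of_orderOf_two hz.1
      have hzt : ¬ IsConj (f (Agent.H49.Wr.cz k)) (f (Agent.H49.Wr.ct k)) := by
        intro h
        obtain ⟨g, hg⟩ := isConj_iff.1 h
        rw [← hzcz] at hg
        have hg1 := hz'.sylow S hzS g (by rw [hg]; exact (e _).2)
        rw [hg, hzcz] at hg1
        exact (fun h => Agent.H49.ZTwo.half_ne_zero h) (Agent.H49.Wr.R_inj.1 (hf hg1)).2.symm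
      by_cases htw : IsConj (f (Agent.H49.Wr.ct k)) (f (Agent.H49.Wr.cw k))
      · intro x hx g hg
        rw [hZ, hZG] at hx
        obtain ⟨w, hw, rfl⟩ := hx
        obtain ⟨b, rfl⟩ := Agent.H49.Wr.mem_center_iff.1 hw
        obtain ⟨v, hv⟩ : g * f (Agent.H49.Wr.R b b) * g⁻¹ ∈ f.range := hr ▸ hg
        rw [← hv, Agent.H49.Wr.central_unique hf hSy hzt htw (isConj_iff.2 ⟨g, hv.symm⟩)]
      · obtain ⟨P, N, hN, hc⟩ := Agent.H49.Wr.nilpotent_case S hf hSy hzt htw
        haveI := hN
        have hcard : Nat.card N * Nat.card (S : Subgroup X) = Nat.card X := by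
          rw [S.card_eq_multiplicity, ← P.card_eq_multiplicity]
          exact hc.card_mul_card
        have hcS : Subgroup.IsComplement' N (S : Subgroup X) := by
          refine Subgroup.isComplement'_of_coprime hcard ?_
          rw [S.card_eq_multiplicity, ← P.card_eq_multiplicity, ← hc.index_eq_card]
          exact (Sylow.card_coprime_index P).symm
        intro x hx g hg
        obtain ⟨x', hx', rfl⟩ := hx
        change g * (x' : X) * g⁻¹ ∈ (S : Subgroup X) at hg
        show g * (x' : X) * g⁻¹ = (x' : X)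
        obtain ⟨⟨n, s⟩, hns, -⟩ := hcS.existsUnique g
        dsimp only at hns
        subst hns
        have hsx : (s : X) * x' = x' * s := congrArg Subtype.val (Subgroup.mem_center_iff.1 hx' s)
        have e1 : (n : X) * s * x' * ((n : X) * s)⁻¹ = n * x' * (n : X)⁻¹ := by
          rw [mul_assoc (n : X) (s : X), hsx]; group
        rw [e1] at hg ⊢
        refine mul_inv_eq_one.1 (Subgroup.disjoint_def.1 hcS.disjoint ?_ (mul_mem hg (inv_mem x'.2)))
        rw [show (n : X) * x' * (n : X)⁻¹ * (x' : X)⁻¹ = (n : X) * (x' * (n : X)⁻¹ * (x' : X)⁻¹) by group]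
        exact mul_mem n.2 (hN.conj_mem _ (inv_mem n.2) _)
  have hw : ∀ Z₀ : Subgroup X, Z₀ ≤ Z → Cfsg.IsWeaklyClosed Z₀ (S : Subgroup X) :=
    fun Z₀ hle => Agent.H49.weaklyClosed_of_unique hle key
  refine ⟨fun y hy g => ?_⟩
  obtain ⟨o, ho, c, hc, rfl⟩ := Agent.H49.core_times_centralizer hZp S hw g
  rw [← SetLike.mem_coe, Subgroup.normal_mul] at hy
  obtain ⟨o', ho', w, hw', rfl⟩ := hy
  rw [show o * c * (o' * w) * (o * c)⁻¹ =
    (o * (c * o' * c⁻¹)) * ((c * w * c⁻¹) * o⁻¹ * (c * w * c⁻¹)⁻¹) * (c * w * c⁻¹) by group]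
  refine Subgroup.mul_mem_sup (mul_mem (mul_mem ho (hOn.conj_mem _ ho' c))
    (hOn.conj_mem _ (inv_mem ho) _)) ?_
  rwa [← Subgroup.mem_centralizer_iff.1 hc w hw', mul_inv_cancel_right]

end Cfsg.Agent.S1239
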