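import Cfsg.Statements.S1242
import Cfsg.Agent.H50.ControlTransfer
import Cfsg.Agent.H50.PResidualBasics

set_option autoImplicit false
open Cfsg
open scoped commutatorElement
set_option linter.style.haveILetI false

namespace Cfsg.Agent.S1242

/-- Let G be a finite group, p a prime and H a subgroup of index prime to p such that any two elements of H of p-power order that are conjugate in G are conjugate in H. Then (O^p(G)·G') ∩ H = O^p(H)·H', where O^p denotes the subgroup generated by the elements of order prime to p. -/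
theorem result {G : Type*} [Group G] [Finite G] {p : ℕ} [Fact p.Prime] (H : Subgroup G) (hidx : Nat.Coprime p H.index) (hfus : ∀ g ∈ H, (∃ k : ℕ, orderOf g = p ^ k) → ∀ a : G, a * g * a⁻¹ ∈ H → ∃ h ∈ H, h * g * h⁻¹ = a * g * a⁻¹) : (Cfsg.pResidual p G ⊔ commutator G) ⊓ H = (Cfsg.pResidual p ↥H ⊔ commutator ↥H).map H.subtype := by
  refine le_antisymm ?_ (le_inf ?_ ?_)
  · rintro x ⟨hxG, hxH⟩
    haveI : (Cfsg.pResidual p ↥H).Normal := H50.pResidual_normal p ↥H
    letI : CommGroup (↥H ⧸ (Cfsg.pResidual p ↥H ⊔ commutator ↥H)) :=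
      { (inferInstance : Group (↥H ⧸ (Cfsg.pResidual p ↥H ⊔ commutator ↥H))) with
        mul_comm := fun a b => by
          obtain ⟨x, rfl⟩ := QuotientGroup.mk_surjective a
          obtain ⟨y, rfl⟩ := QuotientGroup.mk_surjective b
          rw [← QuotientGroup.mk_mul, ← QuotientGroup.mk_mul, QuotientGroup.eq]
          apply Subgroup.mem_sup_right
          rw [commutator_def, show (x * y)⁻¹ * (y * x) = ⁅y⁻¹, x⁻¹⁆ by rw [commutatorElement_def]; group]
          exact Subgroup.commutator_mem_commutator (Subgroup.mem_top _) (Subgroup.mem_top _) }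
    obtain ⟨ψ, hψ⟩ := H50.exists_extension_of_controls hidx hfus
      (H50.isPGroup_quotient_of_pResidual_le le_sup_left)
      (QuotientGroup.mk' (Cfsg.pResidual p ↥H ⊔ commutator ↥H))
    have hk : Cfsg.pResidual p G ⊔ commutator G ≤ ψ.ker :=
      sup_le (H50.pResidual_le_ker ψ (H50.isPGroup_quotient_of_pResidual_le le_sup_left))
        (Abelianization.commutator_subset_ker ψ)
    have h1 := hψ ⟨x, hxH⟩
    rw [hk hxG, QuotientGroup.mk'_apply, eq_comm, QuotientGroup.eq_one_iff] at h1
    exact ⟨_, h1, rfl⟩
  · rw [Subgroup.map_sup]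
    refine sup_le ((H50.map_pResidual_le p H.subtype).trans le_sup_left) ?_
    refine le_trans ?_ le_sup_right
    rw [commutator_def, Subgroup.map_commutator, commutator_def]
    exact Subgroup.commutator_mono le_top le_top
  · exact Subgroup.map_subtype_le _

end Cfsg.Agent.S1242
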