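import Cfsg.Statements.S1247
import Cfsg.Agent.H50.BenderMaximal

set_option autoImplicit false
open Cfsg

namespace Cfsg.Agent.S1247

/-- Let G be a non-abelian finite simple group, A a maximal subgroup, F = F*(A) its generalized Fitting subgroup (viewed in G), and S ≤ F a subgroup subnormal in F with C_F(S) ≤ S. Let B be any subgroup of G containing S. Then (a) for every prime q not dividing |F(A)|, O_q(B) ∩ A = 1; and (b) for every prime p dividing |F(A)|, O_p(B) commutes elementwise with the subgroup of F generated by its elements of order prime to p. -/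
theorem result {G : Type*} [Group G] [Finite G] [IsSimpleGroup G] (hna : ¬ IsMulCommutative G) (A : Subgroup G) (hA : IsCoatom A) (S : Subgroup G) (hSF : S ≤ (Cfsg.generalizedFittingSubgroup ↥A).map A.subtype) (hSsn : (S.subgroupOf ((Cfsg.generalizedFittingSubgroup ↥A).map A.subtype)).IsSubnormal) (hSC : (Cfsg.generalizedFittingSubgroup ↥A).map A.subtype ⊓ Subgroup.centralizer (S : Set G) ≤ S) (B : Subgroup G) (hSB : S ≤ B) : (∀ q : ℕ, q.Prime → ¬ q ∣ Nat.card (Cfsg.fittingSubgroup ↥A) → (Cfsg.pCore q ↥B).map B.subtype ⊓ A = ⊥) ∧ (∀ p : ℕ, p.Prime → p ∣ Nat.card (Cfsg.fittingSubgroup ↥A) → ∀ x ∈ (Cfsg.pCore p ↥B).map B.subtype, ∀ y ∈ (Cfsg.pResidual p ↥(Cfsg.generalizedFittingSubgroup ↥A)).map ((Cfsg.generalizedFittingSubgroup ↥A).subtype) , x * (A.subtype y) = (A.subtype y) * x) := by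
  have hSA : S ≤ A := hSF.trans (Subgroup.map_subtype_le _)
  set S' : Subgroup ↥A := S.subgroupOf A with hS'
  set Φ := Cfsg.generalizedFittingSubgroup ↥A with hΦ
  have hmap : S'.map A.subtype = S := Subgroup.map_subgroupOf_eq_of_le hSA
  have hle : S' ≤ Φ := by
    intro s hs
    obtain ⟨y, hy, hye⟩ := hSF (show (s : G) ∈ S from hs)
    exact Subtype.ext (show (y : G) = s from hye) ▸ hy
  have hsub : S'.IsSubnormal := by
    let e := Φ.equivMapOfInjective A.subtype A.subtype_injective
    have h1 := hSsn.map (f := e.symm.toMonoidHom) e.symm.surjective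
    have h2 : (S.subgroupOf (Φ.map A.subtype)).map e.symm.toMonoidHom = S'.subgroupOf Φ := by
      ext x
      constructor
      · rintro ⟨y, hy, rfl⟩
        show ((e.symm y : ↥A) : G) ∈ S
        have : (((e (e.symm y)) : ↥(Φ.map A.subtype)) : G) = ((e.symm y : ↥A) : G) :=
          Subgroup.coe_equivMapOfInjective_apply _ _ _ _
        rw [← this, MulEquiv.apply_symm_apply]
        exact hy
      · intro hx
        refine ⟨e x, ?_, e.symm_apply_apply x⟩
        show ((e x : ↥(Φ.map A.subtype)) : G) ∈ S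
        rw [Subgroup.coe_equivMapOfInjective_apply]
        exact hx
    rw [h2] at h1
    exact Subgroup.IsSubnormal.trans hle h1 (H51.generalizedFittingSubgroup_normal ↥A).isSubnormal
  have hS : H50.LargeSubnormal S' := by
    refine ⟨hle, hsub, ?_⟩
    rintro c ⟨hc1, hc2⟩
    exact hSC ⟨⟨c, hc1, rfl⟩, Subgroup.mem_centralizer_iff.2 fun s hs =>
      congrArg Subtype.val (Subgroup.mem_centralizer_iff.1 hc2 ⟨s, hSA hs⟩ hs)⟩
  obtain ⟨h1, h2⟩ := H50.bender_overgroup hA hS (B := B) (hmap.le.trans hSB)
  refine ⟨h1, fun p hp hpd x hx y hy => ?_⟩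
  obtain ⟨w, hw, rfl⟩ := hy
  induction hw using Subgroup.closure_induction with
  | mem w hw => exact (h2 p hp hpd x hx w w.2 (by rw [Subgroup.orderOf_coe]; exact hw)).eq
  | one => simp
  | mul a b _ _ ha hb => simp only [map_mul]; exact (Commute.mul_right ha hb)
  | inv a _ ha => simp only [map_inv]; exact Commute.inv_right ha

end Cfsg.Agent.S1247
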