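import Cfsg.Statements.S1248
import Cfsg.Agent.H50.PSUThreeSylow

set_option autoImplicit false
open Cfsg

namespace Cfsg.Agent.S1248

/-- Let F be a field with 16 elements and S a Sylow 2-subgroup of PSU(3) over F (the unitary group U₃(4)). Then |S| = 64; the centre Z(S) is a Klein four-group and coincides with the subgroup generated by the involutions of S and with the derived subgroup; and every element of S ⧸ Z(S) squares to the identity, S ⧸ Z(S) having order 16. -/
theorem result {F : Type*} [Field F] [Fintype F] (hF : Fintype.card F = 16) (S : Sylow 2 (Cfsg.PSU 3 F 4)) : Nat.card S = 64 ∧ IsKleinFour (Subgroup.center (S : Subgroup (Cfsg.PSU 3 F 4))) ∧ Subgroup.center (S : Subgroup (Cfsg.PSU 3 F 4)) = Subgroup.closure {x : (S : Subgroup (Cfsg.PSU 3 F 4)) | orderOf x = 2} ∧ Subgroup.center (S : Subgroup (Cfsg.PSU 3 F 4)) = commutator (S : Subgroup (Cfsg.PSU 3 F 4)) ∧ Nat.card ((S : Subgroup (Cfsg.PSU 3 F 4)) ⧸ Subgroup.center (S : Subgroup (Cfsg.PSU 3 F 4))) = 16 ∧ ∀ x : (S :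 Subgroup (Cfsg.PSU 3 F 4)) ⧸ Subgroup.center (S : Subgroup (Cfsg.PSU 3 F 4)), x ^ 2 = 1 := by
  obtain ⟨h1, h2, -, h4, h5, h6⟩ :=
    Cfsg.Agent.H50.PSUThree.sylow_structure (n := 2) le_rfl (by rw [hF]; norm_num) S
  have hcard : Nat.card S = 64 := h1.trans (by norm_num)
  have hz : Nat.card (Subgroup.center (S : Subgroup (Cfsg.PSU 3 F 4))) = 4 := h2.trans (by norm_num)
  refine ⟨hcard, ?_, ?_, h6.symm, ?_, ?_⟩
  · refine ⟨hz, ?_⟩
    haveI : Nontrivial (Subgroup.center (S : Subgroup (Cfsg.PSU 3 F 4))) :=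
      Finite.one_lt_card_iff_nontrivial.1 (by rw [hz]; norm_num)
    refine Monoid.exponent_eq_prime_iff Nat.prime_two |>.2 fun x hx => ?_
    refine orderOf_eq_prime ?_ hx
    exact Subtype.ext (by rw [pow_two]; exact (h4 x.1).1 x.2)
  · refine le_antisymm (fun x hx => ?_) ((Subgroup.closure_le _).2 fun x hx => ?_)
    · by_cases hx1 : x = 1
      · rw [hx1]; exact one_mem _
      · exact Subgroup.subset_closure (orderOf_eq_prime (by rw [pow_two]; exact (h4 x).1 hx) hx1)
    · refine (h4 x).2 ?_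
      have := pow_orderOf_eq_one x
      rwa [show orderOf x = 2 from hx, pow_two] at this
  · have := Subgroup.card_eq_card_quotient_mul_card_subgroup
      (Subgroup.center (S : Subgroup (Cfsg.PSU 3 F 4)))
    rw [hz, hcard] at this
    omega
  · intro x
    obtain ⟨y, rfl⟩ := QuotientGroup.mk_surjective x
    rw [pow_two, ← QuotientGroup.mk_mul, QuotientGroup.eq_one_iff]
    exact h5 y

end Cfsg.Agent.S1248
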