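import Cfsg.Statements.S1253
import Cfsg.Agent.H28.InvariantSylow

set_option autoImplicit false
open Cfsg

namespace Cfsg.Agent.S1253

/-- Let z be an isolated involution of the finite group G with centralizer C, p an odd prime and P a Sylow p-subgroup of G normalized by z. Then P ∩ C has p-power-free index in C (it is a Sylow p-subgroup of C), and |P : C_P(z)| equals the number of elements x ∈ P with z x z⁻¹ = x⁻¹. -/
theorem result {G : Type*} [Group G] [Finite G] (z : G) (hz : Cfsg.IsIsolatedInvolution z) {p : ℕ} [Fact p.Prime] (hp : p ≠ 2) (P : Sylow p G) (hzP : z ∈ Subgroup.normalizer ((P : Subgroup G) : Set G)) : ¬ p ∣ ((P : Subgroup G) ⊓ Subgroup.centralizer ({z} : Set G)).relIndex (Subgroup.centralizer ({z} : Set G)) ∧ ((P : Subgroup G) ⊓ Subgroup.centralizer ({z} : Set G)).relIndex (P : Subgroup G) = Nat.card {x : G // x ∈ P ∧ z * x * z⁻¹ = x⁻¹} := by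
  have hp0 : p.Prime := Fact.out
  set C := Subgroup.centralizer ({z} : Set G) with hC
  refine ⟨fun hdvd => ?_, ?_⟩
  · obtain ⟨W⟩ : Nonempty (Sylow p C) := inferInstance
    set D := (P : Subgroup G) ⊓ C with hD
    have hWz : z ∈ Subgroup.normalizer (((W : Subgroup C).map C.subtype : Subgroup G) : Set G) :=
      Subgroup.mem_normalizer_iff.mpr fun k => by
        constructor
        · rintro ⟨w, hw, rfl⟩
          refine ⟨w, hw, ?_⟩
          show (w : G) = z * w * z⁻¹
          rw [← Agent.H28.mem_centralizer_singleton'.mp w.2, mul_inv_cancel_right]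
        · rintro ⟨w, hw, e⟩
          refine ⟨w, hw, ?_⟩
          show (w : G) = k
          have e' : (w : G) = z * k * z⁻¹ := e
          have := Agent.H28.mem_centralizer_singleton'.mp w.2
          rw [e', inv_mul_cancel_right] at this
          rw [e', show z * k = k * z from ?_, mul_inv_cancel_right]
          simpa [mul_assoc, eq_comm] using (congrArg (· * z) (mul_left_cancel this))
    obtain ⟨P', hWP, hzP'⟩ := Agent.H28.exists_invariant_sylow_ge hz (W.isPGroup'.map C.subtype) hWz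
    obtain ⟨c, hc, hcP⟩ := Agent.H28.exists_centralizer_smul_sylow hz P' P hzP' hzP
    have hle : ((W : Subgroup C).map C.subtype).map (MulAut.conj c).toMonoidHom ≤ D := by
      rintro _ ⟨w, hw, rfl⟩
      refine ⟨?_, C.mul_mem (C.mul_mem hc (Subgroup.map_subtype_le _ hw)) (C.inv_mem hc)⟩
      rw [← hcP]
      exact ⟨w, hWP hw, rfl⟩
    have hcard : Nat.card (W : Subgroup C) ≤ Nat.card D := by
      have := Subgroup.card_le_of_le hle
      rwa [Subgroup.card_map_of_injective (MulEquiv.injective _),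
        Subgroup.card_map_of_injective C.subtype_injective] at this
    have hDC : D ≤ C := inf_le_right
    have hDp : IsPGroup p (D.subgroupOf C) :=
      (P.isPGroup'.to_le inf_le_left).comap_of_injective C.subtype C.subtype_injective
    obtain ⟨W', hW'⟩ := hDp.exists_le_sylow
    have hcD : Nat.card (D.subgroupOf C) = Nat.card D :=
      Nat.card_congr (Subgroup.subgroupOfEquivOfLe hDC).toEquiv
    have heq : D.subgroupOf C = (W' : Subgroup C) := Subgroup.eq_of_le_of_card_ge hW' (by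
      rw [hcD, W'.card_eq_multiplicity, ← W.card_eq_multiplicity]; exact hcard)
    rw [Subgroup.relIndex, heq] at hdvd
    exact W'.not_dvd_index hdvd
  · set P₀ : Subgroup G := (P : Subgroup G) with hP₀
    have hθ : ∀ x ∈ P₀, z * x * z⁻¹ ∈ P₀ := fun x hx => (Subgroup.mem_normalizer_iff.mp hzP x).mp hx
    have hzz := Agent.H28.mul_self_of_orderOf_two hz.1
    have hzi := Agent.H28.inv_eq_self_of_orderOf_two hz.1
    let φ : P₀ → {x : G // x ∈ P₀ ∧ z * x * z⁻¹ = x⁻¹} := fun x =>
      ⟨(x : G) * (z * x * z⁻¹)⁻¹, P₀.mul_mem x.2 (P₀.inv_mem (hθ _ x.2)), by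
        simp only [hzi, mul_inv_rev, inv_inv, mul_assoc]
        rw [hzz, mul_one]⟩
    have hφ : ∀ a b : P₀, φ a = φ b ↔ a⁻¹ * b ∈ (P₀ ⊓ C).subgroupOf P₀ := by
      intro a b
      rw [Subgroup.mem_subgroupOf, Subgroup.mem_inf, and_iff_right (a⁻¹ * b).2, hC,
        Agent.H28.mem_centralizer_singleton', Subtype.ext_iff]
      show (a : G) * (z * a * z⁻¹)⁻¹ = (b : G) * (z * b * z⁻¹)⁻¹ ↔
        ((a : G)⁻¹ * b) * z = z * ((a : G)⁻¹ * b)
      constructor
      · intro h
        calc ((a : G)⁻¹ * b) * z = (a : G)⁻¹ * ((b : G) * (z * b * z⁻¹)⁻¹) * (z * b) := by group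
          _ = z * ((a : G)⁻¹ * b) := by rw [← h, hzi]; simp [mul_assoc, hzi]; rw [← mul_assoc z z, hzz, one_mul]
      · intro h
        have hb : (b : G) = a * ((a : G)⁻¹ * b) := by group
        rw [hb]
        generalize (a : G)⁻¹ * b = d at h
        calc (a : G) * (z * a * z⁻¹)⁻¹ = a * (d * z) * (z * d)⁻¹ * (z * a * z⁻¹)⁻¹ := by rw [h]; group
          _ = _ := by group
    let ψ : P₀ ⧸ (P₀ ⊓ C).subgroupOf P₀ → {x : G // x ∈ P₀ ∧ z * x * z⁻¹ = x⁻¹} :=
      Quotient.lift φ fun a b h => (hφ a b).mpr (QuotientGroup.leftRel_apply.mp h)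
    refine Nat.card_congr (Equiv.ofBijective ψ ⟨?_, ?_⟩)
    · rintro ⟨a⟩ ⟨b⟩ h
      exact Quotient.sound (QuotientGroup.leftRel_apply.mpr ((hφ a b).mp h))
    · rintro ⟨y, hy, hzy⟩
      obtain ⟨k, hk⟩ : ∃ k, orderOf y = 2 * k + 1 := by
        obtain ⟨n, hn⟩ := P.isPGroup' ⟨y, hy⟩
        obtain ⟨m, -, hm⟩ := (Nat.dvd_prime_pow hp0).mp
          (orderOf_dvd_of_pow_eq_one (x := y) (by simpa using congrArg Subtype.val hn))
        exact hm ▸ (hp0.odd_of_ne_two hp).pow
      refine ⟨Quotient.mk'' ⟨y ^ (k + 1), P₀.pow_mem hy _⟩, Subtype.ext ?_⟩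
      show y ^ (k + 1) * (z * y ^ (k + 1) * z⁻¹)⁻¹ = y
      rw [← conj_pow, hzy, inv_pow, inv_inv, ← pow_add,
        show k + 1 + (k + 1) = orderOf y + 1 by omega, pow_succ, pow_orderOf_eq_one, one_mul]

end Cfsg.Agent.S1253
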