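import Cfsg.Statements.S1254
import Cfsg.Agent.H49.DihCases

set_option autoImplicit false
open Cfsg

namespace Cfsg.Agent.S1254

/-- Let X be a finite group whose Sylow 2-subgroup S is dihedral (of order at least 4). Then X has a normal 2-complement if and only if, for every Klein four-subgroup U ≤ S, the normalizer N_X(U) is generated by C_X(U) and N_S(U). -/
theorem result {X : Type*} [Group X] [Finite X] (S : Sylow 2 X) (m : ℕ) (hm : 2 ≤ m) (eS : (S : Subgroup X) ≃* DihedralGroup m) : Cfsg.HasNormalPComplement 2 X ↔ ∀ U : Subgroup X, U ≤ S → IsKleinFour U → Subgroup.normalizer (U : Set X) = Subgroup.centralizer (U : Set X) ⊔ ((S : Subgroup X) ⊓ Subgroup.normalizer (U : Set X)) := by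
  obtain ⟨N, f, hf, hr⟩ := Agent.H49.Dih.exists_embedding S hm eS
  have hSyl : Agent.H49.IsSylTwo f.range := hr ▸ Agent.H49.isSylTwo_sylow S
  have hcard : Nat.card S = 2 * 2 ^ (N + 1) := by
    show Nat.card (S : Subgroup X) = _
    rw [← hr, ← Nat.card_congr (MonoidHom.ofInjective hf).toEquiv, DihedralGroup.nat_card]
  have hpos : 0 < 2 ^ N := Nat.two_pow_pos N
  constructor
  · rintro ⟨P, O, hO, hcomp⟩ U hUS -
    haveI := hO
    obtain ⟨j, hj⟩ := P.isPGroup'.exists_card_eq
    have hodd : Odd (Nat.card O) := by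
      rw [← hcomp.index_eq_card, ← Nat.not_even_iff_odd, even_iff_two_dvd]
      exact P.not_dvd_index
    have hidx : O.index = 2 ^ j := hcomp.symm.index_eq_card.trans hj
    obtain ⟨hsplit, htriv⟩ := Agent.H49.split_of_complement hf hSyl hodd hidx
    refine le_antisymm (fun g hg => ?_) (sup_le (Subgroup.centralizer_le_normalizer _) inf_le_right)
    obtain ⟨s, hs⟩ := hsplit g
    -- conjugation by `g` and by `f s` agree on `U`
    have hgs : ∀ u ∈ U, g * u * g⁻¹ = f s * u * (f s)⁻¹ := by
      intro u hu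
      obtain ⟨w, rfl⟩ : u ∈ f.range := hr.symm ▸ hUS hu
      obtain ⟨v, hv⟩ : g * f w * g⁻¹ ∈ f.range :=
        hr.symm ▸ hUS ((Subgroup.mem_normalizer_iff.1 hg _).1 hu)
      rw [← hv, ← map_inv, ← map_mul, ← map_mul]
      congr 1
      refine mul_inv_eq_one.1 (htriv _ ?_)
      rw [← QuotientGroup.eq_one_iff] at hs ⊢
      rw [QuotientGroup.mk_mul, QuotientGroup.mk_inv, mul_inv_eq_one] at hs
      simp only [map_mul, map_inv, hv, QuotientGroup.mk_mul, QuotientGroup.mk_inv, hs, mul_inv_cancel]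
    have hsN : f s ∈ Subgroup.normalizer (U : Set X) := by
      rw [Agent.H49.mem_normalizer_iff_map]
      refine Subgroup.eq_of_le_of_card_ge ?_
        (le_of_eq (Subgroup.card_map_of_injective (MulEquiv.injective _)).symm)
      rintro _ ⟨u, hu, rfl⟩
      show f s * u * (f s)⁻¹ ∈ U
      rw [← hgs u hu]
      exact (Subgroup.mem_normalizer_iff.1 hg u).1 hu
    have hC : g * (f s)⁻¹ ∈ Subgroup.centralizer (U : Set X) := by
      rw [Subgroup.mem_centralizer_iff]
      intro u hu
      have hu' : (f s)⁻¹ * u * f s ∈ U := by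
        have := (Subgroup.mem_normalizer_iff.1 (inv_mem hsN) u).1 hu
        rwa [inv_inv] at this
      have e := hgs _ hu'
      calc u * (g * (f s)⁻¹) = (f s * ((f s)⁻¹ * u * f s) * (f s)⁻¹) * (g * (f s)⁻¹) := by group
        _ = (g * ((f s)⁻¹ * u * f s) * g⁻¹) * (g * (f s)⁻¹) := by rw [e]
        _ = g * (f s)⁻¹ * u := by group
    have := mul_mem (Subgroup.mem_sup_left hC : g * (f s)⁻¹ ∈ Subgroup.centralizer (U : Set X) ⊔ _)
      (Subgroup.mem_sup_right (show f s ∈ (S : Subgroup X) ⊓ Subgroup.normalizer (U : Set X) from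
        ⟨hr ▸ ⟨s, rfl⟩, hsN⟩))
    rwa [inv_mul_cancel_right] at this
  · intro h
    refine Agent.H49.Dih.nilpotent_case S hf hSyl fun a ha => ?_
    obtain ⟨n, hn, hne⟩ := Agent.H49.Dih.exists_move hf hSyl ha
    apply hne
    have hfix : Subgroup.normalizer (Agent.H49.Dih.T f a : Set X) ≤
        Subgroup.centralizer {f (Agent.H49.Dih.dz N)} := by
      rw [h (Agent.H49.Dih.T f a) ((Subgroup.map_le_range f _).trans (le_of_eq hr)) (Agent.H49.Dih.isKleinFour_T hf a)]
      refine sup_le (Subgroup.centralizer_le ?_) fun x hx => ?_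
      · rintro _ rfl
        exact Agent.H49.Dih.inv3_mem a 0
      · obtain ⟨w, rfl⟩ : x ∈ f.range := hr.symm ▸ hx.1
        exact Agent.H49.mem_centralizer_range f Agent.H49.Dih.dz_mem_center w
    rw [Subgroup.mem_centralizer_singleton_iff.1 (hfix hn), mul_inv_cancel_right]

end Cfsg.Agent.S1254
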