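import Cfsg.Statements.S1255
import Cfsg.Agent.H49.DihCases

set_option autoImplicit false
open Cfsg

namespace Cfsg.Agent.S1255

/-- Let X be a finite group whose Sylow 2-subgroup S is dihedral of order 2m ≥ 4. Then X has no subgroup of index 2 and no isolated involution if and only if either all involutions of X are conjugate, or for every Klein four-subgroup U ≤ S the index |N_X(U) : C_X(U)| equals 3 when |S| = 4 and equals 6 when |S| > 4. -/
theorem result {X : Type*} [Group X] [Finite X] (S : Sylow 2 X) (m : ℕ) (hm : 2 ≤ m) (eS : (S : Subgroup X) ≃* DihedralGroup m) : ((∀ H : Subgroup X, H.index ≠ 2) ∧ (∀ z : X, ¬ Cfsg.IsIsolatedInvolution z)) ↔ ((∀ a b : X, orderOf a = 2 → orderOf b = 2 → IsConj a b) ∨ (∀ U : Subgroup X, U ≤ S → IsKleinFour U → (Subgroup.centralizer (U : Set X)).relIndex (Subgroup.normalizer (U : Set X)) = (if Nat.card S = 4 then 3 else 6))) := by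
  obtain ⟨N, f, hf, hr⟩ := Agent.H49.Dih.exists_embedding S hm eS
  have hSyl : Agent.H49.IsSylTwo f.range := hr ▸ Agent.H49.isSylTwo_sylow S
  have hcard : Nat.card S = 2 * 2 ^ (N + 1) := by
    show Nat.card (S : Subgroup X) = _
    rw [← hr, ← Nat.card_congr (MonoidHom.ofInjective hf).toEquiv, DihedralGroup.nat_card]
  have hpos : 0 < 2 ^ N := Nat.two_pow_pos N
  have hif : (if Nat.card S = 4 then 3 else 6 : ℕ) = if N = 0 then 3 else 6 := by
    congr 1
    rw [hcard, pow_succ]
    refine propext ⟨fun h => ?_, fun h => by subst h; norm_num⟩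
    rcases N with _ | n
    · rfl
    · rw [pow_succ] at h
      have := Nat.two_pow_pos n
      omega
  constructor
  · rintro ⟨hno, -⟩
    left
    have hall : ∀ a, IsConj (f (Agent.H49.Dih.dz N)) (f (DihedralGroup.sr a)) := fun a => by
      by_contra ha
      obtain ⟨K, -, hK⟩ := Agent.H49.Dih.exists_index_two hf hSyl ha
      exact hno K hK
    exact fun a b ha hb => (Agent.H49.Dih.one_class hf hSyl hall ha).symm.trans
      (Agent.H49.Dih.one_class hf hSyl hall hb)
  · intro h
    have hall : ∀ a, IsConj (f (Agent.H49.Dih.dz N)) (f (DihedralGroup.sr a)) := by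
      intro a
      rcases h with h | h
      · exact h _ _ (by rw [orderOf_injective f hf, Agent.H49.Dih.orderOf_dz])
          (by rw [orderOf_injective f hf, DihedralGroup.orderOf_sr])
      · refine (Agent.H49.Dih.relIndex_T hf hSyl a).1 ?_
        rw [← hif]
        exact h _ ((Subgroup.map_le_range f _).trans (le_of_eq hr)) (Agent.H49.Dih.isKleinFour_T hf a)
    refine ⟨Agent.H49.Dih.no_index_two hSyl hall, ?_⟩
    rintro z ⟨hz, hiso⟩
    obtain ⟨g, hg⟩ := isConj_iff.1 (Agent.H49.Dih.one_class hf hSyl hall hz)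
    obtain ⟨c, hc⟩ := isConj_iff.1 (hall 0)
    let y : X := g * f (DihedralGroup.sr 0) * g⁻¹
    have hy : g * c * g⁻¹ * z * (g * c * g⁻¹)⁻¹ = y := by
      show _ = g * f (DihedralGroup.sr 0) * g⁻¹
      rw [← hg, ← hc]; group
    have hcomm : Commute z y := by
      show z * (g * f (DihedralGroup.sr 0) * g⁻¹) = g * f (DihedralGroup.sr 0) * g⁻¹ * z
      rw [← hg]
      calc _ = g * (f (Agent.H49.Dih.dz N) * f (DihedralGroup.sr 0)) * g⁻¹ := by group
        _ = g * (f (DihedralGroup.sr 0) * f (Agent.H49.Dih.dz N)) * g⁻¹ := by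
          rw [← map_mul, ← Subgroup.mem_center_iff.1 Agent.H49.Dih.dz_mem_center, map_mul]
        _ = _ := by group
    have he := hiso (g * c * g⁻¹) (hy.symm ▸ hcomm)
    rw [hy] at he
    exact Agent.H49.Dih.dz_ne_sr 0 (hf (mul_left_cancel (mul_right_cancel (he.trans hg.symm))).symm)

end Cfsg.Agent.S1255
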