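import Cfsg.Statements.S1256
import Cfsg.Agent.H49.DihCases

set_option autoImplicit false
open Cfsg

namespace Cfsg.Agent.S1256

/-- Let X be a finite group whose Sylow 2-subgroup S is dihedral of order 2m ≥ 4. If |S| = 4, any two Klein four-subgroups of X are conjugate; if |S| > 4, there are Klein four-subgroups U₁, U₂ of X that are not conjugate, and every Klein four-subgroup of X is conjugate to U₁ or to U₂. -/
theorem result {X : Type*} [Group X] [Finite X] (S : Sylow 2 X) (m : ℕ) (hm : 2 ≤ m) (eS : (S : Subgroup X) ≃* DihedralGroup m) : (Nat.card S = 4 → ∀ U V : Subgroup X, IsKleinFour U → IsKleinFour V → (∃ x : X, U.map (MulAut.conj x).toMonoidHom = V)) ∧ (4 < Nat.card S → ∃ U₁ U₂ : Subgroup X, IsKleinFour U₁ ∧ IsKleinFour U₂ ∧ ¬ (∃ x : X, U₁.map (MulAut.conj x).toMonoidHom = U₂) ∧ ∀ V : Subgroup X, IsKleinFour V → (∃ x : X, V.map (MulAut.conj x).toMonoidHom = U₁) ∨ (∃ x : X, V.map (MulAut.conj x).toMonoidHom = U₂)) := by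
  obtain ⟨N, f, hf, hr⟩ := Agent.H49.Dih.exists_embedding S hm eS
  have hSyl : Agent.H49.IsSylTwo f.range := hr ▸ Agent.H49.isSylTwo_sylow S
  have hcard : Nat.card S = 2 * 2 ^ (N + 1) := by
    show Nat.card (S : Subgroup X) = _
    rw [← hr, ← Nat.card_congr (MonoidHom.ofInjective hf).toEquiv, DihedralGroup.nat_card]
  have hpos : 0 < 2 ^ N := Nat.two_pow_pos N
  have hT : ∀ a, IsKleinFour (Agent.H49.Dih.T f a) := Agent.H49.Dih.isKleinFour_T hf
  -- every four subgroup is conjugate to one inside the Sylow subgroup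
  have hconj : ∀ V : Subgroup X, IsKleinFour V →
      ∃ (g : X) (b : ZMod (2 ^ (N + 1))), V.map (MulAut.conj g).toMonoidHom = Agent.H49.Dih.T f b := by
    intro V hV
    obtain ⟨g, hg⟩ := hSyl.exists_conj_le (E := V) (IsPGroup.of_card (n := 2) hV.card_four)
    have hle : V.map (MulAut.conj g⁻¹).toMonoidHom ≤ f.range := by
      refine (Subgroup.map_mono hg).trans ?_
      rw [Agent.H49.Dih.map_conj_mul, inv_mul_cancel]
      rintro _ ⟨x, hx, rfl⟩
      simpa using hx
    exact ⟨g⁻¹, Agent.H49.Dih.exists_eq_T hf (Agent.H49.Dih.isKleinFour_map hV g⁻¹) hle⟩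
  refine ⟨fun h4 U V hU hV => ?_, fun h4 => ?_⟩
  · have hN : N = 0 := by
      rw [hcard, pow_succ] at h4
      rcases N with _ | n
      · rfl
      · rw [pow_succ] at h4
        have := Nat.two_pow_pos n
        omega
    subst hN
    obtain ⟨g, a, hg⟩ := hconj U hU
    obtain ⟨g', b, hg'⟩ := hconj V hV
    have htop : ∀ d : ZMod (2 ^ (0 + 1)), Agent.H49.Dih.T f d = f.range := fun d => by
      rw [Agent.H49.Dih.T, MonoidHom.range_eq_map,
        Subgroup.eq_top_of_card_eq (Agent.H49.Dih.four d) (by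
          rw [(Agent.H49.Dih.isKleinFour_four d).card_four, DihedralGroup.nat_card]; rfl)]
    refine ⟨g'⁻¹ * g, ?_⟩
    rw [← Agent.H49.Dih.map_conj_mul, hg, htop a, ← htop b, ← hg', Agent.H49.Dih.map_conj_mul,
      inv_mul_cancel]
    ext x
    simp
  · have hN : 1 ≤ N := by
      rcases N with _ | n
      · rw [hcard] at h4; norm_num at h4
      · omega
    refine ⟨_, _, hT 0, hT 1, fun ⟨x, hx⟩ => ?_, fun V hV => ?_⟩
    · have := Agent.H49.Dih.not_conj_T hf hSyl hN hx
      rw [map_zero, map_one] at this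
      exact zero_ne_one this
    · obtain ⟨g, b, hg⟩ := hconj V hV
      rcases Agent.H49.ZTwo.par_zero_or_one b with hb | hb
      · left
        obtain ⟨w, hw⟩ := isConj_iff.1 (Agent.H49.Dih.isConj_sr (a := b) (b := 0) (by rw [hb, map_zero]))
        exact ⟨f w * g, by rw [← Agent.H49.Dih.map_conj_mul, hg, Agent.H49.Dih.conj_T hw]⟩
      · right
        obtain ⟨w, hw⟩ := isConj_iff.1 (Agent.H49.Dih.isConj_sr (a := b) (b := 1) (by rw [hb, map_one]))
        exact ⟨f w * g, by rw [← Agent.H49.Dih.map_conj_mul, hg, Agent.H49.Dih.conj_T hw]⟩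

end Cfsg.Agent.S1256
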