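import Cfsg.Statements.S1259
import Cfsg.Agent.H51.Quasisimple

set_option autoImplicit false
open Cfsg
open Cfsg.Agent.H51

namespace Cfsg.Agent.S1259

/-- In a quasisimple group, every subnormal subgroup is either the whole group or central. -/
theorem result {X : Type*} [Group X] [Finite X] (hX : Cfsg.IsQuasisimple X) (H : Subgroup X) (hH : H.IsSubnormal) : H = ⊤ ∨ H ≤ Subgroup.center X := by
  exact quasisimple_eq_top_or_le_center_of_subnormal hX H hH

end Cfsg.Agent.S1259
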