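import Cfsg.Statements.S1263
import Cfsg.Agent.H51.Component

set_option autoImplicit false
open Cfsg
open Cfsg.Agent.H51

namespace Cfsg.Agent.S1263

/-- For a finite group G, Z(E(G)) is the subgroup generated by the centres Z(L) of the components L of G (all viewed as subgroups of G). -/
theorem result {G : Type*} [Group G] [Finite G] : (Subgroup.center ↥(Cfsg.layer G)).map (Cfsg.layer G).subtype = ⨆ L : {K : Subgroup G // Cfsg.IsComponent K}, (Subgroup.center ↥(L : Subgroup G)).map (L : Subgroup G).subtype := by
  exact center_layer_eq G

end Cfsg.Agent.S1263
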