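import Cfsg.Statements.S1267
import Cfsg.Agent.H51.LocalLayer

set_option autoImplicit false
open Cfsg
open Cfsg.Agent.H51

namespace Cfsg.Agent.S1267

/-- Let G be finite and P ≤ O_p(G). Then E(N_G(P)) = E(G). -/
theorem result {G : Type*} [Group G] [Finite G] (p : ℕ) [Fact p.Prime] (P : Subgroup G) (hP : P ≤ Cfsg.pCore p G) : (Cfsg.layer ↥(Subgroup.normalizer ((P : Subgroup G) : Set G))).map (Subgroup.normalizer ((P : Subgroup G) : Set G)).subtype = Cfsg.layer G := by
  have hPp : IsPGroup p ↥P := (pCore_isPGroup p G).to_le hP
  haveI := pCore_normal p G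
  have hC : Subgroup.centralizer (Cfsg.pCore p G : Set G) ≤ Subgroup.normalizer (P : Set G) :=
    (Subgroup.centralizer_le hP).trans (centralizer_le_normalizer' P)
  apply le_antisymm
  · refine Subgroup.map_le_iff_le_comap.mpr (sSup_le fun L hL => Subgroup.map_le_iff_le_comap.mp ?_)
    have hle := component_normalizer_le_centralizer_pCore hPp hL
    refine component_le_layer (L := L.map (Subgroup.normalizer (P : Set G)).subtype) ⟨?_,
      (isQuasisimple_map_iff_of_injective L _ (Subgroup.subtype_injective _)).mpr hL.2⟩
    refine Subgroup.IsSubnormal.trans hle ?_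
      (inferInstance : (Subgroup.centralizer (Cfsg.pCore p G : Set G)).Normal).isSubnormal
    have h := hL.1.comap (Subgroup.inclusion hC)
    convert h using 1
    ext x
    exact ⟨fun ⟨y, hy, e⟩ => by
      show Subgroup.inclusion hC x ∈ L
      rwa [show Subgroup.inclusion hC x = y from Subtype.ext e.symm],
      fun hx => ⟨_, hx, rfl⟩⟩
  · refine sSup_le fun L hL => ?_
    have hle : L ≤ Subgroup.normalizer (P : Set G) :=
      (Subgroup.commutator_eq_bot_iff_le_centralizer.mp (component_commute_fittingSubgroup hL)).trans
        ((Subgroup.centralizer_le (pCore_le_fittingSubgroup p G)).trans hC)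
    exact (Subgroup.map_subgroupOf_eq_of_le hle).ge.trans
      (Subgroup.map_mono (component_le_layer (component_subgroupOf hL hle)))

end Cfsg.Agent.S1267
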