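import Cfsg.Statements.S1268
import Cfsg.Agent.H51.LocalLayer

set_option autoImplicit false
open Cfsg
open Cfsg.Agent.H51

namespace Cfsg.Agent.S1268

/-- Let G be finite with F*(G) = O_p(G). Then F*(N) = O_p(N) for N the normalizer of any p-subgroup P of G. -/
theorem result {G : Type*} [Group G] [Finite G] (p : ℕ) [Fact p.Prime] (h : Cfsg.generalizedFittingSubgroup G = Cfsg.pCore p G) (P : Subgroup G) (hP : IsPGroup p ↥P) : Cfsg.generalizedFittingSubgroup ↥(Subgroup.normalizer ((P : Subgroup G) : Set G)) = Cfsg.pCore p ↥(Subgroup.normalizer ((P : Subgroup G) : Set G)) := by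
  haveI := pCore_normal p G
  have hC : Subgroup.centralizer (Cfsg.pCore p G : Set G) ≤ Cfsg.pCore p G := by
    have h' := centralizer_generalizedFitting_le G
    rwa [h] at h'
  have hO : Cfsg.pPrimeCore p ↥(Subgroup.normalizer (P : Set G)) = ⊥ := by
    refine (Subgroup.map_eq_bot_iff_of_injective _ (Subgroup.subtype_injective _)).mp
      (le_bot_iff.mp ((le_inf le_rfl ((pPrimeCore_normalizer_le_centralizer_pCore hP).trans hC)).trans
        (disjoint_of_pgroup_coprime (pCore_isPGroup p G) (card_pPrimeCore_map_coprime p _)).symm.le_bot))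
  have hE : Cfsg.layer ↥(Subgroup.normalizer (P : Set G)) = ⊥ := by
    refine sSup_eq_bot.mpr fun L hL => absurd ?_ (quasisimple_not_isSolvable hL.2)
    have h1 : IsPGroup p ↥(L.map (Subgroup.normalizer (P : Set G)).subtype) :=
      (pCore_isPGroup p G).to_le ((component_normalizer_le_centralizer_pCore hP hL).trans hC)
    haveI := (h1.of_equiv (L.equivMapOfInjective _ (Subgroup.subtype_injective _)).symm).isNilpotent
    infer_instance
  rw [generalizedFitting_eq_fitting_of_layer_eq_bot hE, fittingSubgroup_eq_pCore hO]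

end Cfsg.Agent.S1268
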