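import Cfsg.Statements.S1276
import Cfsg.Agent.H51.PConstrained

set_option autoImplicit false
open Cfsg
open Cfsg.Agent.H51

namespace Cfsg.Agent.S1276

/-- Let K be a 2-component of the finite group X. Then K is quasisimple if and only if ⁅K, O(K)⁆ = 1. -/
theorem result {X : Type*} [Group X] [Finite X] (K : Subgroup X) (hK : Cfsg.IsPComponent 2 K) : Cfsg.IsQuasisimple ↥K ↔ ⁅K, ((Cfsg.oddCore ↥K).map K.subtype)⁆ = ⊥ := by
  have hP := pComponent_isPerfect hK
  have hq := pComponent_quotient_isQuasisimple hK
  rw [Subgroup.commutator_comm]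
  constructor
  · intro hqs
    haveI := pPrimeCore_normal 2 ↥K
    rcases quasisimple_eq_top_or_le_center_of_normal hqs (Cfsg.oddCore ↥K) with h | h
    · haveI := quasisimple_nontrivial hq
      exact absurd h (QuotientGroup.nontrivial_iff.mp inferInstance)
    · refine Subgroup.commutator_eq_bot_iff_le_centralizer.mpr ?_
      rintro _ ⟨x, hx, rfl⟩
      exact Subgroup.mem_centralizer_iff.mpr fun y hy =>
        congrArg Subtype.val (Subgroup.mem_center_iff.mp (h hx) ⟨y, hy⟩)
  · intro h
    rw [Subgroup.commutator_eq_bot_iff_le_centralizer] at h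
    refine isQuasisimple_of_central_extension (QuotientGroup.mk'_surjective (Cfsg.oddCore ↥K)) ?_ hq
    rw [QuotientGroup.ker_mk']
    intro x hx
    exact Subgroup.mem_center_iff.mpr fun y =>
      Subtype.ext (Subgroup.mem_centralizer_iff.mp (h ⟨x, hx, rfl⟩) y y.2)

end Cfsg.Agent.S1276
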