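import Cfsg.Statements.S1277
import Cfsg.Agent.H51.PLayer

set_option autoImplicit false
open Cfsg
open Cfsg.Agent.H51

namespace Cfsg.Agent.S1277

/-- For a finite group X with core O(X): the image of E(X) in X / O(X) is all of E(X / O(X)) if and only if every 2-component of X is a component, i.e. L_{2'}(X) ≤ E(X). -/
theorem result {X : Type*} [Group X] [Finite X] : (Cfsg.layer X).map (QuotientGroup.mk' (Cfsg.oddCore X)) = Cfsg.layer (X ⧸ Cfsg.oddCore X) ↔ Cfsg.pLayer 2 X ≤ Cfsg.layer X := by
  haveI : Fact (Nat.Prime 2) := ⟨Nat.prime_two⟩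
  constructor
  · intro h
    exact sSup_le fun K hK => pComponent_le_of_map_le hK (layer_normal X).isSubnormal
      ((component_le_layer hK.2.1).trans h.ge)
  · intro h
    refine le_antisymm (Subgroup.map_le_iff_le_comap.mpr (sSup_le fun L hL => ?_))
      ((pLayer_map_mk 2).ge.trans (Subgroup.map_mono h))
    refine Subgroup.map_le_iff_le_comap.mp ?_
    rcases component_map_of_surjective hL (QuotientGroup.mk'_surjective (Cfsg.oddCore X)) with h' | h'
    · rw [h']; exact bot_le
    · exact component_le_layer h'

end Cfsg.Agent.S1277
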