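import Cfsg.Statements.S1278
import Cfsg.Agent.H51.PLayer

set_option autoImplicit false
open Cfsg
open Cfsg.Agent.H51

namespace Cfsg.Agent.S1278

/-- Let K ≠ L be 2-components of the finite group X. Then ⁅K, L⁆ ≤ O(K) ⊓ O(L), and if K is quasisimple then ⁅K, L⁆ = 1. -/
theorem result {X : Type*} [Group X] [Finite X] (K L : Subgroup X) (hK : Cfsg.IsPComponent 2 K) (hL : Cfsg.IsPComponent 2 L) (hne : K ≠ L) : ⁅K, L⁆ ≤ ((Cfsg.oddCore ↥K).map K.subtype) ⊓ ((Cfsg.oddCore ↥L).map L.subtype) ∧ (Cfsg.IsQuasisimple ↥K → ⁅K, L⁆ = ⊥) := by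
  haveI : Fact (Nat.Prime 2) := ⟨Nat.prime_two⟩
  set q := QuotientGroup.mk' (Cfsg.pPrimeCore 2 X)
  have hne' : K.map q ≠ L.map q := fun h => hne (pComponent_eq_of_map_eq hK hL h)
  have h0 : ⁅K, L⁆ ≤ Cfsg.pPrimeCore 2 X := by
    have h := (component_eq_or_commute hK.2.1 hL.2.1).resolve_left hne'
    rwa [← Subgroup.map_commutator, Subgroup.map_eq_bot_iff, QuotientGroup.ker_mk'] at h
  have hKL : ⁅K, L⁆ ≤ K :=
    commutator_le_of_le_normalizer ((pComponent_le_pLayer hL).trans (pLayer_le_normalizer_pComponent hK))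
  have hLK : ⁅K, L⁆ ≤ L := by
    rw [Subgroup.commutator_comm]
    exact commutator_le_of_le_normalizer
      ((pComponent_le_pLayer hK).trans (pLayer_le_normalizer_pComponent hL))
  refine ⟨?_, fun hqs => ?_⟩
  · show ⁅K, L⁆ ≤ (Cfsg.pPrimeCore 2 ↥K).map K.subtype ⊓ (Cfsg.pPrimeCore 2 ↥L).map L.subtype
    rw [pPrimeCore_eq_subgroupOf 2 hK.1, pPrimeCore_eq_subgroupOf 2 hL.1,
      Subgroup.subgroupOf_map_subtype, Subgroup.subgroupOf_map_subtype]
    exact le_inf (le_inf h0 hKL) (le_inf h0 hLK)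
  · refine (component_le_or_commute_of_subnormal (L := K) ⟨hK.1, hqs⟩ hL.1).resolve_left fun hle => ?_
    exact hne' (component_eq_of_le hK.2.1 hL.2.1 (Subgroup.map_mono hle))

end Cfsg.Agent.S1278
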