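import Cfsg.Statements.S1283
import Cfsg.Agent.H52.Transitivity

set_option autoImplicit false
open Cfsg

namespace Cfsg.Agent.S1283

/-- Transitivity Theorem. Let θ be a solvable A-signalizer functor on the finite group G, A elementary abelian of rank at least 3, and q a prime dividing |θ a| for some non-identity a ∈ A. If Q₁ and Q₂ are q-subgroups in the family of θ, each maximal among the q-subgroups in the family, then Q₂ = c Q₁ c⁻¹ for some c in the intersection of the θ a, a ∈ A non-identity. -/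
theorem result {G : Type*} [Group G] [Finite G] (p : ℕ) [Fact p.Prime] (A : Subgroup G) (hA : Cfsg.IsElementaryAbelian p A) (hA3 : p ^ 3 ≤ Nat.card ↥A) (θ : G → Subgroup G) (hθ : Cfsg.IsSolvableSignalizerFunctor p A θ) (q : ℕ) [Fact q.Prime] (hq : ∃ a ∈ A, a ≠ 1 ∧ q ∣ Nat.card ↥(θ a)) (Q₁ Q₂ : Subgroup G) (hQ₁W : Q₁ ∈ Cfsg.signalizerFamily p A θ) (hQ₁q : IsPGroup q ↥Q₁) (hQ₁max : ∀ R ∈ Cfsg.signalizerFamily p A θ, IsPGroup q ↥R → Q₁ ≤ R → R = Q₁) (hQ₂W : Q₂ ∈ Cfsg.signalizerFamily p A θ) (hQ₂q : IsPGroup q ↥Q₂) (hQ₂max : ∀ R ∈ Cfsg.signalizerFamily p A θ, IsPGroup q ↥R → Q₂ ≤ R → R = Q₂) : ∃ c ∈ Cfsg.signalizerInf A θ, Q₁.map (MulAut.conj c).toMonoidHom = Q₂ := by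
  obtain ⟨a, ha, ha1, hqa⟩ := hq
  exact H52.transitivity hA hA3 hθ (fun h => hθ.1.2.1 a ha ha1 (h ▸ hqa))
    ⟨hQ₁W, hQ₁q, hQ₁max⟩ ⟨hQ₂W, hQ₂q, hQ₂max⟩

end Cfsg.Agent.S1283
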