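import Cfsg.Statements.S1286
import Mathlib

set_option autoImplicit false
open Cfsg

namespace Cfsg.Agent.S1286

/-- The transposition (12). -/
def ta : Equiv.Perm (Fin 5) := Equiv.swap 0 1
/-- The transposition (34). -/
def tb : Equiv.Perm (Fin 5) := Equiv.swap 2 3
/-- The 3-cycle commuting with `ta`. -/
def ca : Equiv.Perm (Fin 5) := Equiv.swap 2 3 * Equiv.swap 3 4
/-- The 3-cycle commuting with `tb`. -/
def cb : Equiv.Perm (Fin 5) := Equiv.swap 0 1 * Equiv.swap 1 4

/-- The four-group generated by the two transpositions. -/
def four : Subgroup (Equiv.Perm (Fin 5)) where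
  carrier := {1, ta, tb, ta * tb}
  one_mem' := by simp
  mul_mem' := by
    intro a b ha hb
    simp only [Set.mem_insert_iff, Set.mem_singleton_iff] at *
    rcases ha with rfl | rfl | rfl | rfl <;> rcases hb with rfl | rfl | rfl | rfl <;> decide
  inv_mem' := by
    intro a ha
    simp only [Set.mem_insert_iff, Set.mem_singleton_iff] at *
    rcases ha with rfl | rfl | rfl | rfl <;> decide

/-- The signalizer functor. -/
def theta (a : Equiv.Perm (Fin 5)) : Subgroup (Equiv.Perm (Fin 5)) :=
  if a = ta then Subgroup.zpowers ca else if a = tb then Subgroup.zpowers cb else ⊥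

theorem mem_four {a : Equiv.Perm (Fin 5)} : a ∈ four ↔ a = 1 ∨ a = ta ∨ a = tb ∨ a = ta * tb := by
  change a ∈ ({1, ta, tb, ta * tb} : Set (Equiv.Perm (Fin 5))) ↔ _
  simp

theorem theta_ta : theta ta = Subgroup.zpowers ca := if_pos rfl
theorem theta_tb : theta tb = Subgroup.zpowers cb := by
  rw [theta, if_neg (by decide), if_pos rfl]
theorem theta_tab : theta (ta * tb) = ⊥ := by
  rw [theta, if_neg (by decide), if_neg (by decide)]

theorem mem_pow_three {c x : Equiv.Perm (Fin 5)} (hc : c ^ 3 = 1) :
    x ∈ Subgroup.zpowers c → x = 1 ∨ x = c ∨ x = c ^ 2 := by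
  rintro ⟨k, rfl⟩
  have h : (c : Equiv.Perm (Fin 5)) ^ k = c ^ (k % 3) := by
    conv_lhs => rw [← Int.emod_add_mul_ediv k 3]
    rw [zpow_add, zpow_mul]
    have : c ^ (3 : ℤ) = 1 := by exact_mod_cast hc
    rw [this, one_zpow, mul_one]
  change c ^ k = 1 ∨ c ^ k = c ∨ c ^ k = c ^ 2
  rw [h]
  have h0 := Int.emod_nonneg k (show (3 : ℤ) ≠ 0 by norm_num)
  have h1 := Int.emod_lt_of_pos k (show (0 : ℤ) < 3 by norm_num)
  interval_cases hk : k % 3
  · left; simp
  · right; left; simp
  · right; right; rfl

theorem ca3 : ca ^ 3 = 1 := by decide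
theorem cb3 : cb ^ 3 = 1 := by decide

/-- There exist a finite group X, an elementary abelian subgroup A of order 4 and a solvable A-signalizer functor θ on X for the prime 2 which is not complete. -/
theorem result : ∃ (X : Type) (_ : Group X) (_ : Finite X) (A : Subgroup X) (θ : X → Subgroup X), Cfsg.IsElementaryAbelian 2 A ∧ Nat.card ↥A = 4 ∧ Cfsg.IsSolvableSignalizerFunctor 2 A θ ∧ ¬ Cfsg.IsCompleteSignalizerFunctor 2 A θ := by
  have hfun : Cfsg.IsSignalizerFunctor 2 four theta := by
    refine ⟨?_, ?_, ?_, ?_⟩
    · intro a ha ha1 x hx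
      rw [Subgroup.mem_centralizer_singleton_iff]
      rcases mem_four.1 ha with rfl | rfl | rfl | rfl
      · exact absurd rfl ha1
      · rw [theta_ta] at hx
        rcases mem_pow_three ca3 hx with rfl | rfl | rfl <;> decide
      · rw [theta_tb] at hx
        rcases mem_pow_three cb3 hx with rfl | rfl | rfl <;> decide
      · rw [theta_tab, Subgroup.mem_bot] at hx; subst hx; simp
    · intro a ha ha1
      rcases mem_four.1 ha with rfl | rfl | rfl | rfl
      · exact absurd rfl ha1
      · rw [theta_ta, Nat.card_zpowers, orderOf_eq_prime ca3 (by decide)]; decide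
      · rw [theta_tb, Nat.card_zpowers, orderOf_eq_prime cb3 (by decide)]; decide
      · rw [theta_tab, Subgroup.card_bot]; decide
    · intro a ha ha1 b hb x hx
      rcases mem_four.1 ha with rfl | rfl | rfl | rfl
      · exact absurd rfl ha1
      · rw [theta_ta] at hx ⊢
        have hc := Subgroup.mem_zpowers ca
        have h2 : ca ^ 2 ∈ Subgroup.zpowers ca := pow_mem hc 2
        rcases mem_four.1 hb with rfl | rfl | rfl | rfl <;>
          rcases mem_pow_three ca3 hx with rfl | rfl | rfl <;>
          first
            | simp; done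
            | (convert hc using 1; decide)
            | (convert h2 using 1; decide)
            | (convert one_mem (Subgroup.zpowers ca) using 1; decide)
      · rw [theta_tb] at hx ⊢
        have hc := Subgroup.mem_zpowers cb
        have h2 : cb ^ 2 ∈ Subgroup.zpowers cb := pow_mem hc 2
        rcases mem_four.1 hb with rfl | rfl | rfl | rfl <;>
          rcases mem_pow_three cb3 hx with rfl | rfl | rfl <;>
          first
            | simp; done
            | (convert hc using 1; decide)
            | (convert h2 using 1; decide)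
            | (convert one_mem (Subgroup.zpowers cb) using 1; decide)
      · rw [theta_tab, Subgroup.mem_bot] at hx ⊢; subst hx; simp
    · intro a ha ha1 b hb hb1 x hx
      obtain ⟨hx, hxc⟩ := hx
      replace hxc : x ∈ Subgroup.centralizer {b} := hxc
      rw [Subgroup.mem_centralizer_singleton_iff] at hxc
      rcases mem_four.1 ha with rfl | rfl | rfl | rfl
      · exact absurd rfl ha1
      · replace hx : x ∈ theta ta := hx
        rw [theta_ta] at hx
        rcases mem_four.1 hb with rfl | rfl | rfl | rfl
        · exact absurd rfl hb1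
        · rw [theta_ta]; exact hx
        all_goals
          rcases mem_pow_three ca3 hx with rfl | rfl | rfl <;>
            first | exact one_mem _ | exact absurd hxc (by decide)
      · replace hx : x ∈ theta tb := hx
        rw [theta_tb] at hx
        rcases mem_four.1 hb with rfl | rfl | rfl | rfl
        · exact absurd rfl hb1
        · rcases mem_pow_three cb3 hx with rfl | rfl | rfl <;>
            first | exact one_mem _ | exact absurd hxc (by decide)
        · rw [theta_tb]; exact hx
        · rcases mem_pow_three cb3 hx with rfl | rfl | rfl <;>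
            first | exact one_mem _ | exact absurd hxc (by decide)
      · replace hx : x ∈ theta (ta * tb) := hx
        rw [theta_tab, Subgroup.mem_bot] at hx; subst hx; exact one_mem _
  refine ⟨Equiv.Perm (Fin 5), inferInstance, inferInstance, four, theta, ⟨?_, ?_⟩, ?_, ⟨hfun, ?_⟩, ?_⟩
  · constructor; constructor
    rintro ⟨a, ha⟩ ⟨b, hb⟩
    apply Subtype.ext
    change a * b = b * a
    rcases mem_four.1 ha with rfl | rfl | rfl | rfl <;> rcases mem_four.1 hb with rfl | rfl | rfl | rfl <;> decide
  · intro a ha
    rcases mem_four.1 ha with rfl | rfl | rfl | rfl <;> decide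
  · have e : (↑four : Set (Equiv.Perm (Fin 5))) = ↑({1, ta, tb, ta * tb} : Finset (Equiv.Perm (Fin 5))) := by
      ext a; simp [mem_four]
    rw [← SetLike.coe_sort_coe, e, Nat.card_coe_set_eq, Set.ncard_coe_finset]
    decide
  · intro a ha ha1
    rcases mem_four.1 ha with rfl | rfl | rfl | rfl
    · exact absurd rfl ha1
    · rw [theta_ta]; infer_instance
    · rw [theta_tb]; infer_instance
    · rw [theta_tab]; infer_instance
  · rintro ⟨-, X, -, hX, h⟩
    have h1 : ca ∈ X := by
      have := h ta (mem_four.2 (by simp)) (by decide)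
      rw [theta_ta] at this
      have hm : ca ∈ X ⊓ Subgroup.centralizer {ta} := this ▸ Subgroup.mem_zpowers ca
      exact hm.1
    have h2 : cb ∈ X := by
      have := h tb (mem_four.2 (by simp)) (by decide)
      rw [theta_tb] at this
      have hm : cb ∈ X ⊓ Subgroup.centralizer {tb} := this ▸ Subgroup.mem_zpowers cb
      exact hm.1
    apply hX
    have hy : orderOf (ca * cb * ca * cb⁻¹) = 2 := orderOf_eq_prime (by decide) (by decide)
    rw [← hy]
    exact Subgroup.orderOf_dvd_natCard _ (mul_mem (mul_mem (mul_mem h1 h2) h1) (inv_mem h2))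

end Cfsg.Agent.S1286
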