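import Cfsg.Statements.S1287
import Mathlib
import Cfsg.Agent.H52.FixedPointFormula
import Cfsg.Agent.H52.Signalizer

set_option autoImplicit false
open scoped Pointwise
open Cfsg

namespace Cfsg.Agent.S1287

open Subgroup
open scoped Pointwise IsMulCommutative

/-- `|XY| |X ∩ Y| = |X| |Y|`. -/
theorem card_mul_inf {H : Type*} [Group H] [Finite H] (X Y : Subgroup H) :
    Nat.card ↥((X : Set H) * (Y : Set H)) * Nat.card ↥(X ⊓ Y) = Nat.card X * Nat.card Y := by
  classical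
  have hex : ∀ c : ↥((X : Set H) * (Y : Set H)), ∃ z : X × Y, (c : H) = z.1 * z.2 := fun c => by
    obtain ⟨x, hx, y, hy, e⟩ := c.2
    exact ⟨(⟨x, hx⟩, ⟨y, hy⟩), e.symm⟩
  choose g hg using hex
  rw [← Nat.card_prod, ← Nat.card_prod]
  let F : ↥((X : Set H) * (Y : Set H)) × ↥(X ⊓ Y) → X × Y := fun cd =>
    (⟨(g cd.1).1 * (cd.2 : H), mul_mem (g cd.1).1.2 cd.2.2.1⟩,
      ⟨(cd.2 : H)⁻¹ * (g cd.1).2, mul_mem (inv_mem cd.2.2.2) (g cd.1).2.2⟩)
  refine Nat.card_eq_of_bijective F ⟨fun u v h => ?_, fun z => ?_⟩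
  · have h1 := congrArg (fun z : X × Y => (z.1 : H)) h
    have h2 := congrArg (fun z : X × Y => (z.2 : H)) h
    simp only [F] at h1 h2
    have hc : (u.1 : H) = v.1 := by
      rw [hg u.1, hg v.1]
      calc ((g u.1).1 : H) * (g u.1).2 = ((g u.1).1 * (u.2 : H)) * ((u.2 : H)⁻¹ * (g u.1).2) := by group
        _ = _ := by rw [h1, h2]; group
    have hu : u.1 = v.1 := Subtype.ext hc
    refine Prod.ext hu (Subtype.ext ?_)
    rw [hu] at h1
    exact mul_left_cancel h1
  · let c : ↥((X : Set H) * (Y : Set H)) := ⟨z.1 * z.2, Set.mul_mem_mul z.1.2 z.2.2⟩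
    have hd : ((g c).1 : H)⁻¹ * z.1 ∈ X ⊓ Y := mem_inf.mpr ⟨mul_mem (inv_mem (g c).1.2) z.1.2, by
      have h := hg c
      have h' : ((g c).1 : H)⁻¹ * z.1 = (g c).2 * (z.2 : H)⁻¹ := by
        rw [inv_mul_eq_iff_eq_mul, ← mul_assoc, ← h, mul_inv_cancel_right]
      rw [h']; exact mul_mem (g c).2.2 (inv_mem z.2.2)⟩
    refine ⟨(c, ⟨_, hd⟩), Prod.ext (Subtype.ext ?_) (Subtype.ext ?_)⟩
    · simp [F]
    · simp only [F, mul_inv_rev, inv_inv]
      rw [mul_assoc, ← hg c]
      simp [c, ← mul_assoc]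

/-- Let A be a noncyclic elementary abelian p-subgroup of a finite group H normalizing a subgroup K of order prime to p, and X, Y ≤ K subgroups normalized by A with C_K(a) = C_X(a) C_Y(a) (as sets) for every non-identity a ∈ A, where X is also normalized by C_K(A). Then K = XY as sets. -/
theorem result {H : Type*} [Group H] [Finite H] (p : ℕ) [Fact p.Prime] (A K X Y : Subgroup H) (hA : Cfsg.IsElementaryAbelian p A) (hA2 : p ^ 2 ≤ Nat.card ↥A) (hK : ¬ p ∣ Nat.card ↥K) (hAK : A ≤ Subgroup.normalizer (K : Set H)) (hX : X ≤ K) (hY : Y ≤ K) (hAX : A ≤ Subgroup.normalizer (X : Set H)) (hAY : A ≤ Subgroup.normalizer (Y : Set H)) (hCX : K ⊓ Subgroup.centralizer (A : Set H) ≤ Subgroup.normalizer (X : Set H)) (hfac : ∀ a ∈ A, a ≠ 1 → ((K ⊓ Subgroup.centralizer {a} : Subgroup H) : Set H) = ((X ⊓ Subgroup.centralizer {a} : Subgroup H) : Set H) * ((Y ⊓ Subgroup.centralizer {a} : Subgroup H) : Set H)) : (K : Set H) = (X : Set H) * (Y : Set H) := by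
  classical
  haveI := hA.1
  obtain ⟨A₀, hA₀, hA₀c⟩ : ∃ A₀ : Subgroup H, A₀ ≤ A ∧ Nat.card A₀ = p ^ 2 := by
    obtain ⟨n, hn⟩ := IsPGroup.iff_card.mp (H52.elem_isPGroup hA)
    have h2n : 2 ≤ n := (Nat.pow_le_pow_iff_right (Fact.out : p.Prime).one_lt).mp (hn ▸ hA2)
    obtain ⟨D, hD⟩ := Sylow.exists_subgroup_card_pow_prime p (G := ↥A) (n := 2) (hn ▸ pow_dvd_pow p h2n)
    exact ⟨D.map A.subtype, map_subtype_le _,
      by rw [Nat.card_congr (D.equivMapOfInjective _ A.subtype_injective).toEquiv.symm, hD]⟩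
  haveI := (H52.elem_mono hA hA₀).1
  haveI := Fintype.ofFinite (H52.FixedPointFormula.Line ↥A₀ p)
  have hE : ∀ e : A₀, e ^ p = 1 := fun e => Subtype.ext (by simpa using hA.2 e (hA₀ e.2))
  have hr : ∀ L : Subgroup H, A ≤ normalizer (L : Set H) →
      A₀.subtype.range ≤ normalizer (L : Set H) := fun L hL => by rw [range_subtype]; exact hA₀.trans hL
  have hc : ∀ L : Subgroup H, L ≤ K → (Nat.card L).Coprime p := fun L hL =>
    (((Fact.out : p.Prime).coprime_iff_not_dvd).mpr hK).symm.coprime_dvd_left (card_dvd_of_le hL)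
  let fx : Subgroup H → Subgroup ↥A₀ → Subgroup H := H52.FixedPointFormula.fix A₀.subtype
  have form : ∀ L : Subgroup H, L ≤ K → A ≤ normalizer (L : Set H) →
      Nat.card L * Nat.card (fx L ⊤) ^ p =
        ∏ B : H52.FixedPointFormula.Line ↥A₀ p, Nat.card (fx L B.1) := fun L hL hAL =>
    H52.FixedPointFormula.formula hE hA₀c A₀.subtype (hr L hAL) (hc L hL)
  have hXY : A ≤ normalizer ((X ⊓ Y : Subgroup H) : Set H) :=
    (le_inf hAX hAY).trans inf_normalizer_le_normalizer_inf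
  -- factorisation of the fixed points of a subgroup of `A₀`
  have hfix : ∀ B : Subgroup ↥A₀, B ≠ ⊥ →
      Nat.card (fx K B) * Nat.card (fx (X ⊓ Y) B) = Nat.card (fx X B) * Nat.card (fx Y B) := by
    intro B hB
    have e : fx (X ⊓ Y) B = fx X B ⊓ fx Y B := inf_inf_distrib_right _ _ _
    have hset : ((fx X B : Subgroup H) : Set H) * (fx Y B : Subgroup H) = (fx K B : Subgroup H) := by
      refine Set.Subset.antisymm ?_ fun c hc' => ?_
      · rintro _ ⟨x, hx, y, hy, rfl⟩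
        exact ⟨mul_mem (hX hx.1) (hY hy.1), mul_mem hx.2 hy.2⟩
      obtain ⟨b, hb, hb1⟩ := (bot_or_exists_ne_one B).resolve_left hB
      have hbH : (b : H) ≠ 1 := fun h => hb1 (Subtype.ext h)
      have hcb : c ∈ K ⊓ centralizer ({(b : H)} : Set H) :=
        ⟨hc'.1, centralizer_le (Set.singleton_subset_iff.mpr (show (b : H) ∈ ((B.map A₀.subtype : Subgroup H) : Set H) from ⟨b, hb, rfl⟩)) hc'.2⟩
      rw [← SetLike.mem_coe, hfac b (hA₀ b.2) hbH] at hcb
      obtain ⟨x, hx, y, hy, rfl⟩ := hcb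
      set B' := B.map A₀.subtype
      have hBA : B' ≤ A := (map_subtype_le B).trans hA₀
      obtain ⟨n, hn, hnc⟩ := H20.exists_mul_mem_centralizer (A := B') (N := X ⊓ Y) (k := x)
        (hBA.trans hXY)
        (Nat.Coprime.coprime_dvd_left (card_dvd_of_le hBA)
          (H52.elem_coprime hA (fun hd => hK (hd.trans (card_dvd_of_le (inf_le_left.trans hX))))))
        (Or.inl (Group.isSolvable_of_isSolvable_injective (inclusion_injective hBA)))
        (fun a ha => by
          refine mem_inf.mpr ⟨mul_mem (inv_mem hx.1) (le_normalizer_iff.mp (hBA.trans hAX) a ha x hx.1), ?_⟩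
          have h : (a * x * a⁻¹) * (a * y * a⁻¹) = x * y := by
            rw [conj_mul, mem_centralizer_iff.mp hc'.2 a ha, mul_inv_cancel_right]
          have e1 : x⁻¹ * (a * x * a⁻¹) = y * (a * y * a⁻¹)⁻¹ := by
            rw [inv_mul_eq_iff_eq_mul, ← mul_assoc, eq_mul_inv_iff_mul_eq, h]
          rw [e1]
          exact mul_mem hy.1 (inv_mem (le_normalizer_iff.mp (hBA.trans hAY) a ha y hy.1)))
      refine ⟨x * n, ⟨mul_mem hx.1 hn.1, hnc⟩, n⁻¹ * y, mem_inf.mpr ⟨mul_mem (inv_mem hn.2) hy.1, ?_⟩, by simp [mul_assoc]⟩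
      show _ ∈ centralizer (B' : Set H)
      have := mul_mem (inv_mem hnc) (show x * y ∈ centralizer (B' : Set H) from hc'.2)
      simpa [mul_assoc] using this
    rw [e, ← card_mul_inf (fx X B) (fx Y B), hset]
    rfl
  have htop : (⊤ : Subgroup ↥A₀) ≠ ⊥ := fun h => by
    have := congrArg (fun S : Subgroup ↥A₀ => Nat.card S) h
    simp only [card_top, card_bot, hA₀c] at this
    exact (Nat.one_lt_pow two_ne_zero (Fact.out : p.Prime).one_lt).ne' this
  have hline : ∀ B : H52.FixedPointFormula.Line ↥A₀ p, B.1 ≠ ⊥ := fun B h => by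
    have := B.2
    rw [h, card_bot] at this
    exact (Fact.out : p.Prime).ne_one this.symm
  have hprod : Nat.card K * Nat.card ↥(X ⊓ Y) * (Nat.card (fx K ⊤) * Nat.card (fx (X ⊓ Y) ⊤)) ^ p =
      Nat.card X * Nat.card Y * (Nat.card (fx X ⊤) * Nat.card (fx Y ⊤)) ^ p := by
    rw [mul_pow, mul_pow, mul_mul_mul_comm, form K le_rfl hAK, form _ (inf_le_left.trans hX) hXY,
      mul_mul_mul_comm, form X hX hAX, form Y hY hAY, ← Finset.prod_mul_distrib, ← Finset.prod_mul_distrib]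
    exact Finset.prod_congr rfl fun B _ => hfix B.1 (hline B)
  rw [hfix ⊤ htop] at hprod
  have hcard := Nat.eq_of_mul_eq_mul_right (Nat.pow_pos (Nat.mul_pos Nat.card_pos Nat.card_pos)) hprod
  rw [← card_mul_inf X Y] at hcard
  have hKcard := Nat.eq_of_mul_eq_mul_right Nat.card_pos hcard
  refine (Set.eq_of_subset_of_ncard_le ?_ ?_ (Set.toFinite _)).symm
  · rintro _ ⟨x, hx, y, hy, rfl⟩
    exact mul_mem (hX hx) (hY hy)
  · rw [← Nat.card_coe_set_eq, ← Nat.card_coe_set_eq]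
    exact hKcard.le


end Cfsg.Agent.S1287
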