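import Cfsg.Statements.S1288
import Cfsg.Agent.H52.CharP
import Cfsg.Agent.H52.Signalizer
import Cfsg.Agent.H20.Sylow
import Cfsg.Agent.H20.Hall

set_option autoImplicit false
open Cfsg
open scoped commutatorElement

namespace Cfsg.Agent.S1288

/-- Let A be a noncyclic elementary abelian p-subgroup of a finite group H normalizing a solvable subgroup K of order prime to p, q a prime dividing |K|, and U ≤ K a subgroup of order prime to q such that ⁅U, C_K(B)⁆ has order prime to q for every subgroup B of index p in A. Then U ≤ O_{q'}(K). -/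
theorem result {H : Type*} [Group H] [Finite H] (p : ℕ) [Fact p.Prime] (A K : Subgroup H) (hA : Cfsg.IsElementaryAbelian p A) (hA2 : p ^ 2 ≤ Nat.card ↥A) (hK : ¬ p ∣ Nat.card ↥K) (hKs : Group.IsSolvable ↥K) (hAK : A ≤ Subgroup.normalizer (K : Set H)) (q : ℕ) [Fact q.Prime] (hqK : q ∣ Nat.card ↥K) (U : Subgroup H) (hU : U ≤ K) (hUq : ¬ q ∣ Nat.card ↥U) (hcomm : ∀ B : Subgroup H, B ≤ A → B.relIndex A = p → ¬ q ∣ Nat.card ↥⁅U, K ⊓ Subgroup.centralizer (B : Set H)⁆) : U ≤ (Cfsg.pPrimeCore q ↥K).map K.subtype := by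
  have hp : p.Prime := Fact.out
  have hq : q.Prime := Fact.out
  haveI := H19.pPrimeCore_normal q ↥K
  set O := Cfsg.pPrimeCore q ↥K
  set π := QuotientGroup.mk' O
  have hsurj : Function.Surjective π := QuotientGroup.mk'_surjective _
  have hchar := H52.pLayer_eq_bot_iff.mp (H52.pLayer_eq_bot_of_isSolvable (p := q) hKs)
  haveI := H19.pCore_normal q (↥K ⧸ O)
  set Qb := Cfsg.pCore q (↥K ⧸ O)
  set M : Subgroup H := (Cfsg.pPrimePCore q ↥K).map K.subtype
  have hAM : A ≤ Subgroup.normalizer (M : Set H) := by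
    haveI : (Cfsg.pPrimePCore q ↥K).Characteristic := by
      refine Subgroup.characteristic_iff_map_eq.mpr fun e => ?_
      have hO : O.map e.toMonoidHom = O := H52.map_pPrimeCore q e
      set e' := QuotientGroup.congr O O e hO
      have h1 := H19.pCore_characteristic q (↥K ⧸ O)
      have h2 : Qb.map e'.toMonoidHom = Qb := Subgroup.characteristic_iff_map_eq.mp h1 e'
      ext x
      constructor
      · rintro ⟨y, hy, rfl⟩
        change π (e y) ∈ Qb
        rw [← h2]
        exact ⟨π y, hy, rfl⟩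
      · intro hx
        change π x ∈ Qb at hx
        rw [← h2] at hx
        obtain ⟨z, hz, hzx⟩ := hx
        obtain ⟨y, rfl⟩ := hsurj z
        refine ⟨e.symm x, ?_, e.apply_symm_apply x⟩
        change π (e.symm x) ∈ Qb
        have : π (e.symm x) = π y := by
          apply e'.injective
          change π (e (e.symm x)) = e' (π y)
          rw [e.apply_symm_apply]; exact hzx.symm
        rwa [this]
    exact H20.le_normalizer_map_characteristic hAK _
  have hMK : M ≤ K := Subgroup.map_subtype_le _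
  have hAbot : A ≠ ⊥ := fun h => by
    rw [h, Subgroup.card_bot] at hA2
    exact absurd hA2 (not_le.mpr (Nat.one_lt_pow (by norm_num) hp.one_lt))
  haveI := hA.1
  obtain ⟨S, hS⟩ := H20.exists_invariant_sylow hAM
    (H52.elem_coprime hA (fun h => hK (h.trans (Subgroup.card_dvd_of_le hMK))))
    (Or.inl (H20.isSolvable_of_isMulCommutative A)) q
  let f : ↥M →* ↥Qb := (π.comp (Subgroup.inclusion hMK)).codRestrict Qb (fun x => by
    obtain ⟨y, hy, hyx⟩ := x.2
    have : Subgroup.inclusion hMK x = y := Subtype.ext hyx.symm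
    change π (Subgroup.inclusion hMK x) ∈ Qb
    rw [this]; exact hy)
  have hf : Function.Surjective f := by
    rintro ⟨z, hz⟩
    obtain ⟨y, rfl⟩ := hsurj z
    exact ⟨⟨y, y, hz, rfl⟩, rfl⟩
  have htop : ((S.mapSurjective hf : Sylow q ↥Qb) : Subgroup ↥Qb) = ⊤ :=
    ((S.mapSurjective hf).is_maximal' ((H19.pCore_isPGroup (G := ↥K ⧸ O) q).to_subgroup ⊤) le_top).symm
  set U' := U.subgroupOf K
  set Ub := U'.map π
  have hUb : (Nat.card ↥Ub).Coprime q := (H52.coprime_of_not_dvd hq
    (fun h => hUq (h.trans ((Subgroup.card_comap_dvd_of_injective U _ K.subtype_injective))))).coprime_dvd_left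
    (Subgroup.card_map_dvd _ _)
  set T : Subgroup H := ((Subgroup.centralizer (Ub : Set (↥K ⧸ O))).comap π).map K.subtype
  have hST : (S : Subgroup ↥M).map M.subtype ≤ T := by
    refine H52.le_of_hyperplane_centralizers_le hA hAbot hS ?_ ?_
    · rw [H20.card_map_sylow]
      intro h
      have h1 : p = q := (Nat.prime_dvd_prime_iff_eq hp hq).mp (hp.dvd_of_dvd_pow h)
      exact hK (h1 ▸ hqK)
    · intro B hB hBi c hc
      obtain ⟨⟨cM, hcS, hcc⟩, hcB⟩ := Subgroup.mem_inf.mp hc
      have hcK : c ∈ K := hMK (hcc ▸ cM.2)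
      refine ⟨⟨c, hcK⟩, ?_, rfl⟩
      change π ⟨c, hcK⟩ ∈ Subgroup.centralizer (Ub : Set (↥K ⧸ O))
      rw [Subgroup.mem_centralizer_iff]
      rintro _ ⟨u, hu, rfl⟩
      have hcQ : π ⟨c, hcK⟩ ∈ Qb := by
        have := (f cM).2
        have e : Subgroup.inclusion hMK cM = ⟨c, hcK⟩ := Subtype.ext hcc
        rw [← e]; exact this
      have h1 : ((⁅u, (⟨c, hcK⟩ : ↥K)⁆ : ↥K) : H) ∈ ⁅U, K ⊓ Subgroup.centralizer (B : Set H)⁆ :=
        Subgroup.commutator_mem_commutator hu (Subgroup.mem_inf.mpr ⟨hcK, hcB⟩)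
      have h2 : orderOf (π ⁅u, (⟨c, hcK⟩ : ↥K)⁆) ∣ Nat.card ↥⁅U, K ⊓ Subgroup.centralizer (B : Set H)⁆ := by
        refine (orderOf_map_dvd π _).trans ?_
        rw [← Subgroup.orderOf_coe]
        exact Subgroup.orderOf_dvd_natCard _ h1
      have h3 : π ⁅u, (⟨c, hcK⟩ : ↥K)⁆ ∈ Qb := by
        rw [map_commutatorElement, commutatorElement_def]
        exact mul_mem (Subgroup.Normal.conj_mem inferInstance _ hcQ _) (inv_mem hcQ)
      obtain ⟨n, hn⟩ := IsPGroup.iff_card.mp (H19.pCore_isPGroup (G := ↥K ⧸ O) q)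
      have h4 := Subgroup.orderOf_dvd_natCard Qb h3
      rw [hn] at h4
      have h5 := Nat.eq_one_of_dvd_coprimes ((H52.coprime_of_not_dvd hq (hcomm B hB hBi)).pow_right n) h2 h4
      rw [orderOf_eq_one_iff, map_commutatorElement, commutatorElement_eq_one_iff_commute] at h5
      exact h5
  have hUC : Ub ≤ Subgroup.centralizer (Qb : Set (↥K ⧸ O)) := by
    intro u hu
    rw [Subgroup.mem_centralizer_iff]
    intro z hz
    obtain ⟨m, hm, hmz⟩ : (⟨z, hz⟩ : ↥Qb) ∈ ((S.mapSurjective hf : Sylow q ↥Qb) : Subgroup ↥Qb) := by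
      rw [htop]; exact Subgroup.mem_top _
    obtain ⟨t, ht, htm⟩ := hST ⟨m, hm, rfl⟩
    have h1 : π t = z := by
      have e : Subgroup.inclusion hMK m = t := Subtype.ext htm.symm
      rw [← e]; exact congrArg Subtype.val hmz
    rw [← h1]
    exact ((Subgroup.mem_centralizer_iff.mp ht) u hu).symm
  have hbot : Ub = ⊥ := by
    rw [← le_bot_iff, ← H19.inf_eq_bot_of_isPGroup_coprime (H19.pCore_isPGroup (G := ↥K ⧸ O) q) hUb]
    exact le_inf (hUC.trans hchar) le_rfl
  rw [Subgroup.map_eq_bot_iff, QuotientGroup.ker_mk'] at hbot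
  intro u hu
  exact ⟨⟨u, hU hu⟩, hbot hu, rfl⟩

end Cfsg.Agent.S1288
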