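import Cfsg.Statements.S1289
import Mathlib
import Cfsg.Agent.H52.CharP

set_option autoImplicit false
open Cfsg

namespace Cfsg.Agent.S1289

/-- A subgroup with trivial image in `X/N` lies in `N`. -/
theorem le_of_map_mk'_eq_bot {X : Type*} [Group X] {N H : Subgroup X} [N.Normal]
    (h : H.map (QuotientGroup.mk' N) = ⊥) : H ≤ N := by
  rwa [Subgroup.map_eq_bot_iff, QuotientGroup.ker_mk'] at h

/-- A p-component K of the finite group X is subnormal, perfect, of order divisible by p, and minimal among the subnormal perfect subgroups of X of order divisible by p. -/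
theorem result {X : Type*} [Group X] [Finite X] (p : ℕ) [Fact p.Prime] (K : Subgroup X) (hK : Cfsg.IsPComponent p K) : K.IsSubnormal ∧ ⁅K, K⁆ = K ∧ p ∣ Nat.card ↥K ∧ ∀ H : Subgroup X, H ≤ K → H.IsSubnormal → ⁅H, H⁆ = H → p ∣ Nat.card ↥H → H = K := by
  haveI := H19.pPrimeCore_normal p X
  obtain ⟨hsn, hcomp, hmin⟩ := hK
  set π := QuotientGroup.mk' (Cfsg.pPrimeCore p X)
  have hsurj : Function.Surjective π := QuotientGroup.mk'_surjective _
  have hperf : ⁅K, K⁆ = K := by
    refine hmin _ ?_ (Subgroup.commutator_le_self K) ?_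
    · refine Subgroup.IsSubnormal.trans (Subgroup.commutator_le_self K) ?_ hsn
      have : (⁅K, K⁆).subgroupOf K = commutator ↥K := by
        apply Subgroup.map_injective K.subtype_injective
        rw [Subgroup.map_subgroupOf_eq_of_le (Subgroup.commutator_le_self K), Subgroup.map_subtype_commutator]
      rw [this]
      exact Subgroup.Normal.isSubnormal inferInstance
    · rw [Subgroup.map_commutator, H51.component_commutator_self hcomp]
  have hp : p ∣ Nat.card ↥K := by
    by_contra h
    refine H51.component_ne_bot hcomp ?_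
    rw [Subgroup.map_eq_bot_iff, QuotientGroup.ker_mk']
    exact H52.subnormal_le_pPrimeCore' hsn h
  refine ⟨hsn, hperf, hp, fun H hle hH hHperf hHp => ?_⟩
  rcases H51.component_le_or_commute_of_subnormal hcomp (hH.map hsurj) with h | h
  · exact hmin H hH hle (le_antisymm (Subgroup.map_mono hle) h)
  · exfalso
    have h1 : H.map π = ⊥ := by
      rw [← hHperf, Subgroup.map_commutator]
      refine le_bot_iff.mp ((Subgroup.commutator_mono le_rfl (Subgroup.map_mono hle)).trans ?_)
      rw [Subgroup.commutator_comm]
      exact (le_of_eq h)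
    have h2 : H ≤ Cfsg.pPrimeCore p X := le_of_map_mk'_eq_bot h1
    exact H52.not_dvd_of_coprime Fact.out ((H19.pPrimeCore_coprime (G := X) p).coprime_dvd_left
      (Subgroup.card_dvd_of_le h2)) hHp

end Cfsg.Agent.S1289
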