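import Cfsg.Statements.S1300
import Mathlib

set_option autoImplicit false
open Cfsg

namespace Cfsg.Agent.S1300

/-- A subgroup of order two consists of `1` and a generator. -/
theorem delta_of_card_two {G : Type*} [Group G] [Finite G] (x : G) (hx : orderOf x = 2) :
    Cfsg.signalizerDelta 2 (Subgroup.zpowers x) = Cfsg.centralizerPPrimeCore 2 x := by
  refine le_antisymm (iInf_le_of_le ⟨x, Subgroup.mem_zpowers x, fun h => ?_⟩ le_rfl) (le_iInf ?_)
  · rw [h, orderOf_one] at hx; omega
  · rintro ⟨a, ha, ha1⟩
    classical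
    obtain ⟨k, hk, rfl⟩ : ∃ k < orderOf x, x ^ k = a := by
      simpa [mem_zpowers_iff_mem_range_orderOf] using ha
    rw [hx] at hk
    interval_cases k
    · simp at ha1
    · simp

/-- For a finite group G, balance in the sense of commuting involutions is the same as 1-balance for the prime 2. -/
theorem result {G : Type*} [Group G] [Finite G] : Cfsg.IsBalanced G ↔ Cfsg.IsKBalanced 2 1 G := by
  constructor
  · intro h A hA hcard b hb hcomm
    have hAbot : A ≠ ⊥ := fun h => by rw [h, Subgroup.card_bot] at hcard; norm_num at hcard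
    obtain ⟨x, hxA, hx1⟩ := (Subgroup.bot_or_exists_ne_one A).resolve_left hAbot
    have hx : orderOf x = 2 := orderOf_eq_prime (hA.2 x hxA) hx1
    have hAx : A = Subgroup.zpowers x := by
      symm
      refine Subgroup.eq_of_le_of_card_ge (Subgroup.zpowers_le.mpr hxA) ?_
      rw [hcard, Nat.card_zpowers, hx]; norm_num
    rw [hAx, delta_of_card_two x hx, h x b hx hb (hcomm x hxA)]
    exact inf_le_left
  · intro h x y hx hy hxy
    have hz : ∀ u : G, orderOf u = 2 → Cfsg.IsElementaryAbelian 2 (Subgroup.zpowers u) ∧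
        Nat.card ↥(Subgroup.zpowers u) = 2 ^ 1 := by
      intro u hu
      refine ⟨⟨inferInstance, ?_⟩, by rw [Nat.card_zpowers, hu]; norm_num⟩
      rintro a ⟨k, rfl⟩
      rw [← zpow_natCast, ← zpow_mul, mul_comm, zpow_mul, zpow_natCast, ← hu, pow_orderOf_eq_one, one_zpow]
    have key : ∀ u v : G, orderOf u = 2 → orderOf v = 2 → u * v = v * u →
        Cfsg.centralizerPPrimeCore 2 u ⊓ Subgroup.centralizer {v} ≤ Cfsg.centralizerPPrimeCore 2 v := by
      intro u v hu hv huv
      have := h (Subgroup.zpowers u) (hz u hu).1 (hz u hu).2 v hv (by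
        rintro a ⟨k, rfl⟩
        exact (Commute.zpow_left huv k).eq)
      rwa [delta_of_card_two u hu] at this
    exact le_antisymm (le_inf (key x y hx hy hxy) (inf_le_left.trans (Subgroup.map_subtype_le _)))
      (le_inf (key y x hy hx hxy.symm) (inf_le_left.trans (Subgroup.map_subtype_le _)))

end Cfsg.Agent.S1300
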