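import Cfsg.Statements.S1297
import Cfsg.Agent.H52.LocalBalance
import Cfsg.Agent.S1300

set_option autoImplicit false
open Cfsg

namespace Cfsg.Agent.S1297

/-- Local balance gives local `1`-balance at the prime 2. -/
theorem locallyKBalanced_of_locallyBalanced {K : Type*} [Group K] [Finite K]
    (h : Cfsg.IsLocallyBalanced K) : Cfsg.IsLocallyKBalanced 2 1 K := by
  intro H hH A hA hcard
  have hAbot : A ≠ ⊥ := fun h => by rw [h, Subgroup.card_bot] at hcard; norm_num at hcard
  obtain ⟨x, hxA, hx1⟩ := (Subgroup.bot_or_exists_ne_one A).resolve_left hAbot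
  haveI : Fact (Nat.Prime 2) := ⟨Nat.prime_two⟩
  have hx : orderOf x = 2 := orderOf_eq_prime (hA.2 x hxA) hx1
  have hAx : A = Subgroup.zpowers x := by
    symm
    refine Subgroup.eq_of_le_of_card_ge (Subgroup.zpowers_le.mpr hxA) ?_
    rw [hcard, Nat.card_zpowers, hx]; norm_num
  haveI : Finite (MulAut K) := Finite.of_injective (fun e : MulAut K => (e : K → K)) DFunLike.coe_injective
  rw [hAx, S1300.delta_of_card_two x hx]
  exact h H hH x hx

/-- Let G be finite. Suppose that for every involution x, writing C = C_G(x), every component K of C / O(C) has K / Z(K) locally balanced. Then G is balanced. -/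
theorem result {G : Type*} [Group G] [Finite G] (h : ∀ x : G, orderOf x = 2 → ∀ K : Subgroup (↥(Subgroup.centralizer ({x} : Set G)) ⧸ Cfsg.oddCore ↥(Subgroup.centralizer ({x} : Set G))), Cfsg.IsComponent K → Cfsg.IsLocallyBalanced (↥K ⧸ Subgroup.center ↥K)) : Cfsg.IsBalanced G := by
  haveI : Fact (Nat.Prime 2) := ⟨Nat.prime_two⟩
  rw [S1300.result]
  exact H52.isKBalanced_of_locally le_rfl fun x hx K hK => locallyKBalanced_of_locallyBalanced (h x hx K hK)

end Cfsg.Agent.S1297
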