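import Cfsg.Statements.S1299
import Cfsg.Agent.H52.Signalizer
import Cfsg.Agent.H52.LocalBalance
import Cfsg.Agent.H52.FunctorClosure

set_option autoImplicit false
open Cfsg

namespace Cfsg.Agent.S1299

open Subgroup

variable {G : Type*} [Group G] [Finite G] {p k : ℕ} [Fact p.Prime] {A : Subgroup G}

omit [Finite G] [Fact p.Prime] in
theorem delta_mono {D E : Subgroup G} (h : D ≤ E) : signalizerDelta p E ≤ signalizerDelta p D :=
  le_iInf fun a => iInf_le (fun a : {a : G // a ∈ E ∧ a ≠ 1} => centralizerPPrimeCore p (a : G))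
    ⟨a.1, h a.2.1, a.2.2⟩

theorem centralizerPPrimeCore_le (a : G) : centralizerPPrimeCore p a ≤ centralizer ({a} : Set G) :=
  map_subtype_le _

theorem delta_le_centralizer {D : Subgroup G} :
    signalizerDelta p D ≤ centralizer (D : Set G) := by
  intro x hx
  refine mem_centralizer_iff.mpr fun d hd => ?_
  rcases eq_or_ne d 1 with rfl | hd1
  · simp
  · exact mem_centralizer_iff.mp (centralizerPPrimeCore_le d
      (iInf_le (fun a : {a : G // a ∈ D ∧ a ≠ 1} => centralizerPPrimeCore p (a : G)) ⟨d, hd, hd1⟩ hx))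
      d rfl

/-- Subgroups of order `p ^ k`. -/
theorem exists_card_eq (hA : IsElementaryAbelian p A) {S : Subgroup G} (hS : S ≤ A)
    (hSk : p ^ k ≤ Nat.card S) : ∃ D : Subgroup G, D ≤ S ∧ Nat.card D = p ^ k := by
  obtain ⟨n, hn⟩ := IsPGroup.iff_card.mp (H52.elem_isPGroup (H52.elem_mono hA hS))
  have hkn : k ≤ n := (Nat.pow_le_pow_iff_right (Fact.out : p.Prime).one_lt).mp (hn ▸ hSk)
  obtain ⟨D, hD⟩ := Sylow.exists_subgroup_card_pow_prime p (G := ↥S) (n := k)
    (hn ▸ pow_dvd_pow p hkn)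
  exact ⟨D.map S.subtype, map_subtype_le _,
    by rw [Nat.card_congr (D.equivMapOfInjective _ S.subtype_injective).toEquiv.symm, hD]⟩

/-- Balance against subgroups of `A`. -/
theorem delta_inf_le (hbal : IsKBalanced p k G) (hA : IsElementaryAbelian p A) {S E : Subgroup G}
    (hS : S ≤ A) (hSk : p ^ k ≤ Nat.card S) (hE : E ≤ A) :
    signalizerDelta p S ⊓ centralizer (E : Set G) ≤ signalizerDelta p E := by
  obtain ⟨D, hDS, hD⟩ := exists_card_eq hA hS hSk
  refine le_iInf fun e => ?_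
  refine le_trans (inf_le_inf (delta_mono hDS) (centralizer_le (Set.singleton_subset_iff.mpr e.2.1)))
    (hbal D (H52.elem_mono hA (hDS.trans hS)) hD e (orderOf_eq_prime (hA.2 e (hE e.2.1)) e.2.2)
      fun d hd => H52.elem_comm hA (hS (hDS hd)) (hE e.2.1))

theorem delta_inf_le_core (hbal : IsKBalanced p k G) (hA : IsElementaryAbelian p A)
    {S : Subgroup G} (hS : S ≤ A) (hSk : p ^ k ≤ Nat.card S) {a : G} (ha : a ∈ A) (ha1 : a ≠ 1) :
    signalizerDelta p S ⊓ centralizer ({a} : Set G) ≤ centralizerPPrimeCore p a := by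
  refine le_trans (le_of_eq ?_) ((delta_inf_le hbal hA hS hSk (zpowers_le.mpr ha)).trans
    (iInf_le (fun b : {b : G // b ∈ zpowers a ∧ b ≠ 1} => centralizerPPrimeCore p (b : G))
      ⟨a, mem_zpowers a, ha1⟩))
  rw [zpowers_eq_closure, centralizer_closure]

theorem le_normalizer_delta (hA : IsElementaryAbelian p A) {S : Subgroup G} (hS : S ≤ A) :
    A ≤ normalizer (signalizerDelta p S : Set G) := by
  refine le_normalizer_iff.mpr fun b hb x hx => mem_iInf.mpr fun s => ?_
  exact le_normalizer_iff.mp ((H52.elem_le_centralizer hA (hS s.2.1)).trans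
    (H52.centralizer_le_normalizer_core (p := p) (s : G))) b hb x (mem_iInf.mp hx s)

theorem le_normalizer_centralizer (hA : IsElementaryAbelian p A) {S : Subgroup G} (hS : S ≤ A) :
    A ≤ normalizer (centralizer (S : Set G) : Set G) :=
  le_trans (fun b hb => mem_centralizer_iff.mpr fun s hs => H52.elem_comm hA (hS hs) hb)
    le_normalizer

theorem le_normalizer_delta_inf (hA : IsElementaryAbelian p A) {S : Subgroup G} (hS : S ≤ A)
    {a : G} (ha : a ∈ A) :
    A ≤ normalizer ((signalizerDelta p S ⊓ centralizer ({a} : Set G) : Subgroup G) : Set G) :=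
  (le_inf (le_normalizer_delta hA hS) ((H52.elem_le_centralizer hA ha).trans le_normalizer)).trans
    inf_normalizer_le_normalizer_inf

/-- Let G be finite and k-balanced for the prime p (k ≥ 1), A an elementary abelian p-subgroup of order at least p^(k+2) such that O_{p'}(C_G(a)) is solvable for every non-identity a ∈ A. For a ∈ A put θ a = the subgroup generated by the Δ_G(D) ∩ C_G(a) over the subgroups D ≤ A of order p^k. Then θ is an A-signalizer functor. -/
theorem result {G : Type*} [Group G] [Finite G] (p k : ℕ) [Fact p.Prime] (hk : 1 ≤ k) (hbal : Cfsg.IsKBalanced p k G) (A : Subgroup G) (hA : Cfsg.IsElementaryAbelian p A) (hAk : p ^ (k + 2) ≤ Nat.card ↥A) (hsolv : ∀ a ∈ A, a ≠ 1 → Group.IsSolvable ↥(Cfsg.centralizerPPrimeCore p a)) : Cfsg.IsSignalizerFunctor p A (fun a => ⨆ D : {D : Subgroup G // D ≤ A ∧ Nat.card ↥D = p ^ k}, Cfsg.signalizerDelta p (D : Subgroup G) ⊓ Subgroup.centralizer {a}) := by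
  have hp := (Fact.out : p.Prime)
  set θ : G → Subgroup G := fun a => ⨆ D : {D : Subgroup G // D ≤ A ∧ Nat.card ↥D = p ^ k},
    signalizerDelta p (D : Subgroup G) ⊓ centralizer {a} with hθ
  have hne : A ≠ ⊥ := fun h => by
    rw [h, card_bot] at hAk
    exact absurd hAk (not_le.mpr (Nat.one_lt_pow (by omega) hp.one_lt))
  have hcore : ∀ a ∈ A, a ≠ 1 → θ a ≤ centralizerPPrimeCore p a := fun a ha ha1 =>
    iSup_le fun D => delta_inf_le_core hbal hA D.2.1 D.2.2.ge ha ha1
  have hdvd : ∀ a ∈ A, a ≠ 1 → ¬ p ∣ Nat.card (θ a) := fun a ha ha1 h =>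
    hp.not_dvd_one ((H52.centralizerPPrimeCore_coprime (p := p) a).coprime_dvd_left
      (h.trans (card_dvd_of_le (hcore a ha ha1))) |>.symm.eq_one_of_dvd dvd_rfl ▸ dvd_rfl)
  have hinv : ∀ a ∈ A, A ≤ normalizer (θ a : Set G) := fun a ha => by
    refine le_normalizer_iff.mpr fun b hb x hx => ?_
    refine iSup_induction _ (C := fun x => b * x * b⁻¹ ∈ θ a) hx (fun D y hy => ?_) (by simp) ?_
    · exact mem_iSup_of_mem D
        (le_normalizer_iff.mp (le_normalizer_delta_inf hA D.2.1 ha) b hb y hy)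
    · intro y z hy hz; rw [← conj_mul]; exact mul_mem hy hz
  refine ⟨fun a ha ha1 => iSup_le fun D => inf_le_right, hdvd,
    fun a ha ha1 b hb x hx => le_normalizer_iff.mp (hinv a ha) b hb x hx, ?_⟩
  intro a ha ha1 b hb hb1
  let ι := {E : Subgroup G // E ≤ A ∧ E.relIndex A = p}
  let X : ι → Subgroup G := fun E => signalizerDelta p E.1 ⊓ centralizer {a}
  have hEk : ∀ E : ι, p ^ (k + 1) ≤ Nat.card E.1 := fun E =>
    H52.elem_card_hyperplane E.2.1 E.2.2 hAk
  have hk1 : p ^ k ≤ p ^ (k + 1) := Nat.pow_le_pow_right hp.pos (Nat.le_succ k)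
  have hXθ : ∀ E : ι, X E ≤ θ a := fun E => by
    obtain ⟨D, hDE, hD⟩ := exists_card_eq hA E.2.1 (hk1.trans (hEk E))
    exact (inf_le_inf_right _ (delta_mono hDE)).trans (le_iSup (fun D : {D : Subgroup G //
      D ≤ A ∧ Nat.card ↥D = p ^ k} => signalizerDelta p (D : Subgroup G) ⊓ centralizer {a})
      ⟨D, hDE.trans E.2.1, hD⟩)
  -- an invariant subgroup of some `Δ(S) ∩ C(a)` is generated by its parts in the `X E`
  have hgenS : ∀ S : Subgroup G, S ≤ A → p ^ k ≤ Nat.card S → ∀ Z H : Subgroup G,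
      Z ≤ signalizerDelta p S ⊓ centralizer {a} → A ≤ normalizer (Z : Set G) →
      (∀ E : ι, Z ⊓ X E ≤ H) → Z ≤ H := by
    intro S hS hSk Z H hZ hAZ h
    refine H52.le_of_hyperplane_centralizers_le hA hne hAZ ?_ fun E hE hEi => ?_
    · exact fun hd => hp.not_dvd_one ((H52.centralizerPPrimeCore_coprime (p := p) a).coprime_dvd_left
        (hd.trans (card_dvd_of_le (hZ.trans (delta_inf_le_core hbal hA hS hSk ha ha1))))
        |>.symm.eq_one_of_dvd dvd_rfl ▸ dvd_rfl)
    · exact fun z hz => h ⟨E, hE, hEi⟩ ⟨hz.1,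
        delta_inf_le hbal hA hS hSk hE ⟨(hZ hz.1).1, hz.2⟩, (hZ hz.1).2⟩
  haveI : Group.IsSolvable ↥(centralizerPPrimeCore p a) := hsolv a ha ha1
  haveI : Group.IsSolvable ↥(θ a) :=
    Group.isSolvable_of_isSolvable_injective (inclusion_injective (hcore a ha ha1))
  have key := H52.centralizer_eq_of_compatible (ι := ι) A (θ a) (fun E => E.1) X (hinv a ha)
    (H52.elem_coprime hA (hdvd a ha ha1)) (fun E => E.2.1) hXθ
    (fun E => inf_le_left.trans delta_le_centralizer)
    (fun E => le_normalizer_delta_inf hA E.2.1 ha)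
    (fun E F z hz => ⟨delta_inf_le hbal hA E.2.1 (hk1.trans (hEk E)) F.2.1 ⟨hz.1.1, hz.2⟩, hz.1.2⟩)
    (iSup_le fun D => hgenS D.1 D.2.1 D.2.2.ge _ _ le_rfl (le_normalizer_delta_inf hA D.2.1 ha)
      fun E => inf_le_right.trans (le_iSup X E))
    (fun Z H hZ hAZ h => H52.le_of_hyperplane_centralizers_le hA hne hAZ
      (fun hd => hdvd a ha ha1 (hd.trans (card_dvd_of_le hZ))) fun E hE hEi => h ⟨E, hE, hEi⟩)
    (fun E F => by
      have hcap : p ^ k ≤ Nat.card ↥(E.1 ⊓ F.1) := by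
        have h1 : (E.1 ⊓ F.1).relIndex A ≤ p * p := by
          have := relIndex_inf_le (H := E.1) (K := F.1) (L := A)
          rwa [E.2.2, F.2.2] at this
        have h2 : Nat.card ↥(E.1 ⊓ F.1) * (E.1 ⊓ F.1).relIndex A = Nat.card A := by
          rw [← Nat.card_congr (subgroupOfEquivOfLe (inf_le_left.trans E.2.1)).toEquiv]
          exact ((E.1 ⊓ F.1).subgroupOf A).card_mul_index
        by_contra hlt
        have h3 : Nat.card ↥(E.1 ⊓ F.1) * (E.1 ⊓ F.1).relIndex A < p ^ k * (p * p) :=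
          Nat.mul_lt_mul_of_lt_of_le (not_le.mp hlt) h1 (Nat.mul_pos hp.pos hp.pos)
        have h4 : p ^ k * (p * p) = p ^ (k + 2) := by ring
        omega
      obtain ⟨D, hD, hDc⟩ := exists_card_eq hA (inf_le_left.trans E.2.1) hcap
      exact ⟨signalizerDelta p (E.1 ⊓ F.1) ⊓ centralizer {a},
        inf_le_inf_right _ (delta_mono inf_le_left), inf_le_inf_right _ (delta_mono inf_le_right),
        (inf_le_inf_right _ (delta_mono hD)).trans (le_iSup (fun D : {D : Subgroup G //
          D ≤ A ∧ Nat.card ↥D = p ^ k} => signalizerDelta p (D : Subgroup G) ⊓ centralizer {a})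
          ⟨D, hD.trans (inf_le_left.trans E.2.1), hDc⟩),
        le_normalizer_delta_inf hA (inf_le_left.trans E.2.1) ha,
        fun Z H hZ hAZ h => hgenS _ (inf_le_left.trans E.2.1) hcap Z H hZ hAZ h⟩)
  refine H52.le_of_hyperplane_centralizers_le hA hne
    ((le_inf (hinv a ha) ((H52.elem_le_centralizer hA hb).trans le_normalizer)).trans
      inf_normalizer_le_normalizer_inf)
    (fun hd => hdvd a ha ha1 (hd.trans (card_dvd_of_le inf_le_left))) fun E hE hEi z hz => ?_
  obtain ⟨D, hDE, hD⟩ := exists_card_eq hA hE (hk1.trans (hEk ⟨E, hE, hEi⟩))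
  exact mem_iSup_of_mem (⟨D, hDE.trans hE, hD⟩ : {D : Subgroup G // D ≤ A ∧ Nat.card ↥D = p ^ k})
    ⟨delta_mono hDE (key ⟨E, hE, hEi⟩ ⟨hz.1.1, hz.2⟩).1, hz.1.2⟩


end Cfsg.Agent.S1299
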