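import Cfsg.Statements.S1302
import Mathlib
import Cfsg.Agent.H52.FixedOrderP
import Cfsg.Agent.H52.Quotient
import Cfsg.Agent.H51.PConstrained
import Cfsg.Agent.H19.Cores

set_option autoImplicit false
open Cfsg

namespace Cfsg.Agent.S1302

/-- Let X be a finite p-constrained group, p an odd prime, and A an abelian p-subgroup of X containing every element of order p of C_X(A). Then every subgroup of X of order prime to p that is normalized by A lies in O_{p'}(X). -/
theorem result {X : Type*} [Group X] [Finite X] (p : ℕ) [Fact p.Prime] (hp : p ≠ 2) (hX : Cfsg.IsPConstrained p X) (A : Subgroup X) (hA : IsMulCommutative ↥A) (hAp : IsPGroup p ↥A) (hΩ : ∀ x ∈ Subgroup.centralizer (A : Set X), orderOf x = p → x ∈ A) (Q : Subgroup X) (hQ : ¬ p ∣ Nat.card ↥Q) (hAQ : A ≤ Subgroup.normalizer (Q : Set X)) : Q ≤ Cfsg.pPrimeCore p X := by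
  classical
  have hp' := (Fact.out : p.Prime)
  haveI := H19.pPrimeCore_normal p X
  set O := Cfsg.pPrimeCore p X with hO
  set q := QuotientGroup.mk' O with hq
  have hqs : Function.Surjective q := QuotientGroup.mk'_surjective O
  have hqk : q.ker = O := QuotientGroup.ker_mk' O
  have hcen : Subgroup.centralizer (Cfsg.pCore p (X ⧸ O) : Set (X ⧸ O)) ≤ Cfsg.pCore p (X ⧸ O) :=
    H51.isPConstrained_iff_centralizer_pCore_le.mp hX
  set R := Cfsg.pCore p (X ⧸ O) with hR
  haveI : R.Normal := H19.pCore_normal p _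
  have hRp : IsPGroup p R := H19.pCore_isPGroup p
  have hQd : Nat.card (Q.map q) ∣ Nat.card Q := Subgroup.card_map_dvd Q q
  have hQc : (Nat.card (Q.map q)).Coprime p :=
    ((hp'.coprime_iff_not_dvd).mpr hQ).symm.coprime_dvd_left hQd
  have hRQ : R ⊓ Q.map q = ⊥ := by
    obtain ⟨n, hn⟩ := IsPGroup.iff_card.mp hRp
    exact Subgroup.inf_eq_bot_of_coprime (by rw [hn]; exact (hQc.pow_right n).symm)
  have htop : ∀ S : Subgroup (X ⧸ O), S ≤ Subgroup.normalizer (R : Set (X ⧸ O)) := fun S =>
    le_top.trans (Subgroup.normalizer_eq_top_iff.mpr ‹R.Normal›).ge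
  have hAQ' : A.map q ≤ Subgroup.normalizer (Q.map q : Set (X ⧸ O)) :=
    (Subgroup.map_mono hAQ).trans (Subgroup.le_normalizer_map q)
  have hcentral : Q.map q ≤ Subgroup.centralizer (R : Set (X ⧸ O)) := by
    refine H52.le_centralizer_of_fixed_order_p hp hQc (hAp.map q) hAQ' hRp (htop _) (htop _) ?_
    intro t ht htp
    rcases eq_or_ne t 1 with rfl | ht1
    · exact one_mem _
    -- `t` lies in the image of `A`
    have hcopA : (Nat.card A).Coprime (Nat.card q.ker) := by
      obtain ⟨n, hn⟩ := IsPGroup.iff_card.mp hAp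
      rw [hn, hqk]
      exact (H19.pPrimeCore_coprime p (G := X)).symm.pow_left n
    haveI := hAp.isNilpotent
    have h1 : t ∈ (Subgroup.centralizer (A : Set X)).map q := by
      rw [H52.map_centralizer_eq_of_coprime q hqs A hcopA inferInstance]; exact ht.2
    obtain ⟨x, hx, rfl⟩ := h1
    set m := Nat.card O with hm
    have hxm : (x ^ m) ^ p = 1 := by
      have h2 : x ^ p ∈ O := by rw [← hqk, MonoidHom.mem_ker, map_pow]; exact htp
      rw [← pow_mul, mul_comm, pow_mul]
      exact congrArg Subtype.val (pow_card_eq_one' (x := (⟨x ^ p, h2⟩ : O)))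
    have hAt : q x ^ m ∈ A.map q := by
      rcases eq_or_ne (x ^ m) 1 with h | h
      · rw [← map_pow, h, map_one]; exact one_mem _
      · rw [← map_pow]
        exact ⟨_, hΩ _ (Subgroup.pow_mem _ hx m) (orderOf_eq_prime hxm h), rfl⟩
    have htA : q x ∈ A.map q := by
      have hg : (orderOf (q x)).Coprime m := by
        rw [orderOf_eq_prime htp ht1]; exact (H19.pPrimeCore_coprime p (G := X)).symm
      obtain ⟨k, hk⟩ := exists_pow_eq_self_of_coprime hg.symm
      rw [← hk]; exact Subgroup.pow_mem _ hAt k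
    refine Subgroup.mem_centralizer_iff.mpr fun y hy => ?_
    have hmem : q x * y * (q x)⁻¹ * y⁻¹ ∈ R ⊓ Q.map q := by
      refine Subgroup.mem_inf.mpr ⟨?_, mul_mem (Subgroup.le_normalizer_iff.mp hAQ' _ htA y hy) (inv_mem hy)⟩
      rw [show q x * y * (q x)⁻¹ * y⁻¹ = q x * (y * (q x)⁻¹ * y⁻¹) by group]
      exact mul_mem ht.1 (‹R.Normal›.conj_mem _ (inv_mem ht.1) y)
    rw [hRQ, Subgroup.mem_bot, mul_inv_eq_one, mul_inv_eq_iff_eq_mul] at hmem
    exact hmem.symm
  have hbot : Q.map q = ⊥ := eq_bot_iff.mpr fun y hy => hRQ.le ⟨hcen (hcentral hy), hy⟩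
  rw [Subgroup.map_eq_bot_iff, hqk] at hbot
  exact hbot


end Cfsg.Agent.S1302
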