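import Cfsg.Statements.S1303
import Mathlib
import Cfsg.Agent.H52.Core

set_option autoImplicit false
open Cfsg

namespace Cfsg.Agent.S1303

/-- The group `SL(2,3)`. -/
abbrev SL23 := Matrix.SpecialLinearGroup (Fin 2) (ZMod 3)

/-- The elements of order dividing four form the quaternion subgroup. -/
def quat : Subgroup SL23 where
  carrier := {x | x ^ 4 = 1}
  one_mem' := by simp
  mul_mem' := by
    intro a b ha hb
    exact (show ∀ a b : SL23, a ^ 4 = 1 → b ^ 4 = 1 → (a * b) ^ 4 = 1 by decide +kernel) a b ha hb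
  inv_mem' := by
    intro a ha
    simpa [inv_pow] using ha

theorem quat_normal : quat.Normal := by
  constructor
  intro n hn g
  change (g * n * g⁻¹) ^ 4 = 1
  rw [conj_pow, hn]; group

theorem quat_pgroup : IsPGroup 2 ↥quat := fun x => ⟨2, Subtype.ext x.2⟩

theorem card_sl23 : Nat.card SL23 = 24 := by
  rw [Nat.card_eq_fintype_card]; decide +kernel

theorem core_bot : Cfsg.pPrimeCore 2 SL23 = ⊥ := by
  set N := Cfsg.pPrimeCore 2 SL23
  have hc : (Nat.card ↥N).Coprime 2 := H19.pPrimeCore_coprime 2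
  have hd : Nat.card ↥N ∣ 3 := by
    have h := Subgroup.card_subgroup_dvd_card N
    rw [card_sl23, show (24 : ℕ) = 3 * 2 ^ 3 by norm_num] at h
    exact (Nat.Coprime.pow_right 3 hc).dvd_of_dvd_mul_right h
  have h3 : ∀ n ∈ N, n ^ 3 = 1 := fun n hn =>
    orderOf_dvd_iff_pow_eq_one.mp ((Subgroup.orderOf_dvd_natCard _ hn).trans hd)
  haveI := H19.pPrimeCore_normal 2 SL23
  rw [Subgroup.eq_bot_iff_forall]
  intro n hn
  by_contra h
  obtain ⟨g, hg⟩ := (show ∀ n : SL23, n ^ 3 = 1 → n ≠ 1 → ∃ g : SL23, (g * n * g⁻¹ * n⁻¹) ^ 3 ≠ 1 by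
    decide +kernel) n (h3 n hn) h
  exact hg (h3 _ (mul_mem (Subgroup.Normal.conj_mem inferInstance n hn g) (inv_mem hn)))

/-- The group X = SL(2, 3): it is 2-constrained, O_{2'}(X) = 1, its centre A = Z(X) contains every involution of X = C_X(A), and X has a subgroup of order 3 (normalized by A) not contained in O_{2'}(X). -/
theorem result : Cfsg.IsPConstrained 2 (Matrix.SpecialLinearGroup (Fin 2) (ZMod 3)) ∧ Cfsg.pPrimeCore 2 (Matrix.SpecialLinearGroup (Fin 2) (ZMod 3)) = ⊥ ∧ (∀ t : Matrix.SpecialLinearGroup (Fin 2) (ZMod 3), orderOf t = 2 → t ∈ Subgroup.center (Matrix.SpecialLinearGroup (Fin 2) (ZMod 3))) ∧ ∃ Q : Subgroup (Matrix.SpecialLinearGroup (Fin 2) (ZMod 3)), Nat.card ↥Q = 3 ∧ ¬ (Q ≤ Cfsg.pPrimeCore 2 (Matrix.SpecialLinearGroup (Fin 2) (ZMod 3))) := by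
  refine ⟨?_, core_bot, ?_, ?_⟩
  · intro P
    haveI := H19.pPrimeCore_normal 2 SL23
    haveI := H19.pCore_normal 2 (SL23 ⧸ Cfsg.pPrimeCore 2 SL23)
    have hQ : quat ≤ Cfsg.pPrimePCore 2 SL23 := by
      rw [Cfsg.pPrimePCore, ← Subgroup.map_le_iff_le_comap]
      exact H19.le_pCore (Subgroup.Normal.map quat_normal _ (QuotientGroup.mk'_surjective _))
        (quat_pgroup.map _)
    haveI := quat_normal
    haveI : (quat.subgroupOf (Cfsg.pPrimePCore 2 SL23)).Normal := Subgroup.normal_subgroupOf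
    have hp : quat.subgroupOf (Cfsg.pPrimePCore 2 SL23) ≤ (P : Subgroup _) :=
      (H19.le_pCore inferInstance (quat_pgroup.comap_of_injective _ (Subgroup.subtype_injective _))).trans
        (H19.pCore_le_sylow P)
    intro x hx
    apply hQ
    refine (show ∀ x : SL23, (∀ y : SL23, y ^ 4 = 1 → x * y = y * x) → x ^ 4 = 1 by decide +kernel) x ?_
    intro y hy
    exact (Subgroup.mem_centralizer_iff.mp hx y ⟨⟨y, hQ hy⟩, hp hy, rfl⟩).symm
  · intro t ht
    rw [Subgroup.mem_center_iff]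
    intro g
    have ht2 : t ^ 2 = 1 := orderOf_dvd_iff_pow_eq_one.mp (dvd_of_eq ht)
    exact (show ∀ t g : SL23, t ^ 2 = 1 → g * t = t * g by decide +kernel) t g ht2
  · obtain ⟨x, hx⟩ := exists_prime_orderOf_dvd_card' (G := SL23) 3 (by rw [card_sl23]; norm_num)
    refine ⟨Subgroup.zpowers x, by rw [Nat.card_zpowers, hx], ?_⟩
    rw [core_bot, le_bot_iff, Subgroup.zpowers_eq_bot]
    intro h; rw [h, orderOf_one] at hx; omega

end Cfsg.Agent.S1303
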