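import Cfsg.Statements.S1304
import Mathlib

set_option autoImplicit false
open Cfsg
open scoped commutatorElement

namespace Cfsg.Agent.S1304

/-- Let X be a perfect group and α an automorphism of X with α(x) x⁻¹ central for every x. Then α is the identity. -/
theorem result {X : Type*} [Group X] (hperf : commutator X = ⊤) (α : X ≃* X) (h : ∀ x : X, α x * x⁻¹ ∈ Subgroup.center X) : ∀ x : X, α x = x := by
  intro x
  have hc : commutator X ≤ MonoidHom.eqLocus α.toMonoidHom (MonoidHom.id X) := by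
    rw [commutator_def, Subgroup.commutator_le]
    intro a _ b _
    change α ⁅a, b⁆ = ⁅a, b⁆
    have ha := Subgroup.mem_center_iff.mp (h a)
    have hb := Subgroup.mem_center_iff.mp (h b)
    have ea : α a = (α a * a⁻¹) * a := by group
    have eb : α b = (α b * b⁻¹) * b := by group
    rw [commutatorElement_def, map_mul, map_mul, map_mul, map_inv, map_inv, ea, eb]
    set u := α a * a⁻¹
    set v := α b * b⁻¹
    calc u * a * (v * b) * (u * a)⁻¹ * (v * b)⁻¹
        = u * (a * v) * b * a⁻¹ * u⁻¹ * b⁻¹ * v⁻¹ := by group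
      _ = u * (v * a) * b * a⁻¹ * u⁻¹ * b⁻¹ * v⁻¹ := by rw [hb a]
      _ = (u * (v * (a * b * a⁻¹))) * u⁻¹ * b⁻¹ * v⁻¹ := by group
      _ = ((v * (a * b * a⁻¹)) * u) * u⁻¹ * b⁻¹ * v⁻¹ := by rw [ha (v * (a * b * a⁻¹))]
      _ = (v * (a * b * a⁻¹ * b⁻¹)) * v⁻¹ := by group
      _ = ((a * b * a⁻¹ * b⁻¹) * v) * v⁻¹ := by rw [hb (a * b * a⁻¹ * b⁻¹)]
      _ = a * b * a⁻¹ * b⁻¹ := by group
  exact hc (hperf ▸ Subgroup.mem_top x)

end Cfsg.Agent.S1304
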