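import Cfsg.Statements.S1306
import Mathlib
import Cfsg.Agent.H51.Component

set_option autoImplicit false
open Cfsg

namespace Cfsg.Agent.S1306

variable {G : Type*} [Group G]

/-- A conjugate of a component of `C(y)` is a component of the conjugate centraliser. -/
theorem component_centralizer_conj (g y : G) (L : Subgroup G)
    (hle : L ≤ Subgroup.centralizer ({y} : Set G))
    (hL : Cfsg.IsComponent (L.subgroupOf (Subgroup.centralizer ({y} : Set G)))) :
    L.map (MulAut.conj g).toMonoidHom ≤ Subgroup.centralizer ({g * y * g⁻¹} : Set G) ∧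
      Cfsg.IsComponent ((L.map (MulAut.conj g).toMonoidHom).subgroupOf
        (Subgroup.centralizer ({g * y * g⁻¹} : Set G))) := by
  have hmap : (Subgroup.centralizer ({y} : Set G)).map (MulAut.conj g).toMonoidHom =
      Subgroup.centralizer ({g * y * g⁻¹} : Set G) := by
    ext x
    rw [Subgroup.mem_map, Subgroup.mem_centralizer_singleton_iff]
    constructor
    · rintro ⟨c, hc, rfl⟩
      rw [Subgroup.mem_centralizer_singleton_iff] at hc
      change (MulAut.conj g).toMonoidHom c * (MulAut.conj g).toMonoidHom y = (MulAut.conj g).toMonoidHom y * (MulAut.conj g).toMonoidHom c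
      rw [← map_mul, hc, map_mul]
    · intro hx
      refine ⟨g⁻¹ * x * g, ?_, by simp [mul_assoc]⟩
      rw [Subgroup.mem_centralizer_singleton_iff]
      calc g⁻¹ * x * g * y = g⁻¹ * (x * (g * y * g⁻¹)) * g := by group
        _ = g⁻¹ * ((g * y * g⁻¹) * x) * g := by rw [hx]
        _ = y * (g⁻¹ * x * g) := by group
  have hle' := (Subgroup.map_mono (f := (MulAut.conj g).toMonoidHom) hle).trans hmap.le
  refine ⟨hle', ?_⟩
  let e : ↥(Subgroup.centralizer ({y} : Set G)) ≃* ↥(Subgroup.centralizer ({g * y * g⁻¹} : Set G)) :=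
    (Subgroup.equivMapOfInjective _ _ (MulAut.conj g).injective).trans (MulEquiv.subgroupCongr hmap)
  have h1 := H51.component_map_equiv hL e
  convert h1 using 1
  apply Subgroup.map_injective (Subgroup.subtype_injective _)
  rw [Subgroup.map_subgroupOf_eq_of_le hle', Subgroup.map_map]
  conv_lhs => rw [← Subgroup.map_subgroupOf_eq_of_le hle, Subgroup.map_map]
  rfl

/-- Two components of one centraliser coincide or commute. -/
theorem eq_or_commute_of_component (y : G) (L M : Subgroup G)
    (hL : L ≤ Subgroup.centralizer ({y} : Set G)) (hM : M ≤ Subgroup.centralizer ({y} : Set G))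
    (hL' : Cfsg.IsComponent (L.subgroupOf (Subgroup.centralizer ({y} : Set G))))
    (hM' : Cfsg.IsComponent (M.subgroupOf (Subgroup.centralizer ({y} : Set G)))) :
    L = M ∨ ⁅L, M⁆ = ⊥ := by
  rcases H51.component_eq_or_commute hL' hM' with h | h
  · left
    rw [← Subgroup.map_subgroupOf_eq_of_le hL, h, Subgroup.map_subgroupOf_eq_of_le hM]
  · right
    rw [← Subgroup.map_subgroupOf_eq_of_le hL, ← Subgroup.map_subgroupOf_eq_of_le hM,
      ← Subgroup.map_commutator, h, Subgroup.map_bot]

/-- Let G be finite, x an involution and L ≤ C_G(x) a component of C_G(x). Suppose L is a component of C_G(y) for every involution y ∈ C_G(L), and ⁅L, g L g⁻¹⁆ ≠ 1 whenever g L g⁻¹ ≠ L. Then L is a standard subgroup of G. -/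
theorem result {G : Type*} [Group G] [Finite G] (x : G) (hx : orderOf x = 2) (L : Subgroup G) (hLx : L ≤ Subgroup.centralizer ({x} : Set G)) (hL : Cfsg.IsComponent (L.subgroupOf (Subgroup.centralizer ({x} : Set G)))) (hne : ∀ y : G, orderOf y = 2 → y ∈ Subgroup.centralizer (L : Set G) → L ≤ Subgroup.centralizer ({y} : Set G) ∧ Cfsg.IsComponent (L.subgroupOf (Subgroup.centralizer ({y} : Set G)))) (hnc : ∀ g : G, L.map (MulAut.conj g).toMonoidHom ≠ L → ⁅L, L.map (MulAut.conj g).toMonoidHom⁆ ≠ ⊥) : Cfsg.IsStandardSubgroup L := by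
  have hmemN : ∀ g : G, L.map (MulAut.conj g).toMonoidHom = L → g ∈ Subgroup.normalizer (L : Set G) := by
    intro g hg
    rw [Subgroup.mem_normalizer_iff]
    intro k
    constructor
    · intro hk
      have h1 : g * k * g⁻¹ ∈ L.map (MulAut.conj g).toMonoidHom := ⟨k, hk, rfl⟩
      rwa [hg] at h1
    · intro hk
      rw [← hg] at hk
      obtain ⟨u, hu, he⟩ := hk
      exact (mul_left_cancel (mul_right_cancel he) : u = k) ▸ hu
  have hle : Subgroup.normalizer (L : Set G) ≤
      Subgroup.normalizer (Subgroup.centralizer (L : Set G) : Set G) := by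
    rw [Subgroup.le_normalizer_iff]
    intro g hg c hc
    rw [Subgroup.mem_centralizer_iff] at hc ⊢
    intro l hl
    have h1 : g⁻¹ * l * g ∈ L := by simpa using ((Subgroup.mem_normalizer_iff.mp (inv_mem hg)) l).mp hl
    calc l * (g * c * g⁻¹) = g * ((g⁻¹ * l * g) * c) * g⁻¹ := by group
      _ = g * (c * (g⁻¹ * l * g)) * g⁻¹ := by rw [hc _ h1]
      _ = g * c * g⁻¹ * l := by group
  have hxC : x ∈ Subgroup.centralizer (L : Set G) := Subgroup.mem_centralizer_iff.mpr
    fun l hl => Subgroup.mem_centralizer_singleton_iff.mp (hLx hl)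
  refine ⟨H51.quasisimple_of_equiv hL.2 (Subgroup.subgroupOfEquivOfLe hLx), ⟨?_, ?_⟩, hnc, ?_⟩
  · rw [even_iff_two_dvd, ← hx]
    exact Subgroup.orderOf_dvd_natCard _ hxC
  · intro g hg
    by_contra hodd
    rw [Nat.not_odd_iff_even, even_iff_two_dvd] at hodd
    haveI : Fact (Nat.Prime 2) := ⟨Nat.prime_two⟩
    obtain ⟨y, hy⟩ := exists_prime_orderOf_dvd_card' (G := ↥(Subgroup.centralizer (L : Set G) ⊓
      (Subgroup.centralizer (L : Set G)).map (MulAut.conj g).toMonoidHom)) 2 hodd
    obtain ⟨hy1, u, huC, hu⟩ := y.2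
    have hyo : orderOf (y : G) = 2 := by rw [Subgroup.orderOf_coe]; exact hy
    have huo : orderOf u = 2 := by
      rw [← hyo, ← hu]; exact (orderOf_injective (MulAut.conj g).toMonoidHom (MulAut.conj g).injective u).symm
    obtain ⟨h1, h2⟩ := hne _ hyo hy1
    obtain ⟨h3, h4⟩ := component_centralizer_conj g u L (hne u huo huC).1 (hne u huo huC).2
    have he : g * u * g⁻¹ = (y : G) := hu
    rw [he] at h3 h4
    have hgL : L.map (MulAut.conj g).toMonoidHom ≠ L := fun h => hg (hle (hmemN g h))
    rcases eq_or_commute_of_component _ _ _ h1 h3 h2 h4 with h | h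
    · exact hgL h.symm
    · exact hnc g hgL h
  · refine le_antisymm hle fun g hg => ?_
    have hy : g⁻¹ * x * g ∈ Subgroup.centralizer (L : Set G) := by
      simpa using ((Subgroup.mem_normalizer_iff.mp (inv_mem hg)) x).mp hxC
    have hyo : orderOf (g⁻¹ * x * g) = 2 := by
      rw [← hx]
      simpa using orderOf_injective (MulAut.conj g⁻¹).toMonoidHom (MulAut.conj g⁻¹).injective x
    obtain ⟨h1, h2⟩ := component_centralizer_conj g _ L (hne _ hyo hy).1 (hne _ hyo hy).2
    rw [show g * (g⁻¹ * x * g) * g⁻¹ = x by group] at h1 h2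
    by_contra h
    have hne' : L.map (MulAut.conj g).toMonoidHom ≠ L := fun h' => h (hmemN g h')
    rcases eq_or_commute_of_component x _ _ hLx h1 hL h2 with h' | h'
    · exact hne' h'.symm
    · exact hnc g hne' h'

end Cfsg.Agent.S1306
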