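import Cfsg.Statements.S1307
import Cfsg.Agent.H28.TwoRankOne
import Cfsg.Agent.H51.Component

set_option autoImplicit false
open Cfsg
open scoped commutatorElement IsMulCommutative

namespace Cfsg.Agent.S1307

/-- Let G be finite, x an involution and L ≤ C_G(x) a component of C_G(x) of even order and 2-rank 1, such that L is a component of C_G(y) for every involution y ∈ C_G(L). Then some involution of L is a classical involution of G. -/
theorem result {G : Type*} [Group G] [Finite G] (x : G) (hx : orderOf x = 2) (L : Subgroup G) (hLx : L ≤ Subgroup.centralizer ({x} : Set G)) (hL : Cfsg.IsComponent (L.subgroupOf (Subgroup.centralizer ({x} : Set G)))) (heven : Even (Nat.card ↥L)) (hrk : Cfsg.PRankLE 2 1 ↥L) (hne : ∀ y : G, orderOf y = 2 → y ∈ Subgroup.centralizer (L : Set G) → L ≤ Subgroup.centralizer ({y} : Set G) ∧ Cfsg.IsComponent (L.subgroupOf (Subgroup.centralizer ({y} : Set G)))) : ∃ t ∈ L, Cfsg.IsClassicalInvolution t := by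
  haveI := Fact.mk Nat.prime_two
  have hq : Cfsg.IsQuasisimple ↥L :=
    Cfsg.Agent.H51.quasisimple_of_equiv hL.2 (Subgroup.subgroupOfEquivOfLe hLx)
  haveI := hq.1
  haveI := Cfsg.Agent.H51.quasisimple_nontrivial hq
  obtain ⟨P⟩ : Nonempty (Sylow 2 ↥L) := inferInstance
  obtain ⟨z, hz⟩ := exists_prime_orderOf_dvd_card' (G := ↥(P : Subgroup ↥L)) 2 (by
    rw [P.card_eq_multiplicity]
    exact dvd_pow_self 2 (Nat.Prime.factorization_pos_of_dvd Nat.prime_two Nat.card_pos.ne'
      (even_iff_two_dvd.mp heven)).ne')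
  have hzc : ∃ w : ↥(P : Subgroup ↥L), orderOf w = 2 ∧ ∀ v : ↥(P : Subgroup ↥L), w * v = v * w := by
    haveI : Nontrivial ↥(P : Subgroup ↥L) := ⟨⟨z, 1, fun h => by rw [h, orderOf_one] at hz; omega⟩⟩
    haveI := P.isPGroup'.center_nontrivial
    obtain ⟨k, hk, hk'⟩ := (P.isPGroup'.to_subgroup (Subgroup.center ↥(P : Subgroup ↥L))).nontrivial_iff_card.mp inferInstance
    obtain ⟨w, hw⟩ := exists_prime_orderOf_dvd_card' (G := Subgroup.center ↥(P : Subgroup ↥L)) 2 (hk' ▸ dvd_pow_self 2 hk.ne')
    exact ⟨w, by rw [Subgroup.orderOf_coe]; exact hw, fun v => (Subgroup.mem_center_iff.mp w.2 v).symm⟩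
  obtain ⟨w, hw, hwc⟩ := hzc
  set u : ↥L := (w : ↥L) with hu
  have huo : orderOf u = 2 := by rw [hu, Subgroup.orderOf_coe]; exact hw
  have huniq : ∀ v ∈ (P : Subgroup ↥L), orderOf v = 2 → v = u := by
    intro v hv hvo
    by_contra hne'
    have hcomm : Commute u v := congrArg Subtype.val (hwc ⟨v, hv⟩)
    set V := Subgroup.closure ({u, v} : Set ↥L) with hV
    have hVc : IsMulCommutative ↥V := by
      refine Subgroup.isMulCommutative_closure ?_
      rintro a (rfl | rfl) b (rfl | rfl)
      · rfl
      · exact hcomm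
      · exact hcomm.symm
      · rfl
    have hV2 : ∀ a ∈ V, a ^ 2 = 1 := by
      intro a ha
      induction ha using Subgroup.closure_induction with
      | mem b hb =>
        rcases hb with rfl | rfl
        · exact huo ▸ pow_orderOf_eq_one _
        · exact hvo ▸ pow_orderOf_eq_one _
      | one => simp
      | mul a b ha' hb' iha ihb =>
        have hab : Commute a b := congrArg Subtype.val (mul_comm' (⟨a, ha'⟩ : ↥V) ⟨b, hb'⟩)
        rw [hab.mul_pow, iha, ihb, one_mul]
      | inv a _ iha => rw [inv_pow, iha, inv_one]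
    have hle := hrk V hVc hV2
    have h4 : 2 < Nat.card ↥V := by
      haveI := Fintype.ofFinite ↥V
      rw [Nat.card_eq_fintype_card, Fintype.two_lt_card_iff]
      refine ⟨1, ⟨u, Subgroup.subset_closure (by simp)⟩, ⟨v, Subgroup.subset_closure (by simp)⟩, ?_, ?_, ?_⟩
      · intro h
        have h' : (1 : ↥L) = u := congrArg Subtype.val h
        rw [← h', orderOf_one] at huo; omega
      · intro h
        have h' : (1 : ↥L) = v := congrArg Subtype.val h
        rw [← h', orderOf_one] at hvo; omega
      · exact fun h => hne' (congrArg Subtype.val h).symm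
    omega
  have hcen : u ∈ Subgroup.center ↥L := by
    have hcore : Cfsg.pPrimeCore 2 ↥L ≤ Subgroup.center ↥L := by
      haveI := Cfsg.Agent.H51.pPrimeCore_normal 2 ↥L
      rcases Cfsg.Agent.H51.quasisimple_eq_top_or_le_center_of_normal hq (Cfsg.pPrimeCore 2 ↥L) with h | h
      · exfalso
        have hc := Cfsg.Agent.H51.pPrimeCore_coprime 2 ↥L
        rw [h, Subgroup.card_top] at hc
        exact (Nat.prime_two.coprime_iff_not_dvd.mp hc.symm) (even_iff_two_dvd.mp heven)
      · exact h
    have h := fun g => hcore (Cfsg.Agent.H28.central_mod_core_of_unique_involution P huo w.2 huniq g)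
    have h1 : ⁅Subgroup.zpowers u, (⊤ : Subgroup ↥L)⁆ ≤ Subgroup.center ↥L := by
      rw [Subgroup.commutator_le]
      rintro _ ⟨i, rfl⟩ g _
      rcases Int.even_or_odd i with he | ho
      · obtain ⟨j, rfl⟩ := he
        have : u ^ (j + j) = 1 := by
          rw [← two_mul, zpow_mul]
          have : u ^ (2 : ℤ) = 1 := by have h2 := pow_orderOf_eq_one u; rw [huo] at h2; exact_mod_cast h2
          rw [this, one_zpow]
        simp only [this, commutatorElement_one_left]
        exact Subgroup.one_mem _
      · obtain ⟨j, rfl⟩ := ho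
        have : u ^ (2 * j + 1) = u := by
          rw [zpow_add, zpow_mul]
          have : u ^ (2 : ℤ) = 1 := by have h2 := pow_orderOf_eq_one u; rw [huo] at h2; exact_mod_cast h2
          rw [this, one_zpow, one_mul, zpow_one]
        simp only [this]
        exact h g
    have h2 : ⁅(⊤ : Subgroup ↥L), Subgroup.zpowers u⁆ = ⊥ :=
      Cfsg.Agent.H51.commutator_eq_bot_of_perfect (Subgroup.commutator_top_right_eq_bot_iff_le_center.mpr h1)
    exact Subgroup.commutator_top_left_eq_bot_iff_le_center.mp h2 (Subgroup.mem_zpowers u)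
  have hquat : ∃ n : ℕ, Nonempty (↥(P : Subgroup ↥L) ≃* QuaternionGroup (2 ^ (n + 1))) := by
    refine (Cfsg.Agent.H28.cyclic_or_quat_of_unique P.isPGroup' huniq).resolve_left fun hc => ?_
    have hmin : (Nat.card ↥L).minFac = 2 := (Nat.minFac_eq_two_iff _).mpr (even_iff_two_dvd.mp heven)
    have hcomp := IsCyclic.isComplement' hmin hc
    set f := MonoidHom.transferSylow P (hc.normalizer_le_centralizer hmin) with hf
    have hker : f.ker = ⊤ := by
      apply top_unique
      rw [← Group.IsPerfect.commutator_eq_top (G := ↥L), commutator_def, Subgroup.commutator_le]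
      intro a _ b _
      haveI : IsMulCommutative ↥(P : Subgroup ↥L) := inferInstance
      rw [MonoidHom.mem_ker, map_commutatorElement, commutatorElement_eq_one_iff_mul_comm]
      exact mul_comm' _ _
    rw [hker, Subgroup.isComplement'_top_left] at hcomp
    have : (w : ↥L) ∈ (⊥ : Subgroup ↥L) := hcomp.le w.2
    rw [Subgroup.mem_bot] at this
    rw [hu, this, orderOf_one] at huo
    omega
  set t : G := (u : G) with ht
  have hto : orderOf t = 2 := by rw [ht, Subgroup.orderOf_coe]; exact huo
  obtain ⟨hLt, hLc⟩ := hne t hto (Subgroup.mem_centralizer_iff.mpr fun l hl =>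
    congrArg Subtype.val (Subgroup.mem_center_iff.mp hcen ⟨l, hl⟩))
  obtain ⟨n, e⟩ := hquat
  exact ⟨t, u.2, hto, L, hLt, u.2, hLc.1, P, n, e⟩

end Cfsg.Agent.S1307
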