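import Cfsg.Statements.S1314
import Cfsg.Agent.H51.LocalLayer

set_option autoImplicit false
open Cfsg
open Cfsg.Agent.H51
open scoped commutatorElement

namespace Cfsg.Agent.S1314

/-- Let x be an involution of a group G and L a perfect subgroup with ⁅L, x L x⁻¹⁆ = 1. Then l ↦ l (x l x⁻¹) is a group homomorphism π from L to G whose kernel is central in L and whose image lies in C_G(x); and the commutator subgroup of C_{L ⊔ xLx⁻¹}(x) equals the image of π. -/
theorem result {G : Type*} [Group G] [Finite G] (x : G) (hx : orderOf x = 2) (L : Subgroup G) (hperf : ⁅L, L⁆ = L) (hcomm : ⁅L, L.map (MulAut.conj x).toMonoidHom⁆ = ⊥) : ∃ π : ↥L →* G, (∀ l : ↥L, π l = (l : G) * (x * (l : G) * x⁻¹)) ∧ π.ker ≤ Subgroup.center ↥L ∧ π.range ≤ Subgroup.centralizer ({x} : Set G) ∧ ⁅(L ⊔ L.map (MulAut.conj x).toMonoidHom) ⊓ Subgroup.centralizer ({x} : Set G), (L ⊔ L.map (MulAut.conj x).toMonoidHom) ⊓ Subgroup.centralizer ({x} : Set G)⁆ = π.range := by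
  set L' := L.map (MulAut.conj x).toMonoidHom
  have hx2 : x * x = 1 := by rw [← pow_two, ← hx, pow_orderOf_eq_one]
  have hxinv : x⁻¹ = x := inv_eq_of_mul_eq_one_right hx2
  have hc : ∀ a ∈ L, ∀ b ∈ L', a * b = b * a := fun a ha b hb =>
    (Subgroup.mem_centralizer_iff.mp
      (Subgroup.commutator_eq_bot_iff_le_centralizer.mp hcomm ha) b hb).symm
  have hmem : ∀ a ∈ L, x * a * x⁻¹ ∈ L' := fun a ha => ⟨a, ha, rfl⟩
  let π : ↥L →* G :=
    { toFun := fun l => (l : G) * (x * (l : G) * x⁻¹)
      map_one' := by simp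
      map_mul' := fun a b => by
        have h := hc b b.2 _ (hmem a a.2)
        calc ((a * b : ↥L) : G) * (x * ((a * b : ↥L) : G) * x⁻¹)
            = (a : G) * ((b : G) * (x * (a : G) * x⁻¹)) * (x * (b : G) * x⁻¹) := by
              push_cast; group
          _ = (a : G) * ((x * (a : G) * x⁻¹) * (b : G)) * (x * (b : G) * x⁻¹) := by rw [h]
          _ = _ := by group }
  have hπ : ∀ l : ↥L, π l = (l : G) * (x * (l : G) * x⁻¹) := fun _ => rfl
  have hrange : π.range ≤ Subgroup.centralizer ({x} : Set G) := by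
    rintro _ ⟨l, rfl⟩
    rw [Subgroup.mem_centralizer_singleton_iff, hπ]
    calc (l : G) * (x * (l : G) * x⁻¹) * x = x * (x * (l : G) * x⁻¹ * (l : G)) := by
          rw [hc l l.2 _ (hmem l l.2)]
          simp only [hxinv]
          calc x * (l : G) * x * (l : G) * x = 1 * (x * (l : G) * x * (l : G) * x) := (one_mul _).symm
            _ = x * x * (x * (l : G) * x * (l : G) * x) := by rw [hx2]
            _ = x * (x * (x * (l : G) * x) * (l : G) * x) := by group
            _ = x * ((x * x) * (l : G) * x * (l : G) * x) := by group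
            _ = x * ((l : G) * (x * (l : G) * x)) := by rw [hx2]; group
            _ = _ := by rw [hc l l.2 _ (by simpa [hxinv] using hmem l l.2)]
      _ = x * ((l : G) * (x * (l : G) * x⁻¹)) := by rw [hc l l.2 _ (hmem l l.2)]
  refine ⟨π, hπ, ?_, hrange, ?_⟩
  · intro l hl
    rw [Subgroup.mem_center_iff]
    intro g
    have h1 : (l : G) = (x * (l : G) * x⁻¹)⁻¹ := eq_inv_of_mul_eq_one_left (MonoidHom.mem_ker.mp hl)
    refine Subtype.ext ?_
    push_cast
    rw [h1]
    exact hc g g.2 _ (inv_mem (hmem l l.2))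
  · set M := L ⊔ L'
    set D := M ⊓ Subgroup.centralizer ({x} : Set G)
    have hRM : π.range ≤ M := by
      rintro _ ⟨l, rfl⟩
      exact Subgroup.mul_mem_sup l.2 (hmem l l.2)
    apply le_antisymm
    · have hLn : L ≤ Subgroup.normalizer (L' : Set G) :=
        (Subgroup.commutator_eq_bot_iff_le_centralizer.mp hcomm).trans (centralizer_le_normalizer' L')
      have hdec : ∀ d ∈ D, ∃ r ∈ π.range, ∃ z : G, (∀ m ∈ M, m * z = z * m) ∧ d = r * z := by
        intro d hd
        have hd' : d ∈ ((L ⊔ L' : Subgroup G) : Set G) := hd.1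
        rw [Subgroup.coe_mul_of_left_le_normalizer_right L L' hLn] at hd'
        obtain ⟨a, ha, _, ⟨b, hb, rfl⟩, rfl⟩ := hd'
        simp only [MulEquiv.toMonoidHom_eq_coe, MonoidHom.coe_coe, MulAut.conj_apply] at hd ⊢
        have h1 := Subgroup.mem_centralizer_singleton_iff.mp hd.2
        -- conjugation by `x` swaps the factors
        have h2 : b * (x * a * x⁻¹) = a * (x * b * x⁻¹) := by
          calc b * (x * a * x⁻¹) = (x * a * x⁻¹) * b := hc b hb _ (hmem a ha)
            _ = x * (a * (x * b * x⁻¹)) * x⁻¹ := by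
                simp only [hxinv]
                calc x * a * x * b = x * a * x * b * (x * x) := by rw [hx2, mul_one]
                  _ = _ := by group
            _ = a * (x * b * x⁻¹) := by rw [← h1, mul_inv_cancel_right]
        have h3 : a⁻¹ * b = (x * b * x⁻¹) * (x * a * x⁻¹)⁻¹ := by
          rw [eq_mul_inv_iff_mul_eq, mul_assoc, h2, inv_mul_cancel_left]
        refine ⟨π ⟨a, ha⟩, ⟨_, rfl⟩, x * (a⁻¹ * b) * x⁻¹, ?_, ?_⟩
        · have hzL : x * (a⁻¹ * b) * x⁻¹ ∈ L := by
            have : x * (x * b * x⁻¹ * (x * a * x⁻¹)⁻¹) * x⁻¹ = b * a⁻¹ := by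
              simp only [hxinv, mul_inv_rev]
              calc x * (x * b * x * (x * (a⁻¹ * x))) * x = (x * x) * b * (x * x) * a⁻¹ * (x * x) := by group
                _ = b * a⁻¹ := by rw [hx2]; group
            rw [h3, this]
            exact mul_mem hb (inv_mem ha)
          have hzL' : x * (a⁻¹ * b) * x⁻¹ ∈ L' := hmem _ (mul_mem (inv_mem ha) hb)
          have h4 : M ≤ Subgroup.centralizer ({x * (a⁻¹ * b) * x⁻¹} : Set G) := sup_le
            (fun m hm => Subgroup.mem_centralizer_singleton_iff.mpr (hc m hm _ hzL'))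
            (fun m hm => Subgroup.mem_centralizer_singleton_iff.mpr (hc _ hzL m hm).symm)
          exact fun m hm => Subgroup.mem_centralizer_singleton_iff.mp (h4 hm)
        · rw [hπ]
          group
      have hrr : π.range = ⁅π.range, π.range⁆ := by
        haveI : Group.IsPerfect ↥L := Subgroup.isPerfect_iff.mpr hperf
        haveI : Group.IsPerfect ↥π.range := Group.IsPerfect.range π
        exact (Subgroup.commutator_eq_self).symm
      rw [hrr, Subgroup.commutator_le]
      intro g hg h hh
      obtain ⟨r, hr, z, hz, rfl⟩ := hdec g hg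
      obtain ⟨s, hs, w, hw, rfl⟩ := hdec h hh
      have : ⁅r * z, s * w⁆ = ⁅r, s⁆ := by
        rw [commutatorElement_def, commutatorElement_def, mul_inv_rev, mul_inv_rev]
        calc r * z * (s * w) * (z⁻¹ * r⁻¹) * (w⁻¹ * s⁻¹)
            = r * (z * (s * w)) * (z⁻¹ * r⁻¹) * (w⁻¹ * s⁻¹) := by group
          _ = r * (s * w) * r⁻¹ * (w⁻¹ * s⁻¹) := by rw [← hz _ hh.1]; group
          _ = r * s * (w * r⁻¹) * (w⁻¹ * s⁻¹) := by group
          _ = r * s * r⁻¹ * s⁻¹ := by rw [← hw _ (inv_mem (hRM hr))]; group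
      rw [this]
      exact Subgroup.commutator_mem_commutator hr hs
    · haveI : Group.IsPerfect ↥L := Subgroup.isPerfect_iff.mpr hperf
      haveI : Group.IsPerfect ↥π.range := Group.IsPerfect.range π
      exact (Subgroup.commutator_eq_self (H := π.range)).ge.trans
        (Subgroup.commutator_mono (le_inf hRM hrange) (le_inf hRM hrange))

end Cfsg.Agent.S1314
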