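import Cfsg.Statements.S1316
import Cfsg.Agent.H51.FStar

set_option autoImplicit false
open Cfsg
open Cfsg.Agent.H51

namespace Cfsg.Agent.S1316

/-- For a finite group X, E(X) equals the intersection of the derived series of F*(X) (its last term). -/
theorem result {X : Type*} [Group X] [Finite X] : (⨅ n : ℕ, (derivedSeries ↥(Cfsg.generalizedFittingSubgroup X) n).map (Cfsg.generalizedFittingSubgroup X).subtype) = Cfsg.layer X := by
  set W := Cfsg.generalizedFittingSubgroup X
  haveI := layer_normal X
  apply le_antisymm
  · let q : ↥W →* X ⧸ Cfsg.layer X := (QuotientGroup.mk' (Cfsg.layer X)).comp W.subtype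
    haveI := fittingSubgroup_isSolvable X
    have hW : q.range = (Cfsg.fittingSubgroup X).map (QuotientGroup.mk' (Cfsg.layer X)) := by
      rw [MonoidHom.range_comp, Subgroup.range_subtype, show W = Cfsg.layer X ⊔ Cfsg.fittingSubgroup X
        from rfl, Subgroup.map_sup, QuotientGroup.map_mk'_self, bot_sup_eq]
    have hs : Group.IsSolvable q.range := by
      rw [hW]
      exact Group.isSolvable_of_surjective ((QuotientGroup.mk' (Cfsg.layer X)).subgroupMap_surjective
        (Cfsg.fittingSubgroup X))
    obtain ⟨n, hn⟩ := (Group.isSolvable_def _).mp hs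
    refine (iInf_le _ n).trans ?_
    rintro _ ⟨x, hx, rfl⟩
    have h := map_derivedSeries_le_derivedSeries q.rangeRestrict n ⟨x, hx, rfl⟩
    rw [hn, Subgroup.mem_bot, Subtype.ext_iff] at h
    exact (QuotientGroup.eq_one_iff _).mp h
  · refine le_iInf fun n => ?_
    induction n with
    | zero =>
      rw [derivedSeries_zero, ← MonoidHom.range_eq_map, Subgroup.range_subtype]
      exact layer_le_generalizedFitting X
    | succ n ih =>
      rw [derivedSeries_succ, Subgroup.map_commutator, ← layer_commutator_self X]
      exact Subgroup.commutator_mono ih ih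

end Cfsg.Agent.S1316
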