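import Cfsg.Statements.S1321
import Cfsg.Agent.H51.FStar

set_option autoImplicit false
open Cfsg
open Cfsg.Agent.H51
open scoped commutatorElement

namespace Cfsg.Agent.S1321

/-- Let X be finite and U ≤ X. Then E(X) is generated by C_{E(X)}(U) together with ⁅E(X), U⁆ (indeed it is their product, ⁅E(X), U⁆ being normal in E(X)). -/
theorem result {X : Type*} [Group X] [Finite X] (U : Subgroup X) : Cfsg.layer X = (Cfsg.layer X ⊓ Subgroup.centralizer (U : Set X)) ⊔ ⁅Cfsg.layer X, U⁆ ∧ ⁅Cfsg.layer X, U⁆ ≤ Cfsg.layer X := by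
  haveI := layer_normal X
  set E := Cfsg.layer X
  have hI : ⁅E, U⁆ ≤ E := Subgroup.commutator_le_left _ _
  refine ⟨le_antisymm (sSup_le fun L hL => ?_) (sup_le inf_le_left hI), hI⟩
  have hLE : L ≤ E := component_le_layer hL
  haveI := hL.2.1
  rcases component_le_or_commute_of_le_normalizer hL
    (hLE.trans (Subgroup.normalizer_commutator_ge_left E U)) with h | h
  · exact h.trans le_sup_right
  refine le_trans ?_ le_sup_left
  refine le_inf hLE (Subgroup.commutator_eq_bot_iff_le_centralizer.mp ?_)
  have hfix : ∀ u ∈ U, L.map (MulAut.conj u).toMonoidHom = L := by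
    intro u hu
    have hc := component_map_conj hL u
    rcases component_eq_or_commute hc hL with h1 | h1
    · exact h1
    exfalso
    have hle : L.map (MulAut.conj u).toMonoidHom ≤ L ⊔ ⁅E, U⁆ := by
      rintro _ ⟨l, hl, rfl⟩
      have e : ⁅l, u⁆⁻¹ * l = u * l * u⁻¹ := by rw [commutatorElement_def]; group
      show u * l * u⁻¹ ∈ L ⊔ ⁅E, U⁆
      rw [← e]
      exact mul_mem (Subgroup.mem_sup_right (inv_mem (Subgroup.commutator_mem_commutator (hLE hl) hu)))
        (Subgroup.mem_sup_left hl)
    rcases component_le_or_commute_of_le_normalizer hc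
      ((component_le_layer hc).trans (Subgroup.normalizer_commutator_ge_left E U)) with h2 | h2
    · refine component_ne_bot hL (le_bot_iff.mp ?_)
      have hLI : L ≤ ⁅E, U⁆ := by
        intro l hl
        have := (Subgroup.mem_normalizer_iff.mp
          (inv_mem (Subgroup.normalizer_commutator_ge_right E U hu)) (u * l * u⁻¹)).mp
          (h2 ⟨l, hl, rfl⟩)
        simpa [mul_assoc] using this
      have h' := Subgroup.commutator_mono (le_refl L) hLI
      rw [h, component_commutator_self hL] at h'
      exact h'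
    · refine quasisimple_commutator_ne_bot hc.2 (le_bot_iff.mp ?_)
      exact (Subgroup.commutator_mono le_rfl hle).trans (commutator_sup_right_eq_bot h1 h2).le
  refine commutator_eq_bot_of_perfect (le_bot_iff.mp ((Subgroup.commutator_mono ?_ le_rfl).trans
    (show ⁅⁅E, U⁆, L⁆ ≤ ⊥ by rw [Subgroup.commutator_comm, h])))
  rw [Subgroup.commutator_comm]
  exact Subgroup.commutator_mono hLE le_rfl

end Cfsg.Agent.S1321
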