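import Cfsg.Statements.S1324
import Cfsg.Agent.H20.Hyperplane

set_option autoImplicit false
open Cfsg

namespace Cfsg.Agent.S1324

/-- Let A be a noncyclic elementary abelian p-subgroup of a finite group H normalizing a subgroup X of order prime to p. Then X is generated by the subgroups X ∩ C_H(B), B ranging over the subgroups of A of index at most p. -/
theorem result {H : Type*} [Group H] [Finite H] (p : ℕ) [Fact p.Prime] (A X : Subgroup H) (hA : Cfsg.IsElementaryAbelian p A) (hA2 : p ^ 2 ≤ Nat.card ↥A) (hX : ¬ p ∣ Nat.card ↥X) (hAX : A ≤ Subgroup.normalizer (X : Set H)) : X = ⨆ B : {B : Subgroup H // B ≤ A ∧ B.relIndex A ≤ p}, X ⊓ Subgroup.centralizer ((B : Subgroup H) : Set H) := by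
  haveI := hA.1
  have hcop : (Nat.card A).Coprime (Nat.card X) := by
    have hp : IsPGroup p A := fun a => ⟨1, Subtype.ext (by simpa using hA.2 a a.2)⟩
    obtain ⟨n, hn⟩ := IsPGroup.iff_card.mp hp
    rw [hn]
    exact ((Fact.out : p.Prime).coprime_iff_not_dvd.mpr hX).pow_left n
  refine le_antisymm (Cfsg.Agent.H20.le_of_cocyclic_centralizers_le hAX hcop fun B hBA ⟨a, ha, hBa⟩ => ?_)
    (iSup_le fun B => inf_le_left)
  have hidx : B.relIndex A ≤ p := by
    have hap : a ^ p = 1 := hA.2 a ha
    let f : Fin p → A ⧸ B.subgroupOf A := fun i =>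
      QuotientGroup.mk (⟨a ^ (i : ℕ), pow_mem ha _⟩ : A)
    have hf : Function.Surjective f := by
      intro q
      obtain ⟨⟨x, hx⟩, rfl⟩ := QuotientGroup.mk_surjective q
      have hx' : x ∈ Subgroup.zpowers a ⊔ B := by rw [sup_comm, hBa]; exact hx
      obtain ⟨_, ⟨i, rfl⟩, b, hb, rfl⟩ : ∃ y ∈ Subgroup.zpowers a, ∃ b ∈ B, y * b = x := by
        rw [← SetLike.mem_coe, Subgroup.coe_mul_of_left_le_normalizer_right (Subgroup.zpowers a) B
          (by
            rw [Subgroup.le_normalizer_iff]
            intro g hg b hb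
            have e : g * b = b * g := congrArg Subtype.val
              (mul_comm' (⟨g, Subgroup.zpowers_le.mpr ha hg⟩ : A) ⟨b, hBA hb⟩)
            rwa [e, mul_inv_cancel_right])] at hx'
        exact Set.mem_mul.mp hx'
      have hp0 : (0 : ℤ) < p := by exact_mod_cast (Fact.out : p.Prime).pos
      have he : a ^ (i % (p : ℤ)).toNat = a ^ i := by
        rw [← zpow_natCast, Int.toNat_of_nonneg (Int.emod_nonneg _ hp0.ne')]
        conv_rhs => rw [← Int.emod_add_mul_ediv i p, zpow_add, zpow_mul, zpow_natCast, hap,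
          one_zpow, mul_one]
      refine ⟨⟨(i % (p : ℤ)).toNat, by
        have := Int.emod_lt_of_pos i hp0
        have := Int.emod_nonneg i hp0.ne'
        omega⟩, ?_⟩
      refine QuotientGroup.eq.mpr ?_
      rw [Subgroup.mem_subgroupOf]
      simp [he, hb]
    have h := Nat.card_le_card_of_surjective f hf
    rwa [Nat.card_fin] at h
  exact le_iSup_of_le ⟨B, hBA, hidx⟩ le_rfl

end Cfsg.Agent.S1324
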