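import Cfsg.Statements.S1328
import Cfsg.Agent.H52.LocalBalance

set_option autoImplicit false
open Cfsg
open scoped commutatorElement

namespace Cfsg.Agent.S1328

/-- Let G be finite, H ≤ G with O(H) = 1, t an involution of G normalizing H, and Y a nontrivial subgroup of O(C_H(t)). Then some component E of H is normalized by t and by Y and centralized by neither t nor Y. -/
theorem result {G : Type*} [Group G] [Finite G] (H : Subgroup G) (hO : Cfsg.oddCore ↥H = ⊥) (t : G) (ht : orderOf t = 2) (htH : t ∈ Subgroup.normalizer (H : Set G)) (Y : Subgroup G) (hY1 : Y ≠ ⊥) (hY : Y ≤ (Cfsg.oddCore ↥(H ⊓ Subgroup.centralizer ({t} : Set G))).map (H ⊓ Subgroup.centralizer ({t} : Set G)).subtype) : ∃ E : Subgroup ↥H, Cfsg.IsComponent E ∧ (E.map H.subtype).map (MulAut.conj t).toMonoidHom = E.map H.subtype ∧ Y ≤ Subgroup.normalizer ((E.map H.subtype : Subgroup G) : Set G) ∧ ¬ (t ∈ Subgroup.centralizer ((E.map H.subtype : Subgroup G) : Set G)) ∧ ¬ (Y ≤ Subgroup.centralizer ((E.map H.subtype : Subgroup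 G) : Set G)) := by
  haveI : Fact (Nat.Prime 2) := ⟨Nat.prime_two⟩
  set M := H ⊔ Subgroup.zpowers t
  have hMN : M ≤ Subgroup.normalizer (H : Set G) := sup_le Subgroup.le_normalizer (Subgroup.zpowers_le.mpr htH)
  set H' := H.subgroupOf M
  haveI hH'n : H'.Normal := (Subgroup.normal_subgroupOf_iff_le_normalizer le_sup_left).mpr hMN
  have htM : t ∈ M := Subgroup.mem_sup_right (Subgroup.mem_zpowers t)
  let q := QuotientGroup.mk' H'
  let tq : ↥M ⧸ H' := q ⟨t, htM⟩
  -- the quotient `M / H` is generated by the image of `t`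
  have hgen : ∀ y : ↥M ⧸ H', y ∈ Subgroup.zpowers tq := by
    intro y
    obtain ⟨m, rfl⟩ := QuotientGroup.mk'_surjective H' y
    have hm : (m : G) ∈ ((H ⊔ Subgroup.zpowers t : Subgroup G) : Set G) := m.2
    rw [Subgroup.coe_mul_of_right_le_normalizer_left H _ (Subgroup.zpowers_le.mpr htH)] at hm
    obtain ⟨a, ha, b, ⟨i, hi⟩, hab⟩ := Set.mem_mul.mp hm
    refine ⟨i, ?_⟩
    have haM : a ∈ M := Subgroup.mem_sup_left ha
    have e : m = ⟨a, haM⟩ * (⟨t, htM⟩ : ↥M) ^ i := Subtype.ext (by
      rw [Subgroup.coe_mul, SubgroupClass.coe_zpow]; change (m : G) = a * t ^ i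
      rw [← hab, ← hi])
    have ha' : q ⟨a, haM⟩ = 1 := (QuotientGroup.eq_one_iff _).mpr ha
    change tq ^ i = _
    rw [e, map_mul, map_zpow, ha', one_mul]
  have hOM : Cfsg.pPrimeCore 2 ↥M = ⊥ := by
    haveI := H19.pPrimeCore_normal 2 ↥M
    have hodd := H19.pPrimeCore_coprime (G := ↥M) 2
    have h1 : Cfsg.pPrimeCore 2 ↥M ≤ H' := by
      intro y hy
      apply (QuotientGroup.eq_one_iff y).mp
      obtain ⟨i, hi⟩ := hgen (q y)
      have h2 : (q y) ^ 2 = 1 := by
        have ht2 : tq ^ (2 : ℕ) = 1 := by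
          rw [← map_pow, show (⟨t, htM⟩ : ↥M) ^ 2 = 1 from Subtype.ext (orderOf_dvd_iff_pow_eq_one.mp (dvd_of_eq ht)), map_one]
        rw [← hi]
        change (tq ^ i) ^ 2 = 1
        rw [← zpow_natCast, ← zpow_mul, mul_comm, zpow_mul, zpow_natCast, ht2, one_zpow]
      have h3 : orderOf (q y) ∣ 2 := orderOf_dvd_of_pow_eq_one h2
      have h4 : orderOf (q y) ∣ Nat.card ↥(Cfsg.pPrimeCore 2 ↥M) :=
        (orderOf_map_dvd q y).trans (Subgroup.orderOf_dvd_natCard _ hy)
      exact orderOf_eq_one_iff.mp (Nat.eq_one_of_dvd_coprimes hodd h4 h3)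
    haveI : ((Cfsg.pPrimeCore 2 ↥M).subgroupOf H').Normal := Subgroup.normal_subgroupOf
    have h2 := H19.le_pPrimeCore (p := 2) (N := (Cfsg.pPrimeCore 2 ↥M).subgroupOf H') inferInstance
      (by rw [Nat.card_congr (Subgroup.subgroupOfEquivOfLe h1).toEquiv]; exact hodd)
    have h3 : Cfsg.pPrimeCore 2 ↥H' = ⊥ := by
      rw [← H52.map_pPrimeCore 2 (Subgroup.subgroupOfEquivOfLe (le_sup_left : H ≤ M)).symm]
      change Subgroup.map _ (Cfsg.oddCore ↥H) = ⊥
      rw [hO, Subgroup.map_bot]
    rw [h3, le_bot_iff, Subgroup.subgroupOf_eq_bot, disjoint_iff, inf_eq_left.mpr h1] at h2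
    exact h2
  set C := H ⊓ Subgroup.centralizer ({t} : Set G)
  set D0 : Subgroup G := (Cfsg.oddCore ↥C).map C.subtype
  have hD0C : D0 ≤ C := Subgroup.map_subtype_le _
  have hD0M : D0 ≤ M := hD0C.trans (inf_le_left.trans le_sup_left)
  set D := D0.subgroupOf M
  set x : ↥M := ⟨t, htM⟩
  have hxp : x ^ 2 = 1 := Subtype.ext (orderOf_dvd_iff_pow_eq_one.mp (dvd_of_eq ht))
  have hDc : (Nat.card ↥D).Coprime 2 := by
    rw [Nat.card_congr (Subgroup.subgroupOfEquivOfLe hD0M).toEquiv]
    exact (H19.pPrimeCore_coprime (G := ↥C) 2).coprime_dvd_left (Subgroup.card_map_dvd _ _)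
  have hDx : D ≤ Subgroup.centralizer ({x} : Set ↥M) := fun y hy => by
    rw [Subgroup.mem_centralizer_singleton_iff]
    exact Subtype.ext (Subgroup.mem_centralizer_singleton_iff.mp (hD0C hy).2)
  have hD : Subgroup.centralizer ({x} : Set ↥M) ≤ Subgroup.normalizer (D : Set ↥M) := by
    intro m hm
    have h1 : (m : G) ∈ Subgroup.normalizer (C : Set G) := by
      apply Subgroup.inf_normalizer_le_normalizer_inf
      refine Subgroup.mem_inf.mpr ⟨hMN m.2, Subgroup.le_normalizer ?_⟩
      rw [Subgroup.mem_centralizer_singleton_iff]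
      exact congrArg Subtype.val (Subgroup.mem_centralizer_singleton_iff.mp hm)
    have h2 := H52.normalizer_le_normalizer_core (p := 2) C h1
    rw [Subgroup.mem_normalizer_iff] at h2 ⊢
    exact fun y => h2 (y : G)
  have hYD : Y.subgroupOf M ≤ D := fun y hy => hY hy
  have hYM : Y ≤ M := hY.trans hD0M
  have hYc : (Nat.card ↥(Y.subgroupOf M)).Coprime 2 := hDc.coprime_dvd_left (Subgroup.card_dvd_of_le hYD)
  by_contra hcon
  push_neg at hcon
  apply hY1
  have hY0 : Y.subgroupOf M = ⊥ := by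
    refine H52.eq_bot_of_centralizes hOM hYc (hYD.trans (H52.le_centralizer_pCore hxp hDc hDx hD)) ?_
    intro L hL
    by_cases hxN : x ∈ Subgroup.normalizer (L : Set ↥M)
    swap
    · exact hYD.trans (H52.le_centralizer_component_of_moved hOM hxp hDc hDx hD hL hxN)
    by_cases hxL : x ∈ Subgroup.centralizer (L : Set ↥M)
    · exact hYD.trans (H52.le_centralizer_component_of_centralized hOM hxp hDc hDx hD hL hxL)
    have hLH : L ≤ H' := by
      haveI := H51.component_isPerfect hL
      rcases H51.component_le_or_commute_of_normal hL hH'n with h | h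
      · exact h
      · rw [← H51.component_commutator_self hL, Subgroup.commutator_le]
        intro a _ b _
        apply (QuotientGroup.eq_one_iff _).mp
        change q ⁅a, b⁆ = 1
        rw [map_commutatorElement, commutatorElement_eq_one_iff_commute]
        obtain ⟨i, hi⟩ := hgen (q a)
        obtain ⟨j, hj⟩ := hgen (q b)
        change q a * q b = q b * q a
        rw [← hi, ← hj]
        exact ((Commute.refl tq).zpow_zpow i j).eq
    let E : Subgroup ↥H := (L.map M.subtype).subgroupOf H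
    have hLg : L.map M.subtype ≤ H := by
      rintro _ ⟨y, hy, rfl⟩; exact hLH hy
    have hEmap : E.map H.subtype = L.map M.subtype := Subgroup.map_subgroupOf_eq_of_le hLg
    have hE : Cfsg.IsComponent E := by
      have h1 := H51.component_map_equiv (H51.component_subgroupOf hL hLH)
        (Subgroup.subgroupOfEquivOfLe (le_sup_left : H ≤ M))
      convert h1 using 1
      apply Subgroup.map_injective H.subtype_injective
      rw [hEmap, Subgroup.map_map]
      conv_lhs => rw [← Subgroup.map_subgroupOf_eq_of_le hLH, Subgroup.map_map]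
      rfl
    have hnE : ∀ m : ↥M, m ∈ Subgroup.normalizer (L : Set ↥M) →
        (m : G) ∈ Subgroup.normalizer ((E.map H.subtype : Subgroup G) : Set G) := by
      intro m hm
      rw [hEmap]
      exact Subgroup.le_normalizer_map M.subtype ⟨m, hm, rfl⟩
    have hcE : ∀ m : ↥M, (m : G) ∈ Subgroup.centralizer ((E.map H.subtype : Subgroup G) : Set G) ↔
        m ∈ Subgroup.centralizer (L : Set ↥M) := by
      intro m
      rw [hEmap, Subgroup.mem_centralizer_iff, Subgroup.mem_centralizer_iff]
      constructor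
      · exact fun h l hl => Subtype.ext (h l ⟨l, hl, rfl⟩)
      · rintro h _ ⟨l, hl, rfl⟩
        exact congrArg Subtype.val (h l hl)
    intro y hy
    apply (hcE y).mp
    exact hcon E hE ((H52.map_conj_eq_iff).mpr (hnE x hxN))
      (fun z hz => hnE ⟨z, hYM hz⟩ (H52.le_normalizer_component hOM hxp hDc hDx hD hL
        (hYD (show (⟨z, hYM hz⟩ : ↥M) ∈ Y.subgroupOf M from hz))))
      (fun h => hxL ((hcE x).mp h)) hy
  rw [Subgroup.subgroupOf_eq_bot, disjoint_iff, inf_eq_left.mpr hYM] at hY0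
  exact hY0

end Cfsg.Agent.S1328
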