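import Cfsg.Statements.S1329
import Cfsg.Agent.H52.CoprimeFixedGeneration
import Cfsg.Agent.S0205

set_option autoImplicit false
open Cfsg

namespace Cfsg.Agent.S1329

/-- Let A be an abelian 2-subgroup of the finite group G, B ≤ A, and Y a subgroup of odd order normalized by A with ⁅Y, A⁆ = Y. Then Y ∩ C_G(B) is generated by the subgroups Y ∩ C_G(B) ∩ ⁅Y ∩ C_G(B₀), A⁆, B₀ ranging over the subgroups of B with B / B₀ cyclic. -/
theorem result {G : Type*} [Group G] [Finite G] (A B Y : Subgroup G) (hA2 : IsPGroup 2 ↥A) (hAc : IsMulCommutative ↥A) (hB : B ≤ A) (hYodd : Odd (Nat.card ↥Y)) (hAY : A ≤ Subgroup.normalizer (Y : Set G)) (hYA : ⁅Y, A⁆ = Y) : Y ⊓ Subgroup.centralizer (B : Set G) = ⨆ B₀ : {B₀ : Subgroup G // B₀ ≤ B ∧ ∀ [(B₀.subgroupOf B).Normal], IsCyclic (↥B ⧸ B₀.subgroupOf B)}, Y ⊓ Subgroup.centralizer (B : Set G) ⊓ ⁅Y ⊓ Subgroup.centralizer ((B₀ : Subgroup G) : Set G), A⁆ := by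
  haveI : Fact (Nat.Prime 2) := ⟨Nat.prime_two⟩
  refine H52.Cocyclic.inf_centralizer_eq_iSup hAc hB hAY ?_ (Cfsg.Agent.S0205.result hYodd) hYA
  obtain ⟨k, hk⟩ := hA2.exists_card_eq
  rw [hk]
  exact (Nat.coprime_two_left.mpr hYodd).pow_left k

end Cfsg.Agent.S1329
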