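import Cfsg.Statements.S1335
import Mathlib

set_option autoImplicit false
open Cfsg

namespace Cfsg.Agent.S1335

/-- Rank bounds are invariant under isomorphism. -/
theorem prankLE_of_equiv {A B : Type*} [Group A] [Group B] {p k : ℕ} (e : A ≃* B)
    (h : Cfsg.PRankLE p k B) : Cfsg.PRankLE p k A := by
  intro X hX hp
  rw [Nat.card_congr (X.equivMapOfInjective e.toMonoidHom e.injective).toEquiv]
  refine h _ ?_ ?_
  · constructor
    constructor
    rintro ⟨_, a, ha, rfl⟩ ⟨_, b, hb, rfl⟩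
    apply Subtype.ext
    change e.toMonoidHom a * e.toMonoidHom b = e.toMonoidHom b * e.toMonoidHom a
    have h2 : a * b = b * a := congrArg Subtype.val (hX.1.1 ⟨a, ha⟩ ⟨b, hb⟩)
    rw [← map_mul, ← map_mul, h2]
  · rintro _ ⟨a, ha, rfl⟩
    rw [← map_pow, hp a ha, map_one]

/-- Let H be a subgroup of the finite group G, p a prime, k ≥ 1, P a Sylow p-subgroup of H of p-rank at least k, and suppose N_G(X) ≤ H for every subgroup X ≤ P of p-rank at least k. Then P is a Sylow p-subgroup of G. -/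
theorem result {G : Type*} [Group G] [Finite G] {p : ℕ} [Fact p.Prime] (k : ℕ) (hk : 1 ≤ k) (H : Subgroup G) (P : Sylow p ↥H) (hP : ¬ Cfsg.PRankLE p (k - 1) ↥(P : Subgroup ↥H)) (hΓ : (∀ X : Subgroup G, X ≤ (P : Subgroup ↥H).map H.subtype → ¬ Cfsg.PRankLE p (k - 1) ↥X → Subgroup.normalizer (X : Set G) ≤ H)) : ∃ Q : Sylow p G, (Q : Subgroup G) = (P : Subgroup ↥H).map H.subtype := by
  set P0 : Subgroup G := (P : Subgroup ↥H).map H.subtype with hP0
  have hp0 : IsPGroup p ↥P0 := P.isPGroup'.map _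
  obtain ⟨Q, hQ⟩ := hp0.exists_le_sylow
  refine ⟨Q, ?_⟩
  by_contra hne
  have hlt : P0 < (Q : Subgroup G) := lt_of_le_of_ne hQ fun h => hne h.symm
  have hN : Subgroup.normalizer (P0 : Set G) ≤ H :=
    hΓ P0 le_rfl fun h => hP (prankLE_of_equiv
      (Subgroup.equivMapOfInjective (P : Subgroup ↥H) H.subtype H.subtype_injective) h)
  haveI : Group.IsNilpotent ↥(Q : Subgroup G) := Q.isPGroup'.isNilpotent
  have hnc : NormalizerCondition ↥(Q : Subgroup G) := Group.normalizerCondition_of_isNilpotent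
  have h1 := hnc (P0.subgroupOf Q) (lt_top_iff_ne_top.mpr fun h => not_le_of_gt hlt (Subgroup.subgroupOf_eq_top.mp h))
  obtain ⟨x, hxN, hx⟩ := SetLike.exists_of_lt h1
  have hxG : (x : G) ∈ Subgroup.normalizer (P0 : Set G) := by
    rw [← Subgroup.subgroupOf_normalizer_eq hQ] at hxN
    exact hxN
  have hxH : (x : G) ∈ H := hN hxG
  have hsub : IsPGroup p ↥((Q : Subgroup G).subgroupOf H) :=
    Q.isPGroup'.comap_of_injective H.subtype H.subtype_injective
  have hle : (P : Subgroup ↥H) ≤ (Q : Subgroup G).subgroupOf H := fun y hy => hQ ⟨y, hy, rfl⟩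
  have := P.is_maximal' hsub hle
  exact hx ⟨⟨x, hxH⟩, by rw [← this]; exact x.2, rfl⟩

end Cfsg.Agent.S1335
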