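import Cfsg.Statements.S1336
import Mathlib

set_option autoImplicit false
open Cfsg

namespace Cfsg.Agent.S1336

variable {G : Type*} [Group G]

/-- Adjacency of the commuting graph on elementary abelian `p`-subgroups. -/
def Adj (p : ℕ) (A B : Subgroup G) : Prop :=
  Cfsg.IsElementaryAbelian p A ∧ p ^ 1 ≤ Nat.card ↥A ∧ Cfsg.IsElementaryAbelian p B ∧
    p ^ 1 ≤ Nat.card ↥B ∧ ∀ a ∈ A, ∀ b ∈ B, a * b = b * a

/-- Connectedness in the commuting graph. -/
def Conn (p : ℕ) : Subgroup G → Subgroup G → Prop := Relation.ReflTransGen (Adj p)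

theorem conn_symm {p : ℕ} {A B : Subgroup G} (h : Conn p A B) : Conn p B A := by
  induction h with
  | refl => exact Relation.ReflTransGen.refl
  | tail _ hbc ih =>
    exact Relation.ReflTransGen.head
      ⟨hbc.2.2.1, hbc.2.2.2.1, hbc.1, hbc.2.1, fun a ha b hb => (hbc.2.2.2.2 b hb a ha).symm⟩ ih

theorem adj_zpowers [Finite G] {p : ℕ} [hp : Fact p.Prime] {x y : G} (hx : orderOf x = p)
    (hy : orderOf y = p) (hxy : Commute x y) :
    Adj p (Subgroup.zpowers x) (Subgroup.zpowers y) := by
  have key : ∀ z : G, orderOf z = p →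
      Cfsg.IsElementaryAbelian p (Subgroup.zpowers z) ∧ p ^ 1 ≤ Nat.card ↥(Subgroup.zpowers z) := by
    intro z hz
    refine ⟨⟨inferInstance, ?_⟩, by rw [Nat.card_zpowers, hz, pow_one]⟩
    rintro a ⟨k, rfl⟩
    change (z ^ k) ^ p = 1
    rw [← zpow_natCast, ← zpow_mul, mul_comm, zpow_mul, zpow_natCast, ← hz, pow_orderOf_eq_one,
      one_zpow]
  refine ⟨(key x hx).1, (key x hx).2, (key y hy).1, (key y hy).2, ?_⟩
  rintro a ⟨i, rfl⟩ b ⟨j, rfl⟩
  exact (hxy.zpow_zpow i j).eq

theorem adj_conj {p : ℕ} (g : G) {A B : Subgroup G} (h : Adj p A B) :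
    Adj p (A.map (MulAut.conj g).toMonoidHom) (B.map (MulAut.conj g).toMonoidHom) := by
  have key : ∀ C : Subgroup G, Cfsg.IsElementaryAbelian p C →
      Cfsg.IsElementaryAbelian p (C.map (MulAut.conj g).toMonoidHom) ∧
      Nat.card ↥(C.map (MulAut.conj g).toMonoidHom) = Nat.card ↥C := by
    intro C hC
    refine ⟨⟨⟨⟨?_⟩⟩, ?_⟩, (Nat.card_congr (C.equivMapOfInjective _ (MulAut.conj g).injective).toEquiv).symm⟩
    · rintro ⟨_, a, ha, rfl⟩ ⟨_, b, hb, rfl⟩
      apply Subtype.ext
      have h2 : a * b = b * a := congrArg Subtype.val (hC.1.1.1 ⟨a, ha⟩ ⟨b, hb⟩)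
      change (MulAut.conj g).toMonoidHom a * (MulAut.conj g).toMonoidHom b = _
      rw [← map_mul, h2, map_mul]; rfl
    · rintro _ ⟨a, ha, rfl⟩
      rw [← map_pow, hC.2 a ha, map_one]
  obtain ⟨h1, h2, h3, h4, h5⟩ := h
  refine ⟨(key A h1).1, by rw [(key A h1).2]; exact h2, (key B h3).1, by rw [(key B h3).2]; exact h4, ?_⟩
  rintro _ ⟨a, ha, rfl⟩ _ ⟨b, hb, rfl⟩
  rw [← map_mul, h5 a ha b hb, map_mul]

theorem conn_conj {p : ℕ} (g : G) {A B : Subgroup G} (h : Conn p A B) :
    Conn p (A.map (MulAut.conj g).toMonoidHom) (B.map (MulAut.conj g).toMonoidHom) := by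
  induction h with
  | refl => exact Relation.ReflTransGen.refl
  | tail _ hbc ih => exact ih.tail (adj_conj g hbc)

theorem map_conj_zpowers (g x : G) :
    (Subgroup.zpowers x).map (MulAut.conj g).toMonoidHom = Subgroup.zpowers (g * x * g⁻¹) :=
  MonoidHom.map_zpowers _ x

theorem map_conj_mul (g h : G) (A : Subgroup G) :
    (A.map (MulAut.conj h).toMonoidHom).map (MulAut.conj g).toMonoidHom =
      A.map (MulAut.conj (g * h)).toMonoidHom := by
  rw [Subgroup.map_map, map_mul]; rfl

/-- All elements of order `p` of a Sylow subgroup are connected to a central one. -/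
theorem sylow_center [Finite G] {p : ℕ} [hp : Fact p.Prime] {S : Subgroup G} (hS : IsPGroup p ↥S)
    (hne : S ≠ ⊥) : ∃ z ∈ S, orderOf z = p ∧
      ∀ x ∈ S, orderOf x = p → Conn p (Subgroup.zpowers x) (Subgroup.zpowers z) := by
  haveI : Nontrivial ↥S := (Subgroup.nontrivial_iff_ne_bot S).mpr hne
  haveI := hS.center_nontrivial
  obtain ⟨z, hz⟩ := exists_prime_orderOf_dvd_card' (G := ↥(Subgroup.center ↥S)) p
    (by obtain ⟨n, hn, hc⟩ := (hS.to_subgroup (Subgroup.center ↥S)).nontrivial_iff_card.mp inferInstance; rw [hc]; exact dvd_pow_self p (by omega))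
  refine ⟨((z : ↥S) : G), (z : ↥S).2, by rw [Subgroup.orderOf_coe, Subgroup.orderOf_coe]; exact hz, ?_⟩
  intro x hx hxo
  refine Relation.ReflTransGen.single (adj_zpowers hxo
    (by rw [Subgroup.orderOf_coe, Subgroup.orderOf_coe]; exact hz) ?_)
  exact congrArg Subtype.val (Subgroup.mem_center_iff.mp z.2 ⟨x, hx⟩)

theorem zpowers_eq_of_vertex [Finite G] {p : ℕ} [hp : Fact p.Prime] {E : Subgroup G}
    (hE : Cfsg.IsElementaryAbelian p E) (hcard : p ^ 1 ≤ Nat.card ↥E) :
    ∃ e ∈ E, orderOf e = p ∧ Conn p E (Subgroup.zpowers e) := by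
  have hne : E ≠ ⊥ := fun h => by
    rw [h, Subgroup.card_bot, pow_one] at hcard; exact absurd hp.out.one_lt (by omega)
  obtain ⟨e, he, he1⟩ := (Subgroup.bot_or_exists_ne_one E).resolve_left hne
  have heo : orderOf e = p := orderOf_eq_prime (hE.2 e he) he1
  refine ⟨e, he, heo, Relation.ReflTransGen.single ⟨hE, hcard, (adj_zpowers heo heo (Commute.refl e)).1,
    (adj_zpowers heo heo (Commute.refl e)).2.1, ?_⟩⟩
  rintro a ha b ⟨k, rfl⟩
  have h2 : a * e = e * a := congrArg Subtype.val (hE.1.1.1 ⟨a, ha⟩ ⟨e, he⟩)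
  exact (Commute.zpow_right h2 k).eq

/-- Let G be finite and p prime. Then G has a proper subgroup H with p ∣ |H| and p ∤ |H ∩ gHg⁻¹| for every g ∉ H (a strongly p-embedded subgroup) if and only if G is not 1-connected for p. -/
theorem result {G : Type*} [Group G] [Finite G] (p : ℕ) [Fact p.Prime] : (∃ H : Subgroup G, H ≠ ⊤ ∧ p ∣ Nat.card ↥H ∧ ∀ g : G, g ∉ H → ¬ p ∣ Nat.card ↥(H ⊓ H.map (MulAut.conj g).toMonoidHom)) ↔ ¬ Cfsg.IsKConnected p 1 G := by
  have hp : p.Prime := Fact.out
  constructor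
  · rintro ⟨H, hHtop, hpH, hH⟩ hconn
    obtain ⟨g, hg⟩ : ∃ g : G, g ∉ H := by
      by_contra! h
      exact hHtop ((Subgroup.eq_top_iff' H).mpr h)
    obtain ⟨x, hx⟩ := exists_prime_orderOf_dvd_card' (G := ↥H) p hpH
    have hxo : orderOf (x : G) = p := by rw [Subgroup.orderOf_coe]; exact hx
    have hmem : ∀ A B : Subgroup G, Conn p A B → A ≤ H → B ≤ H := by
      intro A B hAB
      induction hAB with
      | refl => exact id
      | @tail C D _ hbc ih =>
        intro hA d hd
        obtain ⟨e, he, heo, -⟩ := zpowers_eq_of_vertex hbc.1 hbc.2.1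
        by_contra hdH
        apply hH d hdH
        rw [← heo]
        refine Subgroup.orderOf_dvd_natCard _ ⟨ih hA he, e, ih hA he, ?_⟩
        change d * e * d⁻¹ = e
        rw [(hbc.2.2.2.2 e he d hd).symm]; group
    have hy : orderOf (g * (x : G) * g⁻¹) = p := by
      rw [← hxo]; exact orderOf_injective (MulAut.conj g).toMonoidHom (MulAut.conj g).injective _
    have hxx := adj_zpowers hxo hxo (Commute.refl _)
    have hyy := adj_zpowers hy hy (Commute.refl _)
    have h1 := hmem (Subgroup.zpowers (x : G)) _ (hconn _ _ hxx.1 hxx.2.1 hyy.1 hyy.2.1)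
      (Subgroup.zpowers_le.mpr x.2) (Subgroup.mem_zpowers _)
    apply hH g hg
    rw [← hy]
    exact Subgroup.orderOf_dvd_natCard _ ⟨h1, x, x.2, rfl⟩
  · intro hnot
    simp only [Cfsg.IsKConnected, not_forall] at hnot
    obtain ⟨E, E', hE, hEc, hE', hEc', hnc⟩ := hnot
    obtain ⟨e, heE, heo, hec⟩ := zpowers_eq_of_vertex hE hEc
    obtain ⟨f, hfE, hfo, hfc⟩ := zpowers_eq_of_vertex hE' hEc'
    let H : Subgroup G :=
    { carrier := {g | Conn p (Subgroup.zpowers e) ((Subgroup.zpowers e).map (MulAut.conj g).toMonoidHom)}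
      one_mem' := by
        change Conn p _ _
        rw [map_conj_zpowers]; simp only [one_mul, inv_one, mul_one]
        exact Relation.ReflTransGen.refl
      mul_mem' := by
        intro a b ha hb
        change Conn p _ _
        rw [← map_conj_mul]
        exact Relation.ReflTransGen.trans ha (conn_conj a hb)
      inv_mem' := by
        intro a ha
        change Conn p _ _
        have h := conn_conj a⁻¹ ha
        rw [map_conj_mul, inv_mul_cancel] at h
        have h1 : (Subgroup.zpowers e).map (MulAut.conj (1 : G)).toMonoidHom = Subgroup.zpowers e := by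
          rw [map_conj_zpowers]; simp
        rw [h1] at h
        exact conn_symm h }
    refine ⟨H, ?_, ?_, ?_⟩
    · intro htop
      obtain ⟨S, hS⟩ := ((IsPGroup.of_card (n := 1) (p := p)
        (show Nat.card ↥(Subgroup.zpowers e) = p ^ 1 by rw [Nat.card_zpowers, heo, pow_one])).exists_le_sylow)
      obtain ⟨T, hT⟩ := ((IsPGroup.of_card (n := 1) (p := p)
        (show Nat.card ↥(Subgroup.zpowers f) = p ^ 1 by rw [Nat.card_zpowers, hfo, pow_one])).exists_le_sylow)
      have heS : e ∈ (S : Subgroup G) := hS (Subgroup.mem_zpowers e)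
      obtain ⟨g, hg⟩ := MulAction.exists_smul_eq G T S
      have hfS : g * f * g⁻¹ ∈ (S : Subgroup G) := by
        rw [← hg, Sylow.coe_subgroup_smul]
        exact ⟨f, hT (Subgroup.mem_zpowers f), rfl⟩
      obtain ⟨z, -, -, hz⟩ := sylow_center S.isPGroup' (fun h => by
        rw [h, Subgroup.mem_bot] at heS; rw [heS, orderOf_one] at heo; exact hp.one_lt.ne heo)
      have h1 : Conn p (Subgroup.zpowers e) (Subgroup.zpowers (g * f * g⁻¹)) :=
        (hz e heS heo).trans (conn_symm (hz _ hfS
          ((orderOf_injective (MulAut.conj g).toMonoidHom (MulAut.conj g).injective f).trans hfo)))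
      have h2 := conn_conj g⁻¹ h1
      rw [map_conj_zpowers, map_conj_zpowers] at h2
      have hf : g⁻¹ * (g * f * g⁻¹) * g⁻¹⁻¹ = f := by group
      rw [hf] at h2
      have h3 : g⁻¹ ∈ H := htop ▸ Subgroup.mem_top _
      change Conn p _ _ at h3
      rw [map_conj_zpowers] at h3
      exact hnc ((hec.trans (h3.trans h2)).trans (conn_symm hfc))
    · rw [← heo]
      refine Subgroup.orderOf_dvd_natCard _ ?_
      change Conn p _ _
      rw [map_conj_zpowers, show e * e * e⁻¹ = e by group]
      exact Relation.ReflTransGen.refl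
    · intro g hg hdvd
      obtain ⟨y, hy⟩ := exists_prime_orderOf_dvd_card' (G := ↥(H ⊓ H.map (MulAut.conj g).toMonoidHom)) p hdvd
      have key : ∀ u : G, u ∈ H → orderOf u = p → Conn p (Subgroup.zpowers e) (Subgroup.zpowers u) := by
        intro u hu huo
        have heH : e ∈ H := by
          change Conn p _ _
          rw [map_conj_zpowers, show e * e * e⁻¹ = e by group]
          exact Relation.ReflTransGen.refl
        have pgrp : ∀ w : G, ∀ hw : w ∈ H, orderOf w = p → ∃ S : Sylow p ↥H, (⟨w, hw⟩ : ↥H) ∈ S := by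
          intro w hw hwo
          obtain ⟨S, hS⟩ := (IsPGroup.of_card (n := 1) (p := p)
            (show Nat.card ↥(Subgroup.zpowers (⟨w, hw⟩ : ↥H)) = p ^ 1 by
              rw [Nat.card_zpowers, Subgroup.orderOf_mk, hwo, pow_one])).exists_le_sylow
          exact ⟨S, hS (Subgroup.mem_zpowers _)⟩
        obtain ⟨S, heS⟩ := pgrp e heH heo
        obtain ⟨T, huT⟩ := pgrp u hu huo
        obtain ⟨h, hh⟩ := MulAction.exists_smul_eq ↥H S T
        have hT : IsPGroup p ↥((T : Subgroup ↥H).map H.subtype) := T.isPGroup'.map _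
        have he' : (h : G) * e * (h : G)⁻¹ ∈ (T : Subgroup ↥H).map H.subtype := by
          refine ⟨h * ⟨e, heH⟩ * h⁻¹, ?_, rfl⟩
          rw [← hh, Sylow.coe_subgroup_smul]
          exact ⟨_, heS, rfl⟩
        have hu' : u ∈ (T : Subgroup ↥H).map H.subtype := ⟨_, huT, rfl⟩
        obtain ⟨z, -, -, hz⟩ := sylow_center hT (fun h => by
          rw [h, Subgroup.mem_bot] at hu'; rw [hu', orderOf_one] at huo; exact hp.one_lt.ne huo)
        have hhc : Conn p _ _ := h.2
        rw [map_conj_zpowers] at hhc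
        exact hhc.trans ((hz _ he' ((orderOf_injective (MulAut.conj (h:G)).toMonoidHom
          (MulAut.conj (h:G)).injective e).trans heo)).trans (conn_symm (hz u hu' huo)))
      obtain ⟨hy1, u, huH, hu⟩ := y.2
      have hyo : orderOf (y : G) = p := by rw [Subgroup.orderOf_coe]; exact hy
      have huo : orderOf u = p := by
        rw [← hyo, ← hu]; exact (orderOf_injective (MulAut.conj g).toMonoidHom (MulAut.conj g).injective u).symm
      have h1 := key _ hy1 hyo
      have h2 := conn_conj g (key u huH huo)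
      rw [map_conj_zpowers (x := u)] at h2
      have hu2 : g * u * g⁻¹ = (y : G) := hu
      rw [hu2] at h2
      exact hg (h1.trans (conn_symm h2))

end Cfsg.Agent.S1336
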