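import Cfsg.Statements.S1337
import Mathlib
import Cfsg.Agent.H52.Connectivity
import Cfsg.Agent.H24.SmallRank

set_option autoImplicit false
open Cfsg

namespace Cfsg.Agent.S1337

/-- Let P be a finite p-group of p-rank greater than 2. Then P has a normal elementary abelian subgroup U of order p², and for every elementary abelian X ≤ P with |X| ≥ p²: X is joined to U by a chain of pairwise commuting elementary abelian subgroups of order ≥ p² if and only if C_P(X) has p-rank greater than 2. -/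
theorem result {P : Type*} [Group P] [Finite P] (p : ℕ) [Fact p.Prime] (hP : IsPGroup p P) (hrk : ¬ Cfsg.PRankLE p 2 P) : ∃ U : Subgroup P, U.Normal ∧ Cfsg.IsElementaryAbelian p U ∧ Nat.card ↥U = p ^ 2 ∧ ∀ X : Subgroup P, Cfsg.IsElementaryAbelian p X → p ^ 2 ≤ Nat.card ↥X → (Relation.ReflTransGen (fun A B : Subgroup P => Cfsg.IsElementaryAbelian p A ∧ p ^ 2 ≤ Nat.card ↥A ∧ Cfsg.IsElementaryAbelian p B ∧ p ^ 2 ≤ Nat.card ↥B ∧ ∀ a ∈ A, ∀ b ∈ B, a * b = b * a) X U ↔ ¬ Cfsg.PRankLE p 2 ↥(Subgroup.centralizer (X : Set P))) := by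
  classical
  have hp := (Fact.out : p.Prime)
  have hrk' : ¬ Cfsg.PRankLE p 2 ↥(⊤ : Subgroup P) := fun h => hrk fun A hA hAe => by
    have hAel : Cfsg.IsElementaryAbelian p A := ⟨hA, hAe⟩
    obtain ⟨hc, he⟩ := H52.Connectivity.elem_subgroupOf (C := (⊤ : Subgroup P)) hAel
    have := h _ hc he
    rwa [Nat.card_congr (Subgroup.subgroupOfEquivOfLe le_top).toEquiv] at this
  obtain ⟨E₀, hE₀, -, hE₀c⟩ := H52.Connectivity.exists_elem hrk'
  haveI := hE₀.1
  obtain ⟨U, hUn, hUc, hUe, hUcard⟩ : ∃ U : Subgroup P, U.Normal ∧ IsMulCommutative U ∧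
      (∀ u ∈ U, u ^ p = 1) ∧ Nat.card U = p ^ 2 := by
    by_cases hp2 : p = 2
    · subst hp2
      refine H52.exists_normal_klein hP hE₀.1 hE₀.2 ?_
      obtain ⟨n, hn⟩ := IsPGroup.iff_card.mp (hP.to_subgroup E₀)
      rw [hn] at hE₀c ⊢
      have : 2 < n := (Nat.pow_lt_pow_iff_right hp.one_lt).mp hE₀c
      calc (8 : ℕ) = 2 ^ 3 := by norm_num
        _ ≤ 2 ^ n := Nat.pow_le_pow_right (by norm_num) this
    · refine H24.exists_normal_elementary_two P p hp2 hP fun hcyc => ?_
      exact H52.elem_not_isCyclic hE₀ hE₀c.le inferInstance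
  haveI := hUn
  have hU : Cfsg.IsElementaryAbelian p U := ⟨hUc, hUe⟩
  refine ⟨U, hUn, hU, hUcard, fun X hX hX2 => ⟨fun h => ?_, fun h => ?_⟩⟩
  · induction h using Relation.ReflTransGen.head_induction_on with
    | refl =>
      have h1 := H52.Connectivity.card_inf_centralizer hP hU hUcard hE₀ hE₀c
      set D := E₀ ⊓ Subgroup.centralizer (U : Set P)
      by_cases hDU : D ≤ U
      · have hUE : U ≤ E₀ := (Subgroup.eq_of_le_of_card_ge hDU (hUcard ▸ h1)).ge.trans inf_le_left
        exact H52.Connectivity.not_rankLE hE₀ (fun e he => Subgroup.mem_centralizer_iff.mpr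
          fun u hu => H52.elem_comm hE₀ (hUE hu) he) hE₀c
      · refine H52.Connectivity.not_rankLE (E := U ⊔ D) (H52.Connectivity.elem_sup hU
          (H52.elem_mono hE₀ inf_le_left) fun u hu d hd => Subgroup.mem_centralizer_iff.mp hd.2 u hu)
          (sup_le (fun u hu => Subgroup.mem_centralizer_iff.mpr fun v hv => H52.elem_comm hU hv hu)
            inf_le_right) ?_
        rw [← hUcard]
        refine lt_of_le_of_ne (Subgroup.card_le_of_le le_sup_left) fun h => hDU ?_
        exact le_sup_right.trans (Subgroup.eq_of_le_of_card_ge le_sup_left h.ge).ge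
    | @head Y Z hYZ _ ih =>
      obtain ⟨hY, hY2, hZ, hZ2, hc⟩ := hYZ
      by_cases heq : Y = Z
      · rw [heq]; exact ih hZ hZ2
      refine H52.Connectivity.not_rankLE (E := Y ⊔ Z) (H52.Connectivity.elem_sup hY hZ hc)
        (sup_le (fun u hu => Subgroup.mem_centralizer_iff.mpr fun v hv => H52.elem_comm hY hv hu)
          fun z hz => Subgroup.mem_centralizer_iff.mpr fun y hy => hc y hy z hz) ?_
      by_contra hle
      rw [not_lt] at hle
      exact heq ((Subgroup.eq_of_le_of_card_ge le_sup_left (hle.trans hY2)).trans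
        (Subgroup.eq_of_le_of_card_ge le_sup_right (hle.trans hZ2)).symm)
  · obtain ⟨E, hE, hEX, hEc⟩ := H52.Connectivity.exists_elem h
    have h1 := H52.Connectivity.card_inf_centralizer hP hU hUcard hE hEc
    have hD := H52.elem_mono hE (inf_le_left : E ⊓ Subgroup.centralizer (U : Set P) ≤ E)
    refine Relation.ReflTransGen.head ⟨hX, hX2, hE, hEc.le,
      fun x hx e he => Subgroup.mem_centralizer_iff.mp (hEX he) x hx⟩ ?_
    refine Relation.ReflTransGen.head ⟨hE, hEc.le, hD, h1,
      fun e he d hd => H52.elem_comm hE he hd.1⟩ ?_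
    exact Relation.ReflTransGen.single ⟨hD, h1, hU, hUcard.ge,
      fun d hd u hu => (Subgroup.mem_centralizer_iff.mp hd.2 u hu).symm⟩


end Cfsg.Agent.S1337
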