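import Cfsg.Statements.S1338
import Mathlib
import Cfsg.Agent.H52.Connectivity
import Cfsg.Agent.H24.MaxExponent

set_option autoImplicit false
open Cfsg

namespace Cfsg.Agent.S1338

/-- A finite 3-group of 3-rank at least 4 is 2-connected for the prime 3: its commuting graph on elementary abelian subgroups of order ≥ 9 is connected. -/
theorem result {P : Type*} [Group P] [Finite P] (hP : IsPGroup 3 P) (hrk : ¬ Cfsg.PRankLE 3 3 P) : Cfsg.IsKConnected 3 2 P := by
  classical
  haveI : Fact (Nat.Prime 3) := ⟨Nat.prime_three⟩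
  obtain ⟨E₁, hE₁, -, hE₁c⟩ := H52.Connectivity.exists_elem (p := 3) (k := 3) (C := (⊤ : Subgroup P))
    (fun h => hrk fun A hA hAe => by
      obtain ⟨hc, he⟩ := H52.Connectivity.elem_subgroupOf (C := (⊤ : Subgroup P))
        (⟨hA, hAe⟩ : Cfsg.IsElementaryAbelian 3 A)
      have := h _ hc he
      rwa [Nat.card_congr (Subgroup.subgroupOfEquivOfLe le_top).toEquiv] at this)
  haveI := hE₁.1
  obtain ⟨n, hn⟩ := IsPGroup.iff_card.mp (hP.to_subgroup E₁)
  have hn4 : 4 ≤ n := (Nat.pow_lt_pow_iff_right (by norm_num)).mp (hn ▸ hE₁c)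
  obtain ⟨K, hKle⟩ := Sylow.exists_subgroup_card_pow_prime 3 (G := ↥E₁) (n := 4) (hn ▸ pow_dvd_pow 3 hn4)
  obtain ⟨A, hAn, hAc, hAe, hA4⟩ := H24.exists_normal_elementary_four hP (by norm_num)
    (E := K.map E₁.subtype) inferInstance
    (fun e he => hE₁.2 e (Subgroup.map_subtype_le _ he))
    (by rw [Nat.card_congr (K.equivMapOfInjective _ E₁.subtype_injective).toEquiv.symm, hKle])
  have hA : Cfsg.IsElementaryAbelian 3 A := ⟨hAc, hAe⟩
  haveI := hAn
  obtain ⟨U, hUn, hUA, hUc⟩ := H24.exists_normal_le_card hP (N := A) hA4 (show 2 ≤ 4 by omega)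
  haveI := hUn
  have hU := H52.elem_mono hA hUA
  -- every elementary subgroup of order at least 9 has a centraliser of rank above two
  have key : ∀ X : Subgroup P, Cfsg.IsElementaryAbelian 3 X → 3 ^ 2 ≤ Nat.card X →
      ∃ E : Subgroup P, Cfsg.IsElementaryAbelian 3 E ∧ E ≤ Subgroup.centralizer (X : Set P) ∧
        3 ^ 2 < Nat.card E := by
    intro X hX hX2
    by_cases hXA : X ≤ A
    · exact ⟨A, hA, fun a ha => Subgroup.mem_centralizer_iff.mpr fun x hx => H52.elem_comm hA (hXA hx) ha,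
        by rw [hA4]; norm_num⟩
    obtain ⟨x, hxX, hxA⟩ := SetLike.not_le_iff_exists.mp hXA
    by_cases hX3 : 3 ^ 2 < Nat.card X
    · exact ⟨X, hX, fun a ha => Subgroup.mem_centralizer_iff.mpr fun y hy => H52.elem_comm hX hy ha, hX3⟩
    have hX9 : Nat.card X = 3 ^ 2 := le_antisymm (not_lt.mp hX3) hX2
    set D := A ⊓ Subgroup.centralizer (X : Set P) with hD
    by_cases hDX : D ≤ X
    swap
    · refine ⟨X ⊔ D, H52.Connectivity.elem_sup hX (H52.elem_mono hA inf_le_left)
        (fun y hy d hd => Subgroup.mem_centralizer_iff.mp hd.2 y hy),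
        sup_le (fun a ha => Subgroup.mem_centralizer_iff.mpr fun y hy => H52.elem_comm hX hy ha)
          inf_le_right, ?_⟩
      rw [← hX9]
      refine lt_of_le_of_ne (Subgroup.card_le_of_le le_sup_left) fun h => hDX ?_
      exact le_sup_right.trans (Subgroup.eq_of_le_of_card_ge le_sup_left h.ge).ge
    -- `C_A(X)` is nontrivial and lies in `X`
    exfalso
    obtain ⟨z, hz, hz1⟩ : ∃ z ∈ D, z ≠ 1 := by
      have hAX : (X : Set P) ⊆ (Subgroup.normalizer (A : Set P) : Set P) := fun y _ =>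
        (Subgroup.normalizer_eq_top_iff.mpr hAn).ge (Subgroup.mem_top y)
      let φ : X →* MulAut A := A.normalizerMonoidHom.comp (Subgroup.inclusion hAX)
      letI : MulAction X A := MulAction.compHom A φ
      obtain ⟨b, hb, hb1⟩ := (hP.to_subgroup X).exists_fixed_point_of_prime_dvd_card_of_fixed_point A
        (hA4 ▸ dvd_pow_self 3 (by norm_num)) (a := (1 : A)) (fun g => map_one (φ g))
      refine ⟨(b : P), ⟨b.2, Subgroup.mem_centralizer_iff.mpr fun y hy => ?_⟩, fun h => hb1 (Subtype.ext h).symm⟩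
      exact mul_inv_eq_iff_eq_mul.mp (congrArg Subtype.val (hb ⟨y, hy⟩))
    have hzX : z ∈ X := hDX hz
    have hgenX : Subgroup.zpowers x ⊔ Subgroup.zpowers z = X := by
      refine Subgroup.eq_of_le_of_card_ge (sup_le (Subgroup.zpowers_le.mpr hxX) (Subgroup.zpowers_le.mpr hzX)) ?_
      have hlt : Subgroup.zpowers z < Subgroup.zpowers x ⊔ Subgroup.zpowers z :=
        lt_of_le_of_ne le_sup_right fun h => hxA ((h ▸ Subgroup.mem_sup_left (Subgroup.mem_zpowers x) :
          x ∈ Subgroup.zpowers z) |> fun h' => Subgroup.zpowers_le.mpr hz.1 h')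
      obtain ⟨m, hm⟩ := IsPGroup.iff_card.mp (hP.to_subgroup (Subgroup.zpowers x ⊔ Subgroup.zpowers z))
      have h1 : Nat.card (Subgroup.zpowers z) = 3 := by
        rw [Nat.card_zpowers]; exact orderOf_eq_prime (hA.2 z hz.1) hz1
      have h2 := lt_of_le_of_ne (Subgroup.card_le_of_le hlt.le)
        fun h => hlt.ne (Subgroup.eq_of_le_of_card_ge hlt.le h.ge)
      rw [h1, hm] at h2
      rw [hX9, hm]
      exact Nat.pow_le_pow_right (by norm_num) ((Nat.pow_lt_pow_iff_right (by norm_num : 1 < 3)).mp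
        (show 3 ^ 1 < 3 ^ m by simpa using h2))
    -- so `C_A(x) ≤ ⟨z⟩`, too small for an element of order three acting on `A`
    have hfix : ∀ a ∈ A, Commute x a → a ∈ D := fun a ha hc => by
      refine ⟨ha, Subgroup.mem_centralizer_iff.mpr fun y hy => ?_⟩
      have hle : X ≤ Subgroup.centralizer ({a} : Set P) := by
        rw [← hgenX]
        exact sup_le (Subgroup.zpowers_le.mpr (Subgroup.mem_centralizer_singleton_iff.mpr hc.eq))
          (Subgroup.zpowers_le.mpr (Subgroup.mem_centralizer_singleton_iff.mpr (H52.elem_comm hA hz.1 ha)))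
      exact Subgroup.mem_centralizer_singleton_iff.mp (hle hy)
    have hDc : Nat.card D ≤ 3 := by
      have hlt : D < X := lt_of_le_of_ne hDX fun h => hxA ((h.symm ▸ hxX : x ∈ D)).1
      obtain ⟨m, hm⟩ := IsPGroup.iff_card.mp (hP.to_subgroup D)
      have h2 := lt_of_le_of_ne (Subgroup.card_le_of_le hlt.le)
        fun h => hlt.ne (Subgroup.eq_of_le_of_card_ge hlt.le h.ge)
      rw [hX9, hm] at h2
      rw [hm]
      calc 3 ^ m ≤ 3 ^ 1 := Nat.pow_le_pow_right (by norm_num)
            (Nat.lt_succ_iff.mp ((Nat.pow_lt_pow_iff_right (by norm_num : 1 < 3)).mp h2))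
        _ = 3 := by norm_num
    -- `a ↦ [x, a]` on the abelian group `A`
    have hx3 : x * (x * x) = 1 := by rw [← mul_assoc, ← pow_two, ← pow_succ]; exact hX.2 x hxX
    have hcA : ∀ a ∈ A, x * a * x⁻¹ * a⁻¹ ∈ A := fun a ha =>
      mul_mem (hAn.conj_mem a ha x) (inv_mem ha)
    let f : A →* A :=
      { toFun := fun a => ⟨x * a * x⁻¹ * (a : P)⁻¹, hcA a a.2⟩
        map_one' := Subtype.ext (by simp)
        map_mul' := fun a b => Subtype.ext (by
          show x * ((a : P) * b) * x⁻¹ * ((a : P) * b)⁻¹ =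
            x * (a : P) * x⁻¹ * (a : P)⁻¹ * (x * b * x⁻¹ * (b : P)⁻¹)
          have h := H52.elem_comm hA (inv_mem a.2) (hcA b b.2)
          calc _ = x * (a : P) * x⁻¹ * ((x * b * x⁻¹ * (b : P)⁻¹) * (a : P)⁻¹) := by group
            _ = x * (a : P) * x⁻¹ * ((a : P)⁻¹ * (x * b * x⁻¹ * (b : P)⁻¹)) := by rw [h]
            _ = _ := by group) }
    have hker : Nat.card f.ker ≤ 3 := by
      refine le_trans (Nat.card_le_card_of_injective (fun a : f.ker => (⟨((a : A) : P), hfix _ (a : A).2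
        (mul_inv_eq_iff_eq_mul.mp (mul_inv_eq_one.mp (congrArg Subtype.val (MonoidHom.mem_ker.mp a.2))))⟩ : D))
        ?_) hDc
      intro a b h
      exact Subtype.ext (Subtype.ext (congrArg Subtype.val h :))
    -- `f³ = 1`, so `|A| ≤ |ker f|³`
    have hf3 : ∀ a : A, f (f (f a)) = 1 := by
      intro a
      haveI : IsMulCommutative A := hAc
      let φ : A →* A :=
        { toFun := fun b => ⟨x * b * x⁻¹, hAn.conj_mem b b.2 x⟩
          map_one' := Subtype.ext (by simp)
          map_mul' := fun b c => Subtype.ext (by simp [mul_assoc]) }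
      have hf : ∀ b, f b = φ b * b⁻¹ := fun b => rfl
      have hφ : φ (φ (φ a)) = a := Subtype.ext (by
        show x * (x * (x * (a : P) * x⁻¹) * x⁻¹) * x⁻¹ = a
        have : x * (x * (x * (a : P) * x⁻¹) * x⁻¹) * x⁻¹ = (x * (x * x)) * a * (x * (x * x))⁻¹ := by group
        rw [this, hx3, one_mul, inv_one, mul_one])
      have h3 : ∀ b : A, b ^ 3 = 1 := fun b => Subtype.ext (hAe b b.2)
      open scoped IsMulCommutative in
      calc f (f (f a)) = φ (φ (φ a)) * (φ (φ a))⁻¹ ^ 3 * (φ a) ^ 3 * a⁻¹ := by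
            simp only [hf, map_mul, map_inv, mul_inv_rev, inv_inv, pow_succ, pow_zero, one_mul]
            ac_rfl
        _ = 1 := by rw [hφ, h3, h3, mul_one, mul_one, mul_inv_cancel]
    have hr : ∀ (B : Subgroup A), Nat.card B ≤ Nat.card f.ker * Nat.card (B.map f) := fun B => by
      rw [← (f.ker.subgroupOf B).card_mul_index]
      refine Nat.mul_le_mul ?_ (le_of_eq ?_)
      · refine Nat.card_le_card_of_injective (fun b => (⟨((b : B) : A), b.2⟩ : f.ker)) ?_
        intro a b h
        exact Subtype.ext (Subtype.ext (congrArg Subtype.val h :))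
      · rw [← Subgroup.relIndex_ker]; rfl
    have h1 := hr ⊤
    have h2 := hr ((⊤ : Subgroup A).map f)
    have h3 : ((⊤ : Subgroup A).map f).map f ≤ f.ker := by
      rintro _ ⟨_, ⟨a, -, rfl⟩, rfl⟩
      exact MonoidHom.mem_ker.mpr (hf3 a)
    rw [Subgroup.card_top, hA4] at h1
    have h4 := h2.trans (Nat.mul_le_mul hker ((Subgroup.card_le_of_le h3).trans hker))
    have h5 := h1.trans (Nat.mul_le_mul hker h4)
    norm_num at h5
  intro X Y hX hX2 hY hY2
  have hchain : ∀ Z : Subgroup P, Cfsg.IsElementaryAbelian 3 Z → 3 ^ 2 ≤ Nat.card Z →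
      Relation.ReflTransGen (H52.Connectivity.Adj 3) Z U ∧
      Relation.ReflTransGen (H52.Connectivity.Adj 3) U Z := by
    intro Z hZ hZ2
    obtain ⟨E, hE, hEZ, hEc⟩ := key Z hZ hZ2
    have h1 := H52.Connectivity.card_inf_centralizer hP hU hUc hE hEc
    have hD := H52.elem_mono hE (inf_le_left : E ⊓ Subgroup.centralizer (U : Set P) ≤ E)
    constructor
    · refine Relation.ReflTransGen.head ⟨hZ, hZ2, hE, hEc.le,
        fun x hx e he => Subgroup.mem_centralizer_iff.mp (hEZ he) x hx⟩ ?_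
      refine Relation.ReflTransGen.head ⟨hE, hEc.le, hD, h1,
        fun e he d hd => H52.elem_comm hE he hd.1⟩ ?_
      exact Relation.ReflTransGen.single ⟨hD, h1, hU, hUc.ge,
        fun d hd u hu => (Subgroup.mem_centralizer_iff.mp hd.2 u hu).symm⟩
    · refine Relation.ReflTransGen.head ⟨hU, hUc.ge, hD, h1,
        fun u hu d hd => Subgroup.mem_centralizer_iff.mp hd.2 u hu⟩ ?_
      refine Relation.ReflTransGen.head ⟨hD, h1, hE, hEc.le,
        fun d hd e he => H52.elem_comm hE hd.1 he⟩ ?_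
      exact Relation.ReflTransGen.single ⟨hE, hEc.le, hZ, hZ2,
        fun e he x hx => (Subgroup.mem_centralizer_iff.mp (hEZ he) x hx).symm⟩
  exact (hchain X hX hX2).1.trans (hchain Y hY hY2).2


end Cfsg.Agent.S1338
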