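import Cfsg.Statements.S1343
import Cfsg.Agent.H51.ExtendedLayer

set_option autoImplicit false
open Cfsg

namespace Cfsg.Agent.S1343

/-- Let X be finite. Then L*_{2'}(X) = L_{2'}(X) ⊔ F for some subgroup F of odd order normalized by a Sylow 2-subgroup of X. -/
theorem result {X : Type*} [Group X] [Finite X] : ∃ F : Subgroup X, Odd (Nat.card ↥F) ∧ (∃ S : Sylow 2 X, (S : Subgroup X) ≤ Subgroup.normalizer (F : Set X)) ∧ Cfsg.extendedTwoLayer X = Cfsg.pLayer 2 X ⊔ F := by
  exact Cfsg.Agent.H51.exists_extendedTwoLayer_complement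

end Cfsg.Agent.S1343
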