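import Cfsg.Statements.S1348
import Mathlib
import Cfsg.Agent.H1.PSLSimple
import Cfsg.Agent.H51.Quasisimple
import Cfsg.Agent.H51.Component

set_option autoImplicit false
open Cfsg

namespace Cfsg.Agent.S1348

open Matrix
open scoped commutatorElement

section
variable {F : Type*} [Field F] {m : ℕ}

/-- `SL` in block coordinates `m + 1`. -/
def mm : SpecialLinearGroup (Fin (m + 1)) F →* Matrix (Fin m ⊕ Fin 1) (Fin m ⊕ Fin 1) F where
  toFun g := Matrix.reindexAlgEquiv F F finSumFinEquiv.symm (g : Matrix (Fin (m + 1)) (Fin (m + 1)) F)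
  map_one' := map_one (Matrix.reindexAlgEquiv F F finSumFinEquiv.symm)
  map_mul' g h := map_mul (Matrix.reindexAlgEquiv F F finSumFinEquiv.symm) g.1 h.1

theorem mm_injective : Function.Injective (mm : SpecialLinearGroup (Fin (m + 1)) F → _) :=
  fun _ _ h => Subtype.ext ((Matrix.reindexAlgEquiv F F finSumFinEquiv.symm).injective h)

/-- An element with given block coordinates. -/
def ofBlock (M : Matrix (Fin m ⊕ Fin 1) (Fin m ⊕ Fin 1) F) (h : M.det = 1) :
    SpecialLinearGroup (Fin (m + 1)) F :=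
  ⟨Matrix.reindexAlgEquiv F F finSumFinEquiv M, by rw [det_reindexAlgEquiv, h]⟩

theorem mm_ofBlock (M : Matrix (Fin m ⊕ Fin 1) (Fin m ⊕ Fin 1) F) (h : M.det = 1) :
    mm (ofBlock M h) = M := by
  ext a b
  simp [mm, ofBlock]

/-- `SL_m` as the upper block. -/
def blockHom : SpecialLinearGroup (Fin m) F →* SpecialLinearGroup (Fin (m + 1)) F where
  toFun A := ofBlock (fromBlocks (A : Matrix (Fin m) (Fin m) F) 0 0 1)
    (by rw [det_fromBlocks_zero₁₂, A.det_coe, det_one, one_mul])
  map_one' := mm_injective (by rw [mm_ofBlock, map_one]; exact fromBlocks_one)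
  map_mul' A B := mm_injective (by
    rw [map_mul, mm_ofBlock, mm_ofBlock, mm_ofBlock, fromBlocks_multiply]
    show fromBlocks (A.1 * B.1) 0 0 1 = _
    simp)

theorem mm_blockHom (A : SpecialLinearGroup (Fin m) F) :
    mm (blockHom A) = fromBlocks (A : Matrix (Fin m) (Fin m) F) 0 0 1 :=
  mm_ofBlock (fromBlocks (A : Matrix (Fin m) (Fin m) F) 0 0 1) (by rw [det_fromBlocks_zero₁₂, A.det_coe, det_one, one_mul])

end

/-- Let F be a finite field of odd order, n ≥ 7 odd, and t ∈ SL(n, F) the diagonal matrix with entries −1, …, −1, 1. Then E(C(t)) is a standard subgroup of SL(n, F). -/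
theorem result {F : Type*} [Field F] [Fintype F] [DecidableEq F] (hF : Odd (Fintype.card F)) (n : ℕ) (hn : 7 ≤ n) (hodd : Odd n) (t : Matrix.SpecialLinearGroup (Fin n) F) (ht : (t : Matrix (Fin n) (Fin n) F) = Matrix.diagonal (fun i : Fin n => if (i : ℕ) + 1 = n then (1 : F) else -1)) : Cfsg.IsStandardSubgroup ((Cfsg.layer ↥(Subgroup.centralizer ({t} : Set (Matrix.SpecialLinearGroup (Fin n) F)))).map (Subgroup.centralizer ({t} : Set (Matrix.SpecialLinearGroup (Fin n) F))).subtype) := by
  classical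
  obtain ⟨m, rfl⟩ : ∃ m, n = m + 1 := ⟨n - 1, by omega⟩
  have hm : 6 ≤ m := by omega
  haveI : Nontrivial (Fin m) := Fin.nontrivial_iff_two_le.2 (by omega)
  have hmeven : Even m := Nat.not_odd_iff_even.mp fun h => by
    rw [Nat.odd_add_one] at hodd; exact hodd h
  have h2 : (2 : F) ≠ 0 := by
    refine Ring.two_ne_zero (fun h => ?_)
    exact (Nat.not_even_iff_odd.2 hF) (FiniteField.even_card_iff_char_two.mp h |> Nat.even_iff.2)
  have hneg : (-1 : F) ≠ 1 := fun h => h2 (by linear_combination -h)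
  let G := Matrix.SpecialLinearGroup (Fin (m + 1)) F
  have htm : mm t = fromBlocks (-1) 0 0 1 := by
    show Matrix.reindexAlgEquiv F F finSumFinEquiv.symm (t : Matrix (Fin (m + 1)) (Fin (m + 1)) F) = _
    rw [ht]
    ext a b
    rcases a with a | a <;> rcases b with b | b <;>
      simp [Matrix.diagonal, Matrix.one_apply, Fin.ext_iff, a.2.ne] <;>
      first | omega | (split_ifs <;> simp_all <;> omega) | skip
  set C := Subgroup.centralizer ({t} : Set G)
  have hblock : ∀ g : G, g ∈ C → ∃ P Q, mm g = fromBlocks P 0 0 Q := by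
    intro g hg
    have h := congrArg mm (Subgroup.mem_centralizer_singleton_iff.mp hg)
    rw [map_mul, map_mul, htm, ← fromBlocks_toBlocks (mm g), fromBlocks_multiply, fromBlocks_multiply] at h
    simp only [Matrix.mul_zero, Matrix.zero_mul, add_zero, zero_add, Matrix.mul_neg, Matrix.neg_mul,
      Matrix.mul_one, Matrix.one_mul, fromBlocks_inj] at h
    obtain ⟨-, hb, hc, -⟩ := h
    refine ⟨(mm g).toBlocks₁₁, (mm g).toBlocks₂₂, ?_⟩
    have hb0 : (mm g).toBlocks₁₂ = 0 := by
      ext i j
      have h3 : (mm g).toBlocks₁₂ i j = -(mm g).toBlocks₁₂ i j := congrFun (congrFun hb i) j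
      exact (mul_eq_zero.mp (show (2 : F) * (mm g).toBlocks₁₂ i j = 0 by linear_combination h3)).resolve_left h2
    have hc0 : (mm g).toBlocks₂₁ = 0 := by
      ext i j
      have h3 : -(mm g).toBlocks₂₁ i j = (mm g).toBlocks₂₁ i j := congrFun (congrFun hc i) j
      exact (mul_eq_zero.mp (show (2 : F) * (mm g).toBlocks₂₁ i j = 0 by linear_combination -h3)).resolve_left h2
    conv_lhs => rw [← fromBlocks_toBlocks (mm g), hb0, hc0]
  have hψC : ∀ A : SpecialLinearGroup (Fin m) F, blockHom A ∈ C := fun A =>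
    Subgroup.mem_centralizer_singleton_iff.mpr (mm_injective (by
      rw [map_mul, map_mul, htm, mm_blockHom, fromBlocks_multiply, fromBlocks_multiply]
      simp))
  let S : Subgroup G := blockHom.range
  have hSC : S ≤ C := by rintro _ ⟨A, rfl⟩; exact hψC A
  have hSn : ∀ c ∈ C, ∀ s ∈ S, c * s * c⁻¹ ∈ S := by
    rintro c hc _ ⟨A, rfl⟩
    obtain ⟨P, Q, hD⟩ := hblock c hc
    have hdet : IsUnit P.det := by
      have h1 : IsUnit (mm c).det := by
        refine (Matrix.isUnit_iff_isUnit_det _).mp ⟨⟨mm c, mm c⁻¹, ?_, ?_⟩, rfl⟩ <;>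
          rw [← map_mul] <;> simp
      rw [hD, det_fromBlocks_zero₁₂] at h1
      exact isUnit_of_mul_isUnit_left h1
    let B : SpecialLinearGroup (Fin m) F := ⟨P * (A : Matrix (Fin m) (Fin m) F) * P⁻¹, by
      rw [det_mul, det_mul, A.det_coe, mul_one, det_nonsing_inv, Ring.mul_inverse_cancel _ hdet]⟩
    refine ⟨B, eq_mul_inv_iff_mul_eq.mpr (mm_injective ?_)⟩
    · rw [map_mul, map_mul, mm_blockHom B, mm_blockHom A, hD,
        show (B : Matrix (Fin m) (Fin m) F) = P * (A : Matrix (Fin m) (Fin m) F) * P⁻¹ from rfl]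
      simp [fromBlocks_multiply, Matrix.mul_assoc, Matrix.nonsing_inv_mul _ hdet]
  -- the centraliser of the block
  have hK : ∀ g : G, g ∈ Subgroup.centralizer (S : Set G) →
      ∃ (c : F) (Q : Matrix (Fin 1) (Fin 1) F), mm g = fromBlocks (Matrix.scalar (Fin m) c) 0 0 Q := by
    intro g hg
    have h : ∀ a b : Fin m, a ≠ b →
        (mm g).toBlocks₁₁ * single a b (1 : F) = single a b (1 : F) * (mm g).toBlocks₁₁ ∧
        single a b (1 : F) * (mm g).toBlocks₁₂ = 0 ∧ (mm g).toBlocks₂₁ * single a b (1 : F) = 0 := by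
      intro a b hab
      let T : SpecialLinearGroup (Fin m) F := ⟨transvection a b (1 : F), det_transvection_of_ne a b hab 1⟩
      have h := congrArg mm (Subgroup.mem_centralizer_iff.mp hg (blockHom T) ⟨_, rfl⟩)
      rw [map_mul, map_mul, mm_blockHom T, ← fromBlocks_toBlocks (mm g), fromBlocks_multiply,
        fromBlocks_multiply, show (T : Matrix (Fin m) (Fin m) F) = transvection a b (1 : F) from rfl] at h
      simp only [transvection, Matrix.mul_zero, Matrix.zero_mul, add_zero,
        zero_add, Matrix.mul_one, Matrix.one_mul, mul_add, add_mul, mul_one, one_mul, Matrix.mul_add,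
        Matrix.add_mul, fromBlocks_inj, add_right_inj] at h
      refine ⟨h.1.symm, ?_, ?_⟩
      · simpa using h.2.1
      · simpa using h.2.2.1.symm
    obtain ⟨c, hc⟩ := mem_range_scalar_of_commute_single (M := (mm g).toBlocks₁₁)
      fun a b hab => (h a b hab).1.symm
    refine ⟨c, (mm g).toBlocks₂₂, ?_⟩
    have hb0 : (mm g).toBlocks₁₂ = 0 := by
      ext b j
      obtain ⟨a, ha⟩ := exists_ne b
      have h3 := congrFun (congrFun (h a b ha).2.1 a) j
      rwa [Matrix.single_mul_apply_same, one_mul, Matrix.zero_apply] at h3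
    have hc0 : (mm g).toBlocks₂₁ = 0 := by
      ext j a
      obtain ⟨b, hb⟩ := exists_ne a
      have h3 := congrFun (congrFun (h a b (Ne.symm hb)).2.2 j) b
      rwa [Matrix.mul_single_apply_same, mul_one, Matrix.zero_apply] at h3
    conv_lhs => rw [← fromBlocks_toBlocks (mm g), hb0, hc0, ← hc]
  have hKcomm : ∀ g : G, g ∈ Subgroup.centralizer (S : Set G) → ∀ c ∈ C, g * c = c * g := by
    intro g hg c hc
    obtain ⟨x, Q, hQ⟩ := hK g hg
    obtain ⟨P, U, hP⟩ := hblock c hc
    refine mm_injective ?_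
    rw [map_mul, map_mul, hQ, hP, fromBlocks_multiply, fromBlocks_multiply]
    have e1 : (Matrix.diagonal fun _ : Fin m => x) * P = P * Matrix.diagonal fun _ : Fin m => x := by
      ext a b
      simp [Matrix.diagonal_mul, Matrix.mul_diagonal, mul_comm]
    have e2 : Q * U = U * Q := by
      ext a b
      simp [Matrix.mul_apply, Subsingleton.elim a 0, Subsingleton.elim b 0, mul_comm]
    simp [Matrix.scalar_apply, e1, e2]
  have hKC : Subgroup.centralizer (S : Set G) ≤ C := fun g hg =>
    Subgroup.mem_centralizer_singleton_iff.mpr (hKcomm g hg t (Subgroup.mem_centralizer_singleton_iff.mpr rfl))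
  have htK : t ∈ Subgroup.centralizer (S : Set G) := Subgroup.mem_centralizer_iff.mpr fun s hs =>
    Subgroup.mem_centralizer_singleton_iff.mp (hSC hs)
  -- `t` is the only involution centralising the block
  have huniq : ∀ g : G, g ∈ Subgroup.centralizer (S : Set G) → g * g = 1 → g = 1 ∨ g = t := by
    intro g hg hg2
    obtain ⟨c, Q, hQ⟩ := hK g hg
    have h := congrArg mm hg2
    rw [map_mul, map_one, hQ, fromBlocks_multiply, ← fromBlocks_one, fromBlocks_inj] at h
    have hc2 : c * c = 1 := by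
      have h4 := congrFun (congrFun h.1 ⟨0, by omega⟩) ⟨0, by omega⟩
      simpa [Matrix.scalar_apply] using h4
    have hdet : (mm g).det = 1 := by
      show (Matrix.reindexAlgEquiv F F finSumFinEquiv.symm (g : Matrix (Fin (m + 1)) (Fin (m + 1)) F)).det = 1
      rw [det_reindexAlgEquiv]; exact g.det_coe
    rw [hQ, det_fromBlocks_zero₁₂, Matrix.scalar_apply, det_diagonal, Finset.prod_const,
      Finset.card_univ, Fintype.card_fin] at hdet
    obtain ⟨k, rfl⟩ := hmeven
    rw [← two_mul, pow_mul, pow_two, hc2, one_pow, one_mul, det_fin_one] at hdet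
    have hQ1 : Q = 1 := by
      ext a b
      rw [Subsingleton.elim a 0, Subsingleton.elim b 0, hdet, Matrix.one_apply_eq]
    rcases mul_self_eq_one_iff.mp hc2 with rfl | rfl
    · left; refine mm_injective ?_; rw [hQ, hQ1, map_one, map_one, fromBlocks_one]
    · right; refine mm_injective ?_; rw [hQ, hQ1, htm, map_neg, map_one]
  -- `E(C(t))` is the block
  have hqs : Cfsg.IsQuasisimple (SpecialLinearGroup (Fin m) F) :=
    ⟨⟨H1.commutator_SL_eq_top (.inl (by simp; omega))⟩, H1.isSimpleGroup_PSL (.inl (by simp; omega))⟩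
  have hψinj : Function.Injective (blockHom : SpecialLinearGroup (Fin m) F → G) := fun A B h => by
    have := congrArg mm h
    rw [mm_blockHom, mm_blockHom, fromBlocks_inj] at this
    exact Subtype.ext this.1
  have hSq : Cfsg.IsQuasisimple ↥S := H51.quasisimple_of_equiv hqs (MonoidHom.ofInjective hψinj)
  set S' := S.subgroupOf C with hS'
  haveI : S'.Normal := ⟨fun s hs c => hSn _ c.2 _ hs⟩
  have hS'c : Cfsg.IsComponent S' := ⟨Subgroup.Normal.isSubnormal inferInstance,
    H51.quasisimple_of_equiv hSq (Subgroup.subgroupOfEquivOfLe hSC).symm⟩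
  have hlayer : (Cfsg.layer ↥C).map C.subtype = S := by
    have h1 : Cfsg.layer ↥C = S' := le_antisymm (sSup_le fun L hL => by
      rcases H51.component_eq_or_commute hL hS'c with h | h
      · exact h.le
      · exfalso
        refine H51.quasisimple_not_isMulCommutative hL.2 ⟨⟨fun x y => Subtype.ext (Subtype.ext ?_)⟩⟩
        refine hKcomm _ (Subgroup.mem_centralizer_iff.mpr fun s hs => ?_) _ (y : C).2
        have h2 : ⁅((x : C)), (⟨s, hSC hs⟩ : C)⁆ = 1 := by
          rw [← Subgroup.mem_bot, ← h]; exact Subgroup.commutator_mem_commutator x.2 hs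
        have h3 := congrArg (fun z : C => (z : G)) (commutatorElement_eq_one_iff_mul_comm.mp h2)
        exact h3.symm) (le_sSup hS'c)
    rw [h1, Subgroup.map_subgroupOf_eq_of_le hSC]
  rw [hlayer]
  have ht1 : t ≠ 1 := fun h => by
    have := congrFun (congrFun (congrArg mm h) (Sum.inl ⟨0, by omega⟩)) (Sum.inl ⟨0, by omega⟩)
    rw [htm, map_one] at this
    simp at this
    exact hneg this
  have ht2 : t * t = 1 := mm_injective (by rw [map_mul, map_one, htm, fromBlocks_multiply]; simp)
  have htord : orderOf t = 2 := orderOf_eq_prime (by rw [pow_two]; exact ht2) ht1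
  have hNK : ∀ g : G, g * t * g⁻¹ ∈ Subgroup.centralizer (S : Set G) → g ∈ C := by
    intro g hg
    rcases huniq _ hg (by rw [conj_mul, ht2, mul_one, mul_inv_cancel]) with h | h
    · exact absurd (conj_eq_one_iff.mp h) ht1
    · exact Subgroup.mem_centralizer_singleton_iff.mpr (mul_inv_eq_iff_eq_mul.mp h)
  have hCN : C ≤ Subgroup.normalizer (Subgroup.centralizer (S : Set G) : Set G) :=
    Subgroup.le_normalizer_iff.mpr fun c hc k hk => by rw [← hKcomm k hk c hc, mul_inv_cancel_right]; exact hk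
  have hNC : Subgroup.normalizer (Subgroup.centralizer (S : Set G) : Set G) ≤ C := fun g hg =>
    hNK g ((Subgroup.mem_normalizer_iff.mp hg t).mp htK)
  have hNS : Subgroup.normalizer (S : Set G) ≤ C := fun g hg => by
    refine hNK g (Subgroup.mem_centralizer_iff.mpr fun s hs => ?_)
    have h1 : g⁻¹ * s * g ∈ S := (Subgroup.mem_normalizer_iff''.mp hg s).mp hs
    have h2 := congrArg (fun z => g * z * g⁻¹) (Subgroup.mem_centralizer_iff.mp htK _ h1)
    simpa [mul_assoc] using h2
  refine ⟨hSq, ⟨?_, fun g hg => ?_⟩, fun g hg hbot => ?_, ?_⟩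
  · exact even_iff_two_dvd.mpr (htord ▸ Subgroup.orderOf_dvd_natCard _ htK)
  · by_contra hev
    obtain ⟨x, hx⟩ := exists_prime_orderOf_dvd_card' 2 (Nat.not_odd_iff_even.mp hev).two_dvd
    obtain ⟨⟨k, hk, e⟩, hx1⟩ := (⟨x.2.2, x.2.1⟩ : (x : G) ∈ (Subgroup.centralizer (S : Set G)).map
      (MulAut.conj g).toMonoidHom ∧ (x : G) ∈ Subgroup.centralizer (S : Set G))
    have hxo : orderOf (x : G) = 2 := by rw [Subgroup.orderOf_coe, hx]
    have hx2 : (x : G) * x = 1 := by rw [← pow_two, ← hxo, pow_orderOf_eq_one]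
    have hk' : g * k * g⁻¹ = x := e
    have hk2 : k * k = 1 := by
      rw [← hk', conj_mul] at hx2
      exact conj_eq_one_iff.mp hx2
    have hxt : (x : G) = t := (huniq _ hx1 hx2).resolve_left fun h => by simp [h] at hxo
    rcases huniq k hk hk2 with rfl | rfl
    · simp [← hk'] at hxo
    · exact hg (hCN (hNK g (by rw [hk', hxt]; exact htK)))
  · have hle : S.map (MulAut.conj g).toMonoidHom ≤ Subgroup.centralizer (S : Set G) := by
      rw [Subgroup.le_centralizer_iff, ← Subgroup.commutator_eq_bot_iff_le_centralizer]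
      exact hbot
    haveI : IsMulCommutative ↥(S.map (MulAut.conj g).toMonoidHom) := ⟨⟨fun a b =>
      Subtype.ext (hKcomm _ (hle a.2) _ (hKC (hle b.2)))⟩⟩
    exact H51.quasisimple_not_isMulCommutative
      (H51.quasisimple_map hSq _ fun h => H51.quasisimple_ne_bot hSq
        ((Subgroup.map_eq_bot_iff_of_injective _ (f := (MulAut.conj g).toMonoidHom) (MulAut.conj g).injective).mp h)) inferInstance
  · exact le_antisymm (hNS.trans hCN) (hNC.trans (Subgroup.le_normalizer_iff.mpr hSn))


end Cfsg.Agent.S1348
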