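import Cfsg.Statements.S1359
import Cfsg.Agent.H53.UAbelianClosure
import Cfsg.Agent.H53.CommutatorPLengthHolds
import Cfsg.Agent.S1421
import Cfsg.Agent.S1430

set_option autoImplicit false
open Cfsg

namespace Cfsg.Agent.S1359

/-- Let G be a minimal simple group of odd order and M a maximal subgroup with standard factorisation M = K U M_σ. Then the subgroup generated by those elements of U which centralize some non-identity element of M_σ is abelian. -/
theorem result {G : Type*} [Group G] [Finite G] (hG : Cfsg.IsMinSimpleOddOrder G)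
    (M : Subgroup G) (hM : IsCoatom M) (K U : Subgroup G) (hKU : Cfsg.IsSigmaDecomposition M K U) :
    IsMulCommutative (Subgroup.closure ((U : Set G) ∩ Cfsg.sigmaHat M)) := by
  refine H53.isMulCommutative_closure_sigmaHat hG hM hKU (fun hK => ?_)
    (fun E hE h => Cfsg.Agent.S1421.result hG M hM E hE h)
  obtain ⟨-, ⟨V, h1, h2, -⟩, -⟩ := Cfsg.Agent.S1430.result hG M hM K hKU.hall hK
  exact ⟨V, h1, h2⟩

end Cfsg.Agent.S1359
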