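import Cfsg.Statements.S1371
import Cfsg.Agent.H54.Listed
import Cfsg.Agent.H54.TypeP2TI
import Cfsg.Agent.H55.BG13.LocalInputsHold
import Cfsg.Agent.S1361
import Cfsg.Agent.H54.FittingHallNe

set_option autoImplicit false
open Cfsg

namespace Cfsg.Agent.S1371

/-- Let G be a minimal simple group of odd order, M a maximal subgroup with standard factorisation M = K U M_σ, K ≠ 1, K* = M_σ ∩ C_G(K), and Ẑ the set of elements of K K* outside K ∪ K*. Then the union of the M-conjugates of Ẑ equals A₀(M) with A(M) removed, and it is a TI-subset of G. -/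
theorem result {G : Type*} [Group G] [Finite G] (hG : Cfsg.IsMinSimpleOddOrder G)
    (M : Subgroup G) (hM : IsCoatom M) (K U : Subgroup G) (hKU : Cfsg.IsSigmaDecomposition M K U) (hK1 : K ≠ ⊥) :
    {a : G | ∃ m ∈ M, ∃ z ∈ ((↑(K ⊔ (Cfsg.sigmaCore M ⊓ Subgroup.centralizer (K : Set G))) : Set G) \ ((K : Set G) ∪ ↑(Cfsg.sigmaCore M ⊓ Subgroup.centralizer (K : Set G)))), a = m * z * m⁻¹} = Cfsg.sigmaA0 M K \ Cfsg.sigmaA M U ∧
      Cfsg.IsTISubset (Cfsg.sigmaA0 M K \ Cfsg.sigmaA M U) := by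
  exact Cfsg.Agent.H54.zHat_conjugates hG (Cfsg.Agent.H54.pairInputs hG (Cfsg.Agent.H55.localInputs hG)) hM hKU hK1

end Cfsg.Agent.S1371
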