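import Cfsg.Statements.S1373
import Cfsg.Agent.H54.Listed
import Cfsg.Agent.H54.TypeP2TI
import Cfsg.Agent.H55.BG13.LocalInputsHold
import Cfsg.Agent.S1361
import Cfsg.Agent.H54.FittingHallNe

set_option autoImplicit false
open Cfsg

namespace Cfsg.Agent.S1373

/-- Let G be a minimal simple group of odd order and M a maximal subgroup with standard factorisation M = K U M_σ, K ≠ 1 and U = 1. Then M_σ ∩ C_G(K) has prime order. -/
theorem result {G : Type*} [Group G] [Finite G] (hG : Cfsg.IsMinSimpleOddOrder G)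
    (M : Subgroup G) (hM : IsCoatom M) (K U : Subgroup G) (hKU : Cfsg.IsSigmaDecomposition M K U) (hK1 : K ≠ ⊥) (hU : U = ⊥) :
    (Nat.card ↥(Cfsg.sigmaCore M ⊓ Subgroup.centralizer (K : Set G))).Prime := by
  exact Cfsg.Agent.H54.kStar_prime_of_complement_bot hG (Cfsg.Agent.H55.localInputs hG) hM hKU hK1 hU

end Cfsg.Agent.S1373
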