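import Cfsg.Statements.S1374
import Cfsg.Agent.H54.SignalizerInstance

set_option autoImplicit false
open Cfsg

namespace Cfsg.Agent.S1374

/-- Let G be a minimal simple group of odd order, M a maximal subgroup and x a non-identity element of M_σ. Then C_M(x) has order coprime to its index in C_G(x), and C_G(x) has a normal subgroup R complementing C_M(x) such that for every conjugate gMg⁻¹ containing x there is exactly one r ∈ R with rMr⁻¹ = gMg⁻¹. -/
theorem result {G : Type*} [Group G] [Finite G] (hG : Cfsg.IsMinSimpleOddOrder G)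
    (M : Subgroup G) (hM : IsCoatom M) (x : G) (hx : x ∈ Cfsg.sigmaCore M) (hx1 : x ≠ 1) :
    (Nat.card ↥(M ⊓ Subgroup.centralizer ({x} : Set G))).Coprime ((M ⊓ Subgroup.centralizer ({x} : Set G)).relIndex (Subgroup.centralizer ({x} : Set G))) ∧
      ∃ R : Subgroup G, Subgroup.centralizer ({x} : Set G) ≤ Subgroup.normalizer (R : Set G) ∧ Cfsg.IsComplIn (M ⊓ Subgroup.centralizer ({x} : Set G)) R (Subgroup.centralizer ({x} : Set G)) ∧
        ∀ g : G, x ∈ M.map (MulAut.conj g).toMonoidHom → ∃! r : G, r ∈ R ∧ M.map (MulAut.conj r).toMonoidHom = M.map (MulAut.conj g).toMonoidHom := by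
  exact Cfsg.Agent.H54.signalizer_complement hG (Cfsg.Agent.H54.signalizerInputs hG) M hM x hx hx1

end Cfsg.Agent.S1374
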