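import Cfsg.Statements.S1377
import Cfsg.Agent.H54.SignalizerInstance

set_option autoImplicit false
open Cfsg

namespace Cfsg.Agent.S1377

/-- Let G be a minimal simple group of odd order and M a maximal subgroup. For x ≠ 1 in M_σ let R(x) = 1 if C_G(x) ≤ M and otherwise R(x) = C_{N_F}(x) for the unique maximal subgroup N containing C_G(x). Then the union over G-conjugates of the cosets x R(x) has cardinality (#M_σ − 1) times the index of M. -/
theorem result {G : Type*} [Group G] [Finite G] (hG : Cfsg.IsMinSimpleOddOrder G)
    (M : Subgroup G) (hM : IsCoatom M) :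
    Set.ncard (Cfsg.tildeOf M ((Cfsg.sigmaCore M : Set G) \ {1})) = (Nat.card (Cfsg.sigmaCore M) - 1) * M.index := by
  exact Cfsg.Agent.H54.ncard_tildeOf hG (Cfsg.Agent.H54.signalizerInputs hG) M hM

end Cfsg.Agent.S1377
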