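import Cfsg.Statements.S1382
import Cfsg.Agent.H55.BG16.TypeP345
import Cfsg.Agent.S1354
import Cfsg.Agent.S1355
import Cfsg.Agent.S1356
import Cfsg.Agent.S1357
import Cfsg.Agent.S1363
import Cfsg.Agent.S1364
import Cfsg.Agent.S1365
import Cfsg.Agent.S1370
-- import your own Cfsg.Agent.* helpers here

set_option autoImplicit false
open Cfsg

namespace Cfsg.Agent.S1382

/-- Let G be a minimal simple group of odd order and M a maximal subgroup with standard factorisation M = K U M_σ. Then M is of Type III or of Type IV if and only if K ≠ 1, U = 1 and M_F ≠ M_σ. -/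
theorem result {G : Type*} [Group G] [Finite G] (hG : Cfsg.IsMinSimpleOddOrder G)
    (M : Subgroup G) (hM : IsCoatom M) (K U : Subgroup G) (hKU : Cfsg.IsSigmaDecomposition M K U) :
    (Cfsg.IsOfTypeIII M ∨ Cfsg.IsOfTypeIV M) ↔ (K ≠ ⊥ ∧ U = ⊥ ∧ Cfsg.fittingHallOf M ≠ Cfsg.sigmaCore M) := by
  exact Cfsg.Agent.H55.BG16.isOfTypeIII_or_IV_iff hG hM hKU (Cfsg.Agent.S1354.result hG) (Cfsg.Agent.S1355.result hG) (Cfsg.Agent.S1356.result hG) (Cfsg.Agent.S1357.result hG) (Cfsg.Agent.S1363.result hG) (Cfsg.Agent.S1364.result hG) (Cfsg.Agent.S1365.result hG) (Cfsg.Agent.S1370.result hG)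

end Cfsg.Agent.S1382
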