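import Cfsg.Statements.S1384
import Cfsg.Agent.H55.BG16.NilpotentHall
import Cfsg.Agent.H54.HallFusion
import Cfsg.Agent.H54.ListedHolds
import Cfsg.Agent.H55.BG13.LocalInputsHold
-- import your own Cfsg.Agent.* helpers here

set_option autoImplicit false
open Cfsg

namespace Cfsg.Agent.S1384

/-- Let G be a minimal simple group of odd order and H a nilpotent subgroup whose order is coprime to its index. If x ∈ H and gxg⁻¹ ∈ H for some g ∈ G, then nxn⁻¹ = gxg⁻¹ for some n in the normalizer of H. -/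
theorem result {G : Type*} [Group G] [Finite G] (hG : Cfsg.IsMinSimpleOddOrder G)
    (H : Subgroup G) (hHn : Group.IsNilpotent H) (hHall : (Nat.card H).Coprime H.index) :
    ∀ x ∈ H, ∀ g : G, g * x * g⁻¹ ∈ H → ∃ n ∈ Subgroup.normalizer (H : Set G), n * x * n⁻¹ = g * x * g⁻¹ := by
  exact Cfsg.Agent.H55.BG16.nilpotentHall_fusion hG
    (fun M hM F hF hF1 hc => Cfsg.Agent.H54.hall_centralizer_fusion hG (Cfsg.Agent.H55.localInputs hG) hM hF hc hF1
      (Cfsg.Agent.H54.fittingHallData_of (Cfsg.Agent.H54.listed1437_holds hG (Cfsg.Agent.H55.localInputs hG))))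
    hHn hHall

end Cfsg.Agent.S1384
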