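import Cfsg.Statements.S1386
import Cfsg.Agent.H55.Cyclic

set_option autoImplicit false
open Cfsg Pointwise

namespace Cfsg.Agent.S1386

/-- Let G be a finite group, W₁, W₂ subgroups forming a self-normalizing cyclic pair, S a subgroup with W₂ ≤ S and W₁ a complement to S' in S, and (W₁, U, W₂') type-P data for S. Then W₂' = W₂ (that is, C_{S'}(W₁) = W₂). -/
theorem result {G : Type*} [Group G] [Finite G] (W₁ W₂ S U W₂' : Subgroup G) (hW : Cfsg.IsSelfNormalizingCyclic W₁ W₂)
    (hSW : Cfsg.IsComplIn ⁅S, S⁆ W₁ S) (hW₂S : W₂ ≤ S) (hP : Cfsg.IsTypePWith S W₁ U W₂') :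
    W₂' = W₂ := by
  obtain ⟨hW₁ne, hW₂ne, hWinf, hWcomm, hWcyc, hWnorm⟩ := hW
  obtain ⟨h1ne', h2ne', hW'inf, hW'comm, hW'cyc, hW'norm⟩ := hP.selfNormalizing
  obtain ⟨x, hx, hx1⟩ := (Subgroup.bot_or_exists_ne_one W₁).resolve_left hW₁ne
  have hle : W₂ ≤ W₁ ⊔ W₂' := by
    intro w hw
    obtain ⟨s, hs, a, ha, rfl⟩ := hSW.2.2.2 w (hW₂S hw)
    have hax : x * a = a * x := by
      exact H55.mul_comm_of_mem_cyclic hP.W₁_cyclic hx ha
    have hsx : x * s = s * x := by
      have h1 := hWcomm x hx (s * a) hw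
      have h2 : x * s * a = s * x * a := by
        rw [mul_assoc s x a, hax, ← mul_assoc]
        simpa [mul_assoc] using h1
      exact mul_right_cancel h2
    have hs2 : s ∈ W₂' := by
      rw [← hP.W₂_centralizer x hx hx1]
      refine ⟨hs, ?_⟩
      show s ∈ Subgroup.centralizer ({x} : Set G)
      rw [Subgroup.mem_centralizer_singleton_iff]
      exact hsx.symm
    exact mul_mem (Subgroup.mem_sup_right hs2) (Subgroup.mem_sup_left ha)
  have hsub : W₁ ⊔ W₂ ≤ W₁ ⊔ W₂' := sup_le le_sup_left hle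
  obtain ⟨b, hb, hb1⟩ := (Subgroup.bot_or_exists_ne_one W₂).resolve_left hW₂ne
  have hzW : x * b ∈ W₁ ⊔ W₂ := mul_mem (Subgroup.mem_sup_left hx) (Subgroup.mem_sup_right hb)
  have hz1 : x * b ∉ W₁ := fun h => hb1 <| by
    have h' : b ∈ W₁ := (Subgroup.mul_mem_cancel_left _ hx).1 h
    exact (Subgroup.eq_bot_iff_forall _).1 hWinf b ⟨h', hb⟩
  have hz2 : x * b ∉ W₂ := fun h => hx1 <| by
    have h' : x ∈ W₂ := (Subgroup.mul_mem_cancel_right _ hb).1 h
    exact (Subgroup.eq_bot_iff_forall _).1 hWinf x ⟨hx, h'⟩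
  have hnz := hWnorm {x * b} (Set.singleton_subset_iff.2 ⟨hzW, fun h => h.elim hz1 hz2⟩)
    (Set.singleton_nonempty _)
  have hge : W₁ ⊔ W₂' ≤ W₁ ⊔ W₂ := by
    intro y hy
    rw [← hnz, Subgroup.mem_set_normalizer_iff]
    have h' : x * b * y = y * (x * b) := H55.mul_comm_of_mem_cyclic hW'cyc (hsub hzW) hy
    intro n
    simp only [Set.mem_singleton_iff]
    constructor
    · rintro rfl
      rw [← h', mul_inv_cancel_right]
    · intro hn
      have hn' : y * n = x * b * y := mul_inv_eq_iff_eq_mul.1 hn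
      rw [h'] at hn'
      exact mul_left_cancel hn'
  have heq : W₁ ⊔ W₂ = W₁ ⊔ W₂' := le_antisymm hsub hge
  have hcard : ∀ V : Subgroup G, W₁ ⊓ V = ⊥ → (∀ a ∈ W₁, ∀ b ∈ V, a * b = b * a) →
      Nat.card ↥(W₁ ⊔ V) = Nat.card W₁ * Nat.card V := by
    intro V hinf hcom
    have hc : V ≤ Subgroup.normalizer (W₁ : Set G) := by
      intro v hv
      rw [Subgroup.mem_normalizer_iff]
      intro n
      constructor
      · intro hn
        rw [← hcom n hn v hv, mul_inv_cancel_right]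
        exact hn
      · intro hn
        have h := hcom _ hn v hv
        rw [inv_mul_cancel_right] at h
        rw [mul_left_cancel h.symm] at hn
        exact hn
    have hcoe : ((W₁ ⊔ V : Subgroup G) : Set G) = (W₁ : Set G) * (V : Set G) :=
      Subgroup.coe_mul_of_right_le_normalizer_left W₁ V hc
    have hinj : Function.Injective (fun p : W₁ × V => (p.1 : G) * p.2) :=
      Subgroup.mul_injective_of_disjoint (disjoint_iff.2 hinf)
    rw [← Nat.card_prod, ← Nat.card_range_of_injective hinj]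
    apply Nat.card_congr
    refine Equiv.setCongr ?_
    rw [hcoe]
    ext y
    simp [Set.mem_mul]
  have hc2 : Nat.card W₂' = Nat.card W₂ := by
    have h1 := hcard W₂ hWinf hWcomm
    have h2 := hcard W₂' hW'inf hW'comm
    rw [heq] at h1
    exact Nat.eq_of_mul_eq_mul_left Nat.card_pos (h2.symm.trans h1)
  have := hW'cyc
  have key : W₂'.subgroupOf (W₁ ⊔ W₂') = W₂.subgroupOf (W₁ ⊔ W₂') := by
    apply H55.cyclic_subgroup_eq_of_card_eq
    rw [Nat.card_congr (Subgroup.subgroupOfEquivOfLe le_sup_right).toEquiv,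
      Nat.card_congr (Subgroup.subgroupOfEquivOfLe hle).toEquiv, hc2]
  have h := congrArg (Subgroup.map (W₁ ⊔ W₂').subtype) key
  rwa [Subgroup.map_subgroupOf_eq_of_le le_sup_right, Subgroup.map_subgroupOf_eq_of_le hle] at h

end Cfsg.Agent.S1386
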