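import Cfsg.Statements.S1388
import Cfsg.Agent.H55.TypeP

set_option autoImplicit false
open Cfsg

namespace Cfsg.Agent.S1388

/-- Let M be a subgroup of a finite group G with type-P data (W₁, U, W₂) and H = M_F. Then the derived subgroup of U centralizes H, and if U ≠ 1 then U does not centralize H. -/
theorem result {G : Type*} [Group G] [Finite G] (M W₁ U W₂ : Subgroup G) (hP : Cfsg.IsTypePWith M W₁ U W₂) :
    ⁅U, U⁆ ≤ Subgroup.centralizer (Cfsg.fittingHallOf M : Set G) ∧ (U ≠ ⊥ → ¬ U ≤ Subgroup.centralizer (Cfsg.fittingHallOf M : Set G)) := by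
  refine ⟨?_, ?_⟩
  · refine le_trans ?_ (H55.typeP_inf_fitting_le hP)
    refine le_inf (Subgroup.commutator_le_self U) ?_
    exact (Subgroup.commutator_mono hP.U_compl.2.1 hP.U_compl.2.1).trans
      (hP.derived_two_le.trans hP.fitting_eq.le)
  · intro hU1 hU
    apply hU1
    have hF : Cfsg.fittingOf M = ⁅M, M⁆ := by
      refine le_antisymm hP.fitting_le ?_
      intro x hx
      obtain ⟨h, hh, u, hu, rfl⟩ := hP.U_compl.2.2.2 x hx
      rw [← hP.fitting_eq]
      exact mul_mem (Subgroup.mem_sup_left hh) (Subgroup.mem_sup_right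
        ⟨(hP.U_compl.2.1.trans (Subgroup.commutator_le_self M)) hu, hU hu⟩)
    have hWM : W₁ ≤ M := hP.W₁_compl.2.1
    have hd : (Cfsg.fittingSubgroup M).map M.subtype = ⁅M, M⁆ := hF
    have hC : Subgroup.IsComplement' (Cfsg.fittingSubgroup M) (W₁.subgroupOf M) := by
      apply Subgroup.isComplement'_of_disjoint_and_mul_eq_univ
      · rw [disjoint_iff, Subgroup.eq_bot_iff_forall]
        rintro ⟨x, hxM⟩ ⟨hx1, hx2⟩
        have : x ∈ ⁅M, M⁆ := hd ▸ Subgroup.mem_map_of_mem _ hx1
        exact Subtype.ext ((Subgroup.eq_bot_iff_forall _).1 hP.W₁_compl.2.2.1 x ⟨this, hx2⟩)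
      · rw [Set.eq_univ_iff_forall]
        rintro ⟨x, hxM⟩
        obtain ⟨a, ha, b, hb, rfl⟩ := hP.W₁_compl.2.2.2 x hxM
        rw [← hd] at ha
        obtain ⟨a', ha', rfl⟩ := ha
        exact ⟨a', ha', ⟨b, hWM hb⟩, hb, Subtype.ext rfl⟩
    have hle : Cfsg.fittingSubgroup M ≤ Cfsg.fittingHall M := by
      refine H55.le_fittingHall (hn := Subgroup.sSup_normal _ (fun _ h => h.1)) _
        (H55.fittingSubgroup_isNilpotent M) ?_
      rw [hC.symm.index_eq_card, ← hC.index_eq_card,
        Nat.card_congr (Subgroup.subgroupOfEquivOfLe hWM).toEquiv]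
      exact hP.W₁_hall.symm
    have : U ≤ Cfsg.fittingHallOf M := by
      refine hP.U_compl.2.1.trans ?_
      rw [← hF]
      exact Subgroup.map_mono hle
    rw [← hP.U_compl.2.2.1, inf_eq_right.2 this]

end Cfsg.Agent.S1388
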