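import Cfsg.Statements.S1389
import Cfsg.Agent.H55.BG16.InputsHold
-- import your own Cfsg.Agent.* helpers here

set_option autoImplicit false
open Cfsg

namespace Cfsg.Agent.S1389

/-- Let G be a minimal simple group of odd order and M a maximal subgroup, and let M_s be M' if M is of Type III or IV and M_F otherwise. Then N_G(P) ≤ M for every nontrivial Sylow subgroup P of M_s, and both M_F and M_s have order coprime to their index in G. -/
theorem result {G : Type*} [Group G] [Finite G] (hG : Cfsg.IsMinSimpleOddOrder G)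
    (M : Subgroup G) (hM : IsCoatom M) :
    (∀ (p : ℕ), p.Prime → ∀ (P : Sylow p ↥(Cfsg.typeCore M)), (P : Subgroup ↥(Cfsg.typeCore M)) ≠ ⊥ →
        Subgroup.normalizer ((((P : Subgroup ↥(Cfsg.typeCore M)).map (Cfsg.typeCore M).subtype : Subgroup G)) : Set G) ≤ M) ∧
      (Nat.card (Cfsg.fittingHallOf M)).Coprime (Cfsg.fittingHallOf M).index ∧
      (Nat.card (Cfsg.typeCore M)).Coprime (Cfsg.typeCore M).index := by
  exact Cfsg.Agent.H55.BG16.typeCore_sylow_normalizer_of hG hM (Cfsg.Agent.S1351.result hG) (Cfsg.Agent.S1352.result hG) (Cfsg.Agent.S1354.result hG) (Cfsg.Agent.S1355.result hG) (Cfsg.Agent.S1356.result hG) (Cfsg.Agent.S1357.result hG) (Cfsg.Agent.S1363.result hG) (Cfsg.Agent.S1364.result hG) (Cfsg.Agent.S1365.result hG) (Cfsg.Agent.S1370.result hG)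

end Cfsg.Agent.S1389
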