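import Cfsg.Statements.S1391
import Cfsg.Agent.H55.BG16.InputsFinal
import Cfsg.Agent.H55.BG16.Frozen
import Cfsg.Agent.H57.NoTypeV
-- import your own Cfsg.Agent.* helpers here

set_option autoImplicit false
open Cfsg

namespace Cfsg.Agent.S1391

/-- Let G be a minimal simple group of odd order, M a maximal subgroup, X = A(M) or A₀(M), and D the set of x ∈ X with C_G(x) not contained in M. Then two elements of X conjugate in G are conjugate in M; D ⊆ A₁(M) and for x ∈ D the centralizer C_G(x) lies in exactly one maximal subgroup; and for x ∈ D and the maximal subgroup L containing C_G(x): M ∩ L complements L_F in L, C_M(x) complements the normal subgroup C_{L_F}(x) of C_G(x), the order of L_F is coprime to that of C_M(y) for every y ∈ X, x ∈ A(L) but x ∉ A₁(L), L is of Type I or II, and if L is of Type II then M is a Frobenius group with kernel M_F. -/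
theorem result {G : Type*} [Group G] [Finite G] (hG : Cfsg.IsMinSimpleOddOrder G)
    (M : Subgroup G) (hM : IsCoatom M) (X : Set G) (hX : X = Cfsg.typeA M ∨ X = Cfsg.typeA0 M) :
    (∀ x ∈ X, ∀ g : G, g * x * g⁻¹ ∈ X → ∃ m ∈ M, m * x * m⁻¹ = g * x * g⁻¹) ∧
      (∀ x ∈ X, ¬ Subgroup.centralizer ({x} : Set G) ≤ M → x ∈ Cfsg.typeA1 M ∧ ∃! L : Subgroup G, IsCoatom L ∧ Subgroup.centralizer ({x} : Set G) ≤ L) ∧
      ∀ x ∈ X, ¬ Subgroup.centralizer ({x} : Set G) ≤ M → ∀ L : Subgroup G, IsCoatom L → Subgroup.centralizer ({x} : Set G) ≤ L →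
        Cfsg.IsComplIn (Cfsg.fittingHallOf L) (M ⊓ L) L ∧
        Subgroup.centralizer ({x} : Set G) ≤ Subgroup.normalizer ((Cfsg.fittingHallOf L ⊓ Subgroup.centralizer ({x} : Set G) : Subgroup G) : Set G) ∧
        Cfsg.IsComplIn (Cfsg.fittingHallOf L ⊓ Subgroup.centralizer ({x} : Set G)) (M ⊓ Subgroup.centralizer ({x} : Set G)) (Subgroup.centralizer ({x} : Set G)) ∧
        (∀ y ∈ X, (Nat.card (Cfsg.fittingHallOf L)).Coprime (Nat.card ↥(M ⊓ Subgroup.centralizer ({y} : Set G)))) ∧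
        (x ∈ Cfsg.typeA L ∧ x ∉ Cfsg.typeA1 L) ∧
        (Cfsg.IsOfTypeI L ∨ Cfsg.IsOfTypeII L) ∧
        (Cfsg.IsOfTypeII L → ∃ E : Subgroup ↥M, Cfsg.IsFrobeniusComplement E ∧ Cfsg.frobeniusKernel E = ((Cfsg.fittingHall ↥M : Subgroup ↥M) : Set ↥M)) := by
  exact Cfsg.Agent.H55.BG16.frozen_tame_embedding hG (Cfsg.Agent.H55.BG16.inputs hG) (Cfsg.Agent.H57.not_typeV_of_bg16 hG (Cfsg.Agent.H55.BG16.inputs hG)) M hM X hX

end Cfsg.Agent.S1391
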