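import Cfsg.Statements.S1404
import Cfsg.Agent.H19.SigmaFusion
import Cfsg.Agent.S1403
-- import your own Cfsg.Agent.* helpers here

set_option autoImplicit false
open Cfsg

namespace Cfsg.Agent.S1404

/-- Let G be a minimal simple group of odd order, M a maximal subgroup, p a prime in σ(M), and X a nontrivial p-subgroup of M. If gXg⁻¹ ≤ M for some g ∈ G then g = m c with m ∈ M and c ∈ C_G(X); and the normalizer of X is generated by N_M(X) and C_G(X). -/
theorem result {G : Type*} [Group G] [Finite G] (hG : Cfsg.IsMinSimpleOddOrder G)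
    (M : Subgroup G) (hM : IsCoatom M) (p : ℕ) [Fact p.Prime] (hp : p ∈ Cfsg.sigma M)
    (X : Subgroup G) (hXp : IsPGroup p X) (hX1 : X ≠ ⊥) (hXM : X ≤ M) :
    (∀ g : G, X.map (MulAut.conj g).toMonoidHom ≤ M → ∃ m ∈ M, ∃ c ∈ Subgroup.centralizer (X : Set G), g = m * c) ∧
      Subgroup.normalizer (X : Set G) = (M ⊓ Subgroup.normalizer (X : Set G)) ⊔ Subgroup.centralizer (X : Set G) := by
  exact ⟨fun g hg => Cfsg.Agent.H19.sigma_conj_eq_mul hG (fun K h1 h2 h3 => Cfsg.Agent.S1403.result hG K h1 h2 h3) hM hp hXp hX1 hXM (g := g) hg,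
    Cfsg.Agent.H19.sigma_normalizer_eq hG (fun K h1 h2 h3 => Cfsg.Agent.S1403.result hG K h1 h2 h3) hM hp hXp hX1 hXM⟩

end Cfsg.Agent.S1404
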