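import Cfsg.Statements.S1412
import Cfsg.Agent.H19.RankTwoSylow
import Cfsg.Agent.S1403
import Cfsg.Agent.S1444
-- import your own Cfsg.Agent.* helpers here

set_option autoImplicit false
open Cfsg

namespace Cfsg.Agent.S1412

/-- Let G be a minimal simple group of odd order, p a prime and P a Sylow p-subgroup of G with no elementary abelian subgroup of order p ^ 3. Then either P is abelian, or P is generated by two elementwise-commuting subgroups P₁, P₂ with P₁ nonabelian of order p ^ 3 and exponent p, P₂ cyclic, and the elements of P₂ of order dividing p generating exactly the centre of P₁. -/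
theorem result {G : Type*} [Group G] [Finite G] (hG : Cfsg.IsMinSimpleOddOrder G) (p : ℕ) [Fact p.Prime] (P : Sylow p G) (hr : Cfsg.PRankLE p 2 (P : Subgroup G)) :
    IsMulCommutative (P : Subgroup G) ∨ ∃ P₁ P₂ : Subgroup G, P₁ ⊔ P₂ = (P : Subgroup G) ∧ (∀ a ∈ P₁, ∀ b ∈ P₂, a * b = b * a) ∧
        ¬ IsMulCommutative P₁ ∧ Nat.card P₁ = p ^ 3 ∧ Monoid.exponent P₁ = p ∧ IsCyclic P₂ ∧
        Subgroup.closure {x : G | x ∈ P₂ ∧ x ^ p = 1} = P₁ ⊓ Subgroup.centralizer (P₁ : Set G) := by
  exact Cfsg.Agent.H19.sylow_rank_two_structure hG (fun K h1 h2 h3 => Cfsg.Agent.S1403.result hG K h1 h2 h3) (fun M hs ho H R R₀ hn hc hR hle hp hz p hpp => @Cfsg.Agent.S1444.result M _ _ hs ho H R R₀ hn hc hR hle hp hz p ⟨hpp⟩) P hr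

end Cfsg.Agent.S1412
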