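import Cfsg.Statements.S1413
import Cfsg.Agent.H19.SylowControl
import Cfsg.Agent.S1403
import Cfsg.Agent.S1444
-- import your own Cfsg.Agent.* helpers here

set_option autoImplicit false
open Cfsg

namespace Cfsg.Agent.S1413

/-- Let G be a minimal simple group of odd order, p a prime and P a Sylow p-subgroup. (c) If Q ≤ P and xQx⁻¹ ≤ P then xQx⁻¹ = yQy⁻¹ for some y ∈ N_G(P). (d) For every Q ≤ P, p does not divide the index of N_P(Q) in N_G(Q). (e) If R is a p-subgroup and Q ≤ P ∩ R is normal in N_G(P), then Q is normal in N_G(R). -/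
theorem result {G : Type*} [Group G] [Finite G] (hG : Cfsg.IsMinSimpleOddOrder G) (p : ℕ) [Fact p.Prime] (P : Sylow p G) :
    (∀ (Q : Subgroup G) (x : G), Q ≤ (P : Subgroup G) → Q.map (MulAut.conj x).toMonoidHom ≤ (P : Subgroup G) →
        ∃ y ∈ Subgroup.normalizer ((P : Subgroup G) : Set G), Q.map (MulAut.conj x).toMonoidHom = Q.map (MulAut.conj y).toMonoidHom) ∧
      (∀ Q : Subgroup G, Q ≤ (P : Subgroup G) →
        ¬ p ∣ ((P : Subgroup G) ⊓ Subgroup.normalizer (Q : Set G)).relIndex (Subgroup.normalizer (Q : Set G))) ∧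
      (∀ (R Q : Subgroup G), IsPGroup p R → Q ≤ (P : Subgroup G) ⊓ R →
        Subgroup.normalizer ((P : Subgroup G) : Set G) ≤ Subgroup.normalizer (Q : Set G) →
        Subgroup.normalizer (R : Set G) ≤ Subgroup.normalizer (Q : Set G)) := by
  exact ⟨fun Q x h1 h2 => Cfsg.Agent.H19.sylow_normalizer_conj hG (fun K h1 h2 h3 => Cfsg.Agent.S1403.result hG K h1 h2 h3) (fun M hs ho H R R₀ hn hc hR hle hp hz p hpp => @Cfsg.Agent.S1444.result M _ _ hs ho H R R₀ hn hc hR hle hp hz p ⟨hpp⟩) P (x := x) h1 h2,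
    fun Q h1 => Cfsg.Agent.H19.sylow_inf_normalizer_not_dvd hG (fun K h1 h2 h3 => Cfsg.Agent.S1403.result hG K h1 h2 h3) (fun M hs ho H R R₀ hn hc hR hle hp hz p hpp => @Cfsg.Agent.S1444.result M _ _ hs ho H R R₀ hn hc hR hle hp hz p ⟨hpp⟩) P h1,
    fun R Q h1 h2 h3 => Cfsg.Agent.H19.weakly_closed_normalizer hG (fun K h1 h2 h3 => Cfsg.Agent.S1403.result hG K h1 h2 h3) (fun M hs ho H R R₀ hn hc hR hle hp hz p hpp => @Cfsg.Agent.S1444.result M _ _ hs ho H R R₀ hn hc hR hle hp hz p ⟨hpp⟩) P h1 h2 h3⟩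

end Cfsg.Agent.S1413
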