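import Cfsg.Statements.S1445
import Cfsg.Agent.H53.FixedPointFreePrime
import Cfsg.Agent.H84.FittingTools
import Cfsg.Agent.H55.FittingStructure

set_option autoImplicit false
open Cfsg
open scoped commutatorElement
set_option linter.style.haveILetI false

namespace Cfsg.Agent.S1445

/-- Let G be a solvable group of odd order, K a normal subgroup and R a subgroup with G = KR and the orders of K and R coprime. Suppose K ∩ C_G(x) = K ∩ C_G(R) for every non-identity x ∈ R, and F(K) ∩ C_G(R) = 1. Then [K, R] is contained in the Fitting subgroup of K. -/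
theorem result {G : Type*} [Group G] [Finite G] [Group.IsSolvable G] (hodd : Odd (Nat.card G)) (K R : Subgroup G) [K.Normal] (hKR : K ⊔ R = ⊤) (hcop : (Nat.card K).Coprime (Nat.card R))
    (hprime : ∀ x ∈ R, x ≠ 1 → K ⊓ Subgroup.centralizer ({x} : Set G) = (K ⊓ Subgroup.centralizer (R : Set G)))
    (hF : Cfsg.fittingOf K ⊓ Subgroup.centralizer (R : Set G) = ⊥) :
    ⁅K, R⁆ ≤ Cfsg.fittingOf K := by
  by_cases hR1 : R = ⊥
  · rw [hR1, Subgroup.commutator_bot_right]; exact bot_le
  obtain ⟨r, hr, hrR⟩ := Nat.exists_prime_and_dvd (fun h => hR1 (Subgroup.card_eq_one.mp h))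
  haveI : Fact r.Prime := ⟨hr⟩
  obtain ⟨x, hx⟩ := exists_prime_orderOf_dvd_card' r (G := R) hrR
  set X := Subgroup.zpowers (x : G) with hXdef
  have hXc : Nat.card X = r := by rw [hXdef, Nat.card_zpowers, Subgroup.orderOf_coe, hx]
  have hx1 : (x : G) ≠ 1 := fun h => by
    rw [← Subgroup.orderOf_coe, h, orderOf_one] at hx
    exact hr.one_lt.ne hx
  have hXR : X ≤ R := Subgroup.zpowers_le.mpr x.2
  have hrK : ¬ r ∣ Nat.card K := fun h => hr.ne_one (Nat.eq_one_of_dvd_coprimes hcop h hrR)
  have hcopX : (Nat.card X).Coprime (Nat.card K) := hcop.symm.coprime_dvd_left (Subgroup.card_dvd_of_le hXR)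
  have hKodd : Odd (Nat.card K) := hodd.of_dvd_nat (Subgroup.card_subgroup_dvd_card K)
  have hCX : K ⊓ Subgroup.centralizer (X : Set G) = K ⊓ Subgroup.centralizer (R : Set G) := by
    refine le_antisymm ?_ (inf_le_inf_left K (Subgroup.centralizer_le hXR))
    rw [← hprime x x.2 hx1]
    exact inf_le_inf_left K (Subgroup.centralizer_le (by simp [hXdef]))
  set F := Cfsg.fittingOf K with hFdef
  have hFK : F ≤ K := H55.fittingOf_le K
  haveI hFn : F.Normal := by
    haveI := H19.fitting_characteristic K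
    rw [hFdef, Cfsg.fittingOf]; infer_instance
  -- fixed points of `x` on the prime cores
  have hFX : F ⊓ Subgroup.centralizer (X : Set G) = ⊥ := by
    rw [eq_bot_iff, ← hF]
    intro y hy
    exact ⟨hy.1, (hCX.le ⟨hFK hy.1, hy.2⟩).2⟩
  set π := QuotientGroup.mk' F with hπ
  have hπs : Function.Surjective π := QuotientGroup.mk'_surjective F
  set Kb := K.map π with hKb
  haveI : Kb.Normal := Subgroup.Normal.map inferInstance π hπs
  set Xb := X.map π with hXb
  -- `x` centralizes every prime core of `K / F`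
  have hcore : ∀ q : ℕ, q.Prime → Xb ≤ Subgroup.centralizer (H55.pCoreOf q Kb : Set (G ⧸ F)) := by
    intro q hq
    haveI : Fact q.Prime := ⟨hq⟩
    set P := H55.pCoreOf q Kb with hP
    haveI : P.Normal := by
      haveI := H19.pCore_characteristic q Kb
      rw [hP]; infer_instance
    have hPq : IsPGroup q P := H55.pCoreOf_isPGroup q Kb
    have hPK : P ≤ Kb := H55.pCoreOf_le q Kb
    set L := P.comap π ⊓ K with hL
    haveI : L.Normal := by rw [hL]; infer_instance
    have hXL : X ≤ Subgroup.normalizer (L : Set G) :=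
      Subgroup.normalizer_eq_top_iff.mpr (inferInstance : L.Normal) ▸ le_top
    have hFL : F ≤ L := le_inf ((QuotientGroup.ker_mk' F).symm.le.trans (Subgroup.ker_le_comap π P)) hFK
    obtain ⟨Q, hQL, hXQ, hQq, hQc⟩ := H20.exists_invariant_sylow_subgroup (A := X) hXL
      (hcopX.coprime_dvd_right (Subgroup.card_dvd_of_le inf_le_right))
      (Or.inl (H20.isSolvable_of_isPGroup (p := r) (IsPGroup.of_card (n := 1) (by rw [hXc, pow_one])))) q
    have hLmap : L.map π = P := le_antisymm
      ((Subgroup.map_mono inf_le_left).trans (Subgroup.map_comap_le π P)) fun p hp => by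
        obtain ⟨k, hk, rfl⟩ := hPK hp
        exact ⟨k, ⟨hp, hk⟩, rfl⟩
    have hgen : P ≤ Q.map π := by
      obtain ⟨n, hn⟩ := IsPGroup.iff_card.mp hPq
      obtain ⟨m, hm⟩ := IsPGroup.iff_card.mp (hQq.map π)
      have hrel : (Q.map π).relIndex (L.map π) ∣ Q.relIndex L := by
        rw [Subgroup.relIndex_map_map, hπ, QuotientGroup.ker_mk', sup_eq_left.mpr hFL]
        exact Subgroup.relIndex_dvd_of_le_left L le_sup_left
      have hnd : ¬ q ∣ Q.relIndex L := by
        have h := Subgroup.relIndex_mul_relIndex (⊥ : Subgroup G) Q L bot_le hQL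
        rw [Subgroup.relIndex_bot_left, Subgroup.relIndex_bot_left, hQc] at h
        intro hdv
        have h2 := mul_dvd_mul_left (q ^ (Nat.card L).factorization q) hdv
        rw [h, ← pow_succ] at h2
        exact Nat.pow_succ_factorization_not_dvd Nat.card_pos.ne' hq h2
      have hQP : Q.map π ≤ P := (Subgroup.map_mono hQL).trans hLmap.le
      have h := Subgroup.relIndex_mul_relIndex (⊥ : Subgroup (G ⧸ F)) (Q.map π) P bot_le hQP
      rw [Subgroup.relIndex_bot_left, Subgroup.relIndex_bot_left, hn] at h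
      obtain ⟨j, -, hj⟩ := (Nat.dvd_prime_pow hq).mp ⟨_, (mul_comm _ _).trans h |>.symm⟩
      have hj0 : j = 0 := by
        by_contra hj0
        apply hnd
        rw [hLmap, hj] at hrel
        exact (dvd_pow_self q hj0).trans hrel
      refine Subgroup.relIndex_eq_one.mp ?_
      rw [hj, hj0, pow_zero]
    rintro _ ⟨a, ha, rfl⟩
    refine Subgroup.mem_centralizer_iff.mpr fun p hp => ?_
    obtain ⟨u, hu, rfl⟩ := hgen hp
    have hcy : ∀ ℓ : ℕ, ℓ.Prime → ℓ ≠ q →
        ⁅a, u⁆ ∈ Subgroup.centralizer (H55.pCoreOf ℓ K : Set G) := by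
      intro ℓ hℓ hℓq
      haveI : Fact ℓ.Prime := ⟨hℓ⟩
      haveI : (H55.pCoreOf ℓ K).Normal := by
        haveI := H19.pCore_characteristic ℓ K
        infer_instance
      by_cases hb : H55.pCoreOf ℓ K = ⊥
      · rw [hb]
        exact Subgroup.mem_centralizer_iff.mpr fun b hb => by
          rw [Subgroup.mem_bot.mp hb, one_mul, mul_one]
      have hℓr : ℓ ≠ r := fun h => hrK (h ▸ ((H55.pi_pCoreOf K hb).trans
        (Subgroup.card_dvd_of_le (H55.pCoreOf_le ℓ K))))
      have hQK : Q ≤ K := hQL.trans inf_le_right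
      refine H53.commutator_le_centralizer_pGroup_of_no_fixed hr hℓr
        (H55.pCoreOf_isPGroup ℓ K) hXc (fun h => hrK (h.trans (Subgroup.card_dvd_of_le hQK))) ?_
        (hKodd.of_dvd_nat (Subgroup.card_dvd_of_le hQK)) hXQ ?_
        (Subgroup.commutator_mem_commutator ha hu)
      · intro h
        obtain ⟨m, hm⟩ := IsPGroup.iff_card.mp hQq
        exact hℓq ((Nat.prime_dvd_prime_iff_eq hℓ hq).mp (hℓ.dvd_of_dvd_pow (hm ▸ h)))
      · exact le_bot_iff.mp ((inf_le_inf_right _ (H55.pCoreOf_le_fittingOf ℓ K)).trans hFX.le)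
    have hyL : ⁅a, u⁆ ∈ L := by
      have h1 := H20.conj_mem_of_le_normalizer hXL ha (hQL hu)
      simpa [commutatorElement_def] using mul_mem h1 (inv_mem (hQL hu))
    have hyF : ⁅a, u⁆ ∈ F := by
      set y : K := ⟨⁅a, u⁆, hyL.2⟩ with hy
      have hmem : y ∈ Cfsg.fittingSubgroup K := by
        haveI := H19.fitting_normal K
        refine H84.mem_fitting_of_mem_comap_pCore q y ?_ fun ℓ hℓ hne => ?_
        · let f : K ⧸ Cfsg.fittingSubgroup K →* G ⧸ F :=
            QuotientGroup.map _ F K.subtype fun k hk => Subgroup.mem_map_of_mem _ hk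
          have hf : Function.Injective f := by
            refine (injective_iff_map_eq_one f).mpr fun z => ?_
            induction z using QuotientGroup.induction_on with
            | _ k =>
              intro hk
              obtain ⟨k', hk', he⟩ := (QuotientGroup.eq_one_iff (k : G)).mp hk
              exact (QuotientGroup.eq_one_iff k).mpr ((Subtype.ext he : k' = k) ▸ hk')
          have hle : P.comap f ≤ Cfsg.pCore q (K ⧸ Cfsg.fittingSubgroup K) :=
            H19.le_pCore inferInstance (hPq.comap_of_injective f hf)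
          exact hle (show f (y : K ⧸ Cfsg.fittingSubgroup K) ∈ P from hyL.1)
        · refine Subgroup.mem_centralizer_iff.mpr fun b hb => Subtype.ext ?_
          exact Subgroup.mem_centralizer_iff.mp (hcy ℓ hℓ hne) b ⟨b, hb, rfl⟩
      exact ⟨y, hmem, rfl⟩
    have h1 : π a * π u = π u * π a := by
      rw [← commutatorElement_eq_one_iff_mul_comm, ← map_commutatorElement]
      exact (QuotientGroup.eq_one_iff _).mpr hyF
    exact h1.symm
  -- so `x` centralizes `K / F`
  have hKs : Group.IsSolvable Kb := inferInstance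
  set Φ := Cfsg.fittingOf Kb with hΦ
  haveI : Φ.Normal := by
    haveI := H19.fitting_characteristic Kb
    rw [hΦ, Cfsg.fittingOf]; infer_instance
  have hXΦ : Xb ≤ Subgroup.centralizer (Φ : Set (G ⧸ F)) :=
    Subgroup.le_centralizer_iff.mp (H55.fittingOf_le_of_pCoreOf fun q hq =>
      Subgroup.le_centralizer_iff.mp (hcore q hq))
  have hXK : Xb ≤ Subgroup.normalizer (Kb : Set (G ⧸ F)) :=
    Subgroup.normalizer_eq_top_iff.mpr (inferInstance : Kb.Normal) ▸ le_top
  have hcopb : (Nat.card Xb).Coprime (Nat.card Kb) :=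
    (hcopX.coprime_dvd_left (Subgroup.card_map_dvd X π)).coprime_dvd_right (Subgroup.card_map_dvd K π)
  have hXcb : Xb ≤ Subgroup.centralizer (Kb : Set (G ⧸ F)) := by
    refine H20.le_centralizer_of_commutator_commutator_eq_bot hXK hcopb (Or.inr hKs) ?_
    have hKX : ⁅Kb, Xb⁆ ≤ Φ := by
      refine le_trans (le_inf (H20.commutator_le_of_le_normalizer hXK) ?_)
        (H55.inf_centralizer_fittingOf_le hKs)
      rw [← Subgroup.commutator_eq_bot_iff_le_centralizer]
      refine Subgroup.commutator_commutator_eq_bot_of_rotate ?_ ?_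
      · rw [Subgroup.commutator_eq_bot_iff_le_centralizer.mpr hXΦ, Subgroup.commutator_bot_left]
      · rw [Subgroup.commutator_eq_bot_iff_le_centralizer]
        exact (Subgroup.commutator_le_left Φ Kb).trans (Subgroup.le_centralizer_iff.mp hXΦ)
    rw [Subgroup.commutator_eq_bot_iff_le_centralizer]
    exact hKX.trans (Subgroup.le_centralizer_iff.mp hXΦ)
  -- hence `K = C_K(R) F`
  rw [Subgroup.commutator_le]
  intro k hk s hs
  obtain ⟨c, hc, hkc⟩ := H20.exists_fixed_mem_coset (A := X) (K := K) (N := F) hcopX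
    (Or.inr inferInstance) hFK (Subgroup.normalizer_eq_top_iff.mpr hFn ▸ le_top) (k := k) hk
    fun a ha => by
      have h1 : π k * π a = π a * π k :=
        Subgroup.mem_centralizer_iff.mp (hXcb (Subgroup.mem_map_of_mem π ha)) _
          (Subgroup.mem_map_of_mem π hk)
      rw [← QuotientGroup.eq_one_iff]
      show π (k⁻¹ * (a * k * a⁻¹)) = 1
      rw [map_mul, map_mul, map_mul, map_inv, map_inv, ← h1, mul_inv_cancel_right, inv_mul_cancel]
  have hcs : π c * π s = π s * π c := by
    rw [← map_mul, ← map_mul, (Subgroup.mem_centralizer_iff.mp (hCX.le hc).2 s hs).symm]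
  have hkc' : π k = π c := QuotientGroup.eq.mpr hkc
  rw [← QuotientGroup.eq_one_iff]
  show π ⁅k, s⁆ = 1
  rw [map_commutatorElement, hkc', commutatorElement_eq_one_iff_mul_comm]
  exact hcs

end Cfsg.Agent.S1445
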