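import Cfsg.Statements.S1446
import Cfsg.Agent.H53.FrobeniusAction

set_option autoImplicit false
open Cfsg

namespace Cfsg.Agent.S1446

/-- Let X be a finite group with subgroups K, R, M such that: K and R are nontrivial, K ∩ R = 1, R normalizes K, no non-identity element of R centralizes a non-identity element of K, K ⊔ R is solvable of odd order; M is nilpotent and nontrivial, normalized by K and by R, with order coprime to that of K ⊔ R, M ∩ C(K) = 1, and M ∩ C(x) = M ∩ C(R) for all non-identity x ∈ R. Then R has prime order p, #M = #(M ∩ C(R)) ^ p, and if M ∩ C(R) is cyclic then [K, K] centralizes M. -/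
theorem result {X : Type*} [Group X] [Finite X] (K R M : Subgroup X) (hK1 : K ≠ ⊥) (hR1 : R ≠ ⊥) (hKR : K ⊓ R = ⊥)
    (hRK : R ≤ Subgroup.normalizer (K : Set X)) (hfrob : ∀ r ∈ R, r ≠ 1 → K ⊓ Subgroup.centralizer ({r} : Set X) = ⊥)
    (hsolv : Group.IsSolvable ↥(K ⊔ R)) (hodd : Odd (Nat.card ↥(K ⊔ R)))
    (hM1 : M ≠ ⊥) (hMn : Group.IsNilpotent M) (hKM : K ≤ Subgroup.normalizer (M : Set X)) (hRM : R ≤ Subgroup.normalizer (M : Set X))
    (hcop : (Nat.card ↥(K ⊔ R)).Coprime (Nat.card M)) (hCK : M ⊓ Subgroup.centralizer (K : Set X) = ⊥)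
    (hpr : ∀ x ∈ R, x ≠ 1 → M ⊓ Subgroup.centralizer ({x} : Set X) = M ⊓ Subgroup.centralizer (R : Set X)) :
    (Nat.card R).Prime ∧ Nat.card M = Nat.card ↥(M ⊓ Subgroup.centralizer (R : Set X)) ^ Nat.card R ∧
      (IsCyclic ↥(M ⊓ Subgroup.centralizer (R : Set X)) → ⁅K, K⁆ ≤ Subgroup.centralizer (M : Set X)) := by
  haveI := hsolv
  set Fs := K ⊔ R
  have hKF : K ≤ Fs := le_sup_left
  have hRF : R ≤ Fs := le_sup_right
  haveI hKn : (K.subgroupOf Fs).Normal :=
    Subgroup.normal_subgroupOf_of_le_normalizer (sup_le Subgroup.le_normalizer hRK)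
  haveI : Group.IsSolvable (K.subgroupOf Fs) := inferInstance
  have hFM : Fs ≤ Subgroup.normalizer (M : Set X) := sup_le hKM hRM
  set φ := H20.conjAut hFM with hφ
  have hcomm : ∀ {a : Fs} {m : M}, φ a m = m → (a : X) * m = m * a := fun {a m} h => by
    have h1 := congrArg Subtype.val h
    rw [hφ, H20.coe_conjAut] at h1
    exact mul_inv_eq_iff_eq_mul.mp h1
  have hcomm' : ∀ {a : Fs} {m : M}, (a : X) * m = m * a → φ a m = m := fun {a m} h =>
    Subtype.ext (by rw [hφ, H20.coe_conjAut]; exact mul_inv_eq_iff_eq_mul.mpr h)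
  have hfix : ∀ S : Subgroup X, S ≤ Fs →
      (H53.fixedSubgroup φ (S.subgroupOf Fs)).map M.subtype = M ⊓ Subgroup.centralizer (S : Set X) := by
    intro S hS
    ext x
    constructor
    · rintro ⟨m, hm, rfl⟩
      exact ⟨m.2, Subgroup.mem_centralizer_iff.mpr fun s hs =>
        hcomm (a := ⟨s, hS hs⟩) (hm ⟨s, hS hs⟩ hs)⟩
    · rintro ⟨hxM, hxS⟩
      exact ⟨⟨x, hxM⟩, fun s hs => hcomm' (Subgroup.mem_centralizer_iff.mp hxS s hs), rfl⟩
  have hfixK : H53.fixedSubgroup φ (K.subgroupOf Fs) = ⊥ :=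
    (Subgroup.map_eq_bot_iff_of_injective _ M.subtype_injective).mp ((hfix K hKF).trans hCK)
  have hfpf : ∀ S : Subgroup X, S ≤ R → ∀ r ∈ S.subgroupOf Fs, r ≠ 1 →
      ∀ x ∈ K.subgroupOf Fs, r * x = x * r → x = 1 := by
    intro S hS r hr hr1 x hx hrx
    have hmem : (x : X) ∈ K ⊓ Subgroup.centralizer ({(r : X)} : Set X) :=
      ⟨hx, Subgroup.mem_centralizer_singleton_iff.mpr (congrArg Subtype.val hrx).symm⟩
    rw [hfrob r (hS hr) (fun h => hr1 (Subtype.ext h)), Subgroup.mem_bot] at hmem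
    exact Subtype.ext hmem
  have hcore : ∀ S : Subgroup X, S ≤ R →
      Nat.card M = Nat.card ↥(M ⊓ Subgroup.centralizer (S : Set X)) ^ Nat.card S ∧
      (IsCyclic ↥(M ⊓ Subgroup.centralizer (S : Set X)) → (Nat.card S).Prime →
        (Nat.card S).Coprime (Nat.card K) → ⁅K, K⁆ ≤ Subgroup.centralizer (M : Set X)) := by
    intro S hS
    obtain ⟨h1, h2⟩ := H53.card_eq_fixed_pow M φ (K.subgroupOf Fs) (S.subgroupOf Fs) hMn
      (hfpf S hS) hcop hfixK
    have hcS : Nat.card (S.subgroupOf Fs) = Nat.card S :=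
      Nat.card_congr (Subgroup.subgroupOfEquivOfLe (hS.trans hRF)).toEquiv
    have hcK : Nat.card (K.subgroupOf Fs) = Nat.card K :=
      Nat.card_congr (Subgroup.subgroupOfEquivOfLe hKF).toEquiv
    have hmap := hfix S (hS.trans hRF)
    refine ⟨?_, fun hcyc hp hco => ?_⟩
    · rw [h1, hcS, ← hmap, Subgroup.card_subtype]
    · have hcyc' : IsCyclic (H53.fixedSubgroup φ (S.subgroupOf Fs)) := by
        haveI := hcyc
        rw [← hmap] at hcyc
        haveI := hcyc
        exact isCyclic_of_injective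
          ((H53.fixedSubgroup φ (S.subgroupOf Fs)).equivMapOfInjective M.subtype
            M.subtype_injective).toMonoidHom (MulEquiv.injective _)
      have h3 := h2 hcyc' (hcS.symm ▸ hp) (by rw [hcS, hcK]; exact hco)
      intro g hg
      have hgF : g ∈ (⁅K.subgroupOf Fs, K.subgroupOf Fs⁆ : Subgroup Fs).map Fs.subtype := by
        rw [Subgroup.map_commutator, Subgroup.map_subgroupOf_eq_of_le hKF]
        exact hg
      obtain ⟨g', hg', rfl⟩ := hgF
      refine Subgroup.mem_centralizer_iff.mpr fun m hm => ?_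
      exact (hcomm (m := ⟨m, hm⟩) (DFunLike.congr_fun (h3 g' hg') ⟨m, hm⟩)).symm
  -- `R` has prime order
  obtain ⟨p, hp, hpR⟩ := Nat.exists_prime_and_dvd (fun h => hR1 (Subgroup.card_eq_one.mp h))
  haveI : Fact p.Prime := ⟨hp⟩
  obtain ⟨x, hx⟩ := exists_prime_orderOf_dvd_card' p (G := R) hpR
  have hx1 : (x : X) ≠ 1 := fun h => by
    rw [← Subgroup.orderOf_coe, h, orderOf_one] at hx
    exact hp.one_lt.ne hx
  have hzle : Subgroup.zpowers (x : X) ≤ R := Subgroup.zpowers_le.mpr x.2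
  have hcz : Nat.card (Subgroup.zpowers (x : X)) = p := by
    rw [Nat.card_zpowers, Subgroup.orderOf_coe, hx]
  have hCeq : M ⊓ Subgroup.centralizer (Subgroup.zpowers (x : X) : Set X) =
      M ⊓ Subgroup.centralizer (R : Set X) := by
    refine le_antisymm ?_ (inf_le_inf_left M (Subgroup.centralizer_le hzle))
    rw [← hpr x x.2 hx1]
    exact inf_le_inf_left M (Subgroup.centralizer_le (by simp))
  have h1 := (hcore _ hzle).1
  rw [hCeq, hcz] at h1
  obtain ⟨h2, h3⟩ := hcore R le_rfl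
  set c := Nat.card ↥(M ⊓ Subgroup.centralizer (R : Set X))
  have hc1 : c ≠ 1 := fun h => hM1 (Subgroup.card_eq_one.mp (by rw [h2, h, one_pow]))
  have hc0 : 0 < c := Nat.card_pos
  have hR : Nat.card R = p := Nat.pow_right_injective (by omega : 2 ≤ c) (h2.symm.trans h1)
  refine ⟨hR ▸ hp, h2, fun hcyc => h3 hcyc (hR ▸ hp) ?_⟩
  rw [hR]
  -- `p` does not divide `|K|`
  refine (Nat.Prime.coprime_iff_not_dvd hp).mpr fun hpK => ?_
  have hxR : IsPGroup p (Subgroup.zpowers (x : X)) := IsPGroup.of_card (n := 1) (by rw [hcz, pow_one])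
  have hRn : Subgroup.zpowers (x : X) ≤ Subgroup.normalizer (K : Set X) := hzle.trans hRK
  letI : MulAction (Subgroup.zpowers (x : X)) K :=
    { smul := fun r k => ⟨r * k * (r : X)⁻¹, (Subgroup.mem_normalizer_iff.mp (hRn r.2) k).mp k.2⟩
      one_smul := fun k => Subtype.ext
        (show ((1 : Subgroup.zpowers (x : X)) : X) * k * ((1 : Subgroup.zpowers (x : X)) : X)⁻¹ = k
          by simp)
      mul_smul := fun r s k => Subtype.ext
        (show ((r * s : Subgroup.zpowers (x : X)) : X) * k * ((r * s : Subgroup.zpowers (x : X)) : X)⁻¹ =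
            r * ((s : X) * k * (s : X)⁻¹) * (r : X)⁻¹ by simp [mul_assoc]) }
  obtain ⟨b, hb, hb1⟩ := hxR.exists_fixed_point_of_prime_dvd_card_of_fixed_point K hpK
    (a := (1 : K)) (fun r => Subtype.ext (show (r : X) * ((1 : K) : X) * (r : X)⁻¹ = _ by simp))
  apply hb1
  have h := congrArg Subtype.val (hb ⟨x, Subgroup.mem_zpowers _⟩)
  have hmem : (b : X) ∈ K ⊓ Subgroup.centralizer ({(x : X)} : Set X) :=
    ⟨b.2, Subgroup.mem_centralizer_singleton_iff.mpr (mul_inv_eq_iff_eq_mul.mp h).symm⟩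
  rw [hfrob x x.2 hx1, Subgroup.mem_bot] at hmem
  exact Subtype.ext hmem.symm

end Cfsg.Agent.S1446
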