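import Cfsg.Statements.S1447
import Cfsg.Agent.H53.MetacyclicAction

set_option autoImplicit false
open Cfsg

namespace Cfsg.Agent.S1447

/-- Let G be a finite group, p an odd prime, R a metacyclic p-subgroup and A a subgroup of order coprime to p normalizing R. Then [R, A] is abelian; R is generated by [R, A] and R ∩ C_G(A), which meet trivially; and if R is non-abelian and A does not centralize R, then [R, A] and R ∩ C_G(A) are nontrivial cyclic groups and [R, R] ≤ [R, A]. -/
theorem result {G : Type*} [Group G] [Finite G] (p : ℕ) [Fact p.Prime] (hp : p ≠ 2) (R A : Subgroup G) (hR : IsPGroup p R) (hRm : Cfsg.IsMetacyclic R)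
    (hA : (A ≤ Subgroup.normalizer (R : Set G))) (hcop : (Nat.card A).Coprime p) :
    IsMulCommutative ↥⁅R, A⁆ ∧ ⁅R, A⁆ ⊔ (R ⊓ Subgroup.centralizer (A : Set G)) = R ∧ ⁅R, A⁆ ⊓ (R ⊓ Subgroup.centralizer (A : Set G)) = ⊥ ∧
      (¬ IsMulCommutative R → ¬ A ≤ Subgroup.centralizer (R : Set G) →
        ⁅R, A⁆ ≠ ⊥ ∧ IsCyclic ↥⁅R, A⁆ ∧ (R ⊓ Subgroup.centralizer (A : Set G)) ≠ ⊥ ∧ IsCyclic ↥(R ⊓ Subgroup.centralizer (A : Set G)) ∧ ⁅R, R⁆ ≤ ⁅R, A⁆) := by

  have hcopR : (Nat.card A).Coprime (Nat.card R) := by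
    obtain ⟨k, hk⟩ := IsPGroup.iff_card.mp hR
    rw [hk]; exact hcop.pow_right k
  have hsolv : Group.IsSolvable A ∨ Group.IsSolvable R :=
    Or.inr (H20.isSolvable_of_isPGroup (p := p) hR)
  set T := ⁅R, A⁆ with hTdef
  set C := R ⊓ Subgroup.centralizer (A : Set G) with hCdef
  have hTR : T ≤ R := H20.commutator_le_of_le_normalizer hA
  have hAT : A ≤ Subgroup.normalizer (T : Set G) := Subgroup.normalizer_commutator_ge_right R A
  have hRT : R ≤ Subgroup.normalizer (T : Set G) := Subgroup.normalizer_commutator_ge_left R A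
  have hTm : Cfsg.IsMetacyclic T :=
    H53.isMetacyclic_of_injective hRm (Subgroup.inclusion hTR) (Subgroup.inclusion_injective hTR)
  have hTT : ⁅T, A⁆ = T := H20.commutator_commutator_eq hA hcopR hsolv
  have hTc : IsMulCommutative T :=
    H53.isMulCommutative_of_commutator_eq_self hp (hR.to_le hTR) hTm hAT hcop hTT
  have hsup : T ⊔ C = R := H20.commutator_sup_centralizer hA hcopR hsolv
  have hinf : T ⊓ C = ⊥ := by
    have h := H20.centralizer_inf_commutator_eq_bot hAT
      (hcopR.coprime_dvd_right (Subgroup.card_dvd_of_le hTR))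
    rw [hTT] at h
    rw [eq_bot_iff, ← h]
    exact fun x hx => ⟨⟨hx.1, hx.2.2⟩, hx.1⟩
  refine ⟨hTc, hsup, hinf, fun hnab hnc => ?_⟩
  have hTne : T ≠ ⊥ := fun h => hnc (H20.le_centralizer_of_commutator_eq_bot h)
  have hCne : C ≠ ⊥ := fun h => by
    rw [h, sup_bot_eq] at hsup
    exact hnab (hsup ▸ hTc)
  have horder : ∀ X : Subgroup G, X ≤ R → X ≠ ⊥ → ∃ y ∈ X, orderOf y = p := by
    intro X hX hne
    obtain ⟨y, hy⟩ := exists_prime_orderOf_dvd_card' (G := X) p
      (((hR.to_le hX).card_eq_or_dvd).resolve_left fun h => hne (Subgroup.card_eq_one.mp h))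
    exact ⟨y, y.2, by rwa [Subgroup.orderOf_coe]⟩
  have hTcyc : IsCyclic T := by
    by_contra hTn
    obtain ⟨E, hEn, -, hEp, hEc⟩ := H24.exists_normal_elementary_two T p hp (hR.to_le hTR) hTn
    obtain ⟨y, hy, hyo⟩ := horder C inf_le_left hCne
    let O : Subgroup G :=
      { carrier := {t | t ∈ T ∧ t ^ p = 1}
        one_mem' := ⟨one_mem _, one_pow _⟩
        mul_mem' := fun {a b} ha hb => ⟨mul_mem ha.1 hb.1, by
          have hab : Commute a b :=
            congrArg Subtype.val (hTc.is_comm.comm (⟨a, ha.1⟩ : T) ⟨b, hb.1⟩)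
          rw [hab.mul_pow, ha.2, hb.2, one_mul]⟩
        inv_mem' := fun {a} ha => ⟨inv_mem ha.1, by rw [inv_pow, ha.2, inv_one]⟩ }
    have hEO : E.map T.subtype ≤ O := by
      rintro _ ⟨e, he, rfl⟩
      exact ⟨e.2, congrArg Subtype.val (hEp e he)⟩
    have hOc : p ^ 2 ≤ Nat.card O := by
      rw [← hEc, ← Subgroup.card_subtype T E]
      exact Subgroup.card_le_of_le hEO
    have hyn : y ∈ Subgroup.normalizer (O : Set G) := by
      have hyT := hRT hy.1
      rw [Subgroup.mem_normalizer_iff] at hyT ⊢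
      intro t
      change (t ∈ T ∧ t ^ p = 1) ↔ (y * t * y⁻¹ ∈ T ∧ (y * t * y⁻¹) ^ p = 1)
      rw [conj_pow, conj_eq_one_iff, ← hyT t]
    have hyO : y ∉ O := fun h => by
      have : y ∈ T ⊓ C := ⟨h.1, hy⟩
      rw [hinf, Subgroup.mem_bot] at this
      rw [this, orderOf_one] at hyo
      exact (Fact.out : p.Prime).one_lt.ne hyo
    exact H53.false_of_elementary_sq hp hR hRm (E := O) (fun t ht => hTR (show t ∈ T ∧ t ^ p = 1 from ht).1)
      (fun t ht => (show t ∈ T ∧ t ^ p = 1 from ht).2) hOc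
      hy.1 hyo hyn hyO
  have hTsub : (T.subgroupOf R).Normal := Subgroup.normal_subgroupOf_of_le_normalizer hRT
  have hCcyc : IsCyclic C := by
    by_contra hCn
    obtain ⟨E, hEn, -, hEp, hEc⟩ :=
      H24.exists_normal_elementary_two C p hp (hR.to_le inf_le_left) hCn
    obtain ⟨z, hzT, hzc, hzo⟩ := H24.exists_central_orderOf hR (N := T.subgroupOf R) (fun h => by
      refine hTne (le_bot_iff.mp fun t ht => ?_)
      have h1 : (⟨t, hTR ht⟩ : R) ∈ T.subgroupOf R := ht
      rw [h, Subgroup.mem_bot] at h1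
      exact congrArg Subtype.val h1)
    have hcc : ∀ x ∈ R, (z : G) * x = x * z := fun x hx =>
      (congrArg Subtype.val (Subgroup.mem_center_iff.mp hzc ⟨x, hx⟩)).symm
    have hzn : (z : G) ∈ Subgroup.normalizer (E.map C.subtype : Set G) := by
      rw [Subgroup.mem_normalizer_iff]
      intro t
      constructor
      · intro ht
        obtain ⟨e, -, rfl⟩ := id ht
        simpa [hcc _ e.2.1] using ht
      · intro ht
        obtain ⟨e, he, het⟩ := id ht
        have : t = e := by
          rw [Subgroup.coe_subtype] at het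
          have h2 := hcc _ e.2.1
          rw [het] at h2
          rw [het]
          exact mul_left_cancel (a := (z : G)) (by rw [h2, inv_mul_cancel_right])
        exact ⟨e, he, this.symm⟩
    have hzE : (z : G) ∉ E.map C.subtype := fun ⟨e, he, hez⟩ => by
      have : (z : G) ∈ T ⊓ C := ⟨hzT, hez ▸ e.2⟩
      rw [hinf, Subgroup.mem_bot] at this
      rw [← Subgroup.orderOf_coe, this, orderOf_one] at hzo
      exact (Fact.out : p.Prime).one_lt.ne hzo
    exact H53.false_of_elementary_sq hp hR hRm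
      ((Subgroup.map_subtype_le E).trans inf_le_left)
      (by rintro _ ⟨e, he, rfl⟩; exact congrArg Subtype.val (hEp e he))
      (by rw [Subgroup.card_subtype, hEc]) z.2 (by rw [Subgroup.orderOf_coe, hzo]) hzn hzE
  refine ⟨hTne, hTcyc, hCne, hCcyc, ?_⟩
  have htop : T.subgroupOf R ⊔ C.subgroupOf R = ⊤ := by
    rw [← Subgroup.subgroupOf_sup hTR inf_le_left, hsup, Subgroup.subgroupOf_self]
  have : IsCyclic (C.subgroupOf R) :=
    isCyclic_of_surjective _ (Subgroup.subgroupOfEquivOfLe (inf_le_left : C ≤ R)).symm.surjective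
  have hle : commutator R ≤ T.subgroupOf R :=
    Subgroup.Normal.commutator_le_of_self_sup_commutative_eq_top htop inferInstance
  rw [← Subgroup.map_subtype_commutator R]
  exact (Subgroup.map_mono hle).trans (Subgroup.map_subgroupOf_eq_of_le hTR).le

end Cfsg.Agent.S1447
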