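import Cfsg.Statements.S1449
import Cfsg.Agent.H53.OddActionRankTwo

set_option autoImplicit false
open Cfsg

namespace Cfsg.Agent.S1449

/-- Let G be a finite group, p an odd prime, R a p-subgroup with no elementary abelian subgroup of order p ^ 3, and A a solvable subgroup of odd order normalizing R with A ∩ C_G(R) = 1. Then the derived subgroup [A, A] is a p-group. -/
theorem result {G : Type*} [Group G] [Finite G] (p : ℕ) [Fact p.Prime] (hp : p ≠ 2) (R A : Subgroup G) (hR : IsPGroup p R) (hr : Cfsg.PRankLE p 2 R)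
    (hA : (A ≤ Subgroup.normalizer (R : Set G))) (hAs : Group.IsSolvable A) (hAodd : Odd (Nat.card A)) (hfaith : A ⊓ Subgroup.centralizer (R : Set G) = ⊥) :
    IsPGroup p ↥⁅A, A⁆ := by
  set ψ : A →* MulAut R := R.normalizerMonoidHom.comp (Subgroup.inclusion hA) with hψ
  have hker : IsPGroup p ψ.ker := by
    have hbot : ψ.ker = ⊥ := by
      rw [hψ, ← MonoidHom.comap_ker, Subgroup.normalizerMonoidHom_ker, eq_bot_iff]
      intro a ha
      exact Subgroup.mem_bot.mpr (Subtype.ext (Subgroup.mem_bot.mp (hfaith ▸ ⟨a.2, ha⟩)))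
    rw [hbot]
    exact IsPGroup.of_bot
  have h := (Cfsg.Agent.H53.odd_action_rank_two hp hR hr hAodd ψ hker).1
  rw [← Subgroup.map_subtype_commutator]
  exact h.map A.subtype

end Cfsg.Agent.S1449
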