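import Cfsg.Statements.S1454
import Cfsg.Agent.H53.RankTwoStructure
import Cfsg.Agent.H53.NarrowAut
import Cfsg.Agent.H19.Cores

set_option autoImplicit false
open Cfsg
open scoped commutatorElement
set_option linter.style.haveILetI false

namespace Cfsg.Agent.S1454

/-- Let G be a finite group, p an odd prime, R a narrow p-subgroup and A a solvable subgroup of odd order normalizing R with A ∩ C_G(R) = 1. Then [A, A] ≤ O_p(A) and the index of O_p(A) in A is coprime to p; if R has an elementary abelian subgroup of order p ^ 3 then the order of every element of A of order coprime to p divides p − 1; and if the order of A is a prime not dividing p(p − 1), then 2·#A divides p + 1, and if in addition [R, A] = R and R is non-abelian then #R = p ^ 3. -/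
theorem result {G : Type*} [Group G] [Finite G] (p : ℕ) [Fact p.Prime] (hp : p ≠ 2) (R A : Subgroup G) (hR : IsPGroup p R) (hRn : Cfsg.IsNarrow p R)
    (hA : (A ≤ Subgroup.normalizer (R : Set G))) (hAs : Group.IsSolvable A) (hAodd : Odd (Nat.card A)) (hfaith : A ⊓ Subgroup.centralizer (R : Set G) = ⊥) :
    (commutator ↥A ≤ Cfsg.pCore p ↥A ∧ ((Cfsg.pCore p ↥A).index).Coprime p) ∧
      (¬ Cfsg.PRankLE p 2 R → ∀ a ∈ A, (orderOf a).Coprime p → orderOf a ∣ p - 1) ∧
      ((Nat.card A).Prime → ¬ Nat.card A ∣ p * (p - 1) →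
        2 * Nat.card A ∣ p + 1 ∧ (⁅R, A⁆ = R → ¬ IsMulCommutative R → Nat.card R = p ^ 3)) := by
  have hpp : p.Prime := Fact.out
  set ψ := H20.conjAut hA with hψ
  have hinj : Function.Injective ψ := by
    refine (injective_iff_map_eq_one _).mpr fun a ha => Subtype.ext ?_
    have hmem : (a : G) ∈ A ⊓ Subgroup.centralizer (R : Set G) := by
      refine ⟨a.2, Subgroup.mem_centralizer_iff.mpr fun r hr => ?_⟩
      have h : ((ψ a ⟨r, hr⟩ : R) : G) = r := by rw [ha]; rfl
      rw [hψ, H20.coe_conjAut] at h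
      exact (mul_inv_eq_iff_eq_mul.mp h).symm
    rw [hfaith, Subgroup.mem_bot] at hmem
    exact hmem
  have hker : IsPGroup p ψ.ker := (MonoidHom.ker_eq_bot_iff ψ).mpr hinj ▸ IsPGroup.of_bot
  -- large rank: the automorphism group is controlled
  have hbig : ¬ Cfsg.PRankLE p 2 R → IsPGroup p (commutator (MulAut R)) ∧
      ∀ φ : MulAut R, (orderOf φ).Coprime p → orderOf φ ∣ p - 1 := by
    intro hr
    rcases hRn with h | ⟨R₀, R₁, h₀, h₁, hinf, hcomm, hsup⟩
    · exact absurd h hr
    · obtain ⟨E, hE, hE2, hEmax⟩ :=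
        H53.exists_maxElementary_sq_of_narrow hR hr R₀ R₁ h₀ h₁ hinf hcomm hsup
      exact H53.aut_of_maxElementary_sq hp hR hr E hE hE2 hEmax
  have hder : IsPGroup p (commutator A) := by
    by_cases hr : Cfsg.PRankLE p 2 R
    · exact (H53.odd_action_rank_two hp hR hr hAodd ψ hker).1
    · have hmap : (commutator A).map ψ ≤ commutator (MulAut R) := by
        rw [commutator_def, commutator_def, Subgroup.map_commutator]
        exact Subgroup.commutator_mono le_top le_top
      intro x
      obtain ⟨k, hk⟩ := (hbig hr).1 ⟨ψ x, hmap (Subgroup.mem_map_of_mem _ x.2)⟩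
      refine ⟨k, Subtype.ext (hinj ?_)⟩
      have h := congrArg Subtype.val hk
      simpa [map_pow] using h
  have hAord : ∀ a : A, orderOf (ψ a) = orderOf a := orderOf_injective ψ hinj
  refine ⟨⟨H19.le_pCore inferInstance hder, ?_⟩, fun hr a ha hco => ?_, fun hq hndvd => ?_⟩
  · obtain ⟨T⟩ := (inferInstance : Nonempty (Sylow p A))
    have hTn : (T : Subgroup A).Normal := Subgroup.Normal.of_commutator_le
      (h := (H19.le_pCore inferInstance hder).trans (H19.pCore_le_sylow T))
    exact (((Nat.Prime.coprime_iff_not_dvd hpp).mpr T.not_dvd_index).symm).coprime_dvd_left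
      (Subgroup.index_dvd_of_le (H19.le_pCore hTn T.isPGroup'))
  · have h := (hbig hr).2 (ψ ⟨a, ha⟩) (by rw [hAord, Subgroup.orderOf_mk]; exact hco)
    rwa [hAord, Subgroup.orderOf_mk] at h
  set q := Nat.card A with hqdef
  have hqp : ¬ q ∣ p := fun h => hndvd (dvd_mul_of_dvd_left h _)
  have hqp1 : ¬ q ∣ p - 1 := fun h => hndvd (dvd_mul_of_dvd_right h _)
  have hcop : q.Coprime p := (Nat.Prime.coprime_iff_not_dvd hq).mpr hqp
  have hr : Cfsg.PRankLE p 2 R := by
    by_contra hr
    obtain ⟨a, ha⟩ := @exists_prime_orderOf_dvd_card' A _ _ q ⟨hq⟩ dvd_rfl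
    have h := (hbig hr).2 (ψ a) (by rw [hAord, ha]; exact hcop)
    rw [hAord, ha] at h
    exact hqp1 h
  have hq2 : q ≠ 2 := fun h => Nat.not_even_iff_odd.mpr hAodd ⟨1, h⟩
  have hqsq : q ∣ p ^ 2 - 1 :=
    (((H53.odd_action_rank_two hp hR hr hAodd ψ hker).2 q hq dvd_rfl).2.2).resolve_left
      fun h => hqp h.dvd
  have hpodd : Odd p := hpp.odd_of_ne_two hp
  refine ⟨?_, fun hRA hnab => ?_⟩
  · rw [show p ^ 2 - 1 = (p + 1) * (p - 1) from Nat.sq_sub_sq p 1 ▸ by norm_num] at hqsq
    refine Nat.Coprime.mul_dvd_of_dvd_of_dvd ((Nat.coprime_primes Nat.prime_two hq).mpr (Ne.symm hq2))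
      (even_iff_two_dvd.mp hpodd.add_one) ((hq.dvd_mul.mp hqsq).resolve_right hqp1)
  haveI : Nontrivial R := by
    by_contra h
    rw [not_nontrivial_iff_subsingleton] at h
    exact hnab ⟨⟨fun _ _ => Subsingleton.elim _ _⟩⟩
  have hgen := H53.closure_conjAut_eq_top hA hRA
  obtain ⟨-, hab | ⟨E, C, hsup, hcomm, hEnc, hEc, hexp, hC, hΩ⟩⟩ :=
    H53.rank_two_fixedPointFree hp hR hr ψ hAodd hcop hgen
  · exact absurd hab hnab
  set Z := ⁅E, E⁆ with hZ
  have hZC : Z ≤ C := hΩ ▸ (Subgroup.closure_le _).mpr fun x hx => hx.1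
  have hCcen : C ≤ Subgroup.center R := by
    intro c hc
    have hle : E ⊔ C ≤ Subgroup.centralizer ({c} : Set R) := sup_le
      (fun e he => Subgroup.mem_centralizer_singleton_iff.mpr (hcomm e he c hc))
      (fun d hd => Subgroup.mem_centralizer_singleton_iff.mpr
        (congrArg Subtype.val ((IsCyclic.isMulCommutative (α := C)).is_comm.comm ⟨d, hd⟩ ⟨c, hc⟩)))
    exact Subgroup.mem_center_iff.mpr fun g =>
      Subgroup.mem_centralizer_singleton_iff.mp (hle (hsup ▸ Subgroup.mem_top g))
  haveI hEn : E.Normal := Subgroup.normalizer_eq_top_iff.mp <| top_le_iff.mp <|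
    hsup ▸ sup_le Subgroup.le_normalizer
      (hCcen.trans ((Subgroup.center_le_centralizer _).trans (Subgroup.centralizer_le_normalizer _)))
  have hEp : IsPGroup p E := hR.to_subgroup E
  -- the centre of `R` is `C`
  have hcenC : Subgroup.center R ≤ C := by
    intro x hx
    obtain ⟨e, he, c, hc, rfl⟩ := Subgroup.mem_sup_of_normal_left.mp (hsup ▸ Subgroup.mem_top x :
      x ∈ E ⊔ C)
    refine mul_mem (hZC ?_) hc
    have hec : e ∈ Subgroup.center R := ((Subgroup.center R).mul_mem_cancel_right (hCcen hc)).mp hx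
    have he1 : (⟨e, he⟩ : E) ∈ Subgroup.center E := Subgroup.mem_center_iff.mpr fun g =>
      Subtype.ext (Subgroup.mem_center_iff.mp hec g)
    have hle : Z ≤ (Subgroup.center E).map E.subtype := by
      rw [hZ, Subgroup.commutator_le]
      exact fun a ha b hb => ⟨⁅(⟨a, ha⟩ : E), ⟨b, hb⟩⁆,
        H53.comm_mem_center_of_card_le_cube hEp hEc.le _ _, rfl⟩
    have hZne : Z ≠ ⊥ := fun h => hEnc
      (Subgroup.le_centralizer_iff_isMulCommutative.mp
        (Subgroup.commutator_eq_bot_iff_le_centralizer.mp h))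
    have hcE : Nat.card (Subgroup.center E) ≤ p := by
      obtain ⟨j, hj⟩ := H24.exists_card_pow hEp (Subgroup.center E)
      obtain ⟨i, hi⟩ := hEp.index (Subgroup.center E)
      have h := Subgroup.card_mul_index (Subgroup.center E)
      rw [hi, hj, hEc, ← pow_add] at h
      have := Nat.pow_right_injective hpp.two_le h
      rw [hj]
      refine (Nat.pow_le_pow_right hpp.pos ?_).trans (pow_one p).le
      by_contra hj2
      haveI : IsCyclic (E ⧸ Subgroup.center E) := by
        rw [Subgroup.index_eq_card] at hi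
        rcases Nat.lt_or_ge i 1 with h0 | h0
        · rw [show i = 0 by omega, pow_zero] at hi
          haveI := (Nat.card_eq_one_iff_unique.mp hi).1
          infer_instance
        · rw [show i = 1 by omega, pow_one] at hi
          exact isCyclic_of_prime_card hi
      exact hEnc ((QuotientGroup.mk' (Subgroup.center E)).isMulCommutative_of_isCyclic_of_ker_le_center
        (by rw [QuotientGroup.ker_mk']))
    obtain ⟨k, hk⟩ := H24.exists_card_pow hR Z
    have hk0 : k ≠ 0 := fun h0 => hZne (Subgroup.card_eq_one.mp (by rw [hk, h0, pow_zero]))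
    have heq : Z = (Subgroup.center E).map E.subtype := Subgroup.eq_of_le_of_card_ge hle (by
      rw [Subgroup.card_subtype, hk]
      exact hcE.trans (Nat.le_self_pow hk0 p))
    rw [heq]
    exact ⟨⟨e, he⟩, he1, rfl⟩
  have hCeq : C = Subgroup.center R := le_antisymm hCcen hcenC
  haveI : IsCyclic (Subgroup.center R) := hCeq ▸ hC
  -- the operator fixes the centre
  have hfix : ∀ a : A, ∀ c ∈ C, ψ a c = c := by
    intro a c hc
    let φ := (H53.autRestrict (Subgroup.center R)).comp ψ
    have hφ : φ a = 1 := by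
      rw [← orderOf_eq_one_iff]
      refine ((Nat.dvd_prime hq).mp ((orderOf_map_dvd φ a).trans (orderOf_dvd_natCard a))).resolve_right
        fun h => ?_
      have h1 : q ∣ Nat.card (MulAut (Subgroup.center R)) := h ▸ orderOf_dvd_natCard (φ a)
      obtain ⟨n, hn⟩ := H24.exists_card_pow hR (Subgroup.center R)
      rw [Nat.card_congr (IsCyclic.mulAutMulEquiv (Subgroup.center R)).toEquiv, hn] at h1
      haveI : NeZero (p ^ n) := ⟨pow_ne_zero n hpp.ne_zero⟩
      rw [Nat.card_eq_fintype_card, ZMod.card_units_eq_totient] at h1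
      rcases n.eq_zero_or_pos with rfl | hn0
      · simp at h1
        exact hq.ne_one h1
      · rw [Nat.totient_prime_pow hpp hn0] at h1
        rcases hq.dvd_mul.mp h1 with h2 | h2
        · exact hqp (hq.dvd_of_dvd_pow h2)
        · exact hqp1 h2
    exact congrArg Subtype.val (DFunLike.congr_fun hφ ⟨c, hCcen hc⟩)
  haveI hZn : Z.Normal := by rw [hZ]; infer_instance
  have hab : ∀ u v : R, ⁅u, v⁆ ∈ Z := by
    intro u v
    obtain ⟨e, he, c, hc, rfl⟩ := Subgroup.mem_sup_of_normal_left.mp (hsup ▸ Subgroup.mem_top u :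
      u ∈ E ⊔ C)
    obtain ⟨e', he', c', hc', rfl⟩ := Subgroup.mem_sup_of_normal_left.mp (hsup ▸ Subgroup.mem_top v :
      v ∈ E ⊔ C)
    have h0 : ∀ {w : R}, w ∈ C → ∀ g : R, g * w = w * g := fun hw =>
      Subgroup.mem_center_iff.mp (hCcen hw)
    have : ⁅e * c, e' * c'⁆ = ⁅e, e'⁆ := by
      simp only [commutatorElement_def, mul_inv_rev, mul_assoc]
      rw [← mul_assoc c e', ← h0 hc e', mul_assoc e', ← mul_assoc c c', h0 hc' c, mul_assoc c' c,
        mul_inv_cancel_left, ← mul_assoc c' e⁻¹, ← h0 hc' e⁻¹, mul_assoc e⁻¹, mul_inv_cancel_left]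
    rw [this]
    exact Subgroup.commutator_mem_commutator he he'
  have hCZ : C ≤ Z := by
    letI : CommGroup (R ⧸ Z) :=
      { (inferInstance : Group (R ⧸ Z)) with
        mul_comm := by
          intro u v
          induction u using QuotientGroup.induction_on with
          | _ u =>
            induction v using QuotientGroup.induction_on with
            | _ v =>
              rw [← QuotientGroup.mk_mul, ← QuotientGroup.mk_mul, QuotientGroup.eq_iff_div_mem]
              simpa [commutatorElement_def, div_eq_mul_inv, mul_assoc] using hab u v }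
    haveI := Fintype.ofFinite A
    let θ : R →* R ⧸ Z := ∏ a : A, (QuotientGroup.mk' Z).comp (ψ a).toMonoidHom
    have hθ : ∀ g, θ g = ∏ a : A, ((ψ a g : R) : R ⧸ Z) := fun g => by simp [θ]
    have hθker : θ.ker = ⊤ := by
      rw [eq_top_iff, ← hgen, Subgroup.closure_le]
      rintro _ ⟨a, g, rfl⟩
      rw [SetLike.mem_coe, MonoidHom.mem_ker, map_mul, map_inv, inv_mul_eq_one, hθ, hθ]
      refine (Fintype.prod_equiv (Equiv.mulRight a) _ _ fun b => ?_).symm
      simp [hψ, map_mul]
    intro c hc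
    have h1 : ((c : R) : R ⧸ Z) ^ q = 1 := by
      rw [← MonoidHom.mem_ker.mp (hθker ▸ Subgroup.mem_top c : c ∈ θ.ker), hθ, hqdef,
        Nat.card_eq_fintype_card, ← Finset.card_univ, ← Finset.prod_const]
      exact Finset.prod_congr rfl fun a _ => by rw [hfix a c hc]
    obtain ⟨n, hn⟩ := hR c
    refine (QuotientGroup.eq_one_iff c).mp (orderOf_eq_one_iff.mp ?_)
    refine Nat.eq_one_of_dvd_coprimes (hcop.pow_right n) (orderOf_dvd_of_pow_eq_one h1)
      (orderOf_dvd_of_pow_eq_one ?_)
    rw [← QuotientGroup.mk_pow, hn, QuotientGroup.mk_one]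
  have htop : E = ⊤ := top_le_iff.mp (hsup ▸ sup_le le_rfl (hCZ.trans (Subgroup.commutator_le_left E E)))
  rw [← hEc, htop, Subgroup.card_top]

end Cfsg.Agent.S1454
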