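import Cfsg.Statements.S1456
import Cfsg.Agent.H53.SmallCentralizerRank

set_option autoImplicit false
open Cfsg

namespace Cfsg.Agent.S1456

/-- Let G be a solvable group of odd order, p a prime, and E an elementary abelian p-subgroup of the Fitting subgroup F(G) such that F(G) ∩ C_G(E) has no elementary abelian subgroup of order q ^ 3 for any prime q. Then the derived subgroup of G is contained in F(G). -/
theorem result {G : Type*} [Group G] [Finite G] [Group.IsSolvable G] (hodd : Odd (Nat.card G)) (p : ℕ) [Fact p.Prime] (E : Subgroup G) (hE : E ≤ Cfsg.fittingSubgroup G) (hEe : Cfsg.IsElementaryAbelian p E)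
    (hr : Cfsg.RankLE 2 ↥(Cfsg.fittingSubgroup G ⊓ Subgroup.centralizer (E : Set G))) :
    commutator G ≤ Cfsg.fittingSubgroup G := by
  exact Cfsg.Agent.H53.commutator_le_fitting_of_centralizer_rank hodd E hE hEe hr

end Cfsg.Agent.S1456
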