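import Cfsg.Statements.S1458
import Cfsg.Agent.H53.ZJOddSolvable

set_option autoImplicit false
open Cfsg

namespace Cfsg.Agent.S1458

/-- Let G be a solvable group of odd order, p a prime and S a Sylow p-subgroup of G. Then the subgroup generated by the centre of the Thompson subgroup of S and O_{p'}(G) is normal in G. -/
theorem result {G : Type*} [Group G] [Finite G] [Group.IsSolvable G] (hodd : Odd (Nat.card G)) (p : ℕ) [Fact p.Prime] (S : Sylow p G) :
    (Cfsg.centerThompsonOf p (S : Subgroup G) ⊔ Cfsg.pPrimeCore p G).Normal := by
  exact Cfsg.Agent.H53.centerThompsonOf_sup_pPrimeCore_normal hodd S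

end Cfsg.Agent.S1458
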