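import Cfsg.Statements.S1464
import Cfsg.Agent.H54.PStable

set_option autoImplicit false
open Cfsg
open scoped commutatorElement

namespace Cfsg.Agent.S1464

/-- Let p be an odd prime and G a solvable group of odd order, P a p-subgroup with O_{p'}(G)P normal in G, and A a p-subgroup of N_G(P) with [[P, A], A] = 1. Then the image of A in the quotient N_G(P)/C_G(P) is contained in the p-core of that quotient. -/
theorem result {G : Type*} [Group G] [Finite G] [Group.IsSolvable G] (hodd : Odd (Nat.card G)) (p : ℕ) [Fact p.Prime] (hp : p ≠ 2) (P A : Subgroup G) (hP : IsPGroup p P) (hPn : (Cfsg.pPrimeCore p G ⊔ P).Normal)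
    (hA : IsPGroup p A) (hAN : A ≤ Subgroup.normalizer (P : Set G)) (hquad : ⁅⁅P, A⁆, A⁆ = ⊥) :
    (A.subgroupOf (Subgroup.normalizer (P : Set G))).map
        (QuotientGroup.mk' ((Subgroup.centralizer (P : Set G)).subgroupOf (Subgroup.normalizer (P : Set G))))
      ≤ Cfsg.pCore p _ := by
  rintro _ ⟨g, hg, rfl⟩
  have hg' : (g : G) ∈ A := hg
  haveI : (P.subgroupOf (Subgroup.normalizer (P : Set G))).Normal := Subgroup.normal_in_normalizer
  have hC : (Subgroup.centralizer (P : Set G)).subgroupOf (Subgroup.normalizer (P : Set G))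
      = Subgroup.centralizer ((P.subgroupOf (Subgroup.normalizer (P : Set G)) : Subgroup (Subgroup.normalizer (P : Set G))) : Set (Subgroup.normalizer (P : Set G))) := by
    ext x
    constructor
    · intro h y hy
      exact Subtype.ext (h (y : G) hy)
    · intro h y hy
      exact congrArg Subtype.val (h (⟨y, Subgroup.le_normalizer hy⟩ : (Subgroup.normalizer (P : Set G))) hy)
  obtain ⟨k, hk⟩ := hA ⟨(g : G), hg'⟩
  refine H54.quad_mem_pCore_quotient' (hodd.of_dvd_nat (Subgroup.card_subgroup_dvd_card (Subgroup.normalizer (P : Set G)))) hp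
    (P.subgroupOf (Subgroup.normalizer (P : Set G))) (hP.comap_of_injective (Subgroup.normalizer (P : Set G)).subtype (Subgroup.subtype_injective _)) _ hC ⟨k, ?_⟩ ?_
  · exact Subtype.ext (by simpa using congrArg Subtype.val hk)
  · intro x hx
    have hx' : (x : G) ∈ P := hx
    have h1 : ⁅(x : G), (g : G)⁆ ∈ ⁅P, A⁆ := Subgroup.commutator_mem_commutator hx' hg'
    have h2 : ⁅⁅(x : G), (g : G)⁆, (g : G)⁆ = 1 :=
      Subgroup.mem_bot.1 (hquad ▸ Subgroup.commutator_mem_commutator h1 hg')
    have h3 : Commute ⁅(x : G), (g : G)⁆⁻¹ (g : G) :=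
      (commutatorElement_eq_one_iff_commute.1 h2).inv_left
    rw [commutatorElement_def] at h3
    exact Subtype.ext (by simpa [mul_assoc] using h3.eq)

end Cfsg.Agent.S1464
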