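import Cfsg.Statements.S1466
import Cfsg.Agent.H54.PuigPGroup

set_option autoImplicit false
open Cfsg

namespace Cfsg.Agent.S1466

/-- Let p be a prime and R a nontrivial finite p-group. Then for every i > 0, Z(R) ≤ C_R(L_i(R)) ≤ L_i(R); likewise Z(R) ≤ C_R(L_*(R)) ≤ L_*(R) and Z(R) ≤ C_R(L(R)) ≤ L(R); and L(R) ≠ 1, L_*(R) ≠ 1. -/
theorem result {R : Type*} [Group R] [Finite R] (p : ℕ) [Fact p.Prime] (hR : IsPGroup p R) [Nontrivial R] :
    (∀ i : ℕ, 0 < i → Subgroup.center R ≤ Subgroup.centralizer ((Cfsg.puigSeq R i : Subgroup R) : Set R) ∧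
        Subgroup.centralizer ((Cfsg.puigSeq R i : Subgroup R) : Set R) ≤ Cfsg.puigSeq R i) ∧
      (Subgroup.center R ≤ Subgroup.centralizer ((Cfsg.puigLower R : Subgroup R) : Set R) ∧ Subgroup.centralizer ((Cfsg.puigLower R : Subgroup R) : Set R) ≤ Cfsg.puigLower R) ∧
      (Subgroup.center R ≤ Subgroup.centralizer ((Cfsg.puigSubgroup R : Subgroup R) : Set R) ∧ Subgroup.centralizer ((Cfsg.puigSubgroup R : Subgroup R) : Set R) ≤ Cfsg.puigSubgroup R) ∧
      Cfsg.puigSubgroup R ≠ ⊥ ∧ Cfsg.puigLower R ≠ ⊥ := by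
  haveI : Group.IsNilpotent R := hR.isNilpotent
  have hT : Group.IsNilpotent (⊤ : Subgroup R) := inferInstance
  have h1 : ∀ i : ℕ, 0 < i →
      Subgroup.centralizer ((Cfsg.puigSeq R i : Subgroup R) : Set R) ≤ Cfsg.puigSeq R i := by
    intro i hi
    rw [H54.puigSeq_top]
    simpa using H54.inf_centralizer_puigSeqIn_le (⊤ : Subgroup R) hT hi
  have h2 : Subgroup.centralizer ((Cfsg.puigLower R : Subgroup R) : Set R) ≤ Cfsg.puigLower R := by
    rw [H54.puigLower_top]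
    simpa using H54.inf_centralizer_puigLowerIn_le (⊤ : Subgroup R) hT
  have h3 : Subgroup.centralizer ((Cfsg.puigSubgroup R : Subgroup R) : Set R) ≤ Cfsg.puigSubgroup R := by
    rw [H54.puigSubgroup_top]
    simpa using H54.inf_centralizer_puigUpperIn_le (⊤ : Subgroup R) hT
  have hne : ∀ L : Subgroup R, Subgroup.centralizer (L : Set R) ≤ L → L ≠ ⊥ := by
    rintro L hL rfl
    haveI := IsPGroup.center_nontrivial hR
    obtain ⟨z, hz⟩ := exists_ne (1 : Subgroup.center R)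
    exact hz (Subtype.ext (Subgroup.mem_bot.1 (hL (Subgroup.center_le_centralizer _ z.2))))
  exact ⟨fun i hi => ⟨Subgroup.center_le_centralizer _, h1 i hi⟩,
    ⟨Subgroup.center_le_centralizer _, h2⟩, ⟨Subgroup.center_le_centralizer _, h3⟩,
    hne _ h3, hne _ h2⟩

end Cfsg.Agent.S1466
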