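import Cfsg.Statements.S1476
import Cfsg.Agent.H54.CNSolvable

set_option autoImplicit false
open Cfsg

namespace Cfsg.Agent.S1476

/-- Let G be a finite solvable group in which every non-identity element has nilpotent centralizer. Then either G is nilpotent; or G has a normal subgroup K with a Frobenius complement E (K E = G, K ∩ E = 1, E meets its conjugates by outside elements trivially) such that E is cyclic or E is generated by two elementwise-commuting subgroups, one cyclic of odd order and one isomorphic to a generalized quaternion group; or G is a three-step group with respect to some prime p. -/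
theorem result {G : Type*} [Group G] [Finite G] [Group.IsSolvable G] (hCN : Cfsg.IsCNGroup G) :
    Group.IsNilpotent G ∨
      (∃ K E : Subgroup G, K.Normal ∧ Subgroup.IsComplement' K E ∧ Cfsg.IsFrobeniusComplement E ∧
        (IsCyclic E ∨ ∃ C Q : Subgroup G, C ⊔ Q = E ∧ (∀ a ∈ C, ∀ b ∈ Q, a * b = b * a) ∧ IsCyclic C ∧ Odd (Nat.card C) ∧
          ∃ n : ℕ, Nonempty (↥Q ≃* QuaternionGroup (2 ^ n)))) ∨
      ∃ p : ℕ, p.Prime ∧ Cfsg.IsThreeStepGroup p G := by
  by_cases hn : Group.IsNilpotent G
  · exact Or.inl hn
  refine Or.inr ?_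
  rcases H54.cn_trichotomy hCN with h | ⟨p, hp, P, hP1, hPn⟩ | h
  · exact absurd h hn
  · refine Or.inl ?_
    haveI := hPn
    obtain ⟨h1, -, E, hE, hEc, hEn, hfpf⟩ := H54.cn_frobenius_of_normal_sylow hCN hn P hP1
    refine ⟨Cfsg.fittingHall G, E, inferInstance, hE, hEc, ?_⟩
    haveI := hEn
    haveI : Nontrivial (Cfsg.fittingHall G) := (Subgroup.nontrivial_iff_ne_bot _).2 h1
    have hEN : E ≤ Subgroup.normalizer ((Cfsg.fittingHall G : Subgroup G) : Set G) := by
      rw [Subgroup.normalizer_eq_top]; exact le_top
    rcases H54.fpf_nilpotent_structure _ (H21.conjHom_fpf hEN hfpf) with hc | ⟨C, Q, hCQ, hcomm, hCc, hCo, n, ⟨e⟩⟩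
    · exact Or.inl hc
    · refine Or.inr ⟨C.map E.subtype, Q.map E.subtype, ?_, ?_, ?_, ?_, n, ⟨?_⟩⟩
      · rw [← Subgroup.map_sup, hCQ, ← MonoidHom.range_eq_map, Subgroup.range_subtype]
      · rintro _ ⟨a, ha, rfl⟩ _ ⟨b, hb, rfl⟩
        exact congrArg Subtype.val (hcomm a ha b hb)
      · exact isCyclic_of_surjective (Subgroup.equivMapOfInjective C E.subtype E.subtype_injective).toMonoidHom
          (Subgroup.equivMapOfInjective C E.subtype E.subtype_injective).surjective
      · rwa [Subgroup.card_map_of_injective E.subtype_injective]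
      · exact (Subgroup.equivMapOfInjective Q E.subtype E.subtype_injective).symm.trans e
  · exact Or.inr h

end Cfsg.Agent.S1476
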