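import Cfsg.Statements.S1483
import Cfsg.Agent.H54.CNClasses

set_option autoImplicit false
open Cfsg

namespace Cfsg.Agent.S1483

/-- Let G be a minimal simple group of odd order in which every non-identity element has nilpotent centralizer. Then any two nilpotent subgroups each contained in no larger nilpotent subgroup are either conjugate or of coprime orders; and for primes p, q, r: if some elements x, y ≠ 1 of p-power and q-power order commute, and some elements y', z ≠ 1 of q-power and r-power order commute, then some elements of p-power and r-power order, both ≠ 1, commute. -/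
theorem result {G : Type*} [Group G] [Finite G] (hG : Cfsg.IsMinSimpleOddOrder G) (hCN : Cfsg.IsCNGroup G) :
    (∀ H₁ H₂ : Subgroup G, (Group.IsNilpotent ↥H₁ ∧ ∀ L : Subgroup G, Group.IsNilpotent L → H₁ ≤ L → L = H₁) → (Group.IsNilpotent ↥H₂ ∧ ∀ L : Subgroup G, Group.IsNilpotent L → H₂ ≤ L → L = H₂) → (∃ g : G, H₂ = H₁.map (MulAut.conj g).toMonoidHom) ∨ (Nat.card H₁).Coprime (Nat.card H₂)) ∧
      ∀ (p q r : ℕ), p.Prime → q.Prime → r.Prime → ∀ (x y y' z : G), x ≠ 1 → y ≠ 1 → y' ≠ 1 → z ≠ 1 →
        IsPGroup p (Subgroup.zpowers x) → IsPGroup q (Subgroup.zpowers y) → IsPGroup q (Subgroup.zpowers y') → IsPGroup r (Subgroup.zpowers z) →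
        x * y = y * x → y' * z = z * y' →
        ∃ x' z' : G, x' ≠ 1 ∧ z' ≠ 1 ∧ IsPGroup p (Subgroup.zpowers x') ∧ IsPGroup r (Subgroup.zpowers z') ∧ x' * z' = z' * x' := by
  refine ⟨fun H₁ H₂ h₁ h₂ => H54.IsMaxNilp.conj_or_coprime hG hCN h₁ h₂, ?_⟩
  intro p q r hp hq hr x y y' z hx hy hy' hz hxp hyq hy'q hzr hxy hyz
  haveI := Fact.mk hp
  haveI := Fact.mk hq
  haveI := Fact.mk hr
  exact H54.commuting_primes_trans hG hCN hx hy hy' hz hxp hyq hy'q hzr hxy hyz

end Cfsg.Agent.S1483
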