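import Cfsg.Statements.S1485
import Cfsg.Agent.H56.IndNormal

set_option autoImplicit false
open Cfsg

namespace Cfsg.Agent.S1485

/-- Let H be a normal subgroup of the finite group G and θ an irreducible character of H. On H, the function induced from θ equals r times the sum of the distinct G-conjugates of θ, where r is the number of elements of G fixing θ under conjugation divided by the order of H (the index of H in the inertia group). -/
theorem result {G : Type*} [Group G] [Fintype G] (H : Subgroup G) [hN : H.Normal] (θ : H → ℂ) (hθ : Cfsg.IsIrrCharacter H θ) : (fun h : H => Cfsg.indFun H θ h) = ((Nat.card {g : G // ∀ h : H, θ ⟨g * h * g⁻¹, hN.conj_mem h h.2 g⟩ = θ h} : ℂ) / (Nat.card H : ℂ)) • ∑ᶠ ψ ∈ {ψ : H → ℂ | ∃ g : G, ψ = fun h : H => θ ⟨g * h * g⁻¹, hN.conj_mem h h.2 g⟩}, ψ := by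
  classical
  set S : Set (H → ℂ) := {ψ : H → ℂ | ∃ g : G, ψ = fun h : H => θ ⟨g * h * g⁻¹, hN.conj_mem h h.2 g⟩}
  have hS : S = ↑(Finset.univ.image (fun g : G => Cfsg.Agent.H56.twist H θ g)) := by
    ext ψ; simp only [S, Set.mem_ofPred_eq, Finset.coe_image, Finset.coe_univ, Set.image_univ, Set.mem_range]
    exact ⟨fun ⟨g, hg⟩ => ⟨g, hg.symm⟩, fun ⟨g, hg⟩ => ⟨g, hg.symm⟩⟩
  rw [hS, finsum_mem_coe_finset]
  funext h
  rw [Cfsg.Agent.H56.indFun_normal_apply, Pi.smul_apply, Finset.sum_apply, smul_eq_mul, div_eq_inv_mul,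
    mul_assoc, Finset.mul_sum (a := (Nat.card {g : G // ∀ h : H, θ ⟨g * h * g⁻¹, hN.conj_mem h h.2 g⟩ = θ h} : ℂ))]
  congr 1
  rw [← Finset.sum_fiberwise_of_maps_to (g := fun x : G => Cfsg.Agent.H56.twist H θ x)
    (t := Finset.univ.image (fun g : G => Cfsg.Agent.H56.twist H θ g))
    (fun x _ => Finset.mem_image_of_mem _ (Finset.mem_univ x))]
  refine Finset.sum_congr rfl fun ψ hψ => ?_
  obtain ⟨g, -, rfl⟩ := Finset.mem_image.1 hψ
  rw [Finset.sum_congr rfl (fun x hx => by rw [(Finset.mem_filter.1 hx).2]), Finset.sum_const, nsmul_eq_mul]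
  congr 2
  rw [← Fintype.card_subtype, ← Nat.card_eq_fintype_card]
  have hiff : ∀ x : G, Cfsg.Agent.H56.twist H θ x = Cfsg.Agent.H56.twist H θ g ↔
      Cfsg.Agent.H56.twist H θ (x * g⁻¹) = θ := by
    intro x
    constructor
    · intro e
      rw [← Cfsg.Agent.H56.twist_twist, e, Cfsg.Agent.H56.twist_twist, mul_inv_cancel,
        Cfsg.Agent.H56.twist_one]
    · intro e
      have := Cfsg.Agent.H56.twist_twist H θ (x * g⁻¹) g
      rw [e, inv_mul_cancel_right] at this
      exact this.symm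
  refine Nat.card_congr ((Equiv.mulRight g⁻¹).subtypeEquiv fun x => ?_)
  rw [hiff x]
  exact ⟨fun e h => congrFun e h, fun e => funext e⟩

end Cfsg.Agent.S1485
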