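import Cfsg.Statements.S1488


set_option autoImplicit false
open Cfsg

namespace Cfsg.Agent.S1488

/-- Let A be a normal subgroup of the finite group G contained in the subgroup H, let θ be a function on H and θ₁ a function on the image of H in G ⧸ A whose composite with the projection is θ. Then the function induced from θ₁ to G ⧸ A, composed with the projection G → G ⧸ A, equals the function induced from θ to G. -/
theorem result {G : Type*} [Group G] [Fintype G] (A H : Subgroup G) [A.Normal] (hAH : A ≤ H) [Fintype (G ⧸ A)] [Fintype ↥(H.map (QuotientGroup.mk' A))] (θ : H → ℂ) (θ₁ : ↥(H.map (QuotientGroup.mk' A)) → ℂ) (hθ : ∀ x : H, θ₁ ⟨QuotientGroup.mk' A x, Subgroup.mem_map_of_mem _ x.2⟩ = θ x) (g : G) : Cfsg.indFun (H.map (QuotientGroup.mk' A)) θ₁ (QuotientGroup.mk' A g) = Cfsg.indFun H θ g := by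
  classical
  have hext : ∀ y : G, Cfsg.extendByZero (H.map (QuotientGroup.mk' A)) θ₁ ((QuotientGroup.mk' A) y) = Cfsg.extendByZero H θ y := by
    intro y
    simp only [Cfsg.extendByZero]
    by_cases hy : y ∈ H
    · have hy' : (QuotientGroup.mk' A) y ∈ H.map (QuotientGroup.mk' A) := Subgroup.mem_map_of_mem _ hy
      exact ((Subtype.val_injective.extend_apply θ₁ 0 (⟨(QuotientGroup.mk' A) y, hy'⟩ : H.map (QuotientGroup.mk' A))).trans (hθ ⟨y, hy⟩)).trans
        (Subtype.val_injective.extend_apply θ 0 (⟨y, hy⟩ : H)).symm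
    · rw [Function.extend_apply', Function.extend_apply']
      · rfl
      · rintro ⟨⟨z, hz⟩, rfl⟩
        exact hy hz
      · rintro ⟨⟨z, hz⟩, hzy⟩
        obtain ⟨w, hw, hwe⟩ := Subgroup.mem_map.1 hz
        have hwy : (QuotientGroup.mk' A) w = (QuotientGroup.mk' A) y := hwe.trans hzy
        have hm : w⁻¹ * y ∈ A := by
          rw [← QuotientGroup.eq]; exact hwy
        have := H.mul_mem hw (hAH hm)
        rw [mul_inv_cancel_left] at this
        exact hy this
  simp only [Cfsg.indFun]
  have hfib : ∑ x : G, Cfsg.extendByZero H θ (x⁻¹ * g * x)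
      = (Nat.card A : ℂ) * ∑ q : G ⧸ A, Cfsg.extendByZero (H.map (QuotientGroup.mk' A)) θ₁ (q⁻¹ * (QuotientGroup.mk' A) g * q) := by
    rw [← Finset.sum_fiberwise Finset.univ (QuotientGroup.mk' A), Finset.mul_sum]
    refine Finset.sum_congr rfl fun q _ => ?_
    rw [Finset.sum_congr rfl (fun x hx => ?_), Finset.sum_const, nsmul_eq_mul]
    · congr 2
      obtain ⟨x₀, rfl⟩ := QuotientGroup.mk'_surjective A q
      rw [← Fintype.card_subtype, ← Nat.card_eq_fintype_card]
      refine Nat.card_congr
        ⟨fun x => ⟨x₀⁻¹ * x.1, QuotientGroup.eq.1 x.2.symm⟩, fun a => ⟨x₀ * a.1, ?_⟩, fun x => ?_,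
          fun a => ?_⟩
      · rw [map_mul, (QuotientGroup.eq_one_iff (a : G)).2 a.2 |>.trans rfl |> fun h : (QuotientGroup.mk' A) (a : G) = 1 => h, mul_one]
      · exact Subtype.ext (by simp)
      · exact Subtype.ext (by simp)
    · rw [← (Finset.mem_filter.1 hx).2, ← map_inv, ← map_mul, ← map_mul, hext]
  rw [hfib]
  have hH : Nat.card H = Nat.card A * Nat.card ↥(H.map (QuotientGroup.mk' A)) := by
    have := Subgroup.card_eq_card_quotient_mul_card_subgroup (A.subgroupOf H)
    rw [this, mul_comm, Nat.card_congr (Subgroup.subgroupOfEquivOfLe hAH).toEquiv]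
    congr 1
    refine Nat.card_congr (((QuotientGroup.quotientMulEquivOfEq ?_).trans
      (QuotientGroup.quotientKerEquivRange ((QuotientGroup.mk' A).comp H.subtype))).trans
      (MulEquiv.subgroupCongr ?_)).toEquiv
    · rw [← MonoidHom.comap_ker, QuotientGroup.ker_mk']
      rfl
    · rw [MonoidHom.range_comp, Subgroup.range_subtype]
  rw [hH, Nat.cast_mul, mul_inv, mul_assoc, mul_left_comm, inv_mul_cancel_left₀ (Nat.cast_ne_zero.2 Nat.card_pos.ne')]

end Cfsg.Agent.S1488
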