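import Cfsg.Statements.S1493
import Cfsg.Agent.H45.Galois

set_option autoImplicit false
open Cfsg

namespace Cfsg.Agent.S1493

/-- Let G be a finite group of order a * b with a and b coprime, let k be coprime to a, and let χ be a character of G. Then there is a character χ' of G such that χ'(g) = χ(g ^ k) whenever the order of g divides a and χ'(g) = χ(g) whenever the order of g is coprime to a; moreover χ' is irreducible if χ is. -/
theorem result {G : Type*} [Group G] [Finite G] (a b k : ℕ) (hab : Nat.card G = a * b) (hcop : Nat.Coprime a b) (hk : Nat.Coprime k a) (χ : G → ℂ) (hχ : Cfsg.IsCharacter G χ) : ∃ χ' : G → ℂ, Cfsg.IsCharacter G χ' ∧ (Cfsg.IsIrrCharacter G χ → Cfsg.IsIrrCharacter G χ') ∧ (∀ g : G, orderOf g ∣ a → χ' g = χ (g ^ k)) ∧ (∀ g : G, Nat.Coprime (orderOf g) a → χ' g = χ g) := by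
  classical
  have hpos : 0 < a * b := hab ▸ Nat.card_pos
  obtain ⟨k', hk1, hk2⟩ : ∃ k', k' ≡ k [MOD a] ∧ k' ≡ 1 [MOD b] :=
    ⟨_, (Nat.chineseRemainder hcop k 1).2⟩
  have hka : k'.Coprime a := by
    rw [Nat.Coprime, hk1.gcd_eq]; exact hk
  have hkb : k'.Coprime b := by
    rw [Nat.Coprime, hk2.gcd_eq, Nat.gcd_one_left]
  have hkc : k'.Coprime (Nat.card G) := hab ▸ hka.mul_right hkb
  obtain ⟨σ, hσ⟩ := Cfsg.Agent.H45.exists_ringAut_pow (Nat.card_pos (α := G)).ne' hkc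
  refine ⟨fun g => χ (g ^ k'), ?_, fun h => Cfsg.Agent.H45.isIrrCharacter_pow ⟨χ, h⟩ hkc, ?_, ?_⟩
  · simpa only [Cfsg.Agent.H45.ringAut_char hχ σ hσ] using Cfsg.Agent.H45.isCharacter_ringAut hχ σ
  · intro g hg
    show χ (g ^ k') = χ (g ^ k)
    rw [pow_eq_pow_iff_modEq.2 (hk1.of_dvd hg)]
  · intro g hg
    have hb : orderOf g ∣ b := hg.dvd_of_dvd_mul_left (hab ▸ orderOf_dvd_natCard g)
    show χ (g ^ k') = χ g
    conv_rhs => rw [← pow_one g]
    rw [pow_eq_pow_iff_modEq.2 (hk2.of_dvd hb)]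

end Cfsg.Agent.S1493
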