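import Cfsg.Statements.S1497
import Cfsg.Agent.H56.DadeBasic

set_option autoImplicit false
open Cfsg

namespace Cfsg.Agent.S1497

/-- Let A be a nonempty subset of the finite group G not containing 1 and L a subgroup. Then A is a TI-subset whose normaliser is L if and only if the Dade hypothesis holds for A, L and the constant choice H(a) = ⊥. -/
theorem result {G : Type*} [Group G] [Finite G] (A : Set G) (hA : A.Nonempty) (h1 : (1 : G) ∉ A) (L : Subgroup G) : (Cfsg.IsTISubset A ∧ Subgroup.normalizer A = L) ↔ Cfsg.DadeHypothesis A L (fun _ => ⊥) := by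
  constructor
  · rintro ⟨hTI, rfl⟩
    have key : ∀ g : G, ∀ a ∈ A, g * a * g⁻¹ ∈ A → g ∈ Subgroup.normalizer A := by
      intro g a ha hga
      by_contra hg
      exact h1 (hTI g hg a ha hga ▸ ha)
    have hcl : ∀ a ∈ A, Subgroup.centralizer ({a} : Set G) ≤ Subgroup.normalizer A := by
      intro a ha c hc
      refine key c a ha ?_
      rw [Subgroup.mem_centralizer_singleton_iff.1 hc, mul_inv_cancel_right]
      exact ha
    refine ⟨h1, fun a ha => key a a ha (by simpa using ha),
      fun x hx a ha => (Subgroup.mem_set_normalizer_iff.1 hx a).1 ha,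
      fun a ha g hga => ⟨g, key g a ha hga, rfl⟩, fun _ _ => bot_le,
      fun a ha c _ u hu => by simp_all, fun a ha => bot_inf_eq _,
      fun a ha => by rw [bot_sup_eq, inf_eq_right]; exact hcl a ha,
      fun a ha b hb => by simp⟩
  · intro hD
    have key : ∀ g : G, ∀ a ∈ A, g * a * g⁻¹ ∈ A → g ∈ L := by
      intro g a ha hga
      obtain ⟨x, hx, hxe⟩ := hD.fusion a ha g hga
      have hc : x⁻¹ * g ∈ L := Cfsg.Agent.H56.dade_trivial_centralizer_le hD ha <| by
        rw [Subgroup.mem_centralizer_singleton_iff]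
        calc x⁻¹ * g * a = x⁻¹ * (g * a * g⁻¹) * g := by group
          _ = a * (x⁻¹ * g) := by rw [← hxe]; group
      simpa using L.mul_mem hx hc
    have hsub : L ≤ Subgroup.normalizer A := by
      intro x hx
      refine Subgroup.mem_set_normalizer_iff.2 fun n => ⟨hD.conj_mem x hx n, fun h => ?_⟩
      have := hD.conj_mem x⁻¹ (L.inv_mem hx) _ h
      simpa [mul_assoc] using this
    refine ⟨fun g hg a ha hga => absurd (hsub (key g a ha hga)) hg, le_antisymm ?_ hsub⟩
    intro g hg
    obtain ⟨a, ha⟩ := hA
    exact key g a ha ((Subgroup.mem_set_normalizer_iff.1 hg a).1 ha)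

end Cfsg.Agent.S1497
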