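import Cfsg.Statements.S1502
import Cfsg.Agent.H56.CyclicExists

set_option autoImplicit false
open Cfsg

namespace Cfsg.Agent.S1502

/-- Let W₁, W₂ be nontrivial subgroups of the finite group G generating a cyclic subgroup W = W₁ ⊔ W₂ of odd order that is the normaliser of every nonempty set of its elements outside W₁ ∪ W₂. Then there is a family attaching to each linear character ω of W an irreducible character of G up to sign, orthonormal, sending the trivial character to the principal character, with χ ω = ω on W outside W₁ ∪ W₂, and such that inducing (1 − φ)(1 − ψ) to G gives 1 − χ φ − χ ψ + χ (φψ) whenever φ ≠ 1 is trivial on W₂ and ψ ≠ 1 is trivial on W₁. -/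
theorem result {G : Type*} [Group G] [Fintype G] (W₁ W₂ : Subgroup G) (hW : Cfsg.IsSelfNormalizingCyclic W₁ W₂) (hodd : Odd (Nat.card ↥(W₁ ⊔ W₂))) : ∃ χ : (↥(W₁ ⊔ W₂) →* ℂˣ) → (G → ℂ), Cfsg.IsCyclicTIFamily W₁ W₂ χ := by
  exact Cfsg.Agent.H56.exists_cyclicTIFamily hW hodd

end Cfsg.Agent.S1502
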