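import Cfsg.Statements.S1504
import Cfsg.Agent.H56.CyclicPair

set_option autoImplicit false
open Cfsg

namespace Cfsg.Agent.S1504

/-- Let W₁, W₂ be subgroups of a finite group with W₁ ⊓ W₂ = ⊥ whose elements commute, and W = W₁ ⊔ W₂. For linear characters φ, ψ of W with φ trivial on W₂ and ψ trivial on W₁, the function (1 − φ)(1 − ψ) vanishes on W₁ ∪ W₂; and the family of these functions, indexed by pairs (φ, ψ) with φ ≠ 1 ≠ ψ, is linearly independent over ℂ. -/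
theorem result {G : Type*} [Group G] [Finite G] (W₁ W₂ : Subgroup G) (hdisj : W₁ ⊓ W₂ = ⊥) (hcomm : ∀ a ∈ W₁, ∀ b ∈ W₂, a * b = b * a) : (∀ φ ψ : ↥(W₁ ⊔ W₂) →* ℂˣ, (∀ w : ↥(W₁ ⊔ W₂), (w : G) ∈ W₂ → φ w = 1) → (∀ w : ↥(W₁ ⊔ W₂), (w : G) ∈ W₁ → ψ w = 1) → ∀ w : ↥(W₁ ⊔ W₂), ((w : G) ∈ W₁ ∨ (w : G) ∈ W₂) → (1 - (φ w : ℂ) - (ψ w : ℂ) + (φ w : ℂ) * (ψ w : ℂ)) = 0) ∧ LinearIndependent ℂ (fun p : {p : (↥(W₁ ⊔ W₂) →* ℂˣ) × (↥(W₁ ⊔ W₂) →* ℂˣ) // p.1 ≠ 1 ∧ p.2 ≠ 1 ∧ (∀ w : ↥(W₁ ⊔ W₂), (w : G) ∈ W₂ → p.1 w = 1) ∧ (∀ w : ↥(W₁ ⊔ W₂), (w : G) ∈ W₁ → p.2 w = 1)} => fun w : ↥(W₁ ⊔ W₂) => 1 - (p.1.1 w : ℂ) - (p.1.2 w : ℂ) + (p.1.1 w : ℂ) * (p.1.2 w : ℂ)) := by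
  classical
  refine ⟨?_, ?_⟩
  · rintro φ ψ hφ hψ w (hw | hw)
    · rw [hψ w hw]; push_cast; ring
    · rw [hφ w hw]; push_cast; ring
  haveI := Fintype.ofFinite ↥(W₁ ⊔ W₂)
  set W := W₁ ⊔ W₂ with hW
  have horth : ∀ σ τ : ↥W →* ℂˣ, (∑ w : ↥W, (σ w : ℂ) * (τ w⁻¹ : ℂ)) =
      if σ = τ then (Fintype.card ↥W : ℂ) else 0 := by
    intro σ τ
    have h := sum_hom_units ((Units.coeHom ℂ).comp (σ * τ⁻¹))
    have e : ((Units.coeHom ℂ).comp (σ * τ⁻¹) = 1) ↔ σ = τ := by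
      constructor
      · intro h1
        rw [← mul_inv_eq_one]
        refine MonoidHom.ext fun w => Units.ext ?_
        exact congrArg (fun f : ↥W →* ℂ => f w) h1
      · rintro rfl; ext w; simp
    simp only [e] at h
    push_cast at h
    rw [← h]
    refine Finset.sum_congr rfl fun w _ => ?_
    simp
  have hsep : ∀ τ : ↥W →* ℂˣ, (∀ w : ↥W, (w : G) ∈ W₁ → τ w = 1) → (∀ w : ↥W, (w : G) ∈ W₂ → τ w = 1) → τ = 1 := by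
    intro τ h1 h2
    exact Cfsg.Agent.H56.hom_sup_ext hcomm (fun w hw => h1 w hw) (fun w hw => h2 w hw)
  haveI : Fintype {p : (↥W →* ℂˣ) × (↥W →* ℂˣ) // p.1 ≠ 1 ∧ p.2 ≠ 1 ∧ (∀ w : ↥W, (w : G) ∈ W₂ → p.1 w = 1) ∧ (∀ w : ↥W, (w : G) ∈ W₁ → p.2 w = 1)} := Fintype.ofFinite _
  rw [Fintype.linearIndependent_iff]
  intro c hc p
  obtain ⟨⟨φ, ψ⟩, hφ, hψ, hφ₂, hψ₁⟩ := p
  have key : ∀ q : {p : (↥W →* ℂˣ) × (↥W →* ℂˣ) // p.1 ≠ 1 ∧ p.2 ≠ 1 ∧ (∀ w : ↥W, (w : G) ∈ W₂ → p.1 w = 1) ∧ (∀ w : ↥W, (w : G) ∈ W₁ → p.2 w = 1)},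
      ∑ w : ↥W, (1 - (q.1.1 w : ℂ) - (q.1.2 w : ℂ) + (q.1.1 w : ℂ) * (q.1.2 w : ℂ)) * (((φ * ψ) w⁻¹ : ℂˣ) : ℂ)
        = if q.1 = (φ, ψ) then (Fintype.card ↥W : ℂ) else 0 := by
    rintro ⟨⟨α, β⟩, hα, hβ, hα₂, hβ₁⟩
    have e : ∀ w : ↥W, (1 - (α w : ℂ) - (β w : ℂ) + (α w : ℂ) * (β w : ℂ)) * (((φ * ψ) w⁻¹ : ℂˣ) : ℂ)
        = ((1 : ↥W →* ℂˣ) w : ℂ) * (((φ * ψ) w⁻¹ : ℂˣ) : ℂ) - (α w : ℂ) * (((φ * ψ) w⁻¹ : ℂˣ) : ℂ)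
          - (β w : ℂ) * (((φ * ψ) w⁻¹ : ℂˣ) : ℂ) + ((α * β) w : ℂ) * (((φ * ψ) w⁻¹ : ℂˣ) : ℂ) := by
      intro w; simp only [MonoidHom.one_apply, Units.val_one, MonoidHom.mul_apply, Units.val_mul]; ring
    simp only [e, Finset.sum_add_distrib, Finset.sum_sub_distrib, horth]
    have n1 : (1 : ↥W →* ℂˣ) ≠ φ * ψ := by
      intro h
      refine hφ (hsep φ (fun w hw => ?_) hφ₂)
      have := congrArg (fun f : ↥W →* ℂˣ => f w) h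
      simpa [hψ₁ w hw] using this.symm
    have n2 : α ≠ φ * ψ := by
      intro h
      refine hψ (hsep ψ hψ₁ (fun w hw => ?_))
      have := congrArg (fun f : ↥W →* ℂˣ => f w) h
      simpa [hφ₂ w hw, hα₂ w hw] using this.symm
    have n3 : β ≠ φ * ψ := by
      intro h
      refine hφ (hsep φ (fun w hw => ?_) hφ₂)
      have := congrArg (fun f : ↥W →* ℂˣ => f w) h
      simpa [hψ₁ w hw, hβ₁ w hw] using this.symm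
    have n4 : α * β = φ * ψ ↔ (α, β) = (φ, ψ) := by
      refine ⟨fun h => ?_, fun h => by cases h; rfl⟩
      have : α = φ := by
        rw [← mul_inv_eq_one]
        refine hsep _ (fun w hw => ?_) (fun w hw => by simp [hα₂ w hw, hφ₂ w hw])
        have := congrArg (fun f : ↥W →* ℂˣ => f w) h
        simp [hψ₁ w hw, hβ₁ w hw] at this
        simp [this]
      subst this
      rw [mul_left_cancel h]
    simp only [if_neg n1, if_neg n2, if_neg n3, n4]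
    ring
  have h0 := congrArg (fun f : ↥W → ℂ => ∑ w : ↥W, f w * (((φ * ψ) w⁻¹ : ℂˣ) : ℂ)) hc
  simp only [Finset.sum_apply, Pi.smul_apply, smul_eq_mul, Finset.sum_mul, Pi.zero_apply, zero_mul,
    Finset.sum_const_zero] at h0
  rw [Finset.sum_comm] at h0
  simp only [mul_assoc, ← Finset.mul_sum, key] at h0
  rw [Finset.sum_eq_single ⟨(φ, ψ), hφ, hψ, hφ₂, hψ₁⟩] at h0
  · simpa [Fintype.card_ne_zero] using h0
  · intro q _ hq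
    rw [if_neg (fun h => hq (Subtype.ext h)), mul_zero]
  · simp

end Cfsg.Agent.S1504
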