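import Cfsg.Statements.S1506
import Cfsg.Agent.H56.CyclicTI

set_option autoImplicit false
open Cfsg

namespace Cfsg.Agent.S1506

/-- Let W₁, W₂ ≤ G form a self-normalising cyclic subgroup W = W₁ ⊔ W₂ and χ an orthonormal family of irreducible characters of G up to sign, indexed by the linear characters ω of W, with χ_1 = 1, χ_ω = ω on W outside W₁ ∪ W₂, and the induction identity for (1 − φ)(1 − ψ). Let θ be a class function of G vanishing at every element of W outside W₁ ∪ W₂. For linear characters φ, φ' of W trivial on W₂ and ψ, ψ' trivial on W₁, the inner products a(ω) = ⟨θ, χ ω⟩ satisfy a(φψ) + a(φ'ψ') = a(φψ') + a(φ'ψ). -/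
theorem result {G : Type*} [Group G] [Fintype G] (W₁ W₂ : Subgroup G) (hW : Cfsg.IsSelfNormalizingCyclic W₁ W₂) (χ : (↥(W₁ ⊔ W₂) →* ℂˣ) → (G → ℂ)) (hχ : Cfsg.IsCyclicTIFamily W₁ W₂ χ) (θ : G → ℂ) (hθ : Cfsg.IsClassFunction G θ) (hθV : ∀ w : ↥(W₁ ⊔ W₂), (w : G) ∉ W₁ → (w : G) ∉ W₂ → θ w = 0) (φ φ' ψ ψ' : ↥(W₁ ⊔ W₂) →* ℂˣ) (hφ₂ : ∀ w : ↥(W₁ ⊔ W₂), (w : G) ∈ W₂ → φ w = 1 ∧ φ' w = 1) (hψ₁ : ∀ w : ↥(W₁ ⊔ W₂), (w : G) ∈ W₁ → ψ w = 1 ∧ ψ' w = 1) : Cfsg.classInner θ (χ (φ * ψ)) + Cfsg.classInner θ (χ (φ' * ψ')) = Cfsg.classInner θ (χ (φ * ψ')) + Cfsg.classInner θ (χ (φ' * ψ)) := by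
  have key := fun (a b : ↥(W₁ ⊔ W₂) →* ℂˣ) (ha : Cfsg.Agent.H56.TrivR W₁ W₂ a) (hb : Cfsg.Agent.H56.TrivL W₁ W₂ b) =>
    Cfsg.Agent.H56.coeff_additive hW hχ hθ (fun w hw => hθV w hw.1 hw.2) ha hb
  have a1 : Cfsg.Agent.H56.TrivR W₁ W₂ φ := fun w hw => (hφ₂ w hw).1
  have a2 : Cfsg.Agent.H56.TrivR W₁ W₂ φ' := fun w hw => (hφ₂ w hw).2
  have b1 : Cfsg.Agent.H56.TrivL W₁ W₂ ψ := fun w hw => (hψ₁ w hw).1
  have b2 : Cfsg.Agent.H56.TrivL W₁ W₂ ψ' := fun w hw => (hψ₁ w hw).2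
  rw [key φ ψ a1 b1, key φ' ψ' a2 b2, key φ ψ' a1 b2, key φ' ψ a2 b1]
  ring

end Cfsg.Agent.S1506
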