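import Cfsg.Statements.S1507
import Cfsg.Agent.H56.CyclicCoeff

set_option autoImplicit false
open Cfsg

namespace Cfsg.Agent.S1507

open Classical in
/-- Let W₁, W₂ ≤ G form a self-normalising cyclic subgroup W = W₁ ⊔ W₂ of odd order with Nat.card W₁ < Nat.card W₂, and χ an orthonormal family of irreducible characters of G up to sign, indexed by the linear characters ω of W, with χ_1 = 1, χ_ω = ω on W outside W₁ ∪ W₂, and the induction identity for (1 − φ)(1 − ψ). Let θ be a class function of G vanishing on W outside W₁ ∪ W₂, and suppose fewer than 2 · Nat.card W₁ linear characters ω of W have ⟨θ, χ ω⟩ ≠ 0. Then one of: all ⟨θ, χ ω⟩ vanish; or there are ψ₀ and a with ⟨θ, χ ω⟩ = a when ω ψ₀⁻¹ is trivial on W₂ and 0 otherwise; or there are φ₀ and a with ⟨θ, χ ω⟩ = a when ω φ₀⁻¹ is trivial on W₁ and 0 otherwise. -/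
theorem result {G : Type*} [Group G] [Fintype G] (W₁ W₂ : Subgroup G) (hW : Cfsg.IsSelfNormalizingCyclic W₁ W₂) (hodd : Odd (Nat.card ↥(W₁ ⊔ W₂))) (χ : (↥(W₁ ⊔ W₂) →* ℂˣ) → (G → ℂ)) (hχ : Cfsg.IsCyclicTIFamily W₁ W₂ χ) (hlt : Nat.card W₁ < Nat.card W₂) (θ : G → ℂ) (hθ : Cfsg.IsClassFunction G θ) (hθV : ∀ w : ↥(W₁ ⊔ W₂), (w : G) ∉ W₁ → (w : G) ∉ W₂ → θ w = 0) (hfew : Nat.card {ω : ↥(W₁ ⊔ W₂) →* ℂˣ // Cfsg.classInner θ (χ ω) ≠ 0} < 2 * Nat.card W₁) : (∀ ω, Cfsg.classInner θ (χ ω) = 0) ∨ (∃ (ψ₀ : ↥(W₁ ⊔ W₂) →* ℂˣ) (a : ℂ), ∀ ω, Cfsg.classInner θ (χ ω) = if (∀ w : ↥(W₁ ⊔ W₂), (w : G) ∈ W₂ → (ω * ψ₀⁻¹) w = 1) then a else 0) ∨ (∃ (φ₀ : ↥(W₁ ⊔ W₂) →* ℂˣ) (a : ℂ), ∀ ω, Cfsg.classInner θ (χ ω) = if (∀ w : ↥(W₁ ⊔ W₂), (w : G) ∈ W₁ → (ω * φ₀⁻¹) w = 1) then a else 0) := by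
  haveI := Fintype.ofFinite ↥(W₁ ⊔ W₂)
  set a := fun ω => Cfsg.classInner θ (χ ω) with ha
  let I := {φ : ↥(W₁ ⊔ W₂) →* ℂˣ // Cfsg.Agent.H56.TrivR W₁ W₂ φ}
  let J := {ψ : ↥(W₁ ⊔ W₂) →* ℂˣ // Cfsg.Agent.H56.TrivL W₁ W₂ ψ}
  let u : I → ℂ := fun i => a i.1
  let v : J → ℂ := fun j => a j.1 - a 1
  have hadd : ∀ (i : I) (j : J), a (i.1 * j.1) = u i + v j := fun i j => by
    simp only [u, v, a, Cfsg.Agent.H56.coeff_additive hW hχ hθ (fun w hw => hθV w hw.1 hw.2) i.2 j.2]; ring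
  have hpair : Function.Bijective (fun p : I × J => p.1.1 * p.2.1) := by
    refine ⟨fun p q h => ?_, fun ω => ?_⟩
    · obtain ⟨h1, h2⟩ := Cfsg.Agent.H56.triv_mul_inj hW p.1.2 q.1.2 p.2.2 q.2.2 h
      exact Prod.ext (Subtype.ext h1) (Subtype.ext h2)
    · obtain ⟨φ, ψ, hφ, hψ, rfl⟩ := Cfsg.Agent.H56.exists_trivR_mul_trivL hW ω
      exact ⟨(⟨φ, hφ⟩, ⟨ψ, hψ⟩), rfl⟩
  haveI := Cfsg.Agent.H56.cyc_isMulCommutative hW
  haveI c1 : IsMulCommutative W₁ := ⟨⟨fun x y => Subtype.ext (congrArg (fun z : ↥(W₁ ⊔ W₂) => (z : G))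
    (mul_comm' (⟨(x : G), Subgroup.mem_sup_left x.2⟩ : ↥(W₁ ⊔ W₂)) ⟨(y : G), Subgroup.mem_sup_left y.2⟩) :)⟩⟩
  haveI c2 : IsMulCommutative W₂ := ⟨⟨fun x y => Subtype.ext (congrArg (fun z : ↥(W₁ ⊔ W₂) => (z : G))
    (mul_comm' (⟨(x : G), Subgroup.mem_sup_right x.2⟩ : ↥(W₁ ⊔ W₂)) ⟨(y : G), Subgroup.mem_sup_right y.2⟩) :)⟩⟩
  have cI : Fintype.card I = Nat.card W₁ := by
    rw [← Nat.card_eq_fintype_card, ← Cfsg.Agent.H27.card_linear (C := W₁)]
    refine Nat.card_congr ⟨fun i => i.1.comp (Subgroup.inclusion le_sup_left),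
      fun μ => ⟨_, Cfsg.Agent.H56.trivR_comp hW μ⟩, fun i => Subtype.ext ?_, fun μ => ?_⟩
    · refine Cfsg.Agent.H56.hom_sup_ext hW.2.2.2.1 (fun w hw => ?_) (fun w hw => ?_)
      · show i.1 (Subgroup.inclusion le_sup_left (Cfsg.Agent.H56.cycFst hW w)) = i.1 w
        rw [(Cfsg.Agent.H56.cyc_coords hW (w := w) (a := ⟨w, hw⟩) (b := 1) (by simp)).1]; rfl
      · rw [i.2 w hw, Cfsg.Agent.H56.trivR_comp hW _ w hw]
    · refine MonoidHom.ext fun x => ?_
      show μ (Cfsg.Agent.H56.cycFst hW _) = μ x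
      rw [(Cfsg.Agent.H56.cyc_coords hW (w := Subgroup.inclusion le_sup_left x) (a := x) (b := 1) (by simp)).1]
  have cJ : Fintype.card J = Nat.card W₂ := by
    rw [← Nat.card_eq_fintype_card, ← Cfsg.Agent.H27.card_linear (C := W₂)]
    refine Nat.card_congr ⟨fun j => j.1.comp (Subgroup.inclusion le_sup_right),
      fun μ => ⟨_, Cfsg.Agent.H56.trivL_comp hW μ⟩, fun j => Subtype.ext ?_, fun μ => ?_⟩
    · refine Cfsg.Agent.H56.hom_sup_ext hW.2.2.2.1 (fun w hw => ?_) (fun w hw => ?_)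
      · rw [j.2 w hw, Cfsg.Agent.H56.trivL_comp hW _ w hw]
      · show j.1 (Subgroup.inclusion le_sup_right (Cfsg.Agent.H56.cycSnd hW w)) = j.1 w
        rw [(Cfsg.Agent.H56.cyc_coords hW (w := w) (a := 1) (b := ⟨w, hw⟩) (by simp)).2]; rfl
    · refine MonoidHom.ext fun x => ?_
      show μ (Cfsg.Agent.H56.cycSnd hW _) = μ x
      rw [(Cfsg.Agent.H56.cyc_coords hW (w := Subgroup.inclusion le_sup_right x) (a := 1) (b := x) (by simp)).2]
  let cnt : J → ℕ := fun j => (Finset.univ.filter (fun i : I => u i + v j ≠ 0)).card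
  have htot : ∑ j : J, cnt j < 2 * Nat.card W₁ := by
    refine lt_of_le_of_lt (le_of_eq ?_) hfew
    rw [← Nat.card_congr ((Equiv.ofBijective _ hpair).subtypeEquiv
      (p := fun p : I × J => u p.1 + v p.2 ≠ 0) (q := fun ω => Cfsg.classInner θ (χ ω) ≠ 0)
      (fun p => by show _ ↔ a (p.1.1 * p.2.1) ≠ 0; rw [hadd])),
      Nat.card_eq_fintype_card, Fintype.card_subtype, Finset.card_filter, Fintype.sum_prod_type_right]
    exact Finset.sum_congr rfl fun j _ => by simp [cnt, Finset.card_filter]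
  have hodd1 := hodd.of_dvd_nat (Subgroup.card_dvd_of_le (le_sup_left : W₁ ≤ W₁ ⊔ W₂))
  have hodd2 := hodd.of_dvd_nat (Subgroup.card_dvd_of_le (le_sup_right : W₂ ≤ W₁ ⊔ W₂))
  have h3 : 3 ≤ Nat.card W₁ := by
    have hne : Nat.card W₁ ≠ 1 := fun h => hW.1 (Subgroup.card_eq_one.1 h)
    obtain ⟨k, hk⟩ := hodd1
    omega
  have hgap : Nat.card W₁ + 2 ≤ Nat.card W₂ := by
    obtain ⟨k, hk⟩ := hodd1; obtain ⟨l, hl⟩ := hodd2; omega
  by_cases hconst : ∀ i i' : I, u i = u i'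
  · let i₀ : I := ⟨1, Cfsg.Agent.H56.trivR_one⟩
    have hc : ∀ j, cnt j = if u i₀ + v j = 0 then 0 else Nat.card W₁ := by
      intro j
      split_ifs with h
      · simp [cnt, fun i => hconst i i₀, h]
      · simp [cnt, fun i => hconst i i₀, h, cI]
    by_cases hall : ∀ j, u i₀ + v j = 0
    · left
      intro ω
      obtain ⟨⟨i, j⟩, rfl⟩ := hpair.2 ω
      show a (i.1 * j.1) = 0
      rw [hadd, hconst i i₀, hall j]
    · push Not at hall
      obtain ⟨j₀, hj₀⟩ := hall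
      have huniq : ∀ j, j ≠ j₀ → u i₀ + v j = 0 := by
        intro j hj
        by_contra h
        have h2 : ∑ x ∈ ({j, j₀} : Finset J), cnt x ≤ ∑ x : J, cnt x :=
          Finset.sum_le_sum_of_subset (Finset.subset_univ _)
        rw [Finset.sum_pair hj, hc, hc, if_neg h, if_neg hj₀] at h2
        omega
      right; left
      refine ⟨j₀.1, u i₀ + v j₀, fun ω => ?_⟩
      obtain ⟨⟨i, j⟩, rfl⟩ := hpair.2 ω
      show a (i.1 * j.1) = _
      rw [hadd, hconst i i₀]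
      by_cases hj : j = j₀
      · subst hj
        rw [if_pos]
        intro w hw
        simp [mul_assoc, i.2 w hw]
      · rw [if_neg, huniq j hj]
        intro h
        apply hj
        apply Subtype.ext
        refine Cfsg.Agent.H56.hom_sup_ext hW.2.2.2.1 (fun w hw => by rw [j.2 w hw, j₀.2 w hw]) (fun w hw => ?_)
        have := h w hw
        simp only [MonoidHom.mul_apply, MonoidHom.inv_apply, i.2 w hw, one_mul] at this
        exact mul_inv_eq_one.1 this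
  · have hcol : ∀ j : J, 1 ≤ cnt j := by
      intro j
      rw [Nat.one_le_iff_ne_zero]
      intro h
      refine hconst fun i i' => ?_
      have hz : ∀ x : I, u x + v j = 0 := fun x => by
        by_contra hx
        exact Finset.notMem_empty x (Finset.card_eq_zero.1 h ▸ Finset.mem_filter.2 ⟨Finset.mem_univ x, hx⟩)
      linear_combination hz i - hz i'
    have hJ : (Finset.univ : Finset J).card = Nat.card W₂ := by rw [Finset.card_univ, cJ]
    obtain ⟨j₀, hj₀⟩ : ∃ j₀, cnt j₀ ≤ 1 := by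
      by_contra h
      push Not at h
      have : ∑ _j : J, 2 ≤ ∑ j : J, cnt j := Finset.sum_le_sum fun j _ => h j
      rw [Finset.sum_const, smul_eq_mul, hJ] at this
      omega
    obtain ⟨i₀, hi₀⟩ := Finset.card_eq_one.1 (le_antisymm hj₀ (hcol j₀))
    have hne0 : u i₀ + v j₀ ≠ 0 :=
      (Finset.mem_filter.1 (hi₀ ▸ Finset.mem_singleton_self i₀ :
        i₀ ∈ Finset.univ.filter (fun i : I => u i + v j₀ ≠ 0))).2
    have hz : ∀ i, i ≠ i₀ → u i + v j₀ = 0 := by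
      intro i hi
      by_contra h
      exact hi (Finset.mem_singleton.1 (hi₀ ▸ Finset.mem_filter.2 ⟨Finset.mem_univ i, h⟩))
    have hv : ∀ j, v j = v j₀ := by
      intro j
      by_contra hne
      have hbig : Nat.card W₁ - 1 ≤ cnt j := by
        have : (Finset.univ.erase i₀) ⊆ Finset.univ.filter (fun i : I => u i + v j ≠ 0) := by
          intro i hi
          refine Finset.mem_filter.2 ⟨Finset.mem_univ i, fun h => hne ?_⟩
          linear_combination h - hz i (Finset.ne_of_mem_erase hi)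
        have h4 := Finset.card_le_card this
        rw [Finset.card_erase_of_mem (Finset.mem_univ _), Finset.card_univ, cI] at h4
        exact h4
      have h5 : cnt j + ∑ x ∈ Finset.univ.erase j, 1 ≤ ∑ x : J, cnt x := by
        rw [← Finset.add_sum_erase Finset.univ cnt (Finset.mem_univ j)]
        exact Nat.add_le_add_left (Finset.sum_le_sum fun x _ => hcol x) _
      rw [Finset.sum_const, smul_eq_mul, mul_one, Finset.card_erase_of_mem (Finset.mem_univ _), hJ] at h5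
      omega
    right; right
    refine ⟨i₀.1, u i₀ + v j₀, fun ω => ?_⟩
    obtain ⟨⟨i, j⟩, rfl⟩ := hpair.2 ω
    show a (i.1 * j.1) = _
    rw [hadd, hv j]
    by_cases hi : i = i₀
    · subst hi
      rw [if_pos]
      intro w hw
      simp [j.2 w hw]
    · rw [if_neg, hz i hi]
      intro h
      apply hi
      apply Subtype.ext
      refine Cfsg.Agent.H56.hom_sup_ext hW.2.2.2.1 (fun w hw => ?_) (fun w hw => by rw [i.2 w hw, i₀.2 w hw])
      have := h w hw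
      simp only [MonoidHom.mul_apply, MonoidHom.inv_apply, j.2 w hw, mul_one] at this
      exact mul_inv_eq_one.1 this

end Cfsg.Agent.S1507
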