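import Cfsg.Statements.S1513
import Cfsg.Agent.H56.TypeP

set_option autoImplicit false
open Cfsg

namespace Cfsg.Agent.S1513

/-- Let L be a finite group with K normal with complement W₁ ≠ 1 a cyclic Hall subgroup, and W₂ ≠ 1 a cyclic subgroup of K equal to C_K(x) for every non-identity x ∈ W₁, with W₁W₂ of odd order. For an irreducible character θ of K: if θ is not fixed under conjugation by some element of W₁, then the function induced from θ to L is an irreducible character of L; and the irreducible characters of K fixed by all of W₁ are exactly Nat.card W₂ in number, each inducing to the sum of Nat.card W₁ pairwise distinct irreducible characters of L. -/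
theorem result {L : Type*} [Group L] [Fintype L] (K W₁ W₂ : Subgroup L) [hK : K.Normal] (hKW₁ : K ⊓ W₁ = ⊥) (hKW₁' : K ⊔ W₁ = ⊤) (hW₁ : W₁ ≠ ⊥) (hW₁c : IsCyclic W₁) (hHall : Nat.Coprime (Nat.card W₁) W₁.index) (hW₂ : W₂ ≠ ⊥) (hW₂c : IsCyclic W₂) (hW₂K : W₂ ≤ K) (hC : ∀ x ∈ W₁, x ≠ 1 → K ⊓ Subgroup.centralizer ({x} : Set L) = W₂) (hodd : Odd (Nat.card ↥(W₁ ⊔ W₂))) : (∀ θ : K → ℂ, Cfsg.IsIrrCharacter K θ → (∃ x ∈ W₁, (fun k : K => θ ⟨x * k * x⁻¹, hK.conj_mem (k : L) k.2 x⟩) ≠ θ) → Cfsg.IsIrrCharacter L (Cfsg.indFun K θ)) ∧ Nat.card {θ : Cfsg.IrrCharacter K // ∀ x ∈ W₁, (fun k : K => (θ : K → ℂ) ⟨x * k * x⁻¹, hK.conj_mem (k : L) k.2 x⟩) = θ} = Nat.card W₂ ∧ (∀ θ : K → ℂ, Cfsg.IsIrrCharacter K θ → (∀ x ∈ W₁, (fun k : K => θ ⟨x * k * x⁻¹, hK.conj_mem (k : L) k.2 x⟩) = θ) → ∃ C : Finset (L → ℂ), C.card = Nat.card W₁ ∧ (∀ μ ∈ C, Cfsg.IsIrrCharacter L μ) ∧ Cfsg.indFun K θ = ∑ μ ∈ C, μ) :=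 by
  classical
  haveI := Fintype.ofFinite K
  have h := Cfsg.Agent.H56.TypeP.of_hall hKW₁ hKW₁' hW₁ hW₁c hHall hW₂c hC hodd
  refine ⟨fun θ hθ hnon => h.irr_indFun hθ hnon, h.card_invariant, fun θ hθ hinv => ?_⟩
  obtain ⟨C, hc, hC', hind⟩ := h.exists_extensions hθ hinv
  exact ⟨C, hc, fun μ hμ => (hC' μ hμ).1, hind⟩

end Cfsg.Agent.S1513
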