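import Cfsg.Statements.S1515
import Cfsg.Agent.H57.CohSystem

set_option autoImplicit false
open Cfsg

namespace Cfsg.Agent.S1515

/-- Let (S, τ, R) be a coherence system from L to G, χ ∈ S, and ψ an integer combination of S with ⟨χ, ψ⟩ = ⟨conj χ, ψ⟩ = 0. Let τ₁ be a linear isometry on the integer combinations of χ − ψ and χ − conj χ, with virtual-character values, agreeing with τ on integer multiples of χ − conj χ. Then the sum over α ∈ R χ of the squared absolute values of ⟨τ₁(χ − ψ), α⟩ is at least ⟨χ, χ⟩; and if ⟨τ₁(χ − ψ), τ₁(χ − ψ)⟩ minus that sum is at least ⟨ψ, ψ⟩, then the sum equals ⟨χ, χ⟩ and every ⟨τ₁(χ − ψ), α⟩ with α ∈ R χ is 0 or 1. -/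
theorem result {L : Type*} [Group L] [Fintype L] {G : Type*} [Group G] [Fintype G] (S : Set (L → ℂ)) (τ : (L → ℂ) → (G → ℂ)) (R : (L → ℂ) → Finset (G → ℂ)) (hS : Cfsg.IsCoherenceSystem S τ R) (χ : L → ℂ) (hχ : χ ∈ S) (ψ : L → ℂ) (hψ : ψ ∈ Cfsg.zspan S) (h1 : Cfsg.classInner χ ψ = 0) (h2 : Cfsg.classInner (Cfsg.conjFun χ) ψ = 0) (τ₁ : (L → ℂ) → (G → ℂ)) (hτ₁ : Cfsg.IsLinearIsometryOn (Cfsg.zspan {χ - ψ, χ - Cfsg.conjFun χ}) τ₁) (hagree : ∀ n : ℤ, τ₁ (n • (χ - Cfsg.conjFun χ)) = τ (n • (χ - Cfsg.conjFun χ))) : (Cfsg.classInner χ χ).re ≤ ∑ α ∈ R χ, ‖Cfsg.classInner (τ₁ (χ - ψ)) α‖ ^ 2 ∧ ((Cfsg.classInner ψ ψ).re ≤ (Cfsg.classInner (τ₁ (χ - ψ)) (τ₁ (χ - ψ))).re - ∑ α ∈ R χ, ‖Cfsg.classInner (τ₁ (χ - ψ)) α‖ ^ 2 → (∑ α ∈ R χ, ‖Cfsg.classInner (τ₁ (χ - ψ)) α‖ ^ 2 = (Cfsg.classInner χ χ).re ∧ ∀ α ∈ R χ, Cfsg.classInner (τ₁ (χ - ψ)) α = 0 ∨ Cfsg.classInner (τ₁ (χ -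 ψ)) α = 1)) := by
  classical
  set x := τ₁ (χ - ψ) with hx
  have hm1 : χ - ψ ∈ Cfsg.zspan {χ - ψ, χ - Cfsg.conjFun χ} :=
    Cfsg.Agent.H57.zspan_subset_of_mem (Set.mem_insert _ _)
  have hm2 : χ - Cfsg.conjFun χ ∈ Cfsg.zspan {χ - ψ, χ - Cfsg.conjFun χ} :=
    Cfsg.Agent.H57.zspan_subset_of_mem (Set.mem_insert_of_mem _ rfl)
  have hgen : Cfsg.IsGeneralizedCharacter G x := hτ₁.2.2.2 _ hm1
  have hint : ∀ α ∈ R χ, ∃ k : ℤ, Cfsg.classInner x α = k := fun α hα =>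
    Cfsg.Agent.H57.gen_inner_int hgen (hS.virtual χ hχ α hα)
  choose! k hk using hint
  obtain ⟨n, -, hn⟩ := Cfsg.Agent.H57.sys_norm hS hχ
  have hsum : ∑ α ∈ R χ, k α = (n : ℤ) := by
    have h := hτ₁.2.2.1 _ hm1 _ hm2
    have hag := hagree 1
    rw [one_smul] at hag
    rw [hag, hS.sum_eq χ hχ, Cfsg.Agent.H26.classInner_sum_right,
      Finset.sum_congr rfl (fun α hα => hk α hα)] at h
    have h0 : Cfsg.classInner ψ χ = 0 := by rw [Cfsg.Agent.H26.classInner_comm, h1, map_zero]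
    have h0' : Cfsg.classInner ψ (Cfsg.conjFun χ) = 0 := by rw [Cfsg.Agent.H26.classInner_comm, h2, map_zero]
    rw [Cfsg.Agent.H26.classInner_sub_left, Cfsg.Agent.H26.classInner_sub_right,
      Cfsg.Agent.H26.classInner_sub_right, hn, h0, h0', Cfsg.Agent.H57.sys_inner_conj hS hχ] at h
    simp at h
    exact_mod_cast h
  have hsq : ∀ α ∈ R χ, ‖Cfsg.classInner x α‖ ^ 2 = ((k α ^ 2 : ℤ) : ℝ) := by
    intro α hα
    rw [hk α hα, Complex.norm_intCast, sq_abs]; push_cast; rfl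
  have hre : (Cfsg.classInner χ χ).re = (((n : ℤ)) : ℝ) := by rw [hn]; simp
  have hle : ∀ α ∈ R χ, k α ≤ k α ^ 2 := fun α _ => Int.le_self_sq _
  rw [Finset.sum_congr rfl hsq, ← Int.cast_sum, hre]
  refine ⟨?_, fun hψψ => ?_⟩
  · exact_mod_cast hsum ▸ Finset.sum_le_sum hle
  have h0 : Cfsg.classInner ψ χ = 0 := by rw [Cfsg.Agent.H26.classInner_comm, h1, map_zero]
  have hxx : (Cfsg.classInner x x).re = ((n : ℤ) : ℝ) + (Cfsg.classInner ψ ψ).re := by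
    rw [hτ₁.2.2.1 _ hm1 _ hm1, Cfsg.Agent.H26.classInner_sub_left, Cfsg.Agent.H26.classInner_sub_right,
      Cfsg.Agent.H26.classInner_sub_right, hn, h0, h1]
    simp
  rw [hxx] at hψψ
  have heq : ∑ α ∈ R χ, k α ^ 2 = (n : ℤ) := by
    refine le_antisymm ?_ (hsum ▸ Finset.sum_le_sum hle)
    have : ((∑ α ∈ R χ, k α ^ 2 : ℤ) : ℝ) ≤ ((n : ℤ) : ℝ) := by linarith
    exact_mod_cast this
  refine ⟨by exact_mod_cast heq, fun α hα => ?_⟩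
  have hz := (Finset.sum_eq_sum_iff_of_le hle).1 (hsum.trans heq.symm) α hα
  have : k α = 0 ∨ k α = 1 := by
    rcases eq_or_ne (k α) 0 with h | h
    · exact Or.inl h
    · exact Or.inr (mul_left_cancel₀ h (by rw [mul_one, ← sq, ← hz]))
  rcases this with h | h <;> simp [hk α hα, h]

end Cfsg.Agent.S1515
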