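import Cfsg.Statements.S1518
import Cfsg.Agent.H56.VirtualNorm
import Cfsg.Agent.S1500
import Cfsg.Agent.S1501

set_option autoImplicit false
open Cfsg

namespace Cfsg.Agent.S1518

/-- Under the Dade hypothesis for (A, L, H): if χ is an irreducible character of L vanishing at every non-identity element of L outside A, then the Dade image of χ − conj χ equals μ − conj μ for some irreducible character μ of G. -/
theorem result {G : Type*} [Group G] [Fintype G] (A : Set G) (L : Subgroup G) [Fintype L] (H : G → Subgroup G) (hD : Cfsg.DadeHypothesis A L H) (χ : L → ℂ) (hχ : Cfsg.IsIrrCharacter L χ) (hsupp : ∀ x : L, x ≠ 1 → (x : G) ∉ A → χ x = 0) : ∃ μ : G → ℂ, Cfsg.IsIrrCharacter G μ ∧ Cfsg.dadeIsometry A L H (χ - Cfsg.conjFun χ) = μ - Cfsg.conjFun μ := by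
  classical
  by_cases hr : Cfsg.conjFun χ = χ
  · refine ⟨fun _ => 1, (H26.oneIrr G).2, ?_⟩
    rw [hr, sub_self]
    funext g
    simp [Cfsg.dadeIsometry, Cfsg.conjFun]
  set d := χ - Cfsg.conjFun χ with hd
  obtain ⟨m, -, hm⟩ := H57.irr_degree hχ
  have hd1 : d 1 = 0 := by simp [hd, Cfsg.conjFun, hm]
  have hdA : ∀ x : L, (x : G) ∉ A → d x = 0 := by
    intro x hx
    by_cases h1 : x = 1
    · rw [h1]; exact hd1
    · simp [hd, Cfsg.conjFun, hsupp x h1 hx]
  have hdgen : Cfsg.IsGeneralizedCharacter L d :=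
    H57.gen_sub (H57.gen_of_irr hχ) (H57.gen_of_irr (H57.irr_conjFun hχ))
  have hdcf := H57.gen_classFunction hdgen
  set T := Cfsg.dadeIsometry A L H d with hT
  have hTgen : Cfsg.IsGeneralizedCharacter G T := S1501.result A L H hD d hdgen hdA
  have hTT : Cfsg.classInner T T = 2 := by
    rw [(S1500.result A L H hD d hdcf hdA).1 d hdcf hdA, hd]
    simp only [H26.classInner_sub_left, H26.classInner_sub_right, H57.irr_inner_self hχ,
      H57.irr_inner_self (H57.irr_conjFun hχ), H57.irr_inner_ne hχ (H57.irr_conjFun hχ) (Ne.symm hr),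
      H57.irr_inner_ne (H57.irr_conjFun hχ) hχ hr]
    norm_num
  have hT1 : T 1 = 0 := by
    by_contra hne
    obtain ⟨a, ha, x, u, hu, hx⟩ := H56.dade_apply_ne_zero hne
    rw [mul_one, mul_inv_cancel] at hx
    have hau : (a : G) ∈ H (a : G) ⊓ (L ⊓ Subgroup.centralizer ({(a : G)} : Set G)) :=
      ⟨eq_inv_of_mul_eq_one_left hx.symm ▸ (H (a : G)).inv_mem hu, a.2,
        Subgroup.mem_centralizer_singleton_iff.2 rfl⟩
    rw [hD.inf_eq_bot _ ha, Subgroup.mem_bot] at hau
    exact hD.one_not_mem (hau ▸ ha)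
  have hconjT : Cfsg.conjFun T = -T := by
    funext g
    simp only [hT, Cfsg.conjFun, Cfsg.dadeIsometry, Pi.neg_apply]
    split_ifs with h
    · simp [hd, Cfsg.conjFun]
    · simp
  obtain ⟨α, β, -, -, hα, hβ, hαα, hββ, hαβ, hsum⟩ := H56.gen_norm_two hTgen hTT
  obtain ⟨μ, ν, hμ, hν, hne, hTμ⟩ : ∃ μ ν : G → ℂ, Cfsg.IsIrrCharacter G μ ∧ Cfsg.IsIrrCharacter G ν ∧
      μ ≠ ν ∧ T = μ - ν := by
    have h1 : α 1 + β 1 = 0 := by rw [← Pi.add_apply, ← hsum, hT1]
    rcases hα with ha | ha <;> rcases hβ with hb | hb <;> obtain ⟨x, hx, hxe⟩ := H57.irr_degree ha <;>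
      obtain ⟨y, hy, hye⟩ := H57.irr_degree hb
    · exfalso
      rw [hxe, hye] at h1
      have : x + y = 0 := by exact_mod_cast h1
      omega
    · refine ⟨α, -β, ha, hb, fun e => ?_, by rw [hsum, sub_neg_eq_add]⟩
      rw [e, H26.classInner_neg_left, hββ] at hαβ
      norm_num at hαβ
    · refine ⟨β, -α, hb, ha, fun e => ?_, by rw [hsum, sub_neg_eq_add, add_comm]⟩
      rw [e, H57.classInner_neg_right, hαα] at hαβ
      norm_num at hαβ
    · exfalso
      rw [Pi.neg_apply, neg_eq_iff_eq_neg] at hxe hye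
      rw [hxe, hye] at h1
      have : ((x + y : ℕ) : ℂ) = 0 := by push_cast; linear_combination -h1
      rw [Nat.cast_eq_zero] at this
      omega
  have hμν : Cfsg.conjFun μ - Cfsg.conjFun ν = ν - μ := by
    have e : Cfsg.conjFun (μ - ν) = Cfsg.conjFun μ - Cfsg.conjFun ν := by funext g; simp [Cfsg.conjFun]
    rw [← e, ← hTμ, hconjT, hTμ, neg_sub]
  have key : Cfsg.conjFun μ = ν := by
    by_contra hne2
    have h3 := congrArg (fun f => Cfsg.classInner f ν) hμν
    rw [H26.classInner_sub_left, H26.classInner_sub_left, H57.irr_inner_ne (H57.irr_conjFun hμ) hν hne2,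
      H57.irr_inner_self hν, H57.irr_inner_ne hμ hν hne] at h3
    by_cases hVV : Cfsg.conjFun ν = ν
    · rw [hVV, H57.irr_inner_self hν] at h3; norm_num at h3
    · rw [H57.irr_inner_ne (H57.irr_conjFun hν) hν hVV] at h3; norm_num at h3
  exact ⟨μ, hμ, by rw [key]; exact hTμ⟩

end Cfsg.Agent.S1518
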