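import Cfsg.Statements.S1522
import Cfsg.Agent.H57.CentralPart

set_option autoImplicit false
open Cfsg

namespace Cfsg.Agent.S1522

/-- Let K be a nilpotent normal subgroup of the finite group L of odd order with [K,K] < K < L and L/[K,K] a Frobenius group with kernel K/[K,K] (elements of K outside [K,K] are centralised modulo [K,K] only from inside K); let (S, τ, R) be a coherence system from L to G with S the functions induced from non-principal irreducible characters of K. Let Z be a nontrivial normal subgroup of L contained in the centre of K, and suppose every member of S outside S(Z) is an irreducible character of L. Then S minus S(Z) is the set of irreducible characters χ of L with χ z ≠ χ 1 for some z ∈ Z, and it is coherent. -/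
theorem result {L : Type*} [Group L] [Fintype L] {G : Type*} [Group G] [Fintype G] (K : Subgroup L) [hK : K.Normal] (hsolv : Group.IsSolvable K) (τ : (L → ℂ) → (G → ℂ)) (R : (L → ℂ) → Finset (G → ℂ)) (hS : Cfsg.IsCoherenceSystem (Cfsg.inducedIrrAbove K ⊥) τ R) (hodd : Odd (Nat.card L)) (hnil : Group.IsNilpotent K) (hH₁K : ⁅K, K⁆ < K) (hKL : K < ⊤) (hfrob : ∀ k ∈ K, k ∉ ⁅K, K⁆ → ∀ x : L, x * k * x⁻¹ * k⁻¹ ∈ ⁅K, K⁆ → x ∈ K) (Z : Subgroup L) [Z.Normal] (hZ1 : Z ≠ ⊥) (hZK : Z ≤ K) (hZc : ∀ z ∈ Z, ∀ k ∈ K, z * k = k * z) (hirr : ∀ χ ∈ Cfsg.inducedIrrAbove K ⊥ \ Cfsg.inducedIrrAbove K Z, Cfsg.IsIrrCharacter L χ) : Cfsg.inducedIrrAbove K ⊥ \ Cfsg.inducedIrrAbove K Z = {χ | Cfsg.IsIrrCharacter L χ ∧ ∃ z ∈ Z, χ z ≠ χ 1} ∧ Cfsg.IsCoherent (Cfsg.inducedIrrAbove K ⊥ \ Cfsg.inducedIrrAbove K Z) {1}ᶜ τ := by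
  classical
  have hset := Cfsg.Agent.H57.central_part_set Z hZK hirr
  refine ⟨hset, ?_⟩
  have hsub : Cfsg.inducedIrrAbove K ⊥ \ Cfsg.inducedIrrAbove K Z ⊆ Cfsg.inducedIrrAbove K ⊥ :=
    Set.sdiff_subset
  have hk : (⁅K, K⁆).relIndex K ≠ 1 := fun e => hH₁K.not_ge (Subgroup.relIndex_eq_one.1 e)
  by_cases hpp : ∃ p m : ℕ, p.Prime ∧ Nat.card K = p ^ m
  · obtain ⟨p, m, hp, hm⟩ := hpp
    have hdvd : (⁅K, K⁆).relIndex K ∣ p ^ m := hm ▸ Subgroup.index_dvd_card _
    obtain ⟨r, -, hr⟩ := (Nat.dvd_prime_pow hp).1 hdvd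
    have hr0 : r ≠ 0 := fun e => hk (by rw [hr, e, pow_zero])
    have hpk : p ∣ (⁅K, K⁆).relIndex K := hr ▸ dvd_pow_self p hr0
    have hp2 : p ≠ 2 := by
      intro e
      have hm0 : m ≠ 0 := fun h0 => by
        rw [h0, pow_zero, Nat.dvd_one] at hdvd
        exact hk hdvd
      have : Odd (2 : ℕ) := hodd.of_dvd_nat
        ((e ▸ hm ▸ dvd_pow_self p hm0 : (2 : ℕ) ∣ Nat.card K).trans (Subgroup.card_subgroup_dvd_card K))
      exact absurd this (by decide)
    have hcop : Nat.Coprime p K.index := by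
      have h := Cfsg.Agent.H57.index_dvd_section ⁅K, K⁆ K hH₁K.le le_rfl le_rfl hfrob
      refine (Nat.Prime.coprime_iff_not_dvd hp).2 fun hpe => hp.one_lt.ne' ?_
      have h1 := Nat.dvd_sub hpk (hpe.trans h)
      rw [Nat.sub_sub_self (Nat.pos_of_ne_zero (Cfsg.Agent.H57.relIndex_ne_zero_fin _ _)),
        Nat.dvd_one] at h1
      exact h1
    exact Cfsg.Agent.H57.central_part_coherent hp hp2 hm hcop Z hZ1 hZK hZc hirr
      (fun χ hχ => hS.conj_ne χ hχ.1) τ
      (Cfsg.Agent.H57.iso_mono (Cfsg.Agent.H57.zspanOn_mono hsub) hS.isometry)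
      (fun α hα => hS.map_one α (Cfsg.Agent.H57.zspanOn_mono hsub hα))
  · haveI := hnil
    have hcoh : Cfsg.IsCoherent (Cfsg.inducedIrrAbove K ⊥) {1}ᶜ τ := by
      refine Cfsg.Agent.H57.coherent_nilpotent_section hsolv hS hodd ⊥ bot_le inferInstance ⁅K, K⁆
        (sup_bot_eq _).symm hH₁K hfrob (Or.inr (Or.inr (Or.inl ?_)))
      rwa [Subgroup.relIndex_bot_left]
    obtain ⟨x, hx⟩ : (Cfsg.inducedIrrAbove K ⊥ \ Cfsg.inducedIrrAbove K Z).Nonempty := by
      by_contra h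
      rw [Set.not_nonempty_iff_eq_empty] at h
      have hs := Cfsg.Agent.H57.central_part_sum Z hZK hirr ∅ (by rw [Finset.coe_empty, h])
        (fun _ => 0) (by simp)
      rw [Finset.sum_empty, zero_add] at hs
      have hidx := Nat.eq_of_mul_eq_mul_left (Nat.pos_of_ne_zero Subgroup.index_ne_zero_of_finite) hs
      have hmul : Nat.card Z * Z.relIndex K = Nat.card K := by
        rw [← Subgroup.relIndex_bot_left, ← Subgroup.relIndex_bot_left (H := K)]
        exact Subgroup.relIndex_mul_relIndex ⊥ Z K bot_le hZK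
      rw [← hidx] at hmul
      refine hZ1 (Subgroup.eq_bot_of_card_eq _ ?_)
      exact (Nat.mul_eq_right (Cfsg.Agent.H57.relIndex_ne_zero_fin _ _)).1 hmul
    refine Cfsg.Agent.H57.coherent_subset hsub hcoh ⟨x - Cfsg.conjFun x,
      Cfsg.Agent.H57.mem_degZero.2 ⟨Cfsg.Agent.H57.zspan_sub (Cfsg.Agent.H57.zspan_subset_of_mem hx)
        (Cfsg.Agent.H57.zspan_subset_of_mem (Cfsg.Agent.H57.central_part_conj Z hx)), ?_⟩,
      Cfsg.Agent.H57.sys_diff_ne_zero hS hx.1⟩
    simp [Cfsg.Agent.H57.sys_conj_degree hS hx.1]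

end Cfsg.Agent.S1522
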