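import Cfsg.Statements.S1528
import Cfsg.Agent.H57.FixedChar
import Cfsg.Agent.H56.IndNormal
import Cfsg.Agent.H25.CharInd
import Cfsg.Agent.H25.IndRep
import Cfsg.Agent.S0193

set_option autoImplicit false
open Cfsg

namespace Cfsg.Agent.S1528

/-- Let N be a normal subgroup of the finite group G such that every element of G commuting with a non-identity element of N lies in N. If χ is an irreducible character of G with χ n ≠ χ 1 for some n ∈ N, then χ is the function induced from some irreducible character of N. -/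
theorem result {G : Type*} [Group G] [Fintype G] (N : Subgroup G) [N.Normal] (hC : ∀ n ∈ N, n ≠ 1 → Subgroup.centralizer ({n} : Set G) ≤ N) (χ : G → ℂ) (hχ : Cfsg.IsIrrCharacter G χ) (hker : ∃ n ∈ N, χ n ≠ χ 1) : ∃ φ : N → ℂ, Cfsg.IsIrrCharacter N φ ∧ χ = Cfsg.indFun N φ := by
  classical
  have hcl : ∀ x : G, x ∉ N → ¬ ∃ h : N, h ≠ 1 ∧ IsConj (MulAut.conjNormal x h) h := by
    rintro x hx ⟨h, h1, hc⟩
    obtain ⟨c, hc⟩ := isConj_iff.1 hc
    have hc' : (c : G) * (x * h * x⁻¹) * (c : G)⁻¹ = h := by
      simpa [MulAut.conjNormal_apply] using congrArg (Subtype.val : N → G) hc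
    have hmem : (c : G) * x ∈ Subgroup.centralizer ({(h : G)} : Set G) := by
      rw [Subgroup.mem_centralizer_singleton_iff]
      calc (c : G) * x * h = (c : G) * (x * h * x⁻¹) * (c : G)⁻¹ * ((c : G) * x) := by group
        _ = h * ((c : G) * x) := by rw [hc']
    have hcx := hC h h.2 (fun e => h1 (Subtype.ext e)) hmem
    exact hx (by simpa using N.mul_mem (N.inv_mem c.2) hcx)
  have hres : IsCharacter N (fun n : N => χ n) :=
    H26.isCharacter_comp (H26.isCharacter_of_irr hχ) N.subtype
  obtain ⟨θ, hθ1, hθne⟩ : ∃ θ : IrrCharacter N, θ.1 ≠ (fun _ => 1) ∧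
      Cfsg.classInner (fun n : N => χ n) θ.1 ≠ 0 := by
    by_contra hno
    simp only [not_exists, not_and, not_not] at hno
    have hexp := H26.class_function_expansion _ (H26.isClassFunction_of_isCharacter hres)
    obtain ⟨n, hn, hne⟩ := hker
    have hval : ∀ m : N, χ m = Cfsg.classInner (fun n : N => χ n) (H26.oneIrr N).1 := by
      intro m
      have h2 : χ m = _ := congrFun hexp m
      rw [h2, Finset.sum_apply, Finset.sum_eq_single (H26.oneIrr N)]
      · simp [H26.oneIrr_val]
      · intro θ _ hθ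
        rw [Pi.smul_apply, hno θ (fun e => hθ (Subtype.ext e)), zero_smul]
      · intro h; exact absurd (Finset.mem_univ _) h
    exact hne ((hval ⟨n, hn⟩).trans (hval 1).symm)
  refine ⟨θ.1, θ.2, ?_⟩
  have hind : Cfsg.IsIrrCharacter G (Cfsg.indFun N θ.1) := by
    refine H57.irr_of_char_norm_one (H25.isCharacter_indFun N (H26.isCharacter_of_irr θ.2)) ?_
    have h := S0193.result N θ.1 θ.2
    have hcard : Nat.card {g : G // ∀ h : N, θ.1 ⟨g * h * g⁻¹, ‹N.Normal›.conj_mem h h.2 g⟩ = θ.1 h}
        = Nat.card N := by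
      refine Nat.card_congr (Equiv.subtypeEquivRight fun g => ?_)
      constructor
      · intro hg
        by_contra hgN
        exact hcl g hgN ((H57.fixed_char_iff_fixed_class N g).1 ⟨θ.1, θ.2, hθ1, funext hg⟩)
      · intro hg k
        have := H26.irr_conj θ k ⟨g, hg⟩
        exact (congrArg θ.1 (Subtype.ext (by simp))).trans this
    rw [hcard] at h
    exact mul_left_cancel₀ (Nat.cast_ne_zero.2 Nat.card_pos.ne') (h.trans (mul_one _).symm)
  by_contra hne
  refine hθne ?_
  rw [← H25.classInner_indFun_right N θ.1 χ (H26.isClassFunction_of_isCharacter (H26.isCharacter_of_irr hχ))]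
  exact H57.irr_inner_ne hχ hind hne

end Cfsg.Agent.S1528
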