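import Cfsg.Statements.S1531
import Cfsg.Agent.H57.CohUnion

set_option autoImplicit false
open Cfsg

namespace Cfsg.Agent.S1531

/-- Let N be a subgroup of the finite group G, S a set of irreducible characters of N, and α a linear isometry on the integer combinations of S vanishing at 1 with values virtual characters of G vanishing at 1. Let X, Y ⊆ S be disjoint, each with at least two members, and σ, τ linear isometries on ℤ[X], ℤ[Y] into virtual characters agreeing with α on the members vanishing at 1. Then ⟨σ χ, τ η⟩ = 0 for χ ∈ X, η ∈ Y; and if for some χ₀ ∈ X, η₀ ∈ Y with degrees c = χ₀ 1, e = η₀ 1 one has α (c • η₀ − e • χ₀) = c • τ η₀ − e • σ χ₀, then (X ∪ Y, N minus 1, α) is coherent. -/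
theorem result {G : Type*} [Group G] [Fintype G] (N : Subgroup G) [Fintype N] (S X Y : Set (N → ℂ)) (hirr : ∀ ξ ∈ S, Cfsg.IsIrrCharacter N ξ) (hXS : X ⊆ S) (hYS : Y ⊆ S) (hXY : Disjoint X Y) (hX2 : ∃ a ∈ X, ∃ b ∈ X, a ≠ b) (hY2 : ∃ a ∈ Y, ∃ b ∈ Y, a ≠ b) (α : (N → ℂ) → (G → ℂ)) (hα : Cfsg.IsLinearIsometryOn (Cfsg.zspanOn S {1}ᶜ) α) (hα1 : ∀ θ ∈ Cfsg.zspanOn S {1}ᶜ, α θ 1 = 0) (σ τ : (N → ℂ) → (G → ℂ)) (hσ : Cfsg.IsLinearIsometryOn (Cfsg.zspan X) σ) (hσα : ∀ θ ∈ Cfsg.zspanOn X {1}ᶜ, σ θ = α θ) (hτ : Cfsg.IsLinearIsometryOn (Cfsg.zspan Y) τ) (hτα : ∀ θ ∈ Cfsg.zspanOn Y {1}ᶜ, τ θ = α θ) : (∀ χ ∈ X, ∀ η ∈ Y, Cfsg.classInner (σ χ) (τ η) = 0) ∧ ((∃ χ₀ ∈ X, ∃ η₀ ∈ Y, α (χ₀ 1 • η₀ - η₀ 1 • χ₀) = χ₀ 1 • τ η₀ - η₀ 1 • σ χ₀) → Cfsg.IsCoherent (X ∪ Y) {1}ᶜ α) := by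
  have h := H57.union_images_orth hirr hXS hYS hXY hX2 hY2 hα hα1 hσ hσα hτ hτα
  refine ⟨h, ?_⟩
  rintro ⟨χ₀, h1, η₀, h2, h3⟩
  exact H57.union_coherent hirr hXS hYS hXY hα hσ hσα hτ hτα h h1 h2 h3

end Cfsg.Agent.S1531
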