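import Cfsg.Statements.S1532
import Cfsg.Agent.H57.TIInd

set_option autoImplicit false
open Cfsg

namespace Cfsg.Agent.S1532

/-- Let G be a finite group, p an odd prime and P a Sylow p-subgroup that is non-abelian, whose underlying set is a TI-subset of G, with P properly contained in its set normaliser N and C_G(x) ≤ P for every non-identity x ∈ P. Let Z be a nontrivial subgroup of the centre of P normalised by N. Then the set of irreducible characters χ of N with χ z ≠ χ 1 for some z ∈ Z is coherent for the map induced by induction from N to G. -/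
theorem result {G : Type*} [Group G] [Fintype G] (p : ℕ) [Fact p.Prime] (hp : p ≠ 2) (P : Sylow p G) (hna : ¬ IsMulCommutative (P : Subgroup G)) (hTI : Cfsg.IsTISubset ((P : Subgroup G) : Set G)) (hlt : (P : Subgroup G) < Subgroup.normalizer ((P : Subgroup G) : Set G)) (hC : ∀ k ∈ (P : Subgroup G), k ≠ 1 → Subgroup.centralizer ({k} : Set G) ≤ (P : Subgroup G)) [Fintype ↥(Subgroup.normalizer ((P : Subgroup G) : Set G))] (Z : Subgroup G) (hZ1 : Z ≠ ⊥) (hZP : ∀ z ∈ Z, z ∈ (P : Subgroup G) ∧ ∀ y ∈ (P : Subgroup G), z * y = y * z) (hZn : ∀ x ∈ Subgroup.normalizer ((P : Subgroup G) : Set G), ∀ z ∈ Z, x * z * x⁻¹ ∈ Z) : Cfsg.IsCoherent {χ : ↥(Subgroup.normalizer ((P : Subgroup G) : Set G)) → ℂ | Cfsg.IsIrrCharacter ↥(Subgroup.normalizer ((P : Subgroup G) : Set G)) χ ∧ ∃ z : ↥(Subgroup.normalizer ((P : Subgroup G) : Set G)), (z : G) ∈ Z ∧ χ z ≠ χ 1} {1}ᶜ (fun α => Cfsg.indFun (Subgroup.normalizer ((P : Subgroup G) : Set G)) α) := by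
  classical
  have hPN : (P : Subgroup G) ≤ (Subgroup.normalizer ((P : Subgroup G) : Set G)) := Subgroup.le_normalizer
  set K := (P : Subgroup G).subgroupOf (Subgroup.normalizer ((P : Subgroup G) : Set G)) with hK
  haveI hKn : K.Normal := Subgroup.normal_in_normalizer
  have hCK := Cfsg.Agent.H57.frob_subgroupOf (L := (Subgroup.normalizer ((P : Subgroup G) : Set G))) hC
  have hKtop : K ≠ ⊤ := fun h => hlt.not_ge (Subgroup.subgroupOf_eq_top.1 h)
  have hnaK : ¬ IsMulCommutative K := fun h => hna (by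
    haveI := h
    exact ⟨⟨fun a b => Subtype.ext (congrArg (fun u : K => ((u : (Subgroup.normalizer ((P : Subgroup G) : Set G))) : G))
      (mul_comm' (⟨⟨a, hPN a.2⟩, a.2⟩ : K) ⟨⟨b, hPN b.2⟩, b.2⟩))⟩⟩)
  obtain ⟨m, hm⟩ := P.isPGroup'.exists_card_eq
  have hKp : Nat.card K = p ^ m :=
    (Nat.card_congr (Subgroup.subgroupOfEquivOfLe hPN).toEquiv).trans hm
  have heodd := Cfsg.Agent.H57.frob_index_odd K hKtop hCK hnaK
  have hodd : Odd (Nat.card (Subgroup.normalizer ((P : Subgroup G) : Set G))) := by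
    rw [← K.card_mul_index, hKp]
    exact (((Fact.out : p.Prime).odd_of_ne_two hp).pow).mul heodd
  have hcop : Nat.Coprime p K.index :=
    (Nat.Prime.coprime_iff_not_dvd Fact.out).2 (Sylow.not_dvd_index (P.subtype hPN))
  set Z' := Z.subgroupOf (Subgroup.normalizer ((P : Subgroup G) : Set G)) with hZ'
  haveI : Z'.Normal := ⟨fun z hz g => Subgroup.mem_subgroupOf.2 (hZn g g.2 z (Subgroup.mem_subgroupOf.1 hz))⟩
  have hZ'K : Z' ≤ K := fun z hz => Subgroup.mem_subgroupOf.2 (hZP z (Subgroup.mem_subgroupOf.1 hz)).1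
  have hZ'c : ∀ z ∈ Z', ∀ k ∈ K, z * k = k * z := fun z hz k hk =>
    Subtype.ext ((hZP z (Subgroup.mem_subgroupOf.1 hz)).2 k (Subgroup.mem_subgroupOf.1 hk))
  have hZ'1 : Z' ≠ ⊥ := fun h => hZ1 (eq_bot_iff.2 fun z hz => by
    have hz' : (⟨z, hPN (hZP z hz).1⟩ : (Subgroup.normalizer ((P : Subgroup G) : Set G))) ∈ Z' := hz
    rw [h, Subgroup.mem_bot] at hz'
    exact Subgroup.mem_bot.2 (congrArg Subtype.val hz'))
  have hirr0 : ∀ χ ∈ Cfsg.inducedIrrAbove K ⊥, Cfsg.IsIrrCharacter (Subgroup.normalizer ((P : Subgroup G) : Set G)) χ := by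
    rintro χ ⟨θ, hθ, h1, -, rfl⟩
    exact Cfsg.Agent.H57.frob_ind_irr hCK hθ h1
  have hirr : ∀ χ ∈ Cfsg.inducedIrrAbove K ⊥ \ Cfsg.inducedIrrAbove K Z', Cfsg.IsIrrCharacter (Subgroup.normalizer ((P : Subgroup G) : Set G)) χ :=
    fun χ hχ => hirr0 χ hχ.1
  have hset : {χ : (Subgroup.normalizer ((P : Subgroup G) : Set G)) → ℂ | Cfsg.IsIrrCharacter (Subgroup.normalizer ((P : Subgroup G) : Set G)) χ ∧ ∃ z : (Subgroup.normalizer ((P : Subgroup G) : Set G)), (z : G) ∈ Z ∧ χ z ≠ χ 1} =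
      Cfsg.inducedIrrAbove K ⊥ \ Cfsg.inducedIrrAbove K Z' := by
    rw [Cfsg.Agent.H57.central_part_set Z' hZ'K hirr]
    rfl
  rw [hset]
  obtain ⟨hiso, hone⟩ := Cfsg.Agent.H57.ti_ind_iso (H := (P : Subgroup G)) (L := (Subgroup.normalizer ((P : Subgroup G) : Set G))) hTI rfl
    (Cfsg.inducedIrrAbove K ⊥ \ Cfsg.inducedIrrAbove K Z')
    (fun s hs => Cfsg.Agent.H26.isCharacter_of_irr (hirr s hs))
    (fun s hs => Cfsg.Agent.H57.induced_off (P : Subgroup G) (Subgroup.normalizer ((P : Subgroup G) : Set G)) hs.1)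
  exact Cfsg.Agent.H57.central_part_coherent Fact.out hp hKp hcop Z' hZ'1 hZ'K hZ'c hirr
    (fun χ hχ => Cfsg.Agent.H57.irr_conj_ne hodd (hirr χ hχ)
      (Cfsg.Agent.H57.induced_ne_one hKtop hχ.1)) _ hiso hone

end Cfsg.Agent.S1532
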