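import Cfsg.Statements.S1533
import Cfsg.Agent.H57.SibleyTI

set_option autoImplicit false
open Cfsg

namespace Cfsg.Agent.S1533

/-- Let G be a finite group, p an odd prime, and P a nontrivial Sylow p-subgroup whose underlying set is a TI-subset of G, with P properly contained in its set normaliser N and C_G(x) ≤ P for every non-identity x ∈ P. Let S be the set of irreducible characters χ of N with χ x ≠ χ 1 for some x ∈ P. Then either S has exactly one member, P is elementary abelian and Nat.card P = [N:P] + 1; or (S, N minus 1, induction to G) is coherent. -/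
theorem result {G : Type*} [Group G] [Fintype G] (p : ℕ) [Fact p.Prime] (hp : p ≠ 2) (P : Sylow p G) (hP1 : (P : Subgroup G) ≠ ⊥) (hTI : Cfsg.IsTISubset ((P : Subgroup G) : Set G)) (hlt : (P : Subgroup G) < Subgroup.normalizer ((P : Subgroup G) : Set G)) (hC : ∀ k ∈ (P : Subgroup G), k ≠ 1 → Subgroup.centralizer ({k} : Set G) ≤ (P : Subgroup G)) [Fintype ↥(Subgroup.normalizer ((P : Subgroup G) : Set G))] : (Nat.card {χ : ↥(Subgroup.normalizer ((P : Subgroup G) : Set G)) → ℂ // Cfsg.IsIrrCharacter ↥(Subgroup.normalizer ((P : Subgroup G) : Set G)) χ ∧ ∃ x : ↥(Subgroup.normalizer ((P : Subgroup G) : Set G)), (x : G) ∈ (P : Subgroup G) ∧ χ x ≠ χ 1} = 1 ∧ Cfsg.IsElementaryAbelian p (P : Subgroup G) ∧ Nat.card (P : Subgroup G) = ((P : Subgroup G).subgroupOf (Subgroup.normalizer ((P : Subgroup G) : Set G))).index + 1) ∨ Cfsg.IsCoherent {χ : ↥(Subgroup.normalizer ((P : Subgroup G) : Set G)) → ℂ | Cfsg.IsIrrCharacter ↥(Subgroup.normalizer ((P : Subgroup G) : Set G)) χ ∧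 ∃ x : ↥(Subgroup.normalizer ((P : Subgroup G) : Set G)), (x : G) ∈ (P : Subgroup G) ∧ χ x ≠ χ 1} {1}ᶜ (fun α => Cfsg.indFun (Subgroup.normalizer ((P : Subgroup G) : Set G)) α) := by
  classical
  have hC' := Cfsg.Agent.H57.frob_subgroupOf (L := Subgroup.normalizer ((P : Subgroup G) : Set G)) hC
  haveI : ((P : Subgroup G).subgroupOf (Subgroup.normalizer ((P : Subgroup G) : Set G))).Normal :=
    Subgroup.normal_in_normalizer
  have hset := Cfsg.Agent.H57.frob_char_set hC'
  rcases Cfsg.Agent.H57.ti_coherent_cases hP1 hlt hTI rfl hC' with h | h | ⟨h, -⟩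
  · right
    rw [← hset] at h
    exact h
  · left
    have hcard := Nat.card_congr (Subgroup.subgroupOfEquivOfLe hlt.le).toEquiv
    have hK1 : (P : Subgroup G).subgroupOf (Subgroup.normalizer ((P : Subgroup G) : Set G)) ≠ ⊥ := fun e => hP1 (by
      rw [← Subgroup.card_eq_one, ← hcard, Subgroup.card_eq_one]; exact e)
    obtain ⟨h1, q, hq, hexp, hcomm⟩ := Cfsg.Agent.H57.frob_tight _ hK1
      (fun e => hlt.not_ge (Subgroup.subgroupOf_eq_top.1 e)) hC' (hcard.trans h)
    have hpow : ∀ a ∈ (P : Subgroup G), a ^ q = 1 := fun a ha =>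
      congrArg Subtype.val (hexp ⟨a, hlt.le ha⟩ ha)
    have hqp : q = p := by
      obtain ⟨a, ha, ha1⟩ := (Subgroup.bot_or_exists_ne_one (P : Subgroup G)).resolve_left hP1
      obtain ⟨k, hk⟩ := P.isPGroup' ⟨a, ha⟩
      have hk' : a ^ p ^ k = 1 := congrArg Subtype.val hk
      have h2 := Nat.dvd_gcd (orderOf_dvd_of_pow_eq_one (hpow a ha)) (orderOf_dvd_of_pow_eq_one hk')
      by_contra hne
      rw [((Nat.coprime_primes hq Fact.out).2 hne).pow_right k, Nat.dvd_one, orderOf_eq_one_iff] at h2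
      exact ha1 h2
    refine ⟨?_, ⟨⟨⟨fun a b => ?_⟩⟩, hqp ▸ hpow⟩, h⟩
    · rw [← hset] at h1
      exact h1
    · haveI := hcomm
      exact Subtype.ext (congrArg (fun u : ((P : Subgroup G).subgroupOf
        (Subgroup.normalizer ((P : Subgroup G) : Set G))) => ((u : Subgroup.normalizer ((P : Subgroup G) : Set G)) : G))
        (mul_comm' (⟨⟨a, hlt.le a.2⟩, a.2⟩ : (P : Subgroup G).subgroupOf
          (Subgroup.normalizer ((P : Subgroup G) : Set G))) ⟨⟨b, hlt.le b.2⟩, b.2⟩))
  · exfalso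
    obtain ⟨m, hm⟩ := P.isPGroup'.exists_card_eq
    rw [hm] at h
    rcases Nat.eq_zero_or_pos m with e | e
    · exact hP1 (Subgroup.eq_bot_of_card_eq _ (by rw [hm, e, pow_zero]))
    · have h2 : p ∣ 2 ^ (Nat.card G).factorization 2 := h ▸ dvd_pow_self p e.ne'
      exact hp ((Nat.prime_dvd_prime_iff_eq Fact.out Nat.prime_two).1 ((Fact.out : p.Prime).dvd_of_dvd_pow h2))

end Cfsg.Agent.S1533
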