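import Cfsg.Statements.S1534
import Cfsg.Agent.H57.SibleyTI

set_option autoImplicit false
open Cfsg

namespace Cfsg.Agent.S1534

/-- Let G be a finite group and K a nontrivial nilpotent subgroup whose underlying set is a TI-subset of G, properly contained in its set normaliser N, with C_G(k) ≤ K for every non-identity k ∈ K; let e be the index of K in N and S the set of irreducible characters χ of N with χ k ≠ χ 1 for some k ∈ K. Then one of: S has exactly one member, Nat.card K = e + 1 and K is an elementary abelian p-group for some prime p; or K is a Sylow 2-subgroup of G (Nat.card K is the largest power of 2 dividing Nat.card G) and [K : [K,K]] < 4e²; or (S, N minus 1, induction to G) is coherent. -/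
theorem result {G : Type*} [Group G] [Fintype G] (K : Subgroup G) (hK1 : K ≠ ⊥) (hnil : Group.IsNilpotent K) (hTI : Cfsg.IsTISubset (K : Set G)) (hlt : K < Subgroup.normalizer (K : Set G)) (hC : ∀ k ∈ K, k ≠ 1 → Subgroup.centralizer ({k} : Set G) ≤ K) [Fintype ↥(Subgroup.normalizer (K : Set G))] : (Nat.card {χ : ↥(Subgroup.normalizer (K : Set G)) → ℂ // Cfsg.IsIrrCharacter ↥(Subgroup.normalizer (K : Set G)) χ ∧ ∃ k : ↥(Subgroup.normalizer (K : Set G)), (k : G) ∈ K ∧ χ k ≠ χ 1} = 1 ∧ Nat.card K = (K.subgroupOf (Subgroup.normalizer (K : Set G))).index + 1 ∧ ∃ p : ℕ, p.Prime ∧ Cfsg.IsElementaryAbelian p K) ∨ (Nat.card K = 2 ^ (Nat.card G).factorization 2 ∧ (⁅K, K⁆.subgroupOf K).index < 4 * (K.subgroupOf (Subgroup.normalizer (K : Set G))).index ^ 2) ∨ Cfsg.IsCoherent {χ : ↥(Subgroup.normalizer (K : Set G)) → ℂ | Cfsg.IsIrrCharacter ↥(Subgroup.normalizer (K : Set G)) χ ∧ ∃ k : ↥(Subgroup.normalizer (K : Set G)), (k : G) ∈ K ∧ χ k ≠ χ 1} {1}ᶜ (fun α => Cfsg.indFun (Subgroup.normalizer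 (K : Set G)) α) := by
  classical
  have hC' := Cfsg.Agent.H57.frob_subgroupOf (L := Subgroup.normalizer (K : Set G)) hC
  haveI : (K.subgroupOf (Subgroup.normalizer (K : Set G))).Normal := Subgroup.normal_in_normalizer
  have hset := Cfsg.Agent.H57.frob_char_set hC'
  rcases Cfsg.Agent.H57.ti_coherent_cases hK1 hlt hTI rfl hC' with h | h | h
  · right; right
    rw [← hset] at h
    exact h
  · left
    have hcard := Nat.card_congr (Subgroup.subgroupOfEquivOfLe hlt.le).toEquiv
    have hK1' : K.subgroupOf (Subgroup.normalizer (K : Set G)) ≠ ⊥ := fun e => hK1 (by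
      rw [← Subgroup.card_eq_one, ← hcard, Subgroup.card_eq_one]; exact e)
    obtain ⟨h1, q, hq, hexp, hcomm⟩ := Cfsg.Agent.H57.frob_tight _ hK1'
      (fun e => hlt.not_ge (Subgroup.subgroupOf_eq_top.1 e)) hC' (hcard.trans h)
    have hpow : ∀ a ∈ K, a ^ q = 1 := fun a ha => congrArg Subtype.val (hexp ⟨a, hlt.le ha⟩ ha)
    refine ⟨?_, h, q, hq, ⟨⟨fun a b => ?_⟩⟩, hpow⟩
    · rw [← hset] at h1
      exact h1
    · haveI := hcomm
      exact Subtype.ext (congrArg (fun u : (K.subgroupOf (Subgroup.normalizer (K : Set G))) =>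
        ((u : Subgroup.normalizer (K : Set G)) : G))
        (mul_comm' (⟨⟨a, hlt.le a.2⟩, a.2⟩ : K.subgroupOf (Subgroup.normalizer (K : Set G)))
          ⟨⟨b, hlt.le b.2⟩, b.2⟩))
  · right; left
    exact h

end Cfsg.Agent.S1534
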