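import Cfsg.Statements.S1541
import Cfsg.Agent.H55.BG16.PairFinal
-- import your own Cfsg.Agent.* helpers here

set_option autoImplicit false
open Cfsg

namespace Cfsg.Agent.S1541

/-- Let G be a minimal simple group of odd order. Then some maximal subgroup of G is not of Type I. -/
theorem result {G : Type*} [Group G] [Finite G] (hG : Cfsg.IsMinSimpleOddOrder G) : ∃ M : Subgroup G, IsCoatom M ∧ ¬ Cfsg.IsOfTypeI M := by
  obtain ⟨M, hM, hne⟩ := Cfsg.Agent.H27.exists_not_typeI hG (Cfsg.Agent.H55.BG16.inputs hG) (Cfsg.Agent.H55.BG16.frob1540 hG)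
  exact ⟨M, hM, fun h => hne (Cfsg.Agent.H55.IsOfTypeI'.of_typeI h)⟩

end Cfsg.Agent.S1541
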