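import Cfsg.Statements.S1542
import Cfsg.Agent.H57.NoTypeV
import Cfsg.Agent.H55.BG16.InputsHold
import Cfsg.Agent.H53.NonTIMain

set_option autoImplicit false
open Cfsg

namespace Cfsg.Agent.S1542

/-- Let G be a minimal simple group of odd order and L a maximal subgroup of Type I in which every non-identity element of H = L_F has its centraliser within L inside H. Let S be the set of functions on L induced from non-principal irreducible characters of H. Then every member of S is an irreducible character of L, and (S, L minus 1, τ) is coherent for τ the Dade map relative to A(L), L and a ↦ R(a). -/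
theorem result {G : Type*} [Group G] [Fintype G] (hG : Cfsg.IsMinSimpleOddOrder G) (L : Subgroup G) [Fintype L] (hL : IsCoatom L) (hI : Cfsg.IsOfTypeI L) (hfrob : ∀ x ∈ Cfsg.fittingHallOf L, x ≠ 1 → L ⊓ Subgroup.centralizer ({x} : Set G) ≤ Cfsg.fittingHallOf L) : (∀ χ ∈ Cfsg.inducedIrrAbove (Cfsg.fittingHall L) ⊥, Cfsg.IsIrrCharacter L χ) ∧ Cfsg.IsCoherent (Cfsg.inducedIrrAbove (Cfsg.fittingHall L) ⊥) {1}ᶜ (Cfsg.dadeIsometry (Cfsg.typeA L) L (Cfsg.supportR L)) := by
  exact H57.typeI_frobenius_coherent_of_bg16 hG (H55.BG16.inputs_of hG (H53.fittingNotTI hG)) L hL hI hfrob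

end Cfsg.Agent.S1542
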