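import Cfsg.Statements.S1543
import Cfsg.Agent.H55.BG16.PairFinal
-- import your own Cfsg.Agent.* helpers here

set_option autoImplicit false
open Cfsg

namespace Cfsg.Agent.S1543

/-- Let G be a minimal simple group of odd order with maximal subgroups S, T carrying type-P data (S, W₁, U, W₂) and (T, W₂, V, W₁), S ⊓ T = W₁ ⊔ W₂, S or T of Type II, and each of S, T of Type II, III, IV or V. Write p for the order of W₂ and q for the order of W₁. Then: S is of Type II or of Type III, and of Type II if q < p; the subgroup S_F is elementary abelian of exponent p and order p ^ q; and A₀(S) is a TI-subset of G whose set normaliser is S. -/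
theorem result {G : Type*} [Group G] [Finite G] (hG : Cfsg.IsMinSimpleOddOrder G) (S T W₁ W₂ U V : Subgroup G) (hS : IsCoatom S) (hT : IsCoatom T) (hSP : Cfsg.IsTypePWith S W₁ U W₂) (hTP : Cfsg.IsTypePWith T W₂ V W₁) (hST : S ⊓ T = W₁ ⊔ W₂) (hII : Cfsg.IsOfTypeII S ∨ Cfsg.IsOfTypeII T) (hS25 : Cfsg.IsOfTypeII S ∨ Cfsg.IsOfTypeIII S ∨ Cfsg.IsOfTypeIV S ∨ Cfsg.IsOfTypeV S) (hT25 : Cfsg.IsOfTypeII T ∨ Cfsg.IsOfTypeIII T ∨ Cfsg.IsOfTypeIV T ∨ Cfsg.IsOfTypeV T) : (Cfsg.IsOfTypeII S ∨ Cfsg.IsOfTypeIII S) ∧ (Nat.card W₁ < Nat.card W₂ → Cfsg.IsOfTypeII S) ∧ Cfsg.IsElementaryAbelian (Nat.card W₂) (Cfsg.fittingHallOf S) ∧ Nat.card (Cfsg.fittingHallOf S) = Nat.card W₂ ^ Nat.card W₁ ∧ Cfsg.IsTISubset (Cfsg.typeA0 S) ∧ Subgroup.normalizer (Cfsg.typeA0 S) = S := by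
  exact Cfsg.Agent.H27.pair_structure_full hG (Cfsg.Agent.H55.BG16.pairInputs hG) (Cfsg.Agent.H55.BG16.frob1540 hG) (Cfsg.Agent.H55.BG16.tame_frozen hG) S T W₁ W₂ U V hS hT hSP hTP hII hS25 hT25

end Cfsg.Agent.S1543
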