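import Cfsg.Statements.S1546
import Mathlib

set_option autoImplicit false
open Cfsg

namespace Cfsg.Agent.S1546

/-- Let p and q be odd primes and N = (p ^ q − 1) / (p − 1) = 1 + p + ⋯ + p^(q−1). Then N is odd; if p ≡ 1 (mod q) then q ∣ N; and if p is not ≡ 1 (mod q) then N is coprime to p − 1 and every divisor of N is ≡ 1 (mod q). -/
theorem result (p q : ℕ) (hp : p.Prime) (hq : q.Prime) (hp2 : p ≠ 2) (hq2 : q ≠ 2) : Odd ((p ^ q - 1) / (p - 1)) ∧ (p % q = 1 → q ∣ (p ^ q - 1) / (p - 1)) ∧ (p % q ≠ 1 → Nat.Coprime ((p ^ q - 1) / (p - 1)) (p - 1) ∧ ∀ x : ℕ, x ∣ (p ^ q - 1) / (p - 1) → x % q = 1) := by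
  have hp1 : 1 < p := hp.one_lt
  set N := (p ^ q - 1) / (p - 1) with hN
  have hsum : N = ∑ i ∈ Finset.range q, p ^ i := (Nat.geomSum_eq hp1 q).symm
  have hmul : (p - 1) * N = p ^ q - 1 := by
    refine Nat.mul_div_cancel' ?_
    simpa using Nat.sub_dvd_pow_sub_pow p 1 q
  have hNpos : 0 < N := by
    rw [hsum]
    exact Finset.sum_pos (fun i _ => pow_pos hp.pos i) ⟨0, Finset.mem_range.2 hq.pos⟩
  have hmod : ∀ r, p ≡ 1 [MOD r] → N ≡ q [MOD r] := fun r hr => by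
    rw [hsum, ← ZMod.natCast_eq_natCast_iff]
    rw [← ZMod.natCast_eq_natCast_iff] at hr
    push_cast at hr ⊢
    simp [hr]
  have hodd : Odd N := by
    have h1 : p ≡ 1 [MOD 2] := by
      obtain ⟨m, hm⟩ := hp.odd_of_ne_two hp2
      unfold Nat.ModEq; omega
    obtain ⟨m, hm⟩ := hq.odd_of_ne_two hq2
    have := hmod 2 h1
    rw [Nat.odd_iff]; unfold Nat.ModEq at this; omega
  refine ⟨hodd, fun h => ?_, fun h => ?_⟩
  · have h1 : p ≡ 1 [MOD q] := by
      unfold Nat.ModEq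
      rw [h, Nat.mod_eq_of_lt hq.one_lt]
    exact (Nat.ModEq.dvd_iff (hmod q h1) dvd_rfl).2 dvd_rfl
  · haveI : Fact q.Prime := ⟨hq⟩
    have hnq : ¬ q ∣ N := fun hd => h <| by
      have h1 : q ∣ p ^ q - 1 := hmul ▸ hd.mul_left _
      have h2 : (1 : ℕ) ≡ p ^ q [MOD q] := (Nat.modEq_iff_dvd' (Nat.one_le_pow _ _ hp.pos)).2 h1
      rw [← ZMod.natCast_eq_natCast_iff] at h2
      push_cast [ZMod.pow_card] at h2
      have h3 : (1 : ℕ) ≡ p [MOD q] := by
        rw [← ZMod.natCast_eq_natCast_iff]; simpa using h2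
      rw [← h3, Nat.mod_eq_of_lt hq.one_lt]
    have hpr : ∀ r, r.Prime → r ∣ N → r % q = 1 := by
      intro r hr hrN
      haveI : Fact r.Prime := ⟨hr⟩
      have hrq : r ≠ q := fun e => hnq (e ▸ hrN)
      have h1 : ((p : ZMod r)) ^ q = 1 := by
        have h0 : r ∣ p ^ q - 1 := hmul ▸ hrN.mul_left _
        have h2 : (1 : ℕ) ≡ p ^ q [MOD r] := (Nat.modEq_iff_dvd' (Nat.one_le_pow _ _ hp.pos)).2 h0
        rw [← ZMod.natCast_eq_natCast_iff] at h2
        push_cast at h2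
        exact h2.symm
      have hne : (p : ZMod r) ≠ 1 := fun e => by
        have h2 : p ≡ 1 [MOD r] := by rw [← ZMod.natCast_eq_natCast_iff]; simpa using e
        have h3 : r ∣ q := (Nat.ModEq.dvd_iff (hmod r h2) dvd_rfl).1 hrN
        exact hrq ((Nat.prime_dvd_prime_iff_eq hr hq).1 h3)
      have h0 : (p : ZMod r) ≠ 0 := fun e => by
        rw [e, zero_pow hq.ne_zero] at h1; exact zero_ne_one h1
      have hord : orderOf (p : ZMod r) = q := orderOf_eq_prime h1 hne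
      have hdvd : q ∣ r - 1 := hord ▸ ZMod.orderOf_dvd_card_sub_one h0
      have h5 : 1 ≡ r [MOD q] := (Nat.modEq_iff_dvd' hr.one_le).2 hdvd
      unfold Nat.ModEq at h5
      rw [← h5, Nat.mod_eq_of_lt hq.one_lt]
    refine ⟨Nat.coprime_of_dvd fun r hr h1 h2 => ?_, fun x hx => ?_⟩
    · have h3 : p ≡ 1 [MOD r] := ((Nat.modEq_iff_dvd' hp.one_le).2 h2).symm
      have h4 : r ∣ q := (Nat.ModEq.dvd_iff (hmod r h3) dvd_rfl).1 h1
      exact hnq ((Nat.prime_dvd_prime_iff_eq hr hq).1 h4 ▸ h1)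
    · induction x using Nat.recOnMul with
      | zero => exact absurd (zero_dvd_iff.1 hx) hNpos.ne'
      | one => exact Nat.mod_eq_of_lt hq.one_lt
      | prime r hr => exact hpr r hr hx
      | mul a b ha hb =>
        rw [Nat.mul_mod, ha ((dvd_mul_right a b).trans hx), hb ((dvd_mul_left b a).trans hx), mul_one,
          Nat.mod_eq_of_lt hq.one_lt]

end Cfsg.Agent.S1546
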