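import Cfsg.Statements.S1547
import Cfsg.Agent.H55.BG16.PairFinal
-- import your own Cfsg.Agent.* helpers here

set_option autoImplicit false
open Cfsg

namespace Cfsg.Agent.S1547

/-- Let G be a minimal simple group of odd order with maximal subgroups S, T carrying type-P data (S, W₁, U, W₂) and (T, W₂, V, W₁), with S ⊓ T = W₁ ⊔ W₂, S or T of Type II, and each of S, T of Type II, III, IV or V. Then U ⊓ C_G(S_F) = ⊥. -/
theorem result {G : Type*} [Group G] [Finite G] (hG : Cfsg.IsMinSimpleOddOrder G) (S T W₁ W₂ U V : Subgroup G) (hS : IsCoatom S) (hT : IsCoatom T) (hSP : Cfsg.IsTypePWith S W₁ U W₂) (hTP : Cfsg.IsTypePWith T W₂ V W₁) (hST : S ⊓ T = W₁ ⊔ W₂) (hII : Cfsg.IsOfTypeII S ∨ Cfsg.IsOfTypeII T) (hS25 : Cfsg.IsOfTypeII S ∨ Cfsg.IsOfTypeIII S ∨ Cfsg.IsOfTypeIV S ∨ Cfsg.IsOfTypeV S) (hT25 : Cfsg.IsOfTypeII T ∨ Cfsg.IsOfTypeIII T ∨ Cfsg.IsOfTypeIV T ∨ Cfsg.IsOfTypeV T) :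 U ⊓ Subgroup.centralizer ((Cfsg.fittingHallOf S : Subgroup G) : Set G) = ⊥ := by
  exact Cfsg.Agent.H27.complement_free_of_struct hG (Cfsg.Agent.H55.BG16.struct1543 hG) S T W₁ W₂ U V hS hT hSP hTP hST hII hS25 hT25

end Cfsg.Agent.S1547
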