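import Cfsg.Statements.S1554
import Cfsg.Agent.H11.OctadStab

set_option autoImplicit false
open scoped Pointwise
open Cfsg

namespace Cfsg.Agent.S1554

/-- An octad stabiliser is a split extension: the joint stabiliser of the octad and a point outside it is a complement to the pointwise stabiliser of the octad, and is isomorphic to the alternating group of degree 8. -/
theorem result (o : Finset Cfsg.GolayPt) (ho : o ∈ Cfsg.octads) (p : Cfsg.GolayPt) (hp : p ∉ o) : (Cfsg.M24 ⊓ fixingSubgroup (Equiv.Perm Cfsg.GolayPt) (o : Set Cfsg.GolayPt)) ⊓ (Cfsg.M24 ⊓ MulAction.stabilizer (Equiv.Perm Cfsg.GolayPt) o ⊓ MulAction.stabilizer (Equiv.Perm Cfsg.GolayPt) p) = ⊥ ∧ (Cfsg.M24 ⊓ fixingSubgroup (Equiv.Perm Cfsg.GolayPt) (o : Set Cfsg.GolayPt)) ⊔ (Cfsg.M24 ⊓ MulAction.stabilizer (Equiv.Perm Cfsg.GolayPt) o ⊓ MulAction.stabilizer (Equiv.Perm Cfsg.GolayPt) p) = (Cfsg.M24 ⊓ MulAction.stabilizer (Equiv.Perm Cfsg.GolayPt)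 o) ∧ Nonempty (↥(Cfsg.M24 ⊓ MulAction.stabilizer (Equiv.Perm Cfsg.GolayPt) o ⊓ MulAction.stabilizer (Equiv.Perm Cfsg.GolayPt) p) ≃* alternatingGroup (Fin 8)) := by
  refine ⟨?_, ?_, ?_⟩
  · rw [eq_bot_iff]
    rintro a ⟨ha, -, hap⟩
    exact Subgroup.mem_bot.2 (Cfsg.Agent.H11.eq_one_of_mem_fixM24 ho ha hp hap)
  · refine le_antisymm (sup_le (fun a ha => ⟨ha.1, Cfsg.Agent.H11.smul_eq_of_mem_fixM24 ha⟩)
      inf_le_left) (fun s hs => ?_)
    have hsp : s p ∉ o := fun h => hp ((Cfsg.Agent.H11.apply_mem_iff_of_smul_eq hs.2 p).1 h)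
    obtain ⟨a, ha, hap⟩ := Cfsg.Agent.H11.exists_fixM24_apply ho hp hsp
    rw [show s = a * (a⁻¹ * s) by group]
    refine Subgroup.mul_mem_sup ha ⟨⟨Subgroup.mul_mem _ (Subgroup.inv_mem _ ha.1) hs.1, ?_⟩, ?_⟩
    · exact Subgroup.mul_mem (MulAction.stabilizer (Equiv.Perm Cfsg.GolayPt) o)
        (Subgroup.inv_mem _ (Cfsg.Agent.H11.smul_eq_of_mem_fixM24 ha)) hs.2
    · change (a⁻¹ * s) p = p
      rw [Equiv.Perm.mul_apply, Equiv.Perm.inv_eq_iff_eq, hap]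
  · let f := (Cfsg.Agent.H11.restrictHom o).comp
      (Subgroup.inclusion (inf_le_left : Cfsg.Agent.H11.stabM24 o ⊓
        MulAction.stabilizer (Equiv.Perm Cfsg.GolayPt) p ≤ Cfsg.Agent.H11.stabM24 o))
    have hinj : Function.Injective f := by
      rw [← MonoidHom.ker_eq_bot_iff, eq_bot_iff]
      intro a ha
      rw [Subgroup.mem_bot]
      refine Subtype.ext (Cfsg.Agent.H11.eq_one_of_mem_fixM24 ho
        (Cfsg.Agent.H11.mem_ker_restrictHom.1 (MonoidHom.mem_ker.1 ha)) hp a.2.2)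
    have hrange : f.range = alternatingGroup ↥o := by
      rw [← Cfsg.Agent.H11.range_restrictHom_octad ho]
      refine le_antisymm ?_ ?_
      · rintro e ⟨a, rfl⟩
        exact ⟨_, rfl⟩
      · rintro e ⟨s, rfl⟩
        have hsp : (s : Equiv.Perm Cfsg.GolayPt) p ∉ o :=
          fun h => hp ((Cfsg.Agent.H11.apply_mem_iff_of_smul_eq s.2.2 p).1 h)
        obtain ⟨a, ha, hap⟩ := Cfsg.Agent.H11.exists_fixM24_apply ho hp hsp
        have has : a ∈ Cfsg.Agent.H11.stabM24 o :=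
          ⟨ha.1, Cfsg.Agent.H11.smul_eq_of_mem_fixM24 ha⟩
        refine ⟨⟨a⁻¹ * s, Subgroup.mul_mem _ (Subgroup.inv_mem _ has) s.2, ?_⟩, ?_⟩
        · change (a⁻¹ * (s : Equiv.Perm Cfsg.GolayPt)) p = p
          rw [Equiv.Perm.mul_apply, Equiv.Perm.inv_eq_iff_eq, hap]
        · change Cfsg.Agent.H11.restrictHom o (⟨a, has⟩⁻¹ * s) = _
          have hker : (⟨a, has⟩ : Cfsg.Agent.H11.stabM24 o) ∈ (Cfsg.Agent.H11.restrictHom o).ker :=
            Cfsg.Agent.H11.mem_ker_restrictHom.2 ha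
          rw [map_mul, map_inv, MonoidHom.mem_ker.1 hker, inv_one, one_mul]
    exact ⟨((MonoidHom.ofInjective hinj).trans (MulEquiv.subgroupCongr hrange)).trans
      (Equiv.altCongrHom (o.equivFinOfCardEq ho.2))⟩

end Cfsg.Agent.S1554
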