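import Cfsg.Statements.S1559
import Cfsg.Agent.H11.TrioOrbits

set_option autoImplicit false
open scoped Pointwise
open Cfsg

namespace Cfsg.Agent.S1559

/-- A trio stabiliser has five orbits on the 3795 trios, of sizes 1, 42, 56, 1008, 2688; and the stabiliser is a maximal proper subgroup. -/
theorem result (T : Finset (Finset Cfsg.GolayPt)) (hT : T ∈ Cfsg.trios) : ∃ X₁ ∈ Cfsg.trios, ∃ X₂ ∈ Cfsg.trios, ∃ X₃ ∈ Cfsg.trios, ∃ X₄ ∈ Cfsg.trios, (MulAction.orbit ↥(MulAction.stabilizer Cfsg.M24 T) X₁).ncard = 42 ∧ (MulAction.orbit ↥(MulAction.stabilizer Cfsg.M24 T) X₂).ncard = 56 ∧ (MulAction.orbit ↥(MulAction.stabilizer Cfsg.M24 T) X₃).ncard = 1008 ∧ (MulAction.orbit ↥(MulAction.stabilizer Cfsg.M24 T) X₄).ncard = 2688 ∧ Cfsg.trios = {T} ∪ MulAction.orbit ↥(MulAction.stabilizer Cfsg.M24 T) X₁ ∪ MulAction.orbit ↥(MulAction.stabilizer Cfsg.M24 T) X₂ ∪ MulAction.orbit ↥(MulAction.stabilizer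 Cfsg.M24 T) X₃ ∪ MulAction.orbit ↥(MulAction.stabilizer Cfsg.M24 T) X₄ ∧ IsCoatom (MulAction.stabilizer Cfsg.M24 T) := by
  exact Cfsg.Agent.H11.trio_stab_orbits hT

end Cfsg.Agent.S1559
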