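import Cfsg.Statements.S1571
import Cfsg.Agent.H14.LeechMonomial
import Cfsg.Agent.H11.M24Chain

set_option autoImplicit false
open scoped Pointwise
open Cfsg

namespace Cfsg.Agent.S1571

/-- The stabiliser of the standard cross in the automorphism group of the lattice is the monomial group of the code: each of its elements acts as a signed permutation with permutation part in the code's group and sign set a codeword, and it has order 4096 · 244823040. -/
theorem result : (∀ g : ↥Cfsg.Co0, (∀ v : ↥Cfsg.leechLattice, (v : Cfsg.GolayPt → ℤ) ∈ Cfsg.stdCross → ((g • v : ↥Cfsg.leechLattice) : Cfsg.GolayPt → ℤ) ∈ Cfsg.stdCross) → ∃ f ∈ Cfsg.golayMonomialMaps, ∀ v : ↥Cfsg.leechLattice, ((g • v : ↥Cfsg.leechLattice) : Cfsg.GolayPt → ℤ) = f (v : Cfsg.GolayPt → ℤ)) ∧ Nat.card {g : ↥Cfsg.Co0 // (∀ v : ↥Cfsg.leechLattice, (v : Cfsg.GolayPt → ℤ) ∈ Cfsg.stdCross → ((g • v : ↥Cfsg.leechLattice) : Cfsg.GolayPt → ℤ) ∈ Cfsg.stdCross)} = 4096 * 244823040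 := by
  have hiff : ∀ g : ↥Cfsg.Co0, (∀ v : ↥Cfsg.leechLattice, (v : Cfsg.GolayPt → ℤ) ∈ Cfsg.stdCross →
      ((g • v : ↥Cfsg.leechLattice) : Cfsg.GolayPt → ℤ) ∈ Cfsg.stdCross) ↔ g ∈ H14.crossStab := by
    intro g
    rw [H14.mem_crossStab_iff]
    constructor
    · intro h y hy
      have := h ⟨y, H14.mem_leechLattice_iff.2 (H14.isLeech_stdCross hy)⟩ hy
      rwa [← H14.act_coe] at this
    · intro h v hv
      rw [← H14.act_coe]
      exact h _ hv
  refine ⟨fun g hg => ?_, ?_⟩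
  · obtain ⟨σ, hσ, c, hc, rfl⟩ := H14.exists_mono ((hiff g).1 hg)
    refine ⟨Cfsg.signedPerm σ (Cfsg.support₂ c), ⟨σ, hσ, _, ⟨c, hc, rfl⟩, rfl⟩, fun v => ?_⟩
    rw [← H14.act_coe, H14.act_monoAut hσ hc (H14.IsLeech.coe v), H14.signFun_permFun]
  · rw [Nat.card_congr (Equiv.subtypeEquivRight hiff), H14.card_crossStab, H9.golayCode_natCard,
      H11.card_M24]

end Cfsg.Agent.S1571
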