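import Cfsg.Statements.S1572
import Cfsg.Agent.H14.CrossMax

set_option autoImplicit false
open scoped Pointwise
open Cfsg

namespace Cfsg.Agent.S1572

/-- The stabiliser of the standard cross is a maximal proper subgroup of the lattice's automorphism group. -/
theorem result (H : Subgroup ↥Cfsg.Co0) (hH : (H : Set ↥Cfsg.Co0) = {g : ↥Cfsg.Co0 | (∀ v : ↥Cfsg.leechLattice, (v : Cfsg.GolayPt → ℤ) ∈ Cfsg.stdCross → ((g • v : ↥Cfsg.leechLattice) : Cfsg.GolayPt → ℤ) ∈ Cfsg.stdCross)}) : IsCoatom H := by
  have h : H = H14.crossStab := by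
    ext g
    rw [← SetLike.mem_coe, hH, Set.mem_setOf_eq, H14.mem_crossStab_iff]
    constructor
    · intro h y hy
      have := h ⟨y, H14.mem_leechLattice_iff.2 (H14.isLeech_stdCross hy)⟩ hy
      rwa [← H14.act_coe] at this
    · intro h v hv
      rw [← H14.act_coe]
      exact h _ hv
  rw [h]
  exact H14.isCoatom_crossStab

end Cfsg.Agent.S1572
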