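import Cfsg.Statements.S1578
import Cfsg.Agent.H14.LeechCensus

set_option autoImplicit false
open Cfsg

namespace Cfsg.Agent.S1578

/-- A lattice vector of customary norm 6 is the sum of an unordered pair of minimal vectors in exactly 276 ways (552 ordered summands). -/
theorem result (u : ↥Cfsg.leechLattice) (hu : Cfsg.sqNorm (u : Cfsg.GolayPt → ℤ) = 48) : {v : ↥Cfsg.leechLattice | Cfsg.sqNorm (v : Cfsg.GolayPt → ℤ) = 32 ∧ Cfsg.sqNorm ((u - v) : Cfsg.GolayPt → ℤ) = 32}.ncard = 552 := by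
  rw [← H14.numDot48 (H14.IsLeech.coe u) hu, H14.numDot, ← Set.ncard_coe_finset,
    ← Set.ncard_image_of_injective _ Subtype.val_injective]
  congr 1
  ext w
  simp only [Set.mem_image, Finset.mem_coe, Finset.mem_filter, H14.mem_minVecs, Set.mem_setOf_eq]
  constructor
  · rintro ⟨v, ⟨h1, h2⟩, rfl⟩
    refine ⟨⟨H14.IsLeech.coe v, h1⟩, ?_⟩
    rw [H14.sqNorm_sub, hu, h1] at h2
    omega
  · rintro ⟨⟨h1, h2⟩, h3⟩
    refine ⟨⟨w, H14.mem_leechLattice_iff.2 h1⟩, ⟨h2, ?_⟩, rfl⟩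
    show Cfsg.sqNorm ((u : Cfsg.GolayPt → ℤ) - w) = 32
    rw [H14.sqNorm_sub, hu, h2, h3]
    norm_num

end Cfsg.Agent.S1578
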