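import Cfsg.Statements.S1579
import Cfsg.Agent.H14.LeechPairs

set_option autoImplicit false
open Cfsg

namespace Cfsg.Agent.S1579

/-- The stabiliser of a vector of customary norm 6 is transitive on the 552 minimal vectors that complete it to a sum of two minimal vectors. -/
theorem result (u v v' : ↥Cfsg.leechLattice) (hu : Cfsg.sqNorm (u : Cfsg.GolayPt → ℤ) = 48) (hv : Cfsg.sqNorm (v : Cfsg.GolayPt → ℤ) = 32 ∧ Cfsg.sqNorm ((u - v) : Cfsg.GolayPt → ℤ) = 32) (hv' : Cfsg.sqNorm (v' : Cfsg.GolayPt → ℤ) = 32 ∧ Cfsg.sqNorm ((u - v') : Cfsg.GolayPt → ℤ) = 32) : ∃ g : ↥Cfsg.Co0, g • u = u ∧ g • v = v' := by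
  have hpair : ∀ z : ↥Cfsg.leechLattice, Cfsg.sqNorm (z : Cfsg.GolayPt → ℤ) = 32 →
      Cfsg.sqNorm ((u - z) : Cfsg.GolayPt → ℤ) = 32 →
      Cfsg.dotInt (z : Cfsg.GolayPt → ℤ) ((u - z) : Cfsg.GolayPt → ℤ) = -8 := by
    intro z h1 h2
    have h3 := H14.sqNorm_add (z : Cfsg.GolayPt → ℤ) ((u - z) : Cfsg.GolayPt → ℤ)
    rw [add_sub_cancel, hu, h1, h2] at h3
    omega
  obtain ⟨g, -, e, e'⟩ := H14.exists_act_pair (H14.IsLeech.coe v) hv.1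
    ((H14.IsLeech.coe u).sub (H14.IsLeech.coe v)) hv.2 (H14.IsLeech.coe v') hv'.1
    ((H14.IsLeech.coe u).sub (H14.IsLeech.coe v')) hv'.2 (hpair v hv.1 hv.2) (hpair v' hv'.1 hv'.2)
    (Or.inl rfl)
  refine ⟨g, H14.smul_eq_of_act ?_, H14.smul_eq_of_act e⟩
  conv_lhs => rw [← add_sub_cancel (v : Cfsg.GolayPt → ℤ) (u : Cfsg.GolayPt → ℤ)]
  rw [H14.act_add g (H14.IsLeech.coe v) ((H14.IsLeech.coe u).sub (H14.IsLeech.coe v)), e, e',
    add_sub_cancel]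

end Cfsg.Agent.S1579
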