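import Cfsg.Statements.S1580
import Cfsg.Agent.H15.Transfer

set_option autoImplicit false
open Cfsg

namespace Cfsg.Agent.S1580

/-- The McLaughlin configuration: for u of customary norm 6 and v minimal with u − v minimal, there are 275 further such summands x of customary inner product 2 with v, permuted transitively by the stabiliser of u and v. -/
theorem result (u v : ↥Cfsg.leechLattice) (hu : Cfsg.sqNorm (u : Cfsg.GolayPt → ℤ) = 48) (hv : Cfsg.sqNorm (v : Cfsg.GolayPt → ℤ) = 32 ∧ Cfsg.sqNorm ((u - v) : Cfsg.GolayPt → ℤ) = 32) : {x : ↥Cfsg.leechLattice | Cfsg.sqNorm (x : Cfsg.GolayPt → ℤ) = 32 ∧ Cfsg.sqNorm ((u - x) : Cfsg.GolayPt → ℤ) = 32 ∧ Cfsg.dotInt (v : Cfsg.GolayPt → ℤ) (x : Cfsg.GolayPt → ℤ) = 16}.ncard = 275 ∧ ∀ x ∈ {x : ↥Cfsg.leechLattice | Cfsg.sqNorm (x : Cfsg.GolayPt → ℤ) = 32 ∧ Cfsg.sqNorm ((u - x) : Cfsg.GolayPt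 → ℤ) = 32 ∧ Cfsg.dotInt (v : Cfsg.GolayPt → ℤ) (x : Cfsg.GolayPt → ℤ) = 16}, ∀ x' ∈ {x : ↥Cfsg.leechLattice | Cfsg.sqNorm (x : Cfsg.GolayPt → ℤ) = 32 ∧ Cfsg.sqNorm ((u - x) : Cfsg.GolayPt → ℤ) = 32 ∧ Cfsg.dotInt (v : Cfsg.GolayPt → ℤ) (x : Cfsg.GolayPt → ℤ) = 16}, ∃ g : ↥Cfsg.Co0, g • u = u ∧ g • v = v ∧ g • x = x' := by
  refine ⟨Cfsg.Agent.H15.ncard_set275 hu hv, fun x hx x' hx' => ?_⟩
  obtain ⟨g, g1, g2, g3⟩ := Cfsg.Agent.H15.exists_red275 hu hv hx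
  obtain ⟨h, h1, h2, h3⟩ := Cfsg.Agent.H15.exists_red275 hu hv hx'
  exact ⟨h⁻¹ * g, by rw [mul_smul, g1, inv_smul_eq_iff, h1], by rw [mul_smul, g2, inv_smul_eq_iff, h2],
    by rw [mul_smul, g3, inv_smul_eq_iff, h3]⟩

end Cfsg.Agent.S1580
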