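import Cfsg.Statements.S1581
import Cfsg.Agent.H15.Transfer

set_option autoImplicit false
open Cfsg

namespace Cfsg.Agent.S1581

/-- The McLaughlin group acts with rank 3 and subdegrees 1, 112, 162 on its 275 points: the point stabiliser has two orbits on the remaining points, distinguished by customary inner product 1 or 2 with the fixed point. -/
theorem result (u v x : ↥Cfsg.leechLattice) (hu : Cfsg.sqNorm (u : Cfsg.GolayPt → ℤ) = 48) (hv : Cfsg.sqNorm (v : Cfsg.GolayPt → ℤ) = 32 ∧ Cfsg.sqNorm ((u - v) : Cfsg.GolayPt → ℤ) = 32) (hx : x ∈ {x : ↥Cfsg.leechLattice | Cfsg.sqNorm (x : Cfsg.GolayPt → ℤ) = 32 ∧ Cfsg.sqNorm ((u - x) : Cfsg.GolayPt → ℤ) = 32 ∧ Cfsg.dotInt (v : Cfsg.GolayPt → ℤ) (x : Cfsg.GolayPt → ℤ) = 16}) : {y : ↥Cfsg.leechLattice | y ∈ {x : ↥Cfsg.leechLattice | Cfsg.sqNorm (x : Cfsg.GolayPt → ℤ) = 32 ∧ Cfsg.sqNorm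 ((u - x) : Cfsg.GolayPt → ℤ) = 32 ∧ Cfsg.dotInt (v : Cfsg.GolayPt → ℤ) (x : Cfsg.GolayPt → ℤ) = 16} ∧ Cfsg.dotInt (x : Cfsg.GolayPt → ℤ) (y : Cfsg.GolayPt → ℤ) = 8}.ncard = 112 ∧ {y : ↥Cfsg.leechLattice | y ∈ {x : ↥Cfsg.leechLattice | Cfsg.sqNorm (x : Cfsg.GolayPt → ℤ) = 32 ∧ Cfsg.sqNorm ((u - x) : Cfsg.GolayPt → ℤ) = 32 ∧ Cfsg.dotInt (v : Cfsg.GolayPt → ℤ) (x : Cfsg.GolayPt → ℤ) = 16} ∧ y ≠ x ∧ Cfsg.dotInt (x : Cfsg.GolayPt → ℤ) (y : Cfsg.GolayPt → ℤ) = 16}.ncard = 162 ∧ ∀ y ∈ {x : ↥Cfsg.leechLattice | Cfsg.sqNorm (x : Cfsg.GolayPt → ℤ) = 32 ∧ Cfsg.sqNorm ((u - x) : Cfsg.GolayPt → ℤ) = 32 ∧ Cfsg.dotInt (v : Cfsg.GolayPt → ℤ) (x : Cfsg.GolayPt → ℤ) = 16}, ∀ y' ∈ {x : ↥Cfsg.leechLattice | Cfsg.sqNorm (x : Cfsg.GolayPt → ℤ) = 32 ∧ Cfsg.sqNorm ((u - x) : Cfsg.GolayPt → ℤ) = 32 ∧ Cfsg.dotInt (v : Cfsg.GolayPt → ℤ) (x : Cfsg.GolayPt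 → ℤ) = 16}, y ≠ x → y' ≠ x → Cfsg.dotInt (x : Cfsg.GolayPt → ℤ) (y : Cfsg.GolayPt → ℤ) = Cfsg.dotInt (x : Cfsg.GolayPt → ℤ) (y' : Cfsg.GolayPt → ℤ) → ∃ g : ↥Cfsg.Co0, g • u = u ∧ g • v = v ∧ g • x = x ∧ g • y = y' := by
  obtain ⟨g, g1, g2, g3⟩ := Cfsg.Agent.H15.exists_red275 hu hv hx
  have hS : ∀ y, g • y ∈ H15.set275 H15.bV H15.bB ↔ y ∈ H15.set275 u v := fun y => by
    rw [← g1, ← g2, H15.smul_mem_set275]
  have hd : ∀ y, Cfsg.dotInt (H15.b275 : Cfsg.GolayPt → ℤ) (g • y : ↥Cfsg.leechLattice).1 =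
      Cfsg.dotInt (x : Cfsg.GolayPt → ℤ) (y : Cfsg.GolayPt → ℤ) := fun y => by
    rw [← g3, H15.dot_smul]
  refine ⟨?_, ?_, fun y hy y' hy' hne hne' heq => ?_⟩
  · refine (H15.ncard_pullback g _ {y | y ∈ H15.set275 H15.bV H15.bB ∧
      Cfsg.dotInt H15.b275.1 y.1 = 8} fun y => ?_).trans H15.orbit_112.2
    simp only [Set.mem_ofPred_eq, hd, hS]
    exact Iff.rfl
  · refine (H15.ncard_pullback g _ {y | y ∈ H15.set275 H15.bV H15.bB ∧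
      Cfsg.dotInt H15.b275.1 y.1 = 16} fun y => ?_).trans H15.orbit_162.2
    simp only [Set.mem_ofPred_eq, hd, hS]
    refine ⟨fun h => ⟨h.1, ?_, h.2⟩, fun h => ⟨h.1, h.2.2⟩⟩
    rintro rfl
    have h2 := h.2
    rw [H14.dotInt_self, (h.1).1] at h2
    norm_num at h2
  · have hv8 := H15.cover_values H15.orbit_275.2.2 (x0 := H15.b275) (c0 := H15.c275) rfl
      (fun d => d == 8 || d == 16) (by decide +kernel) ((hS y).2 hy)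
      (fun e => hne (MulAction.injective g (e.trans g3.symm)))
    simp only [Bool.or_eq_true, beq_iff_eq, hd] at hv8
    rcases hv8 with h8 | h8
    · exact H15.exists_stab_of_orbit g g1 g2 g3
        (by rw [H15.orbit_112.1]; exact ⟨(hS y).2 hy, (hd y).trans h8⟩)
        (by rw [H15.orbit_112.1]; exact ⟨(hS y').2 hy', (hd y').trans (heq.symm.trans h8)⟩)
    · exact H15.exists_stab_of_orbit g g1 g2 g3
        (by rw [H15.orbit_162.1]; exact ⟨(hS y).2 hy, (hd y).trans h8⟩)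
        (by rw [H15.orbit_162.1]; exact ⟨(hS y').2 hy', (hd y').trans (heq.symm.trans h8)⟩)

end Cfsg.Agent.S1581
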