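import Cfsg.Statements.S1583
import Cfsg.Agent.H15.HSOrbits

set_option autoImplicit false
open Cfsg

namespace Cfsg.Agent.S1583

/-- The Higman–Sims configuration: for two vectors of customary norm 6 with inner product −4, exactly 100 minimal vectors have customary inner products 3 and −3 with them, and the joint stabiliser permutes these transitively. -/
theorem result (v w : ↥Cfsg.leechLattice) (hv : Cfsg.sqNorm (v : Cfsg.GolayPt → ℤ) = 48) (hw : Cfsg.sqNorm (w : Cfsg.GolayPt → ℤ) = 48) (hvw : Cfsg.dotInt (v : Cfsg.GolayPt → ℤ) (w : Cfsg.GolayPt → ℤ) = -32) : {x : ↥Cfsg.leechLattice | Cfsg.sqNorm (x : Cfsg.GolayPt → ℤ) = 32 ∧ Cfsg.dotInt (v : Cfsg.GolayPt → ℤ) (x : Cfsg.GolayPt → ℤ) = 24 ∧ Cfsg.dotInt (w : Cfsg.GolayPt → ℤ) (x : Cfsg.GolayPt → ℤ) = -24}.ncard = 100 ∧ ∀ x ∈ {x : ↥Cfsg.leechLattice | Cfsg.sqNorm (x : Cfsg.GolayPt → ℤ) = 32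 ∧ Cfsg.dotInt (v : Cfsg.GolayPt → ℤ) (x : Cfsg.GolayPt → ℤ) = 24 ∧ Cfsg.dotInt (w : Cfsg.GolayPt → ℤ) (x : Cfsg.GolayPt → ℤ) = -24}, ∀ x' ∈ {x : ↥Cfsg.leechLattice | Cfsg.sqNorm (x : Cfsg.GolayPt → ℤ) = 32 ∧ Cfsg.dotInt (v : Cfsg.GolayPt → ℤ) (x : Cfsg.GolayPt → ℤ) = 24 ∧ Cfsg.dotInt (w : Cfsg.GolayPt → ℤ) (x : Cfsg.GolayPt → ℤ) = -24}, ∃ g : ↥Cfsg.Co0, g • v = v ∧ g • w = w ∧ g • x = x' := by
  refine ⟨?_, fun x hx x' hx' => ?_⟩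
  · obtain ⟨g, g1, g2, -⟩ := H15.exists_red100' hv hw hvw
    refine (H15.ncard_pullback g _ (H15.set100 H15.bV H15.bW) fun y => ?_).trans H15.orbit_100.2.1
    rw [← g1, ← g2]
    exact H15.smul_mem_set100 g
  · obtain ⟨g, g1, g2, -, g3⟩ := H15.exists_red100 hv hw hvw hx
    obtain ⟨h, h1, h2, -, h3⟩ := H15.exists_red100 hv hw hvw hx'
    exact ⟨h⁻¹ * g, by rw [mul_smul, g1, inv_smul_eq_iff, h1], by rw [mul_smul, g2, inv_smul_eq_iff, h2],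
      by rw [mul_smul, g3, inv_smul_eq_iff, h3]⟩

end Cfsg.Agent.S1583
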