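import Cfsg.Statements.S1584
import Cfsg.Agent.H15.HSOrbits

set_option autoImplicit false
open Cfsg

namespace Cfsg.Agent.S1584

/-- The Higman–Sims group acts with rank 3 and subdegrees 1, 22, 77 on its 100 points, the orbits of a point stabiliser being distinguished by customary inner product 1 with the fixed point. -/
theorem result (v w x : ↥Cfsg.leechLattice) (hv : Cfsg.sqNorm (v : Cfsg.GolayPt → ℤ) = 48) (hw : Cfsg.sqNorm (w : Cfsg.GolayPt → ℤ) = 48) (hvw : Cfsg.dotInt (v : Cfsg.GolayPt → ℤ) (w : Cfsg.GolayPt → ℤ) = -32) (hx : x ∈ {x : ↥Cfsg.leechLattice | Cfsg.sqNorm (x : Cfsg.GolayPt → ℤ) = 32 ∧ Cfsg.dotInt (v : Cfsg.GolayPt → ℤ) (x : Cfsg.GolayPt → ℤ) = 24 ∧ Cfsg.dotInt (w : Cfsg.GolayPt → ℤ) (x : Cfsg.GolayPt → ℤ) = -24}) : {y : ↥Cfsg.leechLattice | y ∈ {x : ↥Cfsg.leechLattice | Cfsg.sqNorm (x : Cfsg.GolayPt → ℤ) = 32 ∧ Cfsg.dotInt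 (v : Cfsg.GolayPt → ℤ) (x : Cfsg.GolayPt → ℤ) = 24 ∧ Cfsg.dotInt (w : Cfsg.GolayPt → ℤ) (x : Cfsg.GolayPt → ℤ) = -24} ∧ Cfsg.dotInt (x : Cfsg.GolayPt → ℤ) (y : Cfsg.GolayPt → ℤ) = 8}.ncard = 22 ∧ {y : ↥Cfsg.leechLattice | y ∈ {x : ↥Cfsg.leechLattice | Cfsg.sqNorm (x : Cfsg.GolayPt → ℤ) = 32 ∧ Cfsg.dotInt (v : Cfsg.GolayPt → ℤ) (x : Cfsg.GolayPt → ℤ) = 24 ∧ Cfsg.dotInt (w : Cfsg.GolayPt → ℤ) (x : Cfsg.GolayPt → ℤ) = -24} ∧ y ≠ x ∧ Cfsg.dotInt (x : Cfsg.GolayPt → ℤ) (y : Cfsg.GolayPt → ℤ) ≠ 8}.ncard = 77 ∧ ∀ y ∈ {x : ↥Cfsg.leechLattice | Cfsg.sqNorm (x : Cfsg.GolayPt → ℤ) = 32 ∧ Cfsg.dotInt (v : Cfsg.GolayPt → ℤ) (x : Cfsg.GolayPt → ℤ) = 24 ∧ Cfsg.dotInt (w : Cfsg.GolayPt → ℤ) (x : Cfsg.GolayPt → ℤ) = -24}, ∀ y' ∈ {x : ↥Cfsg.leechLattice | Cfsg.sqNorm (x : Cfsg.GolayPt → ℤ) = 32 ∧ Cfsg.dotInt (v : Cfsg.GolayPt → ℤ) (x : Cfsg.GolayPt →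 ℤ) = 24 ∧ Cfsg.dotInt (w : Cfsg.GolayPt → ℤ) (x : Cfsg.GolayPt → ℤ) = -24}, y ≠ x → y' ≠ x → (Cfsg.dotInt (x : Cfsg.GolayPt → ℤ) (y : Cfsg.GolayPt → ℤ) = 8 ↔ Cfsg.dotInt (x : Cfsg.GolayPt → ℤ) (y' : Cfsg.GolayPt → ℤ) = 8) → ∃ g : ↥Cfsg.Co0, g • v = v ∧ g • w = w ∧ g • x = x ∧ g • y = y' := by
  obtain ⟨g, g1, g2, g4, g3⟩ := H15.exists_red100 hv hw hvw hx
  have hS : ∀ y, g • y ∈ H15.set100 H15.bV H15.bW ↔ y ∈ H15.set100 v w := fun y => by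
    rw [← g1, ← g2, H15.smul_mem_set100]
  have hd : ∀ y, Cfsg.dotInt (H15.b100 : Cfsg.GolayPt → ℤ) (g • y : ↥Cfsg.leechLattice).1 =
      Cfsg.dotInt (x : Cfsg.GolayPt → ℤ) (y : Cfsg.GolayPt → ℤ) := fun y => by
    rw [← g3, H15.dot_smul]
  have hval : ∀ y ∈ H15.set100 v w, y ≠ x →
      Cfsg.dotInt (x : Cfsg.GolayPt → ℤ) (y : Cfsg.GolayPt → ℤ) = 8 ∨
        Cfsg.dotInt (x : Cfsg.GolayPt → ℤ) (y : Cfsg.GolayPt → ℤ) = 16 := fun y hy hne => by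
    have hv8 := H15.cover_values H15.orbit_100.2.2 (x0 := H15.b100) (c0 := H15.c100) rfl
      (fun d => d == 8 || d == 16) (by decide +kernel) ((hS y).2 hy)
      (fun e => hne (MulAction.injective g (e.trans g3.symm)))
    simpa only [Bool.or_eq_true, beq_iff_eq, hd] using hv8
  refine ⟨?_, ?_, fun y hy y' hy' hne hne' heq => ?_⟩
  · refine (H15.ncard_pullback g _ {y | y ∈ H15.set100 H15.bV H15.bW ∧
      Cfsg.dotInt H15.b100.1 y.1 = 8} fun y => ?_).trans H15.orbit_22.2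
    simp only [Set.mem_ofPred_eq, hd, hS]
    exact Iff.rfl
  · refine (H15.ncard_pullback g _ {y | y ∈ H15.set100 H15.bV H15.bW ∧
      Cfsg.dotInt H15.b100.1 y.1 = 16} fun y => ?_).trans H15.orbit_77.2
    simp only [Set.mem_ofPred_eq, hd, hS]
    refine ⟨fun h => ⟨h.1, ?_, by rw [h.2]; norm_num⟩,
      fun h => ⟨h.1, (hval y h.1 h.2.1).resolve_left h.2.2⟩⟩
    rintro rfl
    have h2 := h.2
    rw [H14.dotInt_self, (h.1).1] at h2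
    norm_num at h2
  · suffices ∃ k : ↥Cfsg.Co0, k • v = v ∧ k • (-v - w) = -v - w ∧ k • x = x ∧ k • y = y' by
      obtain ⟨k, k1, k2, k3, k4⟩ := this
      refine ⟨k, k1, ?_, k3, k4⟩
      rw [H15.co0_smul_sub, H15.co0_smul_neg, k1] at k2
      exact sub_right_injective k2
    rcases hval y hy hne with h8 | h8
    · exact H15.exists_stab_of_orbit g g1 g4 g3
        (by rw [H15.orbit_22.1]; exact ⟨(hS y).2 hy, (hd y).trans h8⟩)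
        (by rw [H15.orbit_22.1]; exact ⟨(hS y').2 hy', (hd y').trans (heq.1 h8)⟩)
    · refine H15.exists_stab_of_orbit g g1 g4 g3
        (by rw [H15.orbit_77.1]; exact ⟨(hS y).2 hy, (hd y).trans h8⟩)
        (by
          rw [H15.orbit_77.1]
          refine ⟨(hS y').2 hy', (hd y').trans ((hval y' hy' hne').resolve_left fun h => ?_)⟩
          rw [heq.2 h] at h8
          norm_num at h8)

end Cfsg.Agent.S1584
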