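import Cfsg.Statements.S1597
import Cfsg.Agent.H10.QuartetsGolay
import Cfsg.Agent.S0384

set_option autoImplicit false
open scoped Pointwise
open Cfsg

namespace Cfsg.Agent.S1597

/-- A dodecad has 220 quartets and its stabiliser is transitive on them. -/
theorem result (d : Finset Cfsg.GolayPt) (hd : d ∈ Cfsg.dodecads) : (Cfsg.quartets d).ncard = 220 ∧ ∀ Q ∈ Cfsg.quartets d, ∀ Q' ∈ Cfsg.quartets d, ∃ g : Equiv.Perm Cfsg.GolayPt, g ∈ Cfsg.M24 ∧ g • d = d ∧ g • Q = Q' := by
  refine ⟨H10.ncard_dodecad_quartets hd, fun Q hQ Q' hQ' => ?_⟩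
  -- five points: a triple of the quartet and two points of another
  have five : ∀ Q ∈ Cfsg.quartets d, ∃ t ∈ Q, ∃ u ∈ Q, t ≠ u ∧ ∃ x : Fin 5 ↪ Cfsg.GolayPt,
      t = {x 0, x 1, x 2} ∧ x 3 ∈ u ∧ x 4 ∈ u ∧ ∀ i, x i ∈ d := by
    rintro Q ⟨hc, ht, hu⟩
    obtain ⟨t, htQ, u, huQ, htu⟩ := Finset.one_lt_card.1 (by omega : 1 < Q.card)
    obtain ⟨a, b, c, hab, hac, hbc, rfl⟩ := Finset.card_eq_three.1 (ht t htQ).1
    obtain ⟨p, q, r, hpq, -, -, rfl⟩ := Finset.card_eq_three.1 (ht u huQ).1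
    have hdj : Disjoint ({a, b, c} : Finset Cfsg.GolayPt) {p, q, r} := by
      rw [← Finset.card_union_eq_card_add_card, (hu _ htQ _ huQ htu).1, (ht _ htQ).1, (ht _ huQ).1]
    simp only [Finset.disjoint_left, Finset.mem_insert, Finset.mem_singleton, forall_eq_or_imp,
      forall_eq, not_or] at hdj
    refine ⟨_, htQ, _, huQ, htu, ⟨![a, b, c, p, q], fun i j e => ?_⟩, rfl,
      Finset.mem_insert_self _ _, Finset.mem_insert_of_mem (Finset.mem_insert_self _ _), fun i => ?_⟩
    · have hap : a ≠ p := hdj.1.1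
      have haq : a ≠ q := hdj.1.2.1
      have hbp : b ≠ p := hdj.2.1.1
      have hbq : b ≠ q := hdj.2.1.2.1
      have hcp : c ≠ p := hdj.2.2.1
      have hcq : c ≠ q := hdj.2.2.2.1
      fin_cases i <;> fin_cases j <;> first
        | rfl
        | exact absurd e hab
        | exact absurd e hac
        | exact absurd e hbc
        | exact absurd e hpq
        | exact absurd e hap
        | exact absurd e haq
        | exact absurd e hbp
        | exact absurd e hbq
        | exact absurd e hcp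
        | exact absurd e hcq
        | exact absurd e.symm hab
        | exact absurd e.symm hac
        | exact absurd e.symm hbc
        | exact absurd e.symm hpq
        | exact absurd e.symm hap
        | exact absurd e.symm haq
        | exact absurd e.symm hbp
        | exact absurd e.symm hbq
        | exact absurd e.symm hcp
        | exact absurd e.symm hcq
    · have h1 := (ht _ htQ).2
      have h2 := (ht _ huQ).2
      simp only [Finset.insert_subset_iff, Finset.singleton_subset_iff] at h1 h2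
      fin_cases i <;> first | exact h1.1 | exact h1.2.1 | exact h1.2.2 | exact h2.1 | exact h2.2.1
  obtain ⟨t, ht, u, hu, htu, x, hxt, hx3, hx4, hxd⟩ := five Q hQ
  obtain ⟨t', ht', u', hu', htu', y, hyt, hy3, hy4, hyd⟩ := five Q' hQ'
  obtain ⟨g, hg, -⟩ := S0384.result d hd x y hxd hyd
  set σ : Equiv.Perm Cfsg.GolayPt := ((g : Cfsg.M24) : Equiv.Perm Cfsg.GolayPt) with hσ
  have hσM : σ ∈ Cfsg.M24 := (g : Cfsg.M24).2
  have hσd : σ • d = d := g.2
  have hσM' : σ • Cfsg.supports (Cfsg.golayCode : Set (Cfsg.GolayPt → ZMod 2))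
      = Cfsg.supports (Cfsg.golayCode : Set (Cfsg.GolayPt → ZMod 2)) := hσM
  have hoct : ∀ o ∈ Cfsg.octads, σ • o ∈ Cfsg.octads := fun o ho =>
    ⟨hσM' ▸ Set.smul_mem_smul_set ho.1, by rw [Finset.card_smul_finset]; exact ho.2⟩
  have hhex : ∀ h ∈ Cfsg.hexadsOn d, σ • h ∈ Cfsg.hexadsOn d := by
    rintro h ⟨hc, o, ho, he⟩
    exact ⟨by rw [Finset.card_smul_finset, hc], σ • o, hoct o ho, by
      rw [← he, Finset.smul_finset_inter, hσd]⟩
  have hσQ : σ • Q ∈ Cfsg.quartets d := by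
    obtain ⟨hc, h1, h2⟩ := hQ
    refine ⟨by rw [Finset.card_smul_finset, hc], ?_, ?_⟩
    · intro s hs
      obtain ⟨s0, hs0, rfl⟩ := Finset.mem_smul_finset.1 hs
      exact ⟨by rw [Finset.card_smul_finset, (h1 s0 hs0).1], hσd ▸ Finset.smul_finset_subset_smul_finset (h1 s0 hs0).2⟩
    · intro s hs r hr hne
      obtain ⟨s0, hs0, rfl⟩ := Finset.mem_smul_finset.1 hs
      obtain ⟨r0, hr0, rfl⟩ := Finset.mem_smul_finset.1 hr
      rw [← Finset.smul_finset_union]
      exact hhex _ (h2 s0 hs0 r0 hr0 fun e => hne (e ▸ rfl))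
  have hσt : σ • t = t' := by
    rw [hxt, hyt]
    simp only [Finset.smul_finset_insert, Finset.smul_finset_singleton, Equiv.Perm.smul_def, hg]
  have hσu : σ • u = u' := by
    have hd' := H10.hexSys_steiner hd
    have e1 : (σ • t) ∪ (σ • u) ∈ Cfsg.hexadsOn d := by
      rw [← Finset.smul_finset_union]; exact hhex _ (hQ.2.2 t ht u hu htu)
    have e2 : t' ∪ u' ∈ Cfsg.hexadsOn d := hQ'.2.2 t' ht' u' hu' htu'
    have hsub : ∀ h ∈ Cfsg.hexadsOn d, h ⊆ d := by
      rintro h ⟨-, o, -, he⟩; rw [← he]; exact Finset.inter_subset_right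
    have m1 := H10.map_mem_hexadsOn.1 ((H10.map_subtype_eq (hsub _ e1)).symm ▸ e1)
    have m2 := H10.map_mem_hexadsOn.1 ((H10.map_subtype_eq (hsub _ e2)).symm ▸ e2)
    let z : Fin 5 ↪ {p // p ∈ d} := ⟨fun i => ⟨y i, hyd i⟩, fun i j e => y.injective (congrArg Subtype.val e)⟩
    have hy_t' : ∀ i : Fin 5, y i ∈ t' ∨ y i ∈ u' := by
      intro i; rw [hyt]; fin_cases i <;> simp [hy3, hy4]
    have hy_u : ∀ i : Fin 5, y i ∈ σ • t ∨ y i ∈ σ • u := by
      intro i
      have : y i = σ • x i := (hg i).symm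
      rw [this, Finset.smul_mem_smul_finset_iff, Finset.smul_mem_smul_finset_iff, hxt]
      fin_cases i <;> simp [hx3, hx4]
    have heq := H10.block_unique hd' m1 m2 (s := Finset.univ.map z) (by simp)
      (fun p hp => by
        obtain ⟨i, -, rfl⟩ := Finset.mem_map.1 hp
        rw [Finset.mem_subtype, Finset.mem_union]; exact hy_u i)
      (fun p hp => by
        obtain ⟨i, -, rfl⟩ := Finset.mem_map.1 hp
        rw [Finset.mem_subtype, Finset.mem_union]; exact hy_t' i)
    have heq' : (σ • t) ∪ (σ • u) = t' ∪ u' := by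
      rw [← H10.map_subtype_eq (hsub _ e1), heq, H10.map_subtype_eq (hsub _ e2)]
    have d1 : Disjoint (σ • t) (σ • u) := by
      rw [← Finset.card_union_eq_card_add_card, e1.1, Finset.card_smul_finset,
        Finset.card_smul_finset, (hQ.2.1 t ht).1, (hQ.2.1 u hu).1]
    have d2 : Disjoint t' u' := by
      rw [← Finset.card_union_eq_card_add_card, e2.1, (hQ'.2.1 t' ht').1, (hQ'.2.1 u' hu').1]
    rw [← Finset.union_sdiff_cancel_left d1, heq', hσt, Finset.union_sdiff_cancel_left d2]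
  refine ⟨σ, hσM, hσd, ?_⟩
  have d2 : Disjoint t' u' := by
    rw [← Finset.card_union_eq_card_add_card, (hQ'.2.2 t' ht' u' hu' htu').1, (hQ'.2.1 t' ht').1,
      (hQ'.2.1 u' hu').1]
  exact (H10.dodecad_quartet_existsUnique hd (hQ'.2.1 t' ht').1 (hQ'.2.1 u' hu').1 d2
    (hQ'.2.2 t' ht' u' hu' htu')).unique
    ⟨hσQ, hσt ▸ Finset.smul_mem_smul_finset ht, hσu ▸ Finset.smul_mem_smul_finset hu⟩ ⟨hQ', ht', hu'⟩

end Cfsg.Agent.S1597
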