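import Cfsg.Statements.S1598
import Cfsg.Agent.H13.QuartetStab

set_option autoImplicit false
open scoped Pointwise
open Cfsg

namespace Cfsg.Agent.S1598

open Cfsg.Agent.H13 Cfsg.Agent.H13.Data MulAction Pointwise

/-- A quartet stabiliser inside the dodecad stabiliser has order 432, a normal subgroup of order 9 with quotient GL(2, 3), and is transitive on the dodecad. -/
theorem result (d : Finset Cfsg.GolayPt) (hd : d ∈ Cfsg.dodecads) (Q : Finset (Finset Cfsg.GolayPt)) (hQ : Q ∈ Cfsg.quartets d) : Nat.card ↥(MulAction.stabilizer Cfsg.M24 d ⊓ MulAction.stabilizer Cfsg.M24 Q) = 432 ∧ (∃ (N : Subgroup ↥(MulAction.stabilizer Cfsg.M24 d ⊓ MulAction.stabilizer Cfsg.M24 Q)) (_ : N.Normal), Nat.card N = 9 ∧ Nonempty (↥(MulAction.stabilizer Cfsg.M24 d ⊓ MulAction.stabilizer Cfsg.M24 Q) ⧸ N ≃* GL (Fin 2) (ZMod 3))) ∧ ∀ p ∈ d, ∀ q ∈ d, ∃ g ∈ (MulAction.stabilizer Cfsg.M24 d ⊓ MulAction.stabilizer Cfsg.M24 Q), ((g : ↥Cfsg.M24) : Equiv.Perm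 Cfsg.GolayPt) p = q := by
  obtain ⟨g, h1, -, hconj⟩ := conj_stabQuartet hd hQ
  let e : ↥(stabilizer M24 d ⊓ stabilizer M24 Q) ≃* grp quartGens :=
    (mapEquiv g hconj).symm.trans (subgroupOfEquivGrp quart_le rfl)
  have hcard : Nat.card ↥(stabilizer M24 d ⊓ stabilizer M24 Q) = 432 :=
    (Nat.card_congr e.toEquiv).trans card_quartGens
  refine ⟨hcard, ?_, ?_⟩
  · obtain ⟨π, hπ⟩ := quart_onto
    let φ := π.comp e.toMonoidHom
    have hφ : Function.Surjective φ := hπ.comp e.surjective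
    refine ⟨φ.ker, inferInstance, ?_, ⟨QuotientGroup.quotientKerEquivOfSurjective φ hφ⟩⟩
    have h := φ.ker.card_mul_index
    rw [Subgroup.index_ker, MonoidHom.range_eq_top.mpr hφ, Subgroup.card_top,
      Matrix.card_GL_field, ZMod.card, Fin.prod_univ_two, hcard] at h
    norm_num at h ⊢
    omega
  · intro p hp q hq
    obtain ⟨a, ha, hap⟩ := quart_transitive (p := g⁻¹ • p)
      (Finset.inv_smul_mem_iff.mpr (by rw [h1]; exact hp))
    obtain ⟨b, hb, hbq⟩ := quart_transitive (p := g⁻¹ • q)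
      (Finset.inv_smul_mem_iff.mpr (by rw [h1]; exact hq))
    let k : M24 := ⟨b * a⁻¹, quart_le (Subgroup.mul_mem _ hb (Subgroup.inv_mem _ ha))⟩
    refine ⟨g * k * g⁻¹, ?_, ?_⟩
    · rw [← hconj]
      exact ⟨k, Subgroup.mul_mem _ hb (Subgroup.inv_mem _ ha), rfl⟩
    · show (g * k * g⁻¹) • p = q
      rw [mul_smul, mul_smul, ← hap]
      show g • ((b * a⁻¹) (a (some 0))) = q
      rw [Equiv.Perm.mul_apply, show a⁻¹ (a (some 0)) = some 0 from a.symm_apply_apply _, hbq,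
        smul_inv_smul]

end Cfsg.Agent.S1598
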