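import Cfsg.Statements.S1599
import Cfsg.Agent.H13.QuartetOrbits

set_option autoImplicit false
open scoped Pointwise
open Cfsg

namespace Cfsg.Agent.S1599

open Cfsg.Agent.H13 Cfsg.Agent.H13.Data MulAction Pointwise

/-- A quartet stabiliser has five orbits on the quartets of its dodecad, of sizes 1, 12, 27, 72, 108. -/
theorem result (d : Finset Cfsg.GolayPt) (hd : d ∈ Cfsg.dodecads) (Q : Finset (Finset Cfsg.GolayPt)) (hQ : Q ∈ Cfsg.quartets d) : ∃ X₁ ∈ Cfsg.quartets d, ∃ X₂ ∈ Cfsg.quartets d, ∃ X₃ ∈ Cfsg.quartets d, ∃ X₄ ∈ Cfsg.quartets d, (MulAction.orbit ↥(MulAction.stabilizer Cfsg.M24 d ⊓ MulAction.stabilizer Cfsg.M24 Q) X₁).ncard = 12 ∧ (MulAction.orbit ↥(MulAction.stabilizer Cfsg.M24 d ⊓ MulAction.stabilizer Cfsg.M24 Q) X₂).ncard = 27 ∧ (MulAction.orbit ↥(MulAction.stabilizer Cfsg.M24 d ⊓ MulAction.stabilizer Cfsg.M24 Q) X₃).ncard = 72 ∧ (MulAction.orbit ↥(MulAction.stabilizer Cfsg.M24 d ⊓ MulAction.stabilizer Cfsg.M24 Q) X₄).ncard = 108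 ∧ Cfsg.quartets d = {Q} ∪ MulAction.orbit ↥(MulAction.stabilizer Cfsg.M24 d ⊓ MulAction.stabilizer Cfsg.M24 Q) X₁ ∪ MulAction.orbit ↥(MulAction.stabilizer Cfsg.M24 d ⊓ MulAction.stabilizer Cfsg.M24 Q) X₂ ∪ MulAction.orbit ↥(MulAction.stabilizer Cfsg.M24 d ⊓ MulAction.stabilizer Cfsg.M24 Q) X₃ ∪ MulAction.orbit ↥(MulAction.stabilizer Cfsg.M24 d ⊓ MulAction.stabilizer Cfsg.M24 Q) X₄ := by
  obtain ⟨g, h1, h2, hconj⟩ := conj_stabQuartet hd hQ
  have hq : quartets d = g • quartets Spor.squareDodecad := by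
    ext X
    rw [Set.mem_smul_set_iff_inv_smul_mem]
    constructor
    · intro hX
      have := smul_mem_quartets (Subgroup.inv_mem _ g.2) hX
      rw [← h1] at this
      rwa [show (g : Equiv.Perm GolayPt)⁻¹ • g • Spor.squareDodecad = Spor.squareDodecad from
        inv_smul_smul (g : Equiv.Perm GolayPt) _] at this
    · intro hX
      have := smul_mem_quartets g.2 hX
      rw [show (g : Equiv.Perm GolayPt) • Spor.squareDodecad = d from h1] at this
      rwa [show (g : Equiv.Perm GolayPt) • g⁻¹ • X = X from smul_inv_smul g X] at this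
  have ho : ∀ i < 4, orbit ↥(stabilizer M24 d ⊓ stabilizer M24 Q) (g • fam4 (quartRoot i)) =
      g • famSet (quartOrb i) ∧ (orbit ↥(stabilizer M24 d ⊓ stabilizer M24 Q)
        (g • fam4 (quartRoot i))).ncard = (quartOrb i).length :=
    fun i hi => orbit_conj (List.all_eq_true.mp suborb_ok i (List.mem_range.mpr hi)) hconj
  have hmem : ∀ i < 4, g • fam4 (quartRoot i) ∈ quartets d := fun i hi => by
    rw [hq]
    refine Set.smul_mem_smul_set ?_
    have h : ∀ i < 4, quartRoot i ∈ quartBase :: quartOrbitLists.flatten := by decide +kernel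
    rw [quartets_sq]
    simp only [List.coe_toFinset, List.mem_map, Set.mem_ofPred_eq]
    exact ⟨_, h i hi, rfl⟩
  refine ⟨_, hmem 0 (by norm_num), _, hmem 1 (by norm_num), _, hmem 2 (by norm_num), _,
    hmem 3 (by norm_num), ?_, ?_, ?_, ?_, ?_⟩
  · exact (ho 0 (by norm_num)).2.trans (by decide +kernel)
  · exact (ho 1 (by norm_num)).2.trans (by decide +kernel)
  · exact (ho 2 (by norm_num)).2.trans (by decide +kernel)
  · exact (ho 3 (by norm_num)).2.trans (by decide +kernel)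
  · rw [hq, quartets_sq_split, (ho 0 (by norm_num)).1, (ho 1 (by norm_num)).1,
      (ho 2 (by norm_num)).1, (ho 3 (by norm_num)).1]
    simp only [Set.smul_set_union, Set.smul_set_singleton, h2]

end Cfsg.Agent.S1599
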