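import Cfsg.Statements.S1600
import Cfsg.Agent.H13.Nine

set_option autoImplicit false
open scoped Pointwise
open Cfsg

namespace Cfsg.Agent.S1600

open Cfsg.Agent.H13 Cfsg.Agent.H13.Data MulAction Pointwise

/-- The pointwise stabiliser of three points of a dodecad inside the dodecad stabiliser (order 72) is transitive on the complementary dodecad. -/
theorem result (d : Finset Cfsg.GolayPt) (hd : d ∈ Cfsg.dodecads) (p q r : Cfsg.GolayPt) (hp : p ∈ d) (hq : q ∈ d) (hr : r ∈ d) (hpq : p ≠ q) (hpr : p ≠ r) (hqr : q ≠ r) : Nat.card ↥(MulAction.stabilizer Cfsg.M24 d ⊓ MulAction.stabilizer Cfsg.M24 p ⊓ MulAction.stabilizer Cfsg.M24 q ⊓ MulAction.stabilizer Cfsg.M24 r) = 72 ∧ ∀ x ∉ d, ∀ y ∉ d, ∃ g ∈ (MulAction.stabilizer Cfsg.M24 d ⊓ MulAction.stabilizer Cfsg.M24 p ⊓ MulAction.stabilizer Cfsg.M24 q ⊓ MulAction.stabilizer Cfsg.M24 r), ((g : ↥Cfsg.M24) : Equiv.Perm Cfsg.GolayPt) x = y := by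
  obtain ⟨g, hgd, hgp, hgq, hgr⟩ := exists_map_dodecad_triple hd hp hq hr hpq hpr hqr
  have hg : MulAut.conj g • (stabilizer M24 Spor.squareDodecad ⊓ stabilizer M24 (some 0 : GolayPt) ⊓
      stabilizer M24 (some 1 : GolayPt) ⊓ stabilizer M24 (some 2 : GolayPt)) =
      stabilizer M24 d ⊓ stabilizer M24 p ⊓ stabilizer M24 q ⊓ stabilizer M24 r := by
    simp only [Subgroup.smul_inf, conj_stabilizer, hgd, hgp, hgq, hgr]
  refine ⟨?_, fun x hx y hy => ?_⟩
  · rw [← Nat.card_congr (mapEquiv g hg).toEquiv,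
      Nat.card_congr (subgroupOfEquivGrp g9_le stab9).toEquiv, card_g9]
  · have hmem : ∀ z ∉ d, g⁻¹ • z ∉ Spor.squareDodecad := fun z hz h => by
      apply hz
      rw [← hgd]
      exact Finset.inv_smul_mem_iff.mp h
    obtain ⟨a, ha, hax⟩ := g9_out_transitive (hmem x hx)
    obtain ⟨b, hb, hby⟩ := g9_out_transitive (hmem y hy)
    let h' : M24 := ⟨b * a⁻¹, g9_le (Subgroup.mul_mem _ hb (Subgroup.inv_mem _ ha))⟩
    have hh : h' ∈ stabilizer M24 Spor.squareDodecad ⊓ stabilizer M24 (some 0 : GolayPt) ⊓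
      stabilizer M24 (some 1 : GolayPt) ⊓ stabilizer M24 (some 2 : GolayPt) := by
      rw [stab9]
      exact Subgroup.mul_mem _ hb (Subgroup.inv_mem _ ha)
    refine ⟨g * h' * g⁻¹, ?_, ?_⟩
    · rw [← hg]
      exact Subgroup.smul_mem_pointwise_smul h' (MulAut.conj g) _ hh
    · show (g * h' * g⁻¹) • x = y
      rw [mul_smul, mul_smul]
      show g • (b * a⁻¹) (g⁻¹ • x) = y
      rw [← hax, Equiv.Perm.mul_apply, Equiv.Perm.coe_inv, Equiv.symm_apply_apply, hby,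
        smul_inv_smul]

end Cfsg.Agent.S1600
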