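import Cfsg.Statements.S1601
import Cfsg.Agent.H13.L2Eleven

set_option autoImplicit false
open scoped Pointwise
open Cfsg

namespace Cfsg.Agent.S1601

open Cfsg.Agent.H13 Cfsg.Agent.H13.Data MulAction Pointwise

/-- In the 3-transitive action of the smallest Mathieu group on the complementary dodecad, a point stabiliser is isomorphic to PSL(2, 11). -/
theorem result (d : Finset Cfsg.GolayPt) (hd : d ∈ Cfsg.dodecads) (p q : Cfsg.GolayPt) (hp : p ∈ d) (hq : q ∉ d) : Nonempty (↥(MulAction.stabilizer Cfsg.M24 d ⊓ MulAction.stabilizer Cfsg.M24 p ⊓ MulAction.stabilizer Cfsg.M24 q) ≃* Matrix.ProjectiveSpecialLinearGroup (Fin 2) (ZMod 11)) := by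
  obtain ⟨g, h1, h2, h3⟩ := conj_stab1112 hd hp hq m11_out_transitive
  have hg : MulAut.conj g • (stabilizer M24 Spor.squareDodecad ⊓ stabilizer M24 (some 0 : GolayPt) ⊓
      stabilizer M24 (none : GolayPt)) =
      stabilizer M24 d ⊓ stabilizer M24 p ⊓ stabilizer M24 q := by
    simp only [Subgroup.smul_inf, conj_stabilizer, h1, h2, h3]
  obtain ⟨e⟩ := l2_equiv
  exact ⟨(mapEquiv g hg).symm.trans ((subgroupOfEquivGrp l2_le stab_l2).trans e)⟩

end Cfsg.Agent.S1601
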