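import Cfsg.Statements.S1602
import Cfsg.Agent.H13.SmallStab

set_option autoImplicit false
open scoped Pointwise
open Cfsg

namespace Cfsg.Agent.S1602

open Cfsg.Agent.H13 Cfsg.Agent.H13.Data MulAction Pointwise

/-- In the 12-point action of the smallest Mathieu group the setwise stabiliser of a pair is isomorphic to the symmetric group of degree 5. -/
theorem result (d : Finset Cfsg.GolayPt) (hd : d ∈ Cfsg.dodecads) (p q q' : Cfsg.GolayPt) (hp : p ∈ d) (hq : q ∉ d) (hq' : q' ∉ d) (hqq' : q ≠ q') : Nonempty (↥(MulAction.stabilizer Cfsg.M24 d ⊓ MulAction.stabilizer Cfsg.M24 p ⊓ MulAction.stabilizer Cfsg.M24 ({q, q'} : Finset Cfsg.GolayPt)) ≃* Equiv.Perm (Fin 5)) := by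
  obtain ⟨g, h1, h2, -⟩ := conj_stab11 hd hp
  have hmem : ∀ z ∉ d, g⁻¹ • z ∉ Spor.squareDodecad := fun z hz h => by
    apply hz
    rw [← h1]
    exact Finset.inv_smul_mem_iff.mp h
  let x : Fin 2 ↪ GolayPt := ⟨![H12.pt 23, H12.pt 5], by decide +kernel⟩
  let y : Fin 2 ↪ GolayPt := ⟨![g⁻¹ • q, g⁻¹ • q'], fun i j h => by
    fin_cases i <;> fin_cases j <;> first | rfl | simp_all⟩
  obtain ⟨k, hk, hke⟩ := exists_map_tuple (m11outLevels.take 2) outList g11_valid
    (by decide +kernel) x y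
    (fun i => by
      have : ∀ i : Fin 2, H12.idx (![H12.pt 23, H12.pt 5] i) ∈ outList := by decide +kernel
      exact this i)
    (fun i => idx_mem_outList.mpr (by
      change (![g⁻¹ • q, g⁻¹ • q'] : Fin 2 → GolayPt) i ∉ Spor.squareDodecad
      fin_cases i
      exacts [hmem q hq, hmem q' hq']))
  let k' : M24 := ⟨k, g11_le hk⟩
  have hk' : k' ∈ stabilizer M24 Spor.squareDodecad ⊓ stabilizer M24 (some 0 : GolayPt) := by
    rw [stab11]; exact hk
  have hpair : (g * k') • H12.fin pairFiveMask = ({q, q'} : Finset GolayPt) := by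
    have e : H12.fin pairFiveMask = {H12.pt 23, H12.pt 5} := by decide +kernel
    rw [mul_smul, e, Finset.smul_finset_insert, Finset.smul_finset_singleton]
    rw [show k' • H12.pt 23 = g⁻¹ • q from hke (0 : Fin 2),
      show k' • H12.pt 5 = g⁻¹ • q' from hke (1 : Fin 2), Finset.smul_finset_insert,
      Finset.smul_finset_singleton, smul_inv_smul, smul_inv_smul]
  have hg : MulAut.conj (g * k') • (stabilizer M24 Spor.squareDodecad ⊓
      stabilizer M24 (some 0 : GolayPt) ⊓ stabilizer M24 (H12.fin pairFiveMask)) =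
      stabilizer M24 d ⊓ stabilizer M24 p ⊓ stabilizer M24 ({q, q'} : Finset GolayPt) := by
    simp only [Subgroup.smul_inf, conj_stabilizer, hpair]
    rw [mul_smul, mul_smul, mem_stabilizer_iff.mp hk'.1, mem_stabilizer_iff.mp hk'.2, h1, h2]
  have hC : stabilizer M24 Spor.squareDodecad ⊓ stabilizer M24 (some 0 : GolayPt) ⊓
      stabilizer M24 (H12.fin pairFiveMask) = (grp pairFiveGens).subgroupOf M24 := by
    rw [stab11, ← pairFive_eq]
    rfl
  obtain ⟨e⟩ := pairFive_equiv
  exact ⟨(mapEquiv (g * k') hg).symm.trans ((subgroupOfEquivGrp pairFive_le hC).trans e)⟩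

end Cfsg.Agent.S1602
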