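import Cfsg.Statements.S1603
import Cfsg.Agent.H13.InvolCentralizer

set_option autoImplicit false
open scoped Pointwise
open Cfsg

namespace Cfsg.Agent.S1603

open Cfsg.Agent.H13 Cfsg.Agent.H13.Data MulAction Pointwise

/-- Involution centralisers in the smallest Mathieu group are isomorphic to GL(2, 3). -/
theorem result (d : Finset Cfsg.GolayPt) (hd : d ∈ Cfsg.dodecads) (p : Cfsg.GolayPt) (hp : p ∈ d) (x : ↥(MulAction.stabilizer Cfsg.M24 d ⊓ MulAction.stabilizer Cfsg.M24 p)) (hx : orderOf x = 2) : Nonempty (↥(Subgroup.centralizer ({x} : Set ↥(MulAction.stabilizer Cfsg.M24 d ⊓ MulAction.stabilizer Cfsg.M24 p))) ≃* GL (Fin 2) (ZMod 3)) := by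
  obtain ⟨g, -, -, hg⟩ := conj_stab11 hd hp
  let e := (mapEquiv g hg).symm.trans (subgroupOfEquivGrp g11_le stab11)
  obtain ⟨f⟩ := g11_involution_centralizer (x := e x) (by rw [MulEquiv.orderOf_eq]; exact hx)
  have h : (Subgroup.centralizer {x}).map e.toMonoidHom = Subgroup.centralizer {e x} := by
    ext y
    simp only [Subgroup.mem_map, Subgroup.mem_centralizer_iff, Set.mem_singleton_iff, forall_eq]
    constructor
    · rintro ⟨z, hz, rfl⟩
      exact (map_mul e x z).symm.trans ((congrArg e hz).trans (map_mul e z x))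
    · intro hy
      refine ⟨e.symm y, e.injective ?_, e.apply_symm_apply y⟩
      rw [map_mul, map_mul, e.apply_symm_apply, hy]
  exact ⟨(Subgroup.equivMapOfInjective _ e.toMonoidHom e.injective).trans
    ((MulEquiv.subgroupCongr h).trans f)⟩

end Cfsg.Agent.S1603
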