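import Cfsg.Statements.S1604
import Cfsg.Agent.H13.Families

set_option autoImplicit false
open scoped Pointwise
open Cfsg

namespace Cfsg.Agent.S1604

open Cfsg.Agent.H13 Cfsg.Agent.H13.Data MulAction Pointwise

/-- A hexad stabiliser in the two-point stabiliser has orbits of sizes 1, 16, 60 on the 77 hexads: the 16 hexads disjoint from it and the 60 meeting it in two points. -/
theorem result (p q : Cfsg.GolayPt) (hpq : p ≠ q) (o o' o'' : Finset Cfsg.GolayPt) (ho : o ∈ Cfsg.octads) (ho' : o' ∈ Cfsg.octads) (ho'' : o'' ∈ Cfsg.octads) (hp : p ∈ o ∧ p ∈ o' ∧ p ∈ o'') (hq : q ∈ o ∧ q ∈ o' ∧ q ∈ o'') (h : (o ∩ o').card = (o ∩ o'').card) : {x : Finset Cfsg.GolayPt | x ∈ Cfsg.octads ∧ p ∈ x ∧ q ∈ x ∧ (o ∩ x).card = 2}.ncard = 16 ∧ {x : Finset Cfsg.GolayPt | x ∈ Cfsg.octads ∧ p ∈ x ∧ q ∈ x ∧ (o ∩ x).card = 4}.ncard = 60 ∧ ∃ g : Equiv.Perm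 Cfsg.GolayPt, g ∈ Cfsg.M24 ∧ g p = p ∧ g q = q ∧ g • o = o ∧ g • o' = o'' := by
  obtain ⟨c, hc, hcp, hcq⟩ := exists_pair hpq
  obtain ⟨-, h2, h3⟩ := hex_rank.conj c (F' := {x | x ∈ octads ∧ (p ∈ x ∧ q ∈ x)}) fun x =>
    and_congr (H12.smul_mem_octads (Subgroup.inv_mem _ hc)).symm
      (and_congr (mem_inv_smul hcp x).symm (mem_inv_smul hcq x).symm)
  have hF : o ∈ {x | x ∈ octads ∧ (p ∈ x ∧ q ∈ x)} := ⟨ho, hp.1, hq.1⟩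
  have e : ∀ k, {x : Finset GolayPt | x ∈ octads ∧ p ∈ x ∧ q ∈ x ∧ (o ∩ x).card = k} =
      {x | x ∈ {x | x ∈ octads ∧ (p ∈ x ∧ q ∈ x)} ∧ (o ∩ x).card = k} := fun k => by
    ext x; simp [and_assoc]
  refine ⟨by rw [e, h2 o hF]; decide +kernel, by rw [e, h2 o hF]; decide +kernel, ?_⟩
  obtain ⟨g, hg, h4, h5⟩ := h3 o hF o' ⟨ho', hp.2.1, hq.2.1⟩ o'' ⟨ho'', hp.2.2, hq.2.2⟩ h
  exact ⟨g, (conj_g22 hc hcp hcq hg).1, (conj_g22 hc hcp hcq hg).2.1, (conj_g22 hc hcp hcq hg).2.2,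
    h4, h5⟩

end Cfsg.Agent.S1604
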