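import Cfsg.Statements.S1605
import Cfsg.Agent.H13.Families

set_option autoImplicit false
open scoped Pointwise
open Cfsg

namespace Cfsg.Agent.S1605

open Cfsg.Agent.H13 Cfsg.Agent.H13.Data MulAction Pointwise

/-- The two-point stabiliser acts on the 176 octads through the first point avoiding the second with rank 3 and subdegrees 1, 70, 105 (intersections 8, 2, 4). -/
theorem result (p q : Cfsg.GolayPt) (hpq : p ≠ q) : {x : Finset Cfsg.GolayPt | (x ∈ Cfsg.octads ∧ p ∈ x ∧ q ∉ x)}.ncard = 176 ∧ (∀ o o' : Finset Cfsg.GolayPt, (o ∈ Cfsg.octads ∧ p ∈ o ∧ q ∉ o) → (o' ∈ Cfsg.octads ∧ p ∈ o' ∧ q ∉ o') → ∃ g : Equiv.Perm Cfsg.GolayPt, g ∈ Cfsg.M24 ∧ g p = p ∧ g q = q ∧ g • o = o') ∧ ∀ o : Finset Cfsg.GolayPt, (o ∈ Cfsg.octads ∧ p ∈ o ∧ q ∉ o) → {x : Finset Cfsg.GolayPt | (x ∈ Cfsg.octads ∧ p ∈ x ∧ q ∉ x) ∧ (o ∩ x).card = 2}.ncard = 70 ∧ {x : Finset Cfsg.GolayPt | (x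 ∈ Cfsg.octads ∧ p ∈ x ∧ q ∉ x) ∧ (o ∩ x).card = 4}.ncard = 105 ∧ ∀ o' o'' : Finset Cfsg.GolayPt, (o' ∈ Cfsg.octads ∧ p ∈ o' ∧ q ∉ o') → (o'' ∈ Cfsg.octads ∧ p ∈ o'' ∧ q ∉ o'') → (o ∩ o').card = (o ∩ o'').card → ∃ g : Equiv.Perm Cfsg.GolayPt, g ∈ Cfsg.M24 ∧ g p = p ∧ g q = q ∧ g • o = o ∧ g • o' = o'' := by
  obtain ⟨c, hc, hcp, hcq⟩ := exists_pair hpq
  obtain ⟨h1, h2, h3⟩ := hep_rank.conj c (F' := {x | x ∈ octads ∧ p ∈ x ∧ q ∉ x}) fun x =>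
    and_congr (H12.smul_mem_octads (Subgroup.inv_mem _ hc)).symm
      (and_congr (mem_inv_smul hcp x).symm (not_congr (mem_inv_smul hcq x).symm))
  refine ⟨?_, fun o o' ho ho' => ?_, fun o ho => ⟨?_, ?_, fun o' o'' ho' ho'' h => ?_⟩⟩
  · have e : {x : Finset GolayPt | x ∈ octads ∧ p ∈ x ∧ q ∉ x} =
        c • {x | x ∈ octads ∧ ((none : GolayPt) ∈ x ∧ (some 0 : GolayPt) ∉ x)} := by
      ext x
      rw [Set.mem_smul_set_iff_inv_smul_mem]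
      exact and_congr (H12.smul_mem_octads (Subgroup.inv_mem _ hc)).symm
        (and_congr (mem_inv_smul hcp x).symm (not_congr (mem_inv_smul hcq x).symm))
    obtain ⟨hF, hnd⟩ := octads_filter (P := fun x => (none : GolayPt) ∈ x ∧ (some 0 : GolayPt) ∉ x)
      (fun m => m.testBit 23 && !m.testBit 0)
      (fun m => by simp only [none_mem_fin, zero_mem_fin, Bool.and_eq_true, Bool.not_eq_true']; simp)
    rw [e, Set.ncard_smul_set, hF, Set.ncard_coe_finset, List.toFinset_card_of_nodup hnd,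
      List.length_map]
    decide +kernel
  · obtain ⟨g, hg, he⟩ := h1 o ho o' ho'
    exact ⟨g, (conj_g22 hc hcp hcq hg).1, (conj_g22 hc hcp hcq hg).2.1,
      (conj_g22 hc hcp hcq hg).2.2, he⟩
  · refine (h2 o ho 2).trans ?_; decide +kernel
  · refine (h2 o ho 4).trans ?_; decide +kernel
  · obtain ⟨g, hg, h4, h5⟩ := h3 o ho o' ho' o'' ho'' h
    exact ⟨g, (conj_g22 hc hcp hcq hg).1, (conj_g22 hc hcp hcq hg).2.1,
      (conj_g22 hc hcp hcq hg).2.2, h4, h5⟩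

end Cfsg.Agent.S1605
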