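import Cfsg.Statements.S1608
import Cfsg.Agent.H13.Families

set_option autoImplicit false
open scoped Pointwise
open Cfsg

namespace Cfsg.Agent.S1608

open Cfsg.Agent.H13 Cfsg.Agent.H13.Data MulAction Pointwise

/-- The point stabiliser acts on the 506 octads avoiding the point with rank 4 and subdegrees 1, 15, 210, 280, the suborbits being given by intersection size with the fixed octad. -/
theorem result (x : Cfsg.GolayPt) (o : Finset Cfsg.GolayPt) (ho : o ∈ Cfsg.octads) (hx : x ∉ o) : {o' : Finset Cfsg.GolayPt | o' ∈ Cfsg.octads ∧ x ∉ o' ∧ (o ∩ o').card = 0}.ncard = 15 ∧ {o' : Finset Cfsg.GolayPt | o' ∈ Cfsg.octads ∧ x ∉ o' ∧ (o ∩ o').card = 4}.ncard = 210 ∧ {o' : Finset Cfsg.GolayPt | o' ∈ Cfsg.octads ∧ x ∉ o' ∧ (o ∩ o').card = 2}.ncard = 280 ∧ ∀ o' o'' : Finset Cfsg.GolayPt, o' ∈ Cfsg.octads → o'' ∈ Cfsg.octads → x ∉ o' → x ∉ o'' → (o ∩ o').card = (o ∩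 o'').card → ∃ g : Equiv.Perm Cfsg.GolayPt, g ∈ Cfsg.M24 ∧ g x = x ∧ g • o = o ∧ g • o' = o'' := by
  obtain ⟨c, hc, hcp⟩ := exists_point x
  obtain ⟨-, h2, h3⟩ := oct506_rank.conj c (F' := {y | y ∈ octads ∧ x ∉ y}) fun y =>
    and_congr (H12.smul_mem_octads (Subgroup.inv_mem _ hc)).symm (not_congr (mem_inv_smul hcp y).symm)
  have e : ∀ k, {o' : Finset GolayPt | o' ∈ octads ∧ x ∉ o' ∧ (o ∩ o').card = k} =
      {y | y ∈ {y | y ∈ octads ∧ x ∉ y} ∧ (o ∩ y).card = k} := fun k => by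
    ext y; simp [and_assoc]
  refine ⟨by rw [e, h2 o ⟨ho, hx⟩]; decide +kernel, by rw [e, h2 o ⟨ho, hx⟩]; decide +kernel, by rw [e, h2 o ⟨ho, hx⟩]; decide +kernel, fun o' o'' ho' ho'' hx' hx'' h => ?_⟩
  obtain ⟨g, hg, h4, h5⟩ := h3 o ⟨ho, hx⟩ o' ⟨ho', hx'⟩ o'' ⟨ho'', hx''⟩ h
  exact ⟨g, (conj_g23 hc hcp hg).1, (conj_g23 hc hcp hg).2, h4, h5⟩

end Cfsg.Agent.S1608
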