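import Cfsg.Statements.S1609
import Cfsg.Agent.H13.IndexTwoFiveThree

set_option autoImplicit false
open scoped Pointwise
open Cfsg

namespace Cfsg.Agent.S1609

open Cfsg.Agent.H13 Cfsg.Agent.H13.Data MulAction Pointwise

/-- Subgroups of index 253 in the Mathieu group of degree 23 are exactly the duad stabilisers and the heptad stabilisers. -/
theorem result (x : Cfsg.GolayPt) (H : Subgroup ↥(MulAction.stabilizer Cfsg.M24 x)) (hH : H.index = 253) : (∃ s : Finset Cfsg.GolayPt, s.card = 2 ∧ x ∉ s ∧ H = (MulAction.stabilizer Cfsg.M24 s).subgroupOf (MulAction.stabilizer Cfsg.M24 x)) ∨ ∃ o ∈ Cfsg.octads, x ∈ o ∧ H = (MulAction.stabilizer Cfsg.M24 o).subgroupOf (MulAction.stabilizer Cfsg.M24 x) := by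
  exact index_253 x H hH

end Cfsg.Agent.S1609
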