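import Cfsg.Statements.S1619
import Cfsg.Agent.H15.J2.Simple

set_option autoImplicit false
open Quaternion
open Cfsg

namespace Cfsg.Agent.S1619

/-- The icosian reflection group has order 1209600 with centre {±1}; the Hall–Janko group has order 604800 = 2^7·3^3·5^2·7. -/
theorem result : Nat.card ↥Cfsg.Spor.twoJ2 = 1209600 ∧ Nat.card ↥(Subgroup.center ↥Cfsg.Spor.twoJ2) = 2 ∧ (∃ z ∈ Subgroup.center ↥Cfsg.Spor.twoJ2, ∀ x : ↥Cfsg.Spor.icoLeech, (((z : Equiv.Perm ↥Cfsg.Spor.icoLeech) x : ↥Cfsg.Spor.icoLeech) : Fin 3 → ℍ[ℝ]) = -(x : Fin 3 → ℍ[ℝ])) ∧ Nat.card Cfsg.Spor.J2 = 604800 := by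
  exact ⟨Cfsg.Agent.H15.J2.twoJ2_card, Cfsg.Agent.H15.J2.center_card,
    Cfsg.Agent.H15.J2.j2_center, Cfsg.Agent.H15.J2.j2_card⟩

end Cfsg.Agent.S1619
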