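import Cfsg.Statements.S1626
import Cfsg.Agent.H15.J3.Lines

set_option autoImplicit false
open scoped MatrixGroups
open Matrix
open Cfsg

namespace Cfsg.Agent.S1626

/-- Orbits of the triple cover of the third Janko group on lines of its 9-space over the field with 4 elements: the line through the first basis vector has exactly 23256 images, and the isotropic lines (nonzero v with Σ v_z³ = 0) form a single orbit. -/
theorem result (F : Type) [Field F] [Fintype F] (hF : Fintype.card F = 4) (ω : F) (hω : ω ^ 2 + ω + 1 = 0) : {L : Submodule F (Cfsg.Spor.F9 → F) | ∃ g ∈ Cfsg.Spor.threeJ3 F ω, L = F ∙ ((g : Matrix Cfsg.Spor.F9 Cfsg.Spor.F9 F) *ᵥ (Pi.single (0 : Cfsg.Spor.F9) (1 : F) : Cfsg.Spor.F9 → F))}.ncard = 23256 ∧ ∀ v w : Cfsg.Spor.F9 → F, v ≠ 0 → w ≠ 0 → ∑ z, (v z) ^ 3 = 0 → ∑ z, (w z) ^ 3 = 0 → ∃ g ∈ Cfsg.Spor.threeJ3 F ω, ∃ c : F, c ≠ 0 ∧ (g : Matrix Cfsg.Spor.F9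 Cfsg.Spor.F9 F) *ᵥ v = c • w := by
  have hG : Cfsg.Agent.H15.J3.Good F ω := ⟨hF, hω⟩
  refine ⟨Cfsg.Agent.H15.J3.ncard_lines hG, fun v w hv hw h1 h2 => ?_⟩
  obtain ⟨g, hg, c, hc, eg⟩ := Cfsg.Agent.H15.J3.isotropic_reduce hG hv h1
  obtain ⟨k, hk, d, hd, ek⟩ := Cfsg.Agent.H15.J3.isotropic_reduce hG hw h2
  refine ⟨k⁻¹ * g, mul_mem (inv_mem hk) hg, c * d⁻¹, mul_ne_zero hc (inv_ne_zero hd), ?_⟩
  have e : (k : Matrix Cfsg.Spor.F9 Cfsg.Spor.F9 F) *ᵥ ((c * d⁻¹) • w) =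
      (g : Matrix Cfsg.Spor.F9 Cfsg.Spor.F9 F) *ᵥ v := by
    rw [Matrix.mulVec_smul, ek, eg, smul_smul, mul_assoc, inv_mul_cancel₀ hd, mul_one]
  rw [Units.val_mul, ← Matrix.mulVec_mulVec, ← e, Matrix.mulVec_mulVec, Units.inv_mul, Matrix.one_mulVec]

end Cfsg.Agent.S1626
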