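import Cfsg.Statements.S1633
import Cfsg.Agent.H15.U35.Model

set_option autoImplicit false
open Cfsg

namespace Cfsg.Agent.S1633

/-- The Higman–Sims group acts transitively on 352 vectors, a set closed under x ↦ −w − x, with vector stabiliser isomorphic to PSU(3, 5). -/
theorem result (v w : ↥Cfsg.leechLattice) (hv : Cfsg.sqNorm (v : Cfsg.GolayPt → ℤ) = 48) (hw : Cfsg.sqNorm (w : Cfsg.GolayPt → ℤ) = 48) (hvw : Cfsg.dotInt (v : Cfsg.GolayPt → ℤ) (w : Cfsg.GolayPt → ℤ) = -32) (F : Type) [Field F] [Fintype F] (hF : Fintype.card F = 25) : {x : ↥Cfsg.leechLattice | Cfsg.sqNorm (x : Cfsg.GolayPt → ℤ) = 32 ∧ Cfsg.dotInt (v : Cfsg.GolayPt → ℤ) (x : Cfsg.GolayPt → ℤ) = 16 ∧ Cfsg.dotInt (w : Cfsg.GolayPt → ℤ) (x : Cfsg.GolayPt → ℤ) = -24}.ncard = 352 ∧ (∀ x ∈ {x : ↥Cfsg.leechLattice | Cfsg.sqNorm (x : Cfsg.GolayPt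 → ℤ) = 32 ∧ Cfsg.dotInt (v : Cfsg.GolayPt → ℤ) (x : Cfsg.GolayPt → ℤ) = 16 ∧ Cfsg.dotInt (w : Cfsg.GolayPt → ℤ) (x : Cfsg.GolayPt → ℤ) = -24}, -w - x ∈ {x : ↥Cfsg.leechLattice | Cfsg.sqNorm (x : Cfsg.GolayPt → ℤ) = 32 ∧ Cfsg.dotInt (v : Cfsg.GolayPt → ℤ) (x : Cfsg.GolayPt → ℤ) = 16 ∧ Cfsg.dotInt (w : Cfsg.GolayPt → ℤ) (x : Cfsg.GolayPt → ℤ) = -24}) ∧ (∀ x ∈ {x : ↥Cfsg.leechLattice | Cfsg.sqNorm (x : Cfsg.GolayPt → ℤ) = 32 ∧ Cfsg.dotInt (v : Cfsg.GolayPt → ℤ) (x : Cfsg.GolayPt → ℤ) = 16 ∧ Cfsg.dotInt (w : Cfsg.GolayPt → ℤ) (x : Cfsg.GolayPt → ℤ) = -24}, ∀ x' ∈ {x : ↥Cfsg.leechLattice | Cfsg.sqNorm (x : Cfsg.GolayPt → ℤ) = 32 ∧ Cfsg.dotInt (v : Cfsg.GolayPt → ℤ) (x : Cfsg.GolayPt → ℤ) = 16 ∧ Cfsg.dotInt (w : Cfsg.GolayPt → ℤ) (x : Cfsg.GolayPt → ℤ) = -24}, ∃ g : ↥Cfsg.Co0, g • v = v ∧ g • w = w ∧ g •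 x = x') ∧ ∀ x ∈ {x : ↥Cfsg.leechLattice | Cfsg.sqNorm (x : Cfsg.GolayPt → ℤ) = 32 ∧ Cfsg.dotInt (v : Cfsg.GolayPt → ℤ) (x : Cfsg.GolayPt → ℤ) = 16 ∧ Cfsg.dotInt (w : Cfsg.GolayPt → ℤ) (x : Cfsg.GolayPt → ℤ) = -24}, Nonempty (↥(MulAction.stabilizer ↥Cfsg.Co0 v ⊓ MulAction.stabilizer ↥Cfsg.Co0 w ⊓ MulAction.stabilizer ↥Cfsg.Co0 x) ≃* Cfsg.PSU 3 F 5) := by
  refine ⟨?_, ?_, ?_, fun x hx => Cfsg.Agent.H15.U35.point_iso hv hw hvw hx F hF⟩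
  · obtain ⟨g, h1, h2⟩ := Cfsg.Agent.H15.exists_redHS hv hw hvw
    rw [← Cfsg.Agent.H15.orbit_352.2.1]
    refine Set.ncard_congr (fun x _ => g • x) (fun x hx => ?_) (fun a b _ _ h => smul_left_cancel g h)
      (fun y hy => ⟨g⁻¹ • y, ?_, smul_inv_smul g y⟩)
    · rw [← h1, ← h2, Cfsg.Agent.H15.smul_mem_set352]; exact hx
    · rw [← h1, ← h2, ← smul_inv_smul g y, Cfsg.Agent.H15.smul_mem_set352] at hy; exact hy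
  · rintro x ⟨hx1, hx2, hx3⟩
    refine ⟨?_, ?_, ?_⟩
    · rw [AddSubgroup.coe_sub, AddSubgroup.coe_neg, H14.sqNorm_sub, H14.sqNorm_neg, H14.dotInt_comm,
        H14.dotInt_neg_right, H14.dotInt_comm, hw, hx1, hx3]; norm_num
    · rw [AddSubgroup.coe_sub, AddSubgroup.coe_neg, H14.dotInt_sub_right, H14.dotInt_neg_right, hvw, hx2]
      norm_num
    · rw [AddSubgroup.coe_sub, AddSubgroup.coe_neg, H14.dotInt_sub_right, H14.dotInt_neg_right, hx3,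
        H14.dotInt_self, hw]
      norm_num
  · intro x hx x' hx'
    obtain ⟨g, g1, g2, g3⟩ := Cfsg.Agent.H15.exists_red352 hv hw hvw hx
    obtain ⟨k, k1, k2, k3⟩ := Cfsg.Agent.H15.exists_red352 hv hw hvw hx'
    exact ⟨k⁻¹ * g, by rw [mul_smul, g1, ← k1, inv_smul_smul], by rw [mul_smul, g2, ← k2, inv_smul_smul],
      by rw [mul_smul, g3, ← k3, inv_smul_smul]⟩

end Cfsg.Agent.S1633
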