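import Cfsg.Statements.S1634
import Cfsg.Agent.H15.Transfer

set_option autoImplicit false
open Cfsg

namespace Cfsg.Agent.S1634

/-- The McLaughlin group acts on 2025 points (minimal vectors orthogonal to v with customary inner product 2 with w) transitively with rank 4 and subdegrees 1, 330, 462, 1232. -/
theorem result (v w : ↥Cfsg.leechLattice) (hv : Cfsg.sqNorm (v : Cfsg.GolayPt → ℤ) = 32) (hw : Cfsg.sqNorm (w : Cfsg.GolayPt → ℤ) = 32) (hvw : Cfsg.dotInt (v : Cfsg.GolayPt → ℤ) (w : Cfsg.GolayPt → ℤ) = -8) : {x : ↥Cfsg.leechLattice | Cfsg.sqNorm (x : Cfsg.GolayPt → ℤ) = 32 ∧ Cfsg.dotInt (v : Cfsg.GolayPt → ℤ) (x : Cfsg.GolayPt → ℤ) = 0 ∧ Cfsg.dotInt (w : Cfsg.GolayPt → ℤ) (x : Cfsg.GolayPt → ℤ) = 16}.ncard = 2025 ∧ (∀ x ∈ {x : ↥Cfsg.leechLattice | Cfsg.sqNorm (x : Cfsg.GolayPt → ℤ) = 32 ∧ Cfsg.dotInt (v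 : Cfsg.GolayPt → ℤ) (x : Cfsg.GolayPt → ℤ) = 0 ∧ Cfsg.dotInt (w : Cfsg.GolayPt → ℤ) (x : Cfsg.GolayPt → ℤ) = 16}, ∀ x' ∈ {x : ↥Cfsg.leechLattice | Cfsg.sqNorm (x : Cfsg.GolayPt → ℤ) = 32 ∧ Cfsg.dotInt (v : Cfsg.GolayPt → ℤ) (x : Cfsg.GolayPt → ℤ) = 0 ∧ Cfsg.dotInt (w : Cfsg.GolayPt → ℤ) (x : Cfsg.GolayPt → ℤ) = 16}, ∃ g : ↥Cfsg.Co0, g • v = v ∧ g • w = w ∧ g • x = x') ∧ ∀ x ∈ {x : ↥Cfsg.leechLattice | Cfsg.sqNorm (x : Cfsg.GolayPt → ℤ) = 32 ∧ Cfsg.dotInt (v : Cfsg.GolayPt → ℤ) (x : Cfsg.GolayPt → ℤ) = 0 ∧ Cfsg.dotInt (w : Cfsg.GolayPt → ℤ) (x : Cfsg.GolayPt → ℤ) = 16}, ∃ y₁ ∈ {x : ↥Cfsg.leechLattice | Cfsg.sqNorm (x : Cfsg.GolayPt → ℤ) = 32 ∧ Cfsg.dotInt (v : Cfsg.GolayPt → ℤ) (x : Cfsg.GolayPt → ℤ) = 0 ∧ Cfsg.dotInt (w : Cfsg.GolayPt → ℤ) (x : Cfsg.GolayPt → ℤ) = 16}, ∃ y₂ ∈ {x : ↥Cfsg.leechLattice | Cfsg.sqNorm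 (x : Cfsg.GolayPt → ℤ) = 32 ∧ Cfsg.dotInt (v : Cfsg.GolayPt → ℤ) (x : Cfsg.GolayPt → ℤ) = 0 ∧ Cfsg.dotInt (w : Cfsg.GolayPt → ℤ) (x : Cfsg.GolayPt → ℤ) = 16}, ∃ y₃ ∈ {x : ↥Cfsg.leechLattice | Cfsg.sqNorm (x : Cfsg.GolayPt → ℤ) = 32 ∧ Cfsg.dotInt (v : Cfsg.GolayPt → ℤ) (x : Cfsg.GolayPt → ℤ) = 0 ∧ Cfsg.dotInt (w : Cfsg.GolayPt → ℤ) (x : Cfsg.GolayPt → ℤ) = 16}, (MulAction.orbit ↥(MulAction.stabilizer ↥Cfsg.Co0 v ⊓ MulAction.stabilizer ↥Cfsg.Co0 w ⊓ MulAction.stabilizer ↥Cfsg.Co0 x) y₁).ncard = 330 ∧ (MulAction.orbit ↥(MulAction.stabilizer ↥Cfsg.Co0 v ⊓ MulAction.stabilizer ↥Cfsg.Co0 w ⊓ MulAction.stabilizer ↥Cfsg.Co0 x) y₂).ncard = 462 ∧ (MulAction.orbit ↥(MulAction.stabilizer ↥Cfsg.Co0 v ⊓ MulAction.stabilizer ↥Cfsg.Co0 w ⊓ MulAction.stabilizer ↥Cfsg.Co0 x) y₃).ncard = 1232 := by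
  refine ⟨?_, fun x hx x' hx' => ?_, fun x hx => ?_⟩
  · obtain ⟨g, g1, g2⟩ := H15.exists_red2025' hv hw hvw
    refine (H15.ncard_pullback g _ (H15.set2025 H15.bB H15.bV2) fun y => ?_).trans H15.orbit_2025.2.1
    rw [← g1, ← g2]
    exact H15.smul_mem_set2025 g
  · obtain ⟨g, g1, g2, g3⟩ := H15.exists_red2025 hv hw hvw hx
    obtain ⟨h, h1, h2, h3⟩ := H15.exists_red2025 hv hw hvw hx'
    exact ⟨h⁻¹ * g, by rw [mul_smul, g1, inv_smul_eq_iff, h1], by rw [mul_smul, g2, inv_smul_eq_iff, h2],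
      by rw [mul_smul, g3, inv_smul_eq_iff, h3]⟩
  · obtain ⟨g, g1, g2, g3⟩ := H15.exists_red2025 hv hw hvw hx
    have hK : H15.stab3 (g • v) (g • w) (g • x) = H15.stab3 H15.bV H15.bB H15.b2025 := by
      rw [g1, g2, g3]; exact SetLike.ext H15.stab3_bV2
    have hmem : ∀ r ∈ H15.set2025 H15.bB H15.bV2, g⁻¹ • r ∈ H15.set2025 v w := fun r hr => by
      rw [← H15.smul_mem_set2025 g, g1, g2, smul_inv_smul]; exact hr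
    have key : ∀ r, (MulAction.orbit ↥(H15.stab3 v w x) (g⁻¹ • r)).ncard =
        (MulAction.orbit ↥(H15.stab3 H15.bV H15.bB H15.b2025) r).ncard := fun r => by
      rw [H15.ncard_orbit_pullback, hK]
    have hin : ∀ r d, MulAction.orbit ↥(H15.stab3 H15.bV H15.bB H15.b2025) r =
        {y | y ∈ H15.set2025 H15.bB H15.bV2 ∧ Cfsg.dotInt H15.b2025.1 y.1 = d} →
        r ∈ H15.set2025 H15.bB H15.bV2 := fun r d h => by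
      have := MulAction.mem_orbit_self (M := ↥(H15.stab3 H15.bV H15.bB H15.b2025)) r
      rw [h] at this
      exact this.1
    exact ⟨g⁻¹ • H15.b330, hmem _ (hin _ _ H15.orbit_330.1), g⁻¹ • H15.b462,
      hmem _ (hin _ _ H15.orbit_462.1), g⁻¹ • H15.b1232, hmem _ (hin _ _ H15.orbit_1232.1),
      (key _).trans (by rw [H15.orbit_330.1, H15.orbit_330.2]),
      (key _).trans (by rw [H15.orbit_462.1, H15.orbit_462.2]),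
      (key _).trans (by rw [H15.orbit_1232.1, H15.orbit_1232.2])⟩

end Cfsg.Agent.S1634
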