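import Cfsg.Statements.S1635
import Cfsg.Agent.H9.DistanceEight


set_option autoImplicit false
open Cfsg

namespace Cfsg.Agent.S1635

/-- Coset leaders of the length-24 code: a coset contains a unique word of weight ≤ 3, or else exactly six words of weight 4 and none lighter. -/
theorem result (w : Cfsg.GolayPt → ZMod 2) : ({v : Cfsg.GolayPt → ZMod 2 | hammingNorm v ≤ 4 ∧ w - v ∈ Cfsg.golayCode}.ncard = 1 ∧ ∃ v : Cfsg.GolayPt → ZMod 2, hammingNorm v ≤ 3 ∧ w - v ∈ Cfsg.golayCode) ∨ ({v : Cfsg.GolayPt → ZMod 2 | hammingNorm v ≤ 4 ∧ w - v ∈ Cfsg.golayCode}.ncard = 6 ∧ ∀ v : Cfsg.GolayPt → ZMod 2, w - v ∈ Cfsg.golayCode → hammingNorm v ≤ 4 → hammingNorm v = 4) := by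
  have heq : {v : Cfsg.GolayPt → ZMod 2 | hammingNorm v ≤ 4 ∧ w - v ∈ Cfsg.golayCode} = H9.leaders Cfsg.golayCode w := by
    ext v; simp [H9.leaders, H9.sub_eq_add_zmod2, add_comm w v, and_comm]
  rcases H9.leaders_dichotomy Cfsg.golayCode (by simp) H9.golayCode_finrank (fun _ h h0 => H9.golayCode_min_weight h h0) w with ⟨u, hu, hu3⟩ | ⟨h6, hall⟩
  · have hmem : u ∈ H9.leaders Cfsg.golayCode w := by simp [hu]
    rw [← heq] at hmem
    exact Or.inl ⟨by rw [heq, hu, Set.ncard_singleton], u, hu3, hmem.2⟩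
  · refine Or.inr ⟨heq ▸ h6, fun v hv hv4 => (hall v ?_).1⟩
    rw [← heq]; exact ⟨hv4, hv⟩

end Cfsg.Agent.S1635
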