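import Cfsg.Statements.S1636
import Cfsg.Agent.H9.GolayPunctured


set_option autoImplicit false
open Cfsg

namespace Cfsg.Agent.S1636

/-- The punctured length-23 code has weight distribution 0^1 7^253 8^506 11^1288 12^1288 15^506 16^253 23^1. -/
theorem result : {u : ZMod 23 → ZMod 2 | ∃ w ∈ Cfsg.golayCode, ∀ x : ZMod 23, u x = w (some x)}.ncard = 4096 ∧ {u : ZMod 23 → ZMod 2 | u ∈ {u : ZMod 23 → ZMod 2 | ∃ w ∈ Cfsg.golayCode, ∀ x : ZMod 23, u x = w (some x)} ∧ hammingNorm u = 7}.ncard = 253 ∧ {u : ZMod 23 → ZMod 2 | u ∈ {u : ZMod 23 → ZMod 2 | ∃ w ∈ Cfsg.golayCode, ∀ x : ZMod 23, u x = w (some x)} ∧ hammingNorm u = 8}.ncard = 506 ∧ {u : ZMod 23 → ZMod 2 | u ∈ {u : ZMod 23 → ZMod 2 | ∃ w ∈ Cfsg.golayCode, ∀ x : ZMod 23, u x = w (some x)} ∧ hammingNorm u = 11}.ncard = 1288 ∧ {u : ZMod 23 → ZMod 2 | u ∈ {u : ZMod 23 → ZMod 2 | ∃ w ∈ Cfsg.golayCode,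 ∀ x : ZMod 23, u x = w (some x)} ∧ hammingNorm u = 12}.ncard = 1288 ∧ {u : ZMod 23 → ZMod 2 | u ∈ {u : ZMod 23 → ZMod 2 | ∃ w ∈ Cfsg.golayCode, ∀ x : ZMod 23, u x = w (some x)} ∧ hammingNorm u = 15}.ncard = 506 ∧ {u : ZMod 23 → ZMod 2 | u ∈ {u : ZMod 23 → ZMod 2 | ∃ w ∈ Cfsg.golayCode, ∀ x : ZMod 23, u x = w (some x)} ∧ hammingNorm u = 16}.ncard = 253 ∧ ∀ u ∈ {u : ZMod 23 → ZMod 2 | ∃ w ∈ Cfsg.golayCode, ∀ x : ZMod 23, u x = w (some x)}, u ≠ 0 → 7 ≤ hammingNorm u := by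
  have hset : {u : ZMod 23 → ZMod 2 | ∃ w ∈ Cfsg.golayCode, ∀ x : ZMod 23, u x = w (some x)} = ↑H9.code23 := by
    ext u; exact (H9.mem_code23 u).symm
  rw [hset]
  have hk : ∀ k, {u : ZMod 23 → ZMod 2 | u ∈ (↑H9.code23 : Set (ZMod 23 → ZMod 2)) ∧ hammingNorm u = k}.ncard = (H9.code23.filter fun u => hammingNorm u = k).card := by
    intro k; rw [← Set.ncard_coe_finset]; congr 1; ext u; simp
  simp only [hk, Set.ncard_coe_finset, H9.card_code23]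
  obtain ⟨a, b, c, d, e, f⟩ := H9.weight_distribution23
  exact ⟨trivial, a, b, c, d, e, f, fun u hu h0 => H9.code23_min_weight hu h0⟩

end Cfsg.Agent.S1636
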