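import Cfsg.Statements.S1638
import Cfsg.Agent.H13.Duads

set_option autoImplicit false
open scoped Pointwise
open Cfsg

namespace Cfsg.Agent.S1638

open Cfsg.Agent.H13 Cfsg.Agent.H13.Data MulAction Pointwise

/-- Fix two points p ≠ q and a pair s of two further points. Among the pairs avoiding p, q and disjoint from s, exactly 30 lie in an octad together with p, q and s and exactly 160 do not; and any two pairs other than s that meet s in equally many points and agree on that octad property are carried to one another by an element of the group of the length-24 code fixing p, q and s. -/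
theorem result (p q : Cfsg.GolayPt) (hpq : p ≠ q) (s : Finset Cfsg.GolayPt) (hs : (s.card = 2 ∧ p ∉ s ∧ q ∉ s)) : {t : Finset Cfsg.GolayPt | (t.card = 2 ∧ p ∉ t ∧ q ∉ t) ∧ Disjoint s t ∧ (∃ o ∈ Cfsg.octads, p ∈ o ∧ q ∈ o ∧ s ∪ t ⊆ o)}.ncard = 30 ∧ {t : Finset Cfsg.GolayPt | (t.card = 2 ∧ p ∉ t ∧ q ∉ t) ∧ Disjoint s t ∧ ¬ (∃ o ∈ Cfsg.octads, p ∈ o ∧ q ∈ o ∧ s ∪ t ⊆ o)}.ncard = 160 ∧ ∀ t t' : Finset Cfsg.GolayPt, (t.card = 2 ∧ p ∉ t ∧ q ∉ t) → (t'.card = 2 ∧ p ∉ t' ∧ q ∉ t') → t ≠ s → t' ≠ s → (s ∩ t).card = (s ∩ t').card → ((∃ o ∈ Cfsg.octads, p ∈ o ∧ q ∈ o ∧ s ∪ t ⊆ o) ↔ (∃ o ∈ Cfsg.octads, p ∈ o ∧ q ∈ o ∧ s ∪ t' ⊆ o)) → ∃ g : Equiv.Perm Cfsg.GolayPt, g ∈ Cfsg.M24 ∧ g p = p ∧ g q = q ∧ g • s = s ∧ g • t = t' := by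
  obtain ⟨c, hc, hcp, hcq⟩ := exists_pair hpq
  have hc' := Subgroup.inv_mem _ hc
  have hd : ∀ t : Finset GolayPt, (t.card = 2 ∧ p ∉ t ∧ q ∉ t) ↔ IsDuad (c⁻¹ • t) := fun t => by
    rw [IsDuad, Finset.card_smul_finset, mem_inv_smul hcp, mem_inv_smul hcq]
  have hb : ∀ t : Finset GolayPt, (∃ o ∈ octads, p ∈ o ∧ q ∈ o ∧ s ∪ t ⊆ o) ↔
      InBlock (c⁻¹ • s) (c⁻¹ • t) := fun t => by
    constructor
    · rintro ⟨o, ho, h1, h2, h3⟩
      refine ⟨c⁻¹ • o, (H12.smul_mem_octads hc').mpr ho, (mem_inv_smul hcp o).mpr h1,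
        (mem_inv_smul hcq o).mpr h2, ?_⟩
      rw [← Finset.smul_finset_union, Finset.smul_finset_subset_smul_finset_iff]
      exact h3
    · rintro ⟨o, ho, h1, h2, h3⟩
      refine ⟨c • o, (H12.smul_mem_octads hc).mpr ho,
        (mem_inv_smul hcp (c • o)).mp (by rwa [inv_smul_smul]),
        (mem_inv_smul hcq (c • o)).mp (by rwa [inv_smul_smul]), ?_⟩
      rw [← Finset.smul_finset_subset_smul_finset_iff (a := c⁻¹), Finset.smul_finset_union,
        inv_smul_smul]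
      exact h3
  obtain ⟨⟨h30, h160⟩, hr⟩ := duad_rank ((hd s).mp hs)
  have hdisj : ∀ t : Finset GolayPt, Disjoint s t ↔ Disjoint (c⁻¹ • s) (c⁻¹ • t) := fun t => by
    rw [← Finset.card_eq_zero.trans Finset.disjoint_iff_inter_eq_empty.symm,
      ← Finset.card_eq_zero.trans Finset.disjoint_iff_inter_eq_empty.symm,
      ← Finset.card_smul_finset c⁻¹, Finset.smul_finset_inter]
  have hset : ∀ P : Prop → Prop, {t : Finset GolayPt | (t.card = 2 ∧ p ∉ t ∧ q ∉ t) ∧ Disjoint s t ∧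
      P (∃ o ∈ octads, p ∈ o ∧ q ∈ o ∧ s ∪ t ⊆ o)} =
      c • {t : Finset GolayPt | IsDuad t ∧ Disjoint (c⁻¹ • s) t ∧ P (InBlock (c⁻¹ • s) t)} := by
    intro P
    ext t
    rw [Set.mem_smul_set_iff_inv_smul_mem]
    simp only [Set.mem_ofPred_eq, hd, hdisj, hb]
  refine ⟨?_, ?_, fun t t' ht ht' _ _ hk hiff => ?_⟩
  · refine ((congrArg Set.ncard (hset fun P => P)).trans ?_)
    rw [Set.ncard_smul_set]; exact h30
  · refine ((congrArg Set.ncard (hset fun P => ¬ P)).trans ?_)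
    rw [Set.ncard_smul_set]; exact h160
  · obtain ⟨g, hg, h4, h5⟩ := hr _ _ ((hd t).mp ht) ((hd t').mp ht')
      (by rw [← Finset.smul_finset_inter, ← Finset.smul_finset_inter, Finset.card_smul_finset,
        Finset.card_smul_finset, hk])
      (by rw [← hb, ← hb]; exact hiff)
    have hg' : c * g * c⁻¹ ∈ MulAut.conj c • grp Data.g22 :=
      Subgroup.smul_mem_pointwise_smul g (MulAut.conj c) _ hg
    refine ⟨c * g * c⁻¹, (conj_g22 hc hcp hcq hg').1, (conj_g22 hc hcp hcq hg').2.1,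
      (conj_g22 hc hcp hcq hg').2.2, ?_, ?_⟩
    · rw [mul_smul, mul_smul, h4, smul_inv_smul]
    · rw [mul_smul, mul_smul, h5, smul_inv_smul]

end Cfsg.Agent.S1638
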