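import Cfsg.Statements.S1639
import Cfsg.Agent.H13.DodRank

set_option autoImplicit false
open scoped Pointwise
open Cfsg

namespace Cfsg.Agent.S1639

open Cfsg.Agent.H13 Cfsg.Agent.H13.Data MulAction Pointwise

/-- The point stabiliser acts on the 1288 dodecads through the point with rank 4 and subdegrees 1, 165, 330, 792, distinguished by intersection 4, 8, 6 with the fixed dodecad. -/
theorem result (x : Cfsg.GolayPt) (d : Finset Cfsg.GolayPt) (hd : d ∈ Cfsg.dodecads) (hx : x ∈ d) : {d' : Finset Cfsg.GolayPt | d' ∈ Cfsg.dodecads ∧ x ∈ d' ∧ (d ∩ d').card = 4}.ncard = 165 ∧ {d' : Finset Cfsg.GolayPt | d' ∈ Cfsg.dodecads ∧ x ∈ d' ∧ (d ∩ d').card = 8}.ncard = 330 ∧ {d' : Finset Cfsg.GolayPt | d' ∈ Cfsg.dodecads ∧ x ∈ d' ∧ (d ∩ d').card = 6}.ncard = 792 ∧ ∀ d' d'' : Finset Cfsg.GolayPt, d' ∈ Cfsg.dodecads → d'' ∈ Cfsg.dodecads → x ∈ d' → x ∈ d''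 → (d ∩ d').card = (d ∩ d'').card → ∃ g : Equiv.Perm Cfsg.GolayPt, g ∈ Cfsg.M24 ∧ g x = x ∧ g • d = d ∧ g • d' = d'' := by
  obtain ⟨c, hc, hcp⟩ := exists_point x
  obtain ⟨-, h2, h3⟩ := dod_rank.conj c (F' := {y | y ∈ dodecads ∧ x ∈ y}) fun y =>
    and_congr (H12.smul_mem_dodecads (Subgroup.inv_mem _ hc)).symm (mem_inv_smul hcp y).symm
  have e : ∀ k, {d' : Finset GolayPt | d' ∈ dodecads ∧ x ∈ d' ∧ (d ∩ d').card = k} =
      {y | y ∈ {y | y ∈ dodecads ∧ x ∈ y} ∧ (d ∩ y).card = k} := fun k => by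
    ext y; simp [and_assoc]
  refine ⟨by rw [e, h2 d ⟨hd, hx⟩]; decide +kernel, by rw [e, h2 d ⟨hd, hx⟩]; decide +kernel,
    by rw [e, h2 d ⟨hd, hx⟩]; decide +kernel, fun d' d'' hd' hd'' hx' hx'' h => ?_⟩
  obtain ⟨g, hg, h4, h5⟩ := h3 d ⟨hd, hx⟩ d' ⟨hd', hx'⟩ d'' ⟨hd'', hx''⟩ h
  exact ⟨g, (conj_g23 hc hcp hg).1, (conj_g23 hc hcp hg).2, h4, h5⟩

end Cfsg.Agent.S1639
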