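import Cfsg.Statements.S1641
import Cfsg.Agent.H15.Co3Suborbits

set_option autoImplicit false
open Cfsg

namespace Cfsg.Agent.S1641

/-- The third Conway group acts on the 11178 cosets of the Higman–Sims group with rank 5 and subdegrees 1, 352, 1100, 4125, 5600. -/
theorem result (u x : ↥Cfsg.leechLattice) (hu : Cfsg.sqNorm (u : Cfsg.GolayPt → ℤ) = 48) (hx : x ∈ {x : ↥Cfsg.leechLattice | Cfsg.sqNorm (x : Cfsg.GolayPt → ℤ) = 32 ∧ Cfsg.dotInt (u : Cfsg.GolayPt → ℤ) (x : Cfsg.GolayPt → ℤ) = -16}) : ∃ y₁ ∈ {x : ↥Cfsg.leechLattice | Cfsg.sqNorm (x : Cfsg.GolayPt → ℤ) = 32 ∧ Cfsg.dotInt (u : Cfsg.GolayPt → ℤ) (x : Cfsg.GolayPt → ℤ) = -16}, ∃ y₂ ∈ {x : ↥Cfsg.leechLattice | Cfsg.sqNorm (x : Cfsg.GolayPt → ℤ) = 32 ∧ Cfsg.dotInt (u : Cfsg.GolayPt → ℤ) (x : Cfsg.GolayPt → ℤ) =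 -16}, ∃ y₃ ∈ {x : ↥Cfsg.leechLattice | Cfsg.sqNorm (x : Cfsg.GolayPt → ℤ) = 32 ∧ Cfsg.dotInt (u : Cfsg.GolayPt → ℤ) (x : Cfsg.GolayPt → ℤ) = -16}, ∃ y₄ ∈ {x : ↥Cfsg.leechLattice | Cfsg.sqNorm (x : Cfsg.GolayPt → ℤ) = 32 ∧ Cfsg.dotInt (u : Cfsg.GolayPt → ℤ) (x : Cfsg.GolayPt → ℤ) = -16}, (MulAction.orbit ↥(MulAction.stabilizer ↥Cfsg.Co0 u ⊓ MulAction.stabilizer ↥Cfsg.Co0 x) y₁).ncard = 352 ∧ (MulAction.orbit ↥(MulAction.stabilizer ↥Cfsg.Co0 u ⊓ MulAction.stabilizer ↥Cfsg.Co0 x) y₂).ncard = 1100 ∧ (MulAction.orbit ↥(MulAction.stabilizer ↥Cfsg.Co0 u ⊓ MulAction.stabilizer ↥Cfsg.Co0 x) y₃).ncard = 4125 ∧ (MulAction.orbit ↥(MulAction.stabilizer ↥Cfsg.Co0 u ⊓ MulAction.stabilizer ↥Cfsg.Co0 x) y₄).ncard = 5600 ∧ {x : ↥Cfsg.leechLattice | Cfsg.sqNorm (x : Cfsg.GolayPt → ℤ)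 = 32 ∧ Cfsg.dotInt (u : Cfsg.GolayPt → ℤ) (x : Cfsg.GolayPt → ℤ) = -16} = {x} ∪ MulAction.orbit ↥(MulAction.stabilizer ↥Cfsg.Co0 u ⊓ MulAction.stabilizer ↥Cfsg.Co0 x) y₁ ∪ MulAction.orbit ↥(MulAction.stabilizer ↥Cfsg.Co0 u ⊓ MulAction.stabilizer ↥Cfsg.Co0 x) y₂ ∪ MulAction.orbit ↥(MulAction.stabilizer ↥Cfsg.Co0 u ⊓ MulAction.stabilizer ↥Cfsg.Co0 x) y₃ ∪ MulAction.orbit ↥(MulAction.stabilizer ↥Cfsg.Co0 u ⊓ MulAction.stabilizer ↥Cfsg.Co0 x) y₄ := by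
  exact H15.rank_five hu hx

end Cfsg.Agent.S1641
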