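import Cfsg.Statements.S1642
import Cfsg.Agent.H15.HSOrbits

set_option autoImplicit false
open Cfsg

namespace Cfsg.Agent.S1642

/-- Some involution of the Higman–Sims group acts without fixed points on its 100 points. -/
theorem result (v w : ↥Cfsg.leechLattice) (hv : Cfsg.sqNorm (v : Cfsg.GolayPt → ℤ) = 48) (hw : Cfsg.sqNorm (w : Cfsg.GolayPt → ℤ) = 48) (hvw : Cfsg.dotInt (v : Cfsg.GolayPt → ℤ) (w : Cfsg.GolayPt → ℤ) = -32) : ∃ g : ↥Cfsg.Co0, g • v = v ∧ g • w = w ∧ orderOf g = 2 ∧ ∀ x ∈ {x : ↥Cfsg.leechLattice | Cfsg.sqNorm (x : Cfsg.GolayPt → ℤ) = 32 ∧ Cfsg.dotInt (v : Cfsg.GolayPt → ℤ) (x : Cfsg.GolayPt → ℤ) = 24 ∧ Cfsg.dotInt (w : Cfsg.GolayPt → ℤ) (x : Cfsg.GolayPt → ℤ) = -24}, g • x ≠ x := by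
  obtain ⟨g, g1, g2, -⟩ := H15.exists_red100' hv hw hvw
  obtain ⟨t, t1, t2, t3, t4⟩ := H15.exists_invol_base
  refine ⟨g⁻¹ * t * g, by rw [mul_smul, mul_smul, g1, t1, inv_smul_eq_iff, g1],
    by rw [mul_smul, mul_smul, g2, t2, inv_smul_eq_iff, g2], ?_, fun x hx hfix => ?_⟩
  · rw [← t3]
    have : g⁻¹ * t * g = MulAut.conj g⁻¹ t := by simp [MulAut.conj_apply]
    rw [this]
    exact (MulAut.conj g⁻¹).orderOf_eq t
  · refine t4 (g • x) ?_ ?_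
    · rw [← g1, ← g2, H15.smul_mem_set100]; exact hx
    · rw [mul_smul, mul_smul, inv_smul_eq_iff] at hfix
      exact hfix

end Cfsg.Agent.S1642
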