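import Cfsg.Statements.S1667
import Cfsg.Agent.H11.McL.Recog

set_option autoImplicit false
open Cfsg

namespace Cfsg.Agent.S1667

/-- Recognition of the McLaughlin group as a rank 3 permutation group: a transitive permutation group on 275 points in which the stabiliser of a point is isomorphic to the unitary group U₄(3) and has two further orbits, of sizes 112 and 162, is isomorphic to the McLaughlin group. -/
theorem result {Ω : Type*} [Fintype Ω] [DecidableEq Ω] (hΩ : Fintype.card Ω = 275) (G : Subgroup (Equiv.Perm Ω)) [MulAction.IsPretransitive G Ω] (a : Ω) (K : Type) [Field K] [Fintype K] (hK : Fintype.card K = 9) (e : MulAction.stabilizer G a ≃* Cfsg.PSU 4 K 3) (b c : Ω) (hb : (MulAction.orbit (MulAction.stabilizer G a) b).ncard = 112) (hc : (MulAction.orbit (MulAction.stabilizer G a) c).ncard = 162) : Cfsg.Spor.IsoMcL G := by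
  obtain ⟨eX⟩ := H11.McL.X0_iso K hK
  let H : H11.McL.Hyp G a :=
    { card := hΩ
      trans := fun x => by
        obtain ⟨g, hg⟩ := MulAction.exists_smul_eq G a x
        exact ⟨g, g.2, hg⟩
      e := e.trans eX.symm
      cardX := H11.McL.card_X0' K hK
      simple := H11.McL.isSimple_X0' K hK
      b := b
      c := c
      hb := hb
      hc := hc }
  obtain ⟨L⟩ := H11.McL.Hyp.exists_labelling (H := H)
  exact L.iso

end Cfsg.Agent.S1667
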