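import Cfsg.Statements.S1669
import Cfsg.Agent.H12.RuRec.Main
import Cfsg.Agent.H12.RuRec.Other
import Cfsg.Agent.H12.RuRec.F4Iso
import Cfsg.Agent.H31.Ru.Perm

set_option autoImplicit false
open Cfsg

namespace Cfsg.Agent.S1669

/-- Recognition of the Rudvalis group as a rank 3 permutation group: a transitive permutation group on 4060 points in which the stabiliser of a point is isomorphic to the Ree group ²F₄(2) and has two further orbits, of sizes 1755 and 2304, is isomorphic to the Rudvalis group. -/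
theorem result {Ω : Type*} [Fintype Ω] [DecidableEq Ω] (hΩ : Fintype.card Ω = 4060) (G : Subgroup (Equiv.Perm Ω)) [MulAction.IsPretransitive G Ω] (a : Ω)  (e : MulAction.stabilizer G a ≃* Cfsg.Lie.twistedF4 (ZMod 2) 1) (b c : Ω) (hb : (MulAction.orbit (MulAction.stabilizer G a) b).ncard = 1755) (hc : (MulAction.orbit (MulAction.stabilizer G a) c).ncard = 2304) : Cfsg.Spor.IsoRu G := by
  have hcard : Nat.card H56.RuTits.ruPerm = 145926144000 :=
    H56.RuTits.card_ruPerm H31.Ru.lineHom H31.Ru.lineHom_injective H31.Ru.g0_mem H31.Ru.g1_mem H31.Ru.card_Ru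
  obtain ⟨ψ⟩ := H12.RuRec.Iso.exists_iso hcard
  obtain ⟨G', hG', ⟨i⟩⟩ := H12.RuRec.exists_good hcard
    (fun K hK hK' => H12.RuRec.fixes_of_card hcard K hK hK') hΩ G a (e.trans ψ) b c hb hc
  have hr := H56.RuTits.range_eq_ruPerm H31.Ru.lineHom H31.Ru.lineHom_injective H31.Ru.g0_mem H31.Ru.g1_mem
    H31.Ru.card_Ru
  exact ⟨i.trans ((MulEquiv.subgroupCongr ((H12.RuRec.eq_ruPerm hcard hG').trans hr.symm)).trans
    (MonoidHom.ofInjective H31.Ru.lineHom_injective).symm)⟩

end Cfsg.Agent.S1669
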