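import Cfsg.Statements.S1680
import Cfsg.Agent.H16.SuzH
import Cfsg.Agent.H16.SuzHOrbits

set_option autoImplicit false
open Cfsg

namespace Cfsg.Agent.S1680

/-- In the presented sporadic Suzuki group, let H be the subgroup generated by the images of a, …, f. Then H has index 1782, H has orbits of sizes 416 and 1365 on the cosets of H other than H itself (with the index 1782 this makes the action rank 3). -/
theorem result : (((Subgroup.closure ({Cfsg.Spor.Suz.a, Cfsg.Spor.Suz.b, Cfsg.Spor.Suz.c, Cfsg.Spor.Suz.d, Cfsg.Spor.Suz.e, Cfsg.Spor.Suz.f} : Set (FreeGroup Cfsg.Spor.Suz.Gen))).map (PresentedGroup.mk (Cfsg.Spor.coxRelators Cfsg.Spor.Suz.edges ∪ {r | r ∈ Cfsg.Spor.Suz.extra})))).index = 1782 ∧ ∃ q₁ q₂ : Cfsg.Spor.Suz ⧸ (((Subgroup.closure ({Cfsg.Spor.Suz.a, Cfsg.Spor.Suz.b, Cfsg.Spor.Suz.c, Cfsg.Spor.Suz.d, Cfsg.Spor.Suz.e, Cfsg.Spor.Suz.f}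 : Set (FreeGroup Cfsg.Spor.Suz.Gen))).map (PresentedGroup.mk (Cfsg.Spor.coxRelators Cfsg.Spor.Suz.edges ∪ {r | r ∈ Cfsg.Spor.Suz.extra})))), (MulAction.orbit (((Subgroup.closure ({Cfsg.Spor.Suz.a, Cfsg.Spor.Suz.b, Cfsg.Spor.Suz.c, Cfsg.Spor.Suz.d, Cfsg.Spor.Suz.e, Cfsg.Spor.Suz.f} : Set (FreeGroup Cfsg.Spor.Suz.Gen))).map (PresentedGroup.mk (Cfsg.Spor.coxRelators Cfsg.Spor.Suz.edges ∪ {r | r ∈ Cfsg.Spor.Suz.extra})))) q₁).ncard = 416 ∧ (MulAction.orbit (((Subgroup.closure ({Cfsg.Spor.Suz.a, Cfsg.Spor.Suz.b, Cfsg.Spor.Suz.c, Cfsg.Spor.Suz.d, Cfsg.Spor.Suz.e, Cfsg.Spor.Suz.f} : Set (FreeGroup Cfsg.Spor.Suz.Gen))).map (PresentedGroup.mk (Cfsg.Spor.coxRelators Cfsg.Spor.Suz.edges ∪ {r | r ∈ Cfsg.Spor.Suz.extra})))) q₂).ncard = 1365 := by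
  have hsub : H16.SuzH.sub ≤ Subgroup.closure {x | ∃ k ∈ H16.SuzH.subWords, H16.EnumData.ev H16.SuzH.val (H16.nthWord H16.SuzH.data.words k) = x} :=
    H16.SuzH.sub_eq.le
  let M := H16.SuzH.theModel
  refine ⟨H16.SuzH.index_sub, M.coset ⟨_, H16.SuzH.rep_lt_2⟩, M.coset ⟨_, H16.SuzH.rep_lt_1⟩, (M.orbit_ncard hsub H16.SuzH.orbits_ok H16.SuzH.rep_lt_2 H16.SuzH.rep_lab_2).trans H16.SuzH.count_2,
    (M.orbit_ncard hsub H16.SuzH.orbits_ok H16.SuzH.rep_lt_1 H16.SuzH.rep_lab_1).trans H16.SuzH.count_1⟩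

end Cfsg.Agent.S1680
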