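import Cfsg.Statements.S1681
import Cfsg.Agent.H16.SuzUOrder

set_option autoImplicit false
open Cfsg

namespace Cfsg.Agent.S1681

/-- In the presented sporadic Suzuki group (generators a, …, g), the subgroup generated by the images of a, b, c, d, f, g has index 22880. -/
theorem result : (((Subgroup.closure ({Cfsg.Spor.Suz.a, Cfsg.Spor.Suz.b, Cfsg.Spor.Suz.c, Cfsg.Spor.Suz.d, Cfsg.Spor.Suz.f, Cfsg.Spor.Suz.g} : Set (FreeGroup Cfsg.Spor.Suz.Gen))).map (PresentedGroup.mk (Cfsg.Spor.coxRelators Cfsg.Spor.Suz.edges ∪ {r | r ∈ Cfsg.Spor.Suz.extra})))).index = 22880 := by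
  refine Eq.trans (congrArg Subgroup.index ?_) H16.SuzOrder.uSub_index
  rw [MonoidHom.map_closure]
  apply congrArg Subgroup.closure
  ext x
  simp only [Set.image_insert_eq, Set.image_singleton, Set.mem_insert_iff, Set.mem_singleton_iff,
    Set.mem_ofPred_eq, List.mem_cons, List.not_mem_nil, or_false, exists_eq_or_imp, exists_eq_left,
    H16.SuzH.val, H16.CoxEnum.numGen, H16.SuzH.gens, List.getElem?_cons_succ,
    List.getElem?_cons_zero, PresentedGroup.of]
  constructor <;> rintro (h|h|h|h|h|h) <;> simp [h]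

end Cfsg.Agent.S1681
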