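import Cfsg.Statements.S1686
import Cfsg.Agent.H16.O7Iso

set_option autoImplicit false
open Cfsg

namespace Cfsg.Agent.S1686

/-- In the presented Fischer group Fi₂₂, the subgroup generated by the images of b, …, i is isomorphic to PΩ(7, 3), the commutator subgroup of the isometry group of the quadratic form x₀² + x₁y₁ + x₂y₂ + x₃y₃ over the integers mod 3, modulo its centre. -/
theorem result : Nonempty ((((Subgroup.closure ({Cfsg.Spor.Fi22.b, Cfsg.Spor.Fi22.c, Cfsg.Spor.Fi22.d, Cfsg.Spor.Fi22.e, Cfsg.Spor.Fi22.f, Cfsg.Spor.Fi22.g, Cfsg.Spor.Fi22.h, Cfsg.Spor.Fi22.i} : Set (FreeGroup Cfsg.Spor.Fi22.Gen))).map (PresentedGroup.mk (Cfsg.Spor.coxRelators Cfsg.Spor.Fi22.edges ∪ {r | r ∈ Cfsg.Spor.Fi22.extra})))) ≃* Cfsg.POmega (ZMod 3) (Cfsg.quadFormOdd 3 (ZMod 3))) := by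
  obtain ⟨e⟩ := H16.O7Iso.oSub_equiv
  refine ⟨(MulEquiv.subgroupCongr ?_).trans e⟩
  rw [MonoidHom.map_closure]
  apply congrArg Subgroup.closure
  ext x
  simp only [Set.image_insert_eq, Set.image_singleton, Set.mem_insert_iff, Set.mem_singleton_iff,
    Set.mem_ofPred_eq, List.mem_cons, List.not_mem_nil, or_false, exists_eq_or_imp, exists_eq_left,
    H16.Fi22H.val, H16.CoxEnum.numGen, H16.Fi22H.gens, List.getElem?_cons_succ,
    List.getElem?_cons_zero, PresentedGroup.of]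
  constructor <;> rintro (h|h|h|h|h|h|h|h) <;> simp [h]

end Cfsg.Agent.S1686
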