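import Cfsg.Statements.S1691
-- import your own Cfsg.Agent.* helpers here

set_option autoImplicit false
open Cfsg

namespace Cfsg.Agent.S1691

open Cfsg.Spor

/-- The relators of `Fi24`. -/
abbrev rels : Set (FreeGroup Fi24.Gen) := coxRelators Fi24.edges ∪ {r : FreeGroup Fi24.Gen | r ∈ Fi24.extra}

/-- The sign character: every generator goes to the non-trivial element of `ZMod 2`. -/
def sign24 : Fi24.Gen → Multiplicative (ZMod 2) := fun _ => Multiplicative.ofAdd 1

theorem sign24_rels : ∀ r ∈ rels, FreeGroup.lift sign24 r = 1 := by
  rintro r (⟨x, -, y, -, rfl⟩ | hr)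
  · rw [map_pow, map_mul, FreeGroup.lift_apply_of, FreeGroup.lift_apply_of]
    rw [show sign24 x * sign24 y = 1 from by simp only [sign24]; decide, one_pow]
  · simp only [Set.mem_ofPred_eq, Fi24.extra, List.mem_cons, List.not_mem_nil, or_false] at hr
    rcases hr with rfl | rfl <;>
      simp only [map_mul, map_pow, map_inv, FreeGroup.lift_apply_of, sign24] <;> decide

def signHom : Fi24 →* Multiplicative (ZMod 2) := PresentedGroup.toGroup sign24_rels

theorem gen_sq (x : Fi24.Gen) (hx : x ∈ coxNodes Fi24.edges) :
    (PresentedGroup.of (rels := rels) x) ^ 2 = 1 := by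
  have h : (FreeGroup.of x * FreeGroup.of x) ∈ rels := by
    left; exact ⟨x, hx, x, hx, by simp [coxLabel]⟩
  have := PresentedGroup.one_of_mem h
  rw [map_mul] at this
  rw [sq]; exact this

theorem edge_eq {A : Type*} [CommGroup A] (φ : Fi24 →* A) (x y : Fi24.Gen)
    (hx : x ∈ coxNodes Fi24.edges) (hy : y ∈ coxNodes Fi24.edges)
    (h : coxLabel Fi24.edges x y = 3) :
    φ (PresentedGroup.of x) = φ (PresentedGroup.of y) := by
  have hr : (FreeGroup.of x * FreeGroup.of y) ^ 3 ∈ rels := by
    left; exact ⟨x, hx, y, hy, by rw [h]⟩
  have h1 : φ ((PresentedGroup.of x * PresentedGroup.of y : Fi24) ^ 3) = 1 := by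
    have := PresentedGroup.one_of_mem hr
    rw [map_pow, map_mul] at this
    rw [show (PresentedGroup.of x * PresentedGroup.of y : Fi24) ^ 3 = 1 from this, map_one]
  have h2 := congrArg φ (gen_sq x hx)
  have h3 := congrArg φ (gen_sq y hy)
  simp only [map_pow, map_mul, map_one] at h1 h2 h3
  have h4 : (φ (PresentedGroup.of x) * φ (PresentedGroup.of y)) = 1 := by
    rw [mul_pow, pow_succ, h2, one_mul, pow_succ _ 2, h3, one_mul] at h1
    exact h1
  have := eq_inv_of_mul_eq_one_left h4
  rw [this, inv_eq_iff_mul_eq_one]
  rw [← sq]; exact h3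

theorem gen_eq {A : Type*} [CommGroup A] (φ : Fi24 →* A) (x : Fi24.Gen) :
    φ (PresentedGroup.of x) = φ (PresentedGroup.of Fi24.Gen.d) := by
  have e := fun p q hp hq h => edge_eq φ p q hp hq h
  have hh := e .h .d (by decide) (by decide) (by decide)
  have hc := e .c .d (by decide) (by decide) (by decide)
  have he := e .e .d (by decide) (by decide) (by decide)
  have hb := (e .b .c (by decide) (by decide) (by decide)).trans hc
  have ha := (e .a .b (by decide) (by decide) (by decide)).trans hb
  have hk := (e .k .a (by decide) (by decide) (by decide)).trans ha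
  have hl := (e .l .k (by decide) (by decide) (by decide)).trans hk
  have hf := (e .f .e (by decide) (by decide) (by decide)).trans he
  have hg := (e .g .f (by decide) (by decide) (by decide)).trans hf
  have hj := (e .j .g (by decide) (by decide) (by decide)).trans hg
  have hi := (e .i .h (by decide) (by decide) (by decide)).trans hh
  cases x <;> first | rfl | assumption

/-- The commutator subgroup of the presented group Fi₂₄ has index 2 (the presented group is Fi₂₄′:2 with Fi₂₄′ its derived subgroup). -/
theorem result : (commutator Cfsg.Spor.Fi24).index = 2 := by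
  have hd2 : (Abelianization.of (PresentedGroup.of Fi24.Gen.d : Fi24)) ^ 2 = 1 := by
    rw [← map_pow, gen_sq _ (by decide), map_one]
  have hker : signHom.ker = commutator Fi24 := by
    refine le_antisymm (fun g hg => ?_) (Abelianization.commutator_subset_ker signHom)
    rw [← Abelianization.ker_of, MonoidHom.mem_ker]
    let d := Abelianization.of (PresentedGroup.of Fi24.Gen.d : Fi24)
    let ψ : Multiplicative (ZMod 2) →* Abelianization Fi24 :=
      MonoidHom.mk' (fun z => d ^ (Multiplicative.toAdd z).val) (by
        intro a b
        rw [← pow_add]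
        exact pow_eq_pow_mod _ hd2 |>.trans (by
          rw [eq_comm, pow_eq_pow_mod _ hd2]; congr 1; simp [ZMod.val_add]))
    have hall : (Abelianization.of : Fi24 →* _) = ψ.comp signHom := by
      refine PresentedGroup.ext (fun x => ?_)
      rw [gen_eq, MonoidHom.comp_apply, show signHom (PresentedGroup.of x) = sign24 x from
        PresentedGroup.toGroup.of sign24_rels]
      show d = d ^ (1 : ZMod 2).val
      rw [show (1 : ZMod 2).val = 1 from rfl, pow_one]
    rw [hall, MonoidHom.comp_apply, MonoidHom.mem_ker.mp hg, map_one]
  have hsurj : Function.Surjective signHom := by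
    intro z
    fin_cases z
    · exact ⟨1, map_one _⟩
    · exact ⟨PresentedGroup.of Fi24.Gen.d, PresentedGroup.toGroup.of sign24_rels⟩
  rw [← hker, Subgroup.index_ker, MonoidHom.range_eq_top.mpr hsurj]
  simp [Nat.card_eq_fintype_card]

end Cfsg.Agent.S1691
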