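import Cfsg.Statements.S1692
import Cfsg.Agent.H16.ON7Order

set_option autoImplicit false
open Cfsg

namespace Cfsg.Agent.S1692

/-- In the presented O'Nan group (generators g, a, b, c, d, e, f), the subgroup generated by the images of a, …, f has index 122760. -/
theorem result : (((Subgroup.closure ({Cfsg.Spor.ON.a, Cfsg.Spor.ON.b, Cfsg.Spor.ON.c, Cfsg.Spor.ON.d, Cfsg.Spor.ON.e, Cfsg.Spor.ON.f} : Set (FreeGroup Cfsg.Spor.ON.Gen))).map (PresentedGroup.mk (Cfsg.Spor.coxRelators Cfsg.Spor.ON.edges ∪ {r | r ∈ Cfsg.Spor.ON.extra})))).index = 122760 :=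
  H16.ON7Order.index_on

end Cfsg.Agent.S1692
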