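import Cfsg.Statements.S1717
-- import your own Cfsg.Agent.* helpers here

set_option autoImplicit false
open Cfsg

namespace Cfsg.Agent.S1717

/-- The position of a basis vector in the flag order `0, 2, 3, 4, 1`. -/
def pos : Fin 5 → ℕ := ![0, 4, 1, 2, 3]

/-- Matrices with entries only strictly above the diagonal in the flag order, shifted by `k`. -/
def StrictUpper (k : ℕ) (N : Matrix (Fin 5) (Fin 5) (ZMod 2)) : Prop :=
  ∀ i j, pos j < pos i + k → N i j = 0

theorem StrictUpper.mul {k l : ℕ} {M N : Matrix (Fin 5) (Fin 5) (ZMod 2)}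
    (hM : StrictUpper k M) (hN : StrictUpper l N) : StrictUpper (k + l) (M * N) := by
  intro i j h
  rw [Matrix.mul_apply]
  refine Finset.sum_eq_zero fun m _ => ?_
  by_cases hm : pos m < pos i + k
  · rw [hM i m hm, zero_mul]
  · rw [hN m j (by omega), mul_zero]

theorem StrictUpper.pow {N : Matrix (Fin 5) (Fin 5) (ZMod 2)} (hN : StrictUpper 1 N) :
    ∀ k, StrictUpper k (N ^ k)
  | 0 => by
    intro i j h
    rw [pow_zero, Matrix.one_apply_ne]
    rintro rfl; omega
  | k + 1 => by rw [pow_succ]; exact (StrictUpper.pow hN k).mul hN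

theorem StrictUpper.pow_eight {N : Matrix (Fin 5) (Fin 5) (ZMod 2)} (hN : StrictUpper 1 N) :
    (1 + N) ^ 8 = 1 := by
  have h8 : N ^ 8 = 0 := by
    ext i j
    exact hN.pow 8 i j (by fin_cases i <;> fin_cases j <;> simp [pos])
  have : CharP (Matrix (Fin 5) (Fin 5) (ZMod 2)) 2 := inferInstance
  have : Fact (Nat.Prime 2) := ⟨Nat.prime_two⟩
  rw [show (8 : ℕ) = 2 ^ 3 from rfl, add_pow_char_pow_of_commute (p := 2) (n := 3) (Commute.one_left N),
    one_pow, show (2 : ℕ) ^ 3 = 8 from rfl, h8, add_zero]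

/-- The flag stabiliser in `SL(5, 2)`. -/
def flagSubgroup : Subgroup (Matrix.SpecialLinearGroup (Fin 5) (ZMod 2)) where
  carrier := {A | StrictUpper 1 ((A : Matrix (Fin 5) (Fin 5) (ZMod 2)) - 1)}
  one_mem' := by intro i j _; simp
  mul_mem' := by
    intro A B hA hB i j h
    have e : ((A * B : Matrix.SpecialLinearGroup (Fin 5) (ZMod 2)) : Matrix (Fin 5) (Fin 5) (ZMod 2)) - 1 =
        ((A : Matrix (Fin 5) (Fin 5) (ZMod 2)) - 1) * ((B : Matrix (Fin 5) (Fin 5) (ZMod 2)) - 1) +
          ((A : Matrix (Fin 5) (Fin 5) (ZMod 2)) - 1) + ((B : Matrix (Fin 5) (Fin 5) (ZMod 2)) - 1) := by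
      rw [Matrix.SpecialLinearGroup.coe_mul]; noncomm_ring
    rw [e, Matrix.add_apply, Matrix.add_apply, hA i j h, hB i j h,
      hA.mul hB i j (by omega), add_zero, add_zero]
  inv_mem' := by
    intro A hA
    have h8 : A ^ 8 = 1 := Subtype.ext (by
      rw [Matrix.SpecialLinearGroup.coe_pow, Matrix.SpecialLinearGroup.coe_one,
        ← StrictUpper.pow_eight hA, add_sub_cancel])
    have e : A⁻¹ = A ^ 7 := inv_eq_of_mul_eq_one_right (by rw [← pow_succ', h8])
    rw [e]
    show StrictUpper 1 _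
    rw [Matrix.SpecialLinearGroup.coe_pow]
    have hp : ∀ n : ℕ, StrictUpper 1 ((A : Matrix (Fin 5) (Fin 5) (ZMod 2)) ^ n - 1) := by
      intro n
      induction n with
      | zero => intro i j _; simp
      | succ n ih =>
        intro i j h
        have e : (A : Matrix (Fin 5) (Fin 5) (ZMod 2)) ^ (n + 1) - 1 =
          ((A : Matrix (Fin 5) (Fin 5) (ZMod 2)) ^ n - 1) * ((A : Matrix (Fin 5) (Fin 5) (ZMod 2)) - 1) +
          ((A : Matrix (Fin 5) (Fin 5) (ZMod 2)) ^ n - 1) + ((A : Matrix (Fin 5) (Fin 5) (ZMod 2)) - 1) := by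
          rw [pow_succ]; noncomm_ring
        rw [e, Matrix.add_apply, Matrix.add_apply, ih i j h, hA i j h,
          ih.mul hA i j (by omega), add_zero, add_zero]
    exact hp 7

theorem isPGroup_flagSubgroup : IsPGroup 2 flagSubgroup := by
  rintro ⟨A, hA⟩
  refine ⟨3, Subtype.ext (Subtype.ext ?_)⟩
  show ((A ^ 2 ^ 3 : Matrix.SpecialLinearGroup (Fin 5) (ZMod 2)) : Matrix (Fin 5) (Fin 5) (ZMod 2)) = 1
  rw [Matrix.SpecialLinearGroup.coe_pow, show (2 : ℕ) ^ 3 = 8 from rfl,
    ← StrictUpper.pow_eight hA, add_sub_cancel]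

theorem transvection_mem_flag {i j : Fin 5} (h : pos i < pos j) :
    ∃ A ∈ flagSubgroup, (A : Matrix (Fin 5) (Fin 5) (ZMod 2)) = Matrix.transvection i j 1 := by
  have hij : i ≠ j := by rintro rfl; omega
  refine ⟨⟨Matrix.transvection i j 1, Matrix.det_transvection_of_ne i j hij 1⟩, ?_, rfl⟩
  intro a b hab
  show (Matrix.transvection i j (1 : ZMod 2) - 1 : Matrix (Fin 5) (Fin 5) (ZMod 2)) a b = 0
  rw [Matrix.transvection, add_sub_cancel_left]
  refine Matrix.single_apply_of_ne _ _ _ _ _ ?_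
  rintro ⟨rfl, rfl⟩; omega

/-- Only `1` and the transvection centralize the flag stabiliser. -/
theorem centralizer_flag {A : Matrix.SpecialLinearGroup (Fin 5) (ZMod 2)}
    (hA : ∀ B ∈ flagSubgroup, Commute A B) (s : Matrix.SpecialLinearGroup (Fin 5) (ZMod 2))
    (hs : (s : Matrix (Fin 5) (Fin 5) (ZMod 2)) = Matrix.transvection 0 1 1) : A = 1 ∨ A = s := by
  set M : Matrix (Fin 5) (Fin 5) (ZMod 2) := (A : Matrix (Fin 5) (Fin 5) (ZMod 2))
  have hc : ∀ i j : Fin 5, pos i < pos j → Commute (Matrix.single i j (1 : ZMod 2)) M := by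
    intro i j h
    obtain ⟨B, hB, e⟩ := transvection_mem_flag h
    have := congrArg (fun X : Matrix.SpecialLinearGroup (Fin 5) (ZMod 2) =>
      (X : Matrix (Fin 5) (Fin 5) (ZMod 2))) (hA B hB).eq
    simp only [Matrix.SpecialLinearGroup.coe_mul, e, Matrix.transvection] at this
    rw [mul_add, add_mul, mul_one, one_mul] at this
    exact (add_left_cancel this).symm
  have hoff : ∀ a b : Fin 5, a ≠ b → ¬(a = 0 ∧ b = 1) → M a b = 0 := by
    intro a b hab h01
    by_cases ha : ∃ i, pos i < pos a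
    · obtain ⟨i, hi⟩ := ha
      exact Matrix.row_eq_zero_of_commute_single (hc i a hi) (Ne.symm hab)
    · by_cases hb : ∃ j, pos b < pos j
      · obtain ⟨j, hj⟩ := hb
        exact Matrix.col_eq_zero_of_commute_single (hc b j hj) hab
      · exfalso
        push Not at ha hb
        have ha' := ha 0; have hb' := hb 1
        fin_cases a <;> fin_cases b <;> simp_all [pos]
  have hdiag : ∀ a : Fin 5, M a a = M 0 0 := by
    intro a
    by_cases h : pos 0 < pos a
    · exact (Matrix.diag_eq_of_commute_single (hc 0 a h)).symm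
    · fin_cases a <;> first | rfl | exact absurd (by simp [pos]) h
  have h00 : M 0 0 = 1 := by
    rcases (show ∀ c : ZMod 2, c = 0 ∨ c = 1 by decide) (M 0 0) with h | h
    · exfalso
      have hdet : M.det = 0 := Matrix.det_eq_zero_of_row_eq_zero 2 (fun b => by
        by_cases hb : b = 2
        · subst hb; rw [hdiag, h]
        · exact hoff 2 b (Ne.symm hb) (by simp))
      have : M.det = 1 := A.2
      rw [this] at hdet; exact one_ne_zero hdet
    · exact h
  rcases (show ∀ c : ZMod 2, c = 0 ∨ c = 1 by decide) (M 0 1) with h | h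
  · left
    ext a b
    show M a b = (1 : Matrix (Fin 5) (Fin 5) (ZMod 2)) a b
    by_cases hab : a = b
    · subst hab; rw [hdiag, h00, Matrix.one_apply_eq]
    · rw [Matrix.one_apply_ne hab]
      by_cases h01 : a = 0 ∧ b = 1
      · rw [h01.1, h01.2, h]
      · exact hoff a b hab h01
  · right
    ext a b
    show M a b = (s : Matrix (Fin 5) (Fin 5) (ZMod 2)) a b
    rw [hs, Matrix.transvection, Matrix.add_apply, Matrix.single_apply]
    by_cases hab : a = b
    · subst hab; rw [hdiag, h00, Matrix.one_apply_eq, if_neg (by rintro ⟨rfl, h2⟩; simp at h2), add_zero]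
    · rw [Matrix.one_apply_ne hab, zero_add]
      by_cases h01 : a = 0 ∧ b = 1
      · rw [h01.1, h01.2, h, if_pos ⟨rfl, rfl⟩]
      · rw [if_neg (fun h2 => h01 ⟨h2.1.symm, h2.2.symm⟩)]; exact hoff a b hab h01

theorem flag_le_centralizer (s : Matrix.SpecialLinearGroup (Fin 5) (ZMod 2))
    (hs : (s : Matrix (Fin 5) (Fin 5) (ZMod 2)) = Matrix.transvection 0 1 1) :
    flagSubgroup ≤ Subgroup.centralizer ({s} : Set (Matrix.SpecialLinearGroup (Fin 5) (ZMod 2))) := by
  intro A hA
  rw [Subgroup.mem_centralizer_singleton_iff]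
  apply Subtype.ext
  show (A : Matrix (Fin 5) (Fin 5) (ZMod 2)) * _ = _ * (A : Matrix (Fin 5) (Fin 5) (ZMod 2))
  rw [hs]
  have hS : StrictUpper 4 (Matrix.single (0 : Fin 5) 1 (1 : ZMod 2)) := by
    intro i j h
    refine Matrix.single_apply_of_ne _ _ _ _ _ ?_
    rintro ⟨rfl, rfl⟩; simp [pos] at h
  have hz : ∀ X, StrictUpper 5 X → X = 0 := fun X hX => by
    ext i j; exact hX i j (by fin_cases i <;> fin_cases j <;> simp [pos])
  have h1 := hz _ (StrictUpper.mul hA hS)
  have h2 := hz _ (StrictUpper.mul hS hA)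
  rw [sub_mul, one_mul, sub_eq_zero] at h1
  rw [mul_sub, mul_one, sub_eq_zero] at h2
  rw [Matrix.transvection, mul_add, add_mul, mul_one, one_mul, h1, h2]

/-- Let G be a finite group with an involution z whose centraliser C is isomorphic to the centraliser of a transvection of SL(5, 2). Then a Sylow 2-subgroup of C, viewed in G, is a Sylow 2-subgroup of G (its index in G is odd). -/
theorem result {G : Type*} [Group G] [Finite G] (s : Matrix.SpecialLinearGroup (Fin 5) (ZMod 2)) (hs : (s : Matrix (Fin 5) (Fin 5) (ZMod 2)) = Matrix.transvection 0 1 1) (z : G) (hz : orderOf z = 2) (e : (Subgroup.centralizer ({z} : Set G)) ≃* Subgroup.centralizer ({s} : Set (Matrix.SpecialLinearGroup (Fin 5) (ZMod 2)))) (T : Sylow 2 (Subgroup.centralizer ({z} : Set G))) : ¬ 2 ∣ ((T : Subgroup (Subgroup.centralizer ({z} : Set G))).map (Subgroup.subtype (Subgroup.centralizer ({z} : Set G)))).index := by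
  have : Fact (Nat.Prime 2) := ⟨Nat.prime_two⟩
  set U' := flagSubgroup.subgroupOf
    (Subgroup.centralizer ({s} : Set (Matrix.SpecialLinearGroup (Fin 5) (ZMod 2))))
  have hU' : IsPGroup 2 U' :=
    isPGroup_flagSubgroup.of_equiv (Subgroup.subgroupOfEquivOfLe (flag_le_centralizer s hs)).symm
  -- conjugate `U'` into the image of `T`
  let P₀ : Subgroup _ := (T : Subgroup (Subgroup.centralizer ({z} : Set G))).map e.toMonoidHom
  obtain ⟨P, hP⟩ := hU'.exists_le_sylow
  let Pe : Sylow 2 (Subgroup.centralizer ({z} : Set G)) := Sylow.mapSurjective e.symm.surjective P (f := e.symm.toMonoidHom)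
  obtain ⟨g, hg⟩ := MulAction.exists_smul_eq (Subgroup.centralizer ({z} : Set G)) T Pe
  have key : ∀ y ∈ (T : Subgroup (Subgroup.centralizer ({z} : Set G))), (∀ w ∈ (T : Subgroup (Subgroup.centralizer ({z} : Set G))), Commute y w) →
      e y = 1 ∨ (e y : Matrix.SpecialLinearGroup (Fin 5) (ZMod 2)) = s := by
    intro y _ hyc
    set y' := e (g * y * g⁻¹) with hy'
    have hcomm : ∀ B ∈ flagSubgroup, Commute (y' : Matrix.SpecialLinearGroup (Fin 5) (ZMod 2)) B := by
      intro B hB
      have hBP : (⟨B, flag_le_centralizer s hs hB⟩ : Subgroup.centralizer _) ∈ (P : Subgroup _) := hP hB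
      have hBe : e.symm ⟨B, flag_le_centralizer s hs hB⟩ ∈ (Pe : Subgroup (Subgroup.centralizer ({z} : Set G))) := ⟨_, hBP, rfl⟩
      rw [← hg, Sylow.coe_subgroup_smul] at hBe
      obtain ⟨w, hw, hwe⟩ := hBe
      have h2 : Commute (g * y * g⁻¹) (g * w * g⁻¹) := by
        show _ = _
        calc g * y * g⁻¹ * (g * w * g⁻¹) = g * (y * w) * g⁻¹ := by group
          _ = g * (w * y) * g⁻¹ := by rw [(hyc w hw).eq]
          _ = g * w * g⁻¹ * (g * y * g⁻¹) := by group
      have h3 := h2.map e.toMonoidHom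
      rw [show e.toMonoidHom (g * w * g⁻¹) = ⟨B, flag_le_centralizer s hs hB⟩ from by
        rw [show g * w * g⁻¹ = e.symm ⟨B, flag_le_centralizer s hs hB⟩ from hwe]
        exact e.apply_symm_apply _] at h3
      exact congrArg Subtype.val h3.eq
    have hsc : ∀ c : ↥(Subgroup.centralizer ({s} : Set (Matrix.SpecialLinearGroup (Fin 5) (ZMod 2)))),
        Commute (c : Matrix.SpecialLinearGroup (Fin 5) (ZMod 2)) s :=
      fun c => Subgroup.mem_centralizer_singleton_iff.mp c.2
    have hback : (e y : Matrix.SpecialLinearGroup (Fin 5) (ZMod 2)) =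
        (e g : Matrix.SpecialLinearGroup (Fin 5) (ZMod 2))⁻¹ * y' * (e g : _) := by
      rw [hy', map_mul, map_mul, map_inv]; push_cast; group
    rcases centralizer_flag hcomm s hs with h | h
    · left; apply Subtype.ext; rw [hback, h]; simp
    · right; rw [hback, h, mul_assoc, ← (hsc (e g)).eq, inv_mul_cancel_left]
  have hzC : z ∈ (Subgroup.centralizer ({z} : Set G)) := Subgroup.mem_centralizer_singleton_iff.mpr rfl
  have hzc : ∀ w : (Subgroup.centralizer ({z} : Set G)), Commute (⟨z, hzC⟩ : (Subgroup.centralizer ({z} : Set G))) w := fun w =>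
    Subtype.ext (Subgroup.mem_centralizer_singleton_iff.mp w.2).symm
  have hzT : (⟨z, hzC⟩ : (Subgroup.centralizer ({z} : Set G))) ∈ (T : Subgroup (Subgroup.centralizer ({z} : Set G))) := by
    have hn : (Subgroup.zpowers (⟨z, hzC⟩ : (Subgroup.centralizer ({z} : Set G)))).Normal := ⟨fun n hn w => by
      obtain ⟨k, rfl⟩ := Subgroup.mem_zpowers_iff.mp hn
      rw [← ((hzc w).zpow_left k).eq, mul_assoc, mul_inv_cancel, mul_one]
      exact Subgroup.zpow_mem_zpowers _ k⟩
    have ho : orderOf (⟨z, hzC⟩ : (Subgroup.centralizer ({z} : Set G))) = 2 := by rw [Subgroup.orderOf_mk, hz]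
    have hp : IsPGroup 2 (Subgroup.zpowers (⟨z, hzC⟩ : (Subgroup.centralizer ({z} : Set G)))) :=
      IsPGroup.of_card (n := 1) (by rw [Nat.card_zpowers, ho, pow_one])
    exact (le_sup_left.trans (T.is_maximal' (hp.to_sup_of_normal_left T.isPGroup') le_sup_right).le)
      (Subgroup.mem_zpowers _)
  have hzne : (⟨z, hzC⟩ : (Subgroup.centralizer ({z} : Set G))) ≠ 1 := fun h => by
    have h' : z = 1 := congrArg Subtype.val h
    simp [h'] at hz
  have hez : (e ⟨z, hzC⟩ : Matrix.SpecialLinearGroup (Fin 5) (ZMod 2)) = s :=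
    (key _ hzT (fun w _ => hzc w)).resolve_left (fun h => hzne (e.injective (h.trans e.map_one.symm)))
  have hcen : ∀ y ∈ (T : Subgroup (Subgroup.centralizer ({z} : Set G))), (∀ w ∈ (T : Subgroup (Subgroup.centralizer ({z} : Set G))), Commute y w) →
      y = 1 ∨ y = ⟨z, hzC⟩ := by
    intro y hy hc
    rcases key y hy hc with h | h
    · exact Or.inl (e.injective (h.trans e.map_one.symm))
    · exact Or.inr (e.injective (Subtype.ext (h.trans hez.symm)))
  set TG := (T : Subgroup (Subgroup.centralizer ({z} : Set G))).map (Subgroup.centralizer ({z} : Set G)).subtype with hTG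
  have hTG2 : IsPGroup 2 TG := T.isPGroup'.map _
  obtain ⟨S, hS⟩ := hTG2.exists_le_sylow
  suffices hST : TG = S by show ¬ 2 ∣ TG.index; rw [hST]; exact S.not_dvd_index
  by_contra hne
  have hlt : TG.subgroupOf (S : Subgroup G) < ⊤ := lt_top_iff_ne_top.mpr fun h =>
    hne (le_antisymm hS (Subgroup.subgroupOf_eq_top.mp h))
  have hnil := S.isPGroup'.isNilpotent
  obtain ⟨n, hn, hn'⟩ := SetLike.exists_of_lt (Group.normalizerCondition_of_isNilpotent _ hlt)
  have hzTG : z ∈ TG := ⟨⟨z, hzC⟩, hzT, rfl⟩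
  have hnc : ∀ y ∈ TG, (n : G) * y * (n : G)⁻¹ ∈ TG := fun y hy =>
    (Subgroup.mem_normalizer_iff.mp hn ⟨y, hS hy⟩).mp hy
  have hncz : ∀ y ∈ TG, Commute ((n : G) * z * (n : G)⁻¹) y := by
    intro y hy
    have hy' : (n : G)⁻¹ * y * n ∈ TG := by
      have h := (Subgroup.mem_normalizer_iff.mp hn
        ⟨(n : G)⁻¹ * y * n, (S : Subgroup G).mul_mem ((S : Subgroup G).mul_mem
          ((S : Subgroup G).inv_mem n.2) (hS hy)) n.2⟩).mpr
      exact h (by show _ ∈ TG; simpa [mul_assoc] using hy)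
    obtain ⟨w, hw, hwe⟩ := hy'
    have h2 : Commute z ((n : G)⁻¹ * y * n) := hwe ▸ congrArg Subtype.val (hzc w).eq
    show _ = _
    calc (n : G) * z * (n : G)⁻¹ * y = n * (z * ((n : G)⁻¹ * y * n)) * (n : G)⁻¹ := by group
      _ = n * ((n : G)⁻¹ * y * n * z) * (n : G)⁻¹ := by rw [h2.eq]
      _ = y * ((n : G) * z * (n : G)⁻¹) := by group
  obtain ⟨w, hw, hwe⟩ := hnc z hzTG
  have hnz : (n : G) * z * (n : G)⁻¹ = z := by
    rcases hcen w hw (fun v hv => Subtype.ext (by
      have := (hncz v ⟨v, hv, rfl⟩).eq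
      rwa [← hwe] at this)) with h | h
    · exfalso
      rw [h, map_one] at hwe
      have h' : z = 1 := conj_eq_one_iff.mp hwe.symm
      simp [h'] at hz
    · rw [← hwe, h]; rfl
  have hnC : (n : G) ∈ (Subgroup.centralizer ({z} : Set G)) := Subgroup.mem_centralizer_singleton_iff.mpr
    (mul_inv_eq_iff_eq_mul.mp hnz)
  have hTS : (T : Subgroup (Subgroup.centralizer ({z} : Set G))) ≤ (S : Subgroup G).subgroupOf (Subgroup.centralizer ({z} : Set G)) := fun v hv => hS ⟨v, hv, rfl⟩
  have heq := T.is_maximal' (S.isPGroup'.comap_subtype) hTS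
  exact hn' ⟨⟨n, hnC⟩, heq.le (show (⟨n, hnC⟩ : (Subgroup.centralizer ({z} : Set G))) ∈ (S : Subgroup G).subgroupOf (Subgroup.centralizer ({z} : Set G)) from n.2), rfl⟩

end Cfsg.Agent.S1717
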