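import Cfsg.Agent.H59.HJ.FiveCount
-- import your own Cfsg.Agent.* helpers here

set_option autoImplicit false
open Cfsg

namespace Cfsg.Agent.S1722

/-- Sylow 5-structure of a group of Hall–Janko type (large-extraspecial hypothesis with Q of order 32, quotient Ω⁻(4, 2), z not weakly closed in Q, more than one class of involutions): a Sylow 5-subgroup P is its own centraliser, has order 25, its normaliser has order 300, and the subgroups of order 5 fall into exactly two conjugacy classes. -/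
theorem result {G : Type*} [Group G] [Finite G] (z : G) (hz : orderOf z = 2) (Q : Subgroup (Subgroup.centralizer ({z} : Set G))) [Q.Normal] (hF : Cfsg.generalizedFittingSubgroup (Subgroup.centralizer ({z} : Set G)) = Q) (hQ : Cfsg.IsExtraspecial 2 Q) (hcard : Nat.card Q = 2 ^ 5) (e : (Subgroup.centralizer ({z} : Set G)) ⧸ Q ≃* Cfsg.Omega (ZMod 2) (Cfsg.quadFormMinus 1 (ZMod 2) 1 1)) (hnwc : ∃ g : G, (∃ hq : g * z * g⁻¹ ∈ Subgroup.centralizer ({z} : Set G), (⟨g * z * g⁻¹, hq⟩ : Subgroup.centralizer ({z} : Set G)) ∈ Q) ∧ g * z * g⁻¹ ≠ z) (hcl : ∃ x y : G, orderOf x = 2 ∧ orderOf y = 2 ∧ ¬ IsConj x y) (P : Sylow 5 G) : Subgroup.centralizer ((P : Subgroup G) : Set G) = P ∧ Nat.card P = 25 ∧ Nat.card (Subgroup.normalizer ((P : Subgroup G) : Set G)) = 300 ∧ ∃ X Y : Subgroup G, Nat.card X = 5 ∧ Nat.card Y = 5 ∧ (∀ g : G, X.map (MulAut.conj g).toMonoidHom ≠ Y) ∧ ∀ W : Subgroup G, Nat.card W = 5 → ∃ g : G, W.map (MulAut.conj g).toMonoidHom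 = X ∨ W.map (MulAut.conj g).toMonoidHom = Y := by
  haveI : Fact (Nat.Prime 5) := ⟨by norm_num⟩
  obtain ⟨t, f, k, E, A, B, W, Φ, -, d⟩ := Cfsg.Agent.H59.HJ.exists_data z hz Q hF hQ hcard e hnwc hcl
  obtain ⟨u, P₀, hu, hu5, hCP₀, hN₀, hclass⟩ := d.split.five_classes d.loc d.five
  obtain ⟨g, hg⟩ := MulAction.exists_smul_eq G P₀ P
  refine ⟨?_, d.split.card_sylow_five d.loc P, ?_, Subgroup.zpowers u, Subgroup.zpowers f,
    by rw [Nat.card_zpowers, hu5], by rw [Nat.card_zpowers, d.five.ordf], ?_, ?_⟩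
  · refine le_antisymm (fun x hx => ?_) fun x hx => Subgroup.mem_centralizer_iff.2 fun p hp => ?_
    · rw [← hg]
      refine ⟨g⁻¹ * x * g, ?_, by simp [mul_assoc]⟩
      show g⁻¹ * x * g ∈ (P₀ : Subgroup G)
      rw [← hCP₀, Subgroup.mem_centralizer_iff]
      intro p hp
      have h1 : g * p * g⁻¹ * x = x * (g * p * g⁻¹) :=
        Subgroup.mem_centralizer_iff.1 hx _ (hg ▸ ⟨p, hp, rfl⟩)
      calc p * (g⁻¹ * x * g) = g⁻¹ * (g * p * g⁻¹ * x) * g := by group
        _ = g⁻¹ * (x * (g * p * g⁻¹)) * g := by rw [h1]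
        _ = g⁻¹ * x * g * p := by group
    · exact Subgroup.mem_centralizer_singleton_iff.1 (d.split.sylow_five_le d.loc hx hp)
  · have h := Subgroup.index_mul_card (Subgroup.normalizer ((P : Subgroup G) : Set G))
    have h₀ := Subgroup.index_mul_card (Subgroup.normalizer ((P₀ : Subgroup G) : Set G))
    have e1 : (Subgroup.normalizer ((P : Subgroup G) : Set G)).index =
        (Subgroup.normalizer ((P₀ : Subgroup G) : Set G)).index :=
      P.card_eq_index_normalizer.symm.trans P₀.card_eq_index_normalizer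
    rw [hN₀, d.split.cardG d.loc] at h₀
    rw [e1, d.split.cardG d.loc] at h
    have e2 : (Subgroup.normalizer ((P₀ : Subgroup G) : Set G)).index = 2016 := by omega
    rw [e2] at h
    omega
  · intro c hc
    rw [MonoidHom.map_zpowers] at hc
    obtain ⟨P₁, hP₁⟩ := (IsPGroup.of_card (n := 1) (by rw [Nat.card_zpowers, d.five.ordf, pow_one]) :
      IsPGroup 5 (Subgroup.zpowers f)).exists_le_sylow
    obtain ⟨g₁, hg₁⟩ := MulAction.exists_smul_eq G P₀ P₁
    have hCP₁ : Subgroup.centralizer ((P₁ : Subgroup G) : Set G) = P₁ := by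
      refine le_antisymm (fun x hx => ?_) fun x hx => Subgroup.mem_centralizer_iff.2 fun p hp =>
        Subgroup.mem_centralizer_singleton_iff.1 (d.split.sylow_five_le d.loc hx hp)
      rw [← hg₁]
      refine ⟨g₁⁻¹ * x * g₁, ?_, by simp [mul_assoc]⟩
      show g₁⁻¹ * x * g₁ ∈ (P₀ : Subgroup G)
      rw [← hCP₀, Subgroup.mem_centralizer_iff]
      intro p hp
      have h2 : g₁ * p * g₁⁻¹ * x = x * (g₁ * p * g₁⁻¹) :=
        Subgroup.mem_centralizer_iff.1 hx _ (hg₁ ▸ ⟨p, hp, rfl⟩)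
      calc p * (g₁⁻¹ * x * g₁) = g₁⁻¹ * (g₁ * p * g₁⁻¹ * x) * g₁ := by group
        _ = g₁⁻¹ * (x * (g₁ * p * g₁⁻¹)) * g₁ := by rw [h2]
        _ = g₁⁻¹ * x * g₁ * p := by group
    have hf := (d.split.f_facts d.loc d.five (hP₁ (Subgroup.mem_zpowers f)) hCP₁).1
    have h1 := congrArg (fun H : Subgroup G => Nat.card H) (Cfsg.Agent.H59.HJ.centralizer_of_zpowers hc)
    rw [hf] at h1
    rw [show (MulAut.conj c).toMonoidHom u = c * u * c⁻¹ from rfl,
      Cfsg.Agent.H59.HJ.card_centralizer_conj, (d.split.five_quot d.loc hu hu5).1] at h1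
    omega
  · intro R hR
    obtain ⟨P₂, hP₂⟩ := (IsPGroup.of_card (n := 1) (by rw [hR, pow_one]) : IsPGroup 5 R).exists_le_sylow
    obtain ⟨g₂, hg₂⟩ := MulAction.exists_smul_eq G P₂ P₀
    obtain ⟨x, hxR, hx1⟩ : ∃ x ∈ R, x ≠ 1 := by
      by_contra hcon
      push Not at hcon
      rw [(Subgroup.eq_bot_iff_forall _).2 hcon, Subgroup.card_bot] at hR
      omega
    have hx5 : orderOf x = 5 := by
      have h1 := orderOf_dvd_natCard (⟨x, hxR⟩ : R)
      rw [Subgroup.orderOf_mk, hR] at h1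
      exact ((Nat.dvd_prime (by norm_num)).1 h1).resolve_left fun h => hx1 (orderOf_eq_one_iff.1 h)
    have hRx : R = Subgroup.zpowers x := (Subgroup.eq_of_le_of_card_ge (Subgroup.zpowers_le.2 hxR)
      (by rw [hR, Nat.card_zpowers, hx5])).symm
    have hmem : g₂ * x * g₂⁻¹ ∈ (P₀ : Subgroup G) := hg₂ ▸ ⟨x, hP₂ hxR, rfl⟩
    have key : ∀ a : G, orderOf a = 5 → IsConj (g₂ * x * g₂⁻¹) a ∨ IsConj (g₂ * x * g₂⁻¹) (a ^ 2) →
        ∃ c : G, R.map (MulAut.conj c).toMonoidHom = Subgroup.zpowers a := by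
      intro a ha h
      have hsq : Subgroup.zpowers (a ^ 2) = Subgroup.zpowers a := by
        refine Subgroup.eq_of_le_of_card_ge (Subgroup.zpowers_le.2 (Subgroup.pow_mem _ (Subgroup.mem_zpowers a) 2)) ?_
        rw [Nat.card_zpowers, Nat.card_zpowers, ha, (by
          rw [Nat.Coprime.orderOf_pow (by rw [ha]; norm_num), ha] : orderOf (a ^ 2) = 5)]
      obtain ⟨b, hb, hbz⟩ : ∃ b, IsConj (g₂ * x * g₂⁻¹) b ∧ Subgroup.zpowers b = Subgroup.zpowers a :=
        h.elim (fun h => ⟨a, h, rfl⟩) fun h => ⟨a ^ 2, h, hsq⟩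
      obtain ⟨c, hc⟩ := isConj_iff.1 hb
      refine ⟨c * g₂, ?_⟩
      rw [hRx, MonoidHom.map_zpowers, ← hbz, ← hc]
      congr 1
      simp [mul_assoc]
    have hcx : g₂ * x * g₂⁻¹ ≠ 1 := fun h => hx1 (conj_eq_one_iff.1 h)
    rcases hclass _ hmem hcx with h | h | h | h
    · obtain ⟨c, hc⟩ := key u hu5 (Or.inl h); exact ⟨c, Or.inl hc⟩
    · obtain ⟨c, hc⟩ := key u hu5 (Or.inr h); exact ⟨c, Or.inl hc⟩
    · obtain ⟨c, hc⟩ := key f d.five.ordf (Or.inl h); exact ⟨c, Or.inr hc⟩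
    · obtain ⟨c, hc⟩ := key f d.five.ordf (Or.inr h); exact ⟨c, Or.inr hc⟩

end Cfsg.Agent.S1722
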