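import Cfsg.Agent.H59.HJ.ThreeSylow
import Cfsg.Agent.H58.ExtraspecialCongr
-- import your own Cfsg.Agent.* helpers here

set_option autoImplicit false
open Cfsg

namespace Cfsg.Agent.S1723

/-- Sylow 3-structure of a group of Hall–Janko type (large-extraspecial hypothesis with Q of order 32, quotient Ω⁻(4, 2), z not weakly closed in Q, more than one class of involutions): a Sylow 3-subgroup P is extraspecial of order 27, its normaliser has order 216, and the elements of order 3 form exactly two conjugacy classes. -/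
theorem result {G : Type*} [Group G] [Finite G] (z : G) (hz : orderOf z = 2) (Q : Subgroup (Subgroup.centralizer ({z} : Set G))) [Q.Normal] (hF : Cfsg.generalizedFittingSubgroup (Subgroup.centralizer ({z} : Set G)) = Q) (hQ : Cfsg.IsExtraspecial 2 Q) (hcard : Nat.card Q = 2 ^ 5) (e : (Subgroup.centralizer ({z} : Set G)) ⧸ Q ≃* Cfsg.Omega (ZMod 2) (Cfsg.quadFormMinus 1 (ZMod 2) 1 1)) (hnwc : ∃ g : G, (∃ hq : g * z * g⁻¹ ∈ Subgroup.centralizer ({z} : Set G), (⟨g * z * g⁻¹, hq⟩ : Subgroup.centralizer ({z} : Set G)) ∈ Q) ∧ g * z * g⁻¹ ≠ z) (hcl : ∃ x y : G, orderOf x = 2 ∧ orderOf y = 2 ∧ ¬ IsConj x y) (P : Sylow 3 G) : Cfsg.IsExtraspecial 3 (P : Subgroup G) ∧ Nat.card P = 27 ∧ Nat.card (Subgroup.normalizer ((P : Subgroup G) : Set G)) = 216 ∧ ∃ a b : G, orderOf a = 3 ∧ orderOf b = 3 ∧ ¬ IsConj a b ∧ ∀ c : G, orderOf c = 3 → IsConj c a ∨ IsConj c b := by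
  haveI : Fact (Nat.Prime 3) := ⟨Nat.prime_three⟩
  obtain ⟨t, f, k, E, A, B, W, Φ, F, d⟩ := Cfsg.Agent.H59.HJ.exists_data z hz Q hF hQ hcard e hnwc hcl
  obtain ⟨g, D⟩ := d.split.exists_three d.loc F
  obtain ⟨w, P₀, hw, hwg, hEx, hN₀, hclass⟩ := d.split.three_classes d.loc d.five D
  obtain ⟨c, hc⟩ := MulAction.exists_smul_eq G P₀ P
  refine ⟨Cfsg.Agent.H58.isExtraspecial_congr (P₀.equiv P) hEx, d.split.card_sylow_three d.loc P, ?_,
    w, g, hw, D.ord, hwg, fun x hx => ?_⟩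
  · have h := Subgroup.index_mul_card (Subgroup.normalizer ((P : Subgroup G) : Set G))
    have h₀ := Subgroup.index_mul_card (Subgroup.normalizer ((P₀ : Subgroup G) : Set G))
    have e1 : (Subgroup.normalizer ((P : Subgroup G) : Set G)).index =
        (Subgroup.normalizer ((P₀ : Subgroup G) : Set G)).index :=
      P.card_eq_index_normalizer.symm.trans P₀.card_eq_index_normalizer
    rw [hN₀, d.split.cardG d.loc] at h₀
    rw [e1, d.split.cardG d.loc] at h
    have e2 : (Subgroup.normalizer ((P₀ : Subgroup G) : Set G)).index = 2800 := by omega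
    rw [e2] at h
    omega
  · obtain ⟨P₁, hP₁⟩ := (IsPGroup.of_card (n := 1) (by rw [Nat.card_zpowers, hx, pow_one]) :
      IsPGroup 3 (Subgroup.zpowers x)).exists_le_sylow
    obtain ⟨c', hc'⟩ := MulAction.exists_smul_eq G P₁ P₀
    have hm : c' * x * c'⁻¹ ∈ (P₀ : Subgroup G) := hc' ▸ ⟨x, hP₁ (Subgroup.mem_zpowers x), rfl⟩
    have hne : c' * x * c'⁻¹ ≠ 1 := fun e => by
      rw [conj_eq_one_iff] at e; rw [e, orderOf_one] at hx; norm_num at hx
    have hxc : IsConj x (c' * x * c'⁻¹) := isConj_iff.2 ⟨c', rfl⟩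
    exact (hclass _ hm hne).symm.imp hxc.trans hxc.trans

end Cfsg.Agent.S1723
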