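import Cfsg.Statements.S1753

set_option autoImplicit false
universe u
open Cfsg

namespace Cfsg.Agent.S1753

/-- Let K be any property of groups. (1) If G is a minimal counterexample relative to K — a finite non-abelian simple group not satisfying K such that every finite non-abelian simple group of smaller order satisfies K — then every proper subgroup of G is a K-group (all its non-abelian simple sections satisfy K), since such sections have smaller order than G. (2) Consequently (induction on the order), if every finite non-abelian simple group all of whose proper subgroups are K-groups satisfies K, then every finite non-abelian simple group satisfies K. -/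
theorem result (K : ∀ (X : Type u) [Group X], Prop) :
    (∀ (G : Type u) [Group G], Cfsg.IsMinCounterexampleWith K G → Cfsg.IsKProperWith K G) ∧
      ((∀ (X : Type u) [Group X] [Finite X], IsSimpleGroup X → ¬ IsMulCommutative X → Cfsg.IsKProperWith K X → K X) →
        ∀ (G : Type u) [Group G] [Finite G], IsSimpleGroup G → ¬ IsMulCommutative G → K G) := by
  have sec : ∀ (G : Type u) [Group G] [Finite G],
      (∀ (X : Type u) [Group X] [Finite X],
        IsSimpleGroup X → ¬ IsMulCommutative X → Nat.card X < Nat.card G → K X) →
      Cfsg.IsKProperWith K G := by
    intro G _ _ hG H hH H' N _ hs hc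
    refine hG _ hs hc (lt_of_le_of_lt ?_ (?_ : Nat.card H < Nat.card G))
    · exact le_trans (Nat.le_of_dvd Nat.card_pos (Subgroup.card_quotient_dvd_card N))
        (Nat.le_of_dvd Nat.card_pos (Subgroup.card_subgroup_dvd_card H'))
    · exact lt_of_le_of_ne (Subgroup.card_le_card_group H)
        (fun h => hH (Subgroup.eq_top_of_card_eq H h))
  refine ⟨fun G _ hG => ?_, fun h => ?_⟩
  · haveI := hG.1
    exact sec G hG.2.2.2.2
  · suffices ∀ (n : ℕ) (G : Type u) [Group G] [Finite G],
        Nat.card G = n → IsSimpleGroup G → ¬ IsMulCommutative G → K G from
      fun G _ _ hs hc => this _ G rfl hs hc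
    intro n
    induction n using Nat.strong_induction_on with
    | _ n ih =>
      intro G _ _ hn hs hc
      exact h G hs hc (sec G fun X _ _ hXs hXc hlt => ih _ (hn ▸ hlt) X rfl hXs hXc)

end Cfsg.Agent.S1753
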