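import Cfsg.Statements.S1754
import Cfsg.Agent.H58.LayerBasic

set_option autoImplicit false
open Cfsg

namespace Cfsg.Agent.S1754

/-- Let A be a standard subgroup of the finite group G (A quasisimple, C_G(A) tightly embedded of even order, A commuting elementwise with no other conjugate of itself, and N_G(A) = N_G(C_G(A))), and let t be an involution of G centralizing A. Then the centralizer of t lies in the normalizer of A; in particular A, viewed inside C_G(t), is a component of C_G(t). -/
theorem result {G : Type*} [Group G] [Finite G]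
    (A : Subgroup G) (hA : Cfsg.IsStandardSubgroup A) (t : G) (ht : orderOf t = 2) (htA : t ∈ Subgroup.centralizer (A : Set G)) :
    Subgroup.centralizer ({t} : Set G) ≤ Subgroup.normalizer (A : Set G) ∧
      Cfsg.IsComponent (A.subgroupOf (Subgroup.centralizer ({t} : Set G))) := by
  obtain ⟨hq, ⟨-, hTE⟩, -, hN⟩ := hA
  have hCN : Subgroup.centralizer ({t} : Set G) ≤ Subgroup.normalizer (A : Set G) := by
    intro g hg
    rw [hN]
    by_contra hgN
    have h := hTE g hgN
    have ht2 : t ∈ Subgroup.centralizer (A : Set G) ⊓
        (Subgroup.centralizer (A : Set G)).map (MulAut.conj g).toMonoidHom := by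
      refine ⟨htA, t, htA, ?_⟩
      show g * t * g⁻¹ = t
      rw [mul_inv_eq_iff_eq_mul]
      exact Subgroup.mem_centralizer_singleton_iff.mp hg
    have hdvd := Subgroup.orderOf_dvd_natCard _ ht2
    rw [ht] at hdvd
    exact (Nat.not_even_iff_odd.mpr h) (even_iff_two_dvd.mpr hdvd)
  have hAle : A ≤ Subgroup.centralizer ({t} : Set G) := fun a ha =>
    Subgroup.mem_centralizer_singleton_iff.mpr (Subgroup.mem_centralizer_iff.mp htA a ha)
  haveI : (A.subgroupOf (Subgroup.centralizer ({t} : Set G))).Normal :=
    (Subgroup.normal_subgroupOf_iff_le_normalizer hAle).mpr hCN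
  exact ⟨hCN, Subgroup.Normal.isSubnormal inferInstance,
    Cfsg.Agent.H58.isQuasisimple_congr (Subgroup.subgroupOfEquivOfLe hAle).symm hq⟩

end Cfsg.Agent.S1754
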