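import Cfsg.Statements.S1755
import Cfsg.Agent.H58.TI
import Cfsg.Agent.H58.LayerBasic

set_option autoImplicit false
open Cfsg

namespace Cfsg.Agent.S1755

/-- Let G be a finite group and let z be an involution of G such that Q, the generalized Fitting subgroup of the centralizer C of z, is a 2-group of symplectic type (every characteristic abelian subgroup of Q is cyclic). Let B be a characteristic abelian subgroup of Q, viewed as a subgroup of G. Then for every g in G, the conjugate of B by g either equals B or meets B trivially. -/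
theorem result {G : Type*} [Group G] [Finite G] (z : G) (hz : orderOf z = 2) (hQ : Cfsg.IsOfSymplecticType ↥(Cfsg.generalizedFittingSubgroup ↥(Subgroup.centralizer ({z} : Set G))))
    (B : Subgroup ↥(Cfsg.generalizedFittingSubgroup ↥(Subgroup.centralizer ({z} : Set G)))) (hBc : B.Characteristic) (hBa : IsMulCommutative ↥B) (g : G) :
    ((B.map (Cfsg.generalizedFittingSubgroup ↥(Subgroup.centralizer ({z} : Set G))).subtype).map (Subgroup.centralizer ({z} : Set G)).subtype).map (MulAut.conj g).toMonoidHom =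
        (B.map (Cfsg.generalizedFittingSubgroup ↥(Subgroup.centralizer ({z} : Set G))).subtype).map (Subgroup.centralizer ({z} : Set G)).subtype ∨
      ((B.map (Cfsg.generalizedFittingSubgroup ↥(Subgroup.centralizer ({z} : Set G))).subtype).map (Subgroup.centralizer ({z} : Set G)).subtype).map (MulAut.conj g).toMonoidHom ⊓
        (B.map (Cfsg.generalizedFittingSubgroup ↥(Subgroup.centralizer ({z} : Set G))).subtype).map (Subgroup.centralizer ({z} : Set G)).subtype = ⊥ := by
  set zC : ↥(Subgroup.centralizer ({z} : Set G)) := ⟨z, Subgroup.mem_centralizer_singleton_iff.mpr rfl⟩ with hzC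
  have hzc : ∀ c : ↥(Subgroup.centralizer ({z} : Set G)), c * zC = zC * c := fun c =>
    Subtype.ext (Subgroup.mem_centralizer_singleton_iff.mp c.2)
  have hzQ : zC ∈ (Cfsg.generalizedFittingSubgroup ↥(Subgroup.centralizer ({z} : Set G))) := by
    have hn : (Subgroup.zpowers zC).Normal := ⟨fun x hx c => by
      obtain ⟨k, rfl⟩ := hx
      refine ⟨k, ?_⟩
      show zC ^ k = c * zC ^ k * c⁻¹
      rw [((show Commute c zC from hzc c).zpow_right k).eq, mul_inv_cancel_right]⟩
    have hnil : Group.IsNilpotent ↥(Subgroup.zpowers zC) := by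
      haveI : IsMulCommutative ↥(Subgroup.zpowers zC) := inferInstance
      letI : CommGroup ↥(Subgroup.zpowers zC) := { mul_comm := fun x y => IsMulCommutative.is_comm.comm x y }
      infer_instance
    exact Subgroup.mem_sup_right ((le_sSup (⟨hn, hnil⟩ :
      (Subgroup.zpowers zC).Normal ∧ Group.IsNilpotent _) : _ ≤ Cfsg.fittingSubgroup ↥(Subgroup.centralizer ({z} : Set G)))
        (Subgroup.mem_zpowers zC))
  -- the involution of every nontrivial element of `B` is `z`
  have hkey : ∀ b ∈ B, b ≠ 1 → ∃ k : ℤ, ((b ^ k : ↥(Cfsg.generalizedFittingSubgroup ↥(Subgroup.centralizer ({z} : Set G)))) : ↥(Subgroup.centralizer ({z} : Set G))) = zC := by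
    intro b hb hb1
    haveI := hBc
    haveI := hBa
    set W := B ⊔ Subgroup.center ↥(Cfsg.generalizedFittingSubgroup ↥(Subgroup.centralizer ({z} : Set G))) with hW
    have hWc : W.Characteristic := by
      refine Subgroup.characteristic_iff_map_le.mpr fun φ => ?_
      rw [hW, Subgroup.map_sup]
      exact sup_le_sup (Subgroup.characteristic_iff_map_le.mp inferInstance φ)
        (Subgroup.characteristic_iff_map_le.mp inferInstance φ)
    have hWa : IsMulCommutative ↥W := by
      refine ⟨⟨?_⟩⟩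
      rintro ⟨x, hx⟩ ⟨y, hy⟩
      refine Subtype.ext ?_
      show x * y = y * x
      have hx' : x ∈ ((B ⊔ Subgroup.center ↥(Cfsg.generalizedFittingSubgroup ↥(Subgroup.centralizer ({z} : Set G))) : Subgroup ↥(Cfsg.generalizedFittingSubgroup ↥(Subgroup.centralizer ({z} : Set G)))) : Set ↥(Cfsg.generalizedFittingSubgroup ↥(Subgroup.centralizer ({z} : Set G)))) := hx
      have hy' : y ∈ ((B ⊔ Subgroup.center ↥(Cfsg.generalizedFittingSubgroup ↥(Subgroup.centralizer ({z} : Set G))) : Subgroup ↥(Cfsg.generalizedFittingSubgroup ↥(Subgroup.centralizer ({z} : Set G)))) : Set ↥(Cfsg.generalizedFittingSubgroup ↥(Subgroup.centralizer ({z} : Set G)))) := hy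
      rw [Subgroup.coe_mul_of_right_le_normalizer_left _ _
        (fun u _ => (Subgroup.normalizer_eq_top (H := B)).ge trivial)] at hx' hy'
      obtain ⟨b1, hb1', c1, hc1, rfl⟩ := hx'
      obtain ⟨b2, hb2', c2, hc2, rfl⟩ := hy'
      have hbb : b1 * b2 = b2 * b1 :=
        congrArg Subtype.val (IsMulCommutative.is_comm.comm (⟨b1, hb1'⟩ : ↥B) ⟨b2, hb2'⟩)
      have e1 := Subgroup.mem_center_iff.mp hc1
      have e2 := Subgroup.mem_center_iff.mp hc2
      calc b1 * c1 * (b2 * c2) = b1 * b2 * (c1 * c2) := by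
            rw [mul_assoc b1 c1, ← mul_assoc c1 b2, ← e1 b2]; group
        _ = b2 * b1 * (c2 * c1) := by rw [hbb, e2 c1]
        _ = b2 * c2 * (b1 * c1) := by
            rw [mul_assoc b2 c2, ← mul_assoc c2 b1, ← e2 b1]; group
    haveI := hQ.2 W hWc hWa
    obtain ⟨w, hw⟩ := IsCyclic.exists_generator (α := ↥W)
    have hzW : (⟨zC, hzQ⟩ : ↥(Cfsg.generalizedFittingSubgroup ↥(Subgroup.centralizer ({z} : Set G)))) ∈ W := Subgroup.mem_sup_right
      (Subgroup.mem_center_iff.mpr fun q => Subtype.ext (hzc q.1))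
    obtain ⟨m, hm⟩ := IsPGroup.iff_orderOf.mp hQ.1 b
    have hbW : b ∈ W := Subgroup.mem_sup_left hb
    have hm1 : 1 ≤ m := by
      rcases Nat.eq_zero_or_pos m with rfl | h
      · exact absurd (orderOf_eq_one_iff.mp (by simpa using hm)) hb1
      · exact h
    set u : ↥W := ⟨b, hbW⟩ ^ 2 ^ (m - 1) with hu
    have hu2 : orderOf u = 2 := by
      rw [hu, orderOf_pow' _ (by positivity), Subgroup.orderOf_mk, hm,
        Nat.gcd_eq_right (pow_dvd_pow 2 (Nat.sub_le m 1)), Nat.pow_div (Nat.sub_le m 1) two_pos,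
        Nat.sub_sub_self hm1, pow_one]
    have hz2 : orderOf (⟨⟨zC, hzQ⟩, hzW⟩ : ↥W) = 2 := by
      rw [Subgroup.orderOf_mk, Subgroup.orderOf_mk, hzC, Subgroup.orderOf_mk, hz]
    classical
    haveI : Fintype ↥W := Fintype.ofFinite _
    have hcard := IsCyclic.card_orderOf_eq_totient (α := ↥W) (d := 2) (by
      rw [← Nat.card_eq_fintype_card, ← hu2]; exact orderOf_dvd_natCard u)
    rw [Nat.totient_two, Finset.card_eq_one] at hcard
    obtain ⟨v, hv⟩ := hcard
    have huz : u = ⟨⟨zC, hzQ⟩, hzW⟩ := by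
      have h1 : u ∈ ({v} : Finset ↥W) := hv ▸ Finset.mem_filter.mpr ⟨Finset.mem_univ _, hu2⟩
      have h2 : (⟨⟨zC, hzQ⟩, hzW⟩ : ↥W) ∈ ({v} : Finset ↥W) :=
        hv ▸ Finset.mem_filter.mpr ⟨Finset.mem_univ _, hz2⟩
      rw [Finset.mem_singleton] at h1 h2
      rw [h1, h2]
    refine ⟨(2 ^ (m - 1) : ℕ), ?_⟩
    have := congrArg (fun x : ↥W => ((x : ↥(Cfsg.generalizedFittingSubgroup ↥(Subgroup.centralizer ({z} : Set G)))) : ↥(Subgroup.centralizer ({z} : Set G)))) huz
    rw [zpow_natCast]
    simpa [hu] using this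
  set BG := (B.map (Cfsg.generalizedFittingSubgroup ↥(Subgroup.centralizer ({z} : Set G))).subtype).map (Subgroup.centralizer ({z} : Set G)).subtype with hBG
  have hQn : (Cfsg.generalizedFittingSubgroup ↥(Subgroup.centralizer ({z} : Set G))).Normal := by
    rw [Cfsg.generalizedFittingSubgroup]
    have h1 : (Cfsg.layer ↥(Subgroup.centralizer ({z} : Set G))).Characteristic := Cfsg.Agent.H58.layer_characteristic ↥(Subgroup.centralizer ({z} : Set G))
    have h2 : (Cfsg.fittingSubgroup ↥(Subgroup.centralizer ({z} : Set G))).Normal := Subgroup.sSup_normal _ fun _ h => h.1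
    exact Subgroup.sup_normal _ _
  haveI := hQn
  haveI := hBc
  have hBn : (B.map (Cfsg.generalizedFittingSubgroup ↥(Subgroup.centralizer ({z} : Set G))).subtype).Normal := ConjAct.normal_of_characteristic_of_normal
  have hCN : (Subgroup.centralizer ({z} : Set G)) ≤ Subgroup.normalizer (BG : Set G) := by
    intro c hc
    refine Cfsg.Agent.H58.mem_normalizer_of_conj_mem ?_
    rintro _ ⟨b, hb, rfl⟩
    exact ⟨_, hBn.conj_mem b hb ⟨c, hc⟩, rfl⟩
  by_cases h : BG.map (MulAut.conj g).toMonoidHom ⊓ BG = ⊥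
  · exact Or.inr h
  · refine Or.inl (Cfsg.Agent.H58.mem_normalizer_iff_map_conj.mp (hCN ?_))
    obtain ⟨x, ⟨hx1, hx2⟩, hxne⟩ := (Subgroup.bot_or_exists_ne_one _).resolve_left h
    obtain ⟨y, hy, hyx⟩ := hx1
    have hyne : y ≠ 1 := by rintro rfl; exact hxne (by rw [← hyx]; simp)
    obtain ⟨_, ⟨b, hb, rfl⟩, rfl⟩ := hy
    obtain ⟨_, ⟨b', hb', rfl⟩, rfl⟩ := hx2
    have hb1 : b ≠ 1 := by rintro rfl; exact hyne (by simp)
    have hb1' : b' ≠ 1 := by rintro rfl; exact hxne (by simp)
    obtain ⟨k, hk⟩ := hkey b hb hb1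
    obtain ⟨k', hk'⟩ := hkey b' hb' hb1'
    have hkG : (((b : ↥(Cfsg.generalizedFittingSubgroup ↥(Subgroup.centralizer ({z} : Set G)))) : ↥(Subgroup.centralizer ({z} : Set G))) : G) ^ k = z := by
      have := congrArg (fun u : ↥(Subgroup.centralizer ({z} : Set G)) => (u : G)) hk
      simpa [hzC] using this
    have hkG' : (((b' : ↥(Cfsg.generalizedFittingSubgroup ↥(Subgroup.centralizer ({z} : Set G)))) : ↥(Subgroup.centralizer ({z} : Set G))) : G) ^ k' = z := by
      have := congrArg (fun u : ↥(Subgroup.centralizer ({z} : Set G)) => (u : G)) hk'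
      simpa [hzC] using this
    rw [Subgroup.mem_centralizer_singleton_iff]
    have hconj : g * (((b : ↥(Cfsg.generalizedFittingSubgroup ↥(Subgroup.centralizer ({z} : Set G)))) : ↥(Subgroup.centralizer ({z} : Set G))) : G) * g⁻¹ = (((b' : ↥(Cfsg.generalizedFittingSubgroup ↥(Subgroup.centralizer ({z} : Set G)))) : ↥(Subgroup.centralizer ({z} : Set G))) : G) := by simpa using hyx
    have h1 : g * z * g⁻¹ = (((b' : ↥(Cfsg.generalizedFittingSubgroup ↥(Subgroup.centralizer ({z} : Set G)))) : ↥(Subgroup.centralizer ({z} : Set G))) : G) ^ k := 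
      (congrArg (fun u => g * u * g⁻¹) hkG).symm.trans (conj_zpow.symm.trans (congrArg (fun u => u ^ k) hconj))
    -- `g z g⁻¹` is an involution of the cyclic group generated by `b'`
    have h2 : g * z * g⁻¹ = z := by
      rw [h1]
      have hne : ((b' ^ k : ↥(Cfsg.generalizedFittingSubgroup ↥(Subgroup.centralizer ({z} : Set G))))) ≠ 1 := by
        intro h3
        have h4 : (((b' : ↥(Cfsg.generalizedFittingSubgroup ↥(Subgroup.centralizer ({z} : Set G)))) : ↥(Subgroup.centralizer ({z} : Set G))) : G) ^ k = 1 := by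
          have := congrArg (fun u : ↥(Cfsg.generalizedFittingSubgroup ↥(Subgroup.centralizer ({z} : Set G))) => ((u : ↥(Subgroup.centralizer ({z} : Set G))) : G)) h3
          simpa using this
        have h5 : z = 1 := by simpa [h4] using h1
        rw [h5, orderOf_one] at hz
        exact absurd hz (by norm_num)
      obtain ⟨j, hj⟩ := hkey (b' ^ k) (B.zpow_mem hb' k) hne
      have hjG : ((((b' : ↥(Cfsg.generalizedFittingSubgroup ↥(Subgroup.centralizer ({z} : Set G)))) : ↥(Subgroup.centralizer ({z} : Set G))) : G) ^ k) ^ j = z := by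
        have := congrArg (fun u : ↥(Subgroup.centralizer ({z} : Set G)) => (u : G)) hj
        simpa [hzC] using this
      have hz1 : z ^ 2 = 1 := hz ▸ pow_orderOf_eq_one z
      set w := (((b' : ↥(Cfsg.generalizedFittingSubgroup ↥(Subgroup.centralizer ({z} : Set G)))) : ↥(Subgroup.centralizer ({z} : Set G))) : G) ^ k with hw
      have hw2 : w ^ (2 : ℕ) = 1 := by rw [← h1, conj_pow, hz1]; group
      have hw2' : w ^ (2 : ℤ) = 1 := by rw [show (2 : ℤ) = ((2 : ℕ) : ℤ) from rfl, zpow_natCast]; exact hw2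
      rcases Int.even_or_odd j with ⟨i, hi⟩ | ⟨i, hi⟩
      · exfalso
        rw [hi, ← two_mul, zpow_mul, hw2', one_zpow] at hjG
        rw [← hjG, orderOf_one] at hz
        exact absurd hz (by norm_num)
      · rwa [hi, zpow_add, zpow_mul, hw2', one_zpow, one_mul, zpow_one] at hjG
    exact mul_inv_eq_iff_eq_mul.mp h2

end Cfsg.Agent.S1755
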