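import Cfsg.Statements.S1756
import Cfsg.Agent.H18.Extraspecial

set_option autoImplicit false
open Cfsg

namespace Cfsg.Agent.S1756

/-- Let Q be an extraspecial 2-subgroup of the finite group G (special with centre of order 2) and t an involution of G normalizing Q such that the centralizer of t in Q has index at most 2 in Q. Then t lies in the product of Q with the centralizer of Q. -/
theorem result {G : Type*} [Group G] [Finite G] (Q : Subgroup G)
    (hQ : Cfsg.IsExtraspecial 2 ↥Q) (t : G) (ht : orderOf t = 2) (htN : t ∈ Subgroup.normalizer (Q : Set G))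
    (hi : (Subgroup.centralizer ({t} : Set G) ⊓ Q).relIndex Q ≤ 2) :
    t ∈ Q ⊔ Subgroup.centralizer (Q : Set G) := by
  haveI : Fact (Nat.Prime 2) := ⟨Nat.prime_two⟩
  obtain ⟨z, hz1, hzz, hzc⟩ := Cfsg.Agent.H18.center_eq_pair hQ
  have ht2 : t * t = 1 := by rw [← pow_two, ← ht, pow_orderOf_eq_one]
  let τ : ↥Q → ↥Q := fun q => ⟨t * q * t⁻¹, (Subgroup.mem_normalizer_iff.mp htN q).mp q.2⟩
  have τmul : ∀ a b, τ (a * b) = τ a * τ b := fun a b => Subtype.ext (by simp [τ, mul_assoc])
  have τinv : ∀ a, τ (τ a) = a := fun a => Subtype.ext (by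
    show t * (t * a.1 * t⁻¹) * t⁻¹ = a.1
    calc t * (t * a.1 * t⁻¹) * t⁻¹ = (t * t) * a.1 * (t * t)⁻¹ := by group
      _ = a.1 := by rw [ht2]; simp)
  set M : Subgroup ↥Q := (Subgroup.centralizer ({t} : Set G) ⊓ Q).subgroupOf Q with hM
  have hMτ : ∀ m, m ∈ M ↔ τ m = m := fun m => by
    rw [hM, Subgroup.mem_subgroupOf]
    refine ⟨fun h => Subtype.ext ?_, fun h => ⟨?_, m.2⟩⟩
    · show t * m.1 * t⁻¹ = m.1
      rw [mul_inv_eq_iff_eq_mul]
      exact (Subgroup.mem_centralizer_singleton_iff.mp h.1).symm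
    · exact Subgroup.mem_centralizer_singleton_iff.mpr
        (mul_inv_eq_iff_eq_mul.mp (congrArg Subtype.val h)).symm
  have hτz : τ z = z := by
    have hcen : τ z ∈ Subgroup.center ↥Q := Subgroup.mem_center_iff.mpr fun q => by
      have h := Subgroup.mem_center_iff.mp ((hzc z).mpr (Or.inr rfl)) (τ q)
      have h' := congrArg τ h
      rw [τmul, τmul, τinv] at h'
      exact h'
    rcases (hzc _).mp hcen with h | h
    · exfalso
      refine hz1 ?_
      have := congrArg τ h
      rw [τinv] at this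
      rw [this]
      exact Subtype.ext (by simp [τ])
    · exact h
  have hMi : M.index ≤ 2 := hi
  by_cases hall : ∀ q : ↥Q, q ∈ M
  · refine Subgroup.mem_sup_right (Subgroup.mem_centralizer_iff.mpr fun q hq => ?_)
    exact (mul_inv_eq_iff_eq_mul.mp (congrArg Subtype.val ((hMτ ⟨q, hq⟩).mp (hall _)))).symm
  push Not at hall
  obtain ⟨q, hq⟩ := hall
  have hidx : M.index = 2 := by
    have h0 : M.index ≠ 0 := Subgroup.index_ne_zero_of_finite
    have h1 : M.index ≠ 1 := fun h => hq (Subgroup.index_eq_one.mp h ▸ Subgroup.mem_top q)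
    omega
  haveI : M.Normal := Subgroup.normal_of_index_eq_two hidx
  have hsplit : ∀ x : ↥Q, x ∉ M → ∃ m ∈ M, x = q * m := fun x hx =>
    ⟨q⁻¹ * x, by
      rw [Subgroup.mul_mem_iff_of_index_two hidx, inv_mem_iff]
      exact iff_of_false hq hx, by group⟩
  set c := q⁻¹ * τ q with hc
  have hτq : τ q = q * c := by rw [hc]; group
  have hcM : ∀ m ∈ M, c * m = m * c := by
    intro m hm
    have h1 : q * m * q⁻¹ ∈ M := (inferInstance : M.Normal).conj_mem m hm q
    have h2 : τ q * m * (τ q)⁻¹ = q * m * q⁻¹ := by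
      have h3 := (hMτ _).mp h1
      have h4 : τ q⁻¹ = (τ q)⁻¹ := eq_inv_of_mul_eq_one_left (by
        rw [← τmul, inv_mul_cancel]; exact Subtype.ext (by simp [τ]))
      rwa [τmul, τmul, (hMτ m).mp hm, h4] at h3
    rw [hτq] at h2
    calc c * m = q⁻¹ * ((q * c) * m * (q * c)⁻¹) * q * c := by group
      _ = q⁻¹ * (q * m * q⁻¹) * q * c := by rw [h2]
      _ = m * c := by group
  have hqq : q * q ∈ M := by
    rw [Subgroup.mul_mem_iff_of_index_two hidx]
  have hcqc : c * q * c = q := by
    have h1 := (hMτ _).mp hqq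
    rw [τmul, hτq] at h1
    calc c * q * c = q⁻¹ * ((q * c) * (q * c)) := by group
      _ = q⁻¹ * (q * q) := by rw [h1]
      _ = q := by group
  have hcent : (∀ m ∈ M, c * m = m * c) → c * q = q * c → c ∈ Subgroup.center ↥Q := by
    intro h1 h2
    refine Subgroup.mem_center_iff.mpr fun x => ?_
    by_cases hx : x ∈ M
    · exact (h1 x hx).symm
    · obtain ⟨m, hm, rfl⟩ := hsplit x hx
      rw [mul_assoc, ← h1 m hm, ← mul_assoc, ← h2, mul_assoc]
  have hzM : z ∈ M := (hMτ z).mpr hτz
  have hcM' : c ∈ M := by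
    by_contra hcn
    obtain ⟨m, hm, hcm⟩ := hsplit c hcn
    have h2 : c * q = q * c := by
      have h3 := hcM m hm
      rw [hcm] at h3 ⊢
      rw [← mul_assoc m q m] at h3
      have h4 : q * m = m * q := mul_right_cancel h3
      calc q * m * q = q * (m * q) := by group
        _ = q * (q * m) := by rw [h4]
    rcases (hzc c).mp (hcent hcM h2) with h | h
    · exact hcn (h ▸ M.one_mem)
    · exact hcn (h ▸ hzM)
  have hc2 : c * c = 1 := by
    have h1 := τinv q
    rw [hτq, τmul, (hMτ c).mp hcM', hτq, mul_assoc] at h1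
    exact mul_eq_left.mp h1
  have hcq : c * q = q * c := by
    calc c * q = c * q * (c * c) := by rw [hc2, mul_one]
      _ = (c * q * c) * c := by group
      _ = q * c := by rw [hcqc]
  have hcz : c = z := by
    refine ((hzc c).mp (hcent hcM hcq)).resolve_left fun h => ?_
    exact hq ((hMτ q).mpr (by rw [hτq, h, mul_one]))
  have hZM : Subgroup.center ↥Q ≤ M := fun x hx => by
    rcases (hzc x).mp hx with rfl | rfl
    · exact M.one_mem
    · exact hzM
  obtain ⟨x, hxC, hxZ⟩ : ∃ x ∈ Subgroup.centralizer (M : Set ↥Q), x ∉ Subgroup.center ↥Q := by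
    by_contra hno
    push Not at hno
    have h1 := Cfsg.Agent.H18.index_centralizer_mul_le hQ M hZM
    have h2 : (Subgroup.center ↥Q).index ≤ (Subgroup.centralizer (M : Set ↥Q)).index :=
      Nat.le_of_dvd (Nat.pos_of_ne_zero Subgroup.index_ne_zero_of_finite) (Subgroup.index_dvd_of_le hno)
    have h3 := Subgroup.card_mul_index M
    have h4 := Subgroup.card_mul_index (Subgroup.center ↥Q)
    rw [hidx] at h3
    rw [hQ.2] at h4
    have h5 : 0 < Nat.card ↥M := Nat.card_pos
    omega
  have hxq : x * q * x⁻¹ = q * z := by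
    set d := q⁻¹ * (x * q * x⁻¹) with hd
    have hdc : d ∈ Subgroup.center ↥Q := by
      have := Cfsg.Agent.H18.commutator_mem_center hQ q⁻¹ x
      simpa [hd, commutatorElement_def, mul_assoc] using this
    have hxqd : x * q * x⁻¹ = q * d := by rw [hd]; group
    rcases (hzc d).mp hdc with h | h
    · exfalso
      rw [h, mul_one] at hxqd
      refine hxZ (Subgroup.mem_center_iff.mpr fun y => ?_)
      have hq' : q * x = x * q := (mul_inv_eq_iff_eq_mul.mp hxqd).symm
      by_cases hy : y ∈ M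
      · exact Subgroup.mem_centralizer_iff.mp hxC y hy
      · obtain ⟨m, hm, rfl⟩ := hsplit y hy
        rw [mul_assoc, Subgroup.mem_centralizer_iff.mp hxC m hm, ← mul_assoc, hq', mul_assoc]
    · rw [hxqd, h]
  have hact : ∀ y : ↥Q, τ y = x * y * x⁻¹ := by
    have hMact : ∀ m ∈ M, τ m = x * m * x⁻¹ := fun m hm => by
      rw [(hMτ m).mp hm, eq_mul_inv_iff_mul_eq]
      exact Subgroup.mem_centralizer_iff.mp hxC m hm
    intro y
    by_cases hy : y ∈ M
    · exact hMact y hy
    · obtain ⟨m, hm, rfl⟩ := hsplit y hy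
      rw [τmul, hτq, hcz, hMact m hm, ← hxq]
      group
  have hxt : (x : G)⁻¹ * t ∈ Subgroup.centralizer (Q : Set G) := by
    refine Subgroup.mem_centralizer_iff.mpr fun y hy => ?_
    have h1 : t * y * t⁻¹ = x.1 * y * x.1⁻¹ := congrArg Subtype.val (hact ⟨y, hy⟩)
    calc y * ((x : G)⁻¹ * t) = (x : G)⁻¹ * (x.1 * y * x.1⁻¹) * t := by group
      _ = (x : G)⁻¹ * (t * y * t⁻¹) * t := by rw [h1]
      _ = (x : G)⁻¹ * t * y := by group
  have := Subgroup.mul_mem_sup x.2 hxt
  simpa using this

end Cfsg.Agent.S1756
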