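import Cfsg.Statements.S1774
import Cfsg.Agent.H58.SymplecticFour
import Cfsg.Agent.H58.SymplecticConjugate
import Cfsg.Agent.H51.FStar

set_option autoImplicit false
open Cfsg

namespace Cfsg.Agent.S1774

/-- Let G be a finite group and let z be an involution of G such that Q, the generalized Fitting subgroup of the centralizer C of z, is a 2-group of symplectic type (every characteristic abelian subgroup of Q is cyclic); suppose every element of Q has order dividing 4. Let g ∈ G with z' = g z g⁻¹ ≠ z and z' ∈ Q. Then z lies in the conjugate g Q g⁻¹, and the subgroup X generated by Q and g Q g⁻¹ induces every automorphism of the four-group generated by z and z': for any two distinct non-identity elements u, v of that four-group there is x ∈ X with x z x⁻¹ = u and x z' x⁻¹ = v. -/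
theorem result {G : Type*} [Group G] [Finite G] (z : G) (hz : orderOf z = 2) (hQ : Cfsg.IsOfSymplecticType ↥(Cfsg.generalizedFittingSubgroup ↥(Subgroup.centralizer ({z} : Set G))))
    (h4 : ∀ q ∈ (Cfsg.generalizedFittingSubgroup ↥(Subgroup.centralizer ({z} : Set G))).map (Subgroup.centralizer ({z} : Set G)).subtype, q ^ 4 = 1) (g : G) (hne : g * z * g⁻¹ ≠ z) (hin : g * z * g⁻¹ ∈ (Cfsg.generalizedFittingSubgroup ↥(Subgroup.centralizer ({z} : Set G))).map (Subgroup.centralizer ({z} : Set G)).subtype) :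
    z ∈ ((Cfsg.generalizedFittingSubgroup ↥(Subgroup.centralizer ({z} : Set G))).map (Subgroup.centralizer ({z} : Set G)).subtype).map (MulAut.conj g).toMonoidHom ∧
      ∀ u ∈ Subgroup.closure ({z, g * z * g⁻¹} : Set G), ∀ v ∈ Subgroup.closure ({z, g * z * g⁻¹} : Set G),
        u ≠ 1 → v ≠ 1 → u ≠ v →
          ∃ x ∈ (Cfsg.generalizedFittingSubgroup ↥(Subgroup.centralizer ({z} : Set G))).map (Subgroup.centralizer ({z} : Set G)).subtype ⊔ ((Cfsg.generalizedFittingSubgroup ↥(Subgroup.centralizer ({z} : Set G))).map (Subgroup.centralizer ({z} : Set G)).subtype).map (MulAut.conj g).toMonoidHom, x * z * x⁻¹ = u ∧ x * (g * z * g⁻¹) * x⁻¹ = v := by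
  set C := Subgroup.centralizer ({z} : Set G) with hC
  set F := Cfsg.generalizedFittingSubgroup ↥C with hF
  haveI hFn : F.Normal := Cfsg.Agent.H51.generalizedFittingSubgroup_normal ↥C
  set Q := F.map C.subtype with hQdef
  have hzC : z ∈ C := Subgroup.mem_centralizer_singleton_iff.mpr rfl
  have hmemC : ∀ c : G, c ∈ C ↔ c * z = z * c := fun c => by
    simp [hC, Subgroup.mem_centralizer_iff, eq_comm]
  have hz2 : z * z = 1 := by rw [← pow_two, ← hz, pow_orderOf_eq_one]
  have hz1 : z ≠ 1 := fun h => by rw [h, orderOf_one] at hz; omega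
  have hzc : (⟨z, hzC⟩ : ↥C) ∈ Subgroup.center ↥C :=
    Subgroup.mem_center_iff.mpr fun c => Subtype.ext ((hmemC c).mp c.2)
  have hzF : (⟨z, hzC⟩ : ↥C) ∈ F := by
    refine Cfsg.Agent.H51.fitting_le_generalizedFitting ↥C
      (Cfsg.Agent.H51.le_fittingSubgroup_of_commutative (N := Subgroup.center ↥C) inferInstance ?_ hzc)
    rw [Subgroup.commutator_eq_bot_iff_le_centralizer]
    exact fun a ha => Subgroup.mem_centralizer_iff.mpr fun b _ => Subgroup.mem_center_iff.mp ha b
  have hzFc : (⟨⟨z, hzC⟩, hzF⟩ : ↥F) ∈ Subgroup.center ↥F :=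
    Subgroup.mem_center_iff.mpr fun a => Subtype.ext (Subgroup.mem_center_iff.mp hzc a)
  have h4' : ∀ a : ↥F, a ^ 4 = 1 := fun a => Subtype.ext (Subtype.ext (by
    simpa using h4 _ (Subgroup.mem_map_of_mem C.subtype a.2)))
  obtain ⟨hcomm, hsq, hcen⟩ := Cfsg.Agent.H58.symplectic_four_spec hQ h4' hzFc
    (Subtype.ext (Subtype.ext hz2))
    (fun h => hz1 (congrArg (fun a : ↥F => ((a : ↥C) : G)) h))
  have hD : Cfsg.Agent.H58.FourData z Q :=
    { mem := ⟨_, hzF, rfl⟩
      sq := hz2
      ne := hz1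
      cent := by rintro _ ⟨a, _, rfl⟩; exact (hmemC a).mp a.2
      norm := by
        rintro c hc _ ⟨a, ha, rfl⟩
        exact ⟨⟨c, (hmemC c).mpr hc⟩ * a * ⟨c, (hmemC c).mpr hc⟩⁻¹, hFn.conj_mem a ha _, rfl⟩
      comm := by
        rintro _ ⟨a, ha, rfl⟩ _ ⟨b, hb, rfl⟩
        rcases hcomm ⟨a, ha⟩ ⟨b, hb⟩ with h | h
        · exact Or.inl (congrArg (fun t : ↥F => ((t : ↥C) : G)) h)
        · exact Or.inr (congrArg (fun t : ↥F => ((t : ↥C) : G)) h)
      square := by
        rintro _ ⟨a, ha, rfl⟩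
        rcases hsq ⟨a, ha⟩ with h | h
        · exact Or.inl (congrArg (fun t : ↥F => ((t : ↥C) : G)) h)
        · exact Or.inr (congrArg (fun t : ↥F => ((t : ↥C) : G)) h)
      center := by
        rintro _ ⟨a, ha, rfl⟩ hab ha2
        rcases hcen ⟨a, ha⟩ (Subgroup.mem_center_iff.mpr fun b =>
          Subtype.ext (Subtype.ext (hab _ (Subgroup.mem_map_of_mem C.subtype b.2)).symm))
          (Subtype.ext (Subtype.ext ha2)) with h | h
        · exact Or.inl (congrArg (fun t : ↥F => ((t : ↥C) : G)) h)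
        · exact Or.inr (congrArg (fun t : ↥F => ((t : ↥C) : G)) h)
      self_cent := by
        intro c hc hcent
        refine ⟨⟨c, (hmemC c).mpr hc⟩, Cfsg.Agent.H51.centralizer_generalizedFitting_le ↥C ?_, rfl⟩
        exact Subgroup.mem_centralizer_iff.mpr fun a ha =>
          Subtype.ext (hcent _ (Subgroup.mem_map_of_mem C.subtype ha)).symm }
  have hD' : Cfsg.Agent.H58.FourData (g * z * g⁻¹) (Q.map (MulAut.conj g).toMonoidHom) := by
    set e := MulAut.conj g with he
    have hinj : Function.Injective e.toMonoidHom := e.injective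
    have hback : ∀ c, c * e z = e z * c → e.symm c * z = z * e.symm c := fun c hc =>
      e.injective (by rw [map_mul, map_mul, MulEquiv.apply_symm_apply]; exact hc)
    refine
      { mem := ⟨z, hD.mem, rfl⟩
        sq := (map_mul e z z).symm.trans ((congrArg e hD.sq).trans (map_one e))
        ne := fun h => hD.ne (e.injective (h.trans (map_one e).symm))
        cent := ?_, norm := ?_, comm := ?_, square := ?_, center := ?_, self_cent := ?_ }
    · rintro _ ⟨q, hq, rfl⟩
      exact (map_mul e q z).symm.trans ((congrArg e (hD.cent q hq)).trans (map_mul e z q))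
    · rintro c hc _ ⟨q, hq, rfl⟩
      refine ⟨_, hD.norm _ (hback c hc) q hq, ?_⟩
      show e (e.symm c * q * (e.symm c)⁻¹) = c * e q * c⁻¹
      rw [map_mul, map_mul, map_inv, MulEquiv.apply_symm_apply]
    · rintro _ ⟨a, ha, rfl⟩ _ ⟨b, hb, rfl⟩
      rw [← map_commutatorElement]
      rcases hD.comm a ha b hb with h | h <;> rw [h]
      · exact Or.inl (map_one _)
      · exact Or.inr rfl
    · rintro _ ⟨a, ha, rfl⟩
      rw [← map_mul]
      rcases hD.square a ha with h | h <;> rw [h]
      · exact Or.inl (map_one _)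
      · exact Or.inr rfl
    · rintro _ ⟨a, ha, rfl⟩ hab ha2
      have h1 : a * a = 1 := hinj (by rw [map_mul, map_one]; exact ha2)
      rcases hD.center a ha (fun b hb => hinj (by
        rw [map_mul, map_mul]; exact hab _ ⟨b, hb, rfl⟩)) h1 with h | h <;> rw [h]
      · exact Or.inl (map_one _)
      · exact Or.inr rfl
    · intro c hc hcent
      refine ⟨e.symm c, hD.self_cent _ (hback c hc) fun q hq => e.injective ?_, e.apply_symm_apply c⟩
      rw [map_mul, map_mul, MulEquiv.apply_symm_apply]; exact hcent _ ⟨q, hq, rfl⟩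
  have hconj : ∀ t, t * z * t⁻¹ = g * z * g⁻¹ → ∀ q ∈ Q, t * q * t⁻¹ ∈ Q.map (MulAut.conj g).toMonoidHom := by
    intro t ht q hq
    have h1 : g⁻¹ * t * z = z * (g⁻¹ * t) := by
      calc g⁻¹ * t * z = g⁻¹ * (t * z * t⁻¹) * t := by group
        _ = z * (g⁻¹ * t) := by rw [ht]; group
    refine ⟨_, hD.norm _ h1 q hq, ?_⟩
    show g * (g⁻¹ * t * q * (g⁻¹ * t)⁻¹) * g⁻¹ = _
    group
  have hzR := Cfsg.Agent.H58.mem_conjugate_of_fourData hD hD' hin hne hconj
  exact ⟨hzR, Cfsg.Agent.H58.induced_four_group hD hD' hin hne hzR⟩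

end Cfsg.Agent.S1774
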