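import Cfsg.Statements.S1781
import Cfsg.Agent.H58.TIAbelian

set_option autoImplicit false
open Cfsg

namespace Cfsg.Agent.S1781

/-- Let A be an abelian 2-subgroup of the finite group G such that every conjugate of A equals A or meets A trivially, and let g ∈ G with g A g⁻¹ ≠ A. Then either the subgroup of those elements of A that normalize g A g⁻¹ is an elementary abelian 2-group, or A and g A g⁻¹ commute elementwise. -/
theorem result {G : Type*} [Group G] [Finite G] (A : Subgroup G)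
    (hA2 : IsPGroup 2 ↥A) (hAa : IsMulCommutative ↥A)
    (hti : ∀ h : G, A.map (MulAut.conj h).toMonoidHom = A ∨ A.map (MulAut.conj h).toMonoidHom ⊓ A = ⊥)
    (g : G) (hg : A.map (MulAut.conj g).toMonoidHom ≠ A) :
    Cfsg.IsElementaryAbelian 2 (A ⊓ Subgroup.normalizer ((A.map (MulAut.conj g).toMonoidHom : Subgroup G) : Set G)) ∨
      ⁅A, A.map (MulAut.conj g).toMonoidHom⁆ = ⊥ := by
  by_cases h : ∀ a ∈ A ⊓ Subgroup.normalizer ((A.map (MulAut.conj g).toMonoidHom : Subgroup G) : Set G), a ^ 2 = 1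
  · refine Or.inl ⟨⟨⟨fun x y => Subtype.ext ?_⟩⟩, h⟩
    have h2 := congrArg Subtype.val (hAa.1.1 (⟨x.1, x.2.1⟩ : ↥A) ⟨y.1, y.2.1⟩)
    exact h2
  · push Not at h
    obtain ⟨a, ⟨ha, haN⟩, ha2⟩ := h
    refine Or.inr (Subgroup.commutator_eq_bot_iff_le_centralizer.mpr fun x hx y hy => ?_)
    exact (Cfsg.Agent.H58.commute_of_abelian_ti hA2 hAa hti g hg ha haN
      (by rwa [← pow_two]) x hx y hy).symm

end Cfsg.Agent.S1781
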