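import Cfsg.Statements.S1782
import Cfsg.Agent.H58.TI

set_option autoImplicit false
open Cfsg

namespace Cfsg.Agent.S1782

/-- Let S be a finite 2-group and Δ a set of subgroups of S closed under conjugation by S, all of the same order, each with nontrivial Frattini subgroup, and such that two distinct members of Δ meet trivially. Then any two distinct members of Δ commute elementwise. -/
theorem result {S : Type*} [Group S] [Finite S] (hS : IsPGroup 2 S)
    (Δ : Set (Subgroup S)) (hinv : ∀ s : S, ∀ R ∈ Δ, R.map (MulAut.conj s).toMonoidHom ∈ Δ)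
    (hΦ : ∀ R ∈ Δ, frattini ↥R ≠ ⊥) (hord : ∀ R ∈ Δ, ∀ T ∈ Δ, Nat.card ↥R = Nat.card ↥T)
    (hti : ∀ R ∈ Δ, ∀ T ∈ Δ, R = T ∨ R ⊓ T = ⊥) :
    ∀ R ∈ Δ, ∀ T ∈ Δ, R ≠ T → ⁅R, T⁆ = ⊥ := by
  intro R hR T hT hne
  rw [Subgroup.commutator_eq_bot_iff_le_centralizer]
  refine fun r hr t ht =>
    (Cfsg.Agent.H58.family_commute hS Δ hinv ?_ hord hti R hR T hT hne r hr t ht).symm
  intro U hU
  by_contra h
  push Not at h
  refine hΦ U hU (eq_bot_iff.mpr fun x hx => ?_)
  by_contra hx1
  rw [Subgroup.mem_bot] at hx1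
  have hsq : ∀ u : ↥U, u * u = 1 := fun u => Subtype.ext (h u u.2)
  have hcomm : ∀ u v : ↥U, u * v = v * u := by
    intro u v
    calc u * v = u * v * ((v * u) * (v * u)) := by rw [hsq (v * u), mul_one]
      _ = u * (v * v) * u * (v * u) := by group
      _ = v * u := by rw [hsq v, mul_one, hsq u, one_mul]
  obtain ⟨M, hM⟩ := (Set.toFinite {M : Subgroup ↥U | x ∉ M}).exists_maximal ⟨⊥, by simpa using hx1⟩
  have hxM : x ∉ M := hM.prop
  refine hxM (frattini_le_coatom ⟨?_, fun N hN => ?_⟩ hx)
  · exact fun h => hxM (h ▸ Subgroup.mem_top x)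
  · have hxN : x ∈ N := by
      by_contra hxN
      exact hN.not_ge (hM.2 hxN hN.le)
    refine eq_top_iff.mpr fun y _ => ?_
    by_cases hy : y ∈ M
    · exact hN.le hy
    let M' : Subgroup ↥U :=
      { carrier := {u | u ∈ M ∨ u * y ∈ M}
        one_mem' := Or.inl M.one_mem
        mul_mem' := by
          rintro a b (ha | ha) (hb | hb)
          · exact Or.inl (M.mul_mem ha hb)
          · exact Or.inr (by rw [mul_assoc]; exact M.mul_mem ha hb)
          · exact Or.inr (by rw [hcomm a b, mul_assoc]; exact M.mul_mem hb ha)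
          · refine Or.inl ?_
            have := M.mul_mem ha hb
            rwa [show a * y * (b * y) = a * b * (y * y) by
              rw [mul_assoc a y, ← mul_assoc y b, hcomm y b]; group, hsq, mul_one] at this
        inv_mem' := by
          intro a ha
          rw [inv_eq_of_mul_eq_one_right (hsq a)]
          exact ha }
    have hyM' : y ∈ M' := Or.inr (by rw [hsq]; exact M.one_mem)
    have hxM' : x ∈ M' := by
      by_contra h'
      exact hy (hM.2 h' (fun u hu => Or.inl hu) hyM')
    rcases hxM' with h' | h'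
    · exact absurd h' hxM
    · have h2 : x⁻¹ * (x * y) ∈ N := N.mul_mem (N.inv_mem hxN) (hN.le h')
      simpa using h2

end Cfsg.Agent.S1782
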