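import Cfsg.Statements.S1783
import Cfsg.Agent.H58.TIFamily
import Cfsg.Agent.H58.PGroupKernel
import Cfsg.Agent.H51.FStar
import Cfsg.Agent.H24.PGroupBasic

set_option autoImplicit false
open Cfsg

namespace Cfsg.Agent.S1783

/-- Let X be a finite group whose generalized Fitting subgroup equals its largest normal 2-subgroup Q, and let A be an abelian 2-subgroup of X such that every conjugate of A equals A or meets A trivially. Let B be the subgroup generated by the squares of the elements of A. Then B lies in Q, and if B is not an elementary abelian 2-group then the normal closure of B in X is commutative. -/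
theorem result {X : Type*} [Group X] [Finite X]
    (hX : Cfsg.generalizedFittingSubgroup X = Cfsg.pCore 2 X) (A : Subgroup X) (hA2 : IsPGroup 2 ↥A) (hAa : IsMulCommutative ↥A)
    (hti : ∀ h : X, A.map (MulAut.conj h).toMonoidHom = A ∨ A.map (MulAut.conj h).toMonoidHom ⊓ A = ⊥) :
    Subgroup.closure ((fun a : X => a ^ 2) '' (A : Set X)) ≤ Cfsg.pCore 2 X ∧
      (¬ Cfsg.IsElementaryAbelian 2 (Subgroup.closure ((fun a : X => a ^ 2) '' (A : Set X))) →
        IsMulCommutative ↥(Subgroup.normalClosure ((fun a : X => a ^ 2) '' (A : Set X)))) := by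
  classical
  haveI : Fact (Nat.Prime 2) := ⟨Nat.prime_two⟩
  haveI hQn : (Cfsg.pCore 2 X).Normal := Cfsg.Agent.H51.pCore_normal 2 X
  have hC : Subgroup.centralizer (Cfsg.pCore 2 X : Set X) ≤ Cfsg.pCore 2 X := by
    have := Cfsg.Agent.H51.centralizer_generalizedFitting_le X
    rwa [hX] at this
  set Q := Cfsg.pCore 2 X with hQdef
  have hQ2 : IsPGroup 2 ↥Q := Cfsg.Agent.H51.pCore_isPGroup 2 X
  have hcomm : ∀ a ∈ A, ∀ c ∈ A, a * c = c * a := fun a ha c hc =>
    congrArg Subtype.val (IsMulCommutative.is_comm.comm (⟨a, ha⟩ : ↥A) ⟨c, hc⟩)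
  have hBmem : ∀ b : X, b ∈ Subgroup.closure ((fun a : X => a ^ 2) '' (A : Set X)) ↔
      ∃ a ∈ A, b = a ^ 2 := by
    intro b
    constructor
    · intro hb
      induction hb using Subgroup.closure_induction with
      | mem x hx => obtain ⟨a, ha, rfl⟩ := hx; exact ⟨a, ha, rfl⟩
      | one => exact ⟨1, A.one_mem, (one_pow 2).symm⟩
      | mul x y _ _ hx hy =>
        obtain ⟨a, ha, rfl⟩ := hx
        obtain ⟨c, hc, rfl⟩ := hy
        exact ⟨a * c, A.mul_mem ha hc, ((show Commute a c from hcomm a ha c hc).mul_pow 2).symm⟩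
      | inv x _ hx =>
        obtain ⟨a, ha, rfl⟩ := hx
        exact ⟨a⁻¹, A.inv_mem ha, (inv_pow a 2).symm⟩
    · rintro ⟨a, ha, rfl⟩
      exact Subgroup.subset_closure ⟨a, ha, rfl⟩
  set B := Subgroup.closure ((fun a : X => a ^ 2) '' (A : Set X)) with hBdef
  have hBQ : B ≤ Q := by
    by_cases he : ∀ a ∈ A, a * a = 1
    · intro b hb
      obtain ⟨a, ha, rfl⟩ := (hBmem b).mp hb
      rw [pow_two, he a ha]
      exact Q.one_mem
    push Not at he
    obtain ⟨a0, ha0, ha02⟩ := he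
    obtain ⟨K, hKn, hK2, hKmem⟩ :=
      Cfsg.Agent.H58.exists_normal_pGroup_trivial_mod_frattini Q hQ2 hC
    intro b hb
    obtain ⟨a, ha, rfl⟩ := (hBmem b).mp hb
    refine Cfsg.Agent.H51.le_pCore hKn hK2 (hKmem _ fun q hq => ?_)
    set P := A ⊔ Q with hP
    have hP2 : IsPGroup 2 ↥P := IsPGroup.to_sup_of_normal_right hA2 hQ2
    have hqa : (q * a * q⁻¹) * a = a * (q * a * q⁻¹) := by
      by_cases hfix : A.map (MulAut.conj q).toMonoidHom = A
      · exact hcomm _ (hfix ▸ Cfsg.Agent.H58.conj_mem_map_conj q ha) a ha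
      let Δ : Set (Subgroup X) := {R | ∃ u ∈ P, R = A.map (MulAut.conj u).toMonoidHom}
      have hA1 : A.map (MulAut.conj (1 : X)).toMonoidHom = A := by
        ext x; simp [Cfsg.Agent.H58.mem_map_conj]
      refine Cfsg.Agent.H58.family_commute_in hP2 Δ ?_ ?_ ?_ ?_ ?_ _
        ⟨q, Subgroup.mem_sup_right hq, rfl⟩ A ⟨1, P.one_mem, hA1.symm⟩ hfix _
        (Cfsg.Agent.H58.conj_mem_map_conj q ha) a ha
      · rintro R ⟨u, hu, rfl⟩ x hx
        rw [Cfsg.Agent.H58.mem_map_conj] at hx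
        have := P.mul_mem (P.mul_mem hu (Subgroup.mem_sup_left hx)) (P.inv_mem hu)
        simpa [mul_assoc] using this
      · rintro s hs R ⟨u, hu, rfl⟩
        refine ⟨s * u, P.mul_mem hs hu, ?_⟩
        rw [Subgroup.map_map]
        congr 1
        ext x
        simp [mul_assoc]
      · rintro R ⟨u, hu, rfl⟩
        exact ⟨_, Cfsg.Agent.H58.conj_mem_map_conj u ha0, fun h => ha02 (by rwa [conj_mul, conj_eq_one_iff] at h)⟩
      · rintro R ⟨u, hu, rfl⟩ T ⟨v, hv, rfl⟩
        rw [Cfsg.Agent.H58.card_map_conj, Cfsg.Agent.H58.card_map_conj]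
      · rintro R ⟨u, hu, rfl⟩ T ⟨v, hv, rfl⟩
        have e : A.map (MulAut.conj v).toMonoidHom =
            (A.map (MulAut.conj (u⁻¹ * v)).toMonoidHom).map (MulAut.conj u).toMonoidHom := by
          rw [Subgroup.map_map]
          congr 1
          ext x
          simp [mul_assoc]
        rcases hti (u⁻¹ * v) with h | h
        · exact Or.inl (by rw [e, h])
        · refine Or.inr ?_
          rw [e, inf_comm, ← Subgroup.map_inf _ _ _ (MulAut.conj u).injective, h, Subgroup.map_bot]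
    set c := q * a * q⁻¹ * a⁻¹ with hc
    have hcQ : c ∈ Q := by
      have := Q.mul_mem hq ((inferInstance : Q.Normal).conj_mem _ (Q.inv_mem hq) a)
      simpa [hc, mul_assoc] using this
    have heq : q * a ^ 2 * q⁻¹ * (a ^ 2)⁻¹ = c * c := by
      have hca : c * a = a * c := by
        calc c * a = q * a * q⁻¹ := by rw [hc]; group
          _ = (q * a * q⁻¹) * a * a⁻¹ := by group
          _ = a * (q * a * q⁻¹) * a⁻¹ := by rw [hqa]
          _ = a * c := by rw [hc]; group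
      calc q * a ^ 2 * q⁻¹ * (a ^ 2)⁻¹ = (c * a) * (c * a) * a⁻¹ * a⁻¹ := by rw [hc, pow_two]; group
        _ = c * (a * c) * a * a⁻¹ * a⁻¹ := by group
        _ = c * (c * a) * a * a⁻¹ * a⁻¹ := by rw [hca]
        _ = c * c := by group
    rw [heq]
    exact ⟨_, Cfsg.Agent.H24.pow_mem_frattini hQ2 ⟨c, hcQ⟩, by simp [pow_two]⟩
  refine ⟨hBQ, fun hne => ?_⟩
  obtain ⟨b0, hb0, hb02⟩ : ∃ b ∈ B, b * b ≠ 1 := by
    by_contra h
    push Not at h
    refine hne ⟨⟨⟨fun x y => Subtype.ext ?_⟩⟩, fun b hb => by rw [pow_two]; exact h b hb⟩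
    obtain ⟨a, ha, hxa⟩ := (hBmem _).mp x.2
    obtain ⟨c, hc, hyc⟩ := (hBmem _).mp y.2
    show (x : X) * y = y * x
    rw [hxa, hyc]
    exact ((show Commute a c from hcomm a ha c hc).pow_pow 2 2).eq
  have hBA : B ≤ A := fun b hb => by
    obtain ⟨a, ha, rfl⟩ := (hBmem b).mp hb
    exact A.pow_mem ha 2
  have hBfix : ∀ u : X, A.map (MulAut.conj u).toMonoidHom = A → B.map (MulAut.conj u).toMonoidHom = B := by
    intro u hu
    refine Subgroup.eq_of_le_of_card_ge ?_ (Cfsg.Agent.H58.card_map_conj B u).ge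
    rintro _ ⟨b, hb, rfl⟩
    obtain ⟨a, ha, rfl⟩ := (hBmem b).mp hb
    refine (hBmem _).mpr ⟨u * a * u⁻¹, hu ▸ Cfsg.Agent.H58.conj_mem_map_conj u ha, ?_⟩
    simp
  let Δ : Set (Subgroup X) := Set.range fun u : X => B.map (MulAut.conj u).toMonoidHom
  have hfam := Cfsg.Agent.H58.family_commute_in hQ2 Δ ?_ ?_ ?_ ?_ ?_
  · refine Subgroup.isMulCommutative_closure fun x hx y hy => ?_
    obtain ⟨_, ⟨a, ha, rfl⟩, hxc⟩ := Group.mem_conjugatesOfSet_iff.mp hx
    obtain ⟨_, ⟨c, hc, rfl⟩, hyc⟩ := Group.mem_conjugatesOfSet_iff.mp hy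
    obtain ⟨u, rfl⟩ := isConj_iff.mp hxc
    obtain ⟨v, rfl⟩ := isConj_iff.mp hyc
    have hua := Cfsg.Agent.H58.conj_mem_map_conj u ((hBmem _).mpr ⟨a, ha, rfl⟩)
    have hvc := Cfsg.Agent.H58.conj_mem_map_conj v ((hBmem _).mpr ⟨c, hc, rfl⟩)
    by_cases h : B.map (MulAut.conj u).toMonoidHom = B.map (MulAut.conj v).toMonoidHom
    · rw [← h, Cfsg.Agent.H58.mem_map_conj] at hvc
      rw [Cfsg.Agent.H58.mem_map_conj] at hua
      have := congrArg (fun w => u * w * u⁻¹) (hcomm _ (hBA hua) _ (hBA hvc))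
      simpa [mul_assoc] using this
    · exact hfam _ ⟨u, rfl⟩ _ ⟨v, rfl⟩ h _ hua _ hvc
  · rintro R ⟨u, rfl⟩ x hx
    rw [Cfsg.Agent.H58.mem_map_conj] at hx
    simpa [mul_assoc] using hQn.conj_mem _ (hBQ hx) u
  · rintro s - R ⟨u, rfl⟩
    refine ⟨s * u, ?_⟩
    show B.map _ = (B.map _).map _
    rw [Subgroup.map_map]
    congr 1
    ext x
    simp [mul_assoc]
  · rintro R ⟨u, rfl⟩
    exact ⟨_, Cfsg.Agent.H58.conj_mem_map_conj u hb0, fun h => hb02 (by rwa [conj_mul, conj_eq_one_iff] at h)⟩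
  · rintro R ⟨u, rfl⟩ T ⟨v, rfl⟩
    rw [Cfsg.Agent.H58.card_map_conj, Cfsg.Agent.H58.card_map_conj]
  · rintro R ⟨u, rfl⟩ T ⟨v, rfl⟩
    have e : B.map (MulAut.conj v).toMonoidHom =
        (B.map (MulAut.conj (u⁻¹ * v)).toMonoidHom).map (MulAut.conj u).toMonoidHom := by
      rw [Subgroup.map_map]
      congr 1
      ext x
      simp [mul_assoc]
    dsimp only
    rw [e]
    rcases hti (u⁻¹ * v) with h | h
    · exact Or.inl (by rw [hBfix _ h])
    · refine Or.inr ?_
      rw [inf_comm, ← Subgroup.map_inf _ _ _ (MulAut.conj u).injective]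
      refine (Subgroup.map_eq_bot_iff_of_injective _ (MulAut.conj u).injective).mpr (eq_bot_iff.mpr ?_)
      exact (inf_le_inf (Subgroup.map_mono hBA) hBA).trans h.le

end Cfsg.Agent.S1783
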