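import Cfsg.Statements.S1784
import Cfsg.Agent.H58.ExtraspecialPerp
import Cfsg.Agent.H58.ExtraspecialCongr
import Cfsg.Agent.H58.TI
import Cfsg.Agent.S1756
import Cfsg.Agent.H51.FStar
import Cfsg.Agent.H24.PGroupBasic

set_option autoImplicit false
open Cfsg
open scoped commutatorElement

namespace Cfsg.Agent.S1784

/-- Let G be a finite group and let z be an involution of G such that Q, the generalized Fitting subgroup of the centralizer C of z, is a 2-group of symplectic type (every characteristic abelian subgroup of Q is cyclic); suppose Q is extraspecial, and view Q inside G. Let α be an involution of C that is not in Q, and let Q₀ be the subgroup of those q ∈ Q whose commutator with α lies in the subgroup generated by z. Then (a) the subgroup generated by the commutators α q α⁻¹ q⁻¹, q ∈ Q, equals the centre of Q₀; and (b) if Q₀ is not contained in the product of the centralizer of α in Q with the subgroup generated by z, then some element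 of Q conjugates α to α z. -/
theorem result {G : Type*} [Group G] [Finite G] (z : G) (hz : orderOf z = 2) (hQ : Cfsg.IsOfSymplecticType ↥(Cfsg.generalizedFittingSubgroup ↥(Subgroup.centralizer ({z} : Set G)))) (hE : Cfsg.IsExtraspecial 2 ↥(Cfsg.generalizedFittingSubgroup ↥(Subgroup.centralizer ({z} : Set G))))
    (α : G) (hα : orderOf α = 2) (hαC : α ∈ Subgroup.centralizer ({z} : Set G)) (hαQ : α ∉ (Cfsg.generalizedFittingSubgroup ↥(Subgroup.centralizer ({z} : Set G))).map (Subgroup.centralizer ({z} : Set G)).subtype)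
    (Q₀ : Subgroup G) (hQ₀ : ∀ q : G, q ∈ Q₀ ↔ (q ∈ (Cfsg.generalizedFittingSubgroup ↥(Subgroup.centralizer ({z} : Set G))).map (Subgroup.centralizer ({z} : Set G)).subtype ∧ α * q * α⁻¹ * q⁻¹ ∈ Subgroup.zpowers z)) :
    Subgroup.closure ((fun q : G => α * q * α⁻¹ * q⁻¹) '' ((Cfsg.generalizedFittingSubgroup ↥(Subgroup.centralizer ({z} : Set G))).map (Subgroup.centralizer ({z} : Set G)).subtype : Set G)) = (Subgroup.center ↥Q₀).map Q₀.subtype ∧
      (¬ Q₀ ≤ ((Cfsg.generalizedFittingSubgroup ↥(Subgroup.centralizer ({z} : Set G))).map (Subgroup.centralizer ({z} : Set G)).subtype ⊓ Subgroup.centralizer ({α} : Set G)) ⊔ Subgroup.zpowers z →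
        ∃ q ∈ (Cfsg.generalizedFittingSubgroup ↥(Subgroup.centralizer ({z} : Set G))).map (Subgroup.centralizer ({z} : Set G)).subtype, q * α * q⁻¹ = α * z) := by
  haveI : Fact (Nat.Prime 2) := ⟨Nat.prime_two⟩
  set Qc := Cfsg.generalizedFittingSubgroup ↥(Subgroup.centralizer ({z} : Set G)) with hQc
  set Q := Qc.map (Subgroup.centralizer ({z} : Set G)).subtype with hQdef
  haveI : Qc.Normal := Cfsg.Agent.H51.generalizedFittingSubgroup_normal _
  set e := Qc.equivMapOfInjective _ (Subgroup.subtype_injective (Subgroup.centralizer ({z} : Set G)))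
  have hEQ : Cfsg.IsExtraspecial 2 ↥Q := Cfsg.Agent.H58.isExtraspecial_congr e hE
  have hzC : z ∈ Subgroup.centralizer ({z} : Set G) := Subgroup.mem_centralizer_singleton_iff.mpr rfl
  have hzcomm : ∀ q ∈ Q, q * z = z * q := fun q hq =>
    Subgroup.mem_centralizer_singleton_iff.mp (Subgroup.map_subtype_le _ hq)
  have hzQ : z ∈ Q := by
    set zC : ↥(Subgroup.centralizer ({z} : Set G)) := ⟨z, hzC⟩
    have hzcen : zC ∈ Subgroup.center ↥(Subgroup.centralizer ({z} : Set G)) :=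
      Subgroup.mem_center_iff.mpr fun c => Subtype.ext (Subgroup.mem_centralizer_singleton_iff.mp c.2)
    refine ⟨zC, Subgroup.mem_sup_right (Cfsg.Agent.H51.le_fittingSubgroup_of_commutative
      (inferInstance : (Subgroup.center _).Normal) ?_ hzcen), rfl⟩
    rw [eq_bot_iff, Subgroup.commutator_le]
    intro a _ b hb
    rw [Subgroup.mem_bot, commutatorElement_eq_one_iff_mul_comm]
    exact Subgroup.mem_center_iff.mp hb a
  have hCQ : Subgroup.centralizer (Q : Set G) ≤ Q := by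
    intro y hy
    have hyC : y ∈ Subgroup.centralizer ({z} : Set G) :=
      Subgroup.mem_centralizer_singleton_iff.mpr (Subgroup.mem_centralizer_iff.mp hy z hzQ).symm
    refine ⟨⟨y, hyC⟩, Cfsg.Agent.H51.centralizer_generalizedFitting_le _
      (Subgroup.mem_centralizer_iff.mpr fun u hu => Subtype.ext ?_), rfl⟩
    exact Subgroup.mem_centralizer_iff.mp hy u.1 ⟨u, hu, rfl⟩
  have hαn : α ∈ Subgroup.normalizer (Q : Set G) := by
    refine Cfsg.Agent.H58.mem_normalizer_of_conj_mem ?_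
    rintro _ ⟨u, hu, rfl⟩
    exact ⟨_, (inferInstance : Qc.Normal).conj_mem u hu ⟨α, hαC⟩, rfl⟩
  obtain ⟨z0, hz01, hz00, hz0c⟩ := Cfsg.Agent.H18.center_eq_pair hEQ
  set zQ : ↥Q := ⟨z, hzQ⟩ with hzQdef
  have hzne : z ≠ 1 := by rintro rfl; rw [orderOf_one] at hz; exact absurd hz (by norm_num)
  have hzc : ∀ u : ↥Q, u ∈ Subgroup.center ↥Q ↔ u = 1 ∨ u = zQ := by
    have h0 : zQ = z0 := ((hz0c zQ).mp (Subgroup.mem_center_iff.mpr fun u =>
      Subtype.ext (hzcomm u u.2))).resolve_left fun h => hzne (congrArg Subtype.val h)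
    rw [h0]; exact hz0c
  have hzz : z * z = 1 := by rw [← pow_two, ← hz, pow_orderOf_eq_one]
  have hαα : α * α = 1 := by rw [← pow_two, ← hα, pow_orderOf_eq_one]
  have hαinv : α⁻¹ = α := inv_eq_of_mul_eq_one_right hαα
  have hzp : ∀ y, y ∈ Subgroup.zpowers z ↔ y = 1 ∨ y = z := by
    intro y
    constructor
    · rintro ⟨k, rfl⟩
      show z ^ k = 1 ∨ z ^ k = z
      rcases Int.even_or_odd k with ⟨i, rfl⟩ | ⟨i, rfl⟩
      · left
        rw [← two_mul, zpow_mul, show z ^ (2 : ℤ) = 1 by rw [zpow_two, hzz], one_zpow]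
      · right
        rw [zpow_add, zpow_mul, show z ^ (2 : ℤ) = 1 by rw [zpow_two, hzz], one_zpow, one_mul, zpow_one]
    · rintro (rfl | rfl)
      · exact one_mem _
      · exact Subgroup.mem_zpowers _
  -- the automorphism induced by `α` and its commutator map
  let τ : ↥Q → ↥Q := fun u => ⟨α * u * α⁻¹, (Subgroup.mem_normalizer_iff.mp hαn _).mp u.2⟩
  have τmul : ∀ a b, τ (a * b) = τ a * τ b := fun a b => Subtype.ext (by simp [τ, mul_assoc])
  have τinv : ∀ a, τ a⁻¹ = (τ a)⁻¹ := fun a => Subtype.ext (by simp [τ, mul_assoc])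
  have ττ : ∀ a, τ (τ a) = a := fun a => Subtype.ext (by
    show α * (α * a.1 * α⁻¹) * α⁻¹ = a.1
    calc α * (α * a.1 * α⁻¹) * α⁻¹ = (α * α) * a.1 * (α * α)⁻¹ := by group
      _ = a.1 := by rw [hαα]; simp)
  have τz : τ zQ = zQ := Subtype.ext (by
    show α * z * α⁻¹ = z
    rw [Subgroup.mem_centralizer_singleton_iff.mp hαC, mul_inv_cancel_right])
  let c : ↥Q → ↥Q := fun u => τ u * u⁻¹
  have hcG : ∀ u : ↥Q, (c u : G) = α * u * α⁻¹ * (u : G)⁻¹ := fun u => rfl
  set K := Subgroup.closure ((fun q : G => α * q * α⁻¹ * q⁻¹) '' (Q : Set G)) with hK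
  have hKQ : K ≤ Q := by
    rw [hK, Subgroup.closure_le]
    rintro _ ⟨q, hq, rfl⟩
    exact (c ⟨q, hq⟩).2
  set KQ := K.subgroupOf Q with hKQdef
  have hcK : ∀ u, c u ∈ KQ := fun u => Subgroup.subset_closure ⟨u, u.2, rfl⟩
  have hQ0Q : Q₀ ≤ Q := fun q hq => ((hQ₀ q).mp hq).1
  set W0 := Q₀.subgroupOf Q
  have hW0 : ∀ r : ↥Q, r ∈ W0 ↔ c r ∈ Subgroup.center ↥Q := by
    intro r
    rw [Subgroup.mem_subgroupOf, hQ₀, hzc, hzp]
    simp only [r.2, true_and]
    rw [← hcG]
    exact or_congr ⟨fun h => Subtype.ext h, fun h => congrArg Subtype.val h⟩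
      ⟨fun h => Subtype.ext h, fun h => congrArg Subtype.val h⟩
  -- the commutator pairing
  have hbr : ∀ a b d : ↥Q, ⁅a * b, d⁆ = ⁅a, d⁆ * ⁅b, d⁆ := by
    intro a b d
    have hcc := Subgroup.mem_center_iff.mp (Cfsg.Agent.H18.commutator_mem_center hEQ b d)
    calc ⁅a * b, d⁆ = a * ⁅b, d⁆ * a⁻¹ * ⁅a, d⁆ := by simp only [commutatorElement_def]; group
      _ = ⁅b, d⁆ * ⁅a, d⁆ := by rw [hcc a, mul_inv_cancel_right]
      _ = ⁅a, d⁆ * ⁅b, d⁆ := (hcc _).symm
  have hbτ : ∀ a b : ↥Q, τ ⁅a, b⁆ = ⁅a, b⁆ := by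
    intro a b
    rcases (hzc _).mp (Cfsg.Agent.H18.commutator_mem_center hEQ a b) with h | h
    · rw [h]; exact Subtype.ext (by simp [τ])
    · rw [h]; exact τz
  have hτbr : ∀ a b : ↥Q, τ ⁅a, b⁆ = ⁅τ a, τ b⁆ := by
    intro a b
    simp only [commutatorElement_def, τmul, τinv]
  have hpair : ∀ q r : ↥Q, ⁅c q, r⁆ = ⁅q, τ r⁆ * ⁅q, r⁆⁻¹ := by
    intro q r
    have h1 := hbr (τ q) q⁻¹ r
    have h2 : ⁅q⁻¹, r⁆ = ⁅q, r⁆⁻¹ := by
      refine eq_inv_of_mul_eq_one_left ?_
      rw [← hbr, inv_mul_cancel, commutatorElement_one_left]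
    have h3 : ⁅τ q, r⁆ = ⁅q, τ r⁆ := by
      conv_lhs => rw [← ττ r]
      rw [← hτbr, hbτ]
    rw [show c q = τ q * q⁻¹ from rfl, h1, h2, h3]
  have hperp : ∀ r : ↥Q, r ∈ W0 ↔ ∀ q, ⁅c q, r⁆ = 1 := by
    intro r
    rw [hW0]
    have key : ∀ q, ⁅c q, r⁆ = 1 ↔ ⁅q, c r⁆ = 1 := by
      intro q
      rw [hpair, mul_inv_eq_one]
      have h1 : ⁅q, τ r⁆ = ⁅q, c r⁆ * ⁅q, r⁆ := by
        have hcc := Subgroup.mem_center_iff.mp (Cfsg.Agent.H18.commutator_mem_center hEQ q r)
        calc ⁅q, τ r⁆ = ⁅q, c r * r⁆ := by simp [c]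
          _ = ⁅q, c r⁆ * (c r * ⁅q, r⁆ * (c r)⁻¹) := by simp only [commutatorElement_def]; group
          _ = ⁅q, c r⁆ * ⁅q, r⁆ := by rw [hcc (c r), mul_inv_cancel_right]
      rw [h1, mul_eq_right]
    simp only [key, commutatorElement_eq_one_iff_mul_comm, Subgroup.mem_center_iff]
  have hcentK : W0 = Subgroup.centralizer (KQ : Set ↥Q) := by
    refine le_antisymm ?_ ?_
    · intro r hr
      refine Subgroup.mem_centralizer_iff.mpr fun k hk => ?_
      have hle : K ≤ Subgroup.centralizer ({(r : G)} : Set G) := by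
        rw [hK, Subgroup.closure_le]
        rintro _ ⟨q, hq, rfl⟩
        have := commutatorElement_eq_one_iff_mul_comm.mp ((hperp r).mp hr ⟨q, hq⟩)
        exact Subgroup.mem_centralizer_singleton_iff.mpr (congrArg Subtype.val this)
      exact Subtype.ext (Subgroup.mem_centralizer_singleton_iff.mp (hle hk))
    · intro r hr
      exact (hperp r).mpr fun q => commutatorElement_eq_one_iff_mul_comm.mpr
        (Subgroup.mem_centralizer_iff.mp hr _ (hcK q))
  -- some commutator is not central, so `z ∈ K`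
  obtain ⟨q1, hq1⟩ : ∃ q, c q ∉ Subgroup.center ↥Q := by
    by_contra hall
    push Not at hall
    let f : ↥Q →* ↥(Subgroup.center ↥Q) := MonoidHom.mk' (fun u => ⟨c u, hall u⟩) fun a b => Subtype.ext (by
      show c (a * b) = c a * c b
      have hcb := Subgroup.mem_center_iff.mp (hall b)
      calc c (a * b) = τ a * c b * a⁻¹ := by simp only [c, τmul]; group
        _ = c b * (τ a * a⁻¹) := by rw [hcb (τ a), mul_assoc]
        _ = c a * c b := (hcb _).symm)
    refine hαQ ((sup_le le_rfl hCQ : Q ⊔ Subgroup.centralizer (Q : Set G) ≤ Q) ?_)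
    refine Cfsg.Agent.S1756.result Q hEQ α hα hαn ?_
    have hker : f.ker ≤ (Subgroup.centralizer ({α} : Set G) ⊓ Q).subgroupOf Q := by
      intro u hu
      have h1 : c u = 1 := congrArg Subtype.val hu
      refine ⟨Subgroup.mem_centralizer_singleton_iff.mpr ?_, u.2⟩
      have h2 : α * u.1 * α⁻¹ * u.1⁻¹ = 1 := congrArg Subtype.val h1
      rw [mul_inv_eq_one, mul_inv_eq_iff_eq_mul] at h2
      exact h2.symm
    refine le_trans (Nat.le_of_dvd (Nat.pos_of_ne_zero Subgroup.index_ne_zero_of_finite)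
      (Subgroup.index_dvd_of_le hker)) ?_
    rw [Subgroup.index_ker]
    exact (Subgroup.card_le_card_group _).trans hEQ.2.le
  have hzK : Subgroup.center ↥Q ≤ KQ := by
    intro u hu
    rcases (hzc u).mp hu with rfl | rfl
    · exact one_mem _
    rw [Subgroup.mem_center_iff] at hq1
    push Not at hq1
    obtain ⟨r, hr⟩ := hq1
    have hrz : ⁅r, c q1⁆ = zQ := ((hzc _).mp (Cfsg.Agent.H18.commutator_mem_center hEQ r (c q1))).resolve_left
      fun h => hr (commutatorElement_eq_one_iff_mul_comm.mp h)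
    have h1 : r * c q1 * r⁻¹ = (c r)⁻¹ * c (r * q1) := by
      simp only [c, τmul]; group
    have h2 : zQ = (c r)⁻¹ * c (r * q1) * (c q1)⁻¹ := by
      rw [← hrz, commutatorElement_def, h1]
    rw [h2]
    exact mul_mem (mul_mem (inv_mem (hcK r)) (hcK _)) (inv_mem (hcK q1))
  have hdouble := Cfsg.Agent.H58.centralizer_centralizer_eq hEQ KQ hzK
  rw [← hcentK] at hdouble
  -- `c q` lies in `Q₀`
  have hcW : ∀ q, c q ∈ W0 := by
    intro q
    rw [hW0]
    have h1 : τ (c q) = (c q)⁻¹ := by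
      simp only [c, τmul, τinv, ττ]; group
    show τ (c q) * (c q)⁻¹ ∈ Subgroup.center ↥Q
    rw [h1, ← mul_inv_rev, inv_mem_iff, ← pow_two, ← hEQ.1.2.1]
    exact Cfsg.Agent.H24.pow_mem_frattini hEQ.1.1 (c q)
  refine ⟨le_antisymm ?_ ?_, fun hne => ?_⟩
  · rw [hK, Subgroup.closure_le]
    rintro _ ⟨q, hq, rfl⟩
    refine ⟨⟨α * q * α⁻¹ * q⁻¹, hcW ⟨q, hq⟩⟩, ?_, rfl⟩
    refine Subgroup.mem_center_iff.mpr fun r => Subtype.ext ?_
    have hr : (⟨r.1, hQ0Q r.2⟩ : ↥Q) ∈ Subgroup.centralizer (KQ : Set ↥Q) := by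
      rw [← hcentK]; exact r.2
    exact (congrArg Subtype.val (Subgroup.mem_centralizer_iff.mp hr _ (hcK ⟨q, hq⟩))).symm
  · rintro _ ⟨w, hw, rfl⟩
    have hw' : (⟨w.1, hQ0Q w.2⟩ : ↥Q) ∈ Subgroup.centralizer (W0 : Set ↥Q) :=
      Subgroup.mem_centralizer_iff.mpr fun r hr =>
        Subtype.ext (congrArg (fun u : ↥Q₀ => (u : G)) (Subgroup.mem_center_iff.mp hw ⟨r.1, hr⟩))
    rw [hdouble] at hw'
    exact hw'
  · obtain ⟨q, hq, hqn⟩ := SetLike.not_le_iff_exists.mp hne
    obtain ⟨hqQ, hcq⟩ := (hQ₀ q).mp hq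
    refine ⟨q, hqQ, ?_⟩
    rcases (hzp _).mp hcq with h | h
    · exfalso
      refine hqn (Subgroup.mem_sup_left ⟨hqQ, Subgroup.mem_centralizer_singleton_iff.mpr ?_⟩)
      rw [mul_inv_eq_one, mul_inv_eq_iff_eq_mul] at h
      exact h.symm
    · calc q * α * q⁻¹ = α * (α⁻¹ * q * α * q⁻¹) := by group
        _ = α * (α * q * α⁻¹ * q⁻¹) := by simp only [hαinv]
        _ = α * z := by rw [h]

end Cfsg.Agent.S1784
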