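import Cfsg.Statements.S1785
import Cfsg.Agent.H58.ElementaryChains

set_option autoImplicit false
open Cfsg

namespace Cfsg.Agent.S1785

/-- Let X be a finite 2-group having a normal elementary abelian subgroup of order at least 32. Then (a) for any two elementary abelian subgroups A, B of X of order 8 there is a chain A = A₁, A₂, …, Aₙ = B of elementary abelian subgroups of order 8 in which consecutive members commute elementwise; and (b) every elementary abelian subgroup of X of order 4 is contained in an elementary abelian subgroup of order 8. -/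
theorem result {X : Type*} [Group X] [Finite X]
    (hX : IsPGroup 2 X) (E : Subgroup X) [E.Normal] (hE : Cfsg.IsElementaryAbelian 2 E) (hE32 : 32 ≤ Nat.card ↥E) :
    (∀ A B : Subgroup X, Cfsg.IsElementaryAbelian 2 A → Nat.card ↥A = 8 → Cfsg.IsElementaryAbelian 2 B → Nat.card ↥B = 8 →
        Relation.ReflTransGen
          (fun C D : Subgroup X => Cfsg.IsElementaryAbelian 2 C ∧ Nat.card ↥C = 8 ∧ Cfsg.IsElementaryAbelian 2 D ∧ Nat.card ↥D = 8 ∧ ⁅C, D⁆ = ⊥)
          A B) ∧
      (∀ V : Subgroup X, Cfsg.IsElementaryAbelian 2 V → Nat.card ↥V = 4 →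
        ∃ A : Subgroup X, V ≤ A ∧ Cfsg.IsElementaryAbelian 2 A ∧ Nat.card ↥A = 8) := by
  classical
  haveI : Fact (Nat.Prime 2) := ⟨Nat.prime_two⟩
  have hsq : ∀ {W : Subgroup X}, Cfsg.IsElementaryAbelian 2 W → ∀ w ∈ W, w * w = 1 := fun hW w hw => by
    rw [← pow_two]; exact hW.2 w hw
  have hcom : ∀ {W : Subgroup X}, Cfsg.IsElementaryAbelian 2 W → ∀ u ∈ W, ∀ v ∈ W, u * v = v * u :=
    fun hW u hu v hv => congrArg Subtype.val (hW.1.1.1 (⟨u, hu⟩ : _) ⟨v, hv⟩)
  have hsub : ∀ {W U : Subgroup X}, Cfsg.IsElementaryAbelian 2 W → U ≤ W → Cfsg.IsElementaryAbelian 2 U :=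
    fun hW hU => ⟨⟨⟨fun u v => Subtype.ext (hcom hW _ (hU u.2) _ (hU v.2))⟩⟩, fun a ha => hW.2 a (hU ha)⟩
  have hpow : ∀ W : Subgroup X, ∃ m, Nat.card ↥W = 2 ^ m := fun W => (hX.to_subgroup W).exists_card_eq
  -- fixed points of one and of two involutions
  let C : Set X → Subgroup X := fun S => E ⊓ Subgroup.centralizer S
  have hC1 : ∀ a : X, a * a = 1 → 8 ≤ Nat.card ↥(C {a}) := by
    intro a ha
    obtain ⟨m, hm⟩ := hpow (C {a})
    have h : 32 ≤ Nat.card ↥(C {a}) ^ 2 := hE32.trans
      (Cfsg.Agent.H58.card_le_sq_centralizer hE ha fun w hw => (inferInstance : E.Normal).conj_mem w hw a)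
    rw [hm, ← pow_mul] at h
    have hm3 : 3 ≤ m := by
      by_contra hlt
      have : 2 ^ (m * 2) ≤ 2 ^ 4 := Nat.pow_le_pow_right (by norm_num) (by omega)
      omega
    rw [hm]
    exact le_trans (by norm_num) (Nat.pow_le_pow_right (by norm_num : 0 < 2) hm3)
  have hstep : ∀ (S : Set X) (b : X), b * b = 1 → (∀ s ∈ S, s * b = b * s) →
      Nat.card ↥(C S) ≤ Nat.card ↥(C (insert b S)) ^ 2 := by
    intro S b hb hbS
    refine (Cfsg.Agent.H58.card_le_sq_centralizer (hsub hE inf_le_left) hb ?_).trans (le_of_eq ?_)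
    · intro w hw
      refine ⟨(inferInstance : E.Normal).conj_mem w hw.1 b, Subgroup.mem_centralizer_iff.mpr fun s hs => ?_⟩
      calc s * (b * w * b⁻¹) = (s * b) * w * b⁻¹ := by group
        _ = b * (s * w) * b⁻¹ := by rw [hbS s hs]; group
        _ = b * (w * s) * b⁻¹ := by rw [Subgroup.mem_centralizer_iff.mp hw.2 s hs]
        _ = b * w * (s * b⁻¹) := by group
        _ = b * w * (b⁻¹ * s) := by rw [(show Commute s b from hbS s hs).inv_right.eq]
        _ = b * w * b⁻¹ * s := by group
    · refine congrArg (fun W : Subgroup X => Nat.card ↥W ^ 2) ?_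
      ext w
      show w ∈ (E ⊓ Subgroup.centralizer S) ⊓ Subgroup.centralizer {b} ↔
        w ∈ E ⊓ Subgroup.centralizer (insert b S)
      simp only [Subgroup.mem_inf, Subgroup.mem_centralizer_iff, Set.mem_singleton_iff, Set.mem_insert_iff, forall_eq_or_imp, forall_eq]
      tauto
  have hC2 : ∀ a b : X, a * a = 1 → b * b = 1 → a * b = b * a → 4 ≤ Nat.card ↥(C {b, a}) := by
    intro a b ha hb hab
    obtain ⟨m, hm⟩ := hpow (C {b, a})
    have h := (hC1 a ha).trans (hstep {a} b hb (fun s hs => by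
      rw [Set.mem_singleton_iff] at hs; rw [hs, hab]))
    rw [hm, ← pow_mul] at h
    have hm2 : 2 ≤ m := by
      by_contra hlt
      have : 2 ^ (m * 2) ≤ 2 ^ 2 := Nat.pow_le_pow_right (by norm_num) (by omega)
      omega
    rw [hm]
    exact le_trans (by norm_num) (Nat.pow_le_pow_right (by norm_num : 0 < 2) hm2)
  have hlarge : ∀ {W U : Subgroup X}, Nat.card ↥U < Nat.card ↥W → ∃ x ∈ W, x ∉ U := by
    intro W U h
    by_contra hno
    push Not at hno
    exact absurd (Subgroup.card_le_of_le (K := U) hno) (not_le.mpr h)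
  have hbot : Cfsg.IsElementaryAbelian 2 (⊥ : Subgroup X) :=
    ⟨inferInstance, fun a ha => by rw [Subgroup.mem_bot.mp ha, one_pow]⟩
  have hone : ∀ a : X, a * a = 1 → a ≠ 1 → Cfsg.IsElementaryAbelian 2 (Subgroup.zpowers a) ∧
      Nat.card ↥(Subgroup.zpowers a) = 2 := by
    intro a ha ha1
    have := Cfsg.Agent.H58.elementary_sup_involution hbot ha
      (fun h hh => by rw [Subgroup.mem_bot.mp hh]; simp) (by rwa [Subgroup.mem_bot])
    simpa using this
  refine ⟨?_, ?_⟩
  · obtain ⟨E0, -, hE0E, hE0, hE08⟩ := Cfsg.Agent.H58.exists_elementary_eight hE (bot_le (a := E))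
      (Nat.zero_le 3) Subgroup.card_bot (le_trans (by norm_num) hE32)
    let r := fun C D : Subgroup X => Cfsg.IsElementaryAbelian 2 C ∧ Nat.card ↥C = 8 ∧
      Cfsg.IsElementaryAbelian 2 D ∧ Nat.card ↥D = 8 ∧ ⁅C, D⁆ = ⊥
    have hr : ∀ P Q : Subgroup X, r P Q → r Q P := fun P Q h =>
      ⟨h.2.2.1, h.2.2.2.1, h.1, h.2.1, by rw [Subgroup.commutator_comm]; exact h.2.2.2.2⟩
    have hrs : ∀ {P Q : Subgroup X}, Relation.ReflTransGen r P Q → Relation.ReflTransGen r Q P := by
      intro P Q h
      induction h with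
      | refl => exact Relation.ReflTransGen.refl
      | tail _ h2 ih => exact Relation.ReflTransGen.head (hr _ _ h2) ih
    have adj : ∀ {P Q : Subgroup X}, Cfsg.IsElementaryAbelian 2 P → Nat.card ↥P = 8 →
        Cfsg.IsElementaryAbelian 2 Q → Nat.card ↥Q = 8 → (∀ p ∈ P, ∀ q ∈ Q, p * q = q * p) → r P Q :=
      fun hP hP8 hQ hQ8 h => ⟨hP, hP8, hQ, hQ8,
        Subgroup.commutator_eq_bot_iff_le_centralizer.mpr fun p hp q hq => (h p hp q hq).symm⟩
    suffices key : ∀ A : Subgroup X, Cfsg.IsElementaryAbelian 2 A → Nat.card ↥A = 8 →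
        Relation.ReflTransGen r A E0 from
      fun A B hA hA8 hB hB8 => (key A hA hA8).trans (hrs (key B hB hB8))
    intro A hA hA8
    obtain ⟨x, hx, hx1⟩ := hlarge (W := A) (U := ⊥) (by rw [Subgroup.card_bot, hA8]; norm_num)
    rw [Subgroup.mem_bot] at hx1
    obtain ⟨hX1, hX1c⟩ := hone x (hsq hA x hx) hx1
    obtain ⟨y, hy, hyn⟩ := hlarge (W := A) (U := Subgroup.zpowers x) (by omega)
    obtain ⟨hX2, hX2c⟩ := Cfsg.Agent.H58.elementary_sup_involution hX1 (hsq hA y hy)
      (fun h hh => hcom hA h (Subgroup.zpowers_le.mpr hx hh) y hy) hyn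
    obtain ⟨z, hz, hzn⟩ := hlarge (W := A) (U := Subgroup.zpowers x ⊔ Subgroup.zpowers y) (by omega)
    obtain ⟨hX3, hX3c⟩ := Cfsg.Agent.H58.elementary_sup_involution hX2 (hsq hA z hz)
      (fun h hh => hcom hA h ((sup_le (Subgroup.zpowers_le.mpr hx) (Subgroup.zpowers_le.mpr hy)) hh) z hz) hzn
    have hgen : Subgroup.zpowers x ⊔ Subgroup.zpowers y ⊔ Subgroup.zpowers z = A :=
      Subgroup.eq_of_le_of_card_ge
        (sup_le (sup_le (Subgroup.zpowers_le.mpr hx) (Subgroup.zpowers_le.mpr hy)) (Subgroup.zpowers_le.mpr hz))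
        (by omega)
    obtain ⟨e, he, he1⟩ : ∃ e ∈ C {z, y, x}, e ≠ 1 := by
      have h := (hC2 x y (hsq hA x hx) (hsq hA y hy) (hcom hA x hx y hy)).trans
        (hstep {y, x} z (hsq hA z hz) (fun s hs => by
          rcases hs with rfl | rfl
          · exact hcom hA _ hy _ hz
          · exact hcom hA _ hx _ hz))
      obtain ⟨e, he, he1⟩ := hlarge (W := C {z, y, x}) (U := ⊥) (by
        rw [Subgroup.card_bot]
        by_contra hlt
        have hle := Nat.pow_le_pow_left (not_lt.mp hlt) 2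
        omega)
      exact ⟨e, he, by rwa [Subgroup.mem_bot] at he1⟩
    have heA : ∀ a ∈ A, a * e = e * a := by
      intro a ha
      rw [← hgen] at ha
      have hle : Subgroup.zpowers x ⊔ Subgroup.zpowers y ⊔ Subgroup.zpowers z ≤ Subgroup.centralizer {e} := by
        refine sup_le (sup_le ?_ ?_) ?_ <;> rw [Subgroup.zpowers_le, Subgroup.mem_centralizer_singleton_iff] <;>
          exact Subgroup.mem_centralizer_iff.mp he.2 _ (by simp)
      exact Subgroup.mem_centralizer_singleton_iff.mp (hle ha)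
    have hee : e * e = 1 := hsq hE e he.1
    obtain ⟨hY1, hY1c⟩ := hone e hee he1
    obtain ⟨a, ha, han⟩ := hlarge (W := A) (U := Subgroup.zpowers e) (by omega)
    obtain ⟨hY2, hY2c⟩ := Cfsg.Agent.H58.elementary_sup_involution hY1 (hsq hA a ha)
      (fun h hh => by
        have hcc : Subgroup.zpowers e ≤ Subgroup.centralizer {a} :=
          Subgroup.zpowers_le.mpr (Subgroup.mem_centralizer_singleton_iff.mpr (heA a ha).symm)
        exact Subgroup.mem_centralizer_singleton_iff.mp (hcc hh)) han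
    obtain ⟨b, hb, hbn⟩ := hlarge (W := A) (U := Subgroup.zpowers e ⊔ Subgroup.zpowers a) (by omega)
    obtain ⟨hY3, hY3c⟩ := Cfsg.Agent.H58.elementary_sup_involution hY2 (hsq hA b hb)
      (fun h hh => by
        have hcc : Subgroup.zpowers e ⊔ Subgroup.zpowers a ≤ Subgroup.centralizer {b} :=
          sup_le (Subgroup.zpowers_le.mpr (Subgroup.mem_centralizer_singleton_iff.mpr (heA b hb).symm))
            (Subgroup.zpowers_le.mpr (Subgroup.mem_centralizer_singleton_iff.mpr (hcom hA a ha b hb)))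
        exact Subgroup.mem_centralizer_singleton_iff.mp (hcc hh)) hbn
    set D1 := Subgroup.zpowers e ⊔ Subgroup.zpowers a ⊔ Subgroup.zpowers b with hD1
    have hD1m : ∀ {S : Set X}, (∀ s ∈ S, s * e = e * s ∧ s * a = a * s ∧ s * b = b * s) →
        D1 ≤ Subgroup.centralizer S := by
      intro S h
      refine sup_le (sup_le ?_ ?_) ?_ <;> rw [Subgroup.zpowers_le, Subgroup.mem_centralizer_iff]
      · exact fun s hs => (h s hs).1
      · exact fun s hs => (h s hs).2.1
      · exact fun s hs => (h s hs).2.2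
    have hD1A : D1 ≤ Subgroup.centralizer (A : Set X) :=
      hD1m fun s hs => ⟨heA s hs, hcom hA s hs a ha, hcom hA s hs b hb⟩
    have step1 : r A D1 := adj hA hA8 hY3 (by omega) fun p hp q hq =>
      Subgroup.mem_centralizer_iff.mp (hD1A hq) p hp
    have haa := hsq hA a ha
    have hbb := hsq hA b hb
    set W := C {b, a} with hWdef
    have hW4 : 4 ≤ Nat.card ↥W := hC2 a b haa hbb (hcom hA a ha b hb)
    have hWel : Cfsg.IsElementaryAbelian 2 W := hsub hE inf_le_left
    have hWa : ∀ w ∈ W, w * a = a * w := fun w hw =>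
      (Subgroup.mem_centralizer_iff.mp hw.2 a (by simp)).symm
    have hWb : ∀ w ∈ W, w * b = b * w := fun w hw =>
      (Subgroup.mem_centralizer_iff.mp hw.2 b (by simp)).symm
    obtain ⟨U, hUel, hU8, hUD, hUE⟩ : ∃ U : Subgroup X, Cfsg.IsElementaryAbelian 2 U ∧ 8 ≤ Nat.card ↥U ∧
        (∀ u ∈ U, ∀ d ∈ D1, d * u = u * d) ∧ (∀ u ∈ U, ∀ w ∈ C {a}, u * w = w * u) := by
      by_cases haW : a ∈ W
      · refine ⟨W, hWel, (hC1 b hbb).trans (Subgroup.card_le_of_le fun w hw => ?_), ?_, ?_⟩
        · refine ⟨hw.1, Subgroup.mem_centralizer_iff.mpr fun s hs => ?_⟩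
          rcases hs with rfl | rfl
          · exact Subgroup.mem_centralizer_iff.mp hw.2 _ rfl
          · exact hcom hE _ haW.1 _ hw.1
        · intro u hu d hd
          have := hD1m (S := {u}) (fun s hs => by
            rw [Set.mem_singleton_iff] at hs; subst hs
            exact ⟨hcom hE _ hu.1 _ he.1, hWa _ hu, hWb _ hu⟩) hd
          exact Subgroup.mem_centralizer_singleton_iff.mp this
        · exact fun u hu w hw => hcom hE u hu.1 w hw.1
      · obtain ⟨hU, hUc⟩ := Cfsg.Agent.H58.elementary_sup_involution hWel haa hWa haW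
        refine ⟨_, hU, by omega, ?_, ?_⟩
        · intro u hu d hd
          have hle : W ⊔ Subgroup.zpowers a ≤ Subgroup.centralizer {d} := by
            refine sup_le (fun w hw => Subgroup.mem_centralizer_singleton_iff.mpr ?_)
              (Subgroup.zpowers_le.mpr (Subgroup.mem_centralizer_singleton_iff.mpr ?_))
            · have := hD1m (S := {w}) (fun s hs => by
                rw [Set.mem_singleton_iff] at hs; subst hs
                exact ⟨hcom hE _ hw.1 _ he.1, hWa _ hw, hWb _ hw⟩) hd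
              exact (Subgroup.mem_centralizer_singleton_iff.mp this).symm
            · exact Subgroup.mem_centralizer_iff.mp (hD1A hd) a ha
          exact (Subgroup.mem_centralizer_singleton_iff.mp (hle hu)).symm
        · intro u hu w hw
          have hle : W ⊔ Subgroup.zpowers a ≤ Subgroup.centralizer {w} := by
            refine sup_le (fun v hv => Subgroup.mem_centralizer_singleton_iff.mpr (hcom hE v hv.1 w hw.1))
              (Subgroup.zpowers_le.mpr (Subgroup.mem_centralizer_singleton_iff.mpr ?_))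
            exact Subgroup.mem_centralizer_iff.mp hw.2 a rfl
          exact Subgroup.mem_centralizer_singleton_iff.mp (hle hu)
    obtain ⟨D2, -, hD2U, hD2, hD28⟩ := Cfsg.Agent.H58.exists_elementary_eight hUel (bot_le (a := U))
      (Nat.zero_le 3) Subgroup.card_bot hU8
    obtain ⟨D3, -, hD3W, hD3, hD38⟩ := Cfsg.Agent.H58.exists_elementary_eight
      (hsub hE (inf_le_left : C {a} ≤ E)) (bot_le (a := C {a})) (Nat.zero_le 3) Subgroup.card_bot (hC1 a haa)
    have step2 : r D1 D2 := adj hY3 (by omega) hD2 hD28 fun p hp q hq => hUD q (hD2U hq) p hp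
    have step3 : r D2 D3 := adj hD2 hD28 hD3 hD38 fun p hp q hq => hUE p (hD2U hp) q (hD3W hq)
    have step4 : r D3 E0 := adj hD3 hD38 hE0 hE08 fun p hp q hq => hcom hE p (hD3W hp).1 q (hE0E hq)
    exact (((Relation.ReflTransGen.single step1).tail step2).tail step3).tail step4
  · intro V hV hV4
    obtain ⟨x, hx, hx1⟩ := hlarge (W := V) (U := ⊥) (by rw [Subgroup.card_bot, hV4]; norm_num)
    rw [Subgroup.mem_bot] at hx1
    obtain ⟨hX1, hX1c⟩ := hone x (hsq hV x hx) hx1
    obtain ⟨y, hy, hyn⟩ := hlarge (W := V) (U := Subgroup.zpowers x) (by omega)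
    have hgen : Subgroup.zpowers x ⊔ Subgroup.zpowers y = V := by
      refine Subgroup.eq_of_le_of_card_ge (sup_le (Subgroup.zpowers_le.mpr hx) (Subgroup.zpowers_le.mpr hy)) ?_
      rw [(Cfsg.Agent.H58.elementary_sup_involution hX1 (hsq hV y hy)
        (fun h hh => hcom hV h (Subgroup.zpowers_le.mpr hx hh) y hy) hyn).2]
      omega
    have hW := hC2 x y (hsq hV x hx) (hsq hV y hy) (hcom hV x hx y hy)
    have hWc : ∀ w ∈ C {y, x}, ∀ v ∈ V, v * w = w * v := by
      intro w hw v hv
      have hle : V ≤ Subgroup.centralizer {w} := by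
        rw [← hgen]
        refine sup_le ?_ ?_ <;> rw [Subgroup.zpowers_le, Subgroup.mem_centralizer_singleton_iff] <;>
          exact Subgroup.mem_centralizer_iff.mp hw.2 _ (by simp)
      exact Subgroup.mem_centralizer_singleton_iff.mp (hle hv)
    by_cases hsame : C {y, x} ≤ V
    · have hVE : V ≤ E := by
        rw [← Subgroup.eq_of_le_of_card_ge hsame (by omega)]
        exact inf_le_left
      obtain ⟨D, hVD, -, hD, hD8⟩ := Cfsg.Agent.H58.exists_elementary_eight (n := 2) hE hVE (by norm_num)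
        (by rw [hV4]; norm_num) (le_trans (by norm_num) hE32)
      exact ⟨D, hVD, hD, hD8⟩
    · obtain ⟨w, hw, hwV⟩ := SetLike.not_le_iff_exists.mp hsame
      obtain ⟨hD, hDc⟩ := Cfsg.Agent.H58.elementary_sup_involution hV (hsq hE w hw.1) (hWc w hw) hwV
      exact ⟨_, le_sup_left, hD, by omega⟩

end Cfsg.Agent.S1785
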