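import Cfsg.Statements.S1786
import Cfsg.Agent.H76.TISpread.Main
import Cfsg.Agent.H51.FStar

set_option autoImplicit false
open Cfsg

namespace Cfsg.Agent.S1786

/-- Let G be a finite group, V an elementary abelian 2-subgroup of G and M the normalizer of V; write Q for the largest normal 2-subgroup of M. Suppose (1) the generalized Fitting subgroup of M equals Q; (2) V is a maximal abelian normal subgroup of M; (3) every conjugate of V equals V or meets V trivially, and for some g ∈ G the conjugate V' = g V g⁻¹ is different from V and contained in Q. Let P be the centralizer of V in Q, W the subgroup generated by V and V', and H the subgroup generated by P and g P g⁻¹. Then: (a) V is contained in g Q g⁻¹; (b) every non-identity element of W lies in exactly one conjugate of V contained in W, H normalizes W, and H modulo the centralizer of W in H is isomorphic to the special linear group of dimension 2 over the field with |V| elements; (c) P = Q, and V equals the Frattini subgroup, the centre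 and the commutator subgroup of Q. -/
theorem result {G : Type*} [Group G] [Finite G] (V : Subgroup G)
    (hV : Cfsg.IsElementaryAbelian 2 V)
    (h1 : (Cfsg.generalizedFittingSubgroup ↥(Subgroup.normalizer (V : Set G))).map (Subgroup.normalizer (V : Set G)).subtype =
      (Cfsg.pCore 2 ↥(Subgroup.normalizer (V : Set G))).map (Subgroup.normalizer (V : Set G)).subtype)
    (h2 : ∀ A : Subgroup G, V ≤ A → A ≤ Subgroup.normalizer (V : Set G) → IsMulCommutative ↥A →
      (∀ m ∈ Subgroup.normalizer (V : Set G), ∀ a ∈ A, m * a * m⁻¹ ∈ A) → A = V)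
    (hti : ∀ x : G, V.map (MulAut.conj x).toMonoidHom = V ∨ V.map (MulAut.conj x).toMonoidHom ⊓ V = ⊥)
    (g : G) (hg : V.map (MulAut.conj g).toMonoidHom ≠ V)
    (hgQ : V.map (MulAut.conj g).toMonoidHom ≤ (Cfsg.pCore 2 ↥(Subgroup.normalizer (V : Set G))).map (Subgroup.normalizer (V : Set G)).subtype) :
    let Q : Subgroup G := (Cfsg.pCore 2 ↥(Subgroup.normalizer (V : Set G))).map (Subgroup.normalizer (V : Set G)).subtype
    let P : Subgroup G := Q ⊓ Subgroup.centralizer (V : Set G)
    let W : Subgroup G := V ⊔ V.map (MulAut.conj g).toMonoidHom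
    let H : Subgroup G := P ⊔ P.map (MulAut.conj g).toMonoidHom
    V ≤ Q.map (MulAut.conj g).toMonoidHom ∧
      (∀ w ∈ W, w ≠ 1 → ∃! U : Subgroup G, (∃ x : G, U = V.map (MulAut.conj x).toMonoidHom) ∧ U ≤ W ∧ w ∈ U) ∧
      H ≤ Subgroup.normalizer (W : Set G) ∧
      (∀ hN : ((Subgroup.centralizer (W : Set G)).subgroupOf H).Normal, ∃ (F : Type) (_ : Field F) (_ : Fintype F), Fintype.card F = Nat.card ↥V ∧
        Nonempty (↥H ⧸ (Subgroup.centralizer (W : Set G)).subgroupOf H ≃* Matrix.SpecialLinearGroup (Fin 2) F)) ∧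
      P = Q ∧ (frattini ↥Q).map Q.subtype = V ∧ (Subgroup.center ↥Q).map Q.subtype = V ∧ (commutator ↥Q).map Q.subtype = V := by
  haveI : Fact (Nat.Prime 2) := ⟨Nat.prime_two⟩
  have hcomm : IsMulCommutative V := hV.1
  have hS : Cfsg.Agent.H76.TISpread.Setting V := by
    refine ⟨fun v hv => by rw [← sq]; exact hV.2 v hv, ?_, ?_, ?_⟩
    · intro x y w hw hwx hwy
      have key : ∀ z : G, ∀ u, u ≠ 1 → u ∈ V → u ∈ Cfsg.Agent.H76.TISpread.cj V z →
          Cfsg.Agent.H76.TISpread.cj V z = V := by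
        intro z u hu huV huz
        rcases hti z with e | e
        · exact e
        · exact absurd (Subgroup.mem_bot.1 (e ▸ (⟨huz, huV⟩ : u ∈ V.map (MulAut.conj z).toMonoidHom ⊓ V))) hu
      have h1 := key (y⁻¹ * x) (y⁻¹ * w * y)
        (fun e => hw (by rwa [mul_assoc, inv_mul_eq_one, eq_comm, mul_eq_right] at e))
        (Cfsg.Agent.H76.TISpread.mem_cj.1 hwy) (by
          rw [← Cfsg.Agent.H76.TISpread.cj_cj, Cfsg.Agent.H76.TISpread.mem_cj, inv_inv]
          simpa [mul_assoc] using hwx)
      have h2 := congrArg (fun U => Cfsg.Agent.H76.TISpread.cj U y) h1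
      simpa [Cfsg.Agent.H76.TISpread.cj_cj] using h2
    · intro m hm hmc
      have hmem : (⟨m, hm⟩ : Subgroup.normalizer (V : Set G)) ∈
          Cfsg.generalizedFittingSubgroup ↥(Subgroup.normalizer (V : Set G)) := by
        refine Cfsg.Agent.H51.centralizer_generalizedFitting_le _ (Subgroup.mem_centralizer_iff.2 fun y hy => ?_)
        have hy' := h1.le ⟨y, hy, rfl⟩
        exact Subtype.ext (hmc _ hy').symm
      exact h1.le ⟨_, hmem, rfl⟩
    · intro A hVA hAN hAc hAn
      exact h2 A hVA hAN ⟨⟨fun a b => Subtype.ext (hAc a a.2 b b.2)⟩⟩ hAn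
  have hp : Cfsg.Agent.H76.TISpread.Pair V (V.map (MulAut.conj g).toMonoidHom) :=
    ⟨hS, ⟨g, rfl⟩, hg, hgQ⟩
  intro Q P W H
  have hPe : P.map (MulAut.conj g).toMonoidHom =
      Cfsg.Agent.H76.TISpread.nP (V.map (MulAut.conj g).toMonoidHom) :=
    (Cfsg.Agent.H76.TISpread.nP_cj V g).symm
  have hHe : H = Cfsg.Agent.H76.TISpread.nP V ⊔
      Cfsg.Agent.H76.TISpread.nP (V.map (MulAut.conj g).toMonoidHom) := by
    show P ⊔ _ = _
    rw [hPe]; rfl
  refine ⟨?_, ?_, ?_, ?_, hp.nP_eq_nQ, hp.frattini_eq, hp.center_eq, hp.commutator_eq⟩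
  · exact hp.le_nQ'.trans_eq (Cfsg.Agent.H76.TISpread.nQ_cj V g)
  · intro w hw hw1
    obtain ⟨x, hle, hx⟩ := hp.exists_component hw
    refine ⟨_, ⟨⟨x, rfl⟩, hle, hx⟩, ?_⟩
    rintro U ⟨⟨y, rfl⟩, -, hy⟩
    exact hS.ti y x w hw1 hy hx
  · rw [hHe]; exact hp.sup_nP_le
  · rw [hHe]; exact hp.main.1

end Cfsg.Agent.S1786
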