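import Cfsg.Statements.S1824
import Cfsg.Agent.H60.Qrc.CaseA
import Cfsg.Agent.H60.Qrc.Core

set_option autoImplicit false
open Cfsg Cfsg.Agent Cfsg.Agent.H60.Qrc

namespace Cfsg.Agent.S1824

/-- The qrc-lemma in the form used for simple QTKE-groups. Let G be a non-abelian finite simple QTKE-group, T a Sylow 2-subgroup of G and M a maximal 2-local subgroup of G containing T. Let T ≤ M₀ ≤ M, let H be a minimal member of the set of subgroups of G with nontrivial 2-core that contain T and are not contained in M, and let V be a 2-reduced elementary abelian normal 2-subgroup of M₀ with O₂(M₀) = C_T(V). Suppose H ∩ M normalizes O²(M₀) or normalizes V. Then one of the following holds: (1) some nontrivial subgroup of O₂(M₀) is normalized by both M₀ and H; (2) V ≰ O₂(H) and q̂(M₀/C_{M₀}(V), V) ≤ 2; (3) q(M₀/C_{M₀}(V), V) ≤ 2. Here q (resp. q̂) ≤ 2 means that some subgroup of M₀ inducing a nontrivial elementary abelian 2-group A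 on V acts quadratically (resp. cubically) on V with |V : C_V(A)| ≤ |A|². -/
theorem result {G : Type*} [Group G] [Finite G] [IsSimpleGroup G]
    (hG : ¬ IsMulCommutative G) (hQ : Cfsg.IsQTKE G) (T : Sylow 2 G) (M M₀ H V : Subgroup G)
    (hM : M ∈ Cfsg.maxTwoLocalsContaining (T : Subgroup G))
    (hTM₀ : (T : Subgroup G) ≤ M₀) (hM₀M : M₀ ≤ M) (hH : H ∈ Cfsg.calHMin (T : Subgroup G) M)
    (hV : V ∈ Cfsg.calR2 M₀)
    (hR : (Cfsg.pCore 2 ↥M₀).map M₀.subtype = (T : Subgroup G) ⊓ Subgroup.centralizer (V : Set G))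
    (hI : H ⊓ M ≤ Subgroup.normalizer (Cfsg.oddGenerated M₀ : Set G) ∨
      H ⊓ M ≤ Subgroup.normalizer (V : Set G)) :
    (∃ R₀ : Subgroup G, R₀ ≠ ⊥ ∧ R₀ ≤ (Cfsg.pCore 2 ↥M₀).map M₀.subtype ∧
        M₀ ⊔ H ≤ Subgroup.normalizer (R₀ : Set G)) ∨
      (¬ V ≤ (Cfsg.pCore 2 ↥H).map H.subtype ∧ Cfsg.CubicParamLE M₀ V 2) ∨
      Cfsg.QuadParamLE M₀ V 2 := by
  classical
  obtain ⟨⟨⟨hH2, hTH⟩, hHM⟩, hHmin⟩ := hH
  obtain ⟨hVM₀, hM₀V, hVel, hred⟩ := hV
  have hTN : (T : Subgroup G) ≤ H ⊓ M := le_inf hTH (hTM₀.trans hM₀M)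
  have hQne : Cfsg.pCoreOf 2 H ≠ ⊥ := fun h => hH2
    ((Subgroup.map_eq_bot_iff_of_injective _ H.subtype_injective).1 h)
  have c : Ctx T M₀ H (H ⊓ M) V :=
    { hE := hQ.2.2
      hTH := hTH
      hTN := hTN
      hNH := inf_le_left
      hNne := fun e => hHM (inf_eq_left.1 e)
      hmax := fun X hTX hXH hne => by
        refine le_inf hXH (by_contra fun hXM => hne (hHmin X ⟨⟨?_, hTX⟩, hXM⟩ hXH))
        intro hX
        refine hQne (le_bot_iff.1 ?_)
        have h1 : Cfsg.pCoreOf 2 H ≤ Cfsg.pCoreOf 2 X := H72.le_pCoreOf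
          ((H73.QT.pCoreOf_le_sylow T hTH).trans hTX) (hXH.trans (H72.le_normalizer_pCoreOf 2 H))
          (H72.pCoreOf_isPGroup 2 H)
        exact h1.trans (by rw [Cfsg.pCoreOf, hX, Subgroup.map_bot])
      hchar := H73.QT.isCharP_of_mem hQ.2.2 hH2 hTH
      hTM₀ := hTM₀
      hVM₀ := hVM₀
      hM₀V := hM₀V
      hVel := hVel
      hred := hred
      hR := hR
      hI := hI }
  by_contra hcon
  push Not at hcon
  obtain ⟨hno, hcub, hquad⟩ := hcon
  have hq := qfail_of T hTM₀ hM₀V hquad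
  by_cases hVne : V = ⊥
  · have hRT : Cfsg.pCoreOf 2 M₀ = (T : Subgroup G) := by
      rw [c.hR, hVne, inf_eq_left]
      exact Subgroup.le_centralizer_iff.1 bot_le
    have hne : Cfsg.pCoreOf 2 M₀ ≠ ⊥ := fun e => hQne
      (le_bot_iff.1 ((H73.QT.pCoreOf_le_sylow T hTH).trans (hRT.ge.trans e.le)))
    obtain ⟨R₀, h1, h2, h3⟩ := c.exists_common_of_le hne (inf_le_left.trans hRT.ge)
    exact hno R₀ h1 h2 h3
  by_cases hVQ : V ≤ Cfsg.pCoreOf 2 H
  · exact c.false_of_le hq hVQ hVne hno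
  · exact c.not_cfail hVQ (cfail_of T hTM₀ hM₀V (hcub hVQ))

end Cfsg.Agent.S1824
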