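import Cfsg.Statements.S1851
import Cfsg.Agent.H16.SubnormalTwo

set_option autoImplicit false
open Cfsg
open Cfsg.Agent.H16

namespace Cfsg.Agent.S1851

/-- Facts about a member of `ℒ(G, T)`. -/
theorem calL_facts {G : Type*} [Group G] [Finite G] (hE : Cfsg.IsOfEvenCharacteristic G)
    (T : Sylow 2 G) {K : Subgroup G} (hK : K ∈ Cfsg.calL (T : Subgroup G)) :
    K ≠ ⊥ ∧ ⁅K, K⁆ = K ∧ (K.subgroupOf (K ⊔ T)).IsSubnormal ∧ CharTwoSub (K ⊔ (T : Subgroup G)) ∧
      pCoreTwoOf (K ⊔ (T : Subgroup G)) ≤ T := by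
  have : Fact (Nat.Prime 2) := ⟨Nat.prime_two⟩
  obtain ⟨⟨hne, hperf, hsn, -⟩, -, hcore⟩ := hK
  refine ⟨?_, ?_, hsn, charTwoSub_of_sylow_le hE T hcore le_sup_right, ?_⟩
  · intro h; subst h; exact hne (Subgroup.bot_subgroupOf _)
  · have := congrArg (Subgroup.map (K ⊔ (T : Subgroup G)).subtype) hperf
    rwa [Subgroup.map_commutator, Subgroup.map_subgroupOf_eq_of_le le_sup_left] at this
  · have hs : IsPGroup 2 ((T : Subgroup G) ⊔ pCoreTwoOf (K ⊔ (T : Subgroup G)) : Subgroup G) :=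
      T.isPGroup'.to_sup_of_normal_right' (isPGroup_coreTwo _)
        (le_sup_right.trans (le_normalizer_coreTwo _))
    exact le_sup_right.trans (T.is_maximal' hs le_sup_left).le

/-- Let G be a non-abelian finite simple QTKE-group and T a Sylow 2-subgroup of G, and let L be a member of ℒ_f(G, T) (a member of ℒ(G, T) that lies in 𝒳 — L ≠ 1, L = O²(L), F*(L) = O₂(L) — and acts nontrivially on Ω₁(Z(O₂(L)))). Then (1) every member K of ℒ(G, T) containing L is again in ℒ_f(G, T) (a sharper form of (1) also compares the modules [Ω₁(Z(R)), L] and [Ω₁(Z(R')), K] for suitable 2-subgroups R, R'; that comparison is not included); and (2) if L is maximal under inclusion among the members of ℒ_f(G, T), then L is a maximal member of ℒ(G, T), hence a member of ℒ_f*(G, T). -/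
theorem result {G : Type*} [Group G] [Finite G] [IsSimpleGroup G]
    (hG : ¬ IsMulCommutative G) (hQ : Cfsg.IsQTKE G) (T : Sylow 2 G) (L : Subgroup G)
    (hL : L ∈ Cfsg.calLf (T : Subgroup G)) :
    (∀ K ∈ Cfsg.calL (T : Subgroup G), L ≤ K → K ∈ Cfsg.calLf (T : Subgroup G)) ∧
    ((∀ K ∈ Cfsg.calLf (T : Subgroup G), L ≤ K → K = L) → L ∈ Cfsg.calLfMax (T : Subgroup G)) := by
  have : Fact (Nat.Prime 2) := ⟨Nat.prime_two⟩
  obtain ⟨hLL, hLX, hLV⟩ := hL
  obtain ⟨-, hLperf, hLsn, -, hLRT⟩ := calL_facts hQ.2.2 T hLL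
  suffices h1 : ∀ K ∈ Cfsg.calL (T : Subgroup G), L ≤ K → K ∈ Cfsg.calLf (T : Subgroup G) from
    ⟨h1, fun hmax => ⟨⟨hLL, fun K hK hle => hmax K (h1 K hK hle) hle⟩, hLX, hLV⟩⟩
  intro K hK hLK
  obtain ⟨hKne, hKperf, hKsn, hKC, hKRT⟩ := calL_facts hQ.2.2 T hK
  have hKchar : CharTwoSub K := hKC.subnormal le_sup_left hKsn
  refine ⟨hK, ⟨hKne, perfect_le_closure_odd hKperf, hKchar.mem_calHe⟩, fun hKV => ?_⟩
  set HL := L ⊔ (T : Subgroup G)
  set HK := K ⊔ (T : Subgroup G)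
  set R := pCoreTwoOf HL
  set RK := pCoreTwoOf HK
  have hHLK : HL ≤ HK := sup_le_sup_right hLK _
  have hRKR : RK ≤ R :=
    le_coreTwo (hKRT.trans le_sup_right) (hHLK.trans (le_normalizer_coreTwo _)) (isPGroup_coreTwo _)
  -- step 1
  have step1 : ∃ x ∈ L, Odd (orderOf x) ∧ ∃ v, (v ∈ R ∧ v ∈ Subgroup.centralizer (R : Set G)) ∧
      v ^ 2 = 1 ∧ ¬ Commute x v := by
    by_contra hne
    push Not at hne
    set V := Cfsg.omegaOne 2 (pCoreTwoOf L ⊓ Subgroup.centralizer (pCoreTwoOf L : Set G))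
    obtain ⟨x, hx, ho, v₀, hv₀, hxv⟩ := exists_odd_not_commute hLperf (V := V) hLV
    apply hxv
    have hVR : V ≤ R := fun w hw =>
      coreTwo_le_of_subnormal le_sup_left hLsn (mem_omegaOne_center.mp hw).1.1
    have hVab : ∀ a ∈ V, ∀ b ∈ V, Commute a b := fun a ha b hb =>
      ((mem_omegaOne_center.mp hb).1.2 a (mem_omegaOne_center.mp ha).1.1)
    have hxn : x ∈ Subgroup.normalizer (pCoreTwoOf L : Set G) := le_normalizer_coreTwo L hx
    have hrn : ∀ r ∈ R, r ∈ Subgroup.normalizer (L : Set G) := fun r hr =>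
      le_normalizer_of_perfect_subnormal le_sup_left (coreTwo_le HL) (le_normalizer_coreTwo HL)
        (isPGroup_coreTwo HL) hLsn hLperf hr
    have hrQ : ∀ r ∈ R, r ∈ Subgroup.normalizer (pCoreTwoOf L : Set G) := by
      intro r hr
      have key : ∀ g ∈ Subgroup.normalizer (L : Set G), ∀ y ∈ pCoreTwoOf L,
          g * y * g⁻¹ ∈ pCoreTwoOf L := by
        intro g hg y hy
        have hle' : (pCoreTwoOf L).map (MulAut.conj g).toMonoidHom ≤ pCoreTwoOf L := by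
          refine le_coreTwo ?_ ?_ ((isPGroup_coreTwo L).map _)
          · rintro _ ⟨v, hv, rfl⟩
            exact (Subgroup.mem_normalizer_iff.mp hg v).mp (coreTwo_le L hv)
          · intro u hu
            have hu' : g⁻¹ * u * g ∈ L := by
              rw [Subgroup.mem_normalizer_iff.mp hg]; simpa [mul_assoc] using hu
            simpa [mul_assoc] using Subgroup.le_normalizer_map (MulAut.conj g).toMonoidHom
              ⟨_, le_normalizer_coreTwo L hu', rfl⟩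
        exact hle' ⟨y, hy, rfl⟩
      rw [Subgroup.mem_normalizer_iff]
      refine fun y => ⟨key r (hrn r hr) y, fun hy => ?_⟩
      simpa [mul_assoc] using key r⁻¹ ((Subgroup.normalizer _).inv_mem (hrn r hr)) _ hy
    -- `W = [x, V]`
    let f : V →* G := MonoidHom.mk' (fun w => x * (w : G) * x⁻¹ * (w : G)⁻¹) (by
      intro a b
      have hb : x * (b : G) * x⁻¹ ∈ V := omegaOne_center_conj hxn b.2
      have e := (hVab (x * (b : G) * x⁻¹ * (b : G)⁻¹) (V.mul_mem hb (V.inv_mem b.2)) (a : G)⁻¹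
        (V.inv_mem a.2)).eq
      show x * ((a : G) * b) * x⁻¹ * ((a : G) * b)⁻¹ =
        x * (a : G) * x⁻¹ * (a : G)⁻¹ * (x * (b : G) * x⁻¹ * (b : G)⁻¹)
      calc x * ((a : G) * b) * x⁻¹ * ((a : G) * b)⁻¹
          = x * (a : G) * x⁻¹ * ((x * (b : G) * x⁻¹ * (b : G)⁻¹) * (a : G)⁻¹) := by group
        _ = x * (a : G) * x⁻¹ * ((a : G)⁻¹ * (x * (b : G) * x⁻¹ * (b : G)⁻¹)) := by rw [e]
        _ = _ := by group)
    have hfV : ∀ w : V, f w ∈ V := fun w =>
      V.mul_mem (omegaOne_center_conj hxn w.2) (V.inv_mem w.2)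
    set W := f.range
    have hWV : W ≤ V := by rintro _ ⟨w, rfl⟩; exact hfV w
    have hWR : ∀ r ∈ R, ∀ w ∈ W, r * w * r⁻¹ ∈ W := by
      rintro r hr _ ⟨⟨w, hw⟩, rfl⟩
      refine ⟨⟨r * w * r⁻¹, omegaOne_center_conj (hrQ r hr) hw⟩, ?_⟩
      -- `r⁻¹ x r x⁻¹` centralizes `V`
      have hc : r⁻¹ * x * r * x⁻¹ ∈ pCoreTwoOf L := by
        have hn := Subgroup.mem_normalizer_iff.mp ((Subgroup.normalizer _).inv_mem (hrn r hr)) x
        refine le_coreTwo (H := L) (N := L ⊓ R) inf_le_left ?_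
          ((isPGroup_coreTwo HL).to_le inf_le_right) ⟨?_, ?_⟩
        · exact le_trans (le_inf Subgroup.le_normalizer
            ((le_sup_left : L ≤ HL).trans (le_normalizer_coreTwo HL)))
            Subgroup.inf_normalizer_le_normalizer_inf
        · have h2 := L.mul_mem (hn.mp hx) (L.inv_mem hx)
          simpa using h2
        · have h2 := R.mul_mem (R.inv_mem hr) ((Subgroup.mem_normalizer_iff.mp
            (le_normalizer_coreTwo HL ((le_sup_left : L ≤ HL) hx)) r).mp hr)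
          simpa [mul_assoc] using h2
      have hcV : ∀ u ∈ V, Commute (r⁻¹ * x * r * x⁻¹) u := fun u hu =>
        ((mem_omegaOne_center.mp hu).1.2 _ hc)
      have e := (hcV _ (omegaOne_center_conj hxn hw)).eq
      show x * (r * w * r⁻¹) * x⁻¹ * (r * w * r⁻¹)⁻¹ = r * (x * w * x⁻¹ * w⁻¹) * r⁻¹
      calc x * (r * w * r⁻¹) * x⁻¹ * (r * w * r⁻¹)⁻¹
          = r * ((r⁻¹ * x * r * x⁻¹) * (x * w * x⁻¹)) * (r⁻¹ * x * r * x⁻¹)⁻¹ * w⁻¹ * r⁻¹ := by
            group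
        _ = r * ((x * w * x⁻¹) * (r⁻¹ * x * r * x⁻¹)) * (r⁻¹ * x * r * x⁻¹)⁻¹ * w⁻¹ * r⁻¹ := by
            rw [e]
        _ = r * (x * w * x⁻¹ * w⁻¹) * r⁻¹ := by group
    by_contra hxv'
    have hW1 : W.subgroupOf R ≠ ⊥ := by
      intro h
      have hm : (⟨f ⟨v₀, hv₀⟩, hVR (hfV _)⟩ : R) ∈ W.subgroupOf R := ⟨_, rfl⟩
      rw [h] at hm
      have h1 : x * v₀ * x⁻¹ * v₀⁻¹ = 1 := congrArg Subtype.val (Subgroup.mem_bot.mp hm)
      exact hxv' (show x * v₀ = v₀ * x by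
        calc x * v₀ = (x * v₀ * x⁻¹ * v₀⁻¹) * (v₀ * x) := by group
          _ = v₀ * x := by rw [h1, one_mul])
    have hWn : (W.subgroupOf R).Normal := ⟨fun w hw r => hWR r r.2 _ hw⟩
    have hnil := (isPGroup_coreTwo HL).isNilpotent
    obtain ⟨⟨w, hwR⟩, ⟨⟨u, hu⟩, hfu⟩, hw1, hwc⟩ := exists_ne_one_mem_center hWn hW1
    have hfu' : x * u * x⁻¹ * u⁻¹ = w := hfu
    have hwV : w ∈ V := hWV ⟨⟨u, hu⟩, hfu⟩
    have hcx : Commute x w := hne x hx ho w ⟨hwR, fun r hr =>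
      congrArg Subtype.val (Subgroup.mem_center_iff.mp hwc ⟨r, hr⟩)⟩ (mem_omegaOne_center.mp hwV).2
    have := commute_of_odd ho (isPGroup_coreTwo HL) (q := u) (by rw [hfu']; exact hwR)
      (by rw [hfu']; exact hcx)
    apply hw1
    refine Subtype.ext ?_
    show w = 1
    rw [← hfu', this]; group
  obtain ⟨x, hx, ho, v, ⟨hvR, hvc⟩, hv2, hxv⟩ := step1
  -- step 2
  have hvRK : v ∈ RK := hKC ⟨hHLK (coreTwo_le HL hvR), fun y hy => hvc y (hRKR hy)⟩
  have hvK : v ∈ Cfsg.omegaOne 2 (RK ⊓ Subgroup.centralizer (RK : Set G)) :=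
    mem_omegaOne_center.mpr ⟨⟨hvRK, fun y hy => hvc y (hRKR hy)⟩, hv2⟩
  -- step 3
  apply hxv
  have hxK : x ∈ HK := (le_sup_left : K ≤ HK) (hLK hx)
  refine commute_of_odd ho (isPGroup_coreTwo HK) (RK.mul_mem ((Subgroup.mem_normalizer_iff.mp
    (le_normalizer_coreTwo HK hxK) v).mp hvRK) (RK.inv_mem hvRK)) ?_
  have ha := mem_omegaOne_center.mp ((Cfsg.omegaOne 2 _).mul_mem
    (omegaOne_center_conj (le_normalizer_coreTwo HK hxK) hvK) ((Cfsg.omegaOne 2 _).inv_mem hvK))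
  have haK : x * v * x⁻¹ * v⁻¹ ∈ pCoreTwoOf K := by
    refine le_coreTwo (H := K) (N := K ⊓ RK) inf_le_left ?_
      ((isPGroup_coreTwo HK).to_le inf_le_right) ⟨?_, ha.1.1⟩
    · exact le_trans (le_inf Subgroup.le_normalizer
        ((le_sup_left : K ≤ HK).trans (le_normalizer_coreTwo HK)))
        Subgroup.inf_normalizer_le_normalizer_inf
    · rw [show x * v * x⁻¹ * v⁻¹ = x * (v * x⁻¹ * v⁻¹) from by group]
      exact K.mul_mem (hLK hx) ((Subgroup.mem_normalizer_iff.mp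
        (le_normalizer_of_perfect_subnormal le_sup_left (coreTwo_le HK) (le_normalizer_coreTwo HK)
          (isPGroup_coreTwo HK) hKsn hKperf hvRK) _).mp (K.inv_mem (hLK hx)))
  have haM : x * v * x⁻¹ * v⁻¹ ∈ Cfsg.omegaOne 2 (pCoreTwoOf K ⊓
      Subgroup.centralizer (pCoreTwoOf K : Set G)) :=
    mem_omegaOne_center.mpr ⟨⟨haK, fun y hy =>
      ha.1.2 y (coreTwo_le_of_subnormal le_sup_left hKsn hy)⟩, ha.2⟩
  exact (Subgroup.commutator_eq_bot_iff_le_centralizer.mp hKV haM) x (hLK hx)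

end Cfsg.Agent.S1851
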