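import Cfsg.Statements.S1957
import Cfsg.Agent.H60.FourGroupNormal

set_option autoImplicit false
open Cfsg

namespace Cfsg.Agent.S1957

/-- Let `G` be a finite non-abelian simple group in which every local subgroup is solvable and which is of characteristic 2 type. Let `P` be a Sylow 2-subgroup of `G` and `U` a normal subgroup of `P` that is a four-group, with `U` central in `P` if the centre of `P` is not cyclic. Then `U` centralizes every subgroup of odd order of `G` that it normalizes. -/
theorem result {G : Type*} [Group G] [Finite G]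
    [IsSimpleGroup G] (hna : ¬ IsMulCommutative G) (hN : Cfsg.IsNGroup G) (h2 : Cfsg.IsCharacteristicTwoType G)
    (P : Sylow 2 G) (U : Subgroup G) (hUP : U ≤ (P : Subgroup G)) (hUn : (P : Subgroup G) ≤ Subgroup.normalizer (U : Set G))
    (hU4 : IsKleinFour ↥U)
    (hUZ : ¬ IsCyclic ↥((P : Subgroup G) ⊓ Subgroup.centralizer ((P : Subgroup G) : Set G)) →
      U ≤ Subgroup.centralizer ((P : Subgroup G) : Set G))
    (K : Subgroup G) (hK : Odd (Nat.card K)) (hUK : U ≤ Subgroup.normalizer (K : Set G)) :
    U ≤ Subgroup.centralizer (K : Set G) := by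
  exact Cfsg.Agent.H60.four_group_centralizes h2 P U hUP hUn hU4 hUZ K hK hUK

end Cfsg.Agent.S1957
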