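import Cfsg.Statements.S1958
import Cfsg.Agent.H52.CharP

set_option autoImplicit false
open Cfsg

namespace Cfsg.Agent.S1958

/-- Let `G` be a finite group, `p` a prime, and `x, y` commuting elements of order `p` whose centralizers `C_G(x)` and `C_G(y)` are both solvable. Then `O_{p'}(C_G(x)) ∩ C_G(y) = O_{p'}(C_G(y)) ∩ C_G(x)` (balance). -/
theorem result {G : Type*} [Group G] [Finite G]
    (p : ℕ) [Fact p.Prime] (x y : G) (hx : orderOf x = p) (hy : orderOf y = p) (hxy : x * y = y * x)
    (hCx : Group.IsSolvable ↥(Subgroup.centralizer ({x} : Set G))) (hCy : Group.IsSolvable ↥(Subgroup.centralizer ({y} : Set G))) :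
    Cfsg.centralizerPPrimeCore p x ⊓ Subgroup.centralizer {y} = Cfsg.centralizerPPrimeCore p y ⊓ Subgroup.centralizer {x} := by
  have h := fun (a b : G) (ha : orderOf a = p) (hab : a * b = b * a)
      (hb : Group.IsSolvable ↥(Subgroup.centralizer ({b} : Set G))) =>
    le_inf (Cfsg.Agent.H52.core_inf_centralizer_le a b ha hab
        (Cfsg.Agent.H52.pLayer_eq_bot_of_isSolvable hb))
      ((inf_le_left (a := Cfsg.centralizerPPrimeCore p a) (b := Subgroup.centralizer ({b} : Set G))).trans
        (Subgroup.map_subtype_le _))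
  exact le_antisymm (h x y hx hxy hCy) (h y x hy hxy.symm hCx)

end Cfsg.Agent.S1958
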