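import Cfsg.Statements.S1959
import Mathlib
import Cfsg.Agent.H60.LocalToGlobal

set_option autoImplicit false
open Cfsg

namespace Cfsg.Agent.S1959

/-- Let p be a prime, G a finite group with Sylow p-subgroup S, and 𝓦 a set of conjugacy functors for p on G. Suppose that 𝓦 controls strong fusion in N_G(T) for every nonidentity subgroup T of S for which N_S(T) is a Sylow p-subgroup of N_G(T). Then 𝓦 controls strong fusion in G. (A set of functors controls strong fusion in a subgroup H when, for a Sylow p-subgroup T' of H, every conjugation of a tuple of elements of T' into T' by an element of H is a composite of conjugations inside the normalizers N_H(W(T')), W ∈ 𝓦, all intermediate tuples staying in T'.) -/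
theorem result {G : Type*} [Group G] [Finite G] {p : ℕ} [Fact p.Prime] (S : Sylow p G) (𝓦 : Set (Subgroup G → Subgroup G)) (h𝓦 : ∀ W ∈ 𝓦, Cfsg.IsConjugacyFunctor p W) (hloc : ∀ T : Subgroup G, T ≤ (S : Subgroup G) → T ≠ ⊥ → ¬ p ∣ ((S : Subgroup G) ⊓ Subgroup.normalizer ((T : Subgroup G) : Set G)).relIndex (Subgroup.normalizer ((T : Subgroup G) : Set G)) → Cfsg.FamilyControlsStrongFusionIn p 𝓦 (Subgroup.normalizer ((T : Subgroup G) : Set G))) : Cfsg.FamilyControlsStrongFusionIn p 𝓦 ⊤ := by
  exact H61.family_of_fusAll (H61.sylowIn_of_le S le_top) (H60.fusAll_top_of_local h𝓦 S (fun U => H61.Full p (S : Subgroup G) U)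
    (fun U hU _ => H61.exists_full S hU) (fun _ h => h) (fun U hU hne => hloc U hU.1 hne hU.2.2.2))

end Cfsg.Agent.S1959
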