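import Cfsg.Statements.S1962
import Mathlib
import Cfsg.Agent.H60.LocalToGlobal

set_option autoImplicit false
open Cfsg

namespace Cfsg.Agent.S1962

/-- Local-to-global control of transfer through well-placed subgroups. Let p be a prime, G a finite group with Sylow p-subgroup S, and W a conjugacy functor for p on G. If W controls transfer in N_G(T) for every nonidentity subgroup T of S that is well placed in S with respect to W, then W controls transfer in G: S ∩ G' = S ∩ (N_G(W(S)))'. -/
theorem result {G : Type*} [Group G] [Finite G] {p : ℕ} [Fact p.Prime] (S : Sylow p G) (W : Subgroup G → Subgroup G) (hW : Cfsg.IsConjugacyFunctor p W) (hloc : ∀ T : Subgroup G, T ≠ ⊥ → Cfsg.IsWellPlaced p W (S : Subgroup G) T → Cfsg.ControlsTransferIn p W (Subgroup.normalizer ((T : Subgroup G) : Set G))) : Cfsg.ControlsTransferIn p W ⊤ := by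
  have key : ∀ H : Subgroup G, Cfsg.FamilyControlsTransferIn p {W} H ↔ Cfsg.ControlsTransferIn p W H := by
    intro H
    simp only [Cfsg.FamilyControlsTransferIn, Cfsg.ControlsTransferIn, Set.mem_singleton_iff, iSup_iSup_eq_left]
  rw [← key]
  exact H60.transfer_top_of_local (fun V hV => by rw [Set.mem_singleton_iff] at hV; exact hV ▸ hW) S
    (fun U => Cfsg.IsWellPlaced p W (S : Subgroup G) U) (fun U hU _ => by
      obtain ⟨k, hk, hle⟩ := H61.exists_wellPlaced hW S hU
      refine ⟨k, hk, le_inf hle ?_⟩
      rw [← H61.cj_normalizer]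
      exact H61.cj_mono k inf_le_right)
    (fun _ h => H61.isWellPlaced_full S h) (fun U hU hne => (key _).2 (hloc U hne hU))

end Cfsg.Agent.S1962
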