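import Cfsg.Statements.S1966
import Cfsg.Agent.H61.Basic

set_option autoImplicit false
open Cfsg

namespace Cfsg.Agent.S1966

/-- Let p be a prime, G a finite group with Sylow p-subgroup S and 𝓕 a conjugation family for S in G. Then the members of 𝓕 containing O_p(G) still form a conjugation family for S in G. -/
theorem result {G : Type*} [Group G] [Finite G] {p : ℕ} [Fact p.Prime] (S : Sylow p G) (𝓕 : Set (Subgroup G)) (h : Cfsg.IsConjugationFamily 𝓕 (S : Subgroup G)) : Cfsg.IsConjugationFamily {T : Subgroup G | T ∈ 𝓕 ∧ Cfsg.pCore p G ≤ T} (S : Subgroup G) := by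
  have hQn : (Cfsg.pCore p G).Normal := Cfsg.Agent.H19.pCore_normal p G
  have hQS : Cfsg.pCore p G ≤ (S : Subgroup G) := Cfsg.Agent.H19.pCore_le_sylow S
  refine ⟨fun T hT => h.1 T hT.1, fun A g hne hA hAg => ?_⟩
  obtain ⟨n, T, x, hx, hT, hN, h0, hstep⟩ := h.2 (A ∪ (Cfsg.pCore p G : Set G)) g hne.inl
    (Set.union_subset hA hQS) (by
      rintro _ ⟨a, ha | ha, rfl⟩
      · exact hAg ⟨a, ha, rfl⟩
      · exact hQS (by simpa using hQn.conj_mem a ha g⁻¹))
  refine ⟨n, T, x, hx, fun i => ⟨hT i, ?_⟩, hN, fun hn a ha => h0 hn (Or.inl ha),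
    fun i hi => (Set.image_mono Set.subset_union_left).trans (hstep i hi)⟩
  obtain ⟨i, hi⟩ := i
  intro q hq
  rcases i with _ | i
  · exact h0 hi (Or.inr hq)
  · set c := ((List.ofFn x).take (i + 1)).prod with hc
    exact hstep ⟨i, by omega⟩ hi
      ⟨c * q * c⁻¹, Or.inr (hQn.conj_mem q hq c), by simp [← hc, mul_assoc]⟩

end Cfsg.Agent.S1966
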