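import Cfsg.Statements.S1967
import Cfsg.Agent.H61.Functor

set_option autoImplicit false
open Cfsg Cfsg.Agent.H61

namespace Cfsg.Agent.S1967

/-- Let p be a prime, G a finite group with Sylow p-subgroup S and W a conjugacy functor for p on G. Then W controls strong fusion in G if and only if, whenever T ≤ S and g ∈ G satisfy gTg⁻¹ ≤ S, one can write g = n c with n ∈ N_G(W(S)) and c ∈ C_G(T). -/
theorem result {G : Type*} [Group G] [Finite G] {p : ℕ} [Fact p.Prime] (S : Sylow p G) (W : Subgroup G → Subgroup G) (hW : Cfsg.IsConjugacyFunctor p W) : Cfsg.ControlsStrongFusionIn p W ⊤ ↔ ∀ (T : Subgroup G) (g : G), T ≤ (S : Subgroup G) → T.map (MulAut.conj g).toMonoidHom ≤ (S : Subgroup G) → ∃ n ∈ Subgroup.normalizer ((W (S : Subgroup G) : Subgroup G) : Set G), ∃ c ∈ Subgroup.centralizer (T : Set G), g = n * c := by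
  constructor
  · intro h T g hT hgT
    have hS : Cfsg.Agent.H23.IsSylowIn p (S : Subgroup G) ⊤ := sylowIn_of_le S le_top
    have heq : Equivariant p ({W} : Set (Subgroup G → Subgroup G)) := by
      rintro V rfl; exact hW
    obtain ⟨x, hx, e⟩ := controls_of_fusAll hW hS
      (fusAll_of_family heq hS ((family_singleton_iff W ⊤).1 h)) (A := (T : Set G)) (g := g)
      (Subgroup.mem_top g) hT (by rintro _ ⟨a, ha, rfl⟩; exact hgT (conj_mem_cj ha))
    refine ⟨x, hx.2, x⁻¹ * g, ?_, by simp⟩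
    rw [Subgroup.mem_centralizer_iff]
    intro a ha
    have h1 := e a ha
    calc a * (x⁻¹ * g) = x⁻¹ * (x * a * x⁻¹) * g := by group
      _ = x⁻¹ * g * a := by rw [h1]; group
  · intro h
    refine ⟨S, le_top, S.2, (sylowIn_of_le S le_top).2.2, fun A g _ hA hgA => ?_⟩
    obtain ⟨n, hn, c, hc, rfl⟩ := h (Subgroup.closure A) g ((Subgroup.closure_le _).2 hA) (by
      rw [MonoidHom.map_closure, Subgroup.closure_le]
      rintro _ ⟨a, ha, rfl⟩; exact hgA ⟨a, ha, rfl⟩)
    refine ⟨n, ⟨Subgroup.mem_top n, hn⟩, fun a ha => ?_⟩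
    have h1 := Subgroup.mem_centralizer_iff.1 hc a (Subgroup.subset_closure ha)
    calc n * a * n⁻¹ = n * (a * c) * c⁻¹ * n⁻¹ := by group
      _ = n * c * a * (n * c)⁻¹ := by rw [h1]; group

end Cfsg.Agent.S1967
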