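import Cfsg.Statements.S1968
import Cfsg.Agent.H61.Family

set_option autoImplicit false
open Cfsg Cfsg.Agent.H61

namespace Cfsg.Agent.S1968

/-- Let p be a prime, G a finite group with Sylow p-subgroup S and W a conjugacy functor for p on G with Z(P) ≤ W(P) for every p-subgroup P. Let A be a subgroup of Z(S) normalized by N_G(W(S)) that is not weakly closed in S with respect to G. Then there is a subgroup T of S, well placed in S with respect to W, such that: A ≤ T; N_G(W(N_S(T))) normalizes A; N_S(T) is a Sylow p-subgroup of N_G(T); A ≤ Z(N_S(T)); and A is not weakly closed in N_S(T) with respect to N_G(T), that is, some N_G(T)-conjugate of A other than A lies in N_S(T). -/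
theorem result {G : Type*} [Group G] [Finite G] {p : ℕ} [Fact p.Prime] (S : Sylow p G) (W : Subgroup G → Subgroup G) (hW : Cfsg.IsConjugacyFunctor p W) (hWZ : ∀ P : Subgroup G, IsPGroup p ↥P → P ⊓ Subgroup.centralizer (P : Set G) ≤ W P) (A : Subgroup G) (hAZ : A ≤ (S : Subgroup G) ⊓ Subgroup.centralizer ((S : Subgroup G) : Set G)) (hAN : Subgroup.normalizer ((W (S : Subgroup G) : Subgroup G) : Set G) ≤ Subgroup.normalizer ((A : Subgroup G) : Set G)) (hnwc : ¬ Cfsg.IsWeaklyClosed A (S : Subgroup G)) : ∃ T : Subgroup G, Cfsg.IsWellPlaced p W (S : Subgroup G) T ∧ A ≤ T ∧ Subgroup.normalizer ((W ((S : Subgroup G) ⊓ Subgroup.normalizer ((T : Subgroup G) : Set G)) : Subgroup G) : Set G) ≤ Subgroup.normalizer ((A : Subgroup G) : Set G) ∧ ¬ p ∣ ((S : Subgroup G) ⊓ Subgroup.normalizer ((T : Subgroup G) : Set G)).relIndex (Subgroup.normalizer ((T : Subgroup G) : Set G)) ∧ A ≤ Subgroup.centralizer (((S : Subgroup G) ⊓ Subgroup.normalizer ((T : Subgroup G) : Set G) : Subgroup G) : Set G) ∧ ∃ g ∈ Subgroup.normalizer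 ((T : Subgroup G) : Set G), A.map (MulAut.conj g).toMonoidHom ≤ (S : Subgroup G) ⊓ Subgroup.normalizer ((T : Subgroup G) : Set G) ∧ A.map (MulAut.conj g).toMonoidHom ≠ A := by
  classical
  have hpS : IsPGroup p (S : Subgroup G) := S.2
  have hAS : A ≤ (S : Subgroup G) := hAZ.trans inf_le_left
  let Wit : Subgroup G → Prop := fun T => Cfsg.IsWellPlaced p W (S : Subgroup G) T ∧ A ≤ T ∧
    ∃ n ∈ Subgroup.normalizer (T : Set G), n ∉ Subgroup.normalizer (A : Set G)
  have hex : ∃ T, Wit T := by
    by_contra hno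
    refine hnwc ⟨hAS, fun g hg => ?_⟩
    have hgS : cj g A ≤ (S : Subgroup G) := hg
    refine family_induction S _ (wellPlaced_fam hW S)
      (fun B c => A ≤ B → cj c A = A) (fun B C c hCB hR hC => hR (hC.trans hCB))
      (fun B c d h1 h2 hB => by
        have e1 := h1 hB
        have e2 := h2 (e1.symm.le.trans (cj_mono c hB))
        rw [← cj_cj, e1, e2])
      (fun U hU _ n hn hAU => cj_eq_self (by_contra fun hnA => hno ⟨U, hU, hAU, n, hn, hnA⟩))
      hAS hgS le_rfl
  obtain ⟨T, hT, hmax⟩ := Set.exists_max_image {T | Wit T}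
    (fun T : Subgroup G => Nat.card ((S : Subgroup G) ⊓ Subgroup.normalizer (T : Set G) : Subgroup G))
    (Set.toFinite _) hex
  obtain ⟨hwp, hAT, n, hn, hnA⟩ := hT
  set P : Subgroup G := (S : Subgroup G) ⊓ Subgroup.normalizer (T : Set G) with hPdef
  have hPp : IsPGroup p P := hpS.to_le inf_le_left
  have hTP : T ≤ P := le_inf hwp.1 Subgroup.le_normalizer
  have hAC : A ≤ Subgroup.centralizer (P : Set G) :=
    (hAZ.trans inf_le_right).trans (Subgroup.centralizer_le inf_le_left)
  refine ⟨T, hwp, hAT, ?_, hwp.2 0, hAC, n, hn, ?_, fun h => hnA (mem_normalizer_of_cj h)⟩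
  · intro m hm
    by_contra hmA
    rcases (inf_le_left : P ≤ (S : Subgroup G)).eq_or_lt with hPS | hPS
    · exact hmA (hAN (hPS ▸ hm))
    · have hw : Wit (W P) := ⟨isWellPlaced_next hW S hwp,
        (le_inf (hAT.trans hTP) hAC).trans (hWZ P hPp), m, hm, hmA⟩
      have h1 := hmax (W P) hw
      have h2 := card_lt_inf_normalizer hpS hPS
      have h3 : Nat.card ((S : Subgroup G) ⊓ Subgroup.normalizer (P : Set G) : Subgroup G) ≤
          Nat.card ((S : Subgroup G) ⊓ Subgroup.normalizer ((W P : Subgroup G) : Set G) : Subgroup G) :=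
        Subgroup.card_le_of_le (inf_le_inf_left _ (normalizer_le_normalizer_functor hW hPp))
      exact absurd (h2.trans_le (h3.trans h1)) (lt_irrefl _)
  · exact ((cj_mono n hAT).trans (cj_eq_self hn).le).trans hTP

end Cfsg.Agent.S1968
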