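import Cfsg.Statements.S1972
import Cfsg.Agent.H61.TransferApps

set_option autoImplicit false
universe u
open Cfsg Cfsg.Agent.H61

namespace Cfsg.Agent.S1972

/-- Let p be a prime, G a finite group and W an isomorphism-invariant p-group functor (W assigns to every group Q a subgroup W(Q), nontrivial whenever Q is a nontrivial finite p-group, and every isomorphism from a finite p-group Q onto a group R carries W(Q) onto W(R)). Suppose that whenever G* = K/R is a section of G with C_{G*}(O_p(G*)) ≤ O_p(G*) and S* is a Sylow p-subgroup of G* with W(S*) not normal in G*, there is an element g of S* outside O_p(G*) such that [X, g, …, g] ≤ Y with p − 1 entries g, for every chief factor X/Y of G* with X ≤ O_p(G*). Then W controls transfer in every section of G. -/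
theorem result {G : Type u} [Group G] [Finite G] {p : ℕ} [Fact p.Prime] (W : ∀ (Q : Type u) [Group Q], Subgroup Q) (hW : Cfsg.IsCharPFunctor.{u} p W) (hloc : ∀ (K R : Subgroup G) [hR : (R.subgroupOf K).Normal], Subgroup.centralizer ((Cfsg.pCore p (↥K ⧸ R.subgroupOf K) : Subgroup (↥K ⧸ R.subgroupOf K)) : Set (↥K ⧸ R.subgroupOf K)) ≤ Cfsg.pCore p (↥K ⧸ R.subgroupOf K) → ∀ T : Sylow p (↥K ⧸ R.subgroupOf K), ¬ (Cfsg.inducedFunctor (G := (↥K ⧸ R.subgroupOf K)) W ((T : Subgroup (↥K ⧸ R.subgroupOf K)))).Normal → ∃ g : (↥K ⧸ R.subgroupOf K), g ∈ (T : Subgroup (↥K ⧸ R.subgroupOf K)) ∧ g ∉ Cfsg.pCore p (↥K ⧸ R.subgroupOf K) ∧ ∀ U V : Subgroup (↥K ⧸ R.subgroupOf K), Cfsg.IsChiefFactor U V → U ≤ Cfsg.pCore p (↥K ⧸ R.subgroupOf K) → Cfsg.iterCommutator U (Subgroup.zpowers g) (p - 1) ≤ V) : ∀ (K R : Subgroup G) [hR : (R.subgroupOf K).Normal], Cfsg.ControlsTransferIn p (Cfsg.inducedFunctor (G := (↥K ⧸ R.subgroupOf K)) W) ⊤ := by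
  intro K R hR
  refine controlsTransfer_of_trOK (trOK_of_engel (G := G) hW (fun X _ _ hX hC T hn => ?_)
    (sect_of_pair K R))
  obtain ⟨K', R', hR', ⟨e⟩⟩ := hX.exists_equiv
  let T' : Sylow p (↥K' ⧸ R'.subgroupOf K') := T.comapOfInjective e.toMonoidHom e.injective
    (by intro x _; exact ⟨e.symm x, by simp⟩)
  have hT : ((T' : Subgroup (↥K' ⧸ R'.subgroupOf K'))).map e.toMonoidHom = (T : Subgroup X) := by
    exact Subgroup.map_comap_eq_self_of_surjective (f := e.toMonoidHom) e.surjective _
  have hn' : ¬ (Cfsg.inducedFunctor (G := (↥K' ⧸ R'.subgroupOf K')) W (T' : Subgroup _)).Normal := by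
    intro h
    apply hn
    rw [← hT, induced_map hW _ e.injective T'.2]
    exact h.map _ e.surjective
  obtain ⟨g, hgT, hgQ, hg⟩ := hloc K' R' (hC.of_equiv e) T' hn'
  refine ⟨e g, hT ▸ Subgroup.mem_map_of_mem e.toMonoidHom hgT, fun h => hgQ ?_, fun U V hUV hU => ?_⟩
  · rw [← map_pCore_equiv e] at h
    obtain ⟨y, hy, hye⟩ := h
    exact e.injective hye ▸ hy
  · have hinj := e.symm.injective
    have hUV' : Cfsg.IsChiefFactor (U.comap e.toMonoidHom) (V.comap e.toMonoidHom) := by
      obtain ⟨hlt, hUn, hVn, hmax⟩ := hUV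
      refine ⟨(Subgroup.comap_lt_comap_of_surjective e.surjective).2 hlt, hUn.comap _, hVn.comap _,
        fun N hN h1 h2 => ?_⟩
      have hN' : N = (N.map e.toMonoidHom).comap e.toMonoidHom :=
        (Subgroup.comap_map_eq_self_of_injective e.injective N).symm
      rcases hmax (N.map e.toMonoidHom) (hN.map _ e.surjective)
        (by rw [← Subgroup.map_comap_eq_self_of_surjective (f := e.toMonoidHom) e.surjective V]; exact Subgroup.map_mono h1)
        (by rw [← Subgroup.map_comap_eq_self_of_surjective (f := e.toMonoidHom) e.surjective U]; exact Subgroup.map_mono h2)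
        with h' | h'
      · exact Or.inl (by rw [hN', h'])
      · exact Or.inr (by rw [hN', h'])
    have hU' : U.comap e.toMonoidHom ≤ Cfsg.pCore p (↥K' ⧸ R'.subgroupOf K') := by
      rw [← map_pCore_equiv e] at hU
      exact (Subgroup.comap_mono hU).trans
        (Subgroup.comap_map_eq_self_of_injective e.injective _).le
    have hmap : ∀ n, (Cfsg.iterCommutator (U.comap e.toMonoidHom) (Subgroup.zpowers g) n).map
        e.toMonoidHom = Cfsg.iterCommutator U (Subgroup.zpowers (e g)) n := by
      intro n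
      induction n with
      | zero => exact Subgroup.map_comap_eq_self_of_surjective e.surjective U
      | succ n ih =>
        rw [Cfsg.iterCommutator, Cfsg.iterCommutator, Subgroup.map_commutator, ih,
          MonoidHom.map_zpowers]
        rfl
    rw [← hmap, ← Subgroup.map_comap_eq_self_of_surjective (f := e.toMonoidHom) e.surjective V]
    exact Subgroup.map_mono (hg _ _ hUV' hU')

end Cfsg.Agent.S1972
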