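import Cfsg.Statements.S1981
import Cfsg.Agent.H61.KInf

set_option autoImplicit false
open Cfsg

namespace Cfsg.Agent.S1981

/-- Let P be a finite p-group generated by its abelian normal subgroups. Then both K-infinity subgroups of P equal P. -/
theorem result {P : Type*} [Group P] [Finite P] {p : ℕ} [Fact p.Prime] (hP : IsPGroup p P) (hgen : ⨆ A ∈ {A : Subgroup P | A.Normal ∧ IsMulCommutative ↥A}, A = ⊤) : Cfsg.kInfLower P = ⊤ ∧ Cfsg.kInfUpper P = ⊤ := by
  have h : ∀ n, Cfsg.kSeqEven P n = ⊤ ∧ Cfsg.kSeqOdd P n = ⊤ := fun n => by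
    refine ⟨top_le_iff.1 ?_, top_le_iff.1 ?_⟩ <;> rw [← hgen] <;>
      refine iSup₂_le fun A hA => ?_ <;> have := hA.1
    · exact (Cfsg.Agent.H61.normal_abelian_le A hA.2 n).1
    · exact (Cfsg.Agent.H61.normal_abelian_le A hA.2 n).2
  exact ⟨top_le_iff.1 ((h 0).1.ge.trans (le_iSup (Cfsg.kSeqEven P) 0)),
    top_le_iff.1 (le_iInf fun n => (h n).2.ge)⟩

end Cfsg.Agent.S1981
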