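import Cfsg.Statements.S1982
import Cfsg.Agent.H61.KInfCritical

set_option autoImplicit false
universe u
open Cfsg Cfsg.Agent.H61

namespace Cfsg.Agent.S1982

/-- Let p be a prime, G a finite group with Sylow p-subgroup S, T = O_p(G), and A a characteristic subgroup of T with A/Z(A) elementary abelian, [T, A] ≤ Z(A), C_T(A) = Z(A), and such that every automorphism of T of order prime to p fixing A elementwise is trivial (a critical subgroup of T). Suppose that the lower or the upper K-infinity subgroup of S is not normal in G. Then there is an element g of S outside T with [A, g, g, g] ≤ Z(A) and [Z(A), g, g] = 1, and such that if moreover C_G(T) ≤ T then some chief factor X/Y of G with X ≤ A satisfies [X, g, g] ≤ Y but [X, g] ≰ Y. -/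
theorem result {G : Type u} [Group G] [Finite G] {p : ℕ} [Fact p.Prime] (S : Sylow p G) (A : Subgroup G) (hAT : A ≤ (Cfsg.pCore p G)) (hAchar : (A.subgroupOf (Cfsg.pCore p G)).Characteristic) (hA1 : ∀ a ∈ A, a ^ p ∈ A ⊓ Subgroup.centralizer ((A : Subgroup G) : Set G)) (hA2 : ⁅A, A⁆ ≤ Subgroup.centralizer ((A : Subgroup G) : Set G)) (hA3 : ⁅(Cfsg.pCore p G), A⁆ ≤ A ⊓ Subgroup.centralizer ((A : Subgroup G) : Set G)) (hA4 : (Cfsg.pCore p G) ⊓ Subgroup.centralizer ((A : Subgroup G) : Set G) = A ⊓ Subgroup.centralizer ((A : Subgroup G) : Set G)) (hA5 : ∀ φ : MulAut ↥(Cfsg.pCore p G), (orderOf φ).Coprime p → (∀ a : ↥(Cfsg.pCore p G), (a : G) ∈ A → φ a = a) → φ = 1) (hK : ¬ (Cfsg.inducedFunctor Cfsg.kInfLower (S : Subgroup G)).Normal ∨ ¬ (Cfsg.inducedFunctor Cfsg.kInfUpper (S : Subgroup G)).Normal) : ∃ g : G, g ∈ (S : Subgroup G) ∧ g ∉ (Cfsg.pCore p G) ∧ Cfsg.iterCommutator A (Subgroup.zpowers g) 3 ≤ A ⊓ Subgroup.centralizer ((A : Subgroup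 G) : Set G) ∧ ⁅⁅A ⊓ Subgroup.centralizer ((A : Subgroup G) : Set G), (Subgroup.zpowers g)⁆, (Subgroup.zpowers g)⁆ = ⊥ ∧ (Subgroup.centralizer (((Cfsg.pCore p G) : Subgroup G) : Set G) ≤ (Cfsg.pCore p G) → ∃ U V : Subgroup G, Cfsg.IsChiefFactor U V ∧ U ≤ A ∧ ⁅⁅U, (Subgroup.zpowers g)⁆, (Subgroup.zpowers g)⁆ ≤ V ∧ ¬ ⁅U, (Subgroup.zpowers g)⁆ ≤ V) := by
  have hTn : (Cfsg.pCore p G).Normal := H19.pCore_normal p G
  have hAn : A.Normal := by
    have := ConjAct.normal_of_characteristic_of_normal (H := Cfsg.pCore p G)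
      (K := A.subgroupOf (Cfsg.pCore p G))
    rwa [Subgroup.map_subgroupOf_eq_of_le hAT] at this
  exact exists_cubic S ⟨hAT, hAn, hA2, hA3, hA5⟩ hK

end Cfsg.Agent.S1982
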