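import Cfsg.Statements.S1985
import Cfsg.Agent.H61.WeakKInf

set_option autoImplicit false
universe u
open Cfsg Cfsg.Agent.H61

namespace Cfsg.Agent.S1985

/-- Let p be an odd prime and G a finite group. Then the lower K-infinity subgroup controls weak closure of elements in G: the lower K-infinity subgroup of every p-subgroup P of G contains Z(P), and for some (equivalently, every) Sylow p-subgroup S of G, with K the lower K-infinity subgroup of S, every element of S commuting with all of N_G(K) is weakly closed in S with respect to G (every G-conjugate of it lying in S equals it). -/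
theorem result {G : Type u} [Group G] [Finite G] {p : ℕ} [Fact p.Prime] (hp : p ≠ 2) : Cfsg.ControlsWeakClosureOfElementsIn p (Cfsg.inducedFunctor (G := G) Cfsg.kInfLower) ⊤ := by
  refine controlsWeak_of_good (isConjugacyFunctor_induced isCharPFunctor_kInfLower)
    (fun P _ => center_le_induced) (fun H P hP hn => ?_) ⊤
  obtain ⟨g, hg, hg', hq⟩ := exists_quad_kInf hP hn
  refine ⟨g, hg, hg', fun U V hUV hU => ?_⟩
  have := hUV.2.1
  have hp2 : 2 ≤ p - 1 := by have := (Fact.out : p.Prime).two_le; omega
  have hgH : Subgroup.zpowers g ≤ Subgroup.normalizer ((U.map H.subtype : Subgroup G) : Set G) := by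
    refine Subgroup.zpowers_le.2 (mem_normalizer_of_cj (cj_eq_of_le ?_))
    rintro _ ⟨_, ⟨z, hz, rfl⟩, rfl⟩
    exact ⟨⟨g, hP.1 hg⟩ * z * ⟨g, hP.1 hg⟩⁻¹, hUV.2.1.conj_mem z hz _, rfl⟩
  exact (iterCommutator_antitone hgH hp2).trans
    ((iterCommutator_mono hU _ 2).trans (le_trans hq.le bot_le))

end Cfsg.Agent.S1985
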