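import Cfsg.Statements.S1987
import Cfsg.Agent.H61.KInfApps

set_option autoImplicit false
universe u
open Cfsg Cfsg.Agent.H61

namespace Cfsg.Agent.S1987

/-- Let p be an odd prime and G a finite group every section of which is p-stable in the normalizer form (in each section, an element of the normalizer of a p-subgroup Q acting quadratically on Q maps into O_p of N(Q)/C(Q)). Then for every Sylow p-subgroup S of G the lower K-infinity subgroup of S controls strong fusion in G. -/
theorem result {G : Type u} [Group G] [Finite G] {p : ℕ} [Fact p.Prime] (hp : p ≠ 2) (hst : ∀ (K R : Subgroup G) [hR : (R.subgroupOf K).Normal], Cfsg.IsNormalizerPStable p (↥K ⧸ R.subgroupOf K)) (S : Sylow p G) : Cfsg.ControlsStrongFusion p (Cfsg.inducedFunctor Cfsg.kInfLower (S : Subgroup G)) := by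
  exact controlsStrongFusion_of_fusionOK isCharPFunctor_kInfLower
    (fusionOK_kInf (Or.inl rfl) (fun K R hR => hst K R) sect_refl) S

end Cfsg.Agent.S1987
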