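import Cfsg.Statements.S1997
import Cfsg.Agent.H61.Triple
import Cfsg.Agent.H34.Conj

set_option autoImplicit false
universe u
open Cfsg Cfsg.Agent Cfsg.Agent.H61

namespace Cfsg.Agent.S1997

/-- Let p be a prime, G a finite group with Sylow p-subgroup S, and W₁, W₂ two isomorphism-invariant p-group functors (W assigns to every group Q a subgroup W(Q), nontrivial whenever Q is a nontrivial finite p-group, and every isomorphism from a finite p-group Q onto a group R carries W(Q) onto W(R)). Suppose that G* = C_{G*}(Ω₁Z(S*)) N_{G*}(W₁(S*)) = C_{G*}(Ω₁Z(S*)) N_{G*}(W₂(S*)) = N_{G*}(W₁(S*)) N_{G*}(W₂(S*)) whenever G* = K/R is a section of G with C_{G*}(O_p(G*)) ≤ O_p(G*) and S* is a Sylow p-subgroup of G*, where Ω₁Z denotes the subgroup generated by the elements of order dividing p in the centre. Suppose also Ω₁Z(S) ≤ W₁(S) ∩ W₂(S), and let A be the normal closure of Ω₁Z(S) in N_G(W₁(S)). Then A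 is an elementary abelian subgroup of S, strongly closed in S with respect to G, and A controls strong fusion in G. -/
theorem result {G : Type u} [Group G] [Finite G] {p : ℕ} [Fact p.Prime] (S : Sylow p G) (W₁ W₂ : ∀ (Q : Type u) [Group Q], Subgroup Q) (hW₁ : Cfsg.IsCharPFunctor.{u} p W₁) (hW₂ : Cfsg.IsCharPFunctor.{u} p W₂) (hfac : ∀ (K R : Subgroup G) [hR : (R.subgroupOf K).Normal], Subgroup.centralizer ((Cfsg.pCore p (↥K ⧸ R.subgroupOf K) : Subgroup (↥K ⧸ R.subgroupOf K)) : Set (↥K ⧸ R.subgroupOf K)) ≤ Cfsg.pCore p (↥K ⧸ R.subgroupOf K) → ∀ T : Sylow p (↥K ⧸ R.subgroupOf K), (∀ x : (↥K ⧸ R.subgroupOf K), ∃ a ∈ Subgroup.centralizer ((Cfsg.omegaOne p ((T : Subgroup (↥K ⧸ R.subgroupOf K)) ⊓ Subgroup.centralizer (((T : Subgroup (↥K ⧸ R.subgroupOf K)) : Subgroup (↥K ⧸ R.subgroupOf K)) : Set (↥K ⧸ R.subgroupOf K))) : Subgroup (↥K ⧸ R.subgroupOf K)) : Set (↥K ⧸ R.subgroupOf K)), ∃ b ∈ Subgroup.normalizer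 ((Cfsg.inducedFunctor (G := (↥K ⧸ R.subgroupOf K)) W₁ (T : Subgroup (↥K ⧸ R.subgroupOf K)) : Subgroup (↥K ⧸ R.subgroupOf K)) : Set (↥K ⧸ R.subgroupOf K)), x = a * b) ∧ (∀ x : (↥K ⧸ R.subgroupOf K), ∃ a ∈ Subgroup.centralizer ((Cfsg.omegaOne p ((T : Subgroup (↥K ⧸ R.subgroupOf K)) ⊓ Subgroup.centralizer (((T : Subgroup (↥K ⧸ R.subgroupOf K)) : Subgroup (↥K ⧸ R.subgroupOf K)) : Set (↥K ⧸ R.subgroupOf K))) : Subgroup (↥K ⧸ R.subgroupOf K)) : Set (↥K ⧸ R.subgroupOf K)), ∃ b ∈ Subgroup.normalizer ((Cfsg.inducedFunctor (G := (↥K ⧸ R.subgroupOf K)) W₂ (T : Subgroup (↥K ⧸ R.subgroupOf K)) : Subgroup (↥K ⧸ R.subgroupOf K)) : Set (↥K ⧸ R.subgroupOf K)), x = a * b) ∧ (∀ x : (↥K ⧸ R.subgroupOf K), ∃ a ∈ Subgroup.normalizer ((Cfsg.inducedFunctor (G := (↥K ⧸ R.subgroupOf K)) W₁ (T : Subgroup (↥K ⧸ R.subgroupOf K)) : Subgroup (↥K ⧸ R.subgroupOf K)) : Set (↥K ⧸ R.subgroupOf K)), ∃ b ∈ Subgroup.normalizer ((Cfsg.inducedFunctor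 (G := (↥K ⧸ R.subgroupOf K)) W₂ (T : Subgroup (↥K ⧸ R.subgroupOf K)) : Subgroup (↥K ⧸ R.subgroupOf K)) : Set (↥K ⧸ R.subgroupOf K)), x = a * b)) (hZ : Cfsg.omegaOne p ((S : Subgroup G) ⊓ Subgroup.centralizer (((S : Subgroup G) : Subgroup G) : Set G)) ≤ Cfsg.inducedFunctor (G := G) W₁ (S : Subgroup G) ⊓ Cfsg.inducedFunctor (G := G) W₂ (S : Subgroup G)) (N₁ : Subgroup G) (hN₁ : N₁ = Subgroup.normalizer ((Cfsg.inducedFunctor (G := G) W₁ (S : Subgroup G) : Subgroup G) : Set G)) (A : Subgroup G) (hA : A = (Subgroup.normalClosure (((Cfsg.omegaOne p ((S : Subgroup G) ⊓ Subgroup.centralizer (((S : Subgroup G) : Subgroup G) : Set G))).subgroupOf N₁ : Subgroup ↥N₁) : Set ↥N₁)).map N₁.subtype) : A ≤ (S : Subgroup G) ∧ Cfsg.IsElementaryAbelian p A ∧ Cfsg.IsStronglyClosed A (S : Subgroup G) ∧ Cfsg.ControlsStrongFusion p A := by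
  set N₂ := Subgroup.normalizer ((Cfsg.inducedFunctor (G := G) W₂ (S : Subgroup G) : Subgroup G) : Set G)
  set Z0 := Triple.omZ p (S : Subgroup G) with hZ0
  let 𝓦 : Set (∀ (Q : Type u) [Group Q], Subgroup Q) := {W₁, W₂}
  have h𝓦 : ∀ W ∈ 𝓦, Cfsg.IsCharPFunctor.{u} p W := by
    rintro W (rfl | rfl)
    exacts [hW₁, hW₂]
  have hF₁ : ∀ (Y : Type u) [Group Y] [Finite Y], Sect Y G → Constrained p Y → Triple.Fac p W₁ Y := by
    intro Y _ _ hY hC
    obtain ⟨K, R, hR, ⟨e⟩⟩ := hY.exists_equiv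
    exact Triple.Fac.of_equiv e hW₁ fun T => (hfac K R (hC.of_equiv e) T).1
  have hF₂ : ∀ (Y : Type u) [Group Y] [Finite Y], Sect Y G → Constrained p Y → Triple.Fac p W₂ Y := by
    intro Y _ _ hY hC
    obtain ⟨K, R, hR, ⟨e⟩⟩ := hY.exists_equiv
    exact Triple.Fac.of_equiv e hW₂ fun T => (hfac K R (hC.of_equiv e) T).2.1
  have hfus : FusionOK p 𝓦 G := fusion_of_pairs h𝓦 (fun K R hR hC =>
    fusionOK_of_factorization h𝓦 (Or.inl rfl) (Or.inr rfl) fun T => (hfac K R hC T).2.2) sect_refl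
  have hA' : A = Triple.ncl N₁ Z0 := hA
  subst hN₁
  set N₁ := Subgroup.normalizer ((Cfsg.inducedFunctor (G := G) W₁ (S : Subgroup G) : Subgroup G) : Set G)
  have hAeq : Triple.ncl N₁ Z0 = Triple.ncl N₂ Z0 :=
    le_antisymm (Triple.ncl_le_ncl S hW₁ hW₂ hF₂ (hZ.trans inf_le_left))
      (Triple.ncl_le_ncl S hW₂ hW₁ hF₁ (hZ.trans inf_le_right))
  have hN₁A : N₁ ≤ Subgroup.normalizer (A : Set G) := hA' ▸ Triple.le_normalizer_ncl _ _
  have hN₂A : N₂ ≤ Subgroup.normalizer (A : Set G) := by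
    rw [hA', hAeq]; exact Triple.le_normalizer_ncl _ _
  set Y₁ := Cfsg.inducedFunctor (G := G) W₁ (S : Subgroup G) with hY₁
  have hY₁S : Y₁ ≤ (S : Subgroup G) := Subgroup.map_subtype_le _
  have hcj : ∀ x ∈ N₁, ∀ z ∈ Z0, x * z * x⁻¹ ∈ Y₁ := fun x hx z hz =>
    (Subgroup.mem_normalizer_iff.1 hx z).1 (hZ hz).1
  have hAY : A ≤ Y₁ := hA' ▸ Triple.ncl_le hcj
  have hAS : A ≤ (S : Subgroup G) := hAY.trans hY₁S
  have hzS : ∀ z ∈ Z0, ∀ s ∈ (S : Subgroup G), s * z = z * s := fun z hz s hs =>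
    Subgroup.mem_centralizer_iff.1 (H34.omegaOne_le _ hz).2 s hs
  have hAc : IsMulCommutative A := by
    refine Subgroup.le_centralizer_iff_isMulCommutative.1 ?_
    conv_lhs => rw [hA']
    refine Triple.ncl_le fun x hx z hz => Subgroup.mem_centralizer_iff.2 ?_
    suffices h : A ≤ Subgroup.centralizer ({x * z * x⁻¹} : Set G) from fun a ha =>
      Subgroup.mem_centralizer_singleton_iff.1 (h ha)
    rw [hA']
    refine Triple.ncl_le fun y hy w hw => Subgroup.mem_centralizer_singleton_iff.2 ?_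
    have h1 := hzS w hw _ (hY₁S (hcj (y⁻¹ * x) (mul_mem (inv_mem hy) hx) z hz))
    calc y * w * y⁻¹ * (x * z * x⁻¹) = y * (w * (y⁻¹ * x * z * (y⁻¹ * x)⁻¹)) * y⁻¹ := by group
      _ = x * z * x⁻¹ * (y * w * y⁻¹) := by rw [← h1]; group
  have hZp : ∀ z ∈ Z0, z ^ p = 1 := by
    intro z hz
    haveI : IsMulCommutative ((S : Subgroup G) ⊓ Subgroup.centralizer ((S : Subgroup G) : Set G) : Subgroup G) :=
      H34.isMulCommutative_inf_centralizer _
    exact (H34.omegaOne_isElementaryAbelian (p := p)).2 z hz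
  have hAe : Cfsg.IsElementaryAbelian p A := by
    haveI := hAc
    have hle : A ≤ Cfsg.omegaOne p A := by
      conv_lhs => rw [hA']
      refine Triple.ncl_le fun x hx z hz => H34.mem_omegaOne ?_ (by rw [conj_pow, hZp z hz]; group)
      rw [hA']
      exact Triple.conj_mem_ncl ((H34.omegaOne_le _).trans (inf_le_left.trans
        (Subgroup.le_normalizer.trans
          (normalizer_le_normalizer_functor (isConjugacyFunctor_induced hW₁) S.2)))) hx hz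
    exact ⟨hAc, fun a ha => (H34.omegaOne_isElementaryAbelian (p := p) (H := A)).2 a (hle ha)⟩
  -- all fusion is realized in `N(A)`
  have key : ∀ (B : Subgroup G) (g : G), B ≤ (S : Subgroup G) → cj g B ≤ (S : Subgroup G) →
      ∃ m ∈ Subgroup.normalizer (A : Set G), ∀ a ∈ B, m * a * m⁻¹ = g * a * g⁻¹ := by
    intro B g hB hgB
    refine hfus S B g (Subgroup.mem_top g) hB hgB
      (fun C y => ∃ m ∈ Subgroup.normalizer (A : Set G), ∀ a ∈ C, m * a * m⁻¹ = y * a * y⁻¹)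
      ⟨fun C D y hDC ⟨m, hm, e⟩ => ⟨m, hm, fun a ha => e a (hDC ha)⟩,
        fun C y y' ⟨m, hm, e⟩ ⟨m', hm', e'⟩ => ⟨m' * m, mul_mem hm' hm, fun a ha => ?_⟩,
        fun C y _ hy => ⟨1, one_mem _, fun a ha => by simp [hy a ha]⟩⟩ ?_
    · calc m' * m * a * (m' * m)⁻¹ = m' * (m * a * m⁻¹) * m'⁻¹ := by group
        _ = y' * (y * a * y⁻¹) * y'⁻¹ := by rw [e a ha]; exact e' _ (conj_mem_cj ha)
        _ = y' * y * a * (y' * y)⁻¹ := by group
    · rintro _ ⟨W, rfl | rfl, rfl⟩ x hx C _ _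
      · exact ⟨x, hN₁A hx.2, fun _ _ => rfl⟩
      · exact ⟨x, hN₂A hx.2, fun _ _ => rfl⟩
  refine ⟨hAS, hAe, ⟨hAS, fun x hx g hg => ?_⟩, ⟨S, hAS, fun B hB => ⟨hB, fun g hg => ?_⟩⟩⟩
  · obtain ⟨m, hm, e⟩ := key (Subgroup.zpowers x) g (Subgroup.zpowers_le.2 (hAS hx)) (by
      rw [cj, MonoidHom.map_zpowers, Subgroup.zpowers_le]; exact hg)
    rw [← e x (Subgroup.mem_zpowers x)]
    exact (Subgroup.mem_normalizer_iff.1 hm x).1 hx
  · obtain ⟨m, hm, e⟩ := key (Subgroup.closure B) g ((Subgroup.closure_le _).2 hB) (by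
      rw [cj, MonoidHom.map_closure, Subgroup.closure_le]
      rintro _ ⟨b, hb, rfl⟩
      exact hg ⟨b, hb, rfl⟩)
    exact ⟨m, hm, fun b hb => (e b (Subgroup.subset_closure hb)).symm⟩

end Cfsg.Agent.S1997
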