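import Cfsg.Statements.S1998
import Cfsg.Agent.H61.TransferApps

set_option autoImplicit false
universe u
open Cfsg Cfsg.Agent.H61

namespace Cfsg.Agent.S1998

/-- Let p be a prime, G a finite group with Sylow p-subgroup S, and 𝓦 a nonempty set of isomorphism-invariant p-group functors (W assigns to every group Q a subgroup W(Q), nontrivial whenever Q is a nontrivial finite p-group, and every isomorphism from a finite p-group Q onto a group R carries W(Q) onto W(R)). Suppose the induced conjugacy functors control transfer in every section of G other than G itself, but not in G. Let T be the subgroup generated by the S ∩ (N_G(W(S)))', W ∈ 𝓦, and M = N_G(T ∩ O_p(G)). Then: C_G(O_p(G)) ≤ O_p(G); M is a proper subgroup of G containing every proper subgroup of G that contains S (the unique maximal subgroup over S); [O_p(G), M] ≤ O_p(G) ∩ M' ≤ O_p(G) ∩ T; and every element u of S outside O_p(G) satisfies [X, u, …, u] ≰ Y with p − 1 entries u, for some chief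 factor X/Y of G with X ≤ O_p(G). -/
theorem result {G : Type u} [Group G] [Finite G] {p : ℕ} [Fact p.Prime] (S : Sylow p G) (𝓦 : Set (∀ (Q : Type u) [Group Q], Subgroup Q)) (h𝓦 : ∀ W ∈ 𝓦, Cfsg.IsCharPFunctor.{u} p W) (hne : 𝓦.Nonempty) (hsec : ∀ (K R : Subgroup G) [hR : (R.subgroupOf K).Normal], (K = ⊤ → R ≠ ⊥) → Cfsg.FamilyControlsTransferIn p ((fun W => Cfsg.inducedFunctor (G := (↥K ⧸ R.subgroupOf K)) W) '' 𝓦) ⊤) (hG : ¬ Cfsg.FamilyControlsTransferIn p ((fun W => Cfsg.inducedFunctor (G := G) W) '' 𝓦) ⊤) (T M : Subgroup G) (hT : T = (⨆ W ∈ 𝓦, (S : Subgroup G) ⊓ ⁅Subgroup.normalizer ((Cfsg.inducedFunctor (G := G) W (S : Subgroup G) : Subgroup G) : Set G), Subgroup.normalizer ((Cfsg.inducedFunctor (G := G) W (S : Subgroup G) : Subgroup G) : Set G)⁆)) (hM : M = Subgroup.normalizer ((T ⊓ Cfsg.pCore p G : Subgroup G) : Set G)) : Subgroup.centralizer ((Cfsg.pCore p G : Subgroup G) : Set G) ≤ Cfsg.pCore p G ∧ (M ≠ ⊤ ∧ ∀ H : Subgroup G, (S : Subgroup G) ≤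 H → H ≠ ⊤ → H ≤ M) ∧ (⁅Cfsg.pCore p G, M⁆ ≤ Cfsg.pCore p G ⊓ ⁅M, M⁆ ∧ Cfsg.pCore p G ⊓ ⁅M, M⁆ ≤ Cfsg.pCore p G ⊓ T) ∧ ∀ u : G, u ∈ (S : Subgroup G) → u ∉ Cfsg.pCore p G → ∃ U V : Subgroup G, Cfsg.IsChiefFactor U V ∧ U ≤ Cfsg.pCore p G ∧ ¬ Cfsg.iterCommutator U (Subgroup.zpowers u) (p - 1) ≤ V := by
  have hwrap : ∀ (X : Type u) [Group X] [Finite X] (K R : Subgroup G) (f : ↥K →* X),
      Function.Surjective f → f.ker.map K.subtype = R → (K = ⊤ → R ≠ ⊥) → TrOK p 𝓦 X := by
    intro X _ _ K R f hf hR hc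
    have hn : (R.subgroupOf K).Normal := by
      rw [← hR, Subgroup.subgroupOf, Subgroup.comap_map_eq_self_of_injective K.subtype_injective]
      infer_instance
    have e : R.subgroupOf K = f.ker := by
      rw [← hR, Subgroup.subgroupOf, Subgroup.comap_map_eq_self_of_injective K.subtype_injective]
    exact TrOK.of_equiv h𝓦
      ((QuotientGroup.quotientMulEquivOfEq e).trans (QuotientGroup.quotientKerEquivOfSurjective f hf))
      (trOK_of_family h𝓦 (hsec K R hc))
  have hsub : ∀ H : Subgroup G, H ≠ ⊤ → TrOK p 𝓦 H := fun H hH =>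
    hwrap H H _ (MonoidHom.id H) (fun x => ⟨x, rfl⟩) rfl fun h => absurd h hH
  have hquot : ∀ (N : Subgroup G) [N.Normal], N ≠ ⊥ → TrOK p 𝓦 (G ⧸ N) := fun N _ hN => by
    refine hwrap (G ⧸ N) ⊤ _ ((QuotientGroup.mk' N).comp (⊤ : Subgroup G).subtype) ?_ rfl fun _ h => hN ?_
    · intro x
      obtain ⟨g, rfl⟩ := QuotientGroup.mk'_surjective N x
      exact ⟨⟨g, trivial⟩, rfl⟩
    · rw [Subgroup.map_eq_bot_iff_of_injective _ (Subgroup.subtype_injective _)] at h
      refine le_bot_iff.1 fun x hx => Subgroup.mem_bot.2 ?_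
      have : (⟨x, trivial⟩ : (⊤ : Subgroup G)) ∈
          ((QuotientGroup.mk' N).comp (⊤ : Subgroup G).subtype).ker :=
        (QuotientGroup.eq_one_iff x).2 hx
      rw [h, Subgroup.mem_bot] at this
      exact congrArg Subtype.val this
  have hnot : ¬ TrOK p 𝓦 G := fun h => hG (family_of_trOK h)
  have hC : Constrained p G := by
    by_contra hC
    exact hnot (trOK_step h𝓦 hsub hquot fun h => absurd h hC)
  have hfail : ¬ TrLe (Wset G 𝓦) (S : Subgroup G) ⊤ := fun h =>
    hG (familyTr_of_trLe (sylowIn_of_le S le_top) h)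
  have hTeq : T = Om (Wset G 𝓦) (S : Subgroup G) ⊤ := by
    rw [hT, Om, Wset, iSup_image]
    simp only [top_inf_eq]
  have hres := minimal_failure h𝓦 S hne hC hsub hquot hfail
  simp only [← hTeq, ← hM] at hres
  exact ⟨hC, hres⟩

end Cfsg.Agent.S1998
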