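import Cfsg.Statements.S2004
import Cfsg.Agent.S2795
import Cfsg.Agent.H61.SL2Involved

set_option autoImplicit false
open Cfsg Cfsg.Agent Cfsg.Agent.H61

namespace Cfsg.Agent.S2004

/-- Let p be an odd prime and G a finite group such that SL₂(p) is not involved in N_G(P) for any nonidentity p-subgroup P of G. Then every section of G is p-stable in the normalizer form: in each section, whenever an element of the normalizer of a p-subgroup Q acts quadratically on Q, its image in N(Q)/C(Q) lies in O_p(N(Q)/C(Q)). -/
theorem result {G : Type*} [Group G] [Finite G] {p : ℕ} [Fact p.Prime] (hp : p ≠ 2) (h : ∀ P : Subgroup G, IsPGroup p ↥P → P ≠ ⊥ → ¬ Cfsg.Involves (Matrix.SpecialLinearGroup (Fin 2) (ZMod p)) ↥(Subgroup.normalizer ((P : Subgroup G) : Set G))) : ∀ (K R : Subgroup G) [hR : (R.subgroupOf K).Normal], Cfsg.IsNormalizerPStable p (↥K ⧸ R.subgroupOf K) := by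
  intro K R hR
  refine (S2795.result hp).1 (fun hi => ?_) K R
  obtain ⟨U, hU, hU1, hi'⟩ := involves_sl2 hi
  exact h U hU hU1 hi'

end Cfsg.Agent.S2004
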