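import Cfsg.Statements.S2008
import Cfsg.Agent.H61.KleinConj

set_option autoImplicit false
open Cfsg Cfsg.Agent.H61

namespace Cfsg.Agent.S2008

/-- Let H be a finite group and z an involution such that every proper normal subgroup of H meets the centralizer of z trivially, and suppose z lies in a Klein four-subgroup E of H all three of whose involutions are conjugate to z in H. Then H has no non-trivial abelian normal subgroup. -/
theorem result {H : Type*} [Group H] [Finite H] (z : H) (hz : orderOf z = 2) (hN : ∀ N : Subgroup H, N.Normal → N ≠ ⊤ → N ⊓ Subgroup.centralizer ({z} : Set H) = ⊥) (E : Subgroup H) (hE : IsKleinFour ↥E) (hzE : z ∈ E) (hc : ∀ e ∈ E, e ≠ 1 → IsConj z e) (N : Subgroup H) [N.Normal] (hab : IsMulCommutative ↥N) : N = ⊥ := by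
  rcases eq_or_ne N ⊤ with rfl | hne
  · exfalso
    have hcomm : ∀ x y : H, x * y = y * x := fun x y =>
      congrArg Subtype.val (hab.is_comm.comm (⟨x, Subgroup.mem_top x⟩ : (⊤ : Subgroup H)) ⟨y, Subgroup.mem_top y⟩)
    have hall : ∀ e ∈ E, e ≠ 1 → e = z := fun e he he1 => by
      obtain ⟨g, hg⟩ := isConj_iff.1 (hc e he he1)
      rw [← hg, hcomm g z, mul_inv_cancel_right]
    have hsub : (E : Set H) ⊆ {1, z} := fun w hw => by
      by_cases h : w = 1
      · exact Or.inl h
      · exact Or.inr (hall w hw h)
    have h4 : (E : Set H).ncard = 4 := by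
      rw [← Nat.card_coe_set_eq]; exact hE.card_four
    have h5 := Set.ncard_le_ncard hsub (Set.toFinite _)
    have h6 : ({1, z} : Set H).ncard ≤ 2 := by
      refine (Set.ncard_insert_le _ _).trans ?_
      rw [Set.ncard_singleton]
    omega
  · exact eq_bot_of_klein z hz E hE hzE hc N (hN N inferInstance hne)

end Cfsg.Agent.S2008
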