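import Cfsg.Statements.S2035
import Cfsg.Agent.H10.M12Mult

set_option autoImplicit false
open Cfsg

namespace Cfsg.Agent.S2035

/-- The Schur multiplier of the Mathieu group M₁₂ (the stabiliser of a dodecad in the automorphism group of the length-24 binary code) is cyclic of order 2; here the Schur multiplier is described through stem extensions, as in the definitions: surjective homomorphisms onto the group from a finite group, whose kernel is central in that finite group and contained in that finite group's commutator subgroup. -/
theorem result : Cfsg.HasCyclicSchurMultiplier ↥Cfsg.Spor.M12 2 := by
  exact Cfsg.Agent.H10.mult_M12

end Cfsg.Agent.S2035
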