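import Cfsg.Statements.S2036
import Cfsg.Agent.H10.M22Mult.Main
-- import your own Cfsg.Agent.* helpers here

set_option autoImplicit false
open Cfsg

namespace Cfsg.Agent.S2036

/-- The Schur multiplier of the Mathieu group M₂₂ (the permutations in the automorphism group of the length-24 binary code that fix each of two given points) is cyclic of order 12; here the Schur multiplier is described through stem extensions, as in the definitions: surjective homomorphisms onto the group from a finite group, whose kernel is central in that finite group and contained in that finite group's commutator subgroup. -/
theorem result : Cfsg.HasCyclicSchurMultiplier ↥Cfsg.Spor.M22 12 := by
  exact Cfsg.Agent.H10.M22Mult.mult_M22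

end Cfsg.Agent.S2036
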