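import Cfsg.Statements.S2045
import Cfsg.Agent.H13.Co3Mult.Main

set_option autoImplicit false
open Cfsg

namespace Cfsg.Agent.S2045

/-- The multiplier of Co3 is trivial. -/
theorem result : Cfsg.HasCyclicSchurMultiplier ↥Cfsg.Spor.Co3 1 :=
  Cfsg.Agent.H13.Co3Mult.hasMultiplier

end Cfsg.Agent.S2045
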