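import Cfsg.Statements.S2046
import Cfsg.Agent.H13.HSMult.Main

set_option autoImplicit false
open Cfsg

namespace Cfsg.Agent.S2046

/-- The multiplier of HS is cyclic of order two. -/
theorem result : Cfsg.HasCyclicSchurMultiplier ↥Cfsg.Spor.HS 2 :=
  Cfsg.Agent.H13.HSMult.hasMultiplier

end Cfsg.Agent.S2046
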