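import Cfsg.Statements.S2048
import Cfsg.Agent.H13.SuzMult.Main
-- import your own Cfsg.Agent.* helpers here

set_option autoImplicit false
open Cfsg

namespace Cfsg.Agent.S2048

/-- The Schur multiplier of the Suzuki sporadic group (the finitely presented group of the definitions) is cyclic of order 6; here the Schur multiplier is described through stem extensions, as in the definitions: surjective homomorphisms onto the group from a finite group, whose kernel is central in that finite group and contained in that finite group's commutator subgroup. -/
theorem result : Cfsg.HasCyclicSchurMultiplier Cfsg.Spor.Suz 6 :=
  Cfsg.Agent.H13.SuzMult.hasMultiplier

end Cfsg.Agent.S2048
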