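import Cfsg.Statements.S2051
import Cfsg.Agent.H31.Ru.Perm
import Cfsg.Agent.H70.RuMult.Glue
-- import your own Cfsg.Agent.* helpers here

set_option autoImplicit false
open Cfsg

namespace Cfsg.Agent.S2051

/-- The Schur multiplier of the Rudvalis group (the unitary automorphism group of the rank-28 Gaussian lattice modulo its centre) is cyclic of order 2; here the Schur multiplier is described through stem extensions, as in the definitions: surjective homomorphisms onto the group from a finite group, whose kernel is central in that finite group and contained in that finite group's commutator subgroup. -/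
theorem result : Cfsg.HasCyclicSchurMultiplier Cfsg.Spor.Ru 2 := by
  haveI : Finite Cfsg.Spor.fourRu :=
    Nat.finite_of_card_ne_zero (by rw [Cfsg.Agent.H31.Ru.card_fourRu]; norm_num)
  exact Cfsg.Agent.H70.RuMult.hasMultiplier_of_model Cfsg.Agent.H31.Ru.lineHom
    Cfsg.Agent.H31.Ru.lineHom_injective Cfsg.Agent.H31.Ru.g0_mem Cfsg.Agent.H31.Ru.g1_mem
    Cfsg.Agent.H31.Ru.card_Ru Cfsg.Agent.H31.Ru.isSimpleGroup_Ru

end Cfsg.Agent.S2051
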