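import Cfsg.Statements.S2093
import Cfsg.Agent.H14.Sp6.Cover
import Cfsg.Agent.H14.Sp6.Bound
import Cfsg.Agent.H82.Mult
-- import your own Cfsg.Agent.* helpers here

set_option autoImplicit false
open Cfsg

namespace Cfsg.Agent.S2093

/-- Exceptional Schur multiplier: over the field with 2 elements, PSp₆ has Schur multiplier cyclic of order 2 (here the Schur multiplier is described through stem extensions, as in the definitions). -/
theorem result {F : Type*} [Field F] [Fintype F] (hF : Fintype.card F = 2) : Cfsg.HasCyclicSchurMultiplier (Cfsg.PSp 3 F) 2 := by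
  haveI : CharP F 2 := charP_of_card_eq_prime hF
  have hF' : Nat.card F = 2 := by rw [Nat.card_eq_fintype_card, hF]
  obtain ⟨Γ, σ, hσ, h2⟩ := Cfsg.Agent.H14.Sp6.exists_stem hF'
  haveI : Finite Γ := inferInstance
  exact Cfsg.Agent.H82.hasCyclicSchurMultiplier_of_card hσ (isCyclic_of_prime_card (p := 2) h2) h2
    fun Δ _ _ τ hτ => Cfsg.Agent.H14.Sp6.card_ker_le_two hF' hτ

end Cfsg.Agent.S2093
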