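import Cfsg.Statements.S2096
import Cfsg.Agent.H82.Orth.Mult

set_option autoImplicit false
open Cfsg

namespace Cfsg.Agent.S2096

/-- Schur multipliers of the even-dimensional orthogonal groups of plus type and odd rank: for odd l ≥ 5 and a field F with q elements, the Schur multiplier of PΩ⁺_2l(F) (for the form Σ xᵢyᵢ) is cyclic of order gcd(4, q^l − 1); here the Schur multiplier is described through stem extensions, as in the definitions. -/
theorem result {F : Type*} [Field F] [Fintype F] {q : ℕ} (hF : Fintype.card F = q) (l : ℕ) (hl : 5 ≤ l) (hodd : Odd l) : Cfsg.HasCyclicSchurMultiplier (Cfsg.POmega F (Cfsg.quadFormPlus l F)) (Nat.gcd 4 (q ^ l - 1)) := by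
  subst hF
  have hm : Cfsg.Agent.H82.Orth.Cond l F := Or.inl hl
  rcases eq_or_ne (2 : F) 0 with h2 | h2
  · have hq : (Fintype.card F) % 2 = 0 := Cfsg.Agent.H82.Orth.card_even h2
    have hpos : 1 ≤ Fintype.card F ^ l := Nat.one_le_pow _ _ Fintype.card_pos
    have he : Fintype.card F ^ l % 2 = 0 := by
      rw [Nat.pow_mod, hq, Nat.zero_pow (by omega)]
    have hg : Nat.gcd 4 (Fintype.card F ^ l - 1) = 1 :=
      Nat.Coprime.pow_left 2 (Nat.coprime_two_left.2 (Nat.odd_iff.2 (by omega)))
    rw [hg]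
    exact Cfsg.Agent.H82.Orth.odd_rank_two hm h2
  · have hpos : 1 ≤ Fintype.card F ^ l := Nat.one_le_pow _ _ Fintype.card_pos
    have hodd2 := Cfsg.Agent.H82.Orth.card_odd h2
    obtain ⟨k, rfl⟩ := hodd
    by_cases hs : IsSquare (-1 : F)
    · obtain ⟨j, hj⟩ := hs
      have h4 : Fintype.card F % 4 = 1 := by
        have := FiniteField.isSquare_neg_one_iff.1 ⟨j, hj⟩
        omega
      have he : Fintype.card F ^ (2 * k + 1) % 4 = 1 := by simp [Nat.pow_mod, h4]
      have hg : Nat.gcd 4 (Fintype.card F ^ (2 * k + 1) - 1) = 4 := Nat.gcd_eq_left (by omega)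
      rw [hg]
      exact Cfsg.Agent.H82.Orth.odd_rank_square hm ⟨k, rfl⟩ h2 hj.symm
    · have h4 : Fintype.card F % 4 = 3 := by
        by_contra hne
        exact hs (FiniteField.isSquare_neg_one_iff.2 hne)
      have he : Fintype.card F ^ (2 * k + 1) % 4 = 3 := by
        rw [Nat.pow_mod, h4, pow_succ, pow_mul, Nat.mul_mod, Nat.pow_mod]
        norm_num
      have hg : Nat.gcd 4 (Fintype.card F ^ (2 * k + 1) - 1) = 2 := by
        rw [Nat.gcd_rec, show (Fintype.card F ^ (2 * k + 1) - 1) % 4 = 2 by omega]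
        rfl
      rw [hg]
      exact Cfsg.Agent.H82.Orth.odd_rank_not_square hm ⟨k, rfl⟩ hs

end Cfsg.Agent.S2096
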