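import Cfsg.Statements.S2097
import Cfsg.Agent.H82.Orth.Mult

set_option autoImplicit false
open Cfsg

namespace Cfsg.Agent.S2097

/-- Schur multipliers of the even-dimensional orthogonal groups of plus type and even rank: for even l ≥ 4 and a field F with q elements, (l, q) ≠ (4, 2), the Schur multiplier of PΩ⁺_2l(F) (for the form Σ xᵢyᵢ) is the product of two cyclic groups of order gcd(2, q^l − 1) (so trivial for q even and a four-group for q odd; here the Schur multiplier is described through stem extensions, as in the definitions). -/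
theorem result {F : Type*} [Field F] [Fintype F] {q : ℕ} (hF : Fintype.card F = q) (l : ℕ) (hl : 4 ≤ l) (heven : Even l) (hexc : ¬ (l = 4 ∧ q = 2)) : Cfsg.HasSchurMultiplier (Cfsg.POmega F (Cfsg.quadFormPlus l F)) (Multiplicative (ZMod (Nat.gcd 2 (q ^ l - 1)) × ZMod (Nat.gcd 2 (q ^ l - 1)))) := by
  subst hF
  have hm : Cfsg.Agent.H82.Orth.Cond l F := by
    rcases Nat.lt_or_ge l 5 with h | h
    · refine Or.inr ⟨hl, ?_⟩
      have h1 : 2 < Fintype.card F := by
        have := Fintype.one_lt_card (α := F)
        omega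
      classical
      obtain ⟨c, -, hc⟩ := Finset.exists_mem_notMem_of_card_lt_card (s := ({0, 1} : Finset F)) (t := Finset.univ)
        (lt_of_le_of_lt Finset.card_le_two (by rwa [Finset.card_univ]))
      simp only [Finset.mem_insert, Finset.mem_singleton, not_or] at hc
      obtain ⟨hc0, hc1⟩ := hc
      exact ⟨c, hc0, hc1⟩
    · exact Or.inl h
  have hpos : 1 ≤ Fintype.card F ^ l := Nat.one_le_pow _ _ Fintype.card_pos
  rcases eq_or_ne (2 : F) 0 with h2 | h2
  · have hq : (Fintype.card F) % 2 = 0 := Cfsg.Agent.H82.Orth.card_even h2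
    have he : Fintype.card F ^ l % 2 = 0 := by
      rw [Nat.pow_mod, hq, Nat.zero_pow (by omega)]
    have hg : Nat.gcd 2 (Fintype.card F ^ l - 1) = 1 :=
      Nat.coprime_two_left.2 (Nat.odd_iff.2 (by omega))
    rw [hg]
    exact Cfsg.Agent.H82.Orth.even_rank_two hm h2
  · have hq := Cfsg.Agent.H82.Orth.card_odd h2
    have he : Fintype.card F ^ l % 2 = 1 := by simp [Nat.pow_mod, hq]
    have hg : Nat.gcd 2 (Fintype.card F ^ l - 1) = 2 := Nat.gcd_eq_left (by omega)
    rw [hg]
    exact Cfsg.Agent.H82.Orth.even_rank_odd hm heven h2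

end Cfsg.Agent.S2097
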