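import Cfsg.Statements.S2101
import Cfsg.Agent.H12.CentralExt.G23
import Cfsg.Agent.H69.G2Three.Spectrum
import Cfsg.Agent.H82.Mult

set_option autoImplicit false
open Cfsg

namespace Cfsg.Agent.S2101

/-- Exceptional Schur multiplier: over the field with 3 elements the Chevalley group of type G₂ has Schur multiplier cyclic of order 3 (here the Schur multiplier is described through stem extensions, as in the definitions). -/
theorem result {F : Type*} [Field F] [Fintype F] (hF : Fintype.card F = 3) : Cfsg.HasCyclicSchurMultiplier ↥(Cfsg.Lie.chevG2.group F) 3 := by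
  haveI : Fact (Nat.Prime 3) := ⟨by norm_num⟩
  exact H82.HasSchurMultiplier.of_mulEquiv H12.CExt.G23.multiplier
    (H69.G2Three.groupMapEquiv _ (ZMod.ringEquivOfPrime F Nat.prime_three hF))

end Cfsg.Agent.S2101
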