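import Cfsg.Statements.S2103
import Cfsg.Agent.H82.Chev.TorusLiftMain
import Cfsg.Agent.H82.Chev.DataSepF4
import Cfsg.Agent.H82.Chev.DataCoverF4G2

set_option autoImplicit false
open Cfsg

namespace Cfsg.Agent.S2103

/-- Schur multipliers of the Chevalley groups of type F₄: over a finite field with more than 2 elements the Schur multiplier of F₄(q) is trivial (here the Schur multiplier is described through stem extensions, as in the definitions); q = 2 is exceptional. -/
theorem result {F : Type*} [Field F] [Fintype F] (hF : 3 ≤ Fintype.card F) : Cfsg.HasCyclicSchurMultiplier ↥(Cfsg.Lie.chevF4.group F) 1 := by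
  classical
  obtain ⟨g, hg⟩ := IsCyclic.exists_generator (α := Fˣ)
  have hord : orderOf g = Fintype.card F - 1 := by
    rw [orderOf_eq_card_of_forall_mem_zpowers hg, Nat.card_eq_fintype_card, Fintype.card_units]
  have hc : Cfsg.Agent.H82.Chev.GoodScalar Cfsg.Agent.H82.Chev.sepF4.kmax g := by
    intro k hk hk' h
    have hk'' : k ≤ 1 := hk'
    have := Nat.le_of_dvd hk (orderOf_dvd_of_pow_eq_one h)
    omega
  refine Cfsg.Agent.H82.Chev.hasCyclicSchurMultiplier_one_of_hasLifts (G := Cfsg.Agent.H46.goodF4)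
    (fun E _ π hE => ⟨_, hE.tRootLift Cfsg.Agent.H82.Chev.chkSepF4 hc
      (hE.selfTriv_of_nodes Cfsg.Agent.H82.Chev.chkSelfF4)⟩) fun z hz => ?_
  obtain ⟨w, hw, rfl⟩ := Cfsg.Agent.H82.Chev.eq_kerHom Cfsg.Agent.H46.goodF4
    Cfsg.Agent.H82.Chev.chkCoverF4 hz
  have : w = 1 := by simpa [Cfsg.Agent.H82.Chev.coverF4] using hw
  rw [this, map_one]

end Cfsg.Agent.S2103
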