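import Cfsg.Statements.S2105
import Cfsg.Agent.H82.Chev.DataEmbE6
import Cfsg.Agent.H82.Chev.DataE6
import Cfsg.Agent.H82.Chev.DataCover

set_option autoImplicit false
open Cfsg

namespace Cfsg.Agent.S2105

/-- Schur multipliers of the (adjoint, simple) Chevalley groups of type E₆: over a field with q elements the Schur multiplier is cyclic of order gcd(3, q − 1) (here the Schur multiplier is described through stem extensions, as in the definitions). -/
theorem result {F : Type*} [Field F] [Fintype F] {q : ℕ} (hF : Fintype.card F = q) : Cfsg.HasCyclicSchurMultiplier ↥(Cfsg.Lie.chevE6.group F) (Nat.gcd 3 (q - 1)) := by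
  classical
  refine Cfsg.Agent.H82.Chev.hasCyclicSchurMultiplier_of_emb (G := Cfsg.Agent.H46.goodE6)
    (G' := Cfsg.Agent.H46.goodE8) Cfsg.Agent.H82.Chev.chkEmbE6 Cfsg.Agent.H82.Chev.chkSimplyE6
    Cfsg.Agent.H82.Chev.chkCoverE6 (fun z hz => ?_) (by rw [hF]; rfl)
  obtain ⟨w, hw, rfl⟩ := Cfsg.Agent.H82.Chev.eq_kerHom Cfsg.Agent.H46.goodE8
    Cfsg.Agent.H82.Chev.chkCoverE8 hz
  have : w = 1 := by simpa [Cfsg.Agent.H82.Chev.coverE8] using hw
  rw [this, map_one]

end Cfsg.Agent.S2105
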