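import Cfsg.Statements.S2107
import Cfsg.Agent.H82.Chev.Upper
import Cfsg.Agent.H82.Chev.DataE8
import Cfsg.Agent.H82.Chev.DataCover

set_option autoImplicit false
open Cfsg

namespace Cfsg.Agent.S2107

/-- Schur multipliers of the Chevalley groups of type E₈: over every finite field the Schur multiplier of E₈(q) is trivial (here the Schur multiplier is described through stem extensions, as in the definitions). -/
theorem result {F : Type*} [Field F] [Fintype F] : Cfsg.HasCyclicSchurMultiplier ↥(Cfsg.Lie.chevE8.group F) 1 := by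
  classical
  refine Cfsg.Agent.H82.Chev.hasCyclicSchurMultiplier_one (G := Cfsg.Agent.H46.goodE8)
    Cfsg.Agent.H82.Chev.chkSimplyE8 fun z hz => ?_
  obtain ⟨w, hw, rfl⟩ := Cfsg.Agent.H82.Chev.eq_kerHom Cfsg.Agent.H46.goodE8
    Cfsg.Agent.H82.Chev.chkCoverE8 hz
  have : w = 1 := by simpa [Cfsg.Agent.H82.Chev.coverE8] using hw
  rw [this, map_one]

end Cfsg.Agent.S2107
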