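import Cfsg.Statements.S2110
import Cfsg.Agent.H46.TwistCover.D4TwoStem
import Cfsg.Agent.H46.TwistCover.CoverE6
import Cfsg.Agent.H46.TwistD4
-- import your own Cfsg.Agent.* helpers here

set_option autoImplicit false
open Cfsg

namespace Cfsg.Agent.S2110

/-- Schur multipliers of the triality-twisted groups ³D₄: for every prime power q, with the group realised over the field with q³ elements, the Schur multiplier of ³D₄(q) is trivial (here the Schur multiplier is described through stem extensions, as in the definitions). -/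
theorem result {K : Type*} [Field K] [Fintype K] {q : ℕ} (hq : IsPrimePow q) (hK : Fintype.card K = q ^ 3) : Cfsg.HasCyclicSchurMultiplier ↥(Cfsg.Lie.twistedD4 K q) 1 := by
  obtain ⟨f, hf⟩ := Cfsg.Agent.H46.exists_qFrob hq (by norm_num : 0 < 3) hK
  rw [Cfsg.Agent.H46.twistedD4_eq f hf hK]
  rcases eq_or_lt_of_le hq.two_le with rfl | h3
  · refine Cfsg.Agent.H82.hasCyclicSchurMultiplier_one_iff.2 fun Δ _ _ τ hτ => ?_
    rw [← MonoidHom.ker_eq_bot_iff]
    exact Subgroup.eq_bot_of_card_le _ (Cfsg.Agent.H46.TwistCover.card_stem_ker_le_two hK hf τ hτ)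
  · exact Cfsg.Agent.H46.TwistCover.hasCyclicSchurMultiplier_twistD4 hK h3 f hf

end Cfsg.Agent.S2110
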