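import Cfsg.Statements.S2111
import Cfsg.Agent.H64.SzMult.Two
import Cfsg.Agent.H7.SzLie
import Cfsg.Agent.H82.Mult
-- import your own Cfsg.Agent.* helpers here

set_option autoImplicit false
open Cfsg

namespace Cfsg.Agent.S2111

/-- Schur multipliers of the Suzuki groups: for q = 2^(2m+1) with m ≥ 2 the Schur multiplier of Sz(q) is trivial (here the Schur multiplier is described through stem extensions, as in the definitions); q = 8 is exceptional. -/
theorem result {F : Type*} [Field F] [Fintype F] {m : ℕ} (hm : 2 ≤ m) (hF : Fintype.card F = 2 ^ (2 * m + 1)) : Cfsg.HasCyclicSchurMultiplier ↥(Cfsg.Lie.Sz F (2 ^ (m + 1))) 1 := by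
  have H := Cfsg.Agent.H7.SzHyp.of_fintype (F := F) (le_trans (by norm_num) hm) hF
  haveI := H.finite_Sz
  refine Cfsg.Agent.H82.HasSchurMultiplier.of_mulEquiv ?_ H.lieEquiv
  refine Cfsg.Agent.H64.hasCyclicSchurMultiplier_one fun {Γ} _ _ σ hσ r hr => ?_
  haveI : Fact r.Prime := ⟨hr⟩
  by_cases h2 : r = 2
  · subst h2
    obtain ⟨P, hP⟩ := Sylow.mapSurjective_surjective hσ.1 2 H.sylowQ
    refine Cfsg.Agent.H64.not_dvd_card_ker_of_sylow hσ P ?_
    have hmap : (P : Subgroup Γ).map σ = H.Q := by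
      rw [← H.coe_sylowQ, ← hP]; rfl
    have hle : (P : Subgroup Γ) ≤ H.Q.comap σ := Subgroup.map_le_iff_le_comap.mp hmap.le
    exact le_bot_iff.mp ((inf_le_inf_left σ.ker (Subgroup.commutator_mono hle hle)).trans
      (Cfsg.Agent.H64.SzMult.inf_commutator_eq_bot H hm hσ.1 hσ.2.1).le)
  · exact Cfsg.Agent.H64.not_dvd_card_ker_of_isCyclic hσ (H.sylow_odd_isCyclic h2)

end Cfsg.Agent.S2111
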