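import Cfsg.Statements.S2112
import Cfsg.Agent.H14.Sz8.Cover
import Cfsg.Agent.H14.Sz8.Bound
-- import your own Cfsg.Agent.* helpers here

set_option autoImplicit false
open Cfsg

namespace Cfsg.Agent.S2112

/-- Exceptional Schur multiplier: the Suzuki group Sz(8), built over the field with 8 elements using the map x ↦ x⁴, has Schur multiplier a four-group, the product of two cyclic groups of order 2 (here the Schur multiplier is described through stem extensions, as in the definitions). -/
theorem result {F : Type*} [Field F] [Fintype F] (hF : Fintype.card F = 8) : Cfsg.HasSchurMultiplier ↥(Cfsg.Lie.Sz F 4) (Multiplicative (ZMod 2 × ZMod 2)) := by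
  have H := Cfsg.Agent.H7.SzHyp.of_fintype (F := F) (m := 1) le_rfl (hF.trans (by norm_num))
  haveI := H.finite_Sz
  refine Cfsg.Agent.H82.HasSchurMultiplier.of_mulEquiv ?_ H.lieEquiv
  obtain ⟨Γ, σ, hσ, ⟨e⟩⟩ := Cfsg.Agent.H14.Sz8.exists_stem H
  refine Cfsg.Agent.H82.hasSchurMultiplier_of_card hσ e fun Δ _ _ τ hτ => ?_
  refine (Cfsg.Agent.H14.Sz8.card_ker_le_four H hτ).trans_eq ?_
  simp [Nat.card_eq_fintype_card]

end Cfsg.Agent.S2112
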