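import Cfsg.Statements.S2114
import Cfsg.Agent.H70.F4Mult.Main
-- import your own Cfsg.Agent.* helpers here

set_option autoImplicit false
set_option maxRecDepth 100000
open Cfsg Cfsg.Agent.H65.Twist Cfsg.Agent.H70.F4Out Cfsg.Agent.H70.F4Mult

namespace Cfsg.Agent.S2114

/-- Schur multipliers of the large Ree groups: for q = 2^(2m+1) with m ≥ 1 the Schur multiplier of ²F₄(q) is trivial (here the Schur multiplier is described through stem extensions, as in the definitions). -/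
theorem result {K : Type*} [Field K] [Fintype K] {m : ℕ} (hm : 1 ≤ m) (hK : Fintype.card K = 2 ^ (2 * m + 1)) : Cfsg.HasCyclicSchurMultiplier ↥(Cfsg.Lie.twistedF4 K (2 ^ m)) 1 := by
  haveI : Fact (Nat.Prime 2) := ⟨Nat.prime_two⟩
  haveI : CharP K 2 := charP_of_card_eq_prime_pow (p := 2) hK
  have e : ↥(TD hK).G1 ≃* ↥(Cfsg.Lie.twistedF4 K (2 ^ m)) :=
    g1Equiv (f4Setup K hK) (Cfsg.Lie.twistedF4 K (2 ^ m)) twistedF4_le rfl
  refine Cfsg.Agent.H64.hasCyclicSchurMultiplier_one fun {Γ} _ _ σ hσ r hr hdvd => ?_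
  set σ' := e.symm.toMonoidHom.comp σ with hσ'def
  have hker : σ'.ker = σ.ker := by
    ext x; simp [hσ'def, MonoidHom.mem_ker]
  have hσ' : Cfsg.IsStemExtension σ' := ⟨e.symm.surjective.comp hσ.1, hker ▸ hσ.2.1, hker ▸ hσ.2.2⟩
  have h1 := card_ker_eq_one hK hm hσ'
  rw [hker] at h1
  rw [h1] at hdvd
  exact hr.one_lt.ne' (Nat.dvd_one.1 hdvd)

end Cfsg.Agent.S2114
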