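import Cfsg.Statements.S2126
import Cfsg.Agent.H58.SuzukiOut

set_option autoImplicit false
open Cfsg

namespace Cfsg.Agent.S2126

/-- Outer automorphisms of the Suzuki groups: for q = 2^(2m+1) with m ≥ 1 the outer automorphism group of Sz(q) has order 2m + 1 (field automorphisms only). -/
theorem result {F : Type*} [Field F] [Fintype F] {m : ℕ} (hm : 1 ≤ m) (hF : Fintype.card F = 2 ^ (2 * m + 1)) : Nat.card (Cfsg.Out ↥(Cfsg.Lie.Sz F (2 ^ (m + 1)))) = 2 * m + 1 := by
  have H := Cfsg.Agent.H7.SzHyp.of_fintype hm hF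
  rw [← Nat.card_congr (Cfsg.Agent.H58.SzOut.outCongr H.lieEquiv).toEquiv]
  exact Cfsg.Agent.H58.SzOut.card_out H

end Cfsg.Agent.S2126
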