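import Cfsg.Statements.S2136
import Cfsg.Agent.H21.CoTwoInv.Centralizer

set_option autoImplicit false
open Cfsg

namespace Cfsg.Agent.S2136

/-- The Conway group Co₂ (the stabiliser of a minimal vector of the rank-24 lattice) has an involution whose centraliser C has largest normal 2-subgroup extraspecial of order 2^9 with quotient C / O₂(C) isomorphic to the symplectic group Sp(6, 2) (shape 2^{1+8}Sp(6, 2)). -/
theorem result : ∃ t : ↥Cfsg.Spor.Co2, orderOf t = 2 ∧ Cfsg.IsExtraspecial 2 (Cfsg.pCore 2 ↥(Subgroup.centralizer ({t} : Set ↥Cfsg.Spor.Co2))) ∧ Nat.card (Cfsg.pCore 2 ↥(Subgroup.centralizer ({t} : Set ↥Cfsg.Spor.Co2))) = 2 ^ 9 ∧ Nonempty (↥(Subgroup.centralizer ({t} : Set ↥Cfsg.Spor.Co2)) ⧸ Cfsg.pCore 2 ↥(Subgroup.centralizer ({t} : Set ↥Cfsg.Spor.Co2)) ≃* Matrix.symplecticGroup (Fin 3) (ZMod 2)) := by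
  exact Cfsg.Agent.H21.CoTwoInv.co2_involution_centralizer

end Cfsg.Agent.S2136
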