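import Cfsg.Statements.S2141
import Cfsg.Agent.H2.MinIdx.Psp
-- import your own Cfsg.Agent.* helpers here

set_option autoImplicit false
open Cfsg Cfsg.Agent.H2.MinIdx

namespace Cfsg.Agent.S2141

/-- Minimal index of a proper subgroup of the symplectic groups over fields with at least 3 elements: for m ≥ 2 and a field F with q ≥ 3 elements, (m, q) ≠ (2, 3), every proper subgroup of PSp_2m(F) has index at least (q^(2m) − 1)/(q − 1), and that index is attained. -/
theorem result {F : Type*} [Field F] [Fintype F] {q : ℕ} (hF : Fintype.card F = q) (m : ℕ) (hm : 2 ≤ m) (hq : 3 ≤ q) (hexc : ¬ (m = 2 ∧ q = 3)) : (∀ H : Subgroup (Cfsg.PSp m F), H ≠ ⊤ → (q ^ (2 * m) - 1) / (q - 1) ≤ H.index) ∧ (∃ H : Subgroup (Cfsg.PSp m F), H.index = (q ^ (2 * m) - 1) / (q - 1)) := by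
  subst hF
  obtain ⟨n, rfl⟩ : ∃ n, m = n + 1 := ⟨m - 1, by omega⟩
  rw [← pts_eq (by omega)]
  refine ⟨fun H hH => ?_, psp_point_index (n + 1) (by omega)⟩
  have hsurj := QuotientGroup.mk'_surjective (Subgroup.center (Matrix.symplecticGroup (Fin (n + 1)) F))
  rw [← Subgroup.index_comap_of_surjective H hsurj]
  exact sp_bound (by omega) hq (fun h1 h3 => hexc ⟨by omega, h3⟩) _
    fun h => hH (Subgroup.comap_injective hsurj (h.trans (Subgroup.comap_top _).symm))

end Cfsg.Agent.S2141
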