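import Cfsg.Statements.S2142
import Cfsg.Agent.H2.MinTwo.Bound
import Cfsg.Agent.H2.MinTwo.Attain
import Cfsg.Agent.H2.Simple
-- import your own Cfsg.Agent.* helpers here

set_option autoImplicit false
open Cfsg Cfsg.Agent.H2.MinIdx Cfsg.Agent.H2.MinTwo

namespace Cfsg.Agent.S2142

/-- Minimal index of a proper subgroup of the symplectic groups over the field with 2 elements: for m ≥ 3, every proper subgroup of Sp_2m(2) has index at least 2^(m−1)(2^m − 1), and that index is attained. -/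
theorem result {F : Type*} [Field F] [Fintype F] (hF : Fintype.card F = 2) (m : ℕ) (hm : 3 ≤ m) : (∀ H : Subgroup (Cfsg.PSp m F), H ≠ ⊤ → 2 ^ (m - 1) * (2 ^ m - 1) ≤ H.index) ∧ (∃ H : Subgroup (Cfsg.PSp m F), H.index = 2 ^ (m - 1) * (2 ^ m - 1)) := by
  classical
  obtain ⟨j, rfl⟩ : ∃ j, m = j + 1 + 1 := ⟨m - 2, by omega⟩
  have hc : Subgroup.center (Matrix.symplecticGroup (Fin (j + 1 + 1)) F) = ⊥ := by
    rw [← Subgroup.card_eq_one, Cfsg.Agent.H2.card_center_sp (by omega), Nat.card_eq_fintype_card, hF]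
    rfl
  have hsurj := QuotientGroup.mk'_surjective (Subgroup.center (Matrix.symplecticGroup (Fin (j + 1 + 1)) F))
  refine ⟨fun H hH => ?_, ?_⟩
  · rw [← Subgroup.index_comap_of_surjective H hsurj]
    set K := H.comap (QuotientGroup.mk' (Subgroup.center (Matrix.symplecticGroup (Fin (j + 1 + 1)) F)))
    have hK : K ≠ ⊤ := fun h => hH (Subgroup.comap_injective hsurj (h.trans (Subgroup.comap_top _).symm))
    have hN : 2 ≤ Nat.card (Matrix.symplecticGroup (Fin (j + 1 + 1)) F ⧸ K) := by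
      have h0 : K.index ≠ 0 := Subgroup.index_ne_zero_of_finite
      have h1 : K.index ≠ 1 := fun h => hK (Subgroup.index_eq_one.mp h)
      show 2 ≤ K.index
      omega
    have h := two_bound (j := j) (Ω := Matrix.symplecticGroup (Fin (j + 1 + 1)) F ⧸ K) hF (by omega) hN
    change 2 * 2 ^ (2 * (j + 1)) ≤ K.index + 2 ^ (j + 1) at h
    rw [show j + 1 + 1 - 1 = j + 1 by omega, Nat.mul_sub, mul_one, ← pow_add,
      show j + 1 + (j + 1 + 1) = 2 * (j + 1) + 1 by omega, pow_succ]
    omega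
  · obtain ⟨H, hH⟩ := exists_minus (m := j + 1 + 1) hF (by omega)
    refine ⟨H.map (QuotientGroup.mk' _), ?_⟩
    rw [← hH]
    refine Subgroup.index_map_of_bijective ⟨?_, hsurj⟩ H
    rw [← MonoidHom.ker_eq_bot_iff, QuotientGroup.ker_mk', hc]

end Cfsg.Agent.S2142
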