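import Cfsg.Statements.S2143
import Cfsg.Agent.H3.OIdx.Models

set_option autoImplicit false
open Cfsg

namespace Cfsg.Agent.S2143

/-- Minimal index of a proper subgroup of the odd-dimensional orthogonal groups: for m ≥ 3 and a field F with q elements, q odd and q ≥ 5, every proper subgroup of PΩ_(2m+1)(F) (for the form x₀² + Σ xᵢyᵢ) has index at least (q^(2m) − 1)/(q − 1), and that index is attained. -/
theorem result {F : Type*} [Field F] [Fintype F] {q : ℕ} (hF : Fintype.card F = q) (hodd : Odd q) (h5 : 5 ≤ q) (m : ℕ) (hm : 3 ≤ m) : (∀ H : Subgroup (Cfsg.POmega F (Cfsg.quadFormOdd m F)), H ≠ ⊤ → (q ^ (2 * m) - 1) / (q - 1) ≤ H.index) ∧ (∃ H : Subgroup (Cfsg.POmega F (Cfsg.quadFormOdd m F)), H.index = (q ^ (2 * m) - 1) / (q - 1)) := by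
  subst hF
  have h2 := Agent.H3.OIdx.two_ne_zero_of_odd hodd
  have hP := Agent.H3.OIdx.points_qOdd (F := F) m
  set q := Fintype.card F
  set N := (Agent.H4.singularPoints (Agent.H5.qOdd m F)).ncard
  have hB : (q ^ (2 * m) - 1) / (q - 1) = N := Agent.H3.OIdx.eq_div_pred (by omega) hP
  rw [hB]
  haveI : Finite (Unit ⊕ (Fin m ⊕ Fin m) → F) := Pi.finite
  have hn := Agent.H3.OIdx.finrank_odd (F := F) m
  obtain ⟨e, he0, he⟩ :=
    Agent.H5.exists_singular (Agent.H5.qOdd_nondegenerate m h2) (by omega)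
  refine Agent.H3.OIdx.min_index_odd h2 hm le_rfl (fun c _ => ?_) ?_ (Submodule.span F {e})
    (Agent.H4.orbit_span_eq' (Agent.H5.qOdd_nondegenerate m h2) (by omega) he0 he)
  · have hc : q ^ (2 * m) ≤ (Agent.H3.OIdx.normSet (Agent.H5.qOdd m F) c).ncard + q ^ m :=
      Agent.H3.OIdx.le_norm_qOdd (F := F) m c
    have hm2 : 4 * q ^ m ≤ q ^ (2 * m) := by
      rw [two_mul, pow_add]
      refine Nat.mul_le_mul_right _ ?_
      exact le_trans (by omega) (Nat.le_self_pow (by omega) q)
    have h4 : N * 4 ≤ N * (q - 1) := Nat.mul_le_mul_left _ (by omega)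
    omega
  · have h1 : N * (q - 1) ≤ q ^ (2 * m) := by omega
    refine Nat.le_of_mul_le_mul_right (h1.trans ?_) (show 0 < q - 1 by omega)
    calc q ^ (2 * m) = q * q * q ^ (2 * m - 2) := by
          rw [← pow_two, ← pow_add]; congr 1; omega
      _ ≤ (q + 2) * (q - 1) * q ^ (2 * m - 2) := by
          refine Nat.mul_le_mul_right _ ?_
          zify [show 1 ≤ q by omega]
          nlinarith
      _ = (q + 2) * q ^ (2 * m - 2) * (q - 1) := by ring

end Cfsg.Agent.S2143
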