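import Cfsg.Statements.S2144
import Cfsg.Agent.H3.OIdx.Models

set_option autoImplicit false
open Cfsg

namespace Cfsg.Agent.S2144

/-- Minimal index of a proper subgroup of the odd-dimensional orthogonal groups over the field with 3 elements: for m ≥ 3, every proper subgroup of PΩ_(2m+1)(3) (for the form x₀² + Σ xᵢyᵢ) has index at least 3^m(3^m − 1)/2, and that index is attained. -/
theorem result {F : Type*} [Field F] [Fintype F] (hF : Fintype.card F = 3) (m : ℕ) (hm : 3 ≤ m) : (∀ H : Subgroup (Cfsg.POmega F (Cfsg.quadFormOdd m F)), H ≠ ⊤ → 3 ^ m * (3 ^ m - 1) / 2 ≤ H.index) ∧ (∃ H : Subgroup (Cfsg.POmega F (Cfsg.quadFormOdd m F)), H.index = 3 ^ m * (3 ^ m - 1) / 2) := by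
  have h2 : (2 : F) ≠ 0 := Agent.H3.OIdx.two_ne_zero_of_odd (by rw [hF]; decide)
  have hP := Agent.H3.OIdx.points_qOdd (F := F) m
  rw [hF] at hP
  haveI : Finite (Unit ⊕ (Fin m ⊕ Fin m) → F) := Pi.finite
  have hn := Agent.H3.OIdx.finrank_odd (F := F) m
  have hQ := Agent.H5.qOdd_nondegenerate (F := F) m h2
  obtain ⟨y, hy⟩ := Agent.H5.exists_norm_eq h2 hQ (by omega) (2 : F)
  have hy0 : Agent.H5.qOdd m F y ≠ 0 := by rw [hy]; exact h2
  have horb := Agent.H3.OIdx.orbit_mul_signs hQ (by omega) hy0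
  rw [Agent.H3.OIdx.signs_odd F h2, hy] at horb
  have hns : Nat.card {t : F // t ^ 2 = 2} = 0 := by
    haveI : IsEmpty {t : F // t ^ 2 = 2} := ⟨fun ⟨t, ht⟩ => by
      have ht0 : t ≠ 0 := by rintro rfl; exact h2 (by simpa using ht.symm)
      have h1 := FiniteField.pow_card_sub_one_eq_one t ht0
      rw [hF] at h1
      have h21 : (2 : F) = 1 := ht.symm.trans h1
      exact one_ne_zero (by linear_combination h21 : (1 : F) = 0)⟩
    exact Nat.card_of_isEmpty
  have hN := Agent.H3.OIdx.card_norm_qOdd (F := F) m 2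
  rw [hns, hF, ← horb] at hN
  set S := Submodule.span F ({y} : Set (Unit ⊕ (Fin m ⊕ Fin m) → F))
  set O := (Agent.H4.subspaceOrbit (Agent.H5.qOdd m F) S).ncard
  have hO : O * 2 = 3 ^ m * (3 ^ m - 1) := by
    zify [Nat.one_le_pow m 3 (by norm_num)]
    push_cast at hN
    rw [hN, two_mul, pow_add]
    ring
  have hB : 3 ^ m * (3 ^ m - 1) / 2 = O := by
    rw [← hO, Nat.mul_div_cancel _ (by norm_num)]
  rw [hB]
  have hsq : 3 ^ (2 * m) = 3 ^ m * 3 ^ m := by rw [two_mul, pow_add]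
  have hle : O * 2 + 3 ^ m = 3 ^ (2 * m) := by
    rw [hO, hsq]
    zify [Nat.one_le_pow m 3 (by norm_num)]
    ring
  refine Agent.H3.OIdx.min_index_odd h2 hm ?_ (fun c _ => ?_) ?_ S rfl
  · have := Nat.one_le_pow m 3 (by norm_num)
    omega
  · have hc := Agent.H3.OIdx.le_norm_qOdd (F := F) m c
    rw [hF] at hc
    omega
  · rw [hF]
    obtain ⟨j, rfl⟩ : ∃ j, m = j + 1 := ⟨m - 1, by omega⟩
    rw [show 2 * (j + 1) - 2 = 2 * j by omega]
    rw [show 2 * (j + 1) = 2 * j + 1 + 1 by ring, pow_succ 3 (2 * j + 1), pow_succ 3 (2 * j)] at hle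
    linarith [Nat.zero_le (3 ^ (j + 1)), Nat.zero_le (3 ^ (2 * j))]

end Cfsg.Agent.S2144
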