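import Cfsg.Statements.S2145
import Cfsg.Agent.H3.OIdx.Plus

set_option autoImplicit false
open Cfsg

namespace Cfsg.Agent.S2145

/-- Minimal index of a proper subgroup of the even-dimensional orthogonal groups of plus type: for m ≥ 4 and a field F with q ≥ 4 elements, every proper subgroup of PΩ⁺_2m(F) (for the form Σ xᵢyᵢ) has index at least (q^m − 1)(q^(m−1) + 1)/(q − 1), and that index is attained (the singular points). -/
theorem result {F : Type*} [Field F] [Fintype F] {q : ℕ} (hF : Fintype.card F = q) (hq : 4 ≤ q) (m : ℕ) (hm : 4 ≤ m) : (∀ H : Subgroup (Cfsg.POmega F (Cfsg.quadFormPlus m F)), H ≠ ⊤ → (q ^ m - 1) * (q ^ (m - 1) + 1) / (q - 1) ≤ H.index) ∧ (∃ H : Subgroup (Cfsg.POmega F (Cfsg.quadFormPlus m F)), H.index = (q ^ m - 1) * (q ^ (m - 1) + 1) / (q - 1)) := by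
  subst hF
  have hP := Agent.H3.OIdx.points_qPlus (F := F) (show 1 ≤ m by omega)
  rw [← hP, Nat.mul_div_cancel _ (show 0 < Fintype.card F - 1 by omega)]
  haveI : Finite (Fin m ⊕ Fin m → F) := Pi.finite
  have hn := Agent.H3.OIdx.finrank_plus (F := F) m
  obtain ⟨e, he0, he⟩ :=
    Agent.H5.exists_singular (Agent.H5.qPlus_nondegenerate (F := F) m) (by omega)
  set q := Fintype.card F
  set N := (Agent.H4.singularPoints (Agent.H5.qPlus m F)).ncard
  obtain ⟨j, rfl⟩ : ∃ j, m = j + 4 := ⟨m - 4, by omega⟩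
  simp only [show j + 4 - 1 = j + 3 by omega] at hP
  have hpos : 1 ≤ q ^ (j + 4) := Nat.one_le_pow _ _ (by omega)
  zify [hpos, show 1 ≤ q by omega] at hP
  have hq' : (4 : ℤ) ≤ q := by exact_mod_cast hq
  obtain ⟨Y, hY⟩ : ∃ Y : ℤ, Y = (q : ℤ) ^ (j + 2) := ⟨_, rfl⟩
  have hY1 : (q : ℤ) ≤ Y := by
    rw [hY]; exact_mod_cast Nat.le_self_pow (show j + 2 ≠ 0 by omega) q
  replace hP : (N : ℤ) * ((q : ℤ) - 1) = ((q : ℤ) * q * Y - 1) * (q * Y + 1) := by
    rw [hP, hY]; ring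
  have hqY : (16 : ℤ) ≤ q * Y := by nlinarith
  refine Agent.H3.OIdx.min_index_plus hm le_rfl (fun c hc => ?_) ?_ (Submodule.span F {e})
    (Agent.H4.orbit_span_eq' (Agent.H5.qPlus_nondegenerate (F := F) (j + 4)) (by omega) he0 he)
  · refine (Nat.mul_le_mul_left _ (Agent.H3.OIdx.signs_le_two F)).trans ?_
    have h := Agent.H3.OIdx.norm_qPlus (F := F) (show 1 ≤ j + 4 by omega) hc
    zify at h ⊢
    have h' : ((Agent.H3.OIdx.normSet (Agent.H5.qPlus (j + 4) F) c).ncard : ℤ) + q * Y =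
        (q * Y) * (q * q * Y) := by
      rw [show 2 * (j + 4) - 1 = (j + 2) + (j + 2) + 3 by omega,
        show j + 4 - 1 = (j + 2) + 1 by omega] at h
      change ((_ : ℕ) : ℤ) + (q : ℤ) ^ _ = (q : ℤ) ^ _ at h
      rw [pow_succ, pow_add _ (j + 2 + (j + 2)) 3, pow_add _ (j + 2) (j + 2), ← hY] at h
      linear_combination h
    have h3 : (3 : ℤ) * N ≤ N * ((q : ℤ) - 1) := by nlinarith
    have h4 : 0 ≤ (q : ℤ) * Y * (q * q * Y - 2 * q - 1) :=
      mul_nonneg (by linarith) (by nlinarith)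
    nlinarith
  · rw [show 2 * (j + 4) - 3 = (j + 2) + (j + 2) + 1 by omega]
    zify
    refine le_of_mul_le_mul_right ?_ (show (0 : ℤ) < (q : ℤ) - 1 by linarith)
    rw [hP]
    change _ ≤ ((q : ℤ) + 2) * (q : ℤ) ^ _ * _
    rw [pow_succ _ (j + 2 + (j + 2)), pow_add _ (j + 2) (j + 2), ← hY]
    have h5 : (q : ℤ) * q * Y * 2 - q * Y * 4 ≤ (q * q - 2 * q) * Y * Y := by
      nlinarith [mul_le_mul_of_nonneg_left (show (2 : ℤ) ≤ Y by linarith)
        (mul_nonneg (show (0 : ℤ) ≤ q * q - 2 * q by nlinarith) (show (0 : ℤ) ≤ Y by linarith))]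
    nlinarith

end Cfsg.Agent.S2145
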