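import Cfsg.Statements.S2146
import Cfsg.Agent.H3.OIdx.Plus

set_option autoImplicit false
open Cfsg

namespace Cfsg.Agent.S2146

/-- Minimal index of a proper subgroup of the even-dimensional orthogonal groups of plus type over the field with 2 elements: for m ≥ 4, every proper subgroup of Ω⁺_2m(2) (for the form Σ xᵢyᵢ) has index at least 2^(m−1)(2^m − 1), and that index is attained. -/
theorem result {F : Type*} [Field F] [Fintype F] (hF : Fintype.card F = 2) (m : ℕ) (hm : 4 ≤ m) : (∀ H : Subgroup (Cfsg.POmega F (Cfsg.quadFormPlus m F)), H ≠ ⊤ → 2 ^ (m - 1) * (2 ^ m - 1) ≤ H.index) ∧ (∃ H : Subgroup (Cfsg.POmega F (Cfsg.quadFormPlus m F)), H.index = 2 ^ (m - 1) * (2 ^ m - 1)) := by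
  have h20 : (2 : F) = 0 := by
    have := Nat.cast_card_eq_zero F
    rw [hF] at this
    exact_mod_cast this
  have hP := Agent.H3.OIdx.points_qPlus (F := F) (show 1 ≤ m by omega)
  rw [hF, show 2 - 1 = 1 from rfl, mul_one] at hP
  haveI : Finite (Fin m ⊕ Fin m → F) := Pi.finite
  have hn := Agent.H3.OIdx.finrank_plus (F := F) m
  obtain ⟨j, rfl⟩ : ∃ j, m = j + 1 := ⟨m - 1, by omega⟩
  simp only [show j + 1 - 1 = j by omega] at hP ⊢
  set y : Fin (j + 1) ⊕ Fin (j + 1) → F :=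
    Pi.single (Sum.inl 0) 1 + Pi.single (Sum.inr 0) 1
  have hy : Agent.H5.qPlus (j + 1) F y = 1 := by
    simp [y, Agent.H5.coe_qPlus, Cfsg.quadFormPlus, Pi.single_apply]
  have horb := Agent.H3.OIdx.orbit_mul_signs (Agent.H5.qPlus_nondegenerate (F := F) (j + 1))
    (by omega) (y := y) (by rw [hy]; exact one_ne_zero)
  have hsg := Agent.H3.OIdx.signs_of_two F h20
  rw [hy, hsg, mul_one] at horb
  have hN : ∀ c : F, c ≠ 0 →
      (Agent.H3.OIdx.normSet (Agent.H5.qPlus (j + 1) F) c).ncard = 2 ^ j * (2 ^ (j + 1) - 1) :=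
    fun c hc => by
      have h := Agent.H3.OIdx.norm_qPlus (F := F) (show 1 ≤ j + 1 by omega) hc
      rw [hF, show j + 1 - 1 = j by omega, show 2 * (j + 1) - 1 = j + (j + 1) by omega,
        pow_add] at h
      rw [Nat.mul_sub, mul_one]
      omega
  have h1 : 1 ≤ 2 ^ (j + 1) := Nat.one_le_pow _ _ (by norm_num)
  refine Agent.H3.OIdx.min_index_plus hm ?_ (fun c hc => by rw [hsg, mul_one, hN c hc]) ?_
    (Submodule.span F {y}) (horb.trans (hN 1 one_ne_zero))
  · rw [hP, mul_comm]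
    exact Nat.mul_le_mul_left _ (by omega)
  · rw [hF, show 2 * (j + 1) - 3 = j + (j - 1) by omega, pow_add 2 j (j - 1), ← mul_assoc,
      mul_comm (2 + 2) (2 ^ j), mul_assoc]
    refine Nat.mul_le_mul_left _ ?_
    rw [show (2 + 2) * 2 ^ (j - 1) = 2 ^ (j + 1) by
      rw [show (2 + 2) = 2 ^ 2 by norm_num, ← pow_add]; congr 1; omega]
    omega

end Cfsg.Agent.S2146
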