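import Cfsg.Statements.S2147
import Cfsg.Agent.H3.OIdx.Models

set_option autoImplicit false
open Cfsg

namespace Cfsg.Agent.S2147

/-- Minimal index of a proper subgroup of the even-dimensional orthogonal groups of minus type: for m ≥ 4 and a field F with q elements, every proper subgroup of PΩ⁻_2m(F) (for the form Σ_{i<m−1} xᵢyᵢ + z₁² + a z₁z₂ + b z₂² with anisotropic binary part) has index at least (q^m + 1)(q^(m−1) − 1)/(q − 1), and that index is attained. -/
theorem result {F : Type*} [Field F] [Fintype F] {q : ℕ} (hF : Fintype.card F = q) (m : ℕ) (hm : 4 ≤ m) (a b : F) (hab : ∀ z₁ z₂ : F, z₁ ^ 2 + a * z₁ * z₂ + b * z₂ ^ 2 = 0 → z₁ = 0 ∧ z₂ = 0) : (∀ H : Subgroup (Cfsg.POmega F (Cfsg.quadFormMinus (m - 1) F a b)), H ≠ ⊤ → (q ^ m + 1) * (q ^ (m - 1) - 1) / (q - 1) ≤ H.index) ∧ (∃ H : Subgroup (Cfsg.POmega F (Cfsg.quadFormMinus (m - 1) F a b)), H.index = (q ^ m + 1) * (q ^ (m - 1) - 1) / (q - 1)) := by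
  subst hF
  obtain ⟨k, rfl⟩ : ∃ k, m = k + 1 := ⟨m - 1, by omega⟩
  simp only [Nat.add_sub_cancel]
  have hP := Agent.H3.OIdx.points_qMinus k hab
  rw [← hP, Nat.mul_div_cancel _
    (show 0 < Fintype.card F - 1 by have := Fintype.one_lt_card (α := F); omega)]
  haveI : Finite ((Fin k ⊕ Fin k) ⊕ Fin 2 → F) := Pi.finite
  have hn := Agent.H3.OIdx.finrank_minus (F := F) k
  have hQ := Agent.H5.qMinus_nondegenerate k hab
  obtain ⟨e, he0, he⟩ := Agent.H5.exists_singular hQ (by omega)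
  exact Agent.H3.OIdx.min_index_model (Agent.H5.qMinus k F a b) (Agent.H5.coe_qMinus k a b)
    (Agent.H3.OIdx.idxHyp_qMinus (by omega) hab)
    (fun _ _ _ _ _ _ he => (Agent.H3.OIdx.exc_false_qMinus hab he).elim) (Submodule.span F {e})
    (Agent.H4.orbit_span_eq' hQ (by omega) he0 he)

end Cfsg.Agent.S2147
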