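import Cfsg.Statements.S2157
import Cfsg.Agent.H64.Chev.RootChar
-- import your own Cfsg.Agent.* helpers here

set_option autoImplicit false
open Cfsg

namespace Cfsg.Agent.S2157

/-- In a Chevalley group of type G₂, B₂, D₄, F₄, E₆, E₇ or E₈, for every character `χ` of the root lattice with values in `Fˣ` the diagonal matrix `ĥ(χ)` (identity on the coroot coordinates, `χ(s)` on the coordinate of `e_s`) conjugates each root element `x_r(t)` to `x_r(χ(r) t)`: `ĥ(χ) x_r(t) ĥ(χ)⁻¹ = x_r(χ(r) t)` as matrices, with `ĥ(χ)⁻¹` written as `ĥ(χ⁻¹)`. -/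
theorem result {F : Type*} [Field F] (D : Cfsg.Lie.ChevalleyDatum) (hD : D ∈ [Cfsg.Lie.chevG2, Cfsg.Lie.chevB2, Cfsg.Lie.chevD4, Cfsg.Lie.chevF4, Cfsg.Lie.chevE6, Cfsg.Lie.chevE7, Cfsg.Lie.chevE8]) (χ : ℕ → Fˣ) (hχ : D.IsRootCharacter χ) (r : ℕ) (hr : r < D.nroots) (t : F) :
    D.charDiag F χ * D.x F r t * D.charDiag F (fun s => (χ s)⁻¹) = D.x F r ((χ r : F) * t) := by
  obtain ⟨G⟩ := Cfsg.Agent.H46.good_of_mem hD
  have hdec := Cfsg.Agent.H64.Chev.chkDec_of_mem hD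
  obtain ⟨hneg, hadd⟩ := hχ
  have h1 : D.charDiag F χ = Cfsg.Agent.H46.rdiag D (fun s => (χ s : F)) := rfl
  have h2 : D.charDiag F (fun s => (χ s)⁻¹) = Cfsg.Agent.H46.rdiag D (fun s => ((χ s)⁻¹ : Fˣ).val) := rfl
  rw [h1, h2, G.rdiag_mul_x (fun s => (χ s : F)) ?_ ?_ hr t, mul_assoc, Cfsg.Agent.H46.rdiag_mul]
  · simp only [Units.mul_inv]
    rw [Cfsg.Agent.H46.rdiag_one, mul_one]
  · intro s hs
    simp only [hneg s hs, Units.mul_inv]
  · intro a c ha hc q hq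
    simp only [Cfsg.Agent.H64.Chev.char_chain G hdec χ hneg hadd ha hc hq, Units.val_mul, Units.val_pow_eq_pow_val]

end Cfsg.Agent.S2157
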