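import Cfsg.Statements.S2158
import Cfsg.Agent.H46.Bruhat
import Cfsg.Agent.H46.Mem

set_option autoImplicit false
open Cfsg

namespace Cfsg.Agent.S2158

open Cfsg.Lie Cfsg.Agent.H46
open scoped Matrix MatrixGroups

/-- A diagonal matrix in the Chevalley group lies in the diagonal subgroup. -/
theorem mem_diagonal_of_offDiag {D : ChevalleyDatum} (G : Good D) {F : Type*} [Field F] {g : GL D.Idx F}
    (hg : g ∈ D.group F) (hd : ∀ a b, a ≠ b → (g : Matrix D.Idx D.Idx F) a b = 0) :
    g ∈ D.diagonalSubgroup F := by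
  have hne : ∀ a, (g : Matrix D.Idx D.Idx F) a a ≠ 0 := by
    intro a h0
    have h1 : ((g⁻¹ * g : GL D.Idx F) : Matrix D.Idx D.Idx F) a a = 1 := by simp
    rw [Units.val_mul, Matrix.mul_apply, Finset.sum_eq_single a] at h1
    · rw [h0, mul_zero] at h1; exact zero_ne_one h1
    · intro j _ hj; rw [hd j a hj, mul_zero]
    · exact fun h => absurd (Finset.mem_univ _) h
  obtain ⟨n, hn, hcell⟩ := G.bruhat hg
  obtain ⟨b, hb, b', hb', e⟩ := G.mem_bruhatCell.1 hcell
  have e' : b⁻¹ * g = n * b' := by rw [e]; group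
  obtain ⟨-, h2, h3⟩ := G.monomial_entries hn
  have key : ∀ c : Fin D.nroots, (c : ℕ) ≤ G.perm n c := by
    intro c
    refine G.le_of_lvl_le ?_
    have h : (n * b').val (Sum.inr (G.perm n c)) (Sum.inr c) ≠ 0 := by
      rw [Units.val_mul, Matrix.mul_apply, Finset.sum_eq_single (Sum.inr c)]
      · exact mul_ne_zero (h3 c) ((G.borel_shift hb').2 _)
      · intro j _ hj
        by_contra hne
        exact hj (h2 c j (left_ne_zero_of_mul hne))
      · exact fun h => absurd (Finset.mem_univ _) h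
    rw [← e', Units.val_mul, Matrix.mul_apply, Finset.sum_eq_single (Sum.inr c)] at h
    · simpa using (G.borel_shift (inv_mem hb)).1 _ _ (left_ne_zero_of_mul h)
    · intro j _ hj; rw [hd j _ hj, mul_zero]
    · exact fun h => absurd (Finset.mem_univ _) h
  have hperm : G.perm n = 1 := by
    refine Equiv.ext fun c => Fin.ext ?_
    refine ((Finset.sum_eq_sum_iff_of_le (s := Finset.univ) (f := fun c : Fin D.nroots => (c : ℕ))
      (g := fun c => (G.perm n c : ℕ)) fun c _ => key c).1 ?_ c (Finset.mem_univ _)).symm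
    rw [Equiv.sum_comp (G.perm n) (fun x : Fin D.nroots => (x : ℕ))]
  have hnd : n ∈ D.diagonalSubgroup F := (G.perm_eq_one_iff hn).1 hperm
  have hgB : g ∈ D.borelSubgroup F := by
    rw [e]; exact mul_mem (mul_mem hb (Subgroup.mem_sup_right hnd)) hb'
  obtain ⟨u, hu, h, hh, e2⟩ := G.mem_borel.1 hgB
  suffices u = 1 by rw [e2, this, one_mul]; exact hh
  have hu' := (G.posUnipotent_le_tri hu).1
  obtain ⟨z, rfl⟩ := G.mem_diagonal.1 hh
  refine Units.ext (sub_eq_zero.1 ?_)
  ext a c
  by_contra h0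
  rcases eq_or_ne a c with rfl | hac
  · have := hu' a a h0; omega
  · apply h0
    have e3 : u = g * (G.torus z⁻¹) := by rw [e2, map_inv, mul_inv_cancel_right]
    rw [Matrix.sub_apply, Units.val_one, Matrix.one_apply_ne hac, sub_zero, e3, Units.val_mul, G.coe_torus,
      rdiag, Matrix.mul_diagonal, hd a c hac, zero_mul]
    rfl

/-- In a Chevalley group of type G₂, B₂, D₄, F₄, E₆, E₇ or E₈ over any field, an element of the group whose matrix is the diagonal matrix `ĥ(χ)` of a character `χ` of the root lattice already lies in the diagonal subgroup H (the non-trivial inclusion of the statement that the group meets the group of all such diagonal matrices in H). -/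
theorem result {F : Type*} [Field F] (D : Cfsg.Lie.ChevalleyDatum) (hD : D ∈ [Cfsg.Lie.chevG2, Cfsg.Lie.chevB2, Cfsg.Lie.chevD4, Cfsg.Lie.chevF4, Cfsg.Lie.chevE6, Cfsg.Lie.chevE7, Cfsg.Lie.chevE8]) (χ : ℕ → Fˣ) (hχ : D.IsRootCharacter χ) (g : GL D.Idx F) (hg : g ∈ D.group F)
    (hgχ : (g : Matrix D.Idx D.Idx F) = D.charDiag F χ) : g ∈ D.diagonalSubgroup F :=
  mem_diagonal_of_offDiag (good_of_mem hD).some hg fun a b hab => by
    rw [hgχ, ChevalleyDatum.charDiag, Matrix.diagonal_apply_ne _ hab]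

end Cfsg.Agent.S2158
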