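import Cfsg.Statements.S2160
import Cfsg.Agent.H64.Chev.SimpleGen
-- import your own Cfsg.Agent.* helpers here

set_option autoImplicit false
open Cfsg

namespace Cfsg.Agent.S2160

/-- In a Chevalley group of type G₂, B₂, D₄, F₄, E₆, E₇ or E₈ over a finite field, every field automorphism commutes with every graph automorphism. -/
theorem result {F : Type*} [Field F] [Finite F] (D : Cfsg.Lie.ChevalleyDatum) (hD : D ∈ [Cfsg.Lie.chevG2, Cfsg.Lie.chevB2, Cfsg.Lie.chevD4, Cfsg.Lie.chevF4, Cfsg.Lie.chevE6, Cfsg.Lie.chevE7, Cfsg.Lie.chevE8]) (f g : ↥(D.group F) ≃* ↥(D.group F))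
    (hf : D.IsFieldAut f) (hg : D.IsGraphAut g) (y : ↥(D.group F)) : f (g y) = g (f y) := by
  obtain ⟨G⟩ := Cfsg.Agent.H46.good_of_mem hD
  have hdesc := Cfsg.Agent.H64.Chev.chkDescend_of_mem hD
  obtain ⟨σ, hσ⟩ := hf
  obtain ⟨π, -, hπ⟩ := hg
  have h : f.toMonoidHom.comp g.toMonoidHom = g.toMonoidHom.comp f.toMonoidHom := by
    refine Cfsg.Agent.H64.Chev.hom_ext_simple G hdesc _ _ (fun i hi t => ?_) (fun i hi t => ?_) <;>
      apply Subtype.ext <;> apply Units.ext <;> simp only [MonoidHom.comp_apply, MulEquiv.coe_toMonoidHom]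
    · rw [hσ _ _ _ (G.simple_lt (π ⟨i, hi⟩).2) ((hπ _ ⟨i, hi⟩ t).1 rfl),
        (hπ _ ⟨i, hi⟩ (σ t)).1 (hσ _ _ _ (G.simple_lt hi) rfl), map_pow]
    · rw [hσ _ _ _ (G.neg_lt (G.simple_lt (π ⟨i, hi⟩).2)) ((hπ _ ⟨i, hi⟩ t).2 rfl),
        (hπ _ ⟨i, hi⟩ (σ t)).2 (hσ _ _ _ (G.neg_lt (G.simple_lt hi)) rfl), map_pow]
  exact DFunLike.congr_fun h y

end Cfsg.Agent.S2160
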