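import Cfsg.Statements.S2161
import Cfsg.Agent.H64.Chev.GraphSign
-- import your own Cfsg.Agent.* helpers here

set_option autoImplicit false
open Cfsg

namespace Cfsg.Agent.S2161

/-- For the Chevalley groups of types D₄ and E₆ (one root length) over any field: if `π` is a symmetry of the Dynkin diagram and `φ` is an automorphism sending `x_{p_i}(t)` to `x_{p_{π i}}(t)` and `x_{-p_i}(t)` to `x_{-p_{π i}}(t)` for every fundamental root `p_i`, then for every root `r` there is a sign `ε = ±1` with `φ(x_r(t)) = x_{π·r}(ε t)` for all `t`, where `π·r` is the root whose coefficients are those of `r` permuted by `π`. -/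
theorem result {F : Type*} [Field F] (D : Cfsg.Lie.ChevalleyDatum) (hD : D ∈ [Cfsg.Lie.chevD4, Cfsg.Lie.chevE6])
    (π : Equiv.Perm (Fin D.rank)) (hπ : D.IsDiagramSymmetry π) (φ : ↥(D.group F) ≃* ↥(D.group F))
    (hφ : ∀ (g : ↥(D.group F)) (i : Fin D.rank) (t : F),
      (((g : GL D.Idx F) : Matrix D.Idx D.Idx F) = D.x F (D.simple i) t →
        ((φ g : GL D.Idx F) : Matrix D.Idx D.Idx F) = D.x F (D.simple (π i)) t) ∧
      (((g : GL D.Idx F) : Matrix D.Idx D.Idx F) = D.x F (D.neg (D.simple i)) t →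
        ((φ g : GL D.Idx F) : Matrix D.Idx D.Idx F) = D.x F (D.neg (D.simple (π i))) t))
    (r : ℕ) (hr : r < D.nroots) :
    ∃ ε : F, (ε = 1 ∨ ε = -1) ∧ ∀ (g : ↥(D.group F)) (t : F),
      ((g : GL D.Idx F) : Matrix D.Idx D.Idx F) = D.x F r t →
        ((φ g : GL D.Idx F) : Matrix D.Idx D.Idx F) = D.x F (D.permRoot π r) (ε * t) := by
  have hD' : D ∈ [Cfsg.Lie.chevG2, Cfsg.Lie.chevB2, Cfsg.Lie.chevD4, Cfsg.Lie.chevF4, Cfsg.Lie.chevE6,
      Cfsg.Lie.chevE7, Cfsg.Lie.chevE8] := by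
    simp only [List.mem_cons, List.not_mem_nil, or_false] at hD ⊢
    tauto
  obtain ⟨G⟩ := Cfsg.Agent.H46.good_of_mem hD'
  obtain ⟨Ts, hTs, hcov⟩ := Cfsg.Agent.H64.Chev.tabs_of_mem hD
  obtain ⟨S, hS, hρ⟩ := Cfsg.Agent.H64.Chev.exists_table hcov hπ
  exact Cfsg.Agent.H64.Chev.graph_sign G (Cfsg.Agent.H64.Chev.chkDescend_of_mem hD')
    (List.all_eq_true.mp hTs S hS) hρ φ hφ hr

end Cfsg.Agent.S2161
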