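import Cfsg.Statements.S2298
import Cfsg.Agent.H68.GL2Values

set_option autoImplicit false
open Cfsg

namespace Cfsg.Agent.S2298

/-- Over a finite field F with q elements, every irreducible complex character of GL₂ has degree 1, q − 1, q or q + 1; and when q ≥ 3 (so that these four numbers are distinct) there are exactly q − 1 irreducible characters of degree 1, exactly q − 1 of degree q, exactly (q − 1)(q − 2)/2 of degree q + 1 and exactly q(q − 1)/2 of degree q − 1. -/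
theorem result {F : Type*} [Field F] [Fintype F] :
    (∀ χ : Matrix.GeneralLinearGroup (Fin 2) F → ℂ, Cfsg.IsIrrCharacter (Matrix.GeneralLinearGroup (Fin 2) F) χ →
      χ 1 = 1 ∨ χ 1 = (Fintype.card F : ℂ) - 1 ∨ χ 1 = (Fintype.card F : ℂ) ∨ χ 1 = (Fintype.card F : ℂ) + 1) ∧
    (3 ≤ Fintype.card F →
      Nat.card {χ : Cfsg.IrrCharacter (Matrix.GeneralLinearGroup (Fin 2) F) // (χ : Matrix.GeneralLinearGroup (Fin 2) F → ℂ) 1 = 1} = Fintype.card F - 1 ∧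
      Nat.card {χ : Cfsg.IrrCharacter (Matrix.GeneralLinearGroup (Fin 2) F) // (χ : Matrix.GeneralLinearGroup (Fin 2) F → ℂ) 1 = (Fintype.card F : ℂ)} = Fintype.card F - 1 ∧
      Nat.card {χ : Cfsg.IrrCharacter (Matrix.GeneralLinearGroup (Fin 2) F) // (χ : Matrix.GeneralLinearGroup (Fin 2) F → ℂ) 1 = (Fintype.card F : ℂ) + 1} = (Fintype.card F - 1) * (Fintype.card F - 2) / 2 ∧
      Nat.card {χ : Cfsg.IrrCharacter (Matrix.GeneralLinearGroup (Fin 2) F) // (χ : Matrix.GeneralLinearGroup (Fin 2) F → ℂ) 1 = (Fintype.card F : ℂ) - 1} = Fintype.card F * (Fintype.card F - 1) / 2) := by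
  classical
  refine ⟨fun χ hχ => ?_, fun hq => ?_⟩
  · rcases Cfsg.Agent.H68.gl2_cases_degree hχ with ⟨-, h⟩ | ⟨-, h⟩ | ⟨-, h⟩ | ⟨-, h⟩ <;> simp [h]
  have key : ∀ (d : ℂ) (S : Finset (Cfsg.IrrCharacter (Matrix.GeneralLinearGroup (Fin 2) F))),
      (∀ χ, χ.1 1 = d ↔ χ ∈ S) →
      Nat.card {χ : Cfsg.IrrCharacter (Matrix.GeneralLinearGroup (Fin 2) F) // χ.1 1 = d} = S.card := by
    intro d S h
    rw [Nat.card_congr (Equiv.subtypeEquivRight h), Nat.card_eq_fintype_card, Fintype.card_coe]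
  obtain ⟨k, hk⟩ : ∃ k, Fintype.card F = k + 3 := ⟨Fintype.card F - 3, by omega⟩
  have hcase : ∀ χ : Cfsg.IrrCharacter (Matrix.GeneralLinearGroup (Fin 2) F),
      (χ ∈ Cfsg.Agent.H68.gLinSet F ∧ χ.1 1 = 1) ∨
      (χ ∈ Cfsg.Agent.H68.gStSet F ∧ χ.1 1 = ((k + 3 : ℕ) : ℂ)) ∨
      (χ ∈ Cfsg.Agent.H68.gPSSet F ∧ χ.1 1 = ((k + 4 : ℕ) : ℂ)) ∨
      (χ ∈ Cfsg.Agent.H68.gCuspSet F ∧ χ.1 1 = ((k + 2 : ℕ) : ℂ)) := by
    intro χ
    by_cases h1 : χ ∈ Cfsg.Agent.H68.gLinSet F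
    · exact Or.inl ⟨h1, Cfsg.Agent.H68.degree_of_mem_gLinSet h1⟩
    by_cases h2 : χ ∈ Cfsg.Agent.H68.gStSet F
    · exact Or.inr (Or.inl ⟨h2, by rw [Cfsg.Agent.H68.degree_of_mem_gStSet h2, hk]⟩)
    by_cases h3 : χ ∈ Cfsg.Agent.H68.gPSSet F
    · exact Or.inr (Or.inr (Or.inl ⟨h3, by rw [Cfsg.Agent.H68.degree_of_mem_gPSSet h3, hk]; push_cast; ring⟩))
    · have hC : χ ∈ Cfsg.Agent.H68.gCuspSet F := by
        simp [Cfsg.Agent.H68.gCuspSet, h1, h2, h3]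
      obtain ⟨ψ, hψ⟩ := Cfsg.Agent.H68.exists_primitive_addChar (F := F)
      refine Or.inr (Or.inr (Or.inr ⟨hC, ?_⟩))
      rw [(Cfsg.Agent.H68.gl2_cuspidal χ.2 (Cfsg.Agent.H68.orth_of_mem_gCuspSet hC) hψ).2.2, hk]
      push_cast; ring
  have sound : ∀ χ : Cfsg.IrrCharacter (Matrix.GeneralLinearGroup (Fin 2) F),
      (χ ∈ Cfsg.Agent.H68.gCuspSet F → χ.1 1 = ((k + 2 : ℕ) : ℂ)) := by
    intro χ hC
    obtain ⟨ψ, hψ⟩ := Cfsg.Agent.H68.exists_primitive_addChar (F := F)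
    rw [(Cfsg.Agent.H68.gl2_cuspidal χ.2 (Cfsg.Agent.H68.orth_of_mem_gCuspSet hC) hψ).2.2, hk]
    push_cast; ring
  refine ⟨?_, ?_, ?_, ?_⟩
  · rw [key 1 (Cfsg.Agent.H68.gLinSet F) fun χ => ⟨fun hd => ?_, Cfsg.Agent.H68.degree_of_mem_gLinSet⟩,
      Cfsg.Agent.H68.card_gLinSet]
    rcases hcase χ with ⟨h, e⟩ | ⟨h, e⟩ | ⟨h, e⟩ | ⟨h, e⟩
    · exact h
    all_goals (rw [hd] at e; norm_cast at e; omega)
  · rw [key _ (Cfsg.Agent.H68.gStSet F) fun χ => ⟨fun hd => ?_, Cfsg.Agent.H68.degree_of_mem_gStSet⟩,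
      Cfsg.Agent.H68.card_gStSet]
    rw [hk] at hd
    rcases hcase χ with ⟨h, e⟩ | ⟨h, e⟩ | ⟨h, e⟩ | ⟨h, e⟩
    case inr.inl => exact h
    all_goals (rw [hd] at e; norm_cast at e; omega)
  · rw [key _ (Cfsg.Agent.H68.gPSSet F) fun χ => ⟨fun hd => ?_, Cfsg.Agent.H68.degree_of_mem_gPSSet⟩]
    · have := Cfsg.Agent.H68.two_mul_card_gPSSet (F := F)
      omega
    rw [hk] at hd
    rcases hcase χ with ⟨h, e⟩ | ⟨h, e⟩ | ⟨h, e⟩ | ⟨h, e⟩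
    case inr.inr.inl => exact h
    all_goals (rw [hd] at e; norm_cast at e; omega)
  · rw [key _ (Cfsg.Agent.H68.gCuspSet F) fun χ => ⟨fun hd => ?_, fun h => ?_⟩]
    · obtain ⟨ψ, hψ⟩ := Cfsg.Agent.H68.exists_primitive_addChar (F := F)
      have := (Cfsg.Agent.H68.gCusp_main hψ).1
      omega
    · have hd' : χ.1 1 = ((k + 2 : ℕ) : ℂ) := by rw [hd, hk]; push_cast; ring
      rcases hcase χ with ⟨h, e⟩ | ⟨h, e⟩ | ⟨h, e⟩ | ⟨h, e⟩
      case inr.inr.inr => exact h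
      all_goals (rw [hd'] at e; norm_cast at e; omega)
    · rw [sound χ h, hk]; push_cast; ring

end Cfsg.Agent.S2298
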