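import Cfsg.Statements.S2301
import Cfsg.Agent.H68.UnipotentClasses

set_option autoImplicit false
open Cfsg

namespace Cfsg.Agent.S2301

/-- Over a finite field with q elements of odd characteristic p, the elements of order p of SL₂ (the non-identity unipotent elements) fall into exactly two conjugacy classes, each of size (q² − 1)/2; two upper unitriangular matrices with non-zero off-diagonal entries b and b′ are conjugate exactly when bb′ is a square. -/
theorem result {F : Type*} [Field F] [Fintype F] (p : ℕ) [Fact p.Prime] [CharP F p] (hp : p ≠ 2) :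
    Nat.card {C : ConjClasses (Matrix.SpecialLinearGroup (Fin 2) F) // ∃ g : Matrix.SpecialLinearGroup (Fin 2) F, orderOf g = p ∧ ConjClasses.mk g = C} = 2 ∧
    (∀ g : Matrix.SpecialLinearGroup (Fin 2) F, orderOf g = p → Nat.card (ConjClasses.mk g).carrier = (Fintype.card F ^ 2 - 1) / 2) ∧
    ∀ g h : Matrix.SpecialLinearGroup (Fin 2) F, (g : Matrix (Fin 2) (Fin 2) F) 0 0 = 1 → (g : Matrix (Fin 2) (Fin 2) F) 1 1 = 1 → (g : Matrix (Fin 2) (Fin 2) F) 1 0 = 0 → (g : Matrix (Fin 2) (Fin 2) F) 0 1 ≠ 0 →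
      (h : Matrix (Fin 2) (Fin 2) F) 0 0 = 1 → (h : Matrix (Fin 2) (Fin 2) F) 1 1 = 1 → (h : Matrix (Fin 2) (Fin 2) F) 1 0 = 0 → (h : Matrix (Fin 2) (Fin 2) F) 0 1 ≠ 0 →
      (IsConj g h ↔ IsSquare ((g : Matrix (Fin 2) (Fin 2) F) 0 1 * (h : Matrix (Fin 2) (Fin 2) F) 0 1)) := by
  classical
  have hF : ringChar F ≠ 2 := by rwa [ringChar.eq F p]
  obtain ⟨n, hn⟩ := FiniteField.exists_nonsquare hF
  have hn0 : n ≠ 0 := fun h0 => hn (h0 ▸ IsSquare.zero)
  refine ⟨?_, fun g hg => ?_, fun g h g00 g11 g10 g01 h00 h11 h10 h01 => ?_⟩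
  · have hset : {C : ConjClasses (Matrix.SpecialLinearGroup (Fin 2) F) | ∃ g : Matrix.SpecialLinearGroup (Fin 2) F, orderOf g = p ∧ ConjClasses.mk g = C} =
        {ConjClasses.mk (Cfsg.Agent.H68.sl2U (1 : F)), ConjClasses.mk (Cfsg.Agent.H68.sl2U n)} := by
      ext C
      simp only [Set.mem_setOf_eq, Set.mem_insert_iff, Set.mem_singleton_iff]
      constructor
      · rintro ⟨g, hg, rfl⟩
        obtain ⟨hg1, hg2⟩ := Cfsg.Agent.H68.sl2_order_char hg
        obtain ⟨b, hb, hc⟩ := Cfsg.Agent.H68.sl2_exists_conj_u hg1 hg2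
        rw [ConjClasses.mk_eq_mk_iff_isConj, ConjClasses.mk_eq_mk_iff_isConj]
        by_cases hs : IsSquare b
        · exact Or.inl (hc.trans ((Cfsg.Agent.H68.sl2_isConj_u_iff hb one_ne_zero).2 (by rwa [mul_one])))
        · refine Or.inr (hc.trans ((Cfsg.Agent.H68.sl2_isConj_u_iff hb hn0).2 ?_))
          rw [← quadraticChar_one_iff_isSquare (mul_ne_zero hb hn0), map_mul,
            quadraticChar_neg_one_iff_not_isSquare.2 hs, quadraticChar_neg_one_iff_not_isSquare.2 hn]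
          norm_num
      · rintro (rfl | rfl)
        · exact ⟨_, Cfsg.Agent.H68.orderOf_sl2U one_ne_zero, rfl⟩
        · exact ⟨_, Cfsg.Agent.H68.orderOf_sl2U hn0, rfl⟩
    change Nat.card {C : ConjClasses (Matrix.SpecialLinearGroup (Fin 2) F) | ∃ g : Matrix.SpecialLinearGroup (Fin 2) F, orderOf g = p ∧ ConjClasses.mk g = C} = 2
    rw [hset, Nat.card_coe_set_eq, Set.ncard_pair]
    rw [Ne, ConjClasses.mk_eq_mk_iff_isConj, Cfsg.Agent.H68.sl2_isConj_u_iff one_ne_zero hn0, one_mul]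
    exact hn
  · obtain ⟨hg1, hg2⟩ := Cfsg.Agent.H68.sl2_order_char hg
    exact Cfsg.Agent.H68.card_class_unipotent_odd hF hg1 hg2
  · have eg : g = Cfsg.Agent.H68.sl2U ((g : Matrix (Fin 2) (Fin 2) F) 0 1) := by
      apply Subtype.ext; ext i j; fin_cases i <;> fin_cases j <;> simp [g00, g11, g10]
    have eh : h = Cfsg.Agent.H68.sl2U ((h : Matrix (Fin 2) (Fin 2) F) 0 1) := by
      apply Subtype.ext; ext i j; fin_cases i <;> fin_cases j <;> simp [h00, h11, h10]
    conv_lhs => rw [eg, eh]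
    exact Cfsg.Agent.H68.sl2_isConj_u_iff g01 h01

end Cfsg.Agent.S2301
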