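import Cfsg.Statements.S2302
import Cfsg.Agent.H68.UnipotentClasses

set_option autoImplicit false
open Cfsg

namespace Cfsg.Agent.S2302

/-- Over a finite field with q elements of characteristic 2, the involutions of SL₂ (the non-identity unipotent elements) form a single conjugacy class, of size q² − 1. -/
theorem result {F : Type*} [Field F] [Fintype F] [CharP F 2] (g h : Matrix.SpecialLinearGroup (Fin 2) F) (hg : orderOf g = 2) (hh : orderOf h = 2) :
    IsConj g h ∧ Nat.card (ConjClasses.mk g).carrier = Fintype.card F ^ 2 - 1 := by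
  classical
  have : Fact (Nat.Prime 2) := ⟨Nat.prime_two⟩
  obtain ⟨hg1, hg2⟩ := Cfsg.Agent.H68.sl2_order_char (p := 2) hg
  obtain ⟨hh1, hh2⟩ := Cfsg.Agent.H68.sl2_order_char (p := 2) hh
  have h2 : ringChar F = 2 := ringChar.eq F 2
  exact ⟨Cfsg.Agent.H69.sl2_isConj_of_trace hg1 hh1 (hg2.trans hh2.symm) (Or.inr h2),
    Cfsg.Agent.H68.card_class_unipotent_even h2 hg1 hg2⟩

end Cfsg.Agent.S2302
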