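import Cfsg.Statements.S2303
import Cfsg.Agent.H69.SL2Classes
import Cfsg.Agent.H68.Borel2

set_option autoImplicit false
open Cfsg

namespace Cfsg.Agent.S2303

/-- Over a finite field with q elements: a diagonal element of GL₂ with two distinct diagonal entries has centralizer of order (q − 1)² (so q(q + 1) conjugates), and an element of GL₂ with no eigenvector in F² has centralizer of order q² − 1 (so q(q − 1) conjugates). -/
theorem result {F : Type*} [Field F] [Fintype F] (g : Matrix.GeneralLinearGroup (Fin 2) F) :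
    ((g : Matrix (Fin 2) (Fin 2) F) 0 1 = 0 → (g : Matrix (Fin 2) (Fin 2) F) 1 0 = 0 → (g : Matrix (Fin 2) (Fin 2) F) 0 0 ≠ (g : Matrix (Fin 2) (Fin 2) F) 1 1 →
      Nat.card (Subgroup.centralizer ({g} : Set (Matrix.GeneralLinearGroup (Fin 2) F))) = (Fintype.card F - 1) ^ 2) ∧
    ((∀ (c : F) (v : Fin 2 → F), v ≠ 0 → (g : Matrix (Fin 2) (Fin 2) F).mulVec v ≠ c • v) →
      Nat.card (Subgroup.centralizer ({g} : Set (Matrix.GeneralLinearGroup (Fin 2) F))) = Fintype.card F ^ 2 - 1) := by
  classical
  refine ⟨fun h01 h10 hd => ?_, fun he => ?_⟩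
  · have hns : ¬ Cfsg.Agent.H69.IsScalar2 (g : Matrix (Fin 2) (Fin 2) F) := fun h => hd h.2.2
    have hC : Subgroup.centralizer ({g} : Set (Matrix.GeneralLinearGroup (Fin 2) F)) =
        (Cfsg.Agent.H68.gl2Diag (F := F)).range := by
      ext x
      rw [Subgroup.mem_centralizer_singleton_iff]
      constructor
      · intro hx
        obtain ⟨a, b, hab⟩ := Cfsg.Agent.H69.exists_eq_smul_add_smul_of_commute hns
          (congrArg Units.val hx).symm
        have hx0 := x.det_ne_zero
        have e01 : (x : Matrix (Fin 2) (Fin 2) F) 0 1 = 0 := by simp [hab, h01]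
        have e10 : (x : Matrix (Fin 2) (Fin 2) F) 1 0 = 0 := by simp [hab, h10]
        rw [Matrix.det_fin_two, e10, mul_zero, sub_zero] at hx0
        refine ⟨(Units.mk0 _ (left_ne_zero_of_mul hx0), Units.mk0 _ (right_ne_zero_of_mul hx0)), ?_⟩
        apply Units.ext
        ext i j
        fin_cases i <;> fin_cases j <;> simp [e01, e10]
      · rintro ⟨a, rfl⟩
        apply Units.ext
        ext i j
        fin_cases i <;> fin_cases j <;> simp [Matrix.mul_apply, Fin.sum_univ_two, h01, h10, mul_comm]
    have hinj : Function.Injective (Cfsg.Agent.H68.gl2Diag (F := F)) := by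
      intro a b h
      have h1 := congrArg (fun m : GL (Fin 2) F => (m : Matrix (Fin 2) (Fin 2) F) 0 0) h
      have h2 := congrArg (fun m : GL (Fin 2) F => (m : Matrix (Fin 2) (Fin 2) F) 1 1) h
      simp at h1 h2
      exact Prod.ext (Units.ext h1) (Units.ext h2)
    rw [hC, ← Nat.card_congr (MonoidHom.ofInjective hinj).toEquiv, Nat.card_prod,
      Nat.card_eq_fintype_card, Fintype.card_units]
    ring
  · set M := (g : Matrix (Fin 2) (Fin 2) F) with hM
    have hns : ¬ Cfsg.Agent.H69.IsScalar2 M := by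
      rintro ⟨-, h10, -⟩
      refine he (M 0 0) ![1, 0] (fun h => one_ne_zero (congrFun h 0)) ?_
      funext i
      fin_cases i <;> simp [Matrix.mulVec, dotProduct, Fin.sum_univ_two, h10]
    have hdet : ∀ p : {p : F × F // p ≠ 0},
        (p.1.1 • (1 : Matrix (Fin 2) (Fin 2) F) + p.1.2 • M).det ≠ 0 := by
      rintro ⟨⟨a, b⟩, hp⟩ h
      obtain ⟨v, hv, hv0⟩ := Matrix.exists_mulVec_eq_zero_iff.2 h
      rw [Matrix.add_mulVec, Matrix.smul_mulVec, Matrix.smul_mulVec, Matrix.one_mulVec] at hv0
      by_cases hb : b = 0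
      · subst hb
        rw [zero_smul, add_zero, smul_eq_zero] at hv0
        rcases hv0 with h' | h'
        · exact hp (Prod.ext h' rfl)
        · exact hv h'
      · refine he (-a / b) v hv ?_
        have : b • M.mulVec v = (-a) • v := by
          rw [neg_smul, eq_neg_iff_add_eq_zero, add_comm, hv0]
        rw [div_eq_inv_mul, mul_smul, ← this, smul_smul, inv_mul_cancel₀ hb, one_smul]
    let f : {p : F × F // p ≠ 0} → Subgroup.centralizer ({g} : Set (Matrix.GeneralLinearGroup (Fin 2) F)) :=
      fun p => ⟨Matrix.GeneralLinearGroup.mkOfDetNeZero _ (hdet p), by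
        rw [Subgroup.mem_centralizer_singleton_iff]
        exact Units.ext (Cfsg.Agent.H69.commute_smul_add_smul M p.1.1 p.1.2).symm⟩
    have hf : Function.Bijective f := by
      constructor
      · rintro ⟨⟨a, b⟩, hp⟩ ⟨⟨a', b'⟩, hp'⟩ h
        have h1 := congrArg (fun x : Subgroup.centralizer ({g} : Set (Matrix.GeneralLinearGroup (Fin 2) F)) =>
          ((x : GL (Fin 2) F) : Matrix (Fin 2) (Fin 2) F)) h
        obtain ⟨rfl, rfl⟩ := Cfsg.Agent.H69.smul_add_smul_inj hns h1
        rfl
      · rintro ⟨x, hx⟩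
        rw [Subgroup.mem_centralizer_singleton_iff] at hx
        obtain ⟨a, b, hab⟩ := Cfsg.Agent.H69.exists_eq_smul_add_smul_of_commute hns
          (congrArg Units.val hx).symm
        refine ⟨⟨(a, b), fun h => x.det_ne_zero ?_⟩, Subtype.ext (Units.ext hab.symm)⟩
        rw [hab, show a = 0 from congrArg Prod.fst h, show b = 0 from congrArg Prod.snd h]
        simp
    rw [← Nat.card_congr (Equiv.ofBijective f hf), Nat.card_eq_fintype_card, Fintype.card_subtype_compl,
      Fintype.card_subtype_eq, Fintype.card_prod]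
    ring_nf

end Cfsg.Agent.S2303
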