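import Cfsg.Statements.S2305
import Cfsg.Agent.H68.GL2Chars

set_option autoImplicit false
open Cfsg

namespace Cfsg.Agent.S2305

/-- Over a finite field F, for multiplicative characters α, β, α′, β′ of F, the characters of GL₂ induced from the linear characters b ↦ α(b₁₁) β(b₂₂) and b ↦ α′(b₁₁) β′(b₂₂) of the upper triangular subgroup coincide exactly when {α, β} = {α′, β′} as unordered pairs. -/
theorem result {F : Type*} [Field F] [Fintype F] [DecidableEq F] (α β α' β' : MulChar F ℂ) :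
    Cfsg.indFun (Cfsg.upperTriangularGL 2 F) (fun b => α (((b : Matrix.GeneralLinearGroup (Fin 2) F) : Matrix (Fin 2) (Fin 2) F) 0 0) * β (((b : Matrix.GeneralLinearGroup (Fin 2) F) : Matrix (Fin 2) (Fin 2) F) 1 1)) = Cfsg.indFun (Cfsg.upperTriangularGL 2 F) (fun b => α' (((b : Matrix.GeneralLinearGroup (Fin 2) F) : Matrix (Fin 2) (Fin 2) F) 0 0) * β' (((b : Matrix.GeneralLinearGroup (Fin 2) F) : Matrix (Fin 2) (Fin 2) F) 1 1)) ↔
      (α = α' ∧ β = β') ∨ (α = β' ∧ β = α') := by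
  rw [Cfsg.Agent.H68.indFun_upper_eq_gPS, Cfsg.Agent.H68.indFun_upper_eq_gPS]
  exact Cfsg.Agent.H68.gPS_eq_iff α β α' β'

end Cfsg.Agent.S2305
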