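import Cfsg.Statements.S2307
import Cfsg.Agent.H68.SL2ByDegree

set_option autoImplicit false
open Cfsg

namespace Cfsg.Agent.S2307

/-- Over a finite field F with q elements, q odd, let α be the multiplicative character of F of order 2. The character of SL₂ induced from the linear character b ↦ α(b₁₁) of the upper triangular subgroup is the sum of two distinct irreducible characters, each of degree (q + 1)/2, which are conjugate under GL₂: some fixed element of GL₂ conjugates the one into the other. -/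
theorem result {F : Type*} [Field F] [Fintype F] [DecidableEq F] (hodd : Odd (Fintype.card F)) (α : MulChar F ℂ)
    (hα : α ^ 2 = 1) (hα1 : α ≠ 1) :
    ∃ χ₁ χ₂ : Matrix.SpecialLinearGroup (Fin 2) F → ℂ, Cfsg.IsIrrCharacter (Matrix.SpecialLinearGroup (Fin 2) F) χ₁ ∧ Cfsg.IsIrrCharacter (Matrix.SpecialLinearGroup (Fin 2) F) χ₂ ∧ χ₁ ≠ χ₂ ∧
      Cfsg.indFun ((Cfsg.upperTriangularGL 2 F).comap Matrix.SpecialLinearGroup.toGL) (fun b => α (((b : Matrix.SpecialLinearGroup (Fin 2) F) : Matrix (Fin 2) (Fin 2) F) 0 0)) = χ₁ + χ₂ ∧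
      χ₁ 1 = (((Fintype.card F + 1) / 2 : ℕ) : ℂ) ∧ χ₂ 1 = (((Fintype.card F + 1) / 2 : ℕ) : ℂ) ∧
      ∃ x : Matrix.GeneralLinearGroup (Fin 2) F, ∀ g h : Matrix.SpecialLinearGroup (Fin 2) F,
        Matrix.SpecialLinearGroup.toGL h = x * Matrix.SpecialLinearGroup.toGL g * x⁻¹ → χ₂ h = χ₁ g := by
  classical
  open Cfsg.Agent.H68 in
  obtain ⟨k, n, ψ, hk, hk1, h2, hn, hψ⟩ := exists_odd_setup (F := F) hodd
  obtain ⟨H₁, H₂, C₁, C₂, C, hH, -, -, -, hconj, hsum, -, -, -, -, dH₁, dH₂, -, -, -, -, -⟩ :=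
    Cfsg.Agent.H68.sl2_odd_cases hk hn hψ
  have e1 : (Fintype.card F + 1) / 2 = k + 1 := by omega
  rw [Cfsg.Agent.H68.indFun_upper_eq_sPS, Cfsg.Agent.H68.eq_qchar h2 hα hα1, e1]
  refine ⟨H₁.1, H₂.1, H₁.2, H₂.2, fun e => hH (Subtype.ext e), hsum, dH₁, dH₂,
    (Cfsg.Agent.H68.gl2Diag (n, 1))⁻¹, fun g h hgh => ?_⟩
  have : g = Cfsg.Agent.H68.slConj n h := by
    apply Matrix.SpecialLinearGroup.toGL_injective
    rw [Cfsg.Agent.H68.toGL_slConj, hgh]
    group
  rw [this, hconj]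

end Cfsg.Agent.S2307
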