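import Cfsg.Statements.S2308
import Cfsg.Agent.H68.GL2Chars

set_option autoImplicit false
open Cfsg

namespace Cfsg.Agent.S2308

/-- Values of the permutation character of GL₂ over a finite field F with q elements on the cosets of its upper triangular subgroup (equivalently, the number of lines of F² that an element maps to themselves): q + 1 at a scalar matrix, 2 at a diagonal matrix with two different diagonal entries, 0 at an element with no eigenvector in F², and 1 at an upper triangular matrix with equal diagonal entries and non-zero upper right entry. -/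
theorem result {F : Type*} [Field F] [Fintype F] (g : Matrix.GeneralLinearGroup (Fin 2) F) :
    ((∃ a : F, (g : Matrix (Fin 2) (Fin 2) F) = a • (1 : Matrix (Fin 2) (Fin 2) F)) → Cfsg.fixedPointCharacter (Cfsg.upperTriangularGL 2 F) g = Fintype.card F + 1) ∧
    ((g : Matrix (Fin 2) (Fin 2) F) 0 1 = 0 → (g : Matrix (Fin 2) (Fin 2) F) 1 0 = 0 → (g : Matrix (Fin 2) (Fin 2) F) 0 0 ≠ (g : Matrix (Fin 2) (Fin 2) F) 1 1 →
      Cfsg.fixedPointCharacter (Cfsg.upperTriangularGL 2 F) g = 2) ∧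
    ((∀ (c : F) (v : Fin 2 → F), v ≠ 0 → (g : Matrix (Fin 2) (Fin 2) F).mulVec v ≠ c • v) → Cfsg.fixedPointCharacter (Cfsg.upperTriangularGL 2 F) g = 0) ∧
    ((g : Matrix (Fin 2) (Fin 2) F) 1 0 = 0 → (g : Matrix (Fin 2) (Fin 2) F) 0 0 = (g : Matrix (Fin 2) (Fin 2) F) 1 1 → (g : Matrix (Fin 2) (Fin 2) F) 0 1 ≠ 0 →
      Cfsg.fixedPointCharacter (Cfsg.upperTriangularGL 2 F) g = 1) := by
  classical
  open Cfsg.Agent.H68 in
  rw [← gPS_one_one_eq_fixed]
  have hne : IsUnit (g : Matrix (Fin 2) (Fin 2) F).det := Ne.isUnit g.det_ne_zero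
  have hval : ∀ (a : Fˣ × Fˣ) (x : F), (g : Matrix (Fin 2) (Fin 2) F) = !![(a.1 : F), (a.1 : F) * x; 0, a.2] →
      Cfsg.Agent.H68.gPS (1 : MulChar F ℂ) 1 g = 1 + ∑ z : F, if x + z - ((a.2 : F) / a.1) * z = 0 then (1 : ℂ) else 0 := by
    intro a x hg
    have hg' : g = (Cfsg.Agent.H68.gl2Data F).t a * (Cfsg.Agent.H68.gl2Data F).u x :=
      Units.ext (by rw [hg]; simp [Cfsg.Agent.H68.gl2Data])
    rw [hg', Cfsg.Agent.H68.gPS, (Cfsg.Agent.H68.gl2Data F).ps_apply_tu]
    simp [Cfsg.Agent.H68.pairHom_apply, Cfsg.Agent.H68.gl2Data, MonoidHom.div_apply,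
      Units.val_div_eq_div_val]
  refine ⟨?_, ?_, ?_, ?_⟩
  · rintro ⟨c, hc⟩
    have hc0 : c ≠ 0 := by
      rintro rfl
      simp [hc] at hne
    rw [hval (Units.mk0 c hc0, Units.mk0 c hc0) 0 (by
      rw [hc]; ext i j; fin_cases i <;> fin_cases j <;> simp)]
    simp [hc0, add_comm]
  · intro h01 h10 hd
    rw [Matrix.det_fin_two, h10, mul_zero, sub_zero, isUnit_iff_ne_zero] at hne
    rw [hval (Units.mk0 _ (left_ne_zero_of_mul hne), Units.mk0 _ (right_ne_zero_of_mul hne)) 0 (by
      ext i j; fin_cases i <;> fin_cases j <;> simp [h01, h10])]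
    rw [Fintype.sum_eq_single 0]
    · simp; norm_num
    · intro z hz
      rw [if_neg]
      simp only [zero_add, Units.val_mk0]
      intro h
      have hx : ((g : Matrix (Fin 2) (Fin 2) F) 0 0 - (g : Matrix (Fin 2) (Fin 2) F) 1 1) * z = 0 := by
        have := left_ne_zero_of_mul hne
        field_simp at h
        linear_combination h
      rcases mul_eq_zero.1 hx with h' | h'
      · exact hd (sub_eq_zero.1 h')
      · exact hz h'
  · intro he
    exact Cfsg.Agent.H68.indFun_eq_zero _ _ (Cfsg.Agent.H68.gl2_conj_notMem_upper he)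
  · intro h10 heq h01
    rw [Matrix.det_fin_two, h10, mul_zero, sub_zero, isUnit_iff_ne_zero] at hne
    have h0 := left_ne_zero_of_mul hne
    rw [hval (Units.mk0 _ h0, Units.mk0 _ h0) ((g : Matrix (Fin 2) (Fin 2) F) 0 1 / (g : Matrix (Fin 2) (Fin 2) F) 0 0) (by
      ext i j; fin_cases i <;> fin_cases j <;> simp [h10, heq.symm, mul_div_cancel₀ _ h0])]
    simp [h0, h01]

end Cfsg.Agent.S2308
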