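import Cfsg.Statements.S2309
import Cfsg.Agent.H68.GL2Values

set_option autoImplicit false
open Cfsg

namespace Cfsg.Agent.S2309

/-- Over a finite field F with q elements: every irreducible complex character of GL₂ of degree q − 1 vanishes at every diagonal matrix with two distinct entries, and every irreducible complex character of degree q + 1 vanishes at every element with no eigenvector in F². -/
theorem result {F : Type*} [Field F] [Fintype F] (χ : Matrix.GeneralLinearGroup (Fin 2) F → ℂ) (hχ : Cfsg.IsIrrCharacter (Matrix.GeneralLinearGroup (Fin 2) F) χ) (g : Matrix.GeneralLinearGroup (Fin 2) F) :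
    (χ 1 = (Fintype.card F : ℂ) - 1 → (g : Matrix (Fin 2) (Fin 2) F) 0 1 = 0 → (g : Matrix (Fin 2) (Fin 2) F) 1 0 = 0 → (g : Matrix (Fin 2) (Fin 2) F) 0 0 ≠ (g : Matrix (Fin 2) (Fin 2) F) 1 1 → χ g = 0) ∧
    (χ 1 = (Fintype.card F : ℂ) + 1 → (∀ (c : F) (v : Fin 2 → F), v ≠ 0 → (g : Matrix (Fin 2) (Fin 2) F).mulVec v ≠ c • v) → χ g = 0) := by
  classical
  have hq := Cfsg.Agent.H68.card_field_ge_two (F := F)
  refine ⟨fun hdeg h01 h10 hne => ?_, fun hdeg he => ?_⟩
  · obtain ⟨a, rfl, h1, h2⟩ := Cfsg.Agent.H68.exists_gl2Diag h01 h10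
    have ha : a.1 ≠ a.2 := fun h => hne (by rw [← h1, ← h2, h])
    have hq3 : 3 ≤ Fintype.card F := by
      by_contra hlt
      have hc : Fintype.card Fˣ ≤ 1 := by rw [Fintype.card_units]; omega
      exact ha (Fintype.card_le_one_iff_subsingleton.1 hc |>.elim _ _)
    rcases Cfsg.Agent.H68.gl2_cases_degree hχ with ⟨-, h⟩ | ⟨-, h⟩ | ⟨-, h⟩ | ⟨h, -⟩
    · have : (2 : ℂ) = (Fintype.card F : ℂ) := by linear_combination hdeg - h
      have : 2 = Fintype.card F := by exact_mod_cast this
      omega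
    · norm_num [hdeg] at h
    · have : (2 : ℂ) = 0 := by linear_combination hdeg - h
      norm_num at this
    · exact Cfsg.Agent.H68.gl2_apply_diag_eq_zero
        (Cfsg.Agent.H26.isClassFunction_of_isCharacter (Cfsg.Agent.H26.isCharacter_of_irr hχ)) h ha
  · rcases Cfsg.Agent.H68.gl2_cases_degree hχ with ⟨-, h⟩ | ⟨-, h⟩ | ⟨⟨α, β, -, rfl⟩, -⟩ | ⟨-, h⟩
    · rw [hdeg] at h
      have : (Fintype.card F : ℂ) = 0 := by linear_combination h
      norm_num at this
    · norm_num [hdeg] at h
    · exact Cfsg.Agent.H68.gPS_elliptic α β he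
    · have : (2 : ℂ) = 0 := by linear_combination h - hdeg
      norm_num at this

end Cfsg.Agent.S2309
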