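import Cfsg.Statements.S2310
import Cfsg.Agent.H68.GL2Values

set_option autoImplicit false
open Cfsg

namespace Cfsg.Agent.S2310

/-- Over a finite field F with q ≥ 3 elements, let u be the upper unitriangular matrix of GL₂ with off-diagonal entry 1. An irreducible complex character χ of GL₂ takes at u the value 1 if χ has degree 1 or q + 1, the value −1 if χ has degree q − 1, and the value 0 if χ has degree q. -/
theorem result {F : Type*} [Field F] [Fintype F] (hq : 3 ≤ Fintype.card F) (χ : Matrix.GeneralLinearGroup (Fin 2) F → ℂ) (hχ : Cfsg.IsIrrCharacter (Matrix.GeneralLinearGroup (Fin 2) F) χ)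
    (u : Matrix.GeneralLinearGroup (Fin 2) F) (hu : (u : Matrix (Fin 2) (Fin 2) F) = !![1, 1; 0, 1]) :
    (χ 1 = 1 → χ u = 1) ∧ (χ 1 = (Fintype.card F : ℂ) + 1 → χ u = 1) ∧
    (χ 1 = (Fintype.card F : ℂ) - 1 → χ u = -1) ∧ (χ 1 = (Fintype.card F : ℂ) → χ u = 0) := by
  classical
  have hu' : u = Cfsg.Agent.H68.gl2U 1 := Units.ext hu
  subst hu'
  rcases Cfsg.Agent.H68.gl2_cases_degree hχ with
    ⟨⟨α, rfl⟩, hd⟩ | ⟨⟨α, rfl⟩, hd⟩ | ⟨⟨α, β, -, rfl⟩, hd⟩ | ⟨ho, hd⟩ <;>
    rw [hd] <;> refine ⟨fun h => ?_, fun h => ?_, fun h => ?_, fun h => ?_⟩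
  all_goals first
    | exact Cfsg.Agent.H68.gLin_u α 1
    | exact Cfsg.Agent.H68.gSt_u α one_ne_zero
    | exact Cfsg.Agent.H68.gPS_u α β one_ne_zero
    | exact Cfsg.Agent.H68.gl2_cuspidal_u hχ ho one_ne_zero
    | (exfalso
       obtain ⟨k, hk⟩ : ∃ k, Fintype.card F = k + 3 := ⟨Fintype.card F - 3, by omega⟩
       rw [hk] at h
       push_cast at h
       ring_nf at h
       norm_cast at h
       try omega)

end Cfsg.Agent.S2310
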