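import Cfsg.Statements.S2313
import Cfsg.Agent.H68.ChevSteinberg
import Cfsg.Agent.H46.Mem
import Cfsg.Agent.S1042
import Cfsg.Agent.S1037
import Cfsg.Agent.S1053

set_option autoImplicit false
open Cfsg

namespace Cfsg.Agent.S2313

/-- In a Chevalley group of type G₂, B₂, D₄, F₄, E₆, E₇ or E₈ over a finite field, the restriction of the Steinberg character to the subgroup B = UH is the permutation character of B on the cosets of the diagonal subgroup H: at b ∈ B its value is the number of cosets xH, x ∈ B, with bxH = xH. -/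
theorem result {F : Type*} [Field F] [Fintype F] (D : Cfsg.Lie.ChevalleyDatum) (hD : D ∈ [Cfsg.Lie.chevG2, Cfsg.Lie.chevB2, Cfsg.Lie.chevD4, Cfsg.Lie.chevF4, Cfsg.Lie.chevE6, Cfsg.Lie.chevE7, Cfsg.Lie.chevE8]) (b : ↥((D.borelSubgroup F).subgroupOf (D.group F))) :
    D.steinbergCharacter F ((((D.borelSubgroup F).subgroupOf (D.group F)).subtype) b) =
      Cfsg.fixedPointCharacter (((D.diagonalSubgroup F).subgroupOf (D.group F)).subgroupOf ((D.borelSubgroup F).subgroupOf (D.group F))) b := by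
  classical
  obtain ⟨G⟩ := Cfsg.Agent.H46.good_of_mem hD
  obtain ⟨P, hB, hN, hS⟩ := Cfsg.Agent.S1042.result (F := F) D hD
  obtain ⟨n, hn, hUV⟩ := Cfsg.Agent.S1053.result (F := F) D hD
  have h37 := (Cfsg.Agent.S1037.result (F := F) D hD).1
  have hng : n ∈ D.group F := by
    refine (sup_le ((Subgroup.closure_le _).2 ?_) ((Subgroup.closure_le _).2 ?_) :
      D.monomialSubgroup F ≤ D.group F) hn
    · rintro g ⟨r, t, -, -, hg⟩
      rw [G.eq_hg hg]; exact G.hg_mem_group _ _
    · rintro g ⟨r, -, hg⟩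
      rw [G.eq_ng hg]; exact G.ng_mem_group _ _
  revert b
  rw [← hB]
  intro b
  exact Cfsg.Agent.H68.ChevSt.steinberg_eq_fixed G P hB hS hN h37 n hn hng hUV b

end Cfsg.Agent.S2313
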