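import Cfsg.Statements.S2315
import Cfsg.Agent.H68.UnipotentGL

set_option autoImplicit false
open Cfsg

namespace Cfsg.Agent.S2315

/-- Steinberg's count of unipotent elements for the general linear group: over a finite field with q elements of characteristic p, the number of elements of GL_n of p-power order (the unipotent matrices) is q^(n(n−1)). -/
theorem result {F : Type*} [Field F] [Fintype F] (p : ℕ) [Fact p.Prime] [CharP F p] (n : ℕ) :
    Nat.card {g : Matrix.GeneralLinearGroup (Fin n) F // ∃ k : ℕ, orderOf g = p ^ k} = Fintype.card F ^ (n * (n - 1)) := by
  exact Cfsg.Agent.H68.UnipotentGL.card_unipotent p n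

end Cfsg.Agent.S2315
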