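import Cfsg.Statements.S2320
import Cfsg.Agent.H68.GL2Values

set_option autoImplicit false
open Cfsg

namespace Cfsg.Agent.S2320

/-- Over a finite field F with q elements, every irreducible complex character of GL₂ of degree q takes a value of absolute value 1 at every diagonal matrix with two different diagonal entries and at every element with no eigenvector in F². -/
theorem result {F : Type*} [Field F] [Fintype F] (χ : Matrix.GeneralLinearGroup (Fin 2) F → ℂ) (hχ : Cfsg.IsIrrCharacter (Matrix.GeneralLinearGroup (Fin 2) F) χ) (hdeg : χ 1 = (Fintype.card F : ℂ)) (g : Matrix.GeneralLinearGroup (Fin 2) F) :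
    ((g : Matrix (Fin 2) (Fin 2) F) 0 1 = 0 → (g : Matrix (Fin 2) (Fin 2) F) 1 0 = 0 → (g : Matrix (Fin 2) (Fin 2) F) 0 0 ≠ (g : Matrix (Fin 2) (Fin 2) F) 1 1 → ‖χ g‖ = 1) ∧
    ((∀ (c : F) (v : Fin 2 → F), v ≠ 0 → (g : Matrix (Fin 2) (Fin 2) F).mulVec v ≠ c • v) → ‖χ g‖ = 1) := by
  classical
  have hq := Cfsg.Agent.H68.card_field_ge_two (F := F)
  rcases Cfsg.Agent.H68.gl2_cases_degree hχ with ⟨-, h⟩ | ⟨⟨α, rfl⟩, -⟩ | ⟨-, h⟩ | ⟨-, h⟩
  · rw [hdeg] at h
    have : Fintype.card F = 1 := by exact_mod_cast h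
    omega
  · refine ⟨fun h01 h10 hne => ?_, fun he => Cfsg.Agent.H68.norm_gSt_elliptic α he⟩
    obtain ⟨a, rfl, h1, h2⟩ := Cfsg.Agent.H68.exists_gl2Diag h01 h10
    exact Cfsg.Agent.H68.norm_gSt_split α fun h => hne (by rw [← h1, ← h2, h])
  · norm_num [hdeg] at h
  · rw [hdeg] at h
    have : (1 : ℂ) = 0 := by linear_combination h
    exact absurd this one_ne_zero

end Cfsg.Agent.S2320
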