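import Cfsg.Statements.S2321
import Cfsg.Agent.H68.SL2ByDegree

set_option autoImplicit false
open Cfsg

namespace Cfsg.Agent.S2321

/-- Over a finite field F with q elements, an irreducible complex character of SL₂ of degree q (the Steinberg character) takes the value 1 at every diagonal matrix whose diagonal entry a has a² ≠ 1, the value −1 at every element with no eigenvector in F², and the value 0 at every upper triangular matrix with equal diagonal entries and non-zero upper right entry. -/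
theorem result {F : Type*} [Field F] [Fintype F] (χ : Matrix.SpecialLinearGroup (Fin 2) F → ℂ) (hχ : Cfsg.IsIrrCharacter (Matrix.SpecialLinearGroup (Fin 2) F) χ) (hdeg : χ 1 = (Fintype.card F : ℂ)) (g : Matrix.SpecialLinearGroup (Fin 2) F) :
    ((g : Matrix (Fin 2) (Fin 2) F) 0 1 = 0 → (g : Matrix (Fin 2) (Fin 2) F) 1 0 = 0 → (g : Matrix (Fin 2) (Fin 2) F) 0 0 ^ 2 ≠ 1 → χ g = 1) ∧
    ((∀ (c : F) (v : Fin 2 → F), v ≠ 0 → (g : Matrix (Fin 2) (Fin 2) F).mulVec v ≠ c • v) → χ g = -1) ∧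
    ((g : Matrix (Fin 2) (Fin 2) F) 1 0 = 0 → (g : Matrix (Fin 2) (Fin 2) F) 0 0 = (g : Matrix (Fin 2) (Fin 2) F) 1 1 → (g : Matrix (Fin 2) (Fin 2) F) 0 1 ≠ 0 → χ g = 0) := by
  classical
  open Cfsg.Agent.H68 in
  rw [eq_sSt_of_degree hχ hdeg]
  refine ⟨fun h01 h10 ha => ?_, fun he => ?_, fun h10 h00 h01 => ?_⟩
  · obtain ⟨a, rfl, hval⟩ := Cfsg.Agent.H68.exists_sl2Diag h01 h10
    rw [Cfsg.Agent.H68.sSt, Cfsg.Agent.H68.sPS_sl2Diag _ (Cfsg.Agent.H68.sl2_units_sq_ne_one hval ha),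
      MulChar.one_apply a.isUnit, MulChar.one_apply a⁻¹.isUnit]
    norm_num
  · rw [Cfsg.Agent.H68.sSt, Cfsg.Agent.H68.sPS_elliptic _ he]
    norm_num
  · have hd := g.2
    rw [Matrix.det_fin_two, h10, mul_zero, sub_zero, ← h00] at hd
    have hne := left_ne_zero_of_mul_eq_one hd
    have hg : g = (Cfsg.Agent.H68.sl2Data F).t (Units.mk0 _ hne) * (Cfsg.Agent.H68.sl2Data F).u
        ((g : Matrix (Fin 2) (Fin 2) F) 0 1 / (g : Matrix (Fin 2) (Fin 2) F) 0 0) := by
      apply Subtype.ext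
      change (g : Matrix (Fin 2) (Fin 2) F) =
        !![(g : Matrix (Fin 2) (Fin 2) F) 0 0, 0; 0, ((g : Matrix (Fin 2) (Fin 2) F) 0 0)⁻¹] *
          !![1, (g : Matrix (Fin 2) (Fin 2) F) 0 1 / (g : Matrix (Fin 2) (Fin 2) F) 0 0; 0, 1]
      ext i j
      fin_cases i <;> fin_cases j
      · simp
      · simp [mul_div_cancel₀ _ hne]
      · simp [h10]
      · simp
        rw [← h00]
        exact eq_inv_of_mul_eq_one_right hd
    rw [Cfsg.Agent.H68.sSt, Cfsg.Agent.H68.sPS, hg, (Cfsg.Agent.H68.sl2Data F).ps_apply_tu,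
      Finset.sum_eq_zero]
    · simp [MulChar.coe_equivToUnitHom, MulChar.one_apply (Ne.isUnit hne)]
    · intro z _
      rw [if_neg]
      have hact : (((Cfsg.Agent.H68.sl2Data F).act (Units.mk0 _ hne) : Fˣ) : F) = 1 := by
        simp [Cfsg.Agent.H68.sl2Data, pow_two, hd]
      rw [hact]
      simp [h01, hne]

end Cfsg.Agent.S2321
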