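import Cfsg.Statements.S2322
import Cfsg.Agent.H68.SL2ByDegree

set_option autoImplicit false
open Cfsg

namespace Cfsg.Agent.S2322

/-- Over a finite field F with q elements, q odd: every irreducible complex character of SL₂ of degree q − 1 or (q − 1)/2 vanishes at every diagonal matrix whose diagonal entry a has a² ≠ 1, and every irreducible complex character of degree q + 1 or (q + 1)/2 vanishes at every element with no eigenvector in F². -/
theorem result {F : Type*} [Field F] [Fintype F] (hodd : Odd (Fintype.card F)) (χ : Matrix.SpecialLinearGroup (Fin 2) F → ℂ) (hχ : Cfsg.IsIrrCharacter (Matrix.SpecialLinearGroup (Fin 2) F) χ) (g : Matrix.SpecialLinearGroup (Fin 2) F) :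
    ((χ 1 = (Fintype.card F : ℂ) - 1 ∨ χ 1 = (((Fintype.card F - 1) / 2 : ℕ) : ℂ)) →
      (g : Matrix (Fin 2) (Fin 2) F) 0 1 = 0 → (g : Matrix (Fin 2) (Fin 2) F) 1 0 = 0 → (g : Matrix (Fin 2) (Fin 2) F) 0 0 ^ 2 ≠ 1 → χ g = 0) ∧
    ((χ 1 = (Fintype.card F : ℂ) + 1 ∨ χ 1 = (((Fintype.card F + 1) / 2 : ℕ) : ℂ)) →
      (∀ (c : F) (v : Fin 2 → F), v ≠ 0 → (g : Matrix (Fin 2) (Fin 2) F).mulVec v ≠ c • v) → χ g = 0) := by
  classical
  open Cfsg.Agent.H68 in
  obtain ⟨k, n, ψ, hk, hk1, h2, hn, hψ⟩ := exists_odd_setup (F := F) hodd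
  obtain ⟨H₁, H₂, C₁, C₂, C, hH, hC, hCc, hP, hconj, hsum, -, -, -, -, dH₁, dH₂, dC₁, dC₂, hCall, hCorth, hcases⟩ :=
    Cfsg.Agent.H68.sl2_odd_cases hk hn hψ
  have e1 : (Fintype.card F + 1) / 2 = k + 1 := by omega
  have e2 : (Fintype.card F - 1) / 2 = k := by omega
  have c1 : (Fintype.card F : ℂ) + 1 = ((2 * k + 2 : ℕ) : ℂ) := by rw [hk]; push_cast; ring
  have c2 : (Fintype.card F : ℂ) - 1 = ((2 * k : ℕ) : ℂ) := by rw [hk]; push_cast; ring
  rw [e1, e2, c1, c2]
  refine ⟨fun hd h01 h10 ha => ?_, fun hd he => ?_⟩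
  · obtain ⟨a, hg, hval⟩ := Cfsg.Agent.H68.exists_sl2Diag h01 h10
    have ha' := Cfsg.Agent.H68.sl2_units_sq_ne_one hval ha
    have hk2 : 2 ≤ k := by
      by_contra hlt
      apply ha'
      have hq3 : Fintype.card F = 3 := by omega
      have := FiniteField.pow_card_sub_one_eq_one (a : F) a.ne_zero
      rw [hq3] at this
      exact Units.ext this
    rw [hg]
    apply Cfsg.Agent.H68.sl2_apply_diag_eq_zero (Cfsg.Agent.H26.irr_isClassFunction ⟨χ, hχ⟩) ?_ ha'
    rcases hcases ⟨χ, hχ⟩ with ⟨-, e⟩ | ⟨-, e⟩ | ⟨-, e⟩ | ⟨-, e⟩ | ⟨h, -⟩ | ⟨h, -⟩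
    case inr.inr.inr.inr.inl =>
      intro α
      rcases h with h | h <;> rw [h]
      exacts [(hCorth α).1, (hCorth α).2]
    case inr.inr.inr.inr.inr => exact (hCall _ h).2.2
    all_goals (rcases hd with hd | hd <;> (have := Nat.cast_injective (hd.symm.trans e); omega))
  · rcases hcases ⟨χ, hχ⟩ with ⟨-, e⟩ | ⟨-, e⟩ | ⟨h, -⟩ | ⟨h, -⟩ | ⟨-, e⟩ | ⟨h, e⟩
    case inr.inr.inl =>
      obtain ⟨α, -, he'⟩ := Cfsg.Agent.H68.mem_sPSSet.1 h
      rw [show χ = _ from he']
      exact Cfsg.Agent.H68.sPS_elliptic α he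
    case inr.inr.inr.inl =>
      have := Cfsg.Agent.H68.half_elliptic (Cfsg.Agent.H26.irr_isClassFunction H₁) hconj hsum he
      rcases h with h | h <;> rw [show χ = _ from congrArg Subtype.val h]
      exacts [this.1, this.2]
    case inr.inr.inr.inr.inr =>
      -- only possible for `q = 3`
      have hk3 : k = 1 := by
        rcases hd with hd | hd <;> (have := Nat.cast_injective (hd.symm.trans e); omega)
      subst hk3
      have h3 : (3 : F) = 0 := by
        have := FiniteField.cast_card_eq_zero F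
        rw [hk] at this
        exact_mod_cast this
      have ht : (g : Matrix (Fin 2) (Fin 2) F).trace = 0 := by
        by_contra ht0
        apply Cfsg.Agent.H68.trace_sq_ne_four_of_no_eigen he
        have := FiniteField.pow_card_sub_one_eq_one _ ht0
        rw [hk] at this
        linear_combination this - h3
      have hgw : IsConj g Cfsg.Agent.H68.sl2W := by
        refine Cfsg.Agent.H69.sl2_isConj_of_trace (Cfsg.Agent.H68.not_isScalar2_of_no_eigen he) ?_ ?_
          (Or.inl (Cfsg.Agent.H68.trace_sq_ne_four_of_no_eigen he))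
        · simp [Cfsg.Agent.H69.IsScalar2]
        · rw [ht, Cfsg.Agent.H68.sl2W_coe, Matrix.trace_fin_two]; simp
      have hne : g ≠ 1 := fun h1 => Cfsg.Agent.H68.not_isScalar2_of_no_eigen he
        (by rw [h1]; simp [Cfsg.Agent.H69.IsScalar2])
      have hPS : Cfsg.Agent.H68.sPSSet F = ∅ := Finset.card_eq_zero.1 (by omega)
      obtain ⟨c, hc⟩ := Finset.card_eq_one.1 hCc
      have hθ : (⟨χ, hχ⟩ : Cfsg.IrrCharacter (Matrix.SpecialLinearGroup (Fin 2) F)) = c :=
        Finset.mem_singleton.1 (hc ▸ h)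
      have hcv : c.1 g = χ g := by rw [← hθ]
      have hH' := hH
      have hH := Cfsg.Agent.H68.half_elliptic (Cfsg.Agent.H26.irr_isClassFunction H₁) hconj hsum he
      have hC1 : ∀ D, D = C₁ ∨ D = C₂ → D.1 g = 1 := fun D hD => by
        rw [Cfsg.Agent.H26.irr_eq_of_isConj D hgw]
        refine Cfsg.Agent.H68.weyl_value_of_degree_one D.2 ?_ h3
        rcases hD with rfl | rfl
        · rw [dC₁]; norm_num
        · rw [dC₂]; norm_num
      have hS : (Cfsg.Agent.H68.sStI F).1 g = -1 := by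
        change Cfsg.Agent.H68.sSt g = -1
        rw [Cfsg.Agent.H68.sSt, Cfsg.Agent.H68.sPS_elliptic _ he]; norm_num
      have hsum0 := Cfsg.Agent.H68.sum_degree_mul_eq_zero (G := Matrix.SpecialLinearGroup (Fin 2) F) hne
      have dS : (Cfsg.Agent.H68.sStI F).1 1 = ((2 * 1 + 1 : ℕ) : ℂ) := by
        rw [← hk]; exact Cfsg.Agent.H68.sSt_one
      have dT : (Cfsg.Agent.H68.sTriv F).1 1 = 1 := rfl
      have dc : c.1 1 = ((2 * 1 : ℕ) : ℂ) := (hCall c (by rw [hc]; simp)).1
      have hlist : (Finset.univ : Finset (Cfsg.IrrCharacter (Matrix.SpecialLinearGroup (Fin 2) F))) =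
          {Cfsg.Agent.H68.sTriv F, Cfsg.Agent.H68.sStI F, H₁, H₂, C₁, C₂, c} := by
        refine Finset.eq_of_subset_of_card_le (fun x _ => ?_) (Finset.card_le_univ _) |>.symm |>.symm
        rcases hcases x with ⟨h, -⟩ | ⟨h, -⟩ | ⟨h, -⟩ | ⟨h | h, -⟩ | ⟨h | h, -⟩ | ⟨h, -⟩
        case inr.inr.inl => rw [hPS] at h; exact absurd h (Finset.notMem_empty _)
        case inr.inr.inr.inr.inr => rw [hc, Finset.mem_singleton] at h; subst h; simp
        all_goals (subst h; simp)
      rw [hlist] at hsum0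
      have hd12 : ∀ {x y : Cfsg.IrrCharacter (Matrix.SpecialLinearGroup (Fin 2) F)} {a b : ℕ},
          x.1 1 = (a : ℂ) → y.1 1 = (b : ℂ) → a ≠ b → x ≠ y := by
        intro x y a b hx hy hab e
        subst e
        exact hab (Nat.cast_injective (hx.symm.trans hy))
      have dT' : (Cfsg.Agent.H68.sTriv F).1 1 = ((1 : ℕ) : ℂ) := by rw [dT, Nat.cast_one]
      have hT1 : Cfsg.Agent.H68.sTriv F ≠ C₁ := fun e => by
        have h1 := (hCorth 1).1
        rw [← e, show (Cfsg.Agent.H68.sTriv F).1 = fun _ => (1 : ℂ) from rfl,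
          Cfsg.Agent.H68.classInner_one_sPS, if_pos rfl] at h1
        exact one_ne_zero h1
      have hT2 : Cfsg.Agent.H68.sTriv F ≠ C₂ := fun e => by
        have h1 := (hCorth 1).2
        rw [← e, show (Cfsg.Agent.H68.sTriv F).1 = fun _ => (1 : ℂ) from rfl,
          Cfsg.Agent.H68.classInner_one_sPS, if_pos rfl] at h1
        exact one_ne_zero h1
      have hHc : ∀ D, D = H₁ ∨ D = H₂ → D ≠ c := by
        intro D hD e
        have h1 := (hCall c (by rw [hc]; simp)).2.2 (Cfsg.Agent.H68.qchar F)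
        rw [← e, hsum, Cfsg.Agent.H26.classInner_add_right, Cfsg.Agent.H26.classInner_irr,
          Cfsg.Agent.H26.classInner_irr] at h1
        rcases hD with rfl | rfl
        · rw [if_pos rfl, if_neg hH'] at h1; norm_num at h1
        · rw [if_neg (Ne.symm hH'), if_pos rfl] at h1; norm_num at h1
      rw [Finset.sum_insert, Finset.sum_insert, Finset.sum_insert, Finset.sum_insert,
        Finset.sum_insert, Finset.sum_insert, Finset.sum_singleton, dT, dS, dH₁, dH₂, dC₁, dC₂, dc,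
        hS, hH.1, hH.2, hC1 C₁ (.inl rfl), hC1 C₂ (.inr rfl), hcv,
        show (Cfsg.Agent.H68.sTriv F).1 g = 1 from rfl] at hsum0
      · push_cast at hsum0
        linear_combination (1 / 2 : ℂ) * hsum0
      · simpa using hd12 dC₂ dc (by norm_num)
      · simp [hC, hd12 dC₁ dc (by norm_num)]
      · simp [hd12 dH₂ dC₁ (by norm_num), hd12 dH₂ dC₂ (by norm_num), hHc H₂ (.inr rfl)]
      · simp [hH', hd12 dH₁ dC₁ (by norm_num), hd12 dH₁ dC₂ (by norm_num), hHc H₁ (.inl rfl)]
      · simp [hd12 dS dH₁ (by norm_num), hd12 dS dH₂ (by norm_num), hd12 dS dC₁ (by norm_num),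
          hd12 dS dC₂ (by norm_num), hd12 dS dc (by norm_num)]
      · simp [hd12 dT' dS (by norm_num), hd12 dT' dH₁ (by norm_num), hd12 dT' dH₂ (by norm_num),
          hT1, hT2, hd12 dT' dc (by norm_num)]
    all_goals (rcases hd with hd | hd <;> (have := Nat.cast_injective (hd.symm.trans e); omega))

end Cfsg.Agent.S2322
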