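import Cfsg.Statements.S2323
import Cfsg.Agent.H68.SL2ByDegree

set_option autoImplicit false
open Cfsg

namespace Cfsg.Agent.S2323

/-- Over a finite field F with q ≥ 4 elements, let u be the upper unitriangular matrix of SL₂ with off-diagonal entry 1. An irreducible complex character of SL₂ takes at u the value 1 if its degree is q + 1 and the value −1 if its degree is q − 1. -/
theorem result {F : Type*} [Field F] [Fintype F] (hq : 4 ≤ Fintype.card F) (χ : Matrix.SpecialLinearGroup (Fin 2) F → ℂ) (hχ : Cfsg.IsIrrCharacter (Matrix.SpecialLinearGroup (Fin 2) F) χ)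
    (u : Matrix.SpecialLinearGroup (Fin 2) F) (hu : (u : Matrix (Fin 2) (Fin 2) F) = !![1, 1; 0, 1]) :
    (χ 1 = (Fintype.card F : ℂ) + 1 → χ u = 1) ∧ (χ 1 = (Fintype.card F : ℂ) - 1 → χ u = -1) := by
  classical
  have hu' : u = Cfsg.Agent.H68.sl2U 1 := Subtype.ext hu
  subst hu'
  by_cases h2 : ringChar F = 2
  · obtain ⟨C, -, -, hCall, hcases⟩ := Cfsg.Agent.H68.sl2_even_cases (F := F) h2
    have c1 : (Fintype.card F : ℂ) + 1 = ((Fintype.card F + 1 : ℕ) : ℂ) := by push_cast; ring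
    have c2 : (Fintype.card F : ℂ) - 1 = ((Fintype.card F - 1 : ℕ) : ℂ) := by
      rw [Nat.cast_sub Fintype.card_pos, Nat.cast_one]
    rw [c1, c2]
    refine ⟨fun hd => ?_, fun hd => ?_⟩
    · rcases hcases ⟨χ, hχ⟩ with ⟨-, e⟩ | ⟨-, e⟩ | ⟨h, -⟩ | ⟨-, e⟩
      case inr.inr.inl =>
        obtain ⟨α, -, he'⟩ := Cfsg.Agent.H68.mem_sPSSet.1 h
        rw [show χ = _ from he']
        exact Cfsg.Agent.H68.sPS_u α one_ne_zero
      all_goals (have := Nat.cast_injective (hd.symm.trans e); omega)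
    · rcases hcases ⟨χ, hχ⟩ with ⟨-, e⟩ | ⟨-, e⟩ | ⟨-, e⟩ | ⟨h, -⟩
      case inr.inr.inr => exact (hCall _ h).2.1
      all_goals (have := Nat.cast_injective (hd.symm.trans e); omega)
  · obtain ⟨k, n, ψ, hk, hk1, -, hn, hψ⟩ :=
      Cfsg.Agent.H68.exists_odd_setup (F := F) (Nat.odd_iff.2 (FiniteField.odd_card_of_char_ne_two h2))
    obtain ⟨H₁, H₂, C₁, C₂, C, -, -, -, -, -, -, -, -, -, -, -, -, -, -, hCall, -, hcases⟩ :=
      Cfsg.Agent.H68.sl2_odd_cases hk hn hψ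
    have c1 : (Fintype.card F : ℂ) + 1 = ((2 * k + 2 : ℕ) : ℂ) := by rw [hk]; push_cast; ring
    have c2 : (Fintype.card F : ℂ) - 1 = ((2 * k : ℕ) : ℂ) := by rw [hk]; push_cast; ring
    rw [c1, c2]
    refine ⟨fun hd => ?_, fun hd => ?_⟩
    · rcases hcases ⟨χ, hχ⟩ with ⟨-, e⟩ | ⟨-, e⟩ | ⟨h, -⟩ | ⟨-, e⟩ | ⟨-, e⟩ | ⟨-, e⟩
      case inr.inr.inl =>
        obtain ⟨α, -, he'⟩ := Cfsg.Agent.H68.mem_sPSSet.1 h
        rw [show χ = _ from he']
        exact Cfsg.Agent.H68.sPS_u α one_ne_zero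
      all_goals (have := Nat.cast_injective (hd.symm.trans e); omega)
    · rcases hcases ⟨χ, hχ⟩ with ⟨-, e⟩ | ⟨-, e⟩ | ⟨-, e⟩ | ⟨-, e⟩ | ⟨-, e⟩ | ⟨h, -⟩
      case inr.inr.inr.inr.inr => exact (hCall _ h).2.1
      all_goals (have := Nat.cast_injective (hd.symm.trans e); omega)

end Cfsg.Agent.S2323
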