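import Cfsg.Statements.S2324
import Cfsg.Agent.H68.SL2ByDegree

set_option autoImplicit false
open Cfsg

namespace Cfsg.Agent.S2324

/-- Over a finite field F with q elements, q odd and q ≥ 5, let u be the upper unitriangular matrix of SL₂ with off-diagonal entry 1 and let δ = (−1)^((q−1)/2). Every irreducible complex character χ of SL₂ of degree (q + 1)/2 satisfies (2χ(u) − 1)² = δq, and every irreducible complex character χ of degree (q − 1)/2 satisfies (2χ(u) + 1)² = δq; that is, χ(u) = (1 ± √(δq))/2 in the first case and χ(u) = (−1 ± √(δq))/2 in the second. Moreover two different irreducible characters of degree (q + 1)/2 take the two different values (their values at u add up to 1), and likewise for degree (q − 1)/2 (values adding up to −1). -/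
theorem result {F : Type*} [Field F] [Fintype F] (hodd : Odd (Fintype.card F)) (hq : 5 ≤ Fintype.card F)
    (u : Matrix.SpecialLinearGroup (Fin 2) F) (hu : (u : Matrix (Fin 2) (Fin 2) F) = !![1, 1; 0, 1]) :
    (∀ χ : Matrix.SpecialLinearGroup (Fin 2) F → ℂ, Cfsg.IsIrrCharacter (Matrix.SpecialLinearGroup (Fin 2) F) χ → χ 1 = (((Fintype.card F + 1) / 2 : ℕ) : ℂ) → (2 * χ u - 1) ^ 2 = (-1 : ℂ) ^ ((Fintype.card F - 1) / 2) * (Fintype.card F : ℂ)) ∧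
    (∀ χ : Matrix.SpecialLinearGroup (Fin 2) F → ℂ, Cfsg.IsIrrCharacter (Matrix.SpecialLinearGroup (Fin 2) F) χ → χ 1 = (((Fintype.card F - 1) / 2 : ℕ) : ℂ) → (2 * χ u + 1) ^ 2 = (-1 : ℂ) ^ ((Fintype.card F - 1) / 2) * (Fintype.card F : ℂ)) ∧
    (∀ χ₁ χ₂ : Matrix.SpecialLinearGroup (Fin 2) F → ℂ, Cfsg.IsIrrCharacter (Matrix.SpecialLinearGroup (Fin 2) F) χ₁ → Cfsg.IsIrrCharacter (Matrix.SpecialLinearGroup (Fin 2) F) χ₂ → χ₁ ≠ χ₂ →
      χ₁ 1 = (((Fintype.card F + 1) / 2 : ℕ) : ℂ) → χ₂ 1 = (((Fintype.card F + 1) / 2 : ℕ) : ℂ) → χ₁ u + χ₂ u = 1) ∧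
    (∀ χ₁ χ₂ : Matrix.SpecialLinearGroup (Fin 2) F → ℂ, Cfsg.IsIrrCharacter (Matrix.SpecialLinearGroup (Fin 2) F) χ₁ → Cfsg.IsIrrCharacter (Matrix.SpecialLinearGroup (Fin 2) F) χ₂ → χ₁ ≠ χ₂ →
      χ₁ 1 = (((Fintype.card F - 1) / 2 : ℕ) : ℂ) → χ₂ 1 = (((Fintype.card F - 1) / 2 : ℕ) : ℂ) → χ₁ u + χ₂ u = -1) := by
  classical
  have hu' : u = Cfsg.Agent.H68.sl2U 1 := Subtype.ext hu
  subst hu'
  obtain ⟨k, n, ψ, hk, hk1, h2, hn, hψ⟩ := Cfsg.Agent.H68.exists_odd_setup (F := F) hodd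
  obtain ⟨H₁, H₂, C₁, C₂, C, -, -, -, -, -, -, vH₁, vH₂, vC₁, vC₂, -, -, -, -, -, -, hcases⟩ :=
    Cfsg.Agent.H68.sl2_odd_cases hk hn hψ
  have e1 : (Fintype.card F + 1) / 2 = k + 1 := by omega
  have e2 : (Fintype.card F - 1) / 2 = k := by omega
  have hG : gaussSum (Cfsg.Agent.H68.qchar F) ψ ^ 2 = (-1 : ℂ) ^ k * (Fintype.card F : ℂ) := by
    rw [gaussSum_sq (Cfsg.Agent.H68.qchar_ne_one h2) Cfsg.Agent.H68.qchar_isQuadratic hψ]
    congr 1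
    rw [Cfsg.Agent.H68.qchar, MulChar.ringHomComp_apply, quadraticChar_neg_one h2,
      ZMod.χ₄_eq_neg_one_pow (by omega), show Fintype.card F / 2 = k by omega]
    simp
  rw [e1, e2]
  have cH : ∀ χ : Matrix.SpecialLinearGroup (Fin 2) F → ℂ,
      Cfsg.IsIrrCharacter (Matrix.SpecialLinearGroup (Fin 2) F) χ → χ 1 = ((k + 1 : ℕ) : ℂ) →
      χ = H₁.1 ∨ χ = H₂.1 := by
    intro χ hχ hd
    rcases hcases ⟨χ, hχ⟩ with ⟨-, e⟩ | ⟨-, e⟩ | ⟨-, e⟩ | ⟨h, -⟩ | ⟨-, e⟩ | ⟨-, e⟩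
    case inr.inr.inr.inl => exact h.imp (congrArg Subtype.val) (congrArg Subtype.val)
    all_goals (have := Nat.cast_injective (hd.symm.trans e); omega)
  have cC : ∀ χ : Matrix.SpecialLinearGroup (Fin 2) F → ℂ,
      Cfsg.IsIrrCharacter (Matrix.SpecialLinearGroup (Fin 2) F) χ → χ 1 = ((k : ℕ) : ℂ) →
      χ = C₁.1 ∨ χ = C₂.1 := by
    intro χ hχ hd
    rcases hcases ⟨χ, hχ⟩ with ⟨-, e⟩ | ⟨-, e⟩ | ⟨-, e⟩ | ⟨-, e⟩ | ⟨h, -⟩ | ⟨-, e⟩
    case inr.inr.inr.inr.inl => exact h.imp (congrArg Subtype.val) (congrArg Subtype.val)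
    all_goals (have := Nat.cast_injective (hd.symm.trans e); omega)
  refine ⟨fun χ hχ hd => ?_, fun χ hχ hd => ?_, fun χ₁ χ₂ h1 h2' hne hd1 hd2 => ?_,
    fun χ₁ χ₂ h1 h2' hne hd1 hd2 => ?_⟩
  · rcases cH χ hχ hd with rfl | rfl
    · rw [vH₁, ← hG]; ring
    · rw [vH₂, ← hG]; ring
  · rcases cC χ hχ hd with rfl | rfl
    · rw [vC₁, ← hG]; ring
    · rw [vC₂, ← hG]; ring
  · rcases cH χ₁ h1 hd1 with rfl | rfl <;> rcases cH χ₂ h2' hd2 with rfl | rfl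
    case inl.inl | inr.inr => exact absurd rfl hne
    all_goals (rw [vH₁, vH₂]; ring)
  · rcases cC χ₁ h1 hd1 with rfl | rfl <;> rcases cC χ₂ h2' hd2 with rfl | rfl
    case inl.inl | inr.inr => exact absurd rfl hne
    all_goals (rw [vC₁, vC₂]; ring)

end Cfsg.Agent.S2324
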