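import Cfsg.Statements.S2329
import Cfsg.Agent.H69.SL2Classes

set_option autoImplicit false
open Cfsg

namespace Cfsg.Agent.S2329

/-- Over a finite field of characteristic p, any two elements of order p of GL₂ are conjugate: there is a single conjugacy class of non-identity unipotent elements. -/
theorem result {F : Type*} [Field F] [Fintype F] (p : ℕ) [Fact p.Prime] [CharP F p] (g h : Matrix.GeneralLinearGroup (Fin 2) F)
    (hg : orderOf g = p) (hh : orderOf h = p) : IsConj g h := by
  have key : ∀ x : Matrix.GeneralLinearGroup (Fin 2) F, orderOf x = p →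
      ¬ Cfsg.Agent.H69.IsScalar2 (x : Matrix (Fin 2) (Fin 2) F) ∧
      (x : Matrix (Fin 2) (Fin 2) F).trace = 2 ∧ (x : Matrix (Fin 2) (Fin 2) F).det = 1 := by
    intro x hx
    have hp1 : (x : Matrix (Fin 2) (Fin 2) F) ^ p = 1 := by
      rw [← Units.val_pow_eq_pow_val, ← hx, pow_orderOf_eq_one, Units.val_one]
    have hne : (x : Matrix (Fin 2) (Fin 2) F) ≠ 1 := fun h => by
      have : x = 1 := Units.ext h
      rw [this, orderOf_one] at hx
      exact (Fact.out : p.Prime).one_lt.ne hx
    have hnil : IsNilpotent ((x : Matrix (Fin 2) (Fin 2) F) - 1) := by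
      refine ⟨p, ?_⟩
      rw [sub_pow_char_of_commute p (Commute.one_right (x : Matrix (Fin 2) (Fin 2) F)), one_pow, hp1,
        sub_self]
    have hd0 : ((x : Matrix (Fin 2) (Fin 2) F) - 1).det = 0 :=
      by
      obtain ⟨k, hk⟩ := hnil
      have : ((x : Matrix (Fin 2) (Fin 2) F) - 1).det ^ k = 0 := by
        rw [← Matrix.det_pow, hk, Matrix.det_zero]
      exact IsReduced.eq_zero _ ⟨k, this⟩
    have ht0 : ((x : Matrix (Fin 2) (Fin 2) F) - 1).trace = 0 :=
      (Matrix.isNilpotent_trace_of_isNilpotent hnil).eq_zero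
    rw [Matrix.det_fin_two] at hd0
    rw [Matrix.trace_fin_two] at ht0
    simp at hd0 ht0
    refine ⟨?_, ?_, ?_⟩
    · rintro ⟨h01, h10, h00⟩
      apply hne
      rw [h01, h00] at hd0
      simp at hd0
      have h2 : (x : Matrix (Fin 2) (Fin 2) F) 1 1 = 1 := sub_eq_zero.1 hd0
      ext i j
      fin_cases i <;> fin_cases j <;> simp [h01, h10, h00, h2]
    · rw [Matrix.trace_fin_two]; linear_combination ht0
    · rw [Matrix.det_fin_two]; linear_combination hd0 + ht0
  obtain ⟨g1, g2, g3⟩ := key g hg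
  obtain ⟨h1, h2, h3⟩ := key h hh
  exact Cfsg.Agent.H69.gl2_isConj_of_trace_det g1 h1 (g2.trans h2.symm) (g3.trans h3.symm)

end Cfsg.Agent.S2329
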