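import Cfsg.Statements.S2331
import Cfsg.Agent.H69.SL2Classes

set_option autoImplicit false
open Cfsg

namespace Cfsg.Agent.S2331

open Cfsg.Agent.H69

/-- Over a finite field with q elements, q even, the special linear group SL₂ has exactly q + 1 conjugacy classes. -/
theorem result {F : Type*} [Field F] [Fintype F] [CharP F 2] :
    Nat.card (ConjClasses (Matrix.SpecialLinearGroup (Fin 2) F)) = Fintype.card F + 1 := by
  classical
  let f : Unit ⊕ F → ConjClasses (Matrix.SpecialLinearGroup (Fin 2) F) :=
    Sum.elim (fun _ => ConjClasses.mk 1) (fun t => ConjClasses.mk (slComp t))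
  have h2 : ringChar F = 2 := ringChar.eq F 2
  have hbij : Function.Bijective f := by
    constructor
    · rintro (a | t) (b | s) h <;> simp only [f, Sum.elim_inl, Sum.elim_inr] at h
      · rfl
      · have h' := ConjClasses.mk_eq_mk_iff_isConj.1 h
        obtain ⟨c, hc⟩ := isConj_iff.1 h'
        refine absurd ?_ (not_isScalar2_slComp (F := F) s)
        rw [← hc]
        simp [IsScalar2]
      · have h' := ConjClasses.mk_eq_mk_iff_isConj.1 h.symm
        obtain ⟨c, hc⟩ := isConj_iff.1 h'
        refine absurd ?_ (not_isScalar2_slComp (F := F) t)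
        rw [← hc]
        simp [IsScalar2]
      · have := sl2_trace_eq_of_isConj (ConjClasses.mk_eq_mk_iff_isConj.1 h)
        rw [trace_slComp, trace_slComp] at this
        rw [this]
    · intro c
      obtain ⟨g, rfl⟩ := ConjClasses.exists_rep c
      by_cases hg : g ∈ Subgroup.center (Matrix.SpecialLinearGroup (Fin 2) F)
      · refine ⟨Sum.inl (), congrArg ConjClasses.mk ?_⟩
        rcases (sl2_mem_center_iff_eq g).1 hg with rfl | rfl
        · rfl
        · ext i j
          fin_cases i <;> fin_cases j <;> simp [CharTwo.neg_eq]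
      · rw [sl2_mem_center_iff] at hg
        exact ⟨Sum.inr (g : Matrix (Fin 2) (Fin 2) F).trace,
          ConjClasses.mk_eq_mk_iff_isConj.2
            (sl2_isConj_of_trace (not_isScalar2_slComp _) hg (trace_slComp _) (Or.inr h2))⟩
  rw [← Nat.card_eq_of_bijective f hbij]
  simp [Nat.card_sum, add_comm]

end Cfsg.Agent.S2331
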