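import Cfsg.Statements.S2362
import Cfsg.Agent.H71.SympSpectrum
import Cfsg.Agent.H71.OddOrthogonalSpectrum
import Cfsg.Agent.H5.OmegaForms

set_option autoImplicit false
open Cfsg

namespace Cfsg.Agent.S2362

theorem orderOf_gen (M : ℕ) : orderOf (Multiplicative.ofAdd (1 : ZMod M)) = M := by
  rw [orderOf_ofAdd_eq_addOrderOf, ZMod.addOrderOf_one]

open Cfsg.Agent.H71 Cfsg.Agent.H71.SympBlocks QuadraticMap

/-- `PSp` contains an element of order `p (q ^ m + 1)`. -/
theorem exists_mem_psp {F : Type*} [Field F] [Fintype F] (hodd : Odd (Fintype.card F)) (p : ℕ)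
    [Fact p.Prime] [CharP F p] {m : ℕ} (hm : 1 ≤ m) :
    (Fintype.card F ^ m + 1) * p ∈ Set.range (orderOf : Cfsg.PSp (m + 1) F → ℕ) := by
  classical
  have hp : p.Prime := Fact.out
  obtain ⟨T, hT⟩ := SympSpectrum.exists_nonsplit hodd hm
  let U₀ : Mat 1 F := Matrix.fromBlocks 1 1 0 1
  have hU : U₀ ∈ Matrix.symplecticGroup (Fin 1) F := by
    rw [SymplecticGroup.mem_iff, Matrix.fromBlocks_transpose]
    simp [U₀, Matrix.J, Matrix.fromBlocks_multiply]
  have hUpow : ∀ k : ℕ, U₀ ^ k = Matrix.fromBlocks 1 ((k : F) • 1) 0 1 := by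
    intro k
    induction k with
    | zero => simp [Matrix.fromBlocks_one]
    | succ k ih =>
      rw [pow_succ, ih, Matrix.fromBlocks_multiply]
      simp [add_smul, add_comm]
  let g := SympSpectrum.spBlk T (⟨U₀, hU⟩ : Matrix.symplecticGroup (Fin 1) F)
  refine ⟨QuotientGroup.mk g, ?_⟩
  refine Eq.trans (orderOf_eq_orderOf_iff.mpr fun N => ?_) (orderOf_gen ((Fintype.card F ^ m + 1) * p))
  rw [mk_pow_eq_one_iff (by omega), ← ofAdd_nsmul, ofAdd_eq_one, nsmul_one,
    ZMod.natCast_eq_zero_iff]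
  constructor
  · rintro ⟨c, hc⟩
    obtain ⟨h1, h2⟩ := SympSpectrum.spBlk_pow T ⟨U₀, hU⟩ hc
    change U₀ ^ N = _ at h2
    rw [hUpow, ← Matrix.fromBlocks_one, Matrix.fromBlocks_smul, Matrix.fromBlocks_inj] at h2
    have hc1 : c = 1 := by simpa using (congrFun (congrFun h2.1 0) 0).symm
    have hNp : p ∣ N := by
      rw [← CharP.cast_eq_zero_iff F p]
      simpa using congrFun (congrFun h2.2.1 0) 0
    have hNT : Fintype.card F ^ m + 1 ∣ N := by
      rw [← hT]
      refine orderOf_dvd_of_pow_eq_one (Subtype.ext ?_)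
      rw [SubmonoidClass.coe_pow, h1, hc1, one_smul]; rfl
    refine Nat.Coprime.mul_dvd_of_dvd_of_dvd ?_ hNT hNp
    refine (hp.coprime_iff_not_dvd.mpr fun h => ?_).symm
    obtain ⟨e, -, he⟩ := FiniteField.card F p
    have h0 : p ∣ Fintype.card F ^ m := (he ▸ dvd_pow_self p e.ne_zero).trans (dvd_pow_self _ (by omega))
    exact hp.ne_one (Nat.dvd_one.mp ((Nat.dvd_add_right h0).mp h))
  · intro h
    refine ⟨1, ?_⟩
    change SympSpectrum.blk (T : Mat m F) U₀ ^ N = _
    rw [SympSpectrum.blk_pow, one_smul, ← SympSpectrum.blk_one]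
    have e1 : T ^ N = 1 := orderOf_dvd_iff_pow_eq_one.mp (hT ▸ (dvd_mul_right _ p).trans h)
    congr 1
    · rw [← SubmonoidClass.coe_pow, e1]; rfl
    · rw [hUpow, (CharP.cast_eq_zero_iff F p N).mpr ((dvd_mul_left p _).trans h), zero_smul,
        Matrix.fromBlocks_one]

/-- Let F be a finite field of odd order and n ≥ 3. The simple orthogonal group PΩ(2n+1, F) (type B_n) and the projective symplectic group PSp(2n, F) (type C_n), which have the same order, do not have the same set of element orders. -/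
theorem result {F : Type*} [Field F] [Fintype F] (hodd : Odd (Fintype.card F)) (n : ℕ) (hn : 3 ≤ n) :
    Set.range (orderOf : Cfsg.POmega F (Cfsg.quadFormOdd n F) → ℕ) ≠ Set.range (orderOf : Cfsg.PSp n F → ℕ) := by
  intro heq
  obtain ⟨m, rfl⟩ : ∃ m, n = m + 1 := ⟨n - 1, by omega⟩
  obtain ⟨p, _⟩ := CharP.exists F
  have : Fact p.Prime := ⟨CharP.char_is_prime F p⟩
  have h2 : (2 : F) ≠ 0 := SympSpectrum.two_ne hodd
  have hmem := exists_mem_psp hodd p (show 1 ≤ m by omega)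
  rw [← heq] at hmem
  obtain ⟨x, hx⟩ := hmem
  let Q := Cfsg.Agent.H5.qOdd (m + 1) F
  have hQ : (polarBilin Q).Nondegenerate := Cfsg.Agent.H5.qOdd_nondegenerate (m + 1) h2
  have hdim : Module.finrank F (Unit ⊕ (Fin (m + 1) ⊕ Fin (m + 1)) → F) = 2 * m + 3 := by
    rw [Module.finrank_fintype_fun_eq_card]; simp; omega
  rw [← MulEquiv.orderOf_eq (Cfsg.Agent.H5.pomegaEquiv Q (Cfsg.Agent.H5.coe_qOdd (m + 1)))] at hx
  obtain ⟨g, hg⟩ := QuotientGroup.mk_surjective
    (Cfsg.Agent.H5.pomegaEquiv Q (Cfsg.Agent.H5.coe_qOdd (m + 1)) x)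
  have hstd := Cfsg.Agent.H5.std_of_five_le (F := F) (V := Unit ⊕ (Fin (m + 1) ⊕ Fin (m + 1)) → F) (by omega)
  have hgs := fun a : ↥(commutator (Cfsg.Agent.H5.orth Q)) =>
    (Cfsg.Agent.H5.mem_commutator_iff hQ hstd).mp a.2
  have hcenter : Subgroup.center ↥(commutator (Cfsg.Agent.H5.orth Q)) = ⊥ := by
    rw [eq_bot_iff]
    intro a ha
    rw [Cfsg.Agent.H5.mem_center_iff hQ (by omega) hstd] at ha
    obtain ⟨t, ht⟩ := ha
    have h0 : t = 1 := by
      by_contra hne
      have htop : Cfsg.Agent.H5.resid (a : Cfsg.Agent.H5.orth Q) = ⊤ := by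
        refine LinearMap.range_eq_top.mpr fun v => ⟨(t - 1)⁻¹ • v, ?_⟩
        rw [Cfsg.Agent.H5.dLin_apply, ht, smul_smul, ← sub_smul, ← sub_one_mul,
          mul_inv_cancel₀ (sub_ne_zero.mpr hne), one_smul]
      have h := (hgs a).1
      rw [Cfsg.Agent.H5.dick, Cfsg.Agent.H5.rk, htop, finrank_top, hdim,
        (show Odd (2 * m + 3) from ⟨m + 1, by ring⟩).neg_one_pow] at h
      exact absurd h (by decide)
    rw [Subgroup.mem_bot]
    refine Subtype.ext (Cfsg.Agent.H5.orth_ext fun v => ?_)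
    rw [ht, h0, one_smul]
    rfl
  have hord : orderOf (g : Cfsg.Agent.H5.orth Q) = (Fintype.card F ^ m + 1) * p := by
    rw [← hx, ← hg, Subgroup.orderOf_coe]
    refine orderOf_eq_orderOf_iff.mpr fun N => ?_
    rw [← QuotientGroup.mk_pow, QuotientGroup.eq_one_iff, hcenter, Subgroup.mem_bot]
  exact OddOrthogonalSpectrum.false_of_order h2 hQ (show 2 ≤ m by omega) hdim p _ (hgs g).1 (hgs g).2 hord

end Cfsg.Agent.S2362
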