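import Cfsg.Statements.S2366
import Cfsg.Agent.H71.UnitaryThreeUpper
import Cfsg.Agent.H71.UnitaryThreeLower

set_option autoImplicit false
open Cfsg Cfsg.Agent

namespace Cfsg.Agent.S2366

/-- The set of element orders of PSU(3, q) for an odd prime power q = p^n: writing d = gcd(3, q + 1), a positive integer is the order of some element exactly when it divides one of q + 1, p(q + 1)/d, (q² − 1)/d, (q² − q + 1)/d. -/
theorem result {F : Type*} [Field F] [Fintype F] (p : ℕ) [Fact p.Prime] [CharP F p] (hp : p ≠ 2) (q : ℕ) (hF : Fintype.card F = q ^ 2) :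
    Set.range (orderOf : Cfsg.PSU 3 F q → ℕ) =
      {s : ℕ | s ∣ q + 1} ∪ {s : ℕ | s ∣ p * (q + 1) / Nat.gcd 3 (q + 1)} ∪
        {s : ℕ | s ∣ (q ^ 2 - 1) / Nat.gcd 3 (q + 1)} ∪ {s : ℕ | s ∣ (q ^ 2 - q + 1) / Nat.gcd 3 (q + 1)} := by
  classical
  obtain ⟨p', k, hp', hc', hk, hqk⟩ := H3.exists_q_eq_pow hF
  have hpp : p = p' := CharP.eq F ‹CharP F p› hc'
  have hq3 : 3 ≤ q := by
    have h1 : p' ≤ q := hqk ▸ Nat.le_self_pow (by omega) p'
    have h2 := hp'.two_le
    omega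
  have : CharP F p := by rw [hpp]; exact hc'
  ext s
  constructor
  · rintro ⟨x, rfl⟩
    obtain ⟨g, rfl⟩ := QuotientGroup.mk_surjective x
    rcases H71.UnitaryThree.upper hF p hp g with h | h | h | h
    · exact Or.inl (Or.inl (Or.inl h))
    · exact Or.inl (Or.inl (Or.inr h))
    · exact Or.inl (Or.inr h)
    · exact Or.inr h
  · intro hs
    have hfin : ∃ x : Cfsg.PSU 3 F q, s ∣ orderOf x := by
      obtain ⟨⟨x1, h1⟩, ⟨x2, h2⟩⟩ := H71.UnitaryThree.lower_diag hF p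
      obtain ⟨x3, h3⟩ := H71.UnitaryThree.lower_mixed hF p
      obtain ⟨x4, h4⟩ := H71.UnitaryThree.lower_cubic hF hq3
      rcases hs with ((h | h) | h) | h
      · exact ⟨x2, dvd_trans h h2⟩
      · exact ⟨x3, dvd_trans h h3⟩
      · exact ⟨x1, dvd_trans h h1⟩
      · exact ⟨x4, dvd_trans h h4⟩
    obtain ⟨x, hx⟩ := hfin
    exact ⟨x ^ (orderOf x / s), orderOf_pow_orderOf_div (orderOf_pos x).ne' hx⟩

end Cfsg.Agent.S2366
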