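import Cfsg.Statements.S2367
import Mathlib

set_option autoImplicit false
open Cfsg

namespace Cfsg.Agent.S2367

/-- Let G be an alternating group of degree at least 5 or a simple group with the order of one of the 26 sporadic groups, and let p be an odd prime such that p³ is the exact power of p dividing the order of G. Then p³ is less than the 2-part of the order of G. -/
theorem result {G : Type*} [Group G] [Finite G] (hG : Cfsg.IsAlternating G ∨ Cfsg.IsSporadic G)
    (p : ℕ) (hp : p.Prime) (hodd : p ≠ 2) (h3 : (Nat.card G).factorization p = 3) :
    p ^ 3 < 2 ^ (Nat.card G).factorization 2 := by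
  have hle : ∀ N a : ℕ, N ≠ 0 → 2 ^ a ∣ N → a ≤ N.factorization 2 := fun N a hN h =>
    (Nat.prime_two.pow_dvd_iff_le_factorization hN).1 h
  rcases hG with ⟨n, hn5, ⟨e⟩⟩ | hS
  · rw [Nat.card_congr e.toEquiv] at h3 ⊢
    have : Nontrivial (Fin n) := Fin.nontrivial_iff_two_le.2 (by omega)
    have hA : 2 * Nat.card (alternatingGroup (Fin n)) = n.factorial := by
      rw [two_mul_nat_card_alternatingGroup, Nat.card_perm, Nat.card_fin]
    have hf := Nat.factorization_mul (by norm_num : (2 : ℕ) ≠ 0)
      (Nat.card_pos (α := alternatingGroup (Fin n))).ne'
    rw [hA] at hf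
    haveI := Fact.mk hp
    have hfp : padicValNat p n.factorial = 3 := by
      rw [← Nat.factorization_def _ hp, hf, Finsupp.add_apply, h3,
        Nat.factorization_eq_zero_of_not_dvd (n := 2) (p := p)
          (fun h => hodd ((Nat.prime_dvd_prime_iff_eq hp Nat.prime_two).1 h))]
    rw [← padicValNat_mul_div_factorial, padicValNat_factorial_mul] at hfp
    have hp3 : 3 ≤ p := lt_of_le_of_ne hp.two_le (Ne.symm hodd)
    have hk : n / p = 3 := by
      by_contra hne
      rcases Nat.lt_or_ge (n / p) p with hlt | hge
      · rw [padicValNat.eq_zero_of_not_dvd (fun h => by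
          have := (Nat.Prime.dvd_factorial hp).1 h
          omega)] at hfp
        omega
      · have h1 : 1 ≤ padicValNat p (n / p).factorial :=
          one_le_padicValNat_of_dvd (Nat.factorial_ne_zero _) (Nat.dvd_factorial hp.pos hge)
        omega
    have hp5 : 5 ≤ p := by
      by_contra hlt
      have h34 : p = 3 ∨ p = 4 := by omega
      rcases h34 with rfl | rfl
      · rw [hk] at hfp
        have h1 : 1 ≤ padicValNat 3 (Nat.factorial 3) :=
          one_le_padicValNat_of_dvd (Nat.factorial_ne_zero _) (by decide)
        omega
      · exact absurd hp (by decide)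
    have hn3 : 3 * p ≤ n := by
      have := Nat.div_mul_le_self n p
      rw [hk] at this
      omega
    have h2 : n / 2 + n / 2 / 2 ≤ padicValNat 2 n.factorial := by
      rw [← padicValNat_mul_div_factorial n, padicValNat_factorial_mul,
        ← padicValNat_mul_div_factorial (n / 2), padicValNat_factorial_mul]
      omega
    rw [← Nat.factorization_def _ Nat.prime_two, hf, Finsupp.add_apply,
      Nat.Prime.factorization_self Nat.prime_two] at h2
    refine lt_of_lt_of_le ?_ (Nat.pow_le_pow_right (by norm_num)
      (show 2 * p - 2 ≤ _ by omega))
    clear * - hp5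
    rename_i this
    clear this
    induction p, hp5 using Nat.le_induction with
    | base => norm_num
    | succ q hq ih =>
      rw [show 2 * (q + 1) - 2 = 2 * q - 2 + 2 by omega, pow_add]
      have h5 : (q + 1) ^ 3 ≤ 4 * q ^ 3 := by
        obtain ⟨j, rfl⟩ := Nat.exists_eq_add_of_le hq
        ring_nf
        nlinarith [Nat.zero_le (j ^ 3), Nat.zero_le (j ^ 2), Nat.zero_le j]
      calc (q + 1) ^ 3 ≤ 4 * q ^ 3 := h5
        _ < 2 ^ (2 * q - 2) * 2 ^ 2 := by omega
  · have key : ∀ N a : ℕ, Nat.card G = N → N ∣ (Nat.factorial 71) ^ 50 → 2 ^ a ∣ N →
        (∀ q < 72, q ≠ 2 → q.Prime → q ^ 3 ∣ N → q ^ 4 ∣ N ∨ q ^ 3 < 2 ^ a) →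
        p ^ 3 < 2 ^ (Nat.card G).factorization 2 := by
      intro N a hN hdvd ha hall
      rw [hN] at h3 ⊢
      have hN0 : N ≠ 0 := hN ▸ Nat.card_pos.ne'
      have hp3d : p ^ 3 ∣ N := (hp.pow_dvd_iff_le_factorization hN0).2 h3.ge
      have hp71 : p < 72 := by
        have := (Nat.Prime.dvd_factorial hp).1
          (hp.dvd_of_dvd_pow (dvd_trans (dvd_pow_self p (by norm_num)) (dvd_trans hp3d hdvd)))
        omega
      rcases hall p hp71 hodd hp hp3d with h | h
      · have := (hp.pow_dvd_iff_le_factorization hN0).1 h
        omega
      · exact lt_of_lt_of_le h (Nat.pow_le_pow_right (by norm_num) (hle N a hN0 ha))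
    rcases hS with h | h | h | h | h | h | h | h | h | h | h | h | h | h | h | h | h | h | h | h |
      h | h | h | h | h | h
    · exact key 7920 4 h.2 (by decide +kernel) (by decide) (by decide +kernel)
    · exact key 95040 6 h.2 (by decide +kernel) (by decide) (by decide +kernel)
    · exact key 443520 7 h.2 (by decide +kernel) (by decide) (by decide +kernel)
    · exact key 10200960 7 h.2 (by decide +kernel) (by decide) (by decide +kernel)
    · exact key 244823040 10 h.2 (by decide +kernel) (by decide) (by decide +kernel)
    · exact key 175560 3 h.2 (by decide +kernel) (by decide) (by decide +kernel)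
    · exact key 604800 7 h.2 (by decide +kernel) (by decide) (by decide +kernel)
    · exact key 50232960 7 h.2 (by decide +kernel) (by decide) (by decide +kernel)
    · exact key 86775571046077562880 21 h.2 (by decide +kernel) (by decide) (by decide +kernel)
    · exact key 4157776806543360000 21 h.2 (by decide +kernel) (by decide) (by decide +kernel)
    · exact key 42305421312000 18 h.2 (by decide +kernel) (by decide) (by decide +kernel)
    · exact key 495766656000 10 h.2 (by decide +kernel) (by decide) (by decide +kernel)
    · exact key 64561751654400 17 h.2 (by decide +kernel) (by decide) (by decide +kernel)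
    · exact key 4089470473293004800 18 h.2 (by decide +kernel) (by decide) (by decide +kernel)
    · exact key 1255205709190661721292800 21 h.2 (by decide +kernel) (by decide) (by decide +kernel)
    · exact key 44352000 9 h.2 (by decide +kernel) (by decide) (by decide +kernel)
    · exact key 898128000 7 h.2 (by decide +kernel) (by decide) (by decide +kernel)
    · exact key 4030387200 10 h.2 (by decide +kernel) (by decide) (by decide +kernel)
    · exact key 145926144000 14 h.2 (by decide +kernel) (by decide) (by decide +kernel)
    · exact key 448345497600 13 h.2 (by decide +kernel) (by decide) (by decide +kernel)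
    · exact key 460815505920 9 h.2 (by decide +kernel) (by decide) (by decide +kernel)
    · exact key 273030912000000 14 h.2 (by decide +kernel) (by decide) (by decide +kernel)
    · exact key 51765179004000000 8 h.2 (by decide +kernel) (by decide) (by decide +kernel)
    · exact key 90745943887872000 15 h.2 (by decide +kernel) (by decide) (by decide +kernel)
    · exact key 4154781481226426191177580544000000 41 h.2 (by decide +kernel) (by decide) (by decide +kernel)
    · exact key 808017424794512875886459904961710757005754368000000000 46 h.2 (by decide +kernel)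
        (by decide) (by decide +kernel)

end Cfsg.Agent.S2367
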