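import Cfsg.Statements.S2368
import Cfsg.Agent.H71.UnipotentOrder

set_option autoImplicit false
open Cfsg

namespace Cfsg.Agent.S2368

/-- Let F be a finite field of characteristic p and m ≥ 1. Every element of GL(m, F) of p-power order has order less than p·m, and GL(m, F) has an element of p-power order at least m; so the largest order of a p-element of GL(m, F) is the least power of p that is at least m. -/
theorem result {F : Type*} [Field F] [Fintype F] (p : ℕ) [Fact p.Prime] [CharP F p] (m : ℕ) (hm : 1 ≤ m) :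
    (∀ g : Matrix.GeneralLinearGroup (Fin m) F, (∃ j : ℕ, orderOf g = p ^ j) → orderOf g < p * m) ∧
      ∃ g : Matrix.GeneralLinearGroup (Fin m) F, (∃ j : ℕ, orderOf g = p ^ j) ∧ m ≤ orderOf g := by
  have hp : p.Prime := Fact.out
  refine ⟨fun g ⟨j, hj⟩ => ?_, ?_⟩
  · refine lt_of_le_of_lt (Nat.le_of_dvd (pow_pos hp.pos _) (orderOf_dvd_of_pow_eq_one
      (H71.unipotent_pow_clog p g (H71.isNilpotent_sub_one_of_orderOf p g hj)))) ?_
    rcases eq_or_lt_of_le hm with rfl | hm1
    · simpa using hp.one_lt
    · have h := Nat.pow_pred_clog_lt_self hp.one_lt hm1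
      have h0 := Nat.clog_pos hp.one_lt hm1
      calc p ^ Nat.clog p m = p * p ^ (Nat.clog p m).pred := by
            rw [← pow_succ']; congr 1; rw [Nat.pred_eq_sub_one]; omega
        _ < p * m := Nat.mul_lt_mul_of_pos_left h hp.pos
  · obtain ⟨u, hu, hne⟩ := H71.exists_single_block F hm
    exact ⟨u, ⟨_, H71.orderOf_single_block p u hu hne⟩,
      (H71.orderOf_single_block p u hu hne).symm ▸ Nat.le_pow_clog hp.one_lt m⟩

end Cfsg.Agent.S2368
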