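import Cfsg.Statements.S2369
import Cfsg.Statements.S2369
import Cfsg.Agent.H47.ReeF4Centralizer

set_option autoImplicit false
open Cfsg

namespace Cfsg.Agent.S2369

/-- Let q = 2^(2m+1) with m ≥ 1 and let a, b be commuting elements of the large Ree group ²F₄(q) with a an involution. Then every prime divisor of the order of b divides q(q⁴ − 1). -/
theorem result {K : Type*} [Field K] [Fintype K] (m : ℕ) (hm : 1 ≤ m) (hK : Fintype.card K = 2 ^ (2 * m + 1))
    (a b : ↥(Cfsg.Lie.twistedF4 K (2 ^ m))) (ha : orderOf a = 2) (hab : Commute a b) :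
    (orderOf b).primeFactors ⊆ (2 ^ (2 * m + 1) * ((2 ^ (2 * m + 1)) ^ 4 - 1)).primeFactors := by
  intro ℓ hℓ
  rw [Nat.mem_primeFactors] at hℓ
  have hdvd := H47.ReeF4Centralizer.prime_dvd_of_commute hK a b ha hab hℓ.1 hℓ.2.1
  rw [hK] at hdvd
  refine Nat.mem_primeFactors.2 ⟨hℓ.1, hdvd, ?_⟩
  have h1 : 1 < 2 ^ (2 * m + 1) := Nat.one_lt_pow (by omega) one_lt_two
  have h4 : 1 < (2 ^ (2 * m + 1)) ^ 4 := Nat.one_lt_pow (by omega) h1
  exact Nat.mul_ne_zero (by omega) (by omega)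

end Cfsg.Agent.S2369
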