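import Cfsg.Statements.S2372
import Cfsg.Agent.H67.TorusDataF4

set_option autoImplicit false
open Cfsg

namespace Cfsg.Agent.S2372

/-- The group F₄(q) contains a cyclic subgroup of order q⁴ + 1 which is its own centralizer. -/
theorem result {F : Type*} [Field F] [Fintype F] (q : ℕ) (hF : Fintype.card F = q) :
    ∃ H : Subgroup ↥(Cfsg.Lie.chevF4.group F), IsCyclic ↥H ∧ Nat.card ↥H = q ^ 4 + 1 ∧
      Subgroup.centralizer (H : Set ↥(Cfsg.Lie.chevF4.group F)) = H := by
  obtain ⟨H, h1, h2, h3⟩ := H67.Chev.exists_cyclic_self_centralizing (T := H67.Chev.torusF4)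
    H67.Chev.torusF4_ok H65.unimod_F4 q hF (q ^ 4 + 1)
    (by simp [H67.Chev.polVal, H67.Chev.torusF4, H67.Chev.evalL]; ring) (by positivity)
  exact ⟨H, h1, h2, h3⟩

end Cfsg.Agent.S2372
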