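import Cfsg.Statements.S2373
import Cfsg.Agent.H67.TorusDataE6

set_option autoImplicit false
open Cfsg

namespace Cfsg.Agent.S2373

/-- The group E₆(q) (the simple Chevalley group of type E₆) contains a cyclic subgroup of order (q⁴ − q² + 1)(q² + q + 1)/gcd(3, q − 1) which is its own centralizer. -/
theorem result {F : Type*} [Field F] [Fintype F] (q : ℕ) (hF : Fintype.card F = q) :
    ∃ H : Subgroup ↥(Cfsg.Lie.chevE6.group F), IsCyclic ↥H ∧ Nat.card ↥H = (q ^ 4 - q ^ 2 + 1) * (q ^ 2 + q + 1) / Nat.gcd 3 (q - 1) ∧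
      Subgroup.centralizer (H : Set ↥(Cfsg.Lie.chevE6.group F)) = H := by
  have hq : 2 ≤ q := hF ▸ Fintype.one_lt_card
  have h1 : q ^ 2 ≤ q ^ 4 := Nat.pow_le_pow_right (by omega) (by omega)
  obtain ⟨H, h1, h2, h3⟩ := H67.Chev.exists_cyclic_self_centralizing_adj (L := H47.CenterCard.embE6)
    (T := H67.Chev.torusE6) H47.CenterCard.chk_E6 H65.unimod_E8 H67.Chev.torusE6_adjOk
    (H70.Steinberg.cert_of_mem (by simp)) H67.Chev.torusE6_ok q hF ((q ^ 4 - q ^ 2 + 1) * (q ^ 2 + q + 1))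
    (by
      push_cast [Nat.cast_sub h1]
      simp [H67.Chev.polVal, H67.Chev.torusE6, H67.Chev.evalL]
      ring)
    (by positivity)
  exact ⟨H, h1, h2, h3⟩

end Cfsg.Agent.S2373
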