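import Cfsg.Statements.S2375
import Cfsg.Agent.H67.TorusDataE8

set_option autoImplicit false
open Cfsg

namespace Cfsg.Agent.S2375

/-- The group E₈(q) contains a cyclic subgroup of order q⁸ + q⁷ − q⁵ − q⁴ − q³ + q + 1 which is its own centralizer. -/
theorem result {F : Type*} [Field F] [Fintype F] (q : ℕ) (hF : Fintype.card F = q) :
    ∃ H : Subgroup ↥(Cfsg.Lie.chevE8.group F), IsCyclic ↥H ∧ Nat.card ↥H = q ^ 8 + q ^ 7 - q ^ 5 - q ^ 4 - q ^ 3 + q + 1 ∧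
      Subgroup.centralizer (H : Set ↥(Cfsg.Lie.chevE8.group F)) = H := by
  have hq : 2 ≤ q := hF ▸ Fintype.one_lt_card
  have h1 : q ^ 5 + q ^ 4 + q ^ 3 ≤ q ^ 8 + q ^ 7 := by
    have e1 : q ^ 5 + q ^ 4 ≤ q ^ 8 := by
      calc q ^ 5 + q ^ 4 ≤ q ^ 5 + q ^ 5 := by gcongr <;> omega
        _ = 2 * q ^ 5 := by ring
        _ ≤ q ^ 3 * q ^ 5 := by gcongr; exact hq.trans (Nat.le_self_pow (by omega) q)
        _ = q ^ 8 := by ring
    have e2 : q ^ 3 ≤ q ^ 7 := Nat.pow_le_pow_right (by omega) (by omega)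
    omega
  obtain ⟨H, h1, h2, h3⟩ := H67.Chev.exists_cyclic_self_centralizing (T := H67.Chev.torusE8)
    H67.Chev.torusE8_ok H65.unimod_E8 q hF (q ^ 8 + q ^ 7 - q ^ 5 - q ^ 4 - q ^ 3 + q + 1)
    (by
      rw [Nat.cast_add, Nat.cast_add, Nat.cast_sub (by omega), Nat.cast_sub (by omega), Nat.cast_sub (by omega)]
      simp [H67.Chev.polVal, H67.Chev.torusE8, H67.Chev.evalL]
      ring)
    (by omega)
  exact ⟨H, h1, h2, h3⟩

end Cfsg.Agent.S2375
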