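import Cfsg.Statements.S2379
import Cfsg.Agent.H66.SylowLarge
-- import your own Cfsg.Agent.* helpers here

set_option autoImplicit false
open Cfsg

namespace Cfsg.Agent.S2379

/-- Sylow subgroups of `SL_n(q)` for large primes. Let `F` be a field with `q` elements and `r` a prime with `r > n` and `r ∤ q` (so `r` does not divide the order `n!` of the Weyl group). Let `d` be the multiplicative order of `q` modulo `r`, `a` the number of integers `i` with `2 ≤ i ≤ n` divisible by `d` (the degrees of the Weyl group are `2, …, n`), and `m` the `r`-part of the value at `q` of the `d`-th cyclotomic polynomial. Then every Sylow `r`-subgroup of `SL_n(q)` is a direct product of `a` cyclic groups of order `m`. -/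
theorem result {F : Type*} [Field F] [Fintype F] {q : ℕ} (hq : Fintype.card F = q) (n : ℕ)
    (r : ℕ) [Fact r.Prime] (hrn : n < r) (hrq : ¬ r ∣ q) (P : Sylow r (Matrix.SpecialLinearGroup (Fin n) F)) :
    Nonempty (↥(P : Subgroup (Matrix.SpecialLinearGroup (Fin n) F)) ≃*
      (Fin ((Finset.Icc 2 n).filter (fun i => orderOf (q : ZMod r) ∣ i)).card →
        Multiplicative (ZMod (r ^ padicValNat r ((Polynomial.cyclotomic (orderOf (q : ZMod r)) ℤ).eval (q : ℤ)).natAbs)))) := by
  subst hq
  rw [Cfsg.Agent.H66.val_cyclotomic_eval Fintype.one_lt_card hrq]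
  obtain ⟨φ, hφ⟩ := Cfsg.Agent.H66.exists_SL_hom (F := F) hrq n
  exact Cfsg.Agent.H66.sylow_homocyclic (Cfsg.Agent.H66.val_card_SL n hrn hrq) φ hφ P

end Cfsg.Agent.S2379
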