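import Cfsg.Statements.S2383
import Cfsg.Agent.H47.SimpleCountTypes

set_option autoImplicit false
open Cfsg Cfsg.Agent.H46 Cfsg.Agent.H47.Hecke

namespace Cfsg.Agent.S2383

/-- Steinberg's count of semisimple classes in characteristic 2 for the types B₂, D₄, E₇, where the finite simply connected group has trivial centre and so coincides with the Chevalley group: for the Chevalley group of type B₂, D₄ or E₇ over a field with `q` elements of characteristic 2, the conjugacy classes of elements of odd order number exactly `q^l`, `l` the rank. -/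
theorem result {F : Type*} [Field F] [Fintype F] {q : ℕ} (hq : Fintype.card F = q) [CharP F 2]
    (D : Cfsg.Lie.ChevalleyDatum) (hD : D ∈ [Cfsg.Lie.chevB2, Cfsg.Lie.chevD4, Cfsg.Lie.chevE7]) :
    Nat.card {c : ConjClasses ↥(D.group F) // ∃ g : ↥(D.group F), ConjClasses.mk g = c ∧ Odd (orderOf g)} = q ^ D.rank := by
  subst hq
  haveI : Fact (Nat.Prime 2) := ⟨Nat.prime_two⟩
  obtain ⟨n, -, hn⟩ := FiniteField.card F 2
  have h2 : (Fintype.card F - 1).gcd 2 = 1 := by
    refine (Nat.prime_two.coprime_iff_not_dvd.2 ?_).symm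
    have h1 : 2 ∣ Fintype.card F := hn ▸ dvd_pow_self 2 n.ne_zero
    have := Fintype.one_lt_card (α := F)
    omega
  have key : ∀ (C : Cfsg.Agent.H46.SmithCert) (G : Cfsg.Agent.H46.Good D),
      Cfsg.Agent.H46.SmithOk D G.tab C → (∀ i : Fin D.rank, (Fintype.card F - 1).gcd (C.s.getD i.val 0) = 1) →
      Nat.card {c : ConjClasses ↥(D.group F) // ∃ g : ↥(D.group F), ConjClasses.mk g = c ∧ Odd (orderOf g)} =
        Fintype.card F ^ D.rank := by
    intro C G hC h
    rw [← Cfsg.Agent.H47.Hecke.card_coprime_classes G 2 C hC h]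
    refine Nat.card_congr (Equiv.subtypeEquivRight fun c => exists_congr fun g => ?_)
    rw [Nat.coprime_two_right]
  rcases List.mem_cons.1 hD with rfl | hD
  · exact key smithB2 goodB2 smithOk_B2 fun i => by
      fin_cases i <;> first | exact Nat.gcd_one_right _ | exact h2
  rcases List.mem_cons.1 hD with rfl | hD
  · exact key Cfsg.Agent.H46.smithD4 Cfsg.Agent.H46.goodD4 Cfsg.Agent.H46.smithOk_D4 fun i => by
      fin_cases i <;> first | exact Nat.gcd_one_right _ | exact h2
  rcases List.mem_singleton.1 hD with rfl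
  exact key Cfsg.Agent.H46.smithE7 Cfsg.Agent.H46.goodE7 Cfsg.Agent.H46.smithOk_E7 fun i => by
      fin_cases i <;> first | exact Nat.gcd_one_right _ | exact h2

end Cfsg.Agent.S2383
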