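import Cfsg.Statements.S2384
import Cfsg.Agent.H66.ClassCount
-- import your own Cfsg.Agent.* helpers here

set_option autoImplicit false
open Cfsg

namespace Cfsg.Agent.S2384

/-- In `SL_n(q)`, `q` a power of the prime `p`, the number of conjugacy classes of elements of order prime to `p` (the semisimple classes) is `q^(n-1)`. -/
theorem result {F : Type*} [Field F] [Fintype F] {q : ℕ} (hq : Fintype.card F = q) (p : ℕ) [Fact p.Prime] [CharP F p] (n : ℕ) (hn : 1 ≤ n) :
    Nat.card {c : ConjClasses (Matrix.SpecialLinearGroup (Fin n) F) //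
      ∃ g : Matrix.SpecialLinearGroup (Fin n) F, ConjClasses.mk g = c ∧ (orderOf g).Coprime p} = q ^ (n - 1) := by
  obtain ⟨k, rfl⟩ := Nat.exists_eq_add_of_le' hn
  subst hq
  rw [Cfsg.Agent.H66.card_classes_eq (fun g : Matrix.SpecialLinearGroup (Fin (k + 1)) F => (orderOf g).Coprime p)
    (fun f : Polynomial F => (f.Monic ∧ f.natDegree = k + 1) ∧ f.coeff 0 = (-1) ^ (k + 1))
    (fun g => (g : Matrix (Fin (k + 1)) (Fin (k + 1)) F).charpoly)
    (fun g h hc hg => Cfsg.Agent.H66.coprime_orderOf_of_isConj hc hg)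
    (fun g h hc => Cfsg.Agent.H66.charpoly_eq_of_isConj (Cfsg.Agent.H66.gl_isConj_iff.1
      (Matrix.SpecialLinearGroup.toGL.map_isConj hc)))
    (fun g h hg hh hc => Cfsg.Agent.H66.sl_isConj_of_charpoly_eq p g h hg hh hc)
    (fun g _ => ⟨⟨Matrix.charpoly_monic _, by simp [Matrix.charpoly_natDegree_eq_dim]⟩, by
      have h := Matrix.det_eq_sign_charpoly_coeff (g : Matrix (Fin (k + 1)) (Fin (k + 1)) F)
      rw [g.2, Fintype.card_fin] at h
      have hs : ((-1 : F) ^ (k + 1)) * (-1) ^ (k + 1) = 1 := by rw [← mul_pow]; simp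
      linear_combination (-((-1 : F) ^ (k + 1))) * h -
        (g : Matrix (Fin (k + 1)) (Fin (k + 1)) F).charpoly.coeff 0 * hs⟩)
    (fun f hf => ?_)]
  · rw [Cfsg.Agent.H66.card_monic_coeff_zero k (fun a => a = (-1) ^ (k + 1))]
    simp
  · obtain ⟨g, hg, hgp⟩ := Cfsg.Agent.H66.exists_gl_charpoly_eq p hf.1.1 hf.1.2
      (by rw [hf.2]; exact pow_ne_zero _ (neg_ne_zero.2 one_ne_zero))
    have hd : (g : Matrix (Fin (k + 1)) (Fin (k + 1)) F).det = 1 := by
      rw [Matrix.det_eq_sign_charpoly_coeff, hg, hf.2, Fintype.card_fin, ← mul_pow]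
      simp
    let g' : Matrix.SpecialLinearGroup (Fin (k + 1)) F := ⟨g, hd⟩
    have hg' : Matrix.SpecialLinearGroup.toGL g' = g := Units.ext rfl
    refine ⟨g', ?_, hg⟩
    rw [← orderOf_injective Matrix.SpecialLinearGroup.toGL
      (fun a b e => Subtype.ext (congrArg Units.val e)) g', hg']
    exact hgp

end Cfsg.Agent.S2384
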