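import Cfsg.Statements.S2385
import Cfsg.Agent.H66.SemisimpleSp
-- import your own Cfsg.Agent.* helpers here

set_option autoImplicit false
open Cfsg

namespace Cfsg.Agent.S2385

/-- In the symplectic group `Sp_{2n}(q)`, `q` a power of the prime `p`, the number of conjugacy classes of elements of order prime to `p` is `q^n`. -/
theorem result {F : Type*} [Field F] [Fintype F] {q : ℕ} (hq : Fintype.card F = q) (p : ℕ) [Fact p.Prime] [CharP F p] (n : ℕ) :
    Nat.card {c : ConjClasses ↥(Matrix.symplecticGroup (Fin n) F) //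
      ∃ g : ↥(Matrix.symplecticGroup (Fin n) F), ConjClasses.mk g = c ∧ (orderOf g).Coprime p} = q ^ n := by
  subst hq
  rcases Nat.eq_zero_or_pos n with rfl | hn
  · have hp : p.Prime := Fact.out
    rw [pow_zero, Nat.card_eq_one_iff_exists]
    refine ⟨⟨ConjClasses.mk 1, 1, rfl, by rw [orderOf_one]; exact Nat.coprime_one_left p⟩, fun c => ?_⟩
    obtain ⟨c, g, rfl, -⟩ := c
    exact Subtype.ext (congrArg ConjClasses.mk (Subtype.ext (Subsingleton.elim _ _)))
  obtain ⟨k, rfl⟩ := Nat.exists_eq_add_of_le' hn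
  exact Cfsg.Agent.H66.card_semisimple_classes_Sp p k

end Cfsg.Agent.S2385
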