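import Cfsg.Statements.S2386
import Cfsg.Agent.H66.SemisimpleSU
-- import your own Cfsg.Agent.* helpers here

set_option autoImplicit false
open Cfsg

namespace Cfsg.Agent.S2386

/-- In the special unitary group `SU_n(q)` (matrices of determinant one over the field with `q²` elements preserving the standard Hermitian form), `q` a power of the prime `p`, the number of conjugacy classes of elements of order prime to `p` is `q^(n-1)`. -/
theorem result {F : Type*} [Field F] [Fintype F] {q : ℕ} (hF : Fintype.card F = q ^ 2) (p : ℕ) [Fact p.Prime] [CharP F p] (n : ℕ) (hn : 1 ≤ n) :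
    Nat.card {c : ConjClasses ↥(Cfsg.SU n F q) // ∃ g : ↥(Cfsg.SU n F q), ConjClasses.mk g = c ∧ (orderOf g).Coprime p} = q ^ (n - 1) := by
  obtain ⟨m, rfl⟩ := Nat.exists_eq_add_of_le' hn
  exact Cfsg.Agent.H66.card_semisimple_classes_SU hF p m

end Cfsg.Agent.S2386
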