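import Cfsg.Statements.S2387
import Cfsg.Agent.H66.ClassCount
-- import your own Cfsg.Agent.* helpers here

set_option autoImplicit false
open scoped MatrixGroups
open Cfsg

namespace Cfsg.Agent.S2387

/-- In `GL_n(q)` with `n ≥ 1`, `q` a power of the prime `p`, the number of conjugacy classes of elements of order prime to `p` (diagonalisable over the algebraic closure; determined by the characteristic polynomial) is `(q - 1) q^(n-1)`. -/
theorem result {F : Type*} [Field F] [Fintype F] {q : ℕ} (hq : Fintype.card F = q) (p : ℕ) [Fact p.Prime] [CharP F p] (n : ℕ) (hn : 1 ≤ n) :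
    Nat.card {c : ConjClasses (GL (Fin n) F) // ∃ g : GL (Fin n) F, ConjClasses.mk g = c ∧ (orderOf g).Coprime p} = (q - 1) * q ^ (n - 1) := by
  obtain ⟨k, rfl⟩ := Nat.exists_eq_add_of_le' hn
  subst hq
  rw [Cfsg.Agent.H66.card_classes_eq (fun g : GL (Fin (k + 1)) F => (orderOf g).Coprime p)
    (fun f : Polynomial F => (f.Monic ∧ f.natDegree = k + 1) ∧ f.coeff 0 ≠ 0)
    (fun g => (g : Matrix (Fin (k + 1)) (Fin (k + 1)) F).charpoly)
    (fun g h hc hg => Cfsg.Agent.H66.coprime_orderOf_of_isConj hc hg)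
    (fun g h hc => Cfsg.Agent.H66.charpoly_eq_of_isConj (Cfsg.Agent.H66.gl_isConj_iff.1 hc))
    (fun g h hg hh hc => Cfsg.Agent.H66.isConj_of_charpoly_eq p hg hh hc)
    (fun g _ => ⟨⟨Matrix.charpoly_monic _, by simp [Matrix.charpoly_natDegree_eq_dim]⟩, fun h0 =>
      Matrix.GeneralLinearGroup.det_ne_zero g (by rw [Matrix.det_eq_sign_charpoly_coeff, h0, mul_zero])⟩)
    (fun f hf => ?_)]
  · classical
    rw [Cfsg.Agent.H66.card_monic_coeff_zero k (fun a => a ≠ 0), Nat.card_eq_fintype_card,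
      Fintype.card_subtype_compl, Fintype.card_subtype_eq]
    simp
  · obtain ⟨g, hg, hgp⟩ := Cfsg.Agent.H66.exists_gl_charpoly_eq p hf.1.1 hf.1.2 hf.2
    exact ⟨g, hgp, hg⟩

end Cfsg.Agent.S2387
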