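import Cfsg.Statements.S2389
import Cfsg.Agent.H67.IsometryConjMatrix
import Cfsg.Agent.H66.SemisimpleGL
-- import your own Cfsg.Agent.* helpers here

set_option autoImplicit false
open Cfsg

namespace Cfsg.Agent.S2389

/-- In the symplectic group `Sp_{2n}(q)`, `q` a power of the prime `p`, two elements of order prime to `p` with the same characteristic polynomial are conjugate in `Sp_{2n}(q)`. -/
theorem result {F : Type*} [Field F] [Fintype F] (p : ℕ) [Fact p.Prime] [CharP F p] (n : ℕ)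
    (g h : ↥(Matrix.symplecticGroup (Fin n) F)) (hg : (orderOf g).Coprime p) (hh : (orderOf h).Coprime p)
    (hc : (g : Matrix (Fin n ⊕ Fin n) (Fin n ⊕ Fin n) F).charpoly = (h : Matrix (Fin n ⊕ Fin n) (Fin n ⊕ Fin n) F).charpoly) :
    IsConj g h := by
  refine (Cfsg.Agent.H67.sp_isConj_iff_matrix g h hg).2 ?_
  obtain ⟨s, hs, hs0⟩ := Cfsg.Agent.H66.exists_squarefree_aeval_toLin' p
    (show (g : Matrix (Fin n ⊕ Fin n) (Fin n ⊕ Fin n) F) ^ orderOf g = 1 by
      rw [← SubmonoidClass.coe_pow, pow_orderOf_eq_one]; rfl) hg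
  obtain ⟨t, ht, ht0⟩ := Cfsg.Agent.H66.exists_squarefree_aeval_toLin' p
    (show (h : Matrix (Fin n ⊕ Fin n) (Fin n ⊕ Fin n) F) ^ orderOf h = 1 by
      rw [← SubmonoidClass.coe_pow, pow_orderOf_eq_one]; rfl) hh
  obtain ⟨L, hL⟩ := Cfsg.Agent.H66.exists_equiv_of_charpoly_eq hs ht hs0 ht0
    (by simpa [Matrix.charpoly_toLin'] using hc)
  exact Cfsg.Agent.H66.isConj_of_equiv L fun v => hL v

end Cfsg.Agent.S2389
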