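import Cfsg.Statements.S2391
import Cfsg.Agent.H70.BorelTitsSL
-- import your own Cfsg.Agent.* helpers here

set_option autoImplicit false
open Cfsg

namespace Cfsg.Agent.S2391

/-- The Borel–Tits property of `SL_n(q)` in flag form: for a field `F` of characteristic `p` with finitely many elements and a non-trivial `p`-subgroup `U` of `SL_n(F)`, there is a flag `0 = V₀ < V₁ < ⋯ < V_{k+1} = F^n` with at least one proper non-zero member such that every element of the normaliser of `U` maps each `V_i` onto itself and every element of `U` acts trivially on each quotient `V_{i+1}/V_i` (so the normaliser lies in the parabolic subgroup of the flag and `U` in its unipotent radical). -/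
theorem result {F : Type*} [Field F] [Fintype F] (p : ℕ) [Fact p.Prime] [CharP F p] (n : ℕ)
    (U : Subgroup (Matrix.SpecialLinearGroup (Fin n) F)) (hU : IsPGroup p ↥U) (hne : U ≠ ⊥) :
    ∃ (k : ℕ) (V : Fin (k + 2) → Submodule F (Fin n → F)), 1 ≤ k ∧ StrictMono V ∧ V 0 = ⊥ ∧ V (Fin.last (k + 1)) = ⊤ ∧
      (∀ g ∈ Subgroup.normalizer (U : Set (Matrix.SpecialLinearGroup (Fin n) F)), ∀ i, (V i).map (Matrix.mulVecLin (g : Matrix (Fin n) (Fin n) F)) = V i) ∧
      (∀ u ∈ U, ∀ i : Fin (k + 1), ∀ v ∈ V i.succ, (u : Matrix (Fin n) (Fin n) F).mulVec v - v ∈ V (Fin.castSucc i)) := by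
  exact Cfsg.Agent.H70.borel_tits_sl p U hU hne

end Cfsg.Agent.S2391
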