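import Cfsg.Statements.S2394
import Cfsg.Agent.H70.SpNaturalBound
-- import your own Cfsg.Agent.* helpers here

set_option autoImplicit false
open scoped MatrixGroups
open Cfsg

namespace Cfsg.Agent.S2394

/-- The smallest degree of a faithful representation of the symplectic group `Sp_{2n}(q)` over its own field `F_q` is `2n`: every injective homomorphism from `Sp_{2n}(F)` to `GL_d(F)`, `F` the field with `q` elements, has `d ≥ 2n`. -/
theorem result {F : Type*} [Field F] [Fintype F] (n : ℕ) {d : ℕ}
    (ρ : ↥(Matrix.symplecticGroup (Fin n) F) →* GL (Fin d) F) (hρ : Function.Injective ρ) : 2 * n ≤ d := by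
  exact Cfsg.Agent.H70.sp_natural_bound ρ hρ

end Cfsg.Agent.S2394
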