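import Cfsg.Statements.S2399
import Cfsg.Agent.H70.Steinberg.PLifts
-- import your own Cfsg.Agent.* helpers here

set_option autoImplicit false
open scoped MatrixGroups
open Cfsg

namespace Cfsg.Agent.S2399

/-- Projective representations in the natural characteristic lift: for each of the types G₂, B₂, D₄, F₄, E₆, E₇, E₈ over any field `K` (for types B₂ and G₂ the field must have more than two elements — the cases where the Chevalley group is not simple are set aside), every homomorphism from the Chevalley group to `PGL_n(L) = GL_n(L)/Z`, `L` a field of the same characteristic as `K`, lifts uniquely to a homomorphism from the group Δ presented by (R1), (R2) to `GL_n(L)`, compatibly with the projection Δ → Chevalley group sending x̄_r(t) to x_r(t). -/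
theorem result {K : Type*} [Field K] (D : Cfsg.Lie.ChevalleyDatum) (hD : D ∈ [Cfsg.Lie.chevG2, Cfsg.Lie.chevB2, Cfsg.Lie.chevD4, Cfsg.Lie.chevF4, Cfsg.Lie.chevE6, Cfsg.Lie.chevE7, Cfsg.Lie.chevE8]) (hK : D ∈ [Cfsg.Lie.chevB2, Cfsg.Lie.chevG2] → ∃ x : K, x ≠ 0 ∧ x ≠ 1)
    (θ : D.SteinbergCover K →* ↥(D.group K))
    (hθ : ∀ (r : ℕ) (t : K), r < D.nroots → ((θ (D.scGen K r t) : GL D.Idx K) : Matrix D.Idx D.Idx K) = D.x K r t)
    {L : Type*} [Field L] (hL : ringChar L = ringChar K) {n : ℕ}
    (φ : ↥(D.group K) →* GL (Fin n) L ⧸ Subgroup.center (GL (Fin n) L)) :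
    ∃! ψ : D.SteinbergCover K →* GL (Fin n) L, (QuotientGroup.mk' (Subgroup.center (GL (Fin n) L))).comp ψ = φ.comp θ := by
  exact Cfsg.Agent.H70.Steinberg.existsUnique_projLift hD hK hL (φ.comp θ)

end Cfsg.Agent.S2399
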