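import Cfsg.Statements.S2400
import Cfsg.Agent.H82.Chev.Cover
import Cfsg.Agent.H82.Chev.B2
import Cfsg.Agent.H82.Chev.DataE6
import Cfsg.Agent.H82.Chev.DataE7
import Cfsg.Agent.H46.TypeE6
import Cfsg.Agent.H46.TypeE7

set_option autoImplicit false
open Cfsg

namespace Cfsg.Agent.S2400

/-- Over a finite field `K`, the group presented by Steinberg's relators (R1)–(R3) (the universal Chevalley group) of type E₆ or E₇, or of type B₂ or D₄ with `K` of more than two elements, has trivial Schur multiplier: every finite stem extension of it is an isomorphism (Schur multiplier described through stem extensions as in the definitions). Types G₂, F₄ and E₈ are not covered here. -/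
theorem result {K : Type*} [Field K] [Fintype K] (e : Cfsg.Lie.ChevalleyDatum × ℕ)
    (he : e ∈ [(Cfsg.Lie.chevE6, 0), (Cfsg.Lie.chevE7, 0), (Cfsg.Lie.chevB2, 2), (Cfsg.Lie.chevD4, 2)]) (hK : Fintype.card K ≠ e.2) :
    Cfsg.HasCyclicSchurMultiplier (e.1.SteinbergGroup K) 1 := by
  classical
  have hcard : 1 < Fintype.card K := Fintype.one_lt_card
  simp only [List.mem_cons, List.not_mem_nil, or_false] at he
  rcases he with rfl | rfl | rfl | rfl
  · exact Cfsg.Agent.H82.Chev.hasCyclicSchurMultiplier_steinberg_of_mem Cfsg.Agent.H46.goodE6 (by simp)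
      (fun h => by
        rcases List.mem_cons.1 h with h | h
        · exact absurd (congrArg Cfsg.Lie.ChevalleyDatum.nroots h) (by decide +kernel)
        · exact absurd (congrArg Cfsg.Lie.ChevalleyDatum.nroots (List.mem_singleton.1 h)) (by decide +kernel))
      (Cfsg.Agent.H82.Chev.hasLifts Cfsg.Agent.H82.Chev.chkSimplyE6)
  · exact Cfsg.Agent.H82.Chev.hasCyclicSchurMultiplier_steinberg_of_mem Cfsg.Agent.H46.goodE7 (by simp)
      (fun h => by
        rcases List.mem_cons.1 h with h | h
        · exact absurd (congrArg Cfsg.Lie.ChevalleyDatum.nroots h) (by decide +kernel)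
        · exact absurd (congrArg Cfsg.Lie.ChevalleyDatum.nroots (List.mem_singleton.1 h)) (by decide +kernel))
      (Cfsg.Agent.H82.Chev.hasLifts Cfsg.Agent.H82.Chev.chkSimplyE7)
  · exact Cfsg.Agent.H82.Chev.hasCyclicSchurMultiplier_steinberg_of_mem Cfsg.Agent.H46.goodB2 (by simp)
      (fun _ => by change Fintype.card K ≠ 2 at hK; omega) (Cfsg.Agent.H82.Chev.hasLifts_B2 hK)
  · exact Cfsg.Agent.H82.Chev.hasCyclicSchurMultiplier_steinberg_of_mem Cfsg.Agent.H46.goodD4 (by simp)
      (fun _ => by change Fintype.card K ≠ 2 at hK; omega) (Cfsg.Agent.H82.Chev.hasLifts_D4 hK)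

end Cfsg.Agent.S2400
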