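import Cfsg.Statements.S2405
import Cfsg.Agent.H75.ChevTwoGen.Certs
import Cfsg.Agent.H75.ChevTwoGen.G2
-- import your own Cfsg.Agent.* helpers here

set_option autoImplicit false
open Cfsg

namespace Cfsg.Agent.S2405

/-- Each Chevalley group of type G₂, B₂, D₄, F₄, E₆, E₇ or E₈ over a finite field is generated by two of its elements (types B₂ and G₂ over the field with two elements, where the group is not simple, excepted). -/
theorem result {F : Type*} [Field F] [Finite F] (D : Cfsg.Lie.ChevalleyDatum) (hD : D ∈ [Cfsg.Lie.chevG2, Cfsg.Lie.chevB2, Cfsg.Lie.chevD4, Cfsg.Lie.chevF4, Cfsg.Lie.chevE6, Cfsg.Lie.chevE7, Cfsg.Lie.chevE8])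
    (hF : D ∈ [Cfsg.Lie.chevB2, Cfsg.Lie.chevG2] → ∃ x : F, x ≠ 0 ∧ x ≠ 1) :
    ∃ a b : ↥(D.group F), Subgroup.closure ({a, b} : Set ↥(D.group F)) = ⊤ := by
  obtain ⟨G⟩ := Cfsg.Agent.H46.good_of_mem hD
  have hdesc := Cfsg.Agent.H64.Chev.chkDescend_of_mem hD
  refine H75.ChevTwoGen.two_generated_of_le ?_
  by_cases hq : ∃ x : F, x ≠ 0 ∧ x ≠ 1
  · simp only [List.mem_cons, List.not_mem_nil, or_false] at hD
    rcases hD with rfl | rfl | rfl | rfl | rfl | rfl | rfl
    · exact H75.ChevTwoGen.exists_pair_G2 H75.ChevTwoGen.certG2 G hdesc hq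
    · exact H75.ChevTwoGen.exists_pair_of_cert G hdesc hq H75.ChevTwoGen.certB2
    · exact H75.ChevTwoGen.exists_pair_of_cert G hdesc hq H75.ChevTwoGen.certD4
    · exact H75.ChevTwoGen.exists_pair_of_cert G hdesc hq H75.ChevTwoGen.certF4
    · exact H75.ChevTwoGen.exists_pair_of_cert G hdesc hq H75.ChevTwoGen.certE6
    · exact H75.ChevTwoGen.exists_pair_of_cert G hdesc hq H75.ChevTwoGen.certE7
    · exact H75.ChevTwoGen.exists_pair_of_cert G hdesc hq H75.ChevTwoGen.certE8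
  · have h2 : ∀ x : F, x = 0 ∨ x = 1 := fun x => by
      by_contra h
      exact hq ⟨x, fun e => h (Or.inl e), fun e => h (Or.inr e)⟩
    simp only [List.mem_cons, List.not_mem_nil, or_false] at hD
    rcases hD with rfl | rfl | rfl | rfl | rfl | rfl | rfl
    · exact absurd (hF (by simp)) hq
    · exact absurd (hF (by simp)) hq
    · exact H75.ChevTwoGen.exists_pair_of_cert₂ G hdesc h2 H75.ChevTwoGen.cert2D4
    · exact H75.ChevTwoGen.exists_pair_of_cert₂ G hdesc h2 H75.ChevTwoGen.cert2F4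
    · exact H75.ChevTwoGen.exists_pair_of_cert₁ G hdesc h2 H75.ChevTwoGen.cert2E6
    · exact H75.ChevTwoGen.exists_pair_of_cert₁ G hdesc h2 H75.ChevTwoGen.cert2E7
    · exact H75.ChevTwoGen.exists_pair_of_cert₁ G hdesc h2 H75.ChevTwoGen.cert2E8

end Cfsg.Agent.S2405
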