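import Cfsg.Statements.S2406
import Cfsg.Agent.H75.TwistGen.E6

set_option autoImplicit false
open Cfsg

namespace Cfsg.Agent.S2406

/-- The twisted group ²E₆(q) (realised inside E₆ over the field with `q²` elements) is generated by two of its elements. -/
theorem result {K : Type*} [Field K] [Fintype K] {q : ℕ} (hq : IsPrimePow q) (hK : Fintype.card K = q ^ 2) :
    ∃ a b : ↥(Cfsg.Lie.twistedE6 K q), Subgroup.closure ({a, b} : Set ↥(Cfsg.Lie.twistedE6 K q)) = ⊤ := by
  obtain ⟨f, hf⟩ := H46.exists_qFrob hq (by omega) hK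
  exact H75.ChevTwoGen.two_generated_of_le (H75.TwistGen.exists_pair_E6 hq f hf hK)

end Cfsg.Agent.S2406
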