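import Cfsg.Statements.S2412
import Cfsg.Agent.H98.TwoGen.Main

set_option autoImplicit false
open Cfsg

namespace Cfsg.Agent.S2412

open Cfsg.Agent.H98.TG in
/-- The projective special unitary group `PSU_n(q)` with `n ≥ 3`, realised over the field with `q²` elements, `(n, q) ≠ (3, 2)`, is generated by two of its elements. -/
theorem result {F : Type*} [Field F] [Fintype F] {q : ℕ} (hq : IsPrimePow q) (hF : Fintype.card F = q ^ 2) (n : ℕ) (hn : 3 ≤ n) (h32 : n = 3 → q ≠ 2) :
    ∃ a b : Cfsg.PSU n F q, Subgroup.closure ({a, b} : Set (Cfsg.PSU n F q)) = ⊤ := by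
  obtain ⟨A, hA, B, hB, hle⟩ := exists_pair hF hn h32
  let φ : SU n F q →* GL (Fin n) F := Matrix.SpecialLinearGroup.toGL.comp (SU n F q).subtype
  have hlift : ∀ g ∈ SUn n F q, ∃ x : SU n F q, φ x = g := by
    rintro g ⟨hg, hdet⟩
    have hd : (g : Matrix (Fin n) (Fin n) F).det = 1 := congrArg Units.val (MonoidHom.mem_ker.mp hdet)
    exact ⟨⟨⟨(g : Matrix (Fin n) (Fin n) F), hd⟩, hg⟩, Units.ext rfl⟩
  have hinj : Function.Injective φ := fun x y h =>
    Subtype.ext (Subtype.ext (congrArg Units.val h))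
  obtain ⟨a, rfl⟩ := hlift A hA
  obtain ⟨b, rfl⟩ := hlift B hB
  have htop : Subgroup.closure ({a, b} : Set (SU n F q)) = ⊤ := by
    refine (Subgroup.eq_top_iff' _).mpr fun x => ?_
    have hx : φ x ∈ SUn n F q :=
      ⟨x.2, MonoidHom.mem_ker.mpr (Units.ext x.1.2)⟩
    have h := hle hx
    rw [← Set.image_pair, ← MonoidHom.map_closure] at h
    obtain ⟨y, hy, hxy⟩ := h
    exact hinj hxy ▸ hy
  refine ⟨QuotientGroup.mk' _ a, QuotientGroup.mk' _ b, ?_⟩
  rw [← Set.image_pair, ← MonoidHom.map_closure, htop, Subgroup.map_top_of_surjective _ (QuotientGroup.mk'_surjective _)]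

end Cfsg.Agent.S2412
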