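import Cfsg.Statements.S2413
import Cfsg.Agent.H38.OrthTwoGen.Cases
import Cfsg.Agent.S0301
import Cfsg.Agent.S2411

set_option autoImplicit false
open Cfsg

namespace Cfsg.Agent.S2413

/-- The simple orthogonal group `PΩ_{2m+1}(q)` (commutator subgroup of the orthogonal group of `x₀² + Σ x_i y_i` modulo its centre) with `m ≥ 2` and `q` odd is generated by two of its elements. -/
theorem result {F : Type*} [Field F] [Fintype F] (hodd : Odd (Fintype.card F)) (m : ℕ) (hm : 2 ≤ m) :
    ∃ a b : Cfsg.POmega F (Cfsg.quadFormOdd m F), Subgroup.closure ({a, b} : Set (Cfsg.POmega F (Cfsg.quadFormOdd m F))) = ⊤ := by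
  have h2 : (2 : F) ≠ 0 := fun h => by
    have := CharTwo.of_one_ne_zero_of_two_eq_zero (R := F) one_ne_zero h
    exact (Nat.not_even_iff_odd.2 hodd) (Nat.even_iff.2 (FiniteField.even_card_of_char_two (ringChar.eq F 2)))
  rcases eq_or_lt_of_le hm with h | h
  · subst h
    obtain ⟨φ⟩ := Cfsg.Agent.S0301.result (F := F) hodd
    refine H38.OrthTwoGen.pair_of_equiv φ (Cfsg.Agent.S2411.result 2 le_rfl fun _ => ?_)
    rcases hodd with ⟨j, hj⟩
    have := Fintype.one_lt_card (α := F)
    omega
  · exact H38.OrthTwoGen.odd_pair m h h2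

end Cfsg.Agent.S2413
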