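import Cfsg.Statements.S2414
import Cfsg.Agent.H38.OrthTwoGen.Cases
import Cfsg.Agent.S1082
import Cfsg.Agent.S2405

set_option autoImplicit false
open Cfsg

namespace Cfsg.Agent.S2414

/-- The simple orthogonal group `PΩ⁺_{2m}(q)` (commutator subgroup of the orthogonal group of `Σ x_i y_i` modulo its centre) with `m ≥ 4` is generated by two of its elements. -/
theorem result {F : Type*} [Field F] [Fintype F] (m : ℕ) (hm : 4 ≤ m) :
    ∃ a b : Cfsg.POmega F (Cfsg.quadFormPlus m F), Subgroup.closure ({a, b} : Set (Cfsg.POmega F (Cfsg.quadFormPlus m F))) = ⊤ := by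
  rcases eq_or_lt_of_le hm with h | h
  · subst h
    obtain ⟨φ⟩ := Cfsg.Agent.S1082.result (F := F)
    exact H38.OrthTwoGen.pair_of_equiv φ.symm
      (Cfsg.Agent.S2405.result Cfsg.Lie.chevD4 (by simp) (fun hc => absurd (List.mem_map_of_mem (f := fun D : Cfsg.Lie.ChevalleyDatum => D.nroots) hc) (by decide +kernel)))
  · exact H38.OrthTwoGen.plus_pair m h

end Cfsg.Agent.S2414
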