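import Cfsg.Statements.S2416
import Cfsg.Agent.H69.RootOrbits

set_option autoImplicit false
open scoped MatrixGroups
open Cfsg

namespace Cfsg.Agent.S2416

/-- A Chevalley group of type G₂, B₂, D₄, F₄, E₆, E₇ or E₈ over a finite field lies in (indeed equals) the subgroup generated by its monomial subgroup `N` and a single fundamental root subgroup `X_p`, where `p` is a short fundamental root if there are two root lengths (any fundamental root otherwise), provided the characteristic is not 2 for types B₂, F₄ and not 3 for type G₂ (and the field has more than two elements for B₂, G₂). -/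
theorem result {K : Type*} [Field K] [Finite K] (D : Cfsg.Lie.ChevalleyDatum) (hD : D ∈ [Cfsg.Lie.chevG2, Cfsg.Lie.chevB2, Cfsg.Lie.chevD4, Cfsg.Lie.chevF4, Cfsg.Lie.chevE6, Cfsg.Lie.chevE7, Cfsg.Lie.chevE8])
    (hK : D ∈ [Cfsg.Lie.chevB2, Cfsg.Lie.chevG2] → ∃ x : K, x ≠ 0 ∧ x ≠ 1)
    (h2 : D ∈ [Cfsg.Lie.chevB2, Cfsg.Lie.chevF4] → ringChar K ≠ 2) (h3 : D = Cfsg.Lie.chevG2 → ringChar K ≠ 3)
    (i : ℕ) (hi : i < D.rank) (hshort : D.isLong (D.simple i) = false) :
    D.group K ≤ D.monomialSubgroup K ⊔ D.rootSubgroup K (D.simple i) := by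
  classical
  have hN : D.monomialSubgroup K ≤ D.monomialSubgroup K ⊔ D.rootSubgroup K (D.simple i) := le_sup_left
  have hX : D.rootSubgroup K (D.simple i) ≤
      D.monomialSubgroup K ⊔ D.rootSubgroup K (D.simple i) := le_sup_right
  have hne2 : ringChar K ≠ 2 → ((2 : ℤ) : K) ≠ 0 := fun h => by
    push_cast
    exact Ring.two_ne_zero h
  have hne3 : ringChar K ≠ 3 → ((3 : ℤ) : K) ≠ 0 := fun h e => by
    push_cast at e
    have e' : ((3 : ℕ) : K) = 0 := by exact_mod_cast e
    have hd : ringChar K ∣ 3 := ringChar.dvd e'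
    rcases (Nat.dvd_prime Nat.prime_three).1 hd with h1 | h1
    · exact CharP.char_ne_one K (ringChar K) h1
    · exact h h1
  simp only [List.mem_cons, List.not_mem_nil, or_false] at hD
  rcases hD with rfl | rfl | rfl | rfl | rfl | rfl | rfl
  · exact Cfsg.Agent.H69.RootOrbits.group_le_of_short Cfsg.Agent.H46.goodG2
      (by unfold Cfsg.Agent.H69.RootOrbits.OneRepPerLength; decide +kernel) hN
      (r := 2) (s := 3) (l := 0) (C := 3) (Cfsg.Agent.H46.goodG2.simple_lt hi) (by decide +kernel)
      (by decide +kernel) (by decide +kernel) hshort (by decide +kernel) (by decide +kernel)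
      (by decide +kernel) (by decide +kernel) (by decide +kernel) (by decide +kernel)
      (hne3 (h3 rfl)) hX
  · exact Cfsg.Agent.H69.RootOrbits.group_le_of_short Cfsg.Agent.H46.goodB2
      (by unfold Cfsg.Agent.H69.RootOrbits.OneRepPerLength; decide +kernel) hN
      (r := 1) (s := 2) (l := 0) (C := 2) (Cfsg.Agent.H46.goodB2.simple_lt hi) (by decide +kernel)
      (by decide +kernel) (by decide +kernel) hshort (by decide +kernel) (by decide +kernel)
      (by decide +kernel) (by decide +kernel) (by decide +kernel) (by decide +kernel)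
      (hne2 (h2 (by simp))) hX
  · exact Cfsg.Agent.H69.RootOrbits.group_le_of_single_rep Cfsg.Agent.H46.goodD4 (a := 23) rfl hN
      (Cfsg.Agent.H46.goodD4.simple_lt hi) hX
  · exact Cfsg.Agent.H69.RootOrbits.group_le_of_short Cfsg.Agent.H46.goodF4
      (by unfold Cfsg.Agent.H69.RootOrbits.OneRepPerLength; decide +kernel) hN
      (r := 3) (s := 18) (l := 0) (C := 2) (Cfsg.Agent.H46.goodF4.simple_lt hi) (by decide +kernel)
      (by decide +kernel) (by decide +kernel) hshort (by decide +kernel) (by decide +kernel)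
      (by decide +kernel) (by decide +kernel) (by decide +kernel) (by decide +kernel)
      (hne2 (h2 (by simp))) hX
  · exact Cfsg.Agent.H69.RootOrbits.group_le_of_single_rep Cfsg.Agent.H46.goodE6 (a := 71) rfl hN
      (Cfsg.Agent.H46.goodE6.simple_lt hi) hX
  · exact Cfsg.Agent.H69.RootOrbits.group_le_of_single_rep Cfsg.Agent.H46.goodE7 (a := 125) rfl hN
      (Cfsg.Agent.H46.goodE7.simple_lt hi) hX
  · exact Cfsg.Agent.H69.RootOrbits.group_le_of_single_rep Cfsg.Agent.H46.goodE8 (a := 239) rfl hN
      (Cfsg.Agent.H46.goodE8.simple_lt hi) hX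

end Cfsg.Agent.S2416
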