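import Cfsg.Statements.S2420
import Cfsg.Agent.H70.ParabolicIndex
-- import your own Cfsg.Agent.* helpers here

set_option autoImplicit false
open scoped MatrixGroups
open Cfsg

namespace Cfsg.Agent.S2420

/-- The number of partial flags of a given type: for a composition `μ` of `n` (with `n` parts, zeros allowed) and a field with `q` elements, the index of the standard parabolic subgroup `P_μ` in `GL_n(q)` times `∏_i {μ_i}` equals `{n}`, where `{r}` denotes the product over `k = 1, …, r` of the q-integers `1 + q + ⋯ + q^(k−1)`. -/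
theorem result {F : Type*} [Field F] [Fintype F] {q : ℕ} (hq : Fintype.card F = q) {n : ℕ} (μ : Fin n → ℕ) (hμ : ∑ i, μ i = n) :
    Nat.card (GL (Fin n) F ⧸ Cfsg.parabolicGL n F μ) * ∏ i : Fin n, ∏ j ∈ Finset.range (μ i), ∑ l ∈ Finset.range (j + 1), q ^ l =
      ∏ j ∈ Finset.range n, ∑ l ∈ Finset.range (j + 1), q ^ l := by
  subst hq
  exact Cfsg.Agent.H70.parabolic_index μ hμ

end Cfsg.Agent.S2420
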