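import Cfsg.Statements.S2425
import Cfsg.Agent.H66.SemisimpleGL
import Cfsg.Agent.H42.StValues.Mobius
import Cfsg.Agent.H42.StValues.Perms
import Cfsg.Agent.H42.StValues.Flags
import Cfsg.Agent.H70.UnipotentDegree

set_option autoImplicit false
set_option maxHeartbeats 1000000
open scoped MatrixGroups
open Cfsg
open Cfsg.Agent.H42.StValues Polynomial UniqueFactorizationMonoid

namespace Cfsg.Agent.S2425

/-- Values of the Steinberg character of `GL_n(q)` (the partition-indexed character for `ν = (1,…,1)`, of degree `q^(n(n−1)/2)`) at elements of order prime to the characteristic: if the characteristic polynomial of such an element is `∏ f^(m_f)` over distinct monic irreducible `f`, the value is `∏_f (−1)^((deg f − 1) m_f) q^(deg f · m_f (m_f − 1)/2)`. (At elements of order divisible by the characteristic the value is 0; that is not part of this statement.) -/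
theorem result {F : Type*} [Field F] [Fintype F] [DecidableEq F] {q : ℕ} (hq : Fintype.card F = q) (p : ℕ) [Fact p.Prime] [CharP F p]
    {n : ℕ} (x : GL (Fin n) F) (hx : (orderOf x).Coprime p) :
    Cfsg.unipotentCharacterGL n F (fun _ => 1) x =
      ∏ f ∈ (UniqueFactorizationMonoid.normalizedFactors (x : Matrix (Fin n) (Fin n) F).charpoly).toFinset,
        (-1 : ℂ) ^ ((f.natDegree - 1) * (UniqueFactorizationMonoid.normalizedFactors (x : Matrix (Fin n) (Fin n) F).charpoly).count f) *
          (q : ℂ) ^ (f.natDegree * (UniqueFactorizationMonoid.normalizedFactors (x : Matrix (Fin n) (Fin n) F).charpoly).count f *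
            ((UniqueFactorizationMonoid.normalizedFactors (x : Matrix (Fin n) (Fin n) F).charpoly).count f - 1) / 2) := by
  classical
  subst hq
  set N := normalizedFactors (x : Matrix (Fin n) (Fin n) F).charpoly with hN
  set T : Module.End F (Fin n → F) := endo x with hT
  have hTc : T.charpoly = (x : Matrix (Fin n) (Fin n) F).charpoly := Matrix.charpoly_toLin' _
  have hc0 : (x : Matrix (Fin n) (Fin n) F).charpoly.Monic := Matrix.charpoly_monic _
  have hNS : ∀ g ∈ N.toFinset, g.Monic ∧ Irreducible g := fun g hg => by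
    rw [Multiset.mem_toFinset] at hg
    have hi := irreducible_of_normalized_factor g hg
    have hn := normalize_normalized_factor g hg
    exact ⟨hn ▸ Polynomial.monic_normalize hi.ne_zero, hi⟩
  obtain ⟨s, hs, hs0⟩ := Cfsg.Agent.H66.exists_squarefree_aeval_toLin' p
    (show (x : Matrix (Fin n) (Fin n) F) ^ orderOf x = 1 by
      rw [← Units.val_pow_eq_pow_val, pow_orderOf_eq_one]; rfl) hx
  haveI : IsSemisimpleModule F[X] (PolyModule x) :=
    Module.End.isSemisimple_of_squarefree_aeval_eq_zero hs hs0
  haveI : Finite (PolyModule x) := Finite.of_equiv _ (Module.AEval'.of (endo x)).toEquiv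
  letI : Fintype (Submodule F[X] (PolyModule x)) := Fintype.ofFinite _
  haveI : Module.Finite F (PolyModule x) := Module.AEval.instFiniteOrig (endo x)
  have hsmul : ∀ (φ : F[X]) (w : PolyModule x), φ • w = 0 ↔ aeval (endo x) φ ((Module.AEval'.of (endo x)).symm w) = 0 := by
    intro φ w
    rw [← (Module.AEval'.of (endo x)).symm.map_eq_zero_iff]
    rfl
  have hkill : ∀ w : PolyModule x, N.prod • w = 0 := by
    intro w
    rw [hsmul, hN, prod_normalizedFactors_eq hc0.ne_zero, hc0.normalize_eq_self, ← hTc,
      LinearMap.aeval_self_charpoly]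
    rfl
  have hcount : ∀ f ∈ N.toFinset, mult f (⊤ : Submodule F[X] (PolyModule x)) = N.count f := by
    intro f hf
    obtain ⟨hfm, hfi⟩ := hNS f hf
    have hk : toSub ((⊤ : Submodule F[X] (PolyModule x)) ⊓ kerBy f) = LinearMap.ker (aeval (endo x) f) := by
      ext v
      rw [mem_toSub, top_inf_eq, mem_kerBy, hsmul, LinearMap.mem_ker, LinearEquiv.symm_apply_apply]
    obtain ⟨I, _, P, e, hdec⟩ := Cfsg.Agent.H66.exists_isDecomp (endo x)
    have he : ∀ i, e i = 1 := hdec.exp_eq_one hs hs0
    have h1 : Module.finrank F (LinearMap.ker (aeval (endo x) f)) =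
        f.natDegree * (Finset.univ.filter fun i => P i = f).card := by
      have := hdec.finrank_ker_pow hfm hfi 1
      rw [pow_one] at this
      rw [this, Finset.card_eq_sum_ones]
      exact congrArg _ (Finset.sum_congr rfl fun i _ => by rw [he]; rfl)
    have h2 : N.count f = (Finset.univ.filter fun i => P i = f).card := by
      have : (x : Matrix (Fin n) (Fin n) F).charpoly = ∏ i, P i := by
        rw [← hTc, hdec.charpoly_eq]
        exact Finset.prod_congr rfl fun i _ => by rw [he, pow_one]
      rw [hN, this, Finset.prod_eq_multiset_prod, normalizedFactors_prod_eq]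
      · rw [Multiset.map_map, Multiset.count_map, Finset.card_def, Finset.filter_val]
        congr 1
        refine Multiset.filter_congr fun i _ => ?_
        simp [(hdec.monic i).normalize_eq_self, eq_comm]
      · intro a ha
        obtain ⟨i, -, rfl⟩ := Multiset.mem_map.1 ha
        exact hdec.irreducible i
    rw [mult, ← finrank_toSub, hk, h1, Nat.mul_div_cancel_left _ hfi.natDegree_pos, h2]
  rcases n with _ | m
  · have hN0 : N = 0 := by rw [hN, show (x : Matrix (Fin 0) (Fin 0) F).charpoly = 1 from Matrix.det_isEmpty]; simp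
    rw [hN0, Multiset.toFinset_zero, Finset.prod_empty, Cfsg.unipotentCharacterGL, Fintype.sum_subsingleton _ 1]
    haveI : Subsingleton (GL (Fin 0) F) := ⟨fun a b => Units.ext (Subsingleton.elim _ _)⟩
    haveI : Subsingleton (GL (Fin 0) F ⧸ Cfsg.parabolicGL 0 F fun i => 1 + i.val - ((1 : Equiv.Perm (Fin 0)) i).val) :=
      Quotient.instSubsingletonQuotient _
    rw [if_pos (fun i => i.elim0), Cfsg.fixedPointCharacter, Subsingleton.elim x 1,
      MulAction.fixedBy_one_eq_univ, Nat.card_univ, Nat.card_unique]
    simp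
  let Ψ : Finset ℕ → ℂ := fun E =>
    (((chains (⊤ : Submodule F[X] (PolyModule x))).filter fun C => C.image (fdim (F := F)) = E.erase (m + 1)).card : ℂ)
  have hterm : ∀ κ : Equiv.Perm (Fin (m + 1)), Hess κ →
      Cfsg.fixedPointCharacter (Cfsg.parabolicGL (m + 1) F fun i => 1 + i.val - (κ i).val) x = Ψ (breaks κ) := by
    intro κ hκ
    have hsum : ∑ i, parts κ i = m + 1 :=
      Cfsg.Agent.H70.sum_shifted_sub (ν := fun _ => 1) (by simp) κ hκ
    have hlast : m + 1 ∈ breaks κ := by
      refine Finset.mem_erase.2 ⟨Nat.succ_ne_zero m, Finset.mem_image.2 ⟨Fin.last m, Finset.mem_univ _, ?_⟩⟩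
      rw [Cfsg.Agent.H70.prefixSum, Finset.filter_true_of_mem fun k _ => Fin.le_last k, hsum]
    rw [Cfsg.fixedPointCharacter, card_fixed_eq_chains (μ := fun i => 1 + i.val - (κ i).val) hsum x
      ((breaks κ).erase (m + 1)) (Nat.succ_ne_zero m)
      (by rw [Finset.insert_erase hlast]; rfl) (Finset.notMem_erase _ _)]
  have hdimlt : ∀ q : Submodule F[X] (PolyModule x), ⊥ < q → q < ⊤ → fdim (F := F) q ∈ Finset.Ioo 0 (m + 1) := by
    intro q h1 h2
    rw [← finrank_toSub, Finset.mem_Ioo]
    refine ⟨Nat.pos_of_ne_zero fun h0 => h1.ne' ?_, ?_⟩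
    · refine toSub_injective ((Submodule.finrank_eq_zero.1 h0).trans ?_)
      ext v; simp [mem_toSub]
    · have h3 : toSub q < ⊤ := by
        refine lt_top_iff_ne_top.2 fun h => h2.ne (toSub_injective (h.trans ?_))
        ext v; simp [mem_toSub]
      have := Submodule.finrank_lt h3.ne
      rwa [Module.finrank_fin_fun] at this
  have hS : Cfsg.unipotentCharacterGL (m + 1) F (fun _ => 1) x =
      (-1) ^ m * ((chainSum (⊤ : Submodule F[X] (PolyModule x)) : ℤ) : ℂ) := by
    rw [Cfsg.unipotentCharacterGL]
    rw [Finset.sum_congr rfl fun κ _ => show _ = (if Hess κ then ((Equiv.Perm.sign κ : ℤ) : ℂ) * Ψ (breaks κ) else 0) by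
      by_cases h : Hess κ
      · rw [if_pos h, if_pos (show ∀ i : Fin (m + 1), (κ i).val ≤ 1 + i.val from h), hterm κ h]
      · rw [if_neg h, if_neg (show ¬ ∀ i : Fin (m + 1), (κ i).val ≤ 1 + i.val from h)]]
    rw [signed_sum_eq]
    have hfib : chainSum (⊤ : Submodule F[X] (PolyModule x)) = ∑ D ∈ (Finset.Ioo 0 (m + 1)).powerset,
        ∑ C ∈ (chains (⊤ : Submodule F[X] (PolyModule x))).filter (fun C => C.image (fdim (F := F)) = D),
          (-1 : ℤ) ^ C.card := by
      rw [chainSum, Finset.sum_fiberwise_of_maps_to]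
      intro C hC
      rw [Finset.mem_powerset]
      intro d hd
      obtain ⟨q, hq, rfl⟩ := Finset.mem_image.1 hd
      obtain ⟨h1, h2⟩ := (mem_chains.1 hC).1 q hq
      exact hdimlt q h1 h2
    rw [hfib, Int.cast_sum, Finset.mul_sum]
    refine Finset.sum_congr rfl fun D hD => ?_
    have hnD : m + 1 ∉ D := fun h => by have := Finset.mem_Ioo.1 (Finset.mem_powerset.1 hD h); omega
    have hcard : ∀ C ∈ (chains (⊤ : Submodule F[X] (PolyModule x))).filter (fun C => C.image (fdim (F := F)) = D),
        (-1 : ℤ) ^ C.card = (-1) ^ D.card := by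
      intro C hC
      obtain ⟨hC', hCD⟩ := Finset.mem_filter.1 hC
      rw [← hCD, Finset.card_image_of_injOn]
      intro a ha b hb e
      rcases (mem_chains.1 hC').2.total ha hb with h | h
      · exact toSub_injective (Submodule.eq_of_le_of_finrank_eq (toSub_le_iff.2 h)
          (by rw [finrank_toSub, finrank_toSub]; exact e))
      · exact (toSub_injective (Submodule.eq_of_le_of_finrank_eq (toSub_le_iff.2 h)
          (by rw [finrank_toSub, finrank_toSub]; exact e.symm))).symm
    simp only [Ψ]
    rw [Finset.erase_insert hnD, Finset.sum_congr rfl hcard, Finset.sum_const, nsmul_eq_mul]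
    push_cast
    ring
  have htop : (⊤ : Submodule F[X] (PolyModule x)) ≠ ⊥ := by
    intro h
    have h' := congrArg toSub h
    have e1 : toSub (⊤ : Submodule F[X] (PolyModule x)) = ⊤ := by ext v; simp [mem_toSub]
    have e2 : toSub (⊥ : Submodule F[X] (PolyModule x)) = ⊥ := by ext v; simp [mem_toSub]
    rw [e1, e2] at h'
    exact top_ne_bot h'
  have hmu := chainSum_eq_neg (mu N.toFinset) (mu_bot _)
    (fun u hu _ => sum_mu_eq_zero N.toFinset hNS N (fun g hg => Multiset.mem_toFinset.2 hg) hkill u hu)
    (⊤ : Submodule F[X] (PolyModule x)) htop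
  rw [hS, hmu, mu, Finset.prod_congr rfl fun f hf => show muFactor (Fintype.card F) f.natDegree (mult f ⊤) = _ by
    rw [hcount f hf]]
  simp only [muFactor, Int.cast_neg, Int.cast_prod, Int.cast_mul, Int.cast_pow, Int.cast_one, Int.cast_natCast]
  have hdeg : m + 1 = ∑ f ∈ N.toFinset, f.natDegree * N.count f := by
    have h1 : (x : Matrix (Fin (m + 1)) (Fin (m + 1)) F).charpoly = N.prod := by
      rw [hN, prod_normalizedFactors_eq hc0.ne_zero, hc0.normalize_eq_self]
    have h2 := congrArg Polynomial.natDegree h1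
    rw [Matrix.charpoly_natDegree_eq_dim, Fintype.card_fin, natDegree_multiset_prod_of_monic _
      (fun g hg => (hNS g (Multiset.mem_toFinset.2 hg)).1)] at h2
    rw [h2, Finset.sum_multiset_map_count]
    exact Finset.sum_congr rfl fun f _ => by rw [smul_eq_mul, mul_comm]
  have hexp : ∀ f ∈ N.toFinset, f.natDegree * N.count f * (N.count f - 1) / 2 = f.natDegree * (N.count f).choose 2 := by
    intro f _
    rw [Nat.choose_two_right, ← Nat.mul_div_assoc _ (Nat.two_dvd_mul_sub_one (N.count f)), mul_assoc]
  rw [Finset.prod_congr rfl fun f hf => show (-1 : ℂ) ^ ((f.natDegree - 1) * N.count f) *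
      (Fintype.card F : ℂ) ^ (f.natDegree * N.count f * (N.count f - 1) / 2) =
      (-1 : ℂ) ^ (f.natDegree * N.count f) * ((-1) ^ N.count f * (Fintype.card F : ℂ) ^ (f.natDegree * (N.count f).choose 2)) by
    rw [hexp f hf, ← mul_assoc, ← pow_add]
    congr 1
    have hd := (hNS f hf).2.natDegree_pos
    obtain ⟨d, hd'⟩ : ∃ d, f.natDegree = d + 1 := ⟨f.natDegree - 1, by omega⟩
    rw [hd', Nat.add_sub_cancel, show (d + 1) * N.count f + N.count f = d * N.count f + 2 * N.count f by ring,
      pow_add, pow_mul (-1 : ℂ) 2]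
    simp]
  rw [Finset.prod_mul_distrib (f := fun f : F[X] => (-1 : ℂ) ^ (f.natDegree * N.count f)),
    Finset.prod_pow_eq_pow_sum, ← hdeg, pow_succ]
  ring

end Cfsg.Agent.S2425
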