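import Cfsg.Statements.S2426
import Cfsg.Agent.H70.SL2Pres
-- import your own Cfsg.Agent.* helpers here

set_option autoImplicit false
open Cfsg

namespace Cfsg.Agent.S2426

/-- The rank-one Steinberg presentation of `SL₂` over a finite field `K`: generators `x(t)`, `y(t)` (`t ∈ K`; the two opposite root subgroups) subject to additivity `x(t)x(u) = x(t+u)`, `y(t)y(u) = y(t+u)` and, with `w(t) = x(t) y(−t⁻¹) x(t)` and `w'(t) = y(t) x(−t⁻¹) y(t)` for `t ≠ 0`, the relations `w(t) x(u) w(t)⁻¹ = y(−t⁻² u)` and `w'(t) y(u) w'(t)⁻¹ = x(−t⁻² u)`, present `SL₂(K)`, with `x(t) ↦ (1 t; 0 1)` and `y(t) ↦ (1 0; t 1)`. -/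
theorem result {K : Type*} [Field K] [Finite K] :
    ∃ e : PresentedGroup
        ({g : FreeGroup (Bool × K) | ∃ (b : Bool) (t u : K), g = FreeGroup.of (b, t) * FreeGroup.of (b, u) * (FreeGroup.of (b, t + u))⁻¹} ∪
          {g | ∃ (b : Bool) (t u : K), t ≠ 0 ∧
            g = (FreeGroup.of (b, t) * FreeGroup.of (!b, -t⁻¹) * FreeGroup.of (b, t)) * FreeGroup.of (b, u) *
                  (FreeGroup.of (b, t) * FreeGroup.of (!b, -t⁻¹) * FreeGroup.of (b, t))⁻¹ * (FreeGroup.of (!b, -(t⁻¹ ^ 2 * u)))⁻¹})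
        ≃* Matrix.SpecialLinearGroup (Fin 2) K,
      (∀ t : K, ((e (PresentedGroup.of (true, t)) : Matrix (Fin 2) (Fin 2) K)) = !![1, t; 0, 1]) ∧
      (∀ t : K, ((e (PresentedGroup.of (false, t)) : Matrix (Fin 2) (Fin 2) K)) = !![1, 0; t, 1]) := by
  obtain ⟨e, h1, h2⟩ := Cfsg.Agent.H70.sl2_presentation K
  refine ⟨e, fun t => congrArg Subtype.val (h1 t), fun t => (congrArg Subtype.val (h2 t)).trans ?_⟩
  ext i j; fin_cases i <;> fin_cases j <;> simp [Cfsg.Agent.H92.sy]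

end Cfsg.Agent.S2426
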