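import Cfsg.Statements.S2428
import Cfsg.Agent.H69.SL2Normalizer

set_option autoImplicit false
open Cfsg

namespace Cfsg.Agent.S2428

open Cfsg.Agent.H69

/-- Let F be a finite field with q elements, q odd, and let d be a diagonal element of SL₂ over F whose diagonal entry a has a² ≠ 1 (such d exist exactly when q > 3). Then the centraliser of d is precisely the diagonal subgroup T; the normaliser of T has order 2(q − 1) and exactly (q + 5)/2 conjugacy classes; and every element of that normaliser outside T has square equal to −1. -/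
theorem result {F : Type*} [Field F] [Fintype F] (hodd : Odd (Fintype.card F))
    (d : Matrix.SpecialLinearGroup (Fin 2) F) (hd01 : (d : Matrix (Fin 2) (Fin 2) F) 0 1 = 0) (hd10 : (d : Matrix (Fin 2) (Fin 2) F) 1 0 = 0) (hda : (d : Matrix (Fin 2) (Fin 2) F) 0 0 ^ 2 ≠ 1) :
    (∀ g : Matrix.SpecialLinearGroup (Fin 2) F, g ∈ Subgroup.centralizer ({d} : Set (Matrix.SpecialLinearGroup (Fin 2) F)) ↔ ((g : Matrix (Fin 2) (Fin 2) F) 0 1 = 0 ∧ (g : Matrix (Fin 2) (Fin 2) F) 1 0 = 0)) ∧
    Nat.card (Subgroup.normalizer ((Subgroup.centralizer ({d} : Set (Matrix.SpecialLinearGroup (Fin 2) F))) : Set (Matrix.SpecialLinearGroup (Fin 2) F))) = 2 * (Fintype.card F - 1) ∧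
    Nat.card (ConjClasses (Subgroup.normalizer ((Subgroup.centralizer ({d} : Set (Matrix.SpecialLinearGroup (Fin 2) F))) : Set (Matrix.SpecialLinearGroup (Fin 2) F)))) = (Fintype.card F + 5) / 2 ∧
    ∀ g : Matrix.SpecialLinearGroup (Fin 2) F, g ∈ Subgroup.normalizer ((Subgroup.centralizer ({d} : Set (Matrix.SpecialLinearGroup (Fin 2) F))) : Set (Matrix.SpecialLinearGroup (Fin 2) F)) →
      g ∉ Subgroup.centralizer ({d} : Set (Matrix.SpecialLinearGroup (Fin 2) F)) → ((g * g) : Matrix (Fin 2) (Fin 2) F) = -1 := by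
  have two : (2 : F) ≠ 0 := fun h => by
    have := field_two_eq_zero_iff.1 h
    rw [Nat.odd_iff] at hodd
    omega
  have hd : (d : Matrix (Fin 2) (Fin 2) F) 0 0 * (d : Matrix (Fin 2) (Fin 2) F) 1 1 = 1 := by
    have := d.2
    rwa [Matrix.det_fin_two, hd01, zero_mul, sub_zero] at this
  have hne : (d : Matrix (Fin 2) (Fin 2) F) 0 0 ≠ (d : Matrix (Fin 2) (Fin 2) F) 1 1 := fun h =>
    hda (by rw [sq]; nth_rewrite 2 [h]; exact hd)
  have ht : (d : Matrix (Fin 2) (Fin 2) F).trace ^ 2 ≠ 4 := by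
    rw [Matrix.trace_fin_two]
    intro h
    have h0 : ((d : Matrix (Fin 2) (Fin 2) F) 0 0 - (d : Matrix (Fin 2) (Fin 2) F) 1 1) ^ 2 = 0 := by
      linear_combination h - 4 * hd
    exact hne (sub_eq_zero.1 ((pow_eq_zero_iff two_ne_zero).1 h0))
  have hmem : ∀ g : Matrix.SpecialLinearGroup (Fin 2) F,
      g ∈ Subgroup.centralizer ({d} : Set (Matrix.SpecialLinearGroup (Fin 2) F)) ↔
      ((g : Matrix (Fin 2) (Fin 2) F) 0 1 = 0 ∧ (g : Matrix (Fin 2) (Fin 2) F) 1 0 = 0) := by
    intro g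
    rw [Subgroup.mem_centralizer_singleton_iff]
    constructor
    · intro h
      have e01 := congrArg (fun z : Matrix.SpecialLinearGroup (Fin 2) F =>
        (z : Matrix (Fin 2) (Fin 2) F) 0 1) h
      have e10 := congrArg (fun z : Matrix.SpecialLinearGroup (Fin 2) F =>
        (z : Matrix (Fin 2) (Fin 2) F) 1 0) h
      simp [Cfsg.Agent.H6.sl2_mul, hd01, hd10] at e01 e10
      have hne' := sub_ne_zero.2 hne
      constructor
      · refine (mul_eq_zero.1 (show ((d : Matrix (Fin 2) (Fin 2) F) 0 0 -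
          (d : Matrix (Fin 2) (Fin 2) F) 1 1) * (g : Matrix (Fin 2) (Fin 2) F) 0 1 = 0 by
            linear_combination -e01)).resolve_left hne'
      · refine (mul_eq_zero.1 (show ((d : Matrix (Fin 2) (Fin 2) F) 0 0 -
          (d : Matrix (Fin 2) (Fin 2) F) 1 1) * (g : Matrix (Fin 2) (Fin 2) F) 1 0 = 0 by
            linear_combination e10)).resolve_left hne'
    · rintro ⟨h1, h2⟩
      apply Cfsg.Agent.H6.sl2_ext <;> simp [Cfsg.Agent.H6.sl2_mul, hd01, hd10, h1, h2, mul_comm]
  have hcard : Nat.card (Subgroup.centralizer ({d} : Set (Matrix.SpecialLinearGroup (Fin 2) F))) =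
      Fintype.card F - 1 := by
    have := card_centralizer_split (not_isScalar2_of_trace ht) ht
      (x := (d : Matrix (Fin 2) (Fin 2) F) 0 0) (by rw [Matrix.trace_fin_two]; linear_combination -hd)
    rwa [Nat.card_eq_fintype_card (α := F)] at this
  obtain ⟨h1, -, h3, h4⟩ := sl2_torus_normalizer ht
  refine ⟨hmem, ?_, ?_, ?_⟩
  · rw [h1, hcard]
  · have := h4 two
    rw [hcard] at this
    have := Fintype.one_lt_card (α := F)
    omega
  · intro g hg hgT
    have h := congrArg (fun z : Matrix.SpecialLinearGroup (Fin 2) F =>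
      (z : Matrix (Fin 2) (Fin 2) F)) (h3 two g hg hgT)
    simpa using h

end Cfsg.Agent.S2428
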