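import Cfsg.Statements.S2430
import Cfsg.Agent.H69.SL2Normalizer

set_option autoImplicit false
open Cfsg

namespace Cfsg.Agent.S2430

open Cfsg.Agent.H69

/-- Let F be a finite field with q elements, q odd, ℓ an odd prime, and P a Sylow ℓ-subgroup of SL₂ over F. If ℓ divides q − 1, the centraliser of P is cyclic of order q − 1 (a split torus) and the normaliser of P has order 2(q − 1); if ℓ divides q + 1, the centraliser of P is cyclic of order q + 1 (a non-split torus) and the normaliser of P has order 2(q + 1). -/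
theorem result {F : Type*} [Field F] [Fintype F] (hodd : Odd (Fintype.card F)) (ℓ : ℕ) [Fact ℓ.Prime] (hℓ : ℓ ≠ 2)
    (P : Sylow ℓ (Matrix.SpecialLinearGroup (Fin 2) F)) :
    (ℓ ∣ Fintype.card F - 1 →
      Nat.card (Subgroup.centralizer ((P : Subgroup (Matrix.SpecialLinearGroup (Fin 2) F)) : Set (Matrix.SpecialLinearGroup (Fin 2) F))) = Fintype.card F - 1 ∧
      IsCyclic (Subgroup.centralizer ((P : Subgroup (Matrix.SpecialLinearGroup (Fin 2) F)) : Set (Matrix.SpecialLinearGroup (Fin 2) F))) ∧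
      Nat.card (Subgroup.normalizer ((P : Subgroup (Matrix.SpecialLinearGroup (Fin 2) F)) : Set (Matrix.SpecialLinearGroup (Fin 2) F))) = 2 * (Fintype.card F - 1)) ∧
    (ℓ ∣ Fintype.card F + 1 →
      Nat.card (Subgroup.centralizer ((P : Subgroup (Matrix.SpecialLinearGroup (Fin 2) F)) : Set (Matrix.SpecialLinearGroup (Fin 2) F))) = Fintype.card F + 1 ∧
      IsCyclic (Subgroup.centralizer ((P : Subgroup (Matrix.SpecialLinearGroup (Fin 2) F)) : Set (Matrix.SpecialLinearGroup (Fin 2) F))) ∧
      Nat.card (Subgroup.normalizer ((P : Subgroup (Matrix.SpecialLinearGroup (Fin 2) F)) : Set (Matrix.SpecialLinearGroup (Fin 2) F))) = 2 * (Fintype.card F + 1)) := by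
  obtain ⟨p, hpc⟩ := CharP.exists F
  obtain ⟨n, hpp, hn⟩ := FiniteField.card F p
  haveI := Fact.mk hpp
  set q := Fintype.card F with hq
  have hq2 : q % 2 = 1 := Nat.odd_iff.1 hodd
  have hl1 : 1 < ℓ := (Fact.out : ℓ.Prime).one_lt
  have hl2 : ¬ ℓ ∣ 2 := fun h => hℓ ((Nat.prime_dvd_prime_iff_eq Fact.out Nat.prime_two).1 h)
  have hlp : ∀ k, ℓ ∣ q - 1 ∨ ℓ ∣ q + 1 → Nat.Coprime (ℓ ^ k) p := by
    intro k hd
    refine Nat.Coprime.pow_left _ (((Fact.out : ℓ.Prime).coprime_iff_not_dvd).2 fun h => ?_)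
    have hlq : ℓ ∣ q := h.trans (hn ▸ dvd_pow_self p n.ne_zero)
    rcases hd with hd | hd
    · have := Nat.dvd_sub hlq hd
      rw [Nat.sub_sub_self (by omega)] at this
      have := Nat.le_of_dvd one_pos this
      omega
    · have := Nat.le_of_dvd one_pos ((Nat.dvd_add_right hlq).1 hd)
      omega
  have main : ℓ ∣ q - 1 ∨ ℓ ∣ q + 1 → ∃ n, (n = q - 1 ∨ n = q + 1) ∧ ℓ ∣ n ∧
      Nat.card (Subgroup.centralizer ((P : Subgroup (Matrix.SpecialLinearGroup (Fin 2) F)) :
        Set (Matrix.SpecialLinearGroup (Fin 2) F))) = n ∧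
      IsCyclic (Subgroup.centralizer ((P : Subgroup (Matrix.SpecialLinearGroup (Fin 2) F)) :
        Set (Matrix.SpecialLinearGroup (Fin 2) F))) ∧
      Nat.card (Subgroup.normalizer ((P : Subgroup (Matrix.SpecialLinearGroup (Fin 2) F)) :
        Set (Matrix.SpecialLinearGroup (Fin 2) F))) = 2 * n := by
    intro hd
    have hdvd : ℓ ∣ Nat.card (Matrix.SpecialLinearGroup (Fin 2) F) := by
      rw [card_sl2']
      rcases hd with h | h
      · exact dvd_mul_of_dvd_left (dvd_mul_of_dvd_right h _) _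
      · exact dvd_mul_of_dvd_right h _
    haveI : Nontrivial (P : Subgroup (Matrix.SpecialLinearGroup (Fin 2) F)) :=
      (Subgroup.nontrivial_iff_ne_bot _).2 (P.ne_bot_of_dvd_card hdvd)
    haveI := P.isPGroup'.center_nontrivial
    obtain ⟨⟨y, hy⟩, hy1⟩ := exists_ne (1 : Subgroup.center
      (P : Subgroup (Matrix.SpecialLinearGroup (Fin 2) F)))
    obtain ⟨k, hk⟩ := IsPGroup.iff_orderOf.1 P.isPGroup' y
    have hk0 : k ≠ 0 := by
      rintro rfl
      rw [pow_zero, orderOf_eq_one_iff] at hk
      exact hy1 (Subtype.ext hk)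
    set z : Matrix.SpecialLinearGroup (Fin 2) F := (y : Matrix.SpecialLinearGroup (Fin 2) F) with hz
    have hzo : orderOf z = ℓ ^ k := by rw [hz, Subgroup.orderOf_coe, hk]
    have hzns : ¬ IsScalar2 (z : Matrix (Fin 2) (Fin 2) F) := by
      intro hs
      have h2 : z ^ 2 = 1 := by
        rcases (sl2_mem_center_iff_eq z).1 ((sl2_mem_center_iff z).2 hs) with e | e <;> rw [e] <;>
          simp
      exact hl2 ((dvd_pow_self ℓ hk0).trans (hzo ▸ orderOf_dvd_of_pow_eq_one h2))
    have ht : (z : Matrix (Fin 2) (Fin 2) F).trace ^ 2 ≠ 4 := by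
      have h := Cfsg.Agent.H6.ss_of_coprime_order p (g := z) (by rw [hzo]; exact hlp k hd)
        (fun hs => hzns hs)
      rw [Cfsg.Agent.H6.tr, ← Matrix.trace_fin_two] at h
      exact h
    set C := Subgroup.centralizer ({z} : Set (Matrix.SpecialLinearGroup (Fin 2) F)) with hC
    have hPC : (P : Subgroup (Matrix.SpecialLinearGroup (Fin 2) F)) ≤ C := by
      intro x hx
      rw [Subgroup.mem_centralizer_singleton_iff]
      exact congrArg Subtype.val (Subgroup.mem_center_iff.1 hy ⟨x, hx⟩)
    have hcent : Subgroup.centralizer ((P : Subgroup (Matrix.SpecialLinearGroup (Fin 2) F)) :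
        Set (Matrix.SpecialLinearGroup (Fin 2) F)) = C := by
      refine le_antisymm (fun x hx => Subgroup.mem_centralizer_singleton_iff.2 ?_) ?_
      · exact (Subgroup.mem_centralizer_iff.1 hx z y.2).symm
      · exact fun x hx => Subgroup.mem_centralizer_iff.2 fun w hw =>
          sl2_centralizer_comm hzns (hPC hw) hx
    obtain ⟨hN, hinv, -, -⟩ := sl2_torus_normalizer ht
    have hnorm : Subgroup.normalizer ((P : Subgroup (Matrix.SpecialLinearGroup (Fin 2) F)) :
        Set (Matrix.SpecialLinearGroup (Fin 2) F)) =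
        Subgroup.normalizer (C : Set (Matrix.SpecialLinearGroup (Fin 2) F)) := by
      apply le_antisymm
      · intro x hx
        rw [sl2_mem_normalizer_centralizer_iff ht]
        have hxz : x * z * x⁻¹ ∈ C := hPC (((Subgroup.mem_normalizer_iff.1 hx) z).1 y.2)
        exact Cfsg.Agent.H6.eq_or_eq_inv_of_tr_eq (g := z) (h := x * z * x⁻¹)
          (by rw [Cfsg.Agent.H6.tr, ← Matrix.trace_fin_two]; exact ht)
          (fun hs => hzns hs) (Cfsg.Agent.H6.mem_cent.2
            (Subgroup.mem_centralizer_singleton_iff.1 hxz).symm) (Cfsg.Agent.H6.tr_conj x z)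
      · have main : ∀ x ∈ Subgroup.normalizer (C : Set (Matrix.SpecialLinearGroup (Fin 2) F)),
            ∀ w ∈ (P : Subgroup (Matrix.SpecialLinearGroup (Fin 2) F)),
              x * w * x⁻¹ ∈ (P : Subgroup (Matrix.SpecialLinearGroup (Fin 2) F)) := by
          intro x hx w hw
          by_cases hxC : x ∈ C
          · rw [sl2_centralizer_comm hzns hxC (hPC hw), mul_inv_cancel_right]
            exact hw
          · rw [hinv x hx hxC w (hPC hw)]
            exact inv_mem hw
        intro x hx
        rw [Subgroup.mem_normalizer_iff]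
        refine fun w => ⟨main x hx w, fun h => ?_⟩
        have := main x⁻¹ (inv_mem hx) _ h
        simpa [mul_assoc] using this
    have hlC : ℓ ∣ Nat.card C := by
      have h := Subgroup.orderOf_dvd_natCard C (sl2_self_mem_centralizer z)
      rw [hzo] at h
      exact (dvd_pow_self ℓ hk0).trans h
    exact ⟨Nat.card C, card_centralizer_semisimple ht, hlC, by rw [hcent],
      by rw [hcent]; exact isCyclic_centralizer hzns ht, by rw [hnorm, hN]⟩
  constructor
  · intro h
    obtain ⟨m, hm, hd, h1, h2, h3⟩ := main (Or.inl h)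
    rcases hm with rfl | rfl
    · exact ⟨h1, h2, h3⟩
    · exfalso
      apply hl2
      have := Nat.dvd_sub hd h
      rwa [show q + 1 - (q - 1) = 2 by omega] at this
  · intro h
    obtain ⟨m, hm, hd, h1, h2, h3⟩ := main (Or.inr h)
    rcases hm with rfl | rfl
    · exfalso
      apply hl2
      have := Nat.dvd_sub h hd
      rwa [show q + 1 - (q - 1) = 2 by omega] at this
    · exact ⟨h1, h2, h3⟩

end Cfsg.Agent.S2430
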