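import Cfsg.Statements.S2431
import Cfsg.Agent.H69.SL2SylowTwo

set_option autoImplicit false
open Cfsg

namespace Cfsg.Agent.S2431

open Cfsg.Agent.H69

/-- Let F be a finite field with q elements, q odd, and S a Sylow 2-subgroup of SL₂ over F. The centraliser of S is the centre of SL₂ (of order 2); S is its own normaliser when q ≡ ±1 mod 8, and has index 3 in its normaliser when q ≡ ±3 mod 8. -/
theorem result {F : Type*} [Field F] [Fintype F] (hodd : Odd (Fintype.card F)) (S : Sylow 2 (Matrix.SpecialLinearGroup (Fin 2) F)) :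
    Subgroup.centralizer ((S : Subgroup (Matrix.SpecialLinearGroup (Fin 2) F)) : Set (Matrix.SpecialLinearGroup (Fin 2) F)) = Subgroup.center (Matrix.SpecialLinearGroup (Fin 2) F) ∧
    ((Fintype.card F % 8 = 1 ∨ Fintype.card F % 8 = 7) →
      Subgroup.normalizer ((S : Subgroup (Matrix.SpecialLinearGroup (Fin 2) F)) : Set (Matrix.SpecialLinearGroup (Fin 2) F)) = (S : Subgroup (Matrix.SpecialLinearGroup (Fin 2) F))) ∧
    ((Fintype.card F % 8 = 3 ∨ Fintype.card F % 8 = 5) →
      Nat.card (Subgroup.normalizer ((S : Subgroup (Matrix.SpecialLinearGroup (Fin 2) F)) : Set (Matrix.SpecialLinearGroup (Fin 2) F))) = 3 * Nat.card S) := by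
  haveI := Fact.mk Nat.prime_two
  have two : (2 : F) ≠ 0 := fun h => by
    have := field_two_eq_zero_iff.1 h
    rw [Nat.odd_iff] at hodd
    omega
  have hcard : ∀ T : Sylow 2 (Matrix.SpecialLinearGroup (Fin 2) F),
      Nat.card (Subgroup.normalizer
        ((T : Subgroup (Matrix.SpecialLinearGroup (Fin 2) F)) :
          Set (Matrix.SpecialLinearGroup (Fin 2) F))) =
      Nat.card (Subgroup.normalizer
        ((S : Subgroup (Matrix.SpecialLinearGroup (Fin 2) F)) :
          Set (Matrix.SpecialLinearGroup (Fin 2) F))) := by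
    intro T
    set a := Subgroup.normalizer
        ((T : Subgroup (Matrix.SpecialLinearGroup (Fin 2) F)) :
          Set (Matrix.SpecialLinearGroup (Fin 2) F))
    set b := Subgroup.normalizer
        ((S : Subgroup (Matrix.SpecialLinearGroup (Fin 2) F)) :
          Set (Matrix.SpecialLinearGroup (Fin 2) F))
    have hi : a.index = b.index := (T.card_eq_index_normalizer).symm.trans S.card_eq_index_normalizer
    have hm := a.card_mul_index.trans b.card_mul_index.symm
    rw [hi] at hm
    exact Nat.eq_of_mul_eq_mul_right (Nat.pos_of_ne_zero Subgroup.index_ne_zero_of_finite) hm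
  have hS : ∀ T : Sylow 2 (Matrix.SpecialLinearGroup (Fin 2) F), Nat.card T = Nat.card S :=
    fun T => by rw [T.card_eq_multiplicity, S.card_eq_multiplicity]
  refine ⟨sylow_two_centralizer two S, fun h8 => ?_, fun h8 => ?_⟩
  · obtain ⟨T, hT⟩ := sylow_two_normalizer_card_one two h8
    refine (Subgroup.eq_of_le_of_card_ge Subgroup.le_normalizer ?_).symm
    rw [← hcard T, hT]
    exact (hS T).le
  · obtain ⟨T, hT, hT8⟩ := sylow_two_normalizer_card_three two h8
    rw [← hcard T, hT, ← hS T, hT8]

end Cfsg.Agent.S2431
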