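import Cfsg.Statements.S2433
import Cfsg.Agent.H68.SL2Chars

set_option autoImplicit false
open Cfsg

namespace Cfsg.Agent.S2433

open Cfsg.Agent.H68

/-- Let F be a finite field with q elements, q odd, α a multiplicative character of F, and R(α) the function on SL₂ induced from the linear character b ↦ α(b₁₁) of the upper triangular subgroup. Then R(α) takes the value α(a) + α(a⁻¹) at a diagonal element with entries a, a⁻¹, a² ≠ 1; the value 0 at every element with no eigenvector in F²; the value α(ε) at an upper triangular element with both diagonal entries ε and non-zero upper right entry; and the value (q + 1)α(ε) at the scalar element ε (ε = ±1). -/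
theorem result {F : Type*} [Field F] [Fintype F] [DecidableEq F] (hodd : Odd (Fintype.card F)) (α : MulChar F ℂ) (g : Matrix.SpecialLinearGroup (Fin 2) F) :
    ((g : Matrix (Fin 2) (Fin 2) F) 0 1 = 0 → (g : Matrix (Fin 2) (Fin 2) F) 1 0 = 0 → (g : Matrix (Fin 2) (Fin 2) F) 0 0 ^ 2 ≠ 1 →
      (Cfsg.indFun ((Cfsg.upperTriangularGL 2 F).comap Matrix.SpecialLinearGroup.toGL) (fun b => α (((b : Matrix.SpecialLinearGroup (Fin 2) F) : Matrix (Fin 2) (Fin 2) F) 0 0))) g = α ((g : Matrix (Fin 2) (Fin 2) F) 0 0) + α ((g : Matrix (Fin 2) (Fin 2) F) 1 1)) ∧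
    ((∀ (c : F) (v : Fin 2 → F), v ≠ 0 → (g : Matrix (Fin 2) (Fin 2) F).mulVec v ≠ c • v) → (Cfsg.indFun ((Cfsg.upperTriangularGL 2 F).comap Matrix.SpecialLinearGroup.toGL) (fun b => α (((b : Matrix.SpecialLinearGroup (Fin 2) F) : Matrix (Fin 2) (Fin 2) F) 0 0))) g = 0) ∧
    ((g : Matrix (Fin 2) (Fin 2) F) 1 0 = 0 → (g : Matrix (Fin 2) (Fin 2) F) 0 0 = (g : Matrix (Fin 2) (Fin 2) F) 1 1 → (g : Matrix (Fin 2) (Fin 2) F) 0 1 ≠ 0 →
      (Cfsg.indFun ((Cfsg.upperTriangularGL 2 F).comap Matrix.SpecialLinearGroup.toGL) (fun b => α (((b : Matrix.SpecialLinearGroup (Fin 2) F) : Matrix (Fin 2) (Fin 2) F) 0 0))) g = α ((g : Matrix (Fin 2) (Fin 2) F) 0 0)) ∧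
    ((g : Matrix (Fin 2) (Fin 2) F) 0 1 = 0 → (g : Matrix (Fin 2) (Fin 2) F) 1 0 = 0 → (g : Matrix (Fin 2) (Fin 2) F) 0 0 = (g : Matrix (Fin 2) (Fin 2) F) 1 1 →
      (Cfsg.indFun ((Cfsg.upperTriangularGL 2 F).comap Matrix.SpecialLinearGroup.toGL) (fun b => α (((b : Matrix.SpecialLinearGroup (Fin 2) F) : Matrix (Fin 2) (Fin 2) F) 0 0))) g = ((Fintype.card F : ℂ) + 1) * α ((g : Matrix (Fin 2) (Fin 2) F) 0 0)) := by
  classical
  have key : ∀ (a : Fˣ) (x : F),
      (Cfsg.indFun ((Cfsg.upperTriangularGL 2 F).comap Matrix.SpecialLinearGroup.toGL)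
        (fun b => α (((b : Matrix.SpecialLinearGroup (Fin 2) F) : Matrix (Fin 2) (Fin 2) F) 0 0)))
        (sl2Diag a * sl2U x) = α a + ∑ z : F,
          if x + z - ((a : F) ^ 2)⁻¹ * z = 0 then α ((a⁻¹ : Fˣ) : F) else 0 := by
    intro a x
    have h := (sl2Data F).ps_apply_tu (MulChar.equivToUnitHom α) a x
    simp only [sl2Data, invMonoidHom_apply, powMonoidHom_apply, Units.val_pow_eq_pow_val,
      MulChar.coe_equivToUnitHom] at h
    rw [indFun_upper_eq_sPS]
    exact h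
  have hform : (g : Matrix (Fin 2) (Fin 2) F) 1 0 = 0 → ∀ (a : Fˣ) (x : F),
      (g : Matrix (Fin 2) (Fin 2) F) 0 0 = a →
      (g : Matrix (Fin 2) (Fin 2) F) 0 1 = a * x → g = sl2Diag a * sl2U x := by
    intro h10 a x h00 h01
    have hd := g.2
    rw [Matrix.det_fin_two, h10, mul_zero, sub_zero, h00] at hd
    have h11 : (g : Matrix (Fin 2) (Fin 2) F) 1 1 = ((a⁻¹ : Fˣ) : F) := by
      rw [Units.val_inv_eq_inv_val]
      exact eq_inv_of_mul_eq_one_right hd
    apply Subtype.ext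
    rw [Matrix.SpecialLinearGroup.coe_mul, sl2Diag_coe, sl2U_coe]
    ext i j
    fin_cases i <;> fin_cases j <;> simp [h10, h00, h01, h11]
  have hne0 : (g : Matrix (Fin 2) (Fin 2) F) 1 0 = 0 → (g : Matrix (Fin 2) (Fin 2) F) 0 0 ≠ 0 := by
    intro h10 h0
    have hd := g.2
    rw [Matrix.det_fin_two, h10, h0] at hd
    simp at hd
  have h11' : (g : Matrix (Fin 2) (Fin 2) F) 1 0 = 0 → (g : Matrix (Fin 2) (Fin 2) F) 1 1 =
      ((g : Matrix (Fin 2) (Fin 2) F) 0 0)⁻¹ := by
    intro h10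
    have hd := g.2
    rw [Matrix.det_fin_two, h10, mul_zero, sub_zero] at hd
    exact eq_inv_of_mul_eq_one_right hd
  have hsame : (g : Matrix (Fin 2) (Fin 2) F) 1 0 = 0 →
      (g : Matrix (Fin 2) (Fin 2) F) 0 0 = (g : Matrix (Fin 2) (Fin 2) F) 1 1 →
      ((g : Matrix (Fin 2) (Fin 2) F) 0 0 ^ 2)⁻¹ = 1 := by
    intro h10 he
    rw [h11' h10] at he
    rw [sq]
    nth_rewrite 2 [he]
    rw [mul_inv_cancel₀ (hne0 h10), inv_one]
  refine ⟨fun h01 h10 ha => ?_, fun h => ?_, fun h10 he h01 => ?_, fun h01 h10 he => ?_⟩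
  · set a := Units.mk0 _ (hne0 h10) with hadef
    rw [hform h10 a 0 rfl (by simp [h01]), key]
    have hc : ((a : F) ^ 2)⁻¹ ≠ 1 := fun h => ha (inv_eq_one.1 h)
    rw [Finset.sum_eq_single (0 : F)
      (fun z _ hz => if_neg (by
        intro h
        apply mul_ne_zero hz (sub_ne_zero.2 hc)
        linear_combination -h))
      (by simp), if_pos (by simp)]
    simp [← hform h10 a 0 rfl (by simp [h01]), h11' h10, hadef]
  · exact indFun_eq_zero _ _ (fun x => sl2_conj_notMem_upper h x)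
  · set a := Units.mk0 _ (hne0 h10) with hadef
    set x := (g : Matrix (Fin 2) (Fin 2) F) 0 1 / a with hx
    have hf := hform h10 a x rfl (by rw [hx, mul_div_cancel₀ _ a.ne_zero])
    rw [hf, key, Finset.sum_eq_zero (fun z _ => if_neg (by
      rw [show ((a : F) ^ 2)⁻¹ = 1 from hsame h10 he, one_mul, add_sub_cancel_right]
      exact div_ne_zero h01 a.ne_zero))]
    rw [← hf, add_zero]
    rfl
  · set a := Units.mk0 _ (hne0 h10) with hadef
    have hf := hform h10 a 0 rfl (by simp [h01])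
    rw [hf, key, Finset.sum_congr rfl (fun z _ => if_pos (by
      rw [show ((a : F) ^ 2)⁻¹ = 1 from hsame h10 he]; ring)), ← hf, Finset.sum_const,
      Finset.card_univ, nsmul_eq_mul, Units.val_inv_eq_inv_val]
    rw [show ((a : F))⁻¹ = (a : F) from by
      rw [h11' h10] at he; exact he.symm]
    change _ = _ * α (a : F)
    ring

end Cfsg.Agent.S2433
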