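import Cfsg.Statements.S2434
import Cfsg.Agent.H69.SL2CuspidalTable

set_option autoImplicit false
open Cfsg

namespace Cfsg.Agent.S2434

open Cfsg.Agent.H69
open scoped ComplexConjugate

/-- Let F be a finite field with q elements, q odd, and C a cyclic subgroup of order q + 1 of SL₂ over F (a non-split torus; it contains the centre). For every homomorphism θ from C to the non-zero complex numbers with θ² ≠ 1 there is an irreducible complex character χ of degree q − 1 such that χ(c) = −θ(c) − θ(c)⁻¹ for every non-central c in C, χ(zg) = θ(z)χ(g) for central z in C, χ vanishes at diagonal elements with entry a, a² ≠ 1, and χ takes the value −1 at every upper unitriangular element other than 1. Conversely every irreducible character of degree q − 1 has, for some such θ, the values −θ(c) − θ(c)⁻¹ at the non-central elements c of C (for q ≥ 5 these are exactly the cuspidal characters of degree q − 1). -/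
theorem result {F : Type*} [Field F] [Fintype F] (hodd : Odd (Fintype.card F))
    (C : Subgroup (Matrix.SpecialLinearGroup (Fin 2) F)) (hC : IsCyclic C) (hcard : Nat.card C = Fintype.card F + 1) :
    (∀ θ : C →* ℂˣ, (∃ c : C, θ c ^ 2 ≠ 1) →
      ∃ χ : Matrix.SpecialLinearGroup (Fin 2) F → ℂ, Cfsg.IsIrrCharacter (Matrix.SpecialLinearGroup (Fin 2) F) χ ∧ χ 1 = (Fintype.card F : ℂ) - 1 ∧
        (∀ c : C, (c : Matrix.SpecialLinearGroup (Fin 2) F) ∉ Subgroup.center (Matrix.SpecialLinearGroup (Fin 2) F) → χ c = -((θ c).val + (θ c)⁻¹.val)) ∧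
        (∀ c : C, (c : Matrix.SpecialLinearGroup (Fin 2) F) ∈ Subgroup.center (Matrix.SpecialLinearGroup (Fin 2) F) → ∀ g : Matrix.SpecialLinearGroup (Fin 2) F, χ ((c : Matrix.SpecialLinearGroup (Fin 2) F) * g) = (θ c).val * χ g) ∧
        (∀ g : Matrix.SpecialLinearGroup (Fin 2) F, (g : Matrix (Fin 2) (Fin 2) F) 0 1 = 0 → (g : Matrix (Fin 2) (Fin 2) F) 1 0 = 0 → (g : Matrix (Fin 2) (Fin 2) F) 0 0 ^ 2 ≠ 1 → χ g = 0) ∧
        (∀ g : Matrix.SpecialLinearGroup (Fin 2) F, (g : Matrix (Fin 2) (Fin 2) F) 1 0 = 0 → (g : Matrix (Fin 2) (Fin 2) F) 0 0 = 1 → (g : Matrix (Fin 2) (Fin 2) F) 1 1 = 1 → (g : Matrix (Fin 2) (Fin 2) F) 0 1 ≠ 0 → χ g = -1)) ∧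
    (∀ χ : Matrix.SpecialLinearGroup (Fin 2) F → ℂ, Cfsg.IsIrrCharacter (Matrix.SpecialLinearGroup (Fin 2) F) χ → χ 1 = (Fintype.card F : ℂ) - 1 →
      ∃ θ : C →* ℂˣ, (∃ c : C, θ c ^ 2 ≠ 1) ∧
        ∀ c : C, (c : Matrix.SpecialLinearGroup (Fin 2) F) ∉ Subgroup.center (Matrix.SpecialLinearGroup (Fin 2) F) → χ c = -((θ c).val + (θ c)⁻¹.val)) := by
  classical
  have two : (2 : F) ≠ 0 := fun h => by
    have := field_two_eq_zero_iff.1 h
    rw [Nat.odd_iff] at hodd
    omega
  have hT := isNonsplit_of_cyclic two C hC hcard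
  refine ⟨fun θ hθ => ?_, fun χ hχ hd => ?_⟩
  · obtain ⟨α, hα⟩ := exists_mulChar_neg_one two hT θ
    refine ⟨cusp α θ, isIrrCharacter_cusp two hT hα hθ, cusp_one two hT hα,
      fun c hc => cusp_apply_torus two hT c.2 hc, fun c hc g => ?_, fun g h01 h10 ha => ?_,
      fun g h10 h00 h11 h01 => ?_⟩
    · rcases (sl2_mem_center_iff_eq _).1 hc with e | e
      · have : c = 1 := Subtype.ext e
        subst this
        simp
      · have : c = ⟨-1, hT.neg_one_mem⟩ := Subtype.ext e
        subst this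
        exact cusp_neg hT hα g
    · obtain ⟨a, rfl, haa⟩ := Cfsg.Agent.H68.exists_sl2Diag h01 h10
      have h := cusp_borel two hT hα a 0
      have hu : (Cfsg.Agent.H68.sl2Diag a * Cfsg.Agent.H68.sl2U 0 :
          Matrix.SpecialLinearGroup (Fin 2) F) = Cfsg.Agent.H68.sl2Diag a := by
        apply Subtype.ext
        ext i j
        fin_cases i <;> fin_cases j <;> simp
      rw [hu, if_neg (Cfsg.Agent.H68.sl2_units_sq_ne_one haa ha)] at h
      exact h
    · have h := cusp_borel two hT hα 1 ((g : Matrix (Fin 2) (Fin 2) F) 0 1)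
      have hu : (Cfsg.Agent.H68.sl2Diag 1 *
          Cfsg.Agent.H68.sl2U ((g : Matrix (Fin 2) (Fin 2) F) 0 1) :
          Matrix.SpecialLinearGroup (Fin 2) F) = g := by
        apply Subtype.ext
        ext i j
        fin_cases i <;> fin_cases j <;> simp [h10, h00, h11]
      rw [hu, if_pos (one_pow 2), if_neg h01, Units.val_one, map_one] at h
      exact h
  · rcases exists_cusp_of_degree two hT hχ hd with ⟨α, θ, hα, hθ, rfl⟩ | ⟨h3, hz⟩
    · exact ⟨θ, hθ, fun c hc => cusp_apply_torus two hT c.2 hc⟩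
    · haveI := hC
      haveI : Fintype C := Fintype.ofFinite C
      letI : CommGroup C := IsCyclic.commGroup
      obtain ⟨x, hx⟩ := hC.exists_generator
      have hxo : orderOf x = 4 := by
        rw [orderOf_eq_card_of_forall_mem_zpowers hx, hcard, h3]
      have hx2 : x * x ≠ 1 := fun e => by
        have := Nat.le_of_dvd two_pos (orderOf_dvd_of_pow_eq_one (x := x) (n := 2) (by rw [sq, e]))
        omega
      obtain ⟨θ, hθ⟩ := CommGroup.exists_apply_ne_one_of_hasEnoughRootsOfUnity C ℂ hx2
      refine ⟨θ, ⟨x, by rwa [sq, ← map_mul]⟩, fun c hc => ?_⟩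
      rw [hz c ((rootCount_zero_iff_no_eigenvector _).1 (hT.noncentral c.2 hc).2.1)]
      have hcc : ∀ d : C, (d : Matrix.SpecialLinearGroup (Fin 2) F) ∉
          Subgroup.center (Matrix.SpecialLinearGroup (Fin 2) F) → d * d = x * x := by
        intro d hd
        obtain ⟨i, rfl⟩ := hx d
        simp only at hd ⊢
        have hx4 : x ^ (4 : ℤ) = 1 := by
          rw [show (4 : ℤ) = ((4 : ℕ) : ℤ) from rfl, zpow_natCast, ← hxo, pow_orderOf_eq_one]
        have hi2 : i % 2 ≠ 0 := by
          intro h0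
          obtain ⟨j, rfl⟩ : (2 : ℤ) ∣ i := Int.dvd_of_emod_eq_zero h0
          apply hd
          rw [sl2_mem_center_iff_eq]
          refine sl2_eq_one_or_neg_one_of_sq two ?_
          rw [← Subgroup.coe_mul, ← _root_.zpow_add, show 2 * j + 2 * j = 4 * j by ring,
            _root_.zpow_mul, hx4, one_zpow, Subgroup.coe_one]
        rw [← _root_.zpow_add, show i + i = 4 * (i / 2) + (1 + 1) by omega, _root_.zpow_add,
          _root_.zpow_mul, hx4, one_zpow, one_mul, _root_.zpow_add, zpow_one]
      have h1 : θ (x * x) = θ c * θ c := by rw [← map_mul, hcc c hc]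
      have h4 : (θ (x * x) : ℂ) = -1 := by
        rcases hom_apply_sq_eq_one θ (z := x * x) (by
          rw [← sq, ← sq, ← pow_mul, show 2 * 2 = 4 from rfl, ← hxo, pow_orderOf_eq_one]) with e | e
        · exact absurd (Units.ext e) hθ
        · exact e
      rw [h1, Units.val_mul] at h4
      have hne : (θ c : ℂ) ≠ 0 := (θ c).ne_zero
      rw [Units.val_inv_eq_inv_val]
      field_simp
      linear_combination h4

end Cfsg.Agent.S2434
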