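import Cfsg.Statements.S2435
import Cfsg.Agent.H69.SL2CuspidalTable

set_option autoImplicit false
open Cfsg

namespace Cfsg.Agent.S2435

open Cfsg.Agent.H69
open scoped ComplexConjugate

/-- Let F be a finite field with q elements, q odd and q ≥ 5, and χ an irreducible complex character of SL₂ over F. If χ has degree (q + 1)/2, then at a diagonal element with entry a, a² ≠ 1, χ takes the value 1 when a is a square in F and −1 otherwise. If χ has degree (q − 1)/2, then at an element g with no eigenvector in F² (so g has order dividing q + 1), χ takes the value −1 when g raised to the power (q + 1)/2 is the identity and the value 1 otherwise. -/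
theorem result {F : Type*} [Field F] [Fintype F] (hodd : Odd (Fintype.card F)) (hq : 5 ≤ Fintype.card F)
    (χ : Matrix.SpecialLinearGroup (Fin 2) F → ℂ) (hχ : Cfsg.IsIrrCharacter (Matrix.SpecialLinearGroup (Fin 2) F) χ) (g : Matrix.SpecialLinearGroup (Fin 2) F) :
    (χ 1 = (((Fintype.card F + 1) / 2 : ℕ) : ℂ) → (g : Matrix (Fin 2) (Fin 2) F) 0 1 = 0 → (g : Matrix (Fin 2) (Fin 2) F) 1 0 = 0 → (g : Matrix (Fin 2) (Fin 2) F) 0 0 ^ 2 ≠ 1 →
      (IsSquare ((g : Matrix (Fin 2) (Fin 2) F) 0 0) → χ g = 1) ∧ (¬ IsSquare ((g : Matrix (Fin 2) (Fin 2) F) 0 0) → χ g = -1)) ∧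
    (χ 1 = (((Fintype.card F - 1) / 2 : ℕ) : ℂ) → (∀ (c : F) (v : Fin 2 → F), v ≠ 0 → (g : Matrix (Fin 2) (Fin 2) F).mulVec v ≠ c • v) →
      (((g ^ ((Fintype.card F + 1) / 2)) : Matrix (Fin 2) (Fin 2) F) = 1 → χ g = -1) ∧ (((g ^ ((Fintype.card F + 1) / 2)) : Matrix (Fin 2) (Fin 2) F) ≠ 1 → χ g = 1)) := by
  classical
  have two : (2 : F) ≠ 0 := fun h => by
    have := field_two_eq_zero_iff.1 h
    rw [Nat.odd_iff] at hodd
    omega
  refine ⟨fun hd h01 h10 ha => ?_, fun hd hg => ?_⟩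
  · obtain ⟨k, n, ψ, hk, hk1, -, hn, hψ⟩ := Cfsg.Agent.H68.exists_odd_setup (F := F) hodd
    obtain ⟨H₁, H₂, C₁, C₂, T, -, -, -, -, hconj, hsum, -, -, -, -, -, -, -, -, -, -, hcases⟩ :=
      Cfsg.Agent.H68.sl2_odd_cases hk hn hψ
    obtain ⟨a, rfl, haa⟩ := Cfsg.Agent.H68.exists_sl2Diag h01 h10
    have ha2 := Cfsg.Agent.H68.sl2_units_sq_ne_one haa ha
    have hfix : Cfsg.Agent.H68.slConj n (Cfsg.Agent.H68.sl2Diag a) = Cfsg.Agent.H68.sl2Diag a := by
      apply Subtype.ext
      rw [Cfsg.Agent.H68.slConj_coe]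
      ext i j
      fin_cases i <;> fin_cases j <;> simp
    have hval := congrFun hsum (Cfsg.Agent.H68.sl2Diag a)
    rw [Cfsg.Agent.H68.sPS_sl2Diag _ ha2, Pi.add_apply, hconj, hfix] at hval
    have hinv : Cfsg.Agent.H68.qchar F ((a⁻¹ : Fˣ) : F) = Cfsg.Agent.H68.qchar F (a : F) := by
      by_cases hs : IsSquare (a : F)
      · rw [Cfsg.Agent.H68.qchar_of_isSquare a.ne_zero hs,
          Cfsg.Agent.H68.qchar_of_isSquare (Units.ne_zero _)
            (by simpa using hs.inv)]
      · rw [Cfsg.Agent.H68.qchar_of_not_isSquare hs,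
          Cfsg.Agent.H68.qchar_of_not_isSquare (by simpa using hs)]
    have hv : χ (Cfsg.Agent.H68.sl2Diag a) = Cfsg.Agent.H68.qchar F (a : F) := by
      rw [show (Fintype.card F + 1) / 2 = k + 1 by omega] at hd
      rcases hcases ⟨χ, hχ⟩ with ⟨-, e⟩ | ⟨-, e⟩ | ⟨-, e⟩ | ⟨h, -⟩ | ⟨-, e⟩ | ⟨-, e⟩
      case inr.inr.inr.inl =>
        rcases h with h | h <;> rw [show χ = _ from congrArg Subtype.val h]
        · linear_combination -(1 / 2 : ℂ) * hval + (1 / 2 : ℂ) * hinv
        · rw [hconj, hfix]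
          linear_combination -(1 / 2 : ℂ) * hval + (1 / 2 : ℂ) * hinv
      all_goals
        exfalso
        have := Nat.cast_injective (hd.symm.trans e)
        omega
    rw [← haa]
    exact ⟨fun hs => hv.trans (Cfsg.Agent.H68.qchar_of_isSquare a.ne_zero hs),
      fun hs => hv.trans (Cfsg.Agent.H68.qchar_of_not_isSquare hs)⟩
  · have hr := (rootCount_zero_iff_no_eigenvector g).2 hg
    have hT := isNonsplit_centralizer hr
    have hgm := sl2_self_mem_centralizer g
    have hgn : g ∉ Subgroup.center (Matrix.SpecialLinearGroup (Fin 2) F) := by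
      rw [sl2_mem_center_iff]
      exact not_isScalar2_of_trace (sq_ne_four_of_rootCount_zero hr)
    obtain ⟨θ, hθ1, hθ2, hval⟩ := hT.exists_quadratic (Nat.odd_iff.1 hodd)
    have hχg := half_cusp_apply two hT hq hχ hd hθ1 hθ2 hgm hgn
    obtain ⟨hv1, hv2⟩ := hval ⟨g, hgm⟩
    constructor
    · intro h
      rw [hχg, hv1 (Subtype.ext (Subtype.ext (by simpa using h)))]
      simp
    · intro h
      rw [hχg, hv2 (fun e => h (by
        have := congrArg (fun z : Subgroup.centralizer ({g} : Set (Matrix.SpecialLinearGroup (Fin 2) F)) =>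
          ((z : Matrix.SpecialLinearGroup (Fin 2) F) : Matrix (Fin 2) (Fin 2) F)) e
        simpa using this))]
      simp

end Cfsg.Agent.S2435
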