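import Cfsg.Statements.S2437
import Cfsg.Agent.H69.SL2Normalizer

set_option autoImplicit false
open Cfsg

namespace Cfsg.Agent.S2437

open Cfsg.Agent.H69

/-- Over a finite field F with q elements, q odd, the upper triangular subgroup of SL₂ (a Borel subgroup, of order q(q − 1)) has exactly q + 3 conjugacy classes. -/
theorem result {F : Type*} [Field F] [Fintype F] (hodd : Odd (Fintype.card F)) :
    Nat.card (ConjClasses ((Cfsg.upperTriangularGL 2 F).comap Matrix.SpecialLinearGroup.toGL)) = Fintype.card F + 3 := by
  classical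
  have two : (2 : F) ≠ 0 := fun h => by
    have := field_two_eq_zero_iff.1 h
    rw [Nat.odd_iff] at hodd
    omega
  have hchar : ringChar F ≠ 2 := fun h => two (by
    have hc := ringChar.Nat.cast_ringChar (R := F)
    rw [h] at hc
    exact_mod_cast hc)
  set B := (Cfsg.upperTriangularGL 2 F).comap Matrix.SpecialLinearGroup.toGL with hB
  have hmem : ∀ g : Matrix.SpecialLinearGroup (Fin 2) F,
      g ∈ B ↔ (g : Matrix (Fin 2) (Fin 2) F) 1 0 = 0 := by
    intro g
    constructor
    · intro h
      exact h (show (id (0 : Fin 2)) < id 1 by decide)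
    · intro h i j hij
      obtain ⟨rfl, rfl⟩ : i = 1 ∧ j = 0 := by
        revert hij; fin_cases i <;> fin_cases j <;> simp
      exact h
  let e : Fˣ × F → B := fun p =>
    ⟨Cfsg.Agent.H6.sl2 (p.1 : F) p.2 0 ((p.1⁻¹ : Fˣ) : F) (by simp), (hmem _).2 (by simp)⟩
  have he : Function.Bijective e := by
    constructor
    · intro p r h
      have h' := congrArg (fun z : B =>
        ((z : Matrix.SpecialLinearGroup (Fin 2) F) : Matrix (Fin 2) (Fin 2) F)) h
      have h1 := congrArg (fun M : Matrix (Fin 2) (Fin 2) F => M 0 0) h'
      have h2 := congrArg (fun M : Matrix (Fin 2) (Fin 2) F => M 0 1) h'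
      simp [e] at h1 h2
      exact Prod.ext (Units.ext h1) h2
    · rintro ⟨g, hg⟩
      have h10 := (hmem g).1 hg
      have hd := Cfsg.Agent.H6.sl2_det g
      rw [h10, mul_zero, sub_zero] at hd
      have h0 : (g : Matrix (Fin 2) (Fin 2) F) 0 0 ≠ 0 := left_ne_zero_of_mul_eq_one hd
      refine ⟨(Units.mk0 _ h0, (g : Matrix (Fin 2) (Fin 2) F) 0 1), Subtype.ext ?_⟩
      apply Cfsg.Agent.H6.sl2_ext <;> simp [e, h10, eq_inv_of_mul_eq_one_right hd]
  set q := Fintype.card F with hq
  have hBcard : Nat.card B = (q - 1) * q := by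
    rw [← Nat.card_eq_of_bijective e he, Nat.card_prod, Nat.card_units, Nat.card_eq_fintype_card]
  have hval : ∀ (a : Fˣ) (b : F), Nat.card (Subgroup.centralizer ({e (a, b)} : Set B)) =
      if a ^ 2 = 1 then (if b = 0 then (q - 1) * q else 2 * q) else q - 1 := by
    intro a b
    set g : Matrix.SpecialLinearGroup (Fin 2) F :=
      (e (a, b) : Matrix.SpecialLinearGroup (Fin 2) F) with hg
    by_cases hs : IsScalar2 (g : Matrix (Fin 2) (Fin 2) F)
    · have hb : b = 0 := by simpa [hg, e] using hs.1
      have ha : a ^ 2 = 1 := by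
        have h2 : (a : F) = ((a⁻¹ : Fˣ) : F) := by simpa [hg, e] using hs.2.2
        rw [sq]
        nth_rewrite 2 [Units.ext h2]
        exact mul_inv_cancel a
      rw [if_pos ha, if_pos hb, ← hBcard]
      rw [show Subgroup.centralizer ({e (a, b)} : Set B) = ⊤ from ?_, Subgroup.card_top]
      rw [eq_top_iff]
      intro x _
      rw [Subgroup.mem_centralizer_singleton_iff]
      exact Subtype.ext (Subgroup.mem_center_iff.1 ((sl2_mem_center_iff g).2 hs) x)
    · have hgB : g ∈ B := (e (a, b)).2
      have hle : Subgroup.centralizer ({g} : Set (Matrix.SpecialLinearGroup (Fin 2) F)) ≤ B := by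
        intro x hx
        obtain ⟨r, s, -, hrs⟩ := exists_coeff_of_mem_centralizer hs hx
        rw [hmem, hrs]
        simp [(hmem g).1 hgB]
      have hc : Nat.card (Subgroup.centralizer ({e (a, b)} : Set B)) =
          Nat.card (Subgroup.centralizer ({g} : Set (Matrix.SpecialLinearGroup (Fin 2) F))) := by
        refine Nat.card_congr
          { toFun := fun x => ⟨x.1.1, Subgroup.mem_centralizer_singleton_iff.2
              (congrArg Subtype.val (Subgroup.mem_centralizer_singleton_iff.1 x.2))⟩
            invFun := fun x => ⟨⟨x.1, hle x.2⟩, Subgroup.mem_centralizer_singleton_iff.2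
              (Subtype.ext (Subgroup.mem_centralizer_singleton_iff.1 x.2))⟩
            left_inv := fun x => rfl
            right_inv := fun x => rfl }
      rw [hc]
      have htr : (g : Matrix (Fin 2) (Fin 2) F).trace = (a : F) + ((a⁻¹ : Fˣ) : F) := by
        simp [hg, e, Matrix.trace_fin_two]
      by_cases ha : a ^ 2 = 1
      · have hinv : a⁻¹ = a := inv_eq_of_mul_eq_one_right (by rw [← sq]; exact ha)
        have hb : b ≠ 0 := by
          rintro rfl
          exact hs (by simp [IsScalar2, hg, e, ← Units.val_inv_eq_inv_val, hinv])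
        rw [if_pos ha, if_neg hb, card_centralizer_unipotent_odd hs ?_ hchar,
          Nat.card_eq_fintype_card]
        rw [htr, hinv]
        have hsq : (a : F) ^ 2 = 1 := by rw [← Units.val_pow_eq_pow_val, ha, Units.val_one]
        linear_combination 4 * hsq
      · rw [if_neg ha]
        have hsplit := card_centralizer_split hs (x := (a : F)) ?_ ?_
        · rwa [Nat.card_eq_fintype_card (α := F)] at hsplit
        · rw [htr]
          intro h4
          apply ha
          apply Units.ext
          rw [Units.val_pow_eq_pow_val, Units.val_one]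
          have h2 : ((a : F) ^ 2 - 1) ^ 2 = 0 := by
            rw [Units.val_inv_eq_inv_val] at h4
            field_simp at h4
            linear_combination h4
          exact sub_eq_zero.1 ((pow_eq_zero_iff two_ne_zero).1 h2)
        · rw [htr]
          linear_combination -a.mul_inv
  haveI : Fintype B := Fintype.ofFinite B
  have hsum := card_conjClasses_mul_card_eq_sum B
  rw [← he.sum_comp, Fintype.sum_prod_type] at hsum
  have hinner : ∀ a : Fˣ, (∑ b : F, Nat.card (Subgroup.centralizer ({e (a, b)} : Set B))) =
      if a ^ 2 = 1 then 3 * (q * (q - 1)) else q * (q - 1) := by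
    intro a
    simp only [hval]
    split_ifs with ha
    · rw [Fintype.sum_eq_add_sum_compl (0 : F), if_pos rfl, Finset.sum_congr rfl
        (fun b hb => if_neg (by simpa using hb)), Finset.sum_const, smul_eq_mul, Finset.card_compl,
        Finset.card_singleton]
      ring
    · rw [Finset.sum_const, smul_eq_mul, Finset.card_univ]
  simp only [hinner] at hsum
  rw [Finset.sum_ite, Finset.sum_const, Finset.sum_const, smul_eq_mul, smul_eq_mul] at hsum
  have hne : (1 : Fˣ) ≠ -1 := fun h => two (by
    have := congrArg Units.val h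
    simp at this
    linear_combination this)
  have h2 : (Finset.univ.filter (fun a : Fˣ => a ^ 2 = 1)).card = 2 := by
    rw [show Finset.univ.filter (fun a : Fˣ => a ^ 2 = 1) = {1, -1} from ?_, Finset.card_pair hne]
    ext a
    simp [sq, ← Units.inv_eq_self_iff, mul_eq_one_iff_eq_inv, eq_comm]
  have hrest := Finset.card_filter_add_card_filter_not
    (s := (Finset.univ : Finset Fˣ)) (fun a => a ^ 2 = 1)
  rw [Finset.card_univ, Fintype.card_units, h2] at hrest
  rw [h2, hBcard] at hsum
  have hodd' := Nat.odd_iff.1 hodd
  have hq1 : 0 < (q - 1) * q := Nat.mul_pos (by omega) (by omega)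
  refine Nat.eq_of_mul_eq_mul_right hq1 (hsum.trans ?_)
  rw [show q + 3 = 6 + (Finset.univ.filter (fun a : Fˣ => ¬ a ^ 2 = 1)).card by omega]
  ring

end Cfsg.Agent.S2437
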