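import Cfsg.Statements.S2438
import Cfsg.Agent.H68.SL2ByDegree

set_option autoImplicit false
open Cfsg

namespace Cfsg.Agent.S2438

open Cfsg.Agent.H68

/-- Let F be a finite field with q elements, q odd, q ≥ 5, U the upper unitriangular subgroup of SL₂ over F, and χ an irreducible complex character. The sum of the values of χ over U equals 2q, q, 0, q, 0 according as the degree of χ is q + 1, q, q − 1, (q + 1)/2, (q − 1)/2; so among these five degrees the sum vanishes exactly for the degrees q − 1 and (q − 1)/2, i.e. the irreducible characters of those two degrees are the ones whose restriction to U does not contain the trivial character (the cuspidal characters), while those of degree q + 1, q and (q + 1)/2 are not cuspidal. -/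
theorem result {F : Type*} [Field F] [Fintype F] [DecidableEq F] (hodd : Odd (Fintype.card F)) (hq : 5 ≤ Fintype.card F)
    (χ : Matrix.SpecialLinearGroup (Fin 2) F → ℂ) (hχ : Cfsg.IsIrrCharacter (Matrix.SpecialLinearGroup (Fin 2) F) χ) :
    (χ 1 = (Fintype.card F : ℂ) + 1 →
      (∑ g : Matrix.SpecialLinearGroup (Fin 2) F, if (g : Matrix (Fin 2) (Fin 2) F) 1 0 = 0 ∧ (g : Matrix (Fin 2) (Fin 2) F) 0 0 = 1 ∧ (g : Matrix (Fin 2) (Fin 2) F) 1 1 = 1 then χ g else 0) = 2 * (Fintype.card F : ℂ)) ∧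
    (χ 1 = (Fintype.card F : ℂ) →
      (∑ g : Matrix.SpecialLinearGroup (Fin 2) F, if (g : Matrix (Fin 2) (Fin 2) F) 1 0 = 0 ∧ (g : Matrix (Fin 2) (Fin 2) F) 0 0 = 1 ∧ (g : Matrix (Fin 2) (Fin 2) F) 1 1 = 1 then χ g else 0) = (Fintype.card F : ℂ)) ∧
    (χ 1 = (Fintype.card F : ℂ) - 1 →
      (∑ g : Matrix.SpecialLinearGroup (Fin 2) F, if (g : Matrix (Fin 2) (Fin 2) F) 1 0 = 0 ∧ (g : Matrix (Fin 2) (Fin 2) F) 0 0 = 1 ∧ (g : Matrix (Fin 2) (Fin 2) F) 1 1 = 1 then χ g else 0) = 0) ∧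
    (χ 1 = (((Fintype.card F + 1) / 2 : ℕ) : ℂ) →
      (∑ g : Matrix.SpecialLinearGroup (Fin 2) F, if (g : Matrix (Fin 2) (Fin 2) F) 1 0 = 0 ∧ (g : Matrix (Fin 2) (Fin 2) F) 0 0 = 1 ∧ (g : Matrix (Fin 2) (Fin 2) F) 1 1 = 1 then χ g else 0) = (Fintype.card F : ℂ)) ∧
    (χ 1 = (((Fintype.card F - 1) / 2 : ℕ) : ℂ) →
      (∑ g : Matrix.SpecialLinearGroup (Fin 2) F, if (g : Matrix (Fin 2) (Fin 2) F) 1 0 = 0 ∧ (g : Matrix (Fin 2) (Fin 2) F) 0 0 = 1 ∧ (g : Matrix (Fin 2) (Fin 2) F) 1 1 = 1 then χ g else 0) = 0) := by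
  classical
  have hsum : (∑ g : Matrix.SpecialLinearGroup (Fin 2) F, if (g : Matrix (Fin 2) (Fin 2) F) 1 0 = 0 ∧
      (g : Matrix (Fin 2) (Fin 2) F) 0 0 = 1 ∧ (g : Matrix (Fin 2) (Fin 2) F) 1 1 = 1 then χ g
      else 0) = ∑ x : F, χ (sl2U x) := by
    rw [← Finset.sum_filter]
    symm
    refine Finset.sum_bij' (fun x _ => sl2U x) (fun g _ => (g : Matrix (Fin 2) (Fin 2) F) 0 1)
      ?_ ?_ ?_ ?_ ?_
    · intro x _; simp
    · intro g _; exact Finset.mem_univ _
    · intro x _; simp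
    · intro g hg
      obtain ⟨-, h10, h00, h11⟩ := Finset.mem_filter.1 hg
      apply Subtype.ext
      ext i j
      fin_cases i <;> fin_cases j <;> simp [h10, h00, h11]
    · intro x _; rfl
  rw [hsum]
  obtain ⟨k, n, ψ, hk, hk1, -, hn, hψ⟩ := exists_odd_setup (F := F) hodd
  obtain ⟨H₁, H₂, C₁, C₂, C, -, -, -, -, hconj, hHsum, -, -, -, -, -, -, -, -, hC, hC12, hcases⟩ :=
    sl2_odd_cases hk hn hψ
  have hu0 : (sl2U 0 : Matrix.SpecialLinearGroup (Fin 2) F) = 1 := by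
    apply Subtype.ext; simp [Matrix.one_fin_two]
  have hqk : (Fintype.card F : ℂ) = 2 * (k : ℂ) + 1 := by rw [hk]; push_cast; ring
  have hPS : ∀ α : MulChar F ℂ, ∑ x : F, sPS α (sl2U x) = 2 * (Fintype.card F : ℂ) := by
    intro α
    rw [Fintype.sum_eq_add_sum_compl 0, hu0, sPS_one,
      Finset.sum_congr rfl (fun x hx => sPS_u α (by simpa using hx)), Finset.sum_const,
      Finset.card_compl, Finset.card_singleton, nsmul_eq_mul, mul_one,
      Nat.cast_sub Fintype.card_pos, Nat.cast_one]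
    ring
  have hcusp : ∀ φ : Cfsg.IrrCharacter (Matrix.SpecialLinearGroup (Fin 2) F),
      (∀ α : MulChar F ℂ, Cfsg.classInner φ.1 (sPS α) = 0) → ∑ x : F, φ.1 (sl2U x) = 0 := by
    intro φ h
    have h0 := sl2_fcoeff_zero_eq_zero
      (Cfsg.Agent.H26.isClassFunction_of_isCharacter (Cfsg.Agent.H26.irr_isCharacter φ)) h ψ
    simpa [fcoeff] using h0
  have hH1 : ∑ x : F, H₁.1 (sl2U x) = (Fintype.card F : ℂ) := by
    have e : ∑ x : F, H₂.1 (sl2U x) = ∑ x : F, H₁.1 (sl2U x) := by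
      simp only [hconj, slConj_u]
      exact Equiv.sum_comp (Equiv.mulLeft₀ (n : F) n.ne_zero) (fun x => H₁.1 (sl2U x))
    have := hPS (qchar F)
    simp only [hHsum, Pi.add_apply, Finset.sum_add_distrib, e] at this
    linear_combination (1 / 2 : ℂ) * this
  have hH2 : ∑ x : F, H₂.1 (sl2U x) = (Fintype.card F : ℂ) := by
    simp only [hconj, slConj_u]
    exact (Equiv.sum_comp (Equiv.mulLeft₀ (n : F) n.ne_zero) (fun x => H₁.1 (sl2U x))).trans hH1
  have hval : ∀ m : ℕ, χ 1 = (m : ℂ) →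
      (m = 2 * k + 2 → ∑ x : F, χ (sl2U x) = 2 * (Fintype.card F : ℂ)) ∧
      (m = 2 * k + 1 → ∑ x : F, χ (sl2U x) = (Fintype.card F : ℂ)) ∧
      (m = 2 * k → ∑ x : F, χ (sl2U x) = 0) ∧
      (m = k + 1 → ∑ x : F, χ (sl2U x) = (Fintype.card F : ℂ)) ∧
      (m = k → ∑ x : F, χ (sl2U x) = 0) := by
    intro m hm
    rcases hcases ⟨χ, hχ⟩ with ⟨h, e⟩ | ⟨h, e⟩ | ⟨h, e⟩ | ⟨h, e⟩ | ⟨h, e⟩ | ⟨h, e⟩ <;>
      have he := Nat.cast_injective (hm.symm.trans e)
    · refine ⟨?_, ?_, ?_, ?_, ?_⟩ <;> intro h' <;> omega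
    · have hS : ∑ x : F, χ (sl2U x) = (Fintype.card F : ℂ) := by
        rw [show χ = sSt from congrArg Subtype.val h, Fintype.sum_eq_add_sum_compl 0, hu0, sSt_one,
          Finset.sum_eq_zero (fun x hx => sSt_u (by simpa using hx)), add_zero]
      exact ⟨by omega, fun _ => hS, by omega, by omega, by omega⟩
    · obtain ⟨α, -, e'⟩ := mem_sPSSet.1 h
      have hS : ∑ x : F, χ (sl2U x) = 2 * (Fintype.card F : ℂ) := by
        rw [show χ = sPS α from e', hPS]
      exact ⟨fun _ => hS, by omega, by omega, by omega, by omega⟩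
    · have hS : ∑ x : F, χ (sl2U x) = (Fintype.card F : ℂ) := by
        rcases h with h | h <;> rw [show χ = _ from congrArg Subtype.val h]
        · exact hH1
        · exact hH2
      exact ⟨by omega, by omega, by omega, fun _ => hS, by omega⟩
    · have hS : ∑ x : F, χ (sl2U x) = 0 := by
        rcases h with h | h <;> rw [show χ = _ from congrArg Subtype.val h]
        · exact hcusp _ fun α => (hC12 α).1
        · exact hcusp _ fun α => (hC12 α).2
      exact ⟨by omega, by omega, by omega, by omega, fun _ => hS⟩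
    · have hS : ∑ x : F, χ (sl2U x) = 0 := hcusp ⟨χ, hχ⟩ ((hC _ h).2.2)
      exact ⟨by omega, by omega, fun _ => hS, by omega, by omega⟩
  refine ⟨fun h => (hval (2 * k + 2) ?_).1 rfl, fun h => (hval (2 * k + 1) ?_).2.1 rfl,
    fun h => (hval (2 * k) ?_).2.2.1 rfl, fun h => (hval (k + 1) ?_).2.2.2.1 rfl,
    fun h => (hval k ?_).2.2.2.2 rfl⟩
  · rw [h, hqk]; push_cast; ring
  · rw [h, hqk]; push_cast; ring
  · rw [h, hqk]; push_cast; ring
  · rw [h]; congr 1; omega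
  · rw [h]; congr 1; omega

end Cfsg.Agent.S2438
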