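import Cfsg.Statements.S2439
import Cfsg.Agent.H69.CentralBlocks
import Cfsg.Agent.H68.SL2ByDegree
import Cfsg.Agent.H69.SL2Normalizer

set_option autoImplicit false
open Cfsg

namespace Cfsg.Agent.S2439

/-- Let F be a finite field with q elements of odd characteristic p, and M a maximal ideal of the algebraic integers containing p. Then SL₂ over F has exactly three p-blocks relative to M: the irreducible character of degree q (the Steinberg character) alone; the other irreducible characters taking the same value at −1 as at 1 (the principal block); and the irreducible characters χ with χ(−1) = −χ(1). Every Sylow p-subgroup is a defect group of each of the last two blocks. -/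
theorem result {F : Type*} [Field F] [Fintype F] (p : ℕ) [Fact p.Prime] [CharP F p] (hp : p ≠ 2)
    (M : Ideal Cfsg.AlgInt) (hM : Cfsg.IsPModular p M) :
    (∀ B : Set (Cfsg.IrrCharacter (Matrix.SpecialLinearGroup (Fin 2) F)), Cfsg.IsPBlock M B ↔
      (B = {χ : Cfsg.IrrCharacter (Matrix.SpecialLinearGroup (Fin 2) F) | (χ : Matrix.SpecialLinearGroup (Fin 2) F → ℂ) 1 = (Fintype.card F : ℂ)} ∨
       B = {χ : Cfsg.IrrCharacter (Matrix.SpecialLinearGroup (Fin 2) F) | (χ : Matrix.SpecialLinearGroup (Fin 2) F → ℂ) (-1) = (χ : Matrix.SpecialLinearGroup (Fin 2) F → ℂ) 1 ∧ (χ : Matrix.SpecialLinearGroup (Fin 2) F → ℂ) 1 ≠ (Fintype.card F : ℂ)} ∨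
       B = {χ : Cfsg.IrrCharacter (Matrix.SpecialLinearGroup (Fin 2) F) | (χ : Matrix.SpecialLinearGroup (Fin 2) F → ℂ) (-1) = -(χ : Matrix.SpecialLinearGroup (Fin 2) F → ℂ) 1})) ∧
    Nat.card {B : Set (Cfsg.IrrCharacter (Matrix.SpecialLinearGroup (Fin 2) F)) // Cfsg.IsPBlock M B} = 3 ∧
    ∀ P : Sylow p (Matrix.SpecialLinearGroup (Fin 2) F),
      Cfsg.IsDefectGroup p M {χ : Cfsg.IrrCharacter (Matrix.SpecialLinearGroup (Fin 2) F) | (χ : Matrix.SpecialLinearGroup (Fin 2) F → ℂ) (-1) = (χ : Matrix.SpecialLinearGroup (Fin 2) F → ℂ) 1 ∧ (χ : Matrix.SpecialLinearGroup (Fin 2) F → ℂ) 1 ≠ (Fintype.card F : ℂ)} (P : Subgroup (Matrix.SpecialLinearGroup (Fin 2) F)) ∧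
      Cfsg.IsDefectGroup p M {χ : Cfsg.IrrCharacter (Matrix.SpecialLinearGroup (Fin 2) F) | (χ : Matrix.SpecialLinearGroup (Fin 2) F → ℂ) (-1) = -(χ : Matrix.SpecialLinearGroup (Fin 2) F → ℂ) 1} (P : Subgroup (Matrix.SpecialLinearGroup (Fin 2) F)) := by
  classical
  haveI := hM.2.1
  obtain ⟨m, hpp, hm⟩ := FiniteField.card F p
  have hodd : Odd (Fintype.card F) := hm ▸ (hpp.odd_of_ne_two hp).pow
  have h2 : (2 : F) ≠ 0 := fun h => by
    have := Cfsg.Agent.H69.field_two_eq_zero_iff.1 h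
    rw [Nat.odd_iff] at hodd
    omega
  set q := Fintype.card F with hqdef
  have hpq : p ∣ q := hm ▸ dvd_pow_self p m.ne_zero
  have hfacG : (Nat.card (Matrix.SpecialLinearGroup (Fin 2) F)).factorization p = q.factorization p := by
    rw [Cfsg.Agent.H69.card_sl2', mul_assoc, Nat.factorization_mul Fintype.card_ne_zero
      (Nat.mul_ne_zero (by have := Fintype.one_lt_card (α := F); omega) (by omega)),
      Finsupp.add_apply, ← hqdef]
    refine Nat.add_eq_left.2 (Nat.factorization_eq_zero_of_not_dvd ?_)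
    intro h
    rcases hpp.dvd_mul.1 h with h | h
    · have := Nat.dvd_sub hpq h
      rw [Nat.sub_sub_self Fintype.card_pos] at this
      exact hpp.not_dvd_one this
    · exact hpp.not_dvd_one ((Nat.dvd_add_right hpq).1 h)
  -- degrees
  have hdeg : ∀ χ : Cfsg.IrrCharacter (Matrix.SpecialLinearGroup (Fin 2) F),
      χ.1 1 ≠ (q : ℂ) → ¬ p ∣ Cfsg.charDegree (χ : Matrix.SpecialLinearGroup (Fin 2) F → ℂ) := by
    intro χ hχ
    obtain ⟨k, n, ψ, hk, hk1, -, hn, hψ⟩ := Cfsg.Agent.H68.exists_odd_setup (F := F) hodd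
    obtain ⟨H₁, H₂, C₁, C₂, C, -, -, -, -, -, -, -, -, -, -, -, -, -, -, -, -, hcases⟩ :=
      Cfsg.Agent.H68.sl2_odd_cases hk hn hψ
    rw [← hqdef] at hk
    have hd : p ∣ 2 * k + 1 := hk ▸ hpq
    have a0 := hpp.not_dvd_one
    have a4 : ¬ p ∣ k := fun h =>
      a0 ((Nat.dvd_add_right (dvd_mul_of_dvd_right h 2)).1 hd)
    have a5 : ¬ p ∣ k + 1 := fun h => a4 (by
      have := Nat.dvd_sub hd h
      rwa [show 2 * k + 1 - (k + 1) = k by omega] at this)
    have a3 : ¬ p ∣ 2 * k + 2 := fun h => a0 (by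
      have := Nat.dvd_sub h hd
      rwa [show 2 * k + 2 - (2 * k + 1) = 1 by omega] at this)
    have a6 : ¬ p ∣ 2 * k := fun h => a0 ((Nat.dvd_add_right h).1 hd)
    rcases hcases χ with ⟨-, e⟩ | ⟨-, e⟩ | ⟨-, e⟩ | ⟨-, e⟩ | ⟨-, e⟩ | ⟨-, e⟩
    case inr.inl => exact absurd (hk ▸ e) hχ
    all_goals
      rw [Cfsg.charDegree, e, Complex.natCast_re, Nat.floor_natCast]
      assumption
  -- classes of size prime to `p`
  have hS : ∀ g : Matrix.SpecialLinearGroup (Fin 2) F,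
      ¬ p ∣ (Subgroup.centralizer ({g} : Set (Matrix.SpecialLinearGroup (Fin 2) F))).index →
      ∃ z ∈ Subgroup.center (Matrix.SpecialLinearGroup (Fin 2) F),
        ∃ u, u * z = g ∧ ∃ j, orderOf u = p ^ j := by
    intro g hg
    by_cases ht : (g : Matrix (Fin 2) (Fin 2) F).trace ^ 2 = 4
    · have hu : ∀ u : Matrix.SpecialLinearGroup (Fin 2) F, Cfsg.Agent.H6.tr u = 2 →
          ∃ j, orderOf u = p ^ j := fun u hu => by
        obtain ⟨j, -, hj⟩ := (Nat.dvd_prime_pow hpp).1 (orderOf_dvd_of_pow_eq_one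
          (x := u) (n := p ^ 1) (by rw [pow_one]; exact Cfsg.Agent.H6.pow_char_of_tr_two p hu))
        exact ⟨j, hj⟩
      rw [Matrix.trace_fin_two] at ht
      rcases Cfsg.Agent.H6.exists_sign_tr_two (g := g) ht with h | h
      · exact ⟨1, one_mem _, g, mul_one g, hu g h⟩
      · exact ⟨-1, Cfsg.Agent.H6.mem_center_sl2.2 (Or.inr rfl), -g, by simp, hu (-g) h⟩
    · exfalso
      apply hg
      have h := (Subgroup.centralizer ({g} : Set (Matrix.SpecialLinearGroup (Fin 2) F))).card_mul_index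
      have hd : p ∣ Nat.card (Subgroup.centralizer ({g} : Set (Matrix.SpecialLinearGroup (Fin 2) F))) *
          (Subgroup.centralizer ({g} : Set (Matrix.SpecialLinearGroup (Fin 2) F))).index := by
        rw [h, Cfsg.Agent.H69.card_sl2', mul_assoc]
        exact dvd_mul_of_dvd_left hpq _
      refine (hpp.dvd_mul.1 hd).resolve_left fun hc => ?_
      rcases Cfsg.Agent.H69.card_centralizer_semisimple ht with e | e <;> rw [e] at hc
      · have := Nat.dvd_sub hpq hc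
        rw [Nat.sub_sub_self Fintype.card_pos] at this
        exact hpp.not_dvd_one this
      · exact hpp.not_dvd_one ((Nat.dvd_add_right hpq).1 hc)
  have hz : (-1 : Matrix.SpecialLinearGroup (Fin 2) F) ∈
      Subgroup.center (Matrix.SpecialLinearGroup (Fin 2) F) :=
    Cfsg.Agent.H6.mem_center_sl2.2 (Or.inr rfl)
  have hsign : ∀ χ : Cfsg.IrrCharacter (Matrix.SpecialLinearGroup (Fin 2) F),
      χ.1 (-1) = χ.1 1 ∨ χ.1 (-1) = -χ.1 1 := by
    intro χ
    have h := Cfsg.Agent.H42.irr_central_mul χ hz (-1)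
    rw [show (-1 : Matrix.SpecialLinearGroup (Fin 2) F) * -1 = 1 by simp] at h
    have h0 := Cfsg.Agent.H26.irr_one_ne_zero χ
    rw [div_mul_eq_mul_div, eq_div_iff h0] at h
    exact mul_self_eq_mul_self_iff.1 h.symm
  -- the Steinberg character
  have hStI : (Cfsg.Agent.H68.sStI F).1 1 = (q : ℂ) := Cfsg.Agent.H68.sSt_one
  have hStneg : (Cfsg.Agent.H68.sStI F).1 (-1) = (Cfsg.Agent.H68.sStI F).1 1 := by
    refine (hsign _).resolve_right fun h => ?_
    have h' : Cfsg.Agent.H68.sSt (-1 : Matrix.SpecialLinearGroup (Fin 2) F) =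
      -Cfsg.Agent.H68.sSt (1 : Matrix.SpecialLinearGroup (Fin 2) F) := h
    rw [Cfsg.Agent.H68.sSt_one] at h'
    have hd : (-1 : Matrix.SpecialLinearGroup (Fin 2) F) = Cfsg.Agent.H68.sl2Diag (-1) := by
      apply Subtype.ext
      ext i j
      fin_cases i <;> fin_cases j <;> simp
    rw [hd] at h'
    have hv : Cfsg.Agent.H68.sSt (Cfsg.Agent.H68.sl2Diag (-1 : Fˣ)) = (q : ℂ) := by
      have h := (Cfsg.Agent.H68.sl2Data F).ps_apply_tu (MulChar.equivToUnitHom (1 : MulChar F ℂ)) (-1) 0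
      rw [(Cfsg.Agent.H68.sl2Data F).u_zero, mul_one] at h
      have hact : (((Cfsg.Agent.H68.sl2Data F).act (-1) : Fˣ) : F) = 1 := by
        simp [Cfsg.Agent.H68.sl2Data]
      rw [hact] at h
      change (Cfsg.Agent.H68.sl2Data F).ps (MulChar.equivToUnitHom (1 : MulChar F ℂ))
        ((Cfsg.Agent.H68.sl2Data F).t (-1)) - 1 = _
      rw [h]
      simp [MulChar.coe_equivToUnitHom, hqdef, MulChar.one_apply (isUnit_one.neg : IsUnit (-1 : F))]
    rw [hv] at h'
    have : (q : ℂ) = 0 := by linear_combination (1 / 2 : ℂ) * h'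
    exact Fintype.card_ne_zero (Nat.cast_eq_zero.1 this)
  have hStuniq : ∀ χ : Cfsg.IrrCharacter (Matrix.SpecialLinearGroup (Fin 2) F),
      χ.1 1 = (q : ℂ) → χ = Cfsg.Agent.H68.sStI F := fun χ h =>
    Subtype.ext (Cfsg.Agent.H68.eq_sSt_of_degree χ.2 h)
  set Z : Set (Cfsg.IrrCharacter (Matrix.SpecialLinearGroup (Fin 2) F)) := {χ | χ.1 1 = (q : ℂ)}
    with hZdef
  set A : Set (Cfsg.IrrCharacter (Matrix.SpecialLinearGroup (Fin 2) F)) :=
    {χ | χ.1 (-1) = χ.1 1 ∧ χ.1 1 ≠ (q : ℂ)} with hAdef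
  set B : Set (Cfsg.IrrCharacter (Matrix.SpecialLinearGroup (Fin 2) F)) :=
    {χ | χ.1 (-1) = -χ.1 1} with hBdef
  have hBq : ∀ χ ∈ B, χ.1 1 ≠ (q : ℂ) := by
    intro χ (hχ : χ.1 (-1) = -χ.1 1) h
    rw [hStuniq χ h, hStneg] at hχ
    exact Cfsg.Agent.H26.irr_one_ne_zero (Cfsg.Agent.H68.sStI F) (by linear_combination (1 / 2 : ℂ) * hχ)
  have hsame : ∀ χ ψ : Cfsg.IrrCharacter (Matrix.SpecialLinearGroup (Fin 2) F),
      χ.1 1 ≠ (q : ℂ) → ψ.1 1 ≠ (q : ℂ) → χ.1 (-1) / χ.1 1 = ψ.1 (-1) / ψ.1 1 →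
      Cfsg.SameBlock M χ.1 ψ.1 := by
    intro χ ψ h1 h2 h
    refine Cfsg.Agent.H69.CentralBlocks.sameBlock_of_central hM (hdeg χ h1) (hdeg ψ h2) ?_ hS
    intro z hz
    rcases Cfsg.Agent.H6.mem_center_sl2.1 hz with rfl | rfl
    · rw [div_self (Cfsg.Agent.H26.irr_one_ne_zero χ), div_self (Cfsg.Agent.H26.irr_one_ne_zero ψ)]
    · exact h
  -- the blocks of the members
  have hblkZ : Cfsg.blockOf M (Cfsg.Agent.H68.sStI F).1 = Z := by
    rw [Cfsg.Agent.H40.blockOf_eq_singleton hM]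
    · ext χ
      exact ⟨fun h => by rw [Set.mem_singleton_iff.1 h]; exact hStI, hStuniq χ⟩
    · rw [hfacG, Cfsg.charDegree, hStI, Complex.natCast_re, Nat.floor_natCast]
  have hblkA : ∀ χ ∈ A, Cfsg.blockOf M χ.1 = A := by
    intro χ hχ
    ext ψ
    refine ⟨fun h => ?_, fun h => hsame χ ψ hχ.2 h.2 (by
      rw [hχ.1, h.1, div_self (Cfsg.Agent.H26.irr_one_ne_zero χ),
        div_self (Cfsg.Agent.H26.irr_one_ne_zero ψ)])⟩
    have hq' : ψ.1 1 ≠ (q : ℂ) := fun e => by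
      have h' : χ ∈ Cfsg.blockOf M ψ.1 := Cfsg.Agent.H41.sameBlock_symm h
      rw [hStuniq ψ e, hblkZ] at h'
      exact hχ.2 h'
    refine ⟨(hsign ψ).resolve_right fun e => ?_, hq'⟩
    exact Cfsg.Agent.H69.CentralBlocks.not_sameBlock_of_sign hM hp hz hχ.1 e h
  have hblkB : ∀ χ ∈ B, Cfsg.blockOf M χ.1 = B := by
    intro χ hχ
    ext ψ
    refine ⟨fun h => ?_, fun h => hsame χ ψ (hBq χ hχ) (hBq ψ h) (by
      rw [show χ.1 (-1) = -χ.1 1 from hχ, show ψ.1 (-1) = -ψ.1 1 from h, neg_div, neg_div,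
        div_self (Cfsg.Agent.H26.irr_one_ne_zero χ), div_self (Cfsg.Agent.H26.irr_one_ne_zero ψ)])⟩
    refine (hsign ψ).resolve_left fun e => ?_
    exact Cfsg.Agent.H69.CentralBlocks.not_sameBlock_of_sign hM hp hz e hχ
      (Cfsg.Agent.H41.sameBlock_symm h)
  have hcl : ∀ χ : Cfsg.IrrCharacter (Matrix.SpecialLinearGroup (Fin 2) F),
      Cfsg.blockOf M χ.1 = Z ∨ Cfsg.blockOf M χ.1 = A ∨ Cfsg.blockOf M χ.1 = B := by
    intro χ
    by_cases h : χ.1 1 = (q : ℂ)
    · exact Or.inl (by rw [hStuniq χ h]; exact hblkZ)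
    · rcases hsign χ with e | e
      · exact Or.inr (Or.inl (hblkA χ ⟨e, h⟩))
      · exact Or.inr (Or.inr (hblkB χ e))
  have hone : Cfsg.Agent.H26.oneIrr (Matrix.SpecialLinearGroup (Fin 2) F) ∈ A := by
    refine ⟨rfl, fun h => ?_⟩
    have h' : (1 : ℂ) = (q : ℂ) := h
    have := Fintype.one_lt_card (α := F)
    rw [← Nat.cast_one] at h'
    have := Nat.cast_injective h'
    omega
  obtain ⟨θ, hθ⟩ : ∃ θ, θ ∈ B := by
    by_contra hno
    push Not at hno
    have h := Cfsg.Agent.H26.column_orthogonality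
      (-1 : Matrix.SpecialLinearGroup (Fin 2) F) 1
    rw [Cfsg.Agent.H26.classIndicator, if_neg, mul_zero] at h
    · have hall : ∀ χ : Cfsg.IrrCharacter (Matrix.SpecialLinearGroup (Fin 2) F),
          χ.1 (-1) = χ.1 1 := fun χ => (hsign χ).resolve_right (hno χ)
      simp only [hall] at h
      have h' := Cfsg.Agent.H26.column_orthogonality
        (1 : Matrix.SpecialLinearGroup (Fin 2) F) 1
      rw [h, Cfsg.Agent.H26.classIndicator, if_pos (IsConj.refl _), mul_one] at h'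
      exact Nat.card_pos.ne' (Nat.cast_eq_zero.1 h'.symm)
    · intro hc
      exact Cfsg.Agent.H69.sl2_neg_ne_self h2 1 (by simpa [isConj_one_left, isConj_one_right] using hc)
  have hPZ : Cfsg.IsPBlock M Z := ⟨_, hblkZ.symm⟩
  have hPA : Cfsg.IsPBlock M A := ⟨_, (hblkA _ hone).symm⟩
  have hPB : Cfsg.IsPBlock M B := ⟨_, (hblkB θ hθ).symm⟩
  have hiff : ∀ S : Set (Cfsg.IrrCharacter (Matrix.SpecialLinearGroup (Fin 2) F)),
      Cfsg.IsPBlock M S ↔ (S = Z ∨ S = A ∨ S = B) := fun S =>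
    ⟨fun ⟨χ, hχ⟩ => hχ ▸ hcl χ, by rintro (rfl | rfl | rfl) <;> assumption⟩
  refine ⟨hiff, ?_, fun P => ⟨?_, ?_⟩⟩
  · have n1 : Z ≠ A := fun e => by
      have : Cfsg.Agent.H68.sStI F ∈ A := e ▸ (show _ ∈ Z from hStI)
      exact this.2 hStI
    have n2 : Z ≠ B := fun e => hBq _ (e ▸ (show _ ∈ Z from hStI)) hStI
    have n3 : A ≠ B := fun e => by
      have h : (Cfsg.Agent.H26.oneIrr (Matrix.SpecialLinearGroup (Fin 2) F)).1 (-1) =
          -(Cfsg.Agent.H26.oneIrr (Matrix.SpecialLinearGroup (Fin 2) F)).1 1 := by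
        have h' := hone
        rw [e] at h'
        exact h'
      norm_num [Cfsg.Agent.H26.oneIrr_val] at h
    rw [show Nat.card {S // Cfsg.IsPBlock M S} = ({Z, A, B} : Set _).ncard from
      Nat.card_congr (Equiv.subtypeEquivRight fun S => by simp [hiff S])]
    rw [Set.ncard_insert_of_notMem (by simp [n1, n2]), Set.ncard_pair n3]
  · exact Cfsg.Agent.H69.CentralBlocks.isDefectGroup_sylow hM hPA hone (hdeg _ hone.2) P
  · exact Cfsg.Agent.H69.CentralBlocks.isDefectGroup_sylow hM hPB hθ (hdeg _ (hBq θ hθ)) P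

end Cfsg.Agent.S2439
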