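import Cfsg.Statements.S2442
import Cfsg.Agent.H42.Cuspidal.Characters

set_option autoImplicit false
open scoped MatrixGroups
open Cfsg

namespace Cfsg.Agent.S2442

open Classical in
/-- Let F be a finite field with q elements and n ≥ 2. Call a complex character χ of GL_n over F cuspidal when, for every 0 < m < n, the sum of χ over the subgroup of matrices that agree with the identity outside the upper right m × (n − m) block vanishes (the restriction of χ to the unipotent radical of each maximal standard parabolic subgroup contains no principal constituent). Then GL_n has at least φ(qⁿ − 1)/n distinct cuspidal irreducible characters of degree (q − 1)(q² − 1)⋯(q^(n−1) − 1), φ being Euler's function (in particular at least one). -/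
theorem result {F : Type*} [Field F] [Fintype F] [DecidableEq F] (n : ℕ) (hn : 2 ≤ n) :
    Nat.totient (Fintype.card F ^ n - 1) / n ≤
      Nat.card {χ : Cfsg.IrrCharacter (GL (Fin n) F) //
        (χ : GL (Fin n) F → ℂ) 1 = ∏ i ∈ Finset.Ico 1 n, ((Fintype.card F : ℂ) ^ i - 1) ∧
        ∀ m : ℕ, 0 < m → m < n →
          (∑ g : GL (Fin n) F,
            if (∀ i j : Fin n, ¬ (i.val < m ∧ m ≤ j.val) → (g : Matrix (Fin n) (Fin n) F) i j = (1 : Matrix (Fin n) (Fin n) F) i j)
            then (χ : GL (Fin n) F → ℂ) g else 0) = 0} := by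
  classical
  obtain ⟨p, hp⟩ := CharP.exists F
  haveI : Fact p.Prime := ⟨CharP.char_is_prime F p⟩
  haveI : NeZero n.factorial := ⟨Nat.factorial_ne_zero n⟩
  let L := FiniteField.Extension F p n.factorial
  letI : Fintype L := Fintype.ofFinite L
  have hcard : Fintype.card L = Fintype.card F ^ n.factorial := by
    rw [Fintype.card_eq_nat_card, FiniteField.natCard_extension, Nat.card_eq_fintype_card]
  haveI : NeZero (Nat.card Lˣ) := ⟨Nat.card_pos.ne'⟩
  haveI : IsCyclic (rootsOfUnity (Nat.card Lˣ) ℂ) := inferInstance
  let e : Lˣ ≃* rootsOfUnity (Nat.card Lˣ) ℂ :=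
    mulEquivOfCyclicCardEq (Complex.card_rootsOfUnity _).symm
  exact Cfsg.Agent.H42.Cuspidal.cuspidal_count (L := L) hn p hcard (fun d h1 h2 => Nat.dvd_factorial h1 h2)
    ((rootsOfUnity (Nat.card Lˣ) ℂ).subtype.comp e.toMonoidHom)
    ((rootsOfUnity (Nat.card Lˣ) ℂ).subtype_injective.comp e.injective)

end Cfsg.Agent.S2442
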