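import Cfsg.Statements.S2500
import Cfsg.Agent.H62.Covering.Linear
import Cfsg.Agent.H62.Covering.SympEven
import Cfsg.Agent.H62.Covering.G2
import Cfsg.Agent.H62.Covering.UnitaryFour
import Cfsg.Agent.H62.Covering.UnitaryThree
import Cfsg.Agent.H62.Covering.SpSix

set_option autoImplicit false
open Cfsg

namespace Cfsg.Agent.S2500

/-- The infinite families of simple groups with normal covering number 2. For a finite field F: each of PSL_2(F) (|F| ≥ 4), PSL_3(F), PSL_4(F), PSU_4 over F (|F| = q²), PSU_3 over F when |F| = q² with q a power of 3, PSp_{2m}(F) for |F| even, m ≥ 2 and (m, |F|) ≠ (2, 2), PSp_6(F) for |F| a power of 3, and G_2(F) (automorphisms of the split octonions) for |F| = 2^a ≥ 4 is the union of the conjugates of two proper subgroups: there are proper subgroups H, K such that every element is conjugate into H or into K. -/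
theorem result {F : Type} [Field F] [Fintype F] :
    (4 ≤ Fintype.card F → (∃ H K : Subgroup (Matrix.ProjectiveSpecialLinearGroup (Fin 2) F), H ≠ ⊤ ∧ K ≠ ⊤ ∧ ∀ g : (Matrix.ProjectiveSpecialLinearGroup (Fin 2) F), ∃ x : (Matrix.ProjectiveSpecialLinearGroup (Fin 2) F), x * g * x⁻¹ ∈ H ∨ x * g * x⁻¹ ∈ K)) ∧
    (∃ H K : Subgroup (Matrix.ProjectiveSpecialLinearGroup (Fin 3) F), H ≠ ⊤ ∧ K ≠ ⊤ ∧ ∀ g : (Matrix.ProjectiveSpecialLinearGroup (Fin 3) F), ∃ x : (Matrix.ProjectiveSpecialLinearGroup (Fin 3) F), x * g * x⁻¹ ∈ H ∨ x * g * x⁻¹ ∈ K) ∧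
    (∃ H K : Subgroup (Matrix.ProjectiveSpecialLinearGroup (Fin 4) F), H ≠ ⊤ ∧ K ≠ ⊤ ∧ ∀ g : (Matrix.ProjectiveSpecialLinearGroup (Fin 4) F), ∃ x : (Matrix.ProjectiveSpecialLinearGroup (Fin 4) F), x * g * x⁻¹ ∈ H ∨ x * g * x⁻¹ ∈ K) ∧
    (∀ q : ℕ, Fintype.card F = q ^ 2 → (∃ H K : Subgroup (Cfsg.PSU 4 F q), H ≠ ⊤ ∧ K ≠ ⊤ ∧ ∀ g : (Cfsg.PSU 4 F q), ∃ x : (Cfsg.PSU 4 F q), x * g * x⁻¹ ∈ H ∨ x * g * x⁻¹ ∈ K)) ∧
    (∀ q a : ℕ, Fintype.card F = q ^ 2 → 1 ≤ a → q = 3 ^ a → (∃ H K : Subgroup (Cfsg.PSU 3 F q), H ≠ ⊤ ∧ K ≠ ⊤ ∧ ∀ g : (Cfsg.PSU 3 F q), ∃ x : (Cfsg.PSU 3 F q), x * g * x⁻¹ ∈ H ∨ x * g * x⁻¹ ∈ K)) ∧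
    (∀ m : ℕ, 2 ≤ m → ¬ Odd (Fintype.card F) → ¬ (m = 2 ∧ Fintype.card F = 2) → (∃ H K : Subgroup (Cfsg.PSp m F), H ≠ ⊤ ∧ K ≠ ⊤ ∧ ∀ g : (Cfsg.PSp m F), ∃ x : (Cfsg.PSp m F), x * g * x⁻¹ ∈ H ∨ x * g * x⁻¹ ∈ K)) ∧
    (∀ a : ℕ, 1 ≤ a → Fintype.card F = 3 ^ a → (∃ H K : Subgroup (Cfsg.PSp 3 F), H ≠ ⊤ ∧ K ≠ ⊤ ∧ ∀ g : (Cfsg.PSp 3 F), ∃ x : (Cfsg.PSp 3 F), x * g * x⁻¹ ∈ H ∨ x * g * x⁻¹ ∈ K)) ∧
    (∀ a : ℕ, 2 ≤ a → Fintype.card F = 2 ^ a → (∃ H K : Subgroup (Cfsg.Lie.G2 F), H ≠ ⊤ ∧ K ≠ ⊤ ∧ ∀ g : (Cfsg.Lie.G2 F), ∃ x : (Cfsg.Lie.G2 F), x * g * x⁻¹ ∈ H ∨ x * g * x⁻¹ ∈ K)) := by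
  classical
  have hchar : ∀ p n : ℕ, p.Prime → 1 ≤ n → Fintype.card F = p ^ n → CharP F p := by
    intro p n hp hn h
    have : Fact p.Prime := ⟨hp⟩
    exact charP_of_card_eq_prime_pow h
  refine ⟨fun _ => ?_, ?_, ?_, fun q hF => ?_, fun q a hF ha hq => ?_, fun m hm hodd _ => ?_,
    fun a ha h => ?_, fun a ha h => ?_⟩
  · exact H62.Covering.twoCover_psl (d := 2) le_rfl le_rfl dvd_rfl
      fun χ p hχ hroot _ hpi hpd => H62.Covering.dvd_factor_natDegree (Or.inl rfl) hχ hroot hpi hpd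
  · exact H62.Covering.twoCover_psl (d := 3) (by norm_num) (by norm_num) dvd_rfl
      fun χ p hχ hroot _ hpi hpd => H62.Covering.dvd_factor_natDegree (Or.inr (Or.inl rfl)) hχ hroot hpi hpd
  · exact H62.Covering.twoCover_psl (d := 2) le_rfl (by norm_num) (by norm_num)
      fun χ p hχ hroot _ hpi hpd => H62.Covering.dvd_factor_natDegree (Or.inr (Or.inr rfl)) hχ hroot hpi hpd
  · exact H62.Covering.twoCover_psu_four hF
  · have : CharP F 3 := hchar 3 (a * 2) Nat.prime_three (by omega) (by rw [hF, hq, ← pow_mul])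
    exact H62.Covering.twoCover_psu_three hF
  · obtain ⟨p, hp⟩ := CharP.exists F
    obtain ⟨k, hpp, hk⟩ := FiniteField.card F p
    have h2 : p = 2 := by
      by_contra h
      exact hodd (hk ▸ (hpp.odd_of_ne_two h).pow)
    subst h2
    exact H62.Covering.twoCover_psp_even hm
  · have : CharP F 3 := hchar 3 a Nat.prime_three ha h
    exact H62.Covering.twoCover_psp_six
  · have : CharP F 2 := hchar 2 a Nat.prime_two (by omega) h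
    exact H62.Covering.G2.twoCover_G2

end Cfsg.Agent.S2500
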