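import Cfsg.Statements.S2531

set_option autoImplicit false
open Cfsg

namespace Cfsg.Agent.S2531

variable {F : Type*} [Field F] {n : ℕ}

/-- The points of a subspace. -/
def pts (W : Submodule F (Fin n → F)) : Set (Projectivization F (Fin n → F)) :=
  Set.range (Projectivization.map W.subtype W.subtype_injective)

theorem mk_mem_pts {W : Submodule F (Fin n → F)} {v : Fin n → F} (hv : v ≠ 0) :
    Projectivization.mk F v hv ∈ pts W ↔ v ∈ W := by
  constructor
  · rintro ⟨x, hx⟩
    induction x using Projectivization.ind with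
    | h w hw =>
      rw [Projectivization.map_mk, Projectivization.mk_eq_mk_iff'] at hx
      obtain ⟨c, hc⟩ := hx
      rcases eq_or_ne c 0 with rfl | hc0
      · rw [zero_smul] at hc
        exact absurd (Subtype.ext hc.symm) hw
      · rw [← W.smul_mem_iff hc0, hc]; exact w.2
  · exact fun h => ⟨Projectivization.mk F ⟨v, h⟩ (fun h0 => hv (congrArg Subtype.val h0)),
      Projectivization.map_mk _ _ _ _⟩

theorem card_pts_cast [Finite F] (W : Submodule F (Fin n → F)) (hW : W ≠ ⊥) :
    ((Nat.card (pts W) : ℕ) : ZMod (Nat.card F)) = 1 := by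
  obtain ⟨k, hk⟩ := Nat.exists_eq_succ_of_ne_zero (fun h => hW (Submodule.finrank_eq_zero.mp h) :
    Module.finrank F W ≠ 0)
  rw [pts, Nat.card_range_of_injective (Projectivization.map_injective _ _),
    Projectivization.card_of_finrank F W hk, Nat.cast_sum, Finset.sum_range_succ']
  simp


/-- Let `F` be a finite field and `n ≥ 3`. No set of permutations of the points of the projective space of `Fⁿ`, each induced by an invertible semilinear transformation of `Fⁿ` (so a subset of the full projective semilinear group), is sharply 2-transitive on the points: it is impossible that for all pairs of distinct points `(a, b)` and `(c, d)` exactly one member of the set sends `a` to `c` and `b` to `d`. -/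
theorem result {F : Type*} [Field F] [Finite F]
    (n : ℕ) (hn : 3 ≤ n) (S : Set (Equiv.Perm (Projectivization F (Fin n → F))))
    (hS : ∀ s ∈ S, ∃ (σ : F ≃+* F) (f : (Fin n → F) →ₛₗ[(σ : F →+* F)] (Fin n → F)) (hf : Function.Injective f),
      ∀ x, s x = Projectivization.map f hf x) :
    ¬ (∀ a b c d : Projectivization F (Fin n → F), a ≠ b → c ≠ d →
        ∃! s, s ∈ S ∧ s a = c ∧ s b = d) := by
  classical
  intro h
  let i0 : Fin n := ⟨0, by omega⟩
  let i1 : Fin n := ⟨1, by omega⟩
  let i2 : Fin n := ⟨2, by omega⟩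
  let e0 : Fin n → F := Pi.single i0 1
  let e1 : Fin n → F := Pi.single i1 1
  let WL : Submodule F (Fin n → F) := LinearMap.ker (LinearMap.funLeft F F (fun j : {j : Fin n // 2 ≤ (j : ℕ)} => (j : Fin n)))
  let WH : Submodule F (Fin n → F) := LinearMap.ker (LinearMap.proj i0 : (Fin n → F) →ₗ[F] F)
  have hmemL : ∀ v, v ∈ WL ↔ ∀ j : Fin n, 2 ≤ (j : ℕ) → v j = 0 := fun v => by
    simp [WL, LinearMap.mem_ker, funext_iff, LinearMap.funLeft_apply]
  have he0 : e0 ∈ WL := (hmemL _).mpr fun j hj => Pi.single_eq_of_ne (fun e => by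
    rw [e] at hj; simp [i0] at hj) _
  have he1 : e1 ∈ WL := (hmemL _).mpr fun j hj => Pi.single_eq_of_ne (fun e => by
    rw [e] at hj; simp [i1] at hj) _
  have he1H : e1 ∈ WH := by simp [WH, e1, i0, i1, Pi.single_apply]
  have he0' : e0 ≠ 0 := fun e => by simpa [e0] using congrFun e i0
  have he1' : e1 ≠ 0 := fun e => by simpa [e1] using congrFun e i1
  let w : Fin n → F := e0 + Pi.single i2 1
  have hw0 : w i0 = 1 := by simp [w, e0, i0, i2, Pi.single_apply]
  have hw2 : w i2 = 1 := by simp [w, e0, i0, i2, Pi.single_apply]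
  have hw : w ≠ 0 := fun e => by simp [e] at hw0
  let a : (Projectivization F (Fin n → F)) := Projectivization.mk F w hw
  have haL : a ∉ pts WL := fun e => by
    have := (hmemL w).mp ((mk_mem_pts hw).mp e) i2 le_rfl
    simp [hw2] at this
  have haH : a ∉ pts WH := fun e => by
    have : w i0 = 0 := (mk_mem_pts hw).mp e
    simp [hw0] at this
  let T := {s : Equiv.Perm (Projectivization F (Fin n → F)) // s ∈ S ∧ s a = a}
  have hT : ∀ x y : (Projectivization F (Fin n → F)), x ≠ a → y ≠ a → ∃! s : T, s.1 x = y := by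
    intro x y hx hy
    obtain ⟨s, ⟨h1, h2, h3⟩, hu⟩ := h a x a y hx.symm hy.symm
    exact ⟨⟨s, h1, h2⟩, h3, fun s' hs' => Subtype.ext (hu s'.1 ⟨s'.2.1, s'.2.2, hs'⟩)⟩
  let x0 : (Projectivization F (Fin n → F)) := Projectivization.mk F e0 he0'
  have hx0 : x0 ≠ a := fun e => haL (e ▸ (mk_mem_pts he0').mpr he0)
  have hcT : Nat.card T = Nat.card {y : (Projectivization F (Fin n → F)) // y ≠ a} := by
    refine Nat.card_congr (Equiv.ofBijective (fun s => ⟨s.1 x0, fun e => hx0 (s.1.injective (e.trans s.2.2.symm))⟩) ⟨?_, ?_⟩)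
    · intro s s' hss
      have hss' : s.1 x0 = s'.1 x0 := congrArg Subtype.val hss
      exact (hT x0 (s'.1 x0) hx0 fun e => hx0 (s'.1.injective (e.trans s'.2.2.symm))).unique hss' rfl
    · intro y
      obtain ⟨s, hs, -⟩ := hT x0 y.1 hx0 y.2
      exact ⟨s, Subtype.ext hs⟩
  have : Fintype T := Fintype.ofFinite T
  have hcount : ∑ s : T, Nat.card {x : pts WL // s.1 x.1 ∈ pts WH} =
      Nat.card (pts WL) * Nat.card (pts WH) := by
    rw [← Nat.card_sigma, ← Nat.card_prod]
    refine Nat.card_congr (Equiv.ofBijective (fun z => (z.2.1, ⟨z.1.1 z.2.1.1, z.2.2⟩)) ⟨?_, ?_⟩)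
    · rintro ⟨s, x, hx⟩ ⟨s', x', hx'⟩ e
      obtain ⟨e1', e2⟩ := Prod.mk.inj e
      subst e1'
      have e3 : s.1 x.1 = s'.1 x.1 := congrArg Subtype.val e2
      obtain rfl : s = s' := (hT x.1 (s'.1 x.1) (fun e => haL (e ▸ x.2)) fun e => haH (e ▸ hx')).unique e3 rfl
      rfl
    · rintro ⟨x, y⟩
      obtain ⟨s, hs, -⟩ := hT x.1 y.1 (fun e => haL (e ▸ x.2)) fun e => haH (e ▸ y.2)
      exact ⟨⟨s, x, hs.symm ▸ y.2⟩, Prod.ext rfl (Subtype.ext hs)⟩
  have hone : ∀ s : T, ((Nat.card {x : pts WL // s.1 x.1 ∈ pts WH} : ℕ) : ZMod (Nat.card F)) = 1 := by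
    intro s
    obtain ⟨σ, f, hf, hsf⟩ := hS s.1 s.2.1
    have hne : WL ⊓ WH.comap f ≠ ⊥ := by
      rw [Submodule.ne_bot_iff]
      by_cases h0 : f e0 i0 = 0
      · exact ⟨e0, ⟨he0, h0⟩, he0'⟩
      · refine ⟨σ.symm (f e1 i0) • e0 - σ.symm (f e0 i0) • e1,
          ⟨sub_mem (WL.smul_mem _ he0) (WL.smul_mem _ he1), ?_⟩, fun e => h0 ?_⟩
        · show f _ i0 = 0
          rw [map_sub, LinearMap.map_smulₛₗ, LinearMap.map_smulₛₗ]
          simp [mul_comm]
        · have := congrFun e i1
          simpa [e0, e1, i0, i1, Pi.single_apply] using this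
    rw [← card_pts_cast _ hne]
    refine congrArg Nat.cast (Nat.card_congr ?_)
    refine (Equiv.subtypeSubtypeEquivSubtypeInter (· ∈ pts WL) (fun x => s.1 x ∈ pts WH)).trans (Equiv.subtypeEquivRight fun x => ?_)
    induction x using Projectivization.ind with
    | h v hv =>
      rw [hsf, Projectivization.map_mk, mk_mem_pts, mk_mem_pts, mk_mem_pts]
      rfl
  have hL1 : ((Nat.card (pts WL) : ℕ) : ZMod (Nat.card F)) = 1 :=
    card_pts_cast _ ((Submodule.ne_bot_iff _).mpr ⟨e0, he0, he0'⟩)
  have hH1 : ((Nat.card (pts WH) : ℕ) : ZMod (Nat.card F)) = 1 :=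
    card_pts_cast _ ((Submodule.ne_bot_iff _).mpr ⟨e1, he1H, he1'⟩)
  have e := congrArg (Nat.cast : ℕ → ZMod (Nat.card F)) hcount
  rw [Nat.cast_sum, Finset.sum_congr rfl (fun s _ => hone s), Nat.cast_mul, hL1, hH1, one_mul,
    Finset.sum_const, Finset.card_univ, nsmul_one, ← Nat.card_eq_fintype_card, hcT] at e
  have hN : ((Nat.card (Projectivization F (Fin n → F)) : ℕ) : ZMod (Nat.card F)) = 1 := by
    rw [Projectivization.card_of_finrank F _ (Module.finrank_fin_fun F), Nat.cast_sum,
      show n = (n - 1) + 1 by omega, Finset.sum_range_succ']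
    simp
  have hsplit : Nat.card (Projectivization F (Fin n → F)) = Nat.card {y : (Projectivization F (Fin n → F)) // y ≠ a} + 1 := by
    have : Fintype (Projectivization F (Fin n → F)) := Fintype.ofFinite (Projectivization F (Fin n → F))
    rw [Nat.card_eq_fintype_card, Nat.card_eq_fintype_card, Fintype.card_subtype_compl,
      Fintype.card_subtype_eq]
    have := Fintype.card_pos_iff.mpr ⟨a⟩
    omega
  rw [hsplit, Nat.cast_add, e, Nat.cast_one] at hN
  have : Fact (1 < Nat.card F) := ⟨Finite.one_lt_card⟩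
  exact one_ne_zero (add_eq_right.mp hN)

end Cfsg.Agent.S2531
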