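import Cfsg.Statements.S2532
-- import your own Cfsg.Agent.* helpers here

set_option autoImplicit false
open Cfsg

namespace Cfsg.Agent.S2532

/-- There is a function `f` of two natural-number arguments such that, whenever `m ≥ f(n, r)`, every subgroup of order `n` of the alternating group of degree `m` centralizes some subgroup of that alternating group isomorphic to the alternating group of degree `r`. -/
theorem result :
    ∃ f : ℕ → ℕ → ℕ, ∀ (m r : ℕ) (H : Subgroup ↥(alternatingGroup (Fin m))), f (Nat.card H) r ≤ m →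
      ∃ K : Subgroup ↥(alternatingGroup (Fin m)), Nonempty (↥K ≃* ↥(alternatingGroup (Fin r))) ∧
        K ≤ Subgroup.centralizer (H : Set ↥(alternatingGroup (Fin m))) := by
  classical
  refine ⟨fun n r => 2 ^ n * (r * n) + 1, fun m r H hm => ?_⟩
  simp only at hm
  haveI : Fintype ↥H := Fintype.ofFinite _
  set n := Nat.card ↥H with hn
  have hnpos : 0 < n := Nat.card_pos
  -- the stabiliser of a point, as a set of elements of `H`
  let st : Fin m → Finset ↥H := fun x => Finset.univ.filter (fun h : ↥H => h • x = x)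
  obtain ⟨S, -, hS⟩ := Finset.exists_lt_card_fiber_of_mul_lt_card_of_maps_to
    (s := (Finset.univ : Finset (Fin m))) (t := (Finset.univ : Finset (Finset ↥H))) (f := st) (n := r * n)
    (fun x _ => Finset.mem_univ _)
    (by rw [Finset.card_univ, Finset.card_univ, Fintype.card_finset, Fintype.card_fin,
          ← Nat.card_eq_fintype_card, ← hn]; omega)
  set T := Finset.univ.filter (fun x => st x = S) with hT
  let q : Fin m → MulAction.orbitRel.Quotient ↥H (Fin m) := fun x => Quotient.mk'' x
  have hfib : T.card ≤ n * (T.image q).card := by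
    refine Finset.card_le_mul_card_image T n fun o ho => ?_
    obtain ⟨x, hx, rfl⟩ := Finset.mem_image.1 ho
    calc _ ≤ (Finset.univ.image (fun h : ↥H => h • x)).card := by
          refine Finset.card_le_card fun y hy => ?_
          have hy' := (Finset.mem_filter.1 hy).2
          obtain ⟨h, rfl⟩ := MulAction.orbitRel_apply.1 (Quotient.eq''.1 hy')
          exact Finset.mem_image_of_mem _ (Finset.mem_univ h)
      _ ≤ n := Finset.card_image_le.trans (by rw [Finset.card_univ, hn, Nat.card_eq_fintype_card])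
  have hr : r ≤ (T.image q).card := by
    by_contra hlt
    have : n * (T.image q).card ≤ n * r := Nat.mul_le_mul_left _ (by omega)
    rw [mul_comm r n] at hS
    omega
  obtain ⟨O, hO, hOc⟩ := Finset.exists_subset_card_eq hr
  let eO : Fin r ≃ ↥O := (Finset.equivFinOfCardEq hOc).symm
  have hrep : ∀ i, ∃ x, st x = S ∧ q x = (eO i : MulAction.orbitRel.Quotient ↥H (Fin m)) := by
    intro i
    obtain ⟨x, hx, hxo⟩ := Finset.mem_image.1 (hO (eO i).2)
    exact ⟨x, (Finset.mem_filter.1 hx).2, hxo⟩
  choose x hxS hxq using hrep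
  have hsame : ∀ i j, ∀ h : ↥H, h • x i = x i → h • x j = x j := by
    intro i j h hh
    have h1 : h ∈ S := hxS i ▸ (by simp [st, hh])
    rw [← hxS j] at h1
    exact (Finset.mem_filter.1 h1).2
  rcases Nat.eq_zero_or_pos r with hr0 | hr0
  · subst hr0
    refine ⟨⊥, ⟨?_⟩, bot_le⟩
    haveI : Subsingleton ↥(alternatingGroup (Fin 0)) := inferInstance
    exact { toFun := fun _ => 1, invFun := fun _ => 1, left_inv := fun a => Subsingleton.elim _ _,
            right_inv := fun a => Subsingleton.elim _ _, map_mul' := fun a b => by simp }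
  let i₀ : Fin r := ⟨0, hr0⟩
  let St : Subgroup ↥H := MulAction.stabilizer ↥H (x i₀)
  have hpt : ∀ i, ∀ a b : ↥H, (a : ↥H ⧸ St) = b ↔ a • x i = b • x i := by
    intro i a b
    rw [QuotientGroup.eq, MulAction.mem_stabilizer_iff]
    constructor
    · intro h
      have := hsame i₀ i _ h
      rw [mul_smul, inv_smul_eq_iff] at this
      exact this.symm
    · intro h
      refine hsame i i₀ _ ?_
      rw [mul_smul, inv_smul_eq_iff]
      exact h.symm
  let e₀ : Fin r × (↥H ⧸ St) → Fin m := fun p =>
    Quotient.liftOn' p.2 (fun a : ↥H => a • x p.1)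
      (fun a b hab => (hpt p.1 a b).1 (Quotient.sound' hab))
  have he : ∀ i (a : ↥H), e₀ (i, (a : ↥H ⧸ St)) = a • x i := fun _ _ => rfl
  let e : Fin r × (↥H ⧸ St) ↪ Fin m := ⟨e₀, by
    rintro ⟨i, a⟩ ⟨j, b⟩ hab
    induction a using QuotientGroup.induction_on with | _ a =>
    induction b using QuotientGroup.induction_on with | _ b =>
    rw [he, he] at hab
    have hij : i = j := by
      apply eO.injective
      apply Subtype.ext
      rw [← hxq, ← hxq]
      refine Quotient.sound' (MulAction.orbitRel_apply.2 ⟨a⁻¹ * b, ?_⟩)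
      simp only [mul_smul, inv_smul_eq_iff]
      exact hab.symm
    subst hij
    rw [(hpt i a b).2 hab]⟩
  let L : Equiv.Perm (Fin r) →* Equiv.Perm (Fin r × (↥H ⧸ St)) :=
    { toFun := fun σ => Equiv.prodCongrLeft (fun _ => σ)
      map_one' := by ext p <;> simp
      map_mul' := fun a b => by ext p <;> simp }
  let ψ : Equiv.Perm (Fin r) →* Equiv.Perm (Fin m) := (Equiv.Perm.viaEmbeddingHom e).comp L
  have hψinj : Function.Injective ψ := by
    refine (Equiv.Perm.viaEmbeddingHom_injective e).comp ?_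
    intro a b hab
    ext i
    have h2 : L a (i, ((1 : ↥H) : ↥H ⧸ St)) = L b (i, ((1 : ↥H) : ↥H ⧸ St)) := by rw [hab]
    have h3 := congrArg Prod.fst h2
    simp [L] at h3
    exact congrArg _ h3
  haveI : Fintype (↥H ⧸ St) := Fintype.ofFinite _
  have hsign : ∀ σ : Equiv.Perm (Fin r), Equiv.Perm.sign σ = 1 → Equiv.Perm.sign (ψ σ) = 1 := by
    intro σ hσ
    show Equiv.Perm.sign (Equiv.Perm.viaEmbedding (Equiv.prodCongrLeft (fun _ => σ)) e) = 1
    rw [Equiv.Perm.viaEmbedding, Equiv.Perm.sign_extendDomain, Equiv.Perm.sign_prodCongrLeft]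
    exact Finset.prod_eq_one fun _ _ => hσ
  let φ : ↥(alternatingGroup (Fin r)) →* ↥(alternatingGroup (Fin m)) :=
    (ψ.comp (alternatingGroup (Fin r)).subtype).codRestrict _
      (fun σ => Equiv.Perm.mem_alternatingGroup.2 (hsign σ (Equiv.Perm.mem_alternatingGroup.1 σ.2)))
  have hφ : Function.Injective φ := by
    intro a b hab
    exact Subtype.ext (hψinj (congrArg Subtype.val hab))
  refine ⟨φ.range, ⟨(MonoidHom.ofInjective hφ).symm⟩, ?_⟩
  rintro _ ⟨σ, rfl⟩
  rw [Subgroup.mem_centralizer_iff]
  intro g hg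
  let h : ↥H := ⟨g, hg⟩
  apply Subtype.ext
  apply Equiv.ext
  intro y
  show h • (ψ σ y) = ψ σ (h • y)
  by_cases hy : y ∈ Set.range e
  · obtain ⟨⟨i, a⟩, rfl⟩ := hy
    induction a using QuotientGroup.induction_on with | _ a =>
    have hl : h • e (i, (a : ↥H ⧸ St)) = e (i, ((h * a : ↥H) : ↥H ⧸ St)) := by
      show h • (a • x i) = (h * a) • x i
      rw [mul_smul]
    rw [hl]
    show h • Equiv.Perm.viaEmbedding (L σ) e _ = Equiv.Perm.viaEmbedding (L σ) e _
    rw [Equiv.Perm.viaEmbedding_apply, Equiv.Perm.viaEmbedding_apply]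
    show h • (a • x ((σ : Equiv.Perm (Fin r)) i)) = (h * a) • x ((σ : Equiv.Perm (Fin r)) i)
    rw [mul_smul]
  · have hy' : h • y ∉ Set.range e := by
      rintro ⟨⟨i, a⟩, ha⟩
      induction a using QuotientGroup.induction_on with | _ a =>
      refine hy ⟨(i, ((h⁻¹ * a : ↥H) : ↥H ⧸ St)), ?_⟩
      show (h⁻¹ * a) • x i = y
      rw [mul_smul, inv_smul_eq_iff]
      exact ha
    show h • Equiv.Perm.viaEmbedding (L σ) e _ = Equiv.Perm.viaEmbedding (L σ) e _
    rw [Equiv.Perm.viaEmbedding_apply_of_notMem _ _ _ hy, Equiv.Perm.viaEmbedding_apply_of_notMem _ _ _ hy']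

end Cfsg.Agent.S2532
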