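import Cfsg.Statements.S2533

set_option autoImplicit false
open Cfsg

namespace Cfsg.Agent.S2533

open Matrix

variable {F : Type*} [Field F] {m : ℕ}

/-- The upper shift. -/
def shift (F : Type*) [Field F] (m : ℕ) : Matrix (Fin m) (Fin m) F :=
  Matrix.of fun i j => if (i : ℕ) + 1 = j then 1 else 0

theorem shift_mul_apply (A : Matrix (Fin m) (Fin m) F) (i i' j : Fin m) (h : (i' : ℕ) = i + 1) :
    (shift F m * A) i j = A i' j := by
  rw [Matrix.mul_apply, Finset.sum_eq_single i']
  · simp [shift, h]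
  · intro b _ hb
    have e : ¬ (i : ℕ) + 1 = b := fun e => hb (Fin.ext (by omega))
    simp [shift, e]
  · simp

theorem mul_shift_apply (A : Matrix (Fin m) (Fin m) F) (i j j' : Fin m) (h : (j : ℕ) = j' + 1) :
    (A * shift F m) i j = A i j' := by
  rw [Matrix.mul_apply, Finset.sum_eq_single j']
  · simp [shift, h]
  · intro b _ hb
    have e : ¬ (b : ℕ) + 1 = j := fun e => hb (Fin.ext (by omega))
    simp [shift, e]
  · simp

theorem mul_shift_apply_zero (A : Matrix (Fin m) (Fin m) F) (i j : Fin m) (h : (j : ℕ) = 0) :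
    (A * shift F m) i j = 0 := by
  rw [Matrix.mul_apply]
  exact Finset.sum_eq_zero fun b _ => by simp [shift, h]

/-- Only scalars commute with both shifts. -/
theorem eq_scalar_of_commute (hm : 0 < m) (A : Matrix (Fin m) (Fin m) F) (h1 : A * shift F m = shift F m * A)
    (h2 : A * (shift F m)ᵀ = (shift F m)ᵀ * A) : A = A ⟨0, hm⟩ ⟨0, hm⟩ • 1 := by
  have h2' : Aᵀ * shift F m = shift F m * Aᵀ := by
    have := congrArg Matrix.transpose h2
    rw [transpose_mul, transpose_mul, transpose_transpose] at this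
    exact this.symm
  have key : ∀ (k : ℕ) (i j : Fin m), (i : ℕ) = k → A i j = if i = j then A ⟨0, hm⟩ ⟨0, hm⟩ else 0 := by
    intro k
    induction k with
    | zero =>
      intro i j hi
      obtain rfl : i = ⟨0, hm⟩ := Fin.ext hi
      split_ifs with h
      · rw [← h]
      · have hj : (j : ℕ) ≠ 0 := fun e => h (Fin.ext e.symm)
        have e := congrFun (congrFun h2' ⟨(j : ℕ) - 1, by omega⟩) ⟨0, hm⟩
        rw [mul_shift_apply_zero _ _ _ rfl, shift_mul_apply _ _ j _ (by show (j : ℕ) = (j : ℕ) - 1 + 1; omega)] at e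
        exact e.symm
    | succ k ih =>
      intro i j hi
      have hk : k < m := by omega
      rcases Nat.eq_zero_or_pos (j : ℕ) with hj | hj
      · have e := congrFun (congrFun h1 ⟨k, hk⟩) j
        rw [mul_shift_apply_zero _ _ _ hj, shift_mul_apply _ _ i _ hi] at e
        rw [← e, if_neg fun h => by rw [← h] at hj; omega]
      · have e := congrFun (congrFun h1 ⟨k, hk⟩) j
        rw [mul_shift_apply _ _ _ ⟨(j : ℕ) - 1, by omega⟩ (by show (j : ℕ) = (j : ℕ) - 1 + 1; omega),
          shift_mul_apply _ _ i _ hi, ih _ _ rfl] at e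
        rw [← e]
        congr 1
        simp only [Fin.ext_iff, eq_iff_iff]
        omega
  ext i j
  rw [key i i j rfl, Matrix.smul_apply, Matrix.one_apply, smul_eq_mul, mul_ite, mul_one, mul_zero]

variable (p : ℕ)

/-- Units of `ℤ` acting on an abelian group by powers. -/
def act : ℤˣ →* MulAut (Multiplicative (Fin 3 → ZMod p)) where
  toFun u :=
    { toFun := fun x => x ^ (u : ℤ)
      invFun := fun x => x ^ (u : ℤ)
      left_inv := fun x => by show (x ^ (u : ℤ)) ^ (u : ℤ) = x; rw [← _root_.zpow_mul, ← Units.val_mul, Int.units_mul_self, Units.val_one, zpow_one]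
      right_inv := fun x => by show (x ^ (u : ℤ)) ^ (u : ℤ) = x; rw [← _root_.zpow_mul, ← Units.val_mul, Int.units_mul_self, Units.val_one, zpow_one]
      map_mul' := fun x y => mul_zpow x y _ }
  map_one' := by ext x; simp
  map_mul' u v := by
    refine MulEquiv.ext fun x => ?_
    show x ^ ((u * v : ℤˣ) : ℤ) = (x ^ (v : ℤ)) ^ (u : ℤ)
    rw [← _root_.zpow_mul, Units.val_mul, mul_comm]

abbrev Hgrp := SemidirectProduct (Multiplicative (Fin 3 → ZMod p)) ℤˣ (act p)

/-- The off-diagonal block. -/
def blockM [Fact p.Prime] (m : ℕ) : (Fin 3 → ZMod p) →ₗ[ZMod p] Matrix (Fin m) (Fin m) (ZMod p) where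
  toFun v := v 0 • (1 : Matrix _ _ _) + v 1 • shift (ZMod p) m + v 2 • (shift (ZMod p) m)ᵀ
  map_add' v w := by simp only [Pi.add_apply, add_smul]; abel
  map_smul' c v := by simp [smul_add, smul_smul]

/-- The representation. -/
def blockHom [Fact p.Prime] (m : ℕ) : Hgrp p →* Matrix (Fin m ⊕ Fin m) (Fin m ⊕ Fin m) (ZMod p) where
  toFun x := Matrix.fromBlocks 1 0 (blockM p m x.left.toAdd) (((x.right : ℤ) : ZMod p) • 1)
  map_one' := by simp
  map_mul' x y := by
    have e : (Multiplicative.toAdd (act p x.right y.left)) = ((x.right : ℤ) : ZMod p) • y.left.toAdd := by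
      show (y.left ^ (x.right : ℤ)).toAdd = _
      rw [toAdd_zpow]
      ext i
      simp
    rw [SemidirectProduct.mul_left, SemidirectProduct.mul_right, toAdd_mul, e, map_add, map_smul,
      Matrix.fromBlocks_multiply]
    simp [smul_smul, mul_comm]

theorem blockM_injective [Fact p.Prime] {m : ℕ} (hm : 2 ≤ m) : Function.Injective (blockM p m) := by
  rw [injective_iff_map_eq_zero]
  intro v hv
  have h := fun i j => congrFun (congrFun hv i) j
  have e0 := h ⟨0, by omega⟩ ⟨0, by omega⟩
  have e1 := h ⟨0, by omega⟩ ⟨1, by omega⟩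
  have e2 := h ⟨1, by omega⟩ ⟨0, by omega⟩
  simp [blockM, shift] at e0 e1 e2
  ext i
  fin_cases i <;> assumption


/-- For every odd prime `p` there is a finite group `H` of order `2p³` which, for infinitely many `n`, embeds in the projective special linear group `PSL(n, p)` as a subgroup with trivial centralizer. -/
theorem result
    (p : ℕ) [Fact p.Prime] (hp : p ≠ 2) :
    ∃ (H : Type) (_ : Group H) (_ : Finite H), Nat.card H = 2 * p ^ 3 ∧
      ∀ N : ℕ, ∃ n, N ≤ n ∧ ∃ φ : H →* Matrix.ProjectiveSpecialLinearGroup (Fin n) (ZMod p),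
        Function.Injective φ ∧ Subgroup.centralizer (φ.range : Set (Matrix.ProjectiveSpecialLinearGroup (Fin n) (ZMod p))) = ⊥ := by
  classical
  refine ⟨Hgrp p, inferInstance, Finite.of_equiv _ (SemidirectProduct.equivProd (φ := act p)).symm, ?_, fun N => ?_⟩
  · rw [SemidirectProduct.card, Nat.card_congr Multiplicative.toAdd, Nat.card_fun, Nat.card_zmod,
      Nat.card_eq_fintype_card (α := ℤˣ), Fintype.card_units_int, Nat.card_fin, mul_comm]
  obtain ⟨m, hm, hN, hev⟩ : ∃ m, 2 ≤ m ∧ N ≤ m + m ∧ Even m := ⟨2 * (N + 1), by omega, by omega, ⟨N + 1, by omega⟩⟩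
  let R : Matrix (Fin m ⊕ Fin m) (Fin m ⊕ Fin m) (ZMod p) ≃ₐ[ZMod p] Matrix (Fin (m + m)) (Fin (m + m)) (ZMod p) :=
    Matrix.reindexAlgEquiv (ZMod p) (ZMod p) finSumFinEquiv
  have hRdet : ∀ X, (R X).det = X.det := fun X => Matrix.det_reindexAlgEquiv _ _ _ X
  have hdet : ∀ x, (R (blockHom p m x)).det = 1 := fun x => by
    rw [hRdet]
    simp only [blockHom, MonoidHom.coe_mk, OneHom.coe_mk, Matrix.det_fromBlocks_zero₁₂, Matrix.det_one,
      Matrix.det_smul, Fintype.card_fin, one_mul, mul_one]
    rcases Int.units_eq_one_or x.right with h | h <;> rw [h] <;> simp [hev.neg_one_pow]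
  let f : Hgrp p →* Matrix.SpecialLinearGroup (Fin (m + m)) (ZMod p) :=
    { toFun := fun x => ⟨R (blockHom p m x), hdet x⟩
      map_one' := Subtype.ext (by simp)
      map_mul' := fun x y => Subtype.ext (show R (blockHom p m (x * y)) = R (blockHom p m x) * R (blockHom p m y) by simp) }
  let π : Matrix.SpecialLinearGroup (Fin (m + m)) (ZMod p) →* Matrix.ProjectiveSpecialLinearGroup (Fin (m + m)) (ZMod p) :=
    QuotientGroup.mk' _
  have hne2 : (-1 : ZMod p) ≠ 1 := by
    have : Fact (2 < p) := ⟨by have := (Fact.out : p.Prime).two_le; omega⟩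
    exact ZMod.neg_one_ne_one
  refine ⟨m + m, hN, π.comp f, ?_, ?_⟩
  · rw [injective_iff_map_eq_one]
    intro x hx
    obtain ⟨c, -, hc⟩ := Matrix.SpecialLinearGroup.mem_center_iff.mp ((QuotientGroup.eq_one_iff _).mp hx)
    have hc' : c • (1 : Matrix (Fin m ⊕ Fin m) (Fin m ⊕ Fin m) (ZMod p)) = blockHom p m x := by
      refine R.injective ?_
      rw [map_smul, map_one]
      rw [Matrix.scalar_apply, ← Matrix.smul_one_eq_diagonal] at hc
      exact hc
    simp only [blockHom, MonoidHom.coe_mk, OneHom.coe_mk, ← Matrix.fromBlocks_one, Matrix.fromBlocks_smul,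
      smul_zero, Matrix.fromBlocks_inj] at hc'
    obtain ⟨h1, -, h3, h4⟩ := hc'
    have hc1 : c = 1 := by simpa using congrFun (congrFun h1 ⟨0, by omega⟩) ⟨0, by omega⟩
    subst hc1
    have h5 := congrFun (congrFun h4 ⟨0, by omega⟩) ⟨0, by omega⟩
    have hr : x.right = 1 := (Int.units_eq_one_or x.right).resolve_right fun h => by
      rw [h] at h5
      exact hne2 (by simpa using h5.symm)
    exact SemidirectProduct.ext (Multiplicative.toAdd.injective (blockM_injective p hm
      (by rw [← h3]; simp))) hr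
  · rw [Subgroup.eq_bot_iff_forall]
    intro y hy
    obtain ⟨G, rfl⟩ := QuotientGroup.mk_surjective y
    rw [Subgroup.mem_centralizer_iff] at hy
    let X := R.symm (G : Matrix (Fin (m + m)) (Fin (m + m)) (ZMod p))
    have hcomm : ∀ x, ∃ c : ZMod p, X * blockHom p m x = c • (blockHom p m x * X) := by
      intro x
      have h := hy (π (f x)) ⟨x, rfl⟩
      have h' : ((f x * G)⁻¹ * (G * f x)) ∈ Subgroup.center (Matrix.SpecialLinearGroup (Fin (m + m)) (ZMod p)) :=
        QuotientGroup.eq.mp h
      obtain ⟨c, -, hc⟩ := Matrix.SpecialLinearGroup.mem_center_iff.mp h'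
      refine ⟨c, R.injective ?_⟩
      have e : (G * f x : Matrix.SpecialLinearGroup (Fin (m + m)) (ZMod p)) = (f x * G) * ((f x * G)⁻¹ * (G * f x)) := by group
      have e' := congrArg Subtype.val e
      rw [Matrix.SpecialLinearGroup.coe_mul, Matrix.SpecialLinearGroup.coe_mul, ← hc, Matrix.scalar_apply,
        ← Matrix.smul_one_eq_diagonal, Matrix.mul_smul, mul_one] at e'
      simp only [X, map_mul, map_smul, AlgEquiv.apply_symm_apply]
      exact e'
    obtain ⟨A, B, C, D, hX⟩ : ∃ A B C D, X = Matrix.fromBlocks A B C D := ⟨_, _, _, _, (Matrix.fromBlocks_toBlocks X).symm⟩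
    have hvec : ∀ v : Fin 3 → ZMod p, ∃ c : ZMod p, A + B * blockM p m v = c • A ∧ B = c • B ∧
        C + D * blockM p m v = c • (blockM p m v * A + C) ∧ D = c • (blockM p m v * B + D) := by
      intro v
      obtain ⟨c, hc⟩ := hcomm (SemidirectProduct.inl (Multiplicative.ofAdd v))
      refine ⟨c, ?_⟩
      simpa [hX, blockHom, Matrix.fromBlocks_multiply, Matrix.fromBlocks_smul, Matrix.fromBlocks_inj] using hc
    have hdetX : X.det = 1 := by rw [← hRdet, AlgEquiv.apply_symm_apply]; exact G.2
    obtain ⟨c0, a0, b0, -, d0⟩ := hvec (Pi.single 0 1)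
    have hM0 : blockM p m (Pi.single 0 1) = 1 := by simp [blockM]
    rw [hM0, mul_one] at a0
    rw [hM0, one_mul] at d0
    have hne : Nonempty (Fin m) := ⟨⟨0, by omega⟩⟩
    have hA : A ≠ 0 ∨ B ≠ 0 := by
      by_contra h
      push Not at h
      rw [hX, h.1, h.2, Matrix.det_fromBlocks_zero₁₂, Matrix.det_zero, zero_mul] at hdetX
      · exact zero_ne_one hdetX
    have hc0 : c0 = 1 := by
      by_contra h
      have hB : B = 0 := (smul_eq_zero.mp (show (c0 - 1) • B = 0 by rw [sub_smul, one_smul, ← b0, sub_self])).resolve_left (sub_ne_zero.mpr h)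
      rw [hB, add_zero] at a0
      have hA0 : A = 0 := (smul_eq_zero.mp (show (c0 - 1) • A = 0 by rw [sub_smul, one_smul, ← a0, sub_self])).resolve_left (sub_ne_zero.mpr h)
      exact hA.elim (fun h => h hA0) (fun h => h hB)
    subst hc0
    rw [one_smul, add_eq_left] at a0
    subst a0
    have hA0 : A ≠ 0 := hA.resolve_right fun h => h rfl
    have hone : ∀ c : ZMod p, A = c • A → c = 1 := fun c h => by
      by_contra hc
      exact hA0 ((smul_eq_zero.mp (show (c - 1) • A = 0 by rw [sub_smul, one_smul, ← h, sub_self])).resolve_left (sub_ne_zero.mpr hc))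
    have hcm : ∀ v, C + D * blockM p m v = blockM p m v * A + C := fun v => by
      obtain ⟨c, h1, -, h3, -⟩ := hvec v
      rw [zero_mul, add_zero] at h1
      rw [h3, hone c h1, one_smul]
    have hDA : D = A := by simpa [hM0, add_comm C] using hcm (Pi.single 0 1)
    subst hDA
    obtain ⟨ct, hct⟩ := hcomm (SemidirectProduct.inr (-1))
    simp [hX, blockHom, Matrix.fromBlocks_multiply, Matrix.fromBlocks_smul, Matrix.fromBlocks_inj] at hct
    have hC : C = 0 := by
      have h1 := hone ct hct.1
      subst h1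
      have h2 := hct.2.1
      rw [one_smul, eq_neg_iff_add_eq_zero, ← two_smul (ZMod p)] at h2
      refine (smul_eq_zero.mp h2).resolve_left fun h => hne2 ?_
      linear_combination -h
    subst hC
    have hc1 : D * shift (ZMod p) m = shift (ZMod p) m * D := by
      simpa [blockM] using hcm (Pi.single 1 1)
    have hc2 : D * (shift (ZMod p) m)ᵀ = (shift (ZMod p) m)ᵀ * D := by
      simpa [blockM] using hcm (Pi.single 2 1)
    have hD := eq_scalar_of_commute (show 0 < m by omega) D hc1 hc2
    set a := D ⟨0, by omega⟩ ⟨0, by omega⟩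
    have hXs : X = a • 1 := by
      rw [hX, hD, ← Matrix.fromBlocks_one, Matrix.fromBlocks_smul, smul_zero]
    rw [QuotientGroup.eq_one_iff, Matrix.SpecialLinearGroup.mem_center_iff]
    refine ⟨a, ?_, ?_⟩
    · rw [hXs, Matrix.det_smul, Matrix.det_one, mul_one] at hdetX
      simpa using hdetX
    · rw [Matrix.scalar_apply, ← Matrix.smul_one_eq_diagonal]
      have := congrArg R hXs
      rw [AlgEquiv.apply_symm_apply, map_smul, map_one] at this
      exact this.symm

end Cfsg.Agent.S2533
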