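import Cfsg.Statements.S2534
import Cfsg.Agent.H85.HallSymmetric
import Cfsg.Agent.H63.Hall.Witness

set_option autoImplicit false
open Cfsg
open Cfsg.Agent.H63.Hall

namespace Cfsg.Agent.S2534

/-- For `n ≥ 5` and a set of primes `π`, the alternating group of degree `n` satisfies the full Sylow analogue for `π` (its maximal `π`-subgroups are pairwise conjugate; for a finite group this says Hall `π`-subgroups exist, are all conjugate, and contain every `π`-subgroup up to conjugacy) if and only if either at most one prime of `π` divides its order or every prime dividing its order lies in `π`. -/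
theorem result (n : ℕ) (hn : 5 ≤ n) (π : Set ℕ) :
    Cfsg.IsDPiGroup π ↥(alternatingGroup (Fin n)) ↔
      ((∀ r s : ℕ, r.Prime → s.Prime → r ∈ π → s ∈ π → r ∣ Nat.card ↥(alternatingGroup (Fin n)) → s ∣ Nat.card ↥(alternatingGroup (Fin n)) → r = s) ∨
        ∀ r : ℕ, r.Prime → r ∣ Nat.card ↥(alternatingGroup (Fin n)) → r ∈ π) := by
  refine ⟨fun hD => ?_, fun h => isDPi_of_easy h⟩
  by_contra hc
  push Not at hc
  obtain ⟨⟨r, s, hr, hs, hrπ, hsπ, hrd, hsd, hne⟩, t, ht, htd, htπ⟩ := hc
  have hcard := Fintype.card_fin n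
  have h : TwoCase π (Fintype.card (Fin n)) :=
    ⟨⟨r, s, hr, hs, hne, hrπ, hsπ, le_of_prime_dvd_alt hr hrd, le_of_prime_dvd_alt hs hsd⟩,
      t, ht, le_of_prime_dvd_alt ht htd, htπ⟩
  obtain ⟨M, hM⟩ := Cfsg.Agent.H85.isEPiGroup_of_isDPiGroup hD
  obtain ⟨A, hA, hMA, -⟩ := classify (hallAlt_map hM) h.1 h.2
  have hmax : Maximal (Cfsg.IsPiSubgroup π) M :=
    ⟨hM.1, fun K hK hle => (eq_of_hall_le hM hle hK).ge⟩
  -- every π-subgroup lies in a standard stabiliser
  have key : ∀ K : Subgroup (Equiv.Perm (Fin n)), K ≤ alternatingGroup (Fin n) →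
      Cfsg.IsPiSubgroup π K → ∃ B : Finset (Fin n), B.card = A.card ∧ K ≤ split B := by
    intro K hKA hK
    have hK' : Cfsg.IsPiSubgroup π (K.subgroupOf (alternatingGroup (Fin n))) := fun p hp hd => by
      rw [Nat.card_congr (Subgroup.subgroupOfEquivOfLe hKA).toEquiv] at hd
      exact hK p hp hd
    obtain ⟨L, hKL, hL⟩ := Finite.exists_le_maximal (p := Cfsg.IsPiSubgroup π)
      (a := K.subgroupOf (alternatingGroup (Fin n))) hK'
    obtain ⟨g, rfl⟩ := hD M L hmax hL
    refine ⟨A.map (g : Equiv.Perm (Fin n)).toEmbedding, Finset.card_map _, fun x hx => ?_⟩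
    have h1 := hKL (show (⟨x, hKA hx⟩ : ↥(alternatingGroup (Fin n))) ∈ _ from hx)
    rw [Subgroup.mem_map_equiv] at h1
    have h2 := Subgroup.mem_map_of_mem (alternatingGroup (Fin n)).subtype h1
    rw [hMA, Subgroup.mem_inf] at h2
    rw [← conj_split]
    simpa using h2.1
  rcases hA with ⟨hA1, hp, hπ⟩ | ⟨hA4, hn7, hπ⟩ <;> rw [hcard] at *
  · obtain ⟨K, hKA, hKc, hKfix⟩ := exists_no_fixed hn
    have hK : Cfsg.IsPiSubgroup π K := fun p hp' hd => by
      have := hp'.dvd_factorial.1 (hd.trans hKc)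
      exact (hπ p hp' (by omega)).2 (by omega)
    obtain ⟨B, hB, hle⟩ := key K hKA hK
    rw [hA1] at hB
    obtain ⟨x, rfl⟩ := Finset.card_eq_one.1 hB
    obtain ⟨g, hg, hgx⟩ := hKfix x
    obtain ⟨u, hu, v, hv, huv⟩ := Finset.one_lt_card.1
      (show 1 < ({x}ᶜ : Finset (Fin n)).card by
        rw [Finset.card_compl, Finset.card_singleton, Fintype.card_fin]; omega)
    simp only [Finset.mem_compl, Finset.mem_singleton] at hu hv
    have h1 := hle hg x u
    have h2 := hle hg x v
    simp [hgx, hu, hv] at h1 h2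
    exact huv (g.injective (h1.trans h2.symm))
  · obtain ⟨K, hKA, hKc, hKsplit⟩ := exists_no_split hn7
    have hK : Cfsg.IsPiSubgroup π K := fun p hp' hd => by
      have hd' : p ∣ 2 ^ 2 * 3 := by norm_num; exact hd.trans hKc
      rcases hp'.dvd_mul.1 hd' with h' | h'
      · have := (Nat.prime_dvd_prime_iff_eq hp' Nat.prime_two).1 (hp'.dvd_of_dvd_pow h')
        exact (hπ p hp' (by omega)).2 (Or.inl this)
      · have := (Nat.prime_dvd_prime_iff_eq hp' Nat.prime_three).1 h'
        exact (hπ p hp' (by omega)).2 (Or.inr this)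
    obtain ⟨B, hB, hle⟩ := key K hKA hK
    exact hKsplit B (by omega) hle

end Cfsg.Agent.S2534
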