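import Cfsg.Statements.S2540
import Cfsg.Agent.H1.PSLSimple
-- import your own Cfsg.Agent.* helpers here

set_option autoImplicit false
open Cfsg

namespace Cfsg.Agent.S2540

/-- Let F be a finite field and n ≥ 1, excluding the case n = 2 with #F ≤ 3. A subgroup of GL_n(F) that is normalized by every element of SL_n(F) either consists of scalar matrices or contains SL_n(F). -/
theorem result {F : Type*} [Field F] [Fintype F] (n : ℕ) (hn : 1 ≤ n) (hex : ¬ (n = 2 ∧ Fintype.card F ≤ 3)) (G : Subgroup (Matrix.GeneralLinearGroup (Fin n) F)) (hG : ∀ s : Matrix.SpecialLinearGroup (Fin n) F, ∀ g ∈ G, (Matrix.SpecialLinearGroup.toGL s) * g * (Matrix.SpecialLinearGroup.toGL s)⁻¹ ∈ G) : (∀ g ∈ G, ∃ c : F, (g : Matrix (Fin n) (Fin n) F) = c • (1 : Matrix (Fin n) (Fin n) F)) ∨ (Matrix.SpecialLinearGroup.toGL : Matrix.SpecialLinearGroup (Fin n) F →* _).range ≤ G := by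
  classical
  rcases Nat.lt_or_ge n 2 with hn2 | hn2
  · obtain rfl : n = 1 := by omega
    refine Or.inr ?_
    rintro - ⟨s, rfl⟩
    rw [Subsingleton.elim s 1, map_one]
    exact G.one_mem
  have hcond : 3 ≤ Fintype.card (Fin n) ∨ ∃ x : F, x ≠ 0 ∧ x ^ 2 ≠ 1 := by
    rcases Nat.lt_or_ge n 3 with h3 | h3
    · refine Or.inr ?_
      by_contra hcon
      push Not at hcon
      have hsub : (Finset.univ : Finset F) ⊆ {0, 1, -1} := fun x _ => by
        rcases eq_or_ne x 0 with rfl | hx
        · simp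
        · rcases sq_eq_one_iff.1 (hcon x hx) with rfl | rfl <;> simp
      have := (Finset.card_le_card hsub).trans Finset.card_le_three
      rw [Finset.card_univ] at this
      exact hex ⟨by omega, this⟩
    · exact Or.inl (by simpa using h3)
  have : Nontrivial (Fin n) := Fin.nontrivial_iff_two_le.2 hn2
  have hsimp := Cfsg.Agent.H1.isSimpleGroup_PSL (ι := Fin n) (F := F) hcond
  have hperf := Cfsg.Agent.H1.commutator_SL_eq_top (ι := Fin n) (F := F) hcond
  set K : Subgroup (Matrix.SpecialLinearGroup (Fin n) F) := G.comap Matrix.SpecialLinearGroup.toGL with hK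
  have hKn : K.Normal := ⟨fun k hk s => by
    rw [hK, Subgroup.mem_comap, map_mul, map_mul, map_inv]
    exact hG s _ hk⟩
  set Z := Subgroup.center (Matrix.SpecialLinearGroup (Fin n) F)
  rcases (hKn.map (QuotientGroup.mk' Z) (QuotientGroup.mk'_surjective Z)).eq_bot_or_eq_top with hb | ht
  · refine Or.inl fun g hg => ?_
    rw [Subgroup.map_eq_bot_iff, QuotientGroup.ker_mk'] at hb
    have hdet : ∀ s : Matrix.SpecialLinearGroup (Fin n) F,
        ((g * Matrix.SpecialLinearGroup.toGL s * g⁻¹ * (Matrix.SpecialLinearGroup.toGL s)⁻¹ :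
          Matrix.GeneralLinearGroup (Fin n) F) : Matrix (Fin n) (Fin n) F).det = 1 := by
      intro s
      rw [← Matrix.GeneralLinearGroup.val_det_apply]
      simp [mul_comm, mul_left_comm]
    let ψ : Matrix.SpecialLinearGroup (Fin n) F → Matrix.SpecialLinearGroup (Fin n) F :=
      fun s => ⟨_, hdet s⟩
    have hψGL : ∀ s, Matrix.SpecialLinearGroup.toGL (ψ s) =
        g * Matrix.SpecialLinearGroup.toGL s * g⁻¹ * (Matrix.SpecialLinearGroup.toGL s)⁻¹ :=
      fun s => Units.ext rfl
    have hψZ : ∀ s, ψ s ∈ Z := fun s => hb (by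
      rw [hK, Subgroup.mem_comap, hψGL]
      have h := G.mul_mem hg (hG s g⁻¹ (G.inv_mem hg))
      simpa [mul_assoc] using h)
    have hmul : ∀ s t, ψ (s * t) = ψ s * ψ t := fun s t => by
      apply Matrix.SpecialLinearGroup.toGL_injective
      have hc := congrArg Matrix.SpecialLinearGroup.toGL (Subgroup.mem_center_iff.1 (hψZ t) s)
      simp only [map_mul, hψGL] at hc ⊢
      rw [show g * Matrix.SpecialLinearGroup.toGL s * g⁻¹ * (Matrix.SpecialLinearGroup.toGL s)⁻¹ *
          (g * Matrix.SpecialLinearGroup.toGL t * g⁻¹ * (Matrix.SpecialLinearGroup.toGL t)⁻¹) =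
          g * Matrix.SpecialLinearGroup.toGL s * g⁻¹ * ((Matrix.SpecialLinearGroup.toGL s)⁻¹ *
          (g * Matrix.SpecialLinearGroup.toGL t * g⁻¹ * (Matrix.SpecialLinearGroup.toGL t)⁻¹)) by group]
      rw [show (Matrix.SpecialLinearGroup.toGL s)⁻¹ *
          (g * Matrix.SpecialLinearGroup.toGL t * g⁻¹ * (Matrix.SpecialLinearGroup.toGL t)⁻¹) =
          (g * Matrix.SpecialLinearGroup.toGL t * g⁻¹ * (Matrix.SpecialLinearGroup.toGL t)⁻¹) *
          (Matrix.SpecialLinearGroup.toGL s)⁻¹ by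
        rw [inv_mul_eq_iff_eq_mul, ← mul_assoc (Matrix.SpecialLinearGroup.toGL s), hc, mul_inv_cancel_right]]
      group
    have hψ1 : ∀ s, ψ s = 1 := fun s => by
      let f : Matrix.SpecialLinearGroup (Fin n) F →* Z := MonoidHom.mk' (fun s => ⟨ψ s, hψZ s⟩)
        fun a b => Subtype.ext (hmul a b)
      let : CommGroup Z := { (inferInstance : Group Z) with
        mul_comm := fun a b => Subtype.ext (Subgroup.mem_center_iff.1 b.2 a) }
      have hmem : s ∈ commutator (Matrix.SpecialLinearGroup (Fin n) F) := by rw [hperf]; trivial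
      exact congrArg Subtype.val (Abelianization.commutator_subset_ker f hmem : f s = 1)
    obtain ⟨c, hc⟩ := Matrix.mem_range_scalar_of_commute_transvectionStruct
      (M := (g : Matrix (Fin n) (Fin n) F)) (fun t => by
        let T : Matrix.SpecialLinearGroup (Fin n) F := ⟨t.toMatrix, by simp⟩
        have h1 := hψGL T
        rw [hψ1 T, map_one, eq_comm, mul_inv_eq_one, mul_inv_eq_iff_eq_mul] at h1
        exact (congrArg Units.val h1).symm)
    exact ⟨c, by rw [← hc, Matrix.scalar_apply, Matrix.smul_one_eq_diagonal]⟩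
  · refine Or.inr ?_
    have hle : commutator (Matrix.SpecialLinearGroup (Fin n) F) ≤ K := by
      rw [commutator_eq_closure, Subgroup.closure_le]
      rintro - ⟨a, b, rfl⟩
      have hdec : ∀ a, ∃ k ∈ K, ∃ z ∈ Z, a = k * z := fun a => by
        obtain ⟨k, hk, hka⟩ := (show QuotientGroup.mk' Z a ∈ K.map (QuotientGroup.mk' Z) by rw [ht]; trivial)
        exact ⟨k, hk, k⁻¹ * a, QuotientGroup.eq.1 hka, by group⟩
      obtain ⟨k, hk, z, hz, rfl⟩ := hdec a
      obtain ⟨l, hl, w, hw, rfl⟩ := hdec b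
      have key : ∀ x y z w : Matrix.SpecialLinearGroup (Fin n) F, z ∈ Z → w ∈ Z →
          (x * z) * (y * w) * (x * z)⁻¹ * (y * w)⁻¹ = x * y * x⁻¹ * y⁻¹ := by
        intro x y z w hz hw
        rw [Subgroup.mem_center_iff] at hz hw
        rw [show (x * z) * (y * w) * (x * z)⁻¹ * (y * w)⁻¹ = x * (z * (y * w)) * z⁻¹ * x⁻¹ * (w⁻¹ * y⁻¹) by group,
          ← hz (y * w), show x * (y * w * z) * z⁻¹ * x⁻¹ * (w⁻¹ * y⁻¹) = x * y * (w * x⁻¹) * w⁻¹ * y⁻¹ by group,
          ← hw x⁻¹]
        group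
      show _ ∈ K
      rw [commutatorElement_def, key k l z w hz hw]
      exact K.mul_mem (K.mul_mem (K.mul_mem hk hl) (K.inv_mem hk)) (K.inv_mem hl)
    rintro - ⟨s, rfl⟩
    exact hle (by rw [hperf]; trivial)

end Cfsg.Agent.S2540
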