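import Cfsg.Statements.S2541
-- import your own Cfsg.Agent.* helpers here

set_option autoImplicit false
open Cfsg

namespace Cfsg.Agent.S2541

/-- Let F be a field with 9 elements. The symmetric group S_6 is not isomorphic to PGL_2(F) (although both have index-2 subgroups isomorphic to A_6). -/
theorem result {F : Type*} [Field F] [Fintype F] (hF : Fintype.card F = 9) : ¬ Nonempty (Equiv.Perm (Fin 6) ≃* Matrix.ProjGenLinGroup (Fin 2) F) := by
  classical
  rintro ⟨e⟩
  let f : F →* Matrix (Fin 2) (Fin 2) F :=
    { toFun := fun a => Matrix.diagonal ![a, 1]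
      map_one' := by rw [← Matrix.diagonal_one]; congr 1; funext i; fin_cases i <;> rfl
      map_mul' := fun a b => by
        rw [Matrix.diagonal_mul_diagonal]; congr 1; funext i; fin_cases i <;> simp }
  let ψ : Fˣ →* Matrix.ProjGenLinGroup (Fin 2) F := Matrix.ProjGenLinGroup.mk.comp (Units.map f)
  have hinj : Function.Injective ψ := by
    rw [injective_iff_map_eq_one]
    intro a ha
    have hc : Units.map f a ∈ Subgroup.center (GL (Fin 2) F) := Matrix.ProjGenLinGroup.mk_eq_one.1 ha
    rw [Matrix.GeneralLinearGroup.center_eq_range_scalar, MonoidHom.mem_range] at hc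
    obtain ⟨r, hr⟩ := hc
    have hr' := congrArg (fun u : GL (Fin 2) F => (u : Matrix (Fin 2) (Fin 2) F)) hr
    have h0 := congrFun (congrFun hr' 0) 0
    have h1 := congrFun (congrFun hr' 1) 1
    simp [f] at h0 h1
    exact Units.ext (by rw [← h0, h1])
  obtain ⟨g, hg⟩ := IsCyclic.exists_generator (α := Fˣ)
  have hord : orderOf g = 8 := by
    rw [orderOf_eq_card_of_forall_mem_zpowers hg, Nat.card_eq_fintype_card, Fintype.card_units, hF]
  set σ : Equiv.Perm (Fin 6) := e.symm (ψ g)
  have hσ : orderOf σ = 8 := by
    rw [MulEquiv.orderOf_eq e.symm, orderOf_injective ψ hinj, hord]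
  have : orderOf σ ∣ 60 := by
    rw [← Equiv.Perm.lcm_cycleType]
    refine Multiset.lcm_dvd.2 fun k hk => ?_
    have h6 : k ≤ 6 := by
      have := Multiset.le_sum_of_mem hk
      rw [Equiv.Perm.sum_cycleType] at this
      exact this.trans ((Finset.card_le_univ _).trans (by simp))
    have h2 := Equiv.Perm.two_le_of_mem_cycleType hk
    interval_cases k <;> decide
  rw [hσ] at this
  omega

end Cfsg.Agent.S2541
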