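import Cfsg.Statements.S2542
import Cfsg.Agent.H63.PSLEleven

set_option autoImplicit false
open Cfsg

namespace Cfsg.Agent.S2542

/-- Let F be a field with 11 elements. PSL_2(F) has a subgroup H of index 11 isomorphic to the alternating group A_5, and the action of PSL_2(F) on the cosets of H is 2-transitive (of degree 11). -/
theorem result {F : Type*} [Field F] [Fintype F] (hF : Fintype.card F = 11) : ∃ H : Subgroup (Matrix.ProjectiveSpecialLinearGroup (Fin 2) F), H.index = 11 ∧ Nonempty (H ≃* alternatingGroup (Fin 5)) ∧ MulAction.IsMultiplyPretransitive (Matrix.ProjectiveSpecialLinearGroup (Fin 2) F) ((Matrix.ProjectiveSpecialLinearGroup (Fin 2) F) ⧸ H) 2 := by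
  obtain ⟨H, -, hH⟩ := Cfsg.Agent.H6.exists_alt_five hF (by norm_num)
  exact ⟨H, Cfsg.Agent.H63.PSLEleven.index_eq hF hH, hH, Cfsg.Agent.H63.PSLEleven.two_transitive hF hH⟩

end Cfsg.Agent.S2542
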