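import Cfsg.Statements.S2545
import Cfsg.Agent.H2.St.SpData
import Cfsg.Agent.H2.Center

set_option autoImplicit false
open Cfsg

namespace Cfsg.Agent.S2545

/-- Let F be a finite field of characteristic p and consider the projective symplectic group PSp_{2m}(F) with m ≥ 1. This group has an irreducible complex character χ whose degree equals the order of a Sylow p-subgroup (namely q^(m²) when #F = q) and whose restriction to any Sylow p-subgroup P is the regular character of P: χ vanishes on the non-identity elements of P. (This is the Steinberg character.) -/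
theorem result {F : Type*} [Field F] [Fintype F] (p : ℕ) [Fact p.Prime] [CharP F p] (m : ℕ) (hm : 1 ≤ m) : ∃ χ : Cfsg.PSp m F → ℂ, Cfsg.IsIrrCharacter (Cfsg.PSp m F) χ ∧ ∀ P : Sylow p (Cfsg.PSp m F), χ 1 = Nat.card P ∧ ∀ x : Cfsg.PSp m F, x ∈ P → x ≠ 1 → χ x = 0 := by
  obtain ⟨M, rfl⟩ : ∃ M, m = M + 1 := ⟨m - 1, by omega⟩
  haveI : Finite (Matrix.symplecticGroup (Fin (M + 1)) F) := Subtype.finite
  refine (H2.St.spData M F).exists_steinberg p
    (QuotientGroup.mk' (Subgroup.center (Matrix.symplecticGroup (Fin (M + 1)) F)))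
    (QuotientGroup.mk'_surjective _) ?_
  intro g hg i j hij
  rw [QuotientGroup.ker_mk', H2.mem_center_iff_eq hm] at hg
  obtain ⟨x, rfl⟩ := (H2.St.spIdx (M + 1)).surjective i
  obtain ⟨y, rfl⟩ := (H2.St.spIdx (M + 1)).surjective j
  have hxy : x ≠ y := fun e => hij (by rw [e])
  show H2.St.spMat (M + 1) F g (H2.St.spIdx (M + 1) x) (H2.St.spIdx (M + 1) y) = 0
  rw [H2.St.spMat_apply]
  rcases hg with h | h <;> rw [h] <;> simp [Matrix.one_apply_ne hxy]

end Cfsg.Agent.S2545
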