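import Cfsg.Statements.S2548
import Cfsg.Agent.H2.St.PlusData
import Cfsg.Agent.H2.St.PlusSmall

set_option autoImplicit false
open Cfsg

namespace Cfsg.Agent.S2548

/-- Let F be a finite field of characteristic p and consider the group PΩ⁺_{2m}(F) of the hyperbolic quadratic form Σ x_i y_i with m ≥ 1, where Ω denotes the commutator subgroup of the full isometry group. This group has an irreducible complex character χ whose degree equals the order of a Sylow p-subgroup (equal to q^(m(m−1)) when #F = q, except in the degenerate case m = 2, q = 2, where this commutator subgroup has order 18 and its Sylow 2-subgroups have order 2) and whose restriction to any Sylow p-subgroup P is the regular character of P: χ vanishes on the non-identity elements of P. (This is the Steinberg character.) -/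
theorem result {F : Type*} [Field F] [Fintype F] (p : ℕ) [Fact p.Prime] [CharP F p] (m : ℕ) (hm : 1 ≤ m) : ∃ χ : Cfsg.POmega F (Cfsg.quadFormPlus m F) → ℂ, Cfsg.IsIrrCharacter (Cfsg.POmega F (Cfsg.quadFormPlus m F)) χ ∧ ∀ P : Sylow p (Cfsg.POmega F (Cfsg.quadFormPlus m F)), χ 1 = Nat.card P ∧ ∀ x : Cfsg.POmega F (Cfsg.quadFormPlus m F), x ∈ P → x ≠ 1 → χ x = 0 := by
  haveI : Finite (Fin m ⊕ Fin m → F) := Pi.finite
  haveI : Finite (Cfsg.Agent.H5.orth (Cfsg.Agent.H5.qPlus m F)) :=
    Finite.of_injective (fun g => ((g.1 : (Fin m ⊕ Fin m → F) ≃ₗ[F] (Fin m ⊕ Fin m → F)) : (Fin m ⊕ Fin m → F) → (Fin m ⊕ Fin m → F)))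
      (fun a b h => Subtype.ext (LinearEquiv.ext (congrFun h)))
  refine H2.St.hasSteinberg_congr (H5.pomegaEquiv (H5.qPlus m F) (H5.coe_qPlus m)) ?_
  rcases m with _ | _ | M
  · omega
  · exact H2.St.hasSteinberg_center_of_comm H2.St.omegaPlusTwo_comm
  by_cases hq : Nat.card F ≠ 2 ∨ Module.finrank F (Fin (M + 2) ⊕ Fin (M + 2) → F) ≠ 4
  · exact (H2.St.Plus.plusData M F hq).exists_steinberg_center p
  push Not at hq
  obtain ⟨h2, h4⟩ := hq
  obtain rfl : M = 0 := by simp at h4; omega
  obtain rfl : p = 2 := by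
    have h := FiniteField.cast_card_eq_zero F
    rw [← Nat.card_eq_fintype_card, h2] at h
    have := (CharP.cast_eq_zero_iff F p 2).1 h
    exact (Nat.prime_dvd_prime_iff_eq (Fact.out : p.Prime) Nat.prime_two).1 this
  exact H2.St.hasSteinberg_plusFourTwo h2

end Cfsg.Agent.S2548
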