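import Cfsg.Statements.S2552
import Mathlib

set_option autoImplicit false
open Cfsg

namespace Cfsg.Agent.S2552

/-- Let F be a finite field and n ≥ 1. For every k, the special linear group SL_n(F) acts transitively on the set of k-dimensional subspaces of F^n: any two subspaces of the same dimension are carried onto each other by some matrix of determinant 1. -/
theorem result {F : Type*} [Field F] [Fintype F] (n : ℕ) (hn : 1 ≤ n) (U₁ U₂ : Submodule F (Fin n → F)) (h : Module.finrank F U₁ = Module.finrank F U₂) : ∃ g : Matrix.SpecialLinearGroup (Fin n) F, U₁.map ((Matrix.SpecialLinearGroup.toLin' g : (Fin n → F) ≃ₗ[F] (Fin n → F)) : (Fin n → F) →ₗ[F] (Fin n → F)) = U₂ := by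
  classical
  have key : ∀ (U : Submodule F (Fin n → F)), ∀ k, k = Module.finrank F U →
      ∃ b : Module.Basis (Fin k ⊕ Fin (n - k)) F (Fin n → F), U = Submodule.span F (Set.range (b ∘ Sum.inl)) := by
    rintro U k rfl
    obtain ⟨W, hW⟩ := Submodule.exists_isCompl U
    have hadd := Submodule.finrank_add_eq_of_isCompl hW
    rw [Module.finrank_fin_fun] at hadd
    let b := ((Module.finBasis F U).prod (Module.finBasisOfFinrankEq F W (n := n - Module.finrank F U) (by omega))).map
      (Submodule.prodEquivOfIsCompl U W hW)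
    refine ⟨b, ?_⟩
    have : (b ∘ Sum.inl : Fin (Module.finrank F U) → (Fin n → F)) = fun i => ((Module.finBasis F U) i : Fin n → F) := by
      funext i; simp [b]
    rw [this]
    conv_lhs => rw [← Submodule.range_subtype U, ← Submodule.map_top, ← (Module.finBasis F U).span_eq, Submodule.map_span, ← Set.range_comp]
    rfl
  obtain ⟨b₁, hb₁⟩ := key U₁ _ rfl
  obtain ⟨b₂, hb₂⟩ := key U₂ (Module.finrank F U₁) h
  have hne : Nonempty (Fin (Module.finrank F U₁) ⊕ Fin (n - Module.finrank F U₁)) := by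
    have hle := Submodule.finrank_le U₁
    rw [Module.finrank_fin_fun] at hle
    rcases Nat.eq_zero_or_pos (Module.finrank F U₁) with h0 | h0
    · exact ⟨Sum.inr ⟨0, by omega⟩⟩
    · exact ⟨Sum.inl ⟨0, h0⟩⟩
  obtain ⟨i₀⟩ := hne
  let e₀ := b₁.equiv b₂ (Equiv.refl _)
  set d : Fˣ := LinearEquiv.det e₀
  let w : _ → Fˣ := Function.update (fun _ => 1) i₀ d⁻¹
  let e := b₁.equiv (b₂.unitsSMul w) (Equiv.refl _)
  have hU : U₁.map (e : (Fin n → F) →ₗ[F] (Fin n → F)) = U₂ := by
    rw [hb₁, hb₂, Submodule.map_span, ← Set.range_comp]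
    refine le_antisymm (Submodule.span_le.mpr ?_) (Submodule.span_le.mpr ?_)
    · rintro _ ⟨i, rfl⟩
      have : e (b₁ (Sum.inl i)) = (w (Sum.inl i) : F) • b₂ (Sum.inl i) := by
        simp [e, Module.Basis.unitsSMul_apply, Units.smul_def]
      simp only [Function.comp_apply, LinearEquiv.coe_coe, this]
      exact Submodule.smul_mem _ _ (Submodule.subset_span ⟨i, rfl⟩)
    · rintro _ ⟨i, rfl⟩
      have : b₂ (Sum.inl i) = ((w (Sum.inl i))⁻¹ : Fˣ) • e (b₁ (Sum.inl i)) := by
        simp [e, Module.Basis.unitsSMul_apply, smul_smul]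
      simp only [Function.comp_apply, this]
      exact Submodule.smul_mem _ _ (Submodule.subset_span ⟨i, rfl⟩)
  have hdet : LinearMap.det (e : (Fin n → F) →ₗ[F] (Fin n → F)) = 1 := by
    have h1 : (e : (Fin n → F) →ₗ[F] (Fin n → F)) =
        (b₂.equiv (b₂.unitsSMul w) (Equiv.refl _) : (Fin n → F) →ₗ[F] (Fin n → F)).comp (e₀ : (Fin n → F) →ₗ[F] (Fin n → F)) :=
      b₁.ext fun i => by simp [e, e₀]
    have h2 : LinearMap.det (b₂.equiv (b₂.unitsSMul w) (Equiv.refl _) : (Fin n → F) →ₗ[F] (Fin n → F)) = (d⁻¹ : Fˣ) := by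
      rw [← LinearMap.det_toMatrix b₂, show LinearMap.toMatrix b₂ b₂ (b₂.equiv (b₂.unitsSMul w) (Equiv.refl _) : (Fin n → F) →ₗ[F] (Fin n → F)) = Matrix.diagonal (fun i => (w i : F)) from ?_]
      · rw [Matrix.det_diagonal, Finset.prod_eq_single i₀ (fun i _ hi => by simp [w, Function.update_of_ne hi]) (by simp)]
        simp [w]
      · ext i j
        simp [LinearMap.toMatrix_apply, Module.Basis.unitsSMul_apply, Units.smul_def, Matrix.diagonal_apply, Finsupp.single_apply]
        split_ifs <;> simp_all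
    rw [h1, LinearMap.det_comp, h2, ← LinearEquiv.coe_det]
    simp only [d, Units.val_inv_eq_inv_val, LinearEquiv.coe_det]
    exact inv_mul_cancel₀ (LinearEquiv.isUnit_det' e₀).ne_zero
  refine ⟨⟨LinearMap.toMatrix' (e : (Fin n → F) →ₗ[F] (Fin n → F)), by rw [LinearMap.det_toMatrix', hdet]⟩, ?_⟩
  conv_rhs => rw [← hU]
  congr 1
  apply LinearMap.ext
  intro v
  change Matrix.toLin' (LinearMap.toMatrix' (e : (Fin n → F) →ₗ[F] (Fin n → F))) v = e v
  rw [Matrix.toLin'_toMatrix']
  rfl

end Cfsg.Agent.S2552
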