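import Cfsg.Statements.S2561
import Cfsg.Agent.H66.BinaryForms
-- import your own Cfsg.Agent.* helpers here

set_option autoImplicit false
open Cfsg

namespace Cfsg.Agent.S2561

/-- Fix the non-singular alternating form on the 2m-dimensional space over the field of two elements obtained by polarizing the plus-type form Σ xᵢyᵢ (m ≥ 1). The functions q on the space with q(u + v) = q(u) + q(v) + f(u, v) (the quadratic forms polarizing to f) number 2^(2m); each is equivalent under an invertible linear map either to the plus-type form or to the minus-type form Σ xᵢyᵢ + (z₁² + z₁z₂ + z₂²); and those of plus type number 2^(2m−1) + 2^(m−1), those of minus type 2^(2m−1) − 2^(m−1). -/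
theorem result (m : ℕ) (hm : 1 ≤ m) :
    Nat.card {q : (Fin m ⊕ Fin m → ZMod 2) → ZMod 2 // (∀ u v : (Fin m ⊕ Fin m → ZMod 2), q (u + v) = q u + q v + (Cfsg.quadFormPlus m (ZMod 2) (u + v) - Cfsg.quadFormPlus m (ZMod 2) u - Cfsg.quadFormPlus m (ZMod 2) v))} = 2 ^ (2 * m) ∧
    (∀ q : (Fin m ⊕ Fin m → ZMod 2) → ZMod 2, (∀ u v : (Fin m ⊕ Fin m → ZMod 2), q (u + v) = q u + q v + (Cfsg.quadFormPlus m (ZMod 2) (u + v) - Cfsg.quadFormPlus m (ZMod 2) u - Cfsg.quadFormPlus m (ZMod 2) v)) →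
      (∃ g : (Fin m ⊕ Fin m → ZMod 2) ≃ₗ[ZMod 2] (Fin m ⊕ Fin m → ZMod 2), ∀ v, q v = Cfsg.quadFormPlus m (ZMod 2) (g v)) ∨
      (∃ g : (Fin m ⊕ Fin m → ZMod 2) ≃ₗ[ZMod 2] ((Fin (m - 1) ⊕ Fin (m - 1)) ⊕ Fin 2 → ZMod 2), ∀ v, q v = Cfsg.quadFormMinus (m - 1) (ZMod 2) 1 1 (g v))) ∧
    Nat.card {q : (Fin m ⊕ Fin m → ZMod 2) → ZMod 2 // (∀ u v : (Fin m ⊕ Fin m → ZMod 2), q (u + v) = q u + q v + (Cfsg.quadFormPlus m (ZMod 2) (u + v) - Cfsg.quadFormPlus m (ZMod 2) u - Cfsg.quadFormPlus m (ZMod 2) v)) ∧ ∃ g : (Fin m ⊕ Fin m → ZMod 2) ≃ₗ[ZMod 2] (Fin m ⊕ Fin m → ZMod 2), ∀ v, q v = Cfsg.quadFormPlus m (ZMod 2) (g v)} = 2 ^ (2 * m - 1) + 2 ^ (m - 1) ∧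
    Nat.card {q : (Fin m ⊕ Fin m → ZMod 2) → ZMod 2 // (∀ u v : (Fin m ⊕ Fin m → ZMod 2), q (u + v) = q u + q v + (Cfsg.quadFormPlus m (ZMod 2) (u + v) - Cfsg.quadFormPlus m (ZMod 2) u - Cfsg.quadFormPlus m (ZMod 2) v)) ∧ ∃ g : (Fin m ⊕ Fin m → ZMod 2) ≃ₗ[ZMod 2] ((Fin (m - 1) ⊕ Fin (m - 1)) ⊕ Fin 2 → ZMod 2), ∀ v, q v = Cfsg.quadFormMinus (m - 1) (ZMod 2) 1 1 (g v)} = 2 ^ (2 * m - 1) - 2 ^ (m - 1) := by
  classical
  change Nat.card {q // Cfsg.Agent.H66.IsPolarTwo m q} = 2 ^ (2 * m) ∧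
    (∀ q, Cfsg.Agent.H66.IsPolarTwo m q → _) ∧ Nat.card {q // Cfsg.Agent.H66.IsPolarTwo m q ∧ _} = _ ∧
      Nat.card {q // Cfsg.Agent.H66.IsPolarTwo m q ∧ _} = _
  let e := Equiv.ofBijective _ (Cfsg.Agent.H66.bijective_transTwo (m := m))
  refine ⟨?_, fun q hq => ?_, ?_, ?_⟩
  · rw [← Nat.card_congr e, Nat.card_fun, Nat.card_sum, Nat.card_zmod, Nat.card_eq_fintype_card (α := Fin m),
      Fintype.card_fin, two_mul]
  · obtain ⟨a, ha⟩ := (Cfsg.Agent.H66.bijective_transTwo (m := m)).2 ⟨q, hq⟩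
    have ha' : Cfsg.Agent.H66.transTwo a = q := congrArg Subtype.val ha
    subst ha'
    by_cases h : Cfsg.quadFormPlus m (ZMod 2) a = 0
    · exact Or.inl ((Cfsg.Agent.H66.transTwo_type hm a).1.2 h)
    · exact Or.inr ((Cfsg.Agent.H66.transTwo_type hm a).2.2 h)
  · rw [← Cfsg.Agent.H66.card_qPlus_two m hm]
    refine (Nat.card_congr ?_).symm
    exact (e.subtypeEquiv (q := fun q => ∃ g : (Fin m ⊕ Fin m → ZMod 2) ≃ₗ[ZMod 2] (Fin m ⊕ Fin m → ZMod 2),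
      ∀ v, q.1 v = Cfsg.quadFormPlus m (ZMod 2) (g v))
      fun a => (Cfsg.Agent.H66.transTwo_type hm a).1.symm).trans
      (Equiv.subtypeSubtypeEquivSubtypeInter (Cfsg.Agent.H66.IsPolarTwo m)
        (fun q => ∃ g : (Fin m ⊕ Fin m → ZMod 2) ≃ₗ[ZMod 2] (Fin m ⊕ Fin m → ZMod 2),
          ∀ v, q v = Cfsg.quadFormPlus m (ZMod 2) (g v)))
  · rw [← Cfsg.Agent.H66.card_qPlus_two_ne m hm]
    refine (Nat.card_congr ?_).symm
    exact (e.subtypeEquiv (q := fun q => ∃ g : (Fin m ⊕ Fin m → ZMod 2) ≃ₗ[ZMod 2] ((Fin (m - 1) ⊕ Fin (m - 1)) ⊕ Fin 2 → ZMod 2),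
      ∀ v, q.1 v = Cfsg.quadFormMinus (m - 1) (ZMod 2) 1 1 (g v))
      fun a => (Cfsg.Agent.H66.transTwo_type hm a).2.symm).trans
      (Equiv.subtypeSubtypeEquivSubtypeInter (Cfsg.Agent.H66.IsPolarTwo m)
        (fun q => ∃ g : (Fin m ⊕ Fin m → ZMod 2) ≃ₗ[ZMod 2] ((Fin (m - 1) ⊕ Fin (m - 1)) ⊕ Fin 2 → ZMod 2),
          ∀ v, q v = Cfsg.quadFormMinus (m - 1) (ZMod 2) 1 1 (g v)))

end Cfsg.Agent.S2561
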