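import Cfsg.Statements.S2562
import Cfsg.Agent.H4.DiscClass
-- import your own Cfsg.Agent.* helpers here

set_option autoImplicit false
open Cfsg

namespace Cfsg.Agent.S2562

/-- Witt indices over the field of two elements, m ≥ 1: for the plus-type form Σ xᵢyᵢ in dimension 2m some m-dimensional subspace is totally singular and no totally singular subspace has larger dimension; for the minus-type form Σ xᵢyᵢ + (z₁² + z₁z₂ + z₂²) in dimension 2m the maximal dimension of a totally singular subspace is m − 1. -/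
theorem result (m : ℕ) (hm : 1 ≤ m) :
    (∃ U : Submodule (ZMod 2) (Fin m ⊕ Fin m → ZMod 2), (∀ u ∈ U, Cfsg.quadFormPlus m (ZMod 2) u = 0) ∧ Module.finrank (ZMod 2) ↥U = m) ∧
    (∀ U : Submodule (ZMod 2) (Fin m ⊕ Fin m → ZMod 2), (∀ u ∈ U, Cfsg.quadFormPlus m (ZMod 2) u = 0) → Module.finrank (ZMod 2) ↥U ≤ m) ∧
    (∃ U : Submodule (ZMod 2) ((Fin (m - 1) ⊕ Fin (m - 1)) ⊕ Fin 2 → ZMod 2), (∀ u ∈ U, Cfsg.quadFormMinus (m - 1) (ZMod 2) 1 1 u = 0) ∧ Module.finrank (ZMod 2) ↥U = m - 1) ∧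
    (∀ U : Submodule (ZMod 2) ((Fin (m - 1) ⊕ Fin (m - 1)) ⊕ Fin 2 → ZMod 2), (∀ u ∈ U, Cfsg.quadFormMinus (m - 1) (ZMod 2) 1 1 u = 0) → Module.finrank (ZMod 2) ↥U ≤ m - 1) := by
  obtain ⟨k, rfl⟩ := Nat.exists_eq_add_of_le' hm
  have hab : ∀ z₁ z₂ : ZMod 2, z₁ ^ 2 + 1 * z₁ * z₂ + 1 * z₂ ^ 2 = 0 → z₁ = 0 ∧ z₂ = 0 := by decide
  refine ⟨?_, ?_, ?_, ?_⟩
  · obtain ⟨W, hW, hr⟩ := Cfsg.Agent.H4.qPlus_singular (F := ZMod 2) (k + 1)
    exact ⟨W, fun u hu => by rw [← Cfsg.Agent.H4.coe_qPlus]; exact hW u hu, hr⟩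
  · intro U hU
    have := Cfsg.Agent.H4.two_mul_finrank_le (Cfsg.Agent.H4.qPlus_nondegenerate (F := ZMod 2) (k + 1))
      (W := U) (fun u hu => by rw [Cfsg.Agent.H4.coe_qPlus]; exact hU u hu)
    simp at this
    omega
  · obtain ⟨W, hW, hr⟩ := Cfsg.Agent.H4.qPlus_singular (F := ZMod 2) k
    let L : (Fin k ⊕ Fin k → ZMod 2) →ₗ[ZMod 2] ((Fin k ⊕ Fin k) ⊕ Fin 2 → ZMod 2) :=
      { toFun := fun v => Sum.elim v 0
        map_add' := fun a b => by ext (i | i) <;> simp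
        map_smul' := fun a b => by ext (i | i) <;> simp }
    refine ⟨W.map L, ?_, ?_⟩
    · rintro _ ⟨w, hw, rfl⟩
      have : Cfsg.quadFormPlus k (ZMod 2) w = 0 := by rw [← Cfsg.Agent.H4.coe_qPlus]; exact hW w hw
      change Cfsg.quadFormMinus k (ZMod 2) 1 1 (Sum.elim w 0) = 0
      rw [← this]
      simp [Cfsg.quadFormMinus, Cfsg.quadFormPlus]
    · have hL : Function.Injective L := fun a b h => funext fun i => congrFun h (Sum.inl i)
      exact (Submodule.equivMapOfInjective L hL W).finrank_eq.symm.trans hr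
  · suffices h : ∀ U : Submodule (ZMod 2) ((Fin k ⊕ Fin k) ⊕ Fin 2 → ZMod 2),
        (∀ u ∈ U, Cfsg.quadFormMinus k (ZMod 2) 1 1 u = 0) → Module.finrank (ZMod 2) U ≤ k from h
    intro U hU
    have h1 := Cfsg.Agent.H4.two_mul_finrank_le (Cfsg.Agent.H4.qMinus_nondegenerate' hab k)
      (W := U) (fun u hu => by rw [Cfsg.Agent.H4.coe_qMinus]; exact hU u hu)
    have h2 := Cfsg.Agent.H4.qMinus_no_singular hab k U
      (fun u hu => by rw [Cfsg.Agent.H4.coe_qMinus]; exact hU u hu)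
    simp at h1
    omega

end Cfsg.Agent.S2562
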