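import Cfsg.Statements.S2564
import Cfsg.Agent.H66.BinaryForms
-- import your own Cfsg.Agent.* helpers here

set_option autoImplicit false
open Cfsg

namespace Cfsg.Agent.S2564

/-- On the 2m-dimensional space over the field of two elements (m ≥ 1) let f be the alternating form obtained by polarizing the plus-type form Σ xᵢyᵢ, and let q be any quadratic form polarizing to f. For a vector w, the function q + f(·, w) again polarizes to f, and it is equivalent to q under an invertible linear map (that is, has the same type) if and only if q(w) = 0. -/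
theorem result (m : ℕ) (hm : 1 ≤ m) (q : (Fin m ⊕ Fin m → ZMod 2) → ZMod 2) (hq : (∀ u v : (Fin m ⊕ Fin m → ZMod 2), q (u + v) = q u + q v + (Cfsg.quadFormPlus m (ZMod 2) (u + v) - Cfsg.quadFormPlus m (ZMod 2) u - Cfsg.quadFormPlus m (ZMod 2) v))) (w : (Fin m ⊕ Fin m → ZMod 2)) :
    (∀ u v : (Fin m ⊕ Fin m → ZMod 2), (q (u + v) + (Cfsg.quadFormPlus m (ZMod 2) (u + v + w) - Cfsg.quadFormPlus m (ZMod 2) (u + v) - Cfsg.quadFormPlus m (ZMod 2) w)) =
        (q u + (Cfsg.quadFormPlus m (ZMod 2) (u + w) - Cfsg.quadFormPlus m (ZMod 2) u - Cfsg.quadFormPlus m (ZMod 2) w)) + (q v + (Cfsg.quadFormPlus m (ZMod 2) (v + w) - Cfsg.quadFormPlus m (ZMod 2) v - Cfsg.quadFormPlus m (ZMod 2) w)) +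
        (Cfsg.quadFormPlus m (ZMod 2) (u + v) - Cfsg.quadFormPlus m (ZMod 2) u - Cfsg.quadFormPlus m (ZMod 2) v)) ∧
    ((∃ g : (Fin m ⊕ Fin m → ZMod 2) ≃ₗ[ZMod 2] (Fin m ⊕ Fin m → ZMod 2), ∀ v, q v + (Cfsg.quadFormPlus m (ZMod 2) (v + w) - Cfsg.quadFormPlus m (ZMod 2) v - Cfsg.quadFormPlus m (ZMod 2) w) = q (g v)) ↔ q w = 0) := by
  refine ⟨fun u v => ?_, ?_⟩
  · change q (u + v) + Cfsg.Agent.H66.polarTwo m (u + v) w = q u + Cfsg.Agent.H66.polarTwo m u w +
      (q v + Cfsg.Agent.H66.polarTwo m v w) + Cfsg.Agent.H66.polarTwo m u v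
    have := hq u v
    change q (u + v) = q u + q v + Cfsg.Agent.H66.polarTwo m u v at this
    rw [this, Cfsg.Agent.H66.polarTwo_add_left]
    ring
  · obtain ⟨a, ha⟩ := (Cfsg.Agent.H66.bijective_transTwo (m := m)).2 ⟨q, hq⟩
    have ha' : Cfsg.Agent.H66.transTwo a = q := congrArg Subtype.val ha
    subst ha'
    change (∃ g : (Fin m ⊕ Fin m → ZMod 2) ≃ₗ[ZMod 2] (Fin m ⊕ Fin m → ZMod 2), ∀ v,
      Cfsg.Agent.H66.transTwo a v + Cfsg.Agent.H66.polarTwo m v w = Cfsg.Agent.H66.transTwo a (g v)) ↔ _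
    have hb : ∀ v, Cfsg.Agent.H66.transTwo a v + Cfsg.Agent.H66.polarTwo m v w =
        Cfsg.Agent.H66.transTwo (a + w) v := fun v => by
      simp only [Cfsg.Agent.H66.transTwo, Cfsg.Agent.H66.polarTwo_add_right]
      ring
    simp only [hb]
    obtain ⟨ta, ta'⟩ := Cfsg.Agent.H66.transTwo_type hm a
    obtain ⟨tb, tb'⟩ := Cfsg.Agent.H66.transTwo_type hm (a + w)
    have hQ : Cfsg.quadFormPlus m (ZMod 2) (a + w) =
        Cfsg.quadFormPlus m (ZMod 2) a + Cfsg.Agent.H66.transTwo a w := by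
      have hsymm : Cfsg.Agent.H66.polarTwo m a w = Cfsg.Agent.H66.polarTwo m w a := by
        rw [Cfsg.Agent.H66.polarTwo_eq_polar, Cfsg.Agent.H66.polarTwo_eq_polar, QuadraticMap.polar_comm]
      rw [Cfsg.Agent.H66.transTwo, ← hsymm, Cfsg.Agent.H66.polarTwo]
      ring
    constructor
    · rintro ⟨g, hg⟩
      have key : Cfsg.quadFormPlus m (ZMod 2) (a + w) = 0 ↔ Cfsg.quadFormPlus m (ZMod 2) a = 0 := by
        constructor
        · intro h
          obtain ⟨g', hg'⟩ := tb.2 h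
          exact ta.1 ⟨g.symm.trans g', fun v => by
            have := hg (g.symm v)
            rw [g.apply_symm_apply, hg'] at this
            simpa using this.symm⟩
        · intro h
          obtain ⟨g', hg'⟩ := ta.2 h
          exact tb.1 ⟨g.trans g', fun v => by rw [hg v, hg']; rfl⟩
      rw [hQ] at key
      revert key
      generalize Cfsg.quadFormPlus m (ZMod 2) a = x
      generalize Cfsg.Agent.H66.transTwo a w = y
      revert x y
      decide
    · intro h
      rw [h, add_zero] at hQ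
      by_cases h0 : Cfsg.quadFormPlus m (ZMod 2) a = 0
      · obtain ⟨g, hg⟩ := ta.2 h0
        obtain ⟨g', hg'⟩ := tb.2 (hQ.trans h0)
        exact ⟨g'.trans g.symm, fun v => by simp [hg, hg']⟩
      · obtain ⟨g, hg⟩ := ta'.2 h0
        obtain ⟨g', hg'⟩ := tb'.2 (fun e => h0 (hQ.symm.trans e))
        exact ⟨g'.trans g.symm, fun v => by simp [hg, hg']⟩

end Cfsg.Agent.S2564
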