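import Cfsg.Statements.S2566
import Cfsg.Agent.H66.OPlusFour
-- import your own Cfsg.Agent.* helpers here

set_option autoImplicit false
open Cfsg

namespace Cfsg.Agent.S2566

/-- The full orthogonal group of the plus-type form x₁y₁ + x₂y₂ in dimension 4 over the field of two elements has order 72 and is isomorphic to the wreath product of the symmetric group of degree 3 by a group of order 2: it has a normal subgroup isomorphic to the direct product of two symmetric groups of degree 3, of index 2, whose two direct factors are interchanged by conjugation by some element. -/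
theorem result :
    Nat.card ↥(Cfsg.isometryGroup (ZMod 2) (Cfsg.quadFormPlus 2 (ZMod 2))) = 72 ∧
    ∃ (A B : Subgroup ↥(Cfsg.isometryGroup (ZMod 2) (Cfsg.quadFormPlus 2 (ZMod 2)))),
      Nonempty (↥A ≃* Equiv.Perm (Fin 3)) ∧ Nonempty (↥B ≃* Equiv.Perm (Fin 3)) ∧ A ⊓ B = ⊥ ∧ (∀ a ∈ A, ∀ b ∈ B, a * b = b * a) ∧
      (A ⊔ B).index = 2 ∧ ∃ g : ↥(Cfsg.isometryGroup (ZMod 2) (Cfsg.quadFormPlus 2 (ZMod 2))), A.map (MulAut.conj g).toMonoidHom = B := by
  exact Cfsg.Agent.H66.oPlusFour_wreath

end Cfsg.Agent.S2566
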