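import Cfsg.Statements.S2567
-- import your own Cfsg.Agent.* helpers here

set_option autoImplicit false
open Cfsg

namespace Cfsg.Agent.S2567

/-- Lifting elements of prime order from PGL to GL: let F be a finite field with q elements, r a prime not dividing q − 1, and x an element of order r in GL_n(F) modulo its centre (the scalar matrices). Then x has exactly one preimage in GL_n(F) of order r. -/
theorem result {F : Type*} [Field F] [Fintype F] {q n r : ℕ} (hF : Fintype.card F = q) (hr : r.Prime) (hdiv : ¬ r ∣ q - 1) (x : GL (Fin n) F ⧸ Subgroup.center (GL (Fin n) F)) (hx : orderOf x = r) : ∃! g : GL (Fin n) F, (QuotientGroup.mk g : GL (Fin n) F ⧸ Subgroup.center (GL (Fin n) F)) = x ∧ orderOf g = r := by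
  classical
  subst hF
  obtain ⟨g₀, rfl⟩ := QuotientGroup.mk_surjective x
  set Z := Subgroup.center (GL (Fin n) F) with hZ
  have hcop : (Nat.card Z).Coprime r := by
    have h1 : Nat.card Z ∣ Fintype.card F - 1 := by
      have h := Subgroup.card_range_dvd (Matrix.GeneralLinearGroup.scalar (R := F) (Fin n))
      rw [← Matrix.GeneralLinearGroup.center_eq_range_scalar, Nat.card_units, Nat.card_eq_fintype_card (α := F)] at h
      exact h
    exact Nat.Coprime.coprime_dvd_left h1 ((hr.coprime_iff_not_dvd.2 hdiv).symm)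
  have h0 : g₀ ^ r ∈ Z := by
    rw [← QuotientGroup.eq_one_iff, QuotientGroup.mk_pow, ← hx, pow_orderOf_eq_one]
  obtain ⟨w, hw⟩ : ∃ w : Z, w ^ r = (⟨g₀ ^ r, h0⟩ : Z)⁻¹ := (powCoprime hcop).surjective _
  have hw' : (w : GL (Fin n) F) ^ r = (g₀ ^ r)⁻¹ := congrArg Subtype.val hw
  have hcomm : ∀ (z : Z) (g : GL (Fin n) F), Commute g (z : GL (Fin n) F) := fun z g =>
    Subgroup.mem_center_iff.1 z.2 g
  have hmk : (QuotientGroup.mk (g₀ * w) : GL (Fin n) F ⧸ Z) = QuotientGroup.mk g₀ := by
    rw [QuotientGroup.mk_mul, (QuotientGroup.eq_one_iff (w : GL (Fin n) F)).2 w.2, mul_one]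
  refine ⟨g₀ * w, ⟨hmk, ?_⟩, ?_⟩
  · have : Fact r.Prime := ⟨hr⟩
    refine orderOf_eq_prime ?_ ?_
    · rw [(hcomm w g₀).mul_pow, hw', mul_inv_cancel]
    · intro h1
      rw [h1] at hmk
      rw [← hmk, QuotientGroup.mk_one, orderOf_one] at hx
      exact hr.one_lt.ne hx
  · rintro g ⟨hg, hgr⟩
    have hz : (g₀ * w)⁻¹ * g ∈ Z := by
      rw [← QuotientGroup.eq, hmk, hg]
    have hpow : (⟨(g₀ * w)⁻¹ * g, hz⟩ : Z) ^ r = 1 := by
      refine Subtype.ext ?_
      change ((g₀ * w)⁻¹ * g) ^ r = 1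
      have hc : Commute ((g₀ * w)⁻¹) g := by
        have h2 : Commute (g₀ * w) ((g₀ * w)⁻¹ * g) := Subgroup.mem_center_iff.1 hz _
        have h3 : Commute (g₀ * w) g := by
          have := (Commute.refl (g₀ * (w : GL (Fin n) F))).mul_right h2
          rwa [mul_inv_cancel_left] at this
        exact h3.inv_left
      rw [hc.mul_pow, inv_pow, (hcomm w g₀).mul_pow, hw', mul_inv_cancel, inv_one, one_mul, ← hgr,
        pow_orderOf_eq_one]
    have h4 : (⟨(g₀ * w)⁻¹ * g, hz⟩ : Z) = 1 := (powCoprime hcop).injective (hpow.trans (one_pow r).symm)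
    exact (inv_mul_eq_one.1 (congrArg Subtype.val h4)).symm

end Cfsg.Agent.S2567
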