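import Cfsg.Statements.S2570
import Cfsg.Agent.H66.Jordan
import Cfsg.Agent.H66.ClassCount
-- import your own Cfsg.Agent.* helpers here

set_option autoImplicit false
open Cfsg

namespace Cfsg.Agent.S2570

/-- Number of conjugacy classes of elements of order p in GL_n over a finite field of characteristic p: they correspond to the Jordan types, that is, to the partitions of n with all parts at most p other than the partition into ones, so there are (number of partitions of n with parts ≤ p) − 1 of them. -/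
theorem result {F : Type*} [Field F] [Fintype F] {p : ℕ} [Fact p.Prime] [CharP F p] (n : ℕ) : Nat.card {C : ConjClasses (GL (Fin n) F) // ∃ g : GL (Fin n) F, ConjClasses.mk g = C ∧ orderOf g = p} = (Finset.univ.filter (fun μ : Nat.Partition n => ∀ a ∈ μ.parts, a ≤ p)).card - 1 := by
  classical
  have hp : p.Prime := Fact.out
  set good : Finset (Nat.Partition n) :=
    (Finset.univ.filter fun μ : Nat.Partition n => ∀ a ∈ μ.parts, a ≤ p).erase
      (Nat.Partition.ofSums n (Multiset.replicate n 1) (by simp)) with hgood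
  have hone : (Nat.Partition.ofSums n (Multiset.replicate n 1) (by simp)).parts = Multiset.replicate n 1 := by
    rw [Nat.Partition.ofSums_parts, Multiset.filter_eq_self]
    intro a ha
    rw [Multiset.eq_of_mem_replicate ha]
    exact one_ne_zero
  let TK : Nat.Partition n → ℕ → ℕ := fun μ k => (μ.parts.map fun a => min k a).sum
  have hfun : ∀ μ : Nat.Partition n, ∃ (t : ℕ) (d : Fin t → ℕ), (∀ i, 1 ≤ d i) ∧ (∑ i, d i = n) ∧
      μ.parts = (Finset.univ.val.map d) := by
    intro μ
    have he : (Finset.univ.val.map fun i : Fin μ.parts.toList.length => μ.parts.toList[i]) = μ.parts := by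
      simp only [Fin.univ_val_map, Fin.getElem_fin, List.ofFn_getElem, Multiset.coe_toList]
    refine ⟨_, fun i : Fin μ.parts.toList.length => μ.parts.toList[i],
      fun i => μ.parts_pos (Multiset.mem_toList.1 (List.getElem_mem _)), ?_, he.symm⟩
    change (Finset.univ.val.map fun i : Fin μ.parts.toList.length => μ.parts.toList[i]).sum = n
    rw [he, μ.parts_sum]
  have hTK : ∀ {t : ℕ} (d : Fin t → ℕ) (μ : Nat.Partition n), μ.parts = Finset.univ.val.map d →
      TK μ = Cfsg.Agent.H66.typeKer d := by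
    intro t d μ h
    funext k
    simp only [TK, h, Multiset.map_map]
    rfl
  have hTKinj : Function.Injective TK := by
    intro μ ν h
    obtain ⟨t, d, hd, -, hd'⟩ := hfun μ
    obtain ⟨u, e, he, -, he'⟩ := hfun ν
    rw [hTK d μ hd', hTK e ν he'] at h
    refine Nat.Partition.ext (Multiset.ext.2 fun s => ?_)
    rw [hd', he', Multiset.count_map, Multiset.count_map]
    have := Cfsg.Agent.H66.card_filter_eq_of_typeKer hd he (congrFun h) s
    simpa only [Finset.card_def, Finset.filter_val, eq_comm (a := s)] using this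
  have hmem : ∀ μ : Nat.Partition n, μ ∈ good ↔ TK μ p = n ∧ TK μ 1 ≠ n := by
    intro μ
    obtain ⟨t, d, hd, hs, hd'⟩ := hfun μ
    rw [hTK d μ hd']
    have h1 : Cfsg.Agent.H66.typeKer d p = n ↔ ∀ a ∈ μ.parts, a ≤ p := by
      rw [hd']
      conv_lhs => rw [← hs, Cfsg.Agent.H66.typeKer, Finset.sum_eq_sum_iff_of_le fun i _ => min_le_right _ _]
      simp
    have h2 : Cfsg.Agent.H66.typeKer d 1 = n ↔
        μ = Nat.Partition.ofSums n (Multiset.replicate n 1) (by simp) := by
      rw [Nat.Partition.ext_iff, hone]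
      conv_lhs => rw [← hs, Cfsg.Agent.H66.typeKer, Finset.sum_eq_sum_iff_of_le fun i _ => min_le_right _ _]
      constructor
      · intro h
        have hall : ∀ i, d i = 1 := fun i => by have := h i (Finset.mem_univ _); have := hd i; omega
        have hn : t = n := by rw [← hs]; simp [hall]
        rw [Multiset.eq_replicate]
        refine ⟨by simp [hd', hn], fun a ha => ?_⟩
        rw [hd'] at ha
        obtain ⟨i, -, rfl⟩ := Multiset.mem_map.1 ha
        exact hall i
      · intro h i _
        have : d i = 1 := Multiset.eq_of_mem_replicate (n := n) (by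
          rw [← h, hd']; exact Multiset.mem_map_of_mem d (Finset.mem_univ i))
        omega
    rw [hgood, Finset.mem_erase, Finset.mem_filter, h1, Ne, Ne, h2]
    simp [and_comm]
  have hord : ∀ g : GL (Fin n) F, orderOf g = p ↔
      ((g : Matrix (Fin n) (Fin n) F) - 1) ^ p = 0 ∧ (g : Matrix (Fin n) (Fin n) F) ≠ 1 := by
    intro g
    rcases Nat.eq_zero_or_pos n with rfl | hn
    · rw [Subsingleton.elim g 1, orderOf_one]
      simp [hp.one_lt.ne]
    have : Nonempty (Fin n) := ⟨⟨0, hn⟩⟩
    have : CharP (Matrix (Fin n) (Fin n) F) p := Matrix.charP p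
    rw [sub_pow_char_of_commute _ (Commute.one_right _), one_pow, sub_eq_zero, ← Units.val_pow_eq_pow_val,
      Units.val_eq_one, Ne, Units.val_eq_one]
    exact ⟨fun h => ⟨h ▸ pow_orderOf_eq_one g, fun h' => hp.one_lt.ne (by rw [← h, h', orderOf_one])⟩,
      fun h => orderOf_eq_prime h.1 h.2⟩
  rw [Cfsg.Agent.H66.card_classes_eq (fun g : GL (Fin n) F => orderOf g = p)
    (fun f : ℕ → ℕ => f ∈ good.image TK)
    (fun g => Cfsg.Agent.H66.kerDim (g : Matrix (Fin n) (Fin n) F))
    (fun g h hc hg => by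
      obtain ⟨c, hc⟩ := isConj_iff.1 hc
      rwa [← hc, ← MulAut.conj_apply, (MulAut.conj c).orderOf_eq])
    (fun g h hc => funext (Cfsg.Agent.H66.kerDim_eq_of_isConj (Cfsg.Agent.H66.gl_isConj_iff.1 hc)))
    (fun g h hg hh hk => Cfsg.Agent.H66.gl_isConj_iff.2 (Cfsg.Agent.H66.isConj_of_kerDim_eq
      ⟨p, ((hord g).1 hg).1⟩ ⟨p, ((hord h).1 hh).1⟩ (congrFun hk)))
    (fun g hg => ?_) (fun f hf => ?_)]
  · rw [Nat.card_eq_fintype_card, Fintype.card_coe, Finset.card_image_of_injective _ hTKinj, hgood,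
      Finset.card_erase_of_mem]
    rw [Finset.mem_filter]
    refine ⟨Finset.mem_univ _, fun a ha => ?_⟩
    rw [hone] at ha
    rw [Multiset.eq_of_mem_replicate ha]
    exact hp.one_le
  · rw [hord] at hg
    obtain ⟨t, d, hd, hs, hk⟩ := Cfsg.Agent.H66.exists_type (g : Matrix (Fin n) (Fin n) F) ⟨p, hg.1⟩
    rw [Fintype.card_fin] at hs
    have hk' := funext hk
    let μ : Nat.Partition n := ⟨Finset.univ.val.map d, fun {i} hi => by
      obtain ⟨j, -, rfl⟩ := Multiset.mem_map.1 hi
      exact hd j, hs⟩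
    refine Finset.mem_image.2 ⟨μ, (hmem μ).2 ?_, (hTK d μ rfl).trans hk'.symm⟩
    rw [hTK d μ rfl, ← hk', Ne]
    have e1 := Cfsg.Agent.H66.kerDim_eq_card_iff (g : Matrix (Fin n) (Fin n) F) p
    have e2 := Cfsg.Agent.H66.kerDim_eq_card_iff (g : Matrix (Fin n) (Fin n) F) 1
    rw [Fintype.card_fin] at e1 e2
    rw [e1, e2, pow_one, sub_eq_zero]
    exact hg
  · obtain ⟨μ, hμ, rfl⟩ := Finset.mem_image.1 hf
    obtain ⟨t, d, hd, hs, hd'⟩ := hfun μ
    let e : ((i : Fin t) × Fin (d i)) ≃ Fin n := Fintype.equivFinOfCardEq (by simp [hs])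
    set J := Matrix.reindex e e (Cfsg.jordanTypeMatrix d F) with hJ
    have hnil : IsNilpotent (J - 1) := by
      have h := (Cfsg.Agent.H66.isNilpotent_jordanTypeMatrix_sub_one (K := F) d).map (Matrix.reindexAlgEquiv F F e)
      rwa [map_sub, map_one] at h
    have hu : IsUnit J := by simpa using hnil.isUnit_one_add
    have hk : Cfsg.Agent.H66.kerDim J = TK μ := funext fun k => by
      rw [hJ, Cfsg.Agent.H66.kerDim_reindex, Cfsg.Agent.H66.kerDim_jordanTypeMatrix, hTK d μ hd']
    refine ⟨hu.unit, ?_, hk⟩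
    rw [hord]
    have e1 := Cfsg.Agent.H66.kerDim_eq_card_iff J p
    have e2 := Cfsg.Agent.H66.kerDim_eq_card_iff J 1
    rw [Fintype.card_fin, hk] at e1 e2
    rw [pow_one, sub_eq_zero] at e2
    exact ⟨e1.1 ((hmem μ).1 hμ).1, fun h => ((hmem μ).1 hμ).2 (e2.2 h)⟩


end Cfsg.Agent.S2570
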