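import Cfsg.Statements.S2571
import Cfsg.Agent.H66.JordanCentralizer
-- import your own Cfsg.Agent.* helpers here

set_option autoImplicit false
open Cfsg

namespace Cfsg.Agent.S2571

/-- Centraliser of a regular unipotent element in GL_n(q): if u is an invertible n × n matrix over the field with q elements, n ≥ 1, with (u − 1)^n = 0 and rank(u − 1) = n − 1 (a single unipotent Jordan block), then its centraliser in GL_n(q) has order (q − 1) q^(n−1). -/
theorem result {F : Type*} [Field F] [Fintype F] {q n : ℕ} (hF : Fintype.card F = q) (hn : 1 ≤ n) (u : GL (Fin n) F) (hnil : ((u : Matrix (Fin n) (Fin n) F) - 1) ^ n = 0) (hreg : ((u : Matrix (Fin n) (Fin n) F) - 1).rank = n - 1) : Nat.card ↥(Subgroup.centralizer ({u} : Set (GL (Fin n) F))) = (q - 1) * q ^ (n - 1) := by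
  classical
  subst hF
  set A := (u : Matrix (Fin n) (Fin n) F) with hA
  obtain ⟨t, d, hd, hs, hk⟩ := Cfsg.Agent.H66.exists_type A ⟨n, hnil⟩
  rw [Fintype.card_fin] at hs
  have h1 : Cfsg.Agent.H66.kerDim A 1 = 1 := by
    have := Cfsg.Agent.H66.rank_add_kerDim A 1
    rw [pow_one, hreg, Fintype.card_fin] at this
    omega
  rw [hk, Cfsg.Agent.H66.typeKer, Finset.sum_congr rfl (fun i _ => min_eq_left (hd i))] at h1
  have ht : t = 1 := by simpa using h1
  subst ht
  have hd0 : d = fun _ => n := by
    funext i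
    rw [Fin.sum_univ_one] at hs
    rw [Subsingleton.elim i 0, hs]
  subst hd0
  rw [Cfsg.Agent.H66.card_centralizer_of_type _ (by rw [Fintype.card_fin]; exact hs) u ⟨n, hnil⟩ hk,
    Cfsg.Agent.H66.card_centralizer_jordan _ hd]
  have hsup : Finset.univ.sup (fun _ : Fin 1 => n) = n := Finset.sup_const Finset.univ_nonempty n
  rw [hsup]
  have hA1 : ∀ i, (Finset.univ.filter fun _ : Fin 1 => n = i).card = if i = n then 1 else 0 := by
    intro i
    split_ifs with h
    · simp [h]
    · simp [Ne.symm h]
  simp only [hA1]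
  have hmem : n ∈ Finset.range (n + 1) := by simp
  have e1 : ∑ i ∈ Finset.range (n + 1), ∑ j ∈ Finset.range (n + 1),
      (if i < j then i * (if i = n then 1 else 0) * (if j = n then 1 else 0) else 0) = 0 := by
    refine Finset.sum_eq_zero fun i hi => Finset.sum_eq_zero fun j hj => ?_
    split_ifs <;> simp_all
  have e2 : ∑ i ∈ Finset.range (n + 1), (i - 1) * (if i = n then 1 else 0) ^ 2 = n - 1 := by
    rw [Finset.sum_eq_single_of_mem n hmem (fun i _ hi => by simp [hi])]
    simp
  rw [e1, e2, mul_zero, zero_add, Finset.prod_eq_single_of_mem n hmem (fun i _ hi => Finset.prod_eq_one fun j _ => absurd j.2 (by simp [hA1, hi, Ne.symm hi])),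
    if_pos rfl, mul_comm]
  have hp1 : ∀ (a : ℕ) (f : ℕ → ℕ), a = 1 → ∏ j : Fin a, f j = f 0 := by
    rintro a f rfl
    simp
  rw [hp1 _ (fun j => Fintype.card F ^ 1 - Fintype.card F ^ j) (by rw [hA1, if_pos rfl])]
  simp

end Cfsg.Agent.S2571
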