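import Cfsg.Statements.S2572
import Cfsg.Agent.H66.JordanCentralizer
-- import your own Cfsg.Agent.* helpers here

set_option autoImplicit false
open Cfsg

namespace Cfsg.Agent.S2572

/-- Centraliser of a transvection in GL_n(q), n ≥ 2: if t − 1 has rank one and square zero, the centraliser of t in GL_n(q) has order q^(2n−3) (q − 1) |GL_(n−2)(q)| (a group of order q^(2n−3) extended by GL_1(q) × GL_(n−2)(q)). -/
theorem result {F : Type*} [Field F] [Fintype F] {q n : ℕ} (hF : Fintype.card F = q) (hn : 2 ≤ n) (t : GL (Fin n) F) (ht : Cfsg.IsTransvection (t : Matrix (Fin n) (Fin n) F)) : Nat.card ↥(Subgroup.centralizer ({t} : Set (GL (Fin n) F))) = q ^ (2 * n - 3) * (q - 1) * ∏ i : Fin (n - 2), (q ^ (n - 2) - q ^ (i : ℕ)) := by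
  classical
  subst hF
  set A := (t : Matrix (Fin n) (Fin n) F) with hA
  obtain ⟨ht1, ht2⟩ := ht
  obtain ⟨s, d, hd, hs, hk⟩ := Cfsg.Agent.H66.exists_type A ⟨2, by rw [pow_two]; exact ht2⟩
  rw [Fintype.card_fin] at hs
  have k1 := Cfsg.Agent.H66.rank_add_kerDim A 1
  rw [pow_one, ht1, hk, Fintype.card_fin] at k1
  have k2 : Cfsg.Agent.H66.kerDim A 2 = n := by
    have h := (Cfsg.Agent.H66.kerDim_eq_card_iff A 2).2 (by rw [pow_two]; exact ht2)
    rwa [Fintype.card_fin] at h
  rw [hk] at k2
  simp only [Cfsg.Agent.H66.typeKer] at k1 k2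
  have hle : ∀ i, d i ≤ 2 := by
    intro i
    have h := (Finset.sum_eq_sum_iff_of_le fun j _ => min_le_right 2 (d j)).1 (k2.trans hs.symm) i (Finset.mem_univ i)
    omega
  have hsum1 : ∑ i : Fin s, (if d i = 2 then 1 else 0) = 1 := by
    have : ∑ i, d i = ∑ i, min 1 (d i) + ∑ i : Fin s, (if d i = 2 then 1 else 0) := by
      rw [← Finset.sum_add_distrib]
      refine Finset.sum_congr rfl fun i _ => ?_
      have := hd i
      have := hle i
      split_ifs <;> omega
    omega
  have ha2 : (Finset.univ.filter fun k => d k = 2).card = 1 := by rw [Finset.card_filter]; exact hsum1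
  have ha1 : (Finset.univ.filter fun k => d k = 1).card = n - 2 := by
    have : ∑ i : Fin s, (if d i = 1 then 1 else 0) + 2 * ∑ i : Fin s, (if d i = 2 then 1 else 0) = ∑ i, d i := by
      rw [Finset.mul_sum, ← Finset.sum_add_distrib]
      refine Finset.sum_congr rfl fun i _ => ?_
      have := hd i
      have := hle i
      split_ifs <;> omega
    rw [Finset.card_filter]
    omega
  have ha0 : (Finset.univ.filter fun k => d k = 0).card = 0 := by
    rw [Finset.filter_false_of_mem fun i _ => by have := hd i; omega]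
    rfl
  have hsup : Finset.univ.sup d = 2 := by
    obtain ⟨i, hi⟩ := Finset.card_eq_one.1 ha2
    have : d i = 2 := by
      have := Finset.mem_singleton_self i
      rw [← hi, Finset.mem_filter] at this
      exact this.2
    exact le_antisymm (Finset.sup_le fun j _ => hle j) (this ▸ Finset.le_sup (f := d) (Finset.mem_univ i))
  rw [Cfsg.Agent.H66.card_centralizer_of_type d (by rw [Fintype.card_fin]; exact hs) t
    ⟨2, by rw [pow_two]; exact ht2⟩ hk, Cfsg.Agent.H66.card_centralizer_jordan d hd, hsup]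
  simp only [Finset.sum_range_succ, Finset.sum_range_zero, Finset.prod_range_succ, Finset.prod_range_zero,
    ha0, ha1, ha2]
  have e : 2 * n - 3 = 2 * (n - 2) + 1 := by omega
  simp only [e]
  have hp1 : ∀ (a : ℕ) (f : ℕ → ℕ), a = 1 → ∏ j : Fin a, f j = f 0 := by
    rintro a f rfl
    simp
  have hp0 : ∀ (a : ℕ) (f : ℕ → ℕ), a = 0 → ∏ j : Fin a, f j = 1 := by
    rintro a f rfl
    simp
  rw [hp1 _ (fun j => Fintype.card F ^ 1 - Fintype.card F ^ j) ha2,
    hp0 _ (fun j => Fintype.card F ^ 0 - Fintype.card F ^ j) ha0]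
  norm_num
  have hpa : ∀ (a : ℕ) (f : ℕ → ℕ), a = n - 2 → ∏ j : Fin a, f j = ∏ j : Fin (n - 2), f j := by
    rintro a f rfl
    rfl
  rw [hpa _ (fun j => Fintype.card F ^ (n - 2) - Fintype.card F ^ j) ha1]
  ring

end Cfsg.Agent.S2572
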