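import Cfsg.Statements.S2573
import Cfsg.Agent.H66.Regular
-- import your own Cfsg.Agent.* helpers here

set_option autoImplicit false
open Cfsg

namespace Cfsg.Agent.S2573

/-- The invariant subspaces of a regular unipotent matrix form a chain: over a finite field, if u is an n × n matrix with (u − 1)^n = 0 and rank(u − 1) = n − 1, then every subspace W of F^n with u W ⊆ W is the kernel of (u − 1)^(dim W); so u has at most one invariant subspace of each dimension. -/
theorem result {F : Type*} [Field F] [Finite F] {n : ℕ} (u : Matrix (Fin n) (Fin n) F) (hnil : (u - 1) ^ n = 0) (hreg : (u - 1).rank = n - 1) (W : Submodule F (Fin n → F)) (hW : ∀ v ∈ W, u.mulVec v ∈ W) : W = LinearMap.ker (Matrix.mulVecLin ((u - 1) ^ Module.finrank F W)) := by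
  refine Cfsg.Agent.H66.regular_invariant_subspace ?_ ?_ W hW
  · rwa [Fintype.card_fin]
  · rwa [Fintype.card_fin]

end Cfsg.Agent.S2573
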