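import Cfsg.Statements.S2574
import Cfsg.Agent.H66.Regular
-- import your own Cfsg.Agent.* helpers here

set_option autoImplicit false
open Cfsg

namespace Cfsg.Agent.S2574

/-- A regular unipotent element of the symplectic group has totally isotropic small invariant subspaces: over a finite field, if u ∈ Sp_2m(F) satisfies (u − 1)^(2m) = 0 and rank(u − 1) = 2m − 1, and W is a u-invariant subspace with 2 dim W ≤ 2m, then the alternating form vanishes identically on W. -/
theorem result {F : Type*} [Field F] [Finite F] {m : ℕ} (u : Matrix.symplecticGroup (Fin m) F) (hnil : ((u : Matrix (Fin m ⊕ Fin m) (Fin m ⊕ Fin m) F) - 1) ^ (2 * m) = 0) (hreg : ((u : Matrix (Fin m ⊕ Fin m) (Fin m ⊕ Fin m) F) - 1).rank = 2 * m - 1) (W : Submodule F (Fin m ⊕ Fin m → F)) (hW : ∀ v ∈ W, (u : Matrix (Fin m ⊕ Fin m) (Fin m ⊕ Fin m) F).mulVec v ∈ W) (hdim : 2 * Module.finrank F W ≤ 2 * m) : ∀ v ∈ W, ∀ w ∈ W, Cfsg.sympForm m F v w = 0 := by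
  classical
  set A := (u : Matrix (Fin m ⊕ Fin m) (Fin m ⊕ Fin m) F) with hA
  set B := ((u⁻¹ : Matrix.symplecticGroup (Fin m) F) : Matrix (Fin m ⊕ Fin m) (Fin m ⊕ Fin m) F) with hB
  have hBA : B * A = 1 := congrArg Subtype.val (inv_mul_cancel u)
  have hAB : A * B = 1 := congrArg Subtype.val (mul_inv_cancel u)
  have hcard : Fintype.card (Fin m ⊕ Fin m) = 2 * m := by simp [two_mul]
  have hW' := Cfsg.Agent.H66.regular_invariant_subspace (A := A) (by rwa [hcard]) (by rwa [hcard]) W hW
  set k := Module.finrank F W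
  have hinv : ∀ x y, Cfsg.sympForm m F (A.mulVec x) (A.mulVec y) = Cfsg.sympForm m F x y := by
    intro x y
    have hJ : A.transpose * Matrix.J (Fin m) F * A = Matrix.J (Fin m) F := SymplecticGroup.mem_iff'.1 u.2
    simp only [Cfsg.sympForm]
    rw [← Matrix.vecMul_transpose, ← Matrix.dotProduct_mulVec, Matrix.mulVec_mulVec, Matrix.mulVec_mulVec, hJ]
  have hN : ∀ j x w, ((A - 1) ^ j).mulVec w = 0 → Cfsg.sympForm m F (((A - 1) ^ j).mulVec x) w = 0 := by
    intro j
    induction j with
    | zero =>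
      intro x w hw
      rw [pow_zero, Matrix.one_mulVec] at hw
      simp [hw, Cfsg.sympForm]
    | succ j ih =>
      intro x w hw
      rw [pow_succ', ← Matrix.mulVec_mulVec]
      generalize hz : ((A - 1) ^ j).mulVec x = z
      have h1 : Cfsg.sympForm m F ((A - 1).mulVec z) w = Cfsg.sympForm m F z ((B - 1).mulVec w) := by
        have h := hinv z (B.mulVec w)
        rw [Matrix.mulVec_mulVec, hAB, Matrix.one_mulVec] at h
        simp only [Cfsg.sympForm, Matrix.sub_mulVec, Matrix.one_mulVec, sub_dotProduct,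
          Matrix.mulVec_sub, dotProduct_sub] at h ⊢
        rw [h]
      rw [h1, ← hz]
      refine ih x _ ?_
      have hcomm : (A - 1) ^ j * (B - 1) = -B * (A - 1) ^ (j + 1) := by
        have hc : Commute (A - 1) B :=
          (show Commute A B from hAB.trans hBA.symm).sub_left (Commute.one_left B)
        have e : B - 1 = -B * (A - 1) := by rw [mul_sub, mul_one, neg_mul, hBA]; abel
        rw [e, ← mul_assoc, ((hc.pow_left j).neg_right).eq, mul_assoc, ← pow_succ]
      rw [Matrix.mulVec_mulVec, hcomm, ← Matrix.mulVec_mulVec, hw, Matrix.mulVec_zero]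
  have hk : k ≤ 2 * m - k := by omega
  have hrange : LinearMap.ker (Matrix.mulVecLin ((A - 1) ^ k)) ≤
      LinearMap.range (Matrix.mulVecLin ((A - 1) ^ k)) := by
    have h1 : LinearMap.range (Matrix.mulVecLin ((A - 1) ^ (2 * m - k))) ≤
        LinearMap.range (Matrix.mulVecLin ((A - 1) ^ k)) := by
      rintro _ ⟨x, rfl⟩
      refine ⟨((A - 1) ^ (2 * m - k - k)).mulVec x, ?_⟩
      rw [Matrix.mulVecLin_apply, Matrix.mulVecLin_apply, Matrix.mulVec_mulVec, ← pow_add]
      congr 3
      omega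
    refine le_trans (le_of_eq ?_) h1
    symm
    refine Submodule.eq_of_le_of_finrank_le ?_ ?_
    · rintro _ ⟨x, rfl⟩
      rw [LinearMap.mem_ker, Matrix.mulVecLin_apply, Matrix.mulVecLin_apply, Matrix.mulVec_mulVec,
        ← pow_add, show k + (2 * m - k) = 2 * m by omega, hnil, Matrix.zero_mulVec]
    · have e1 : Cfsg.Agent.H66.kerDim A k = min k (2 * m) := by
        rw [← hcard]; exact Cfsg.Agent.H66.kerDim_regular (by rwa [hcard]) (by rwa [hcard]) k
      have e2 : Cfsg.Agent.H66.kerDim A (2 * m - k) = min (2 * m - k) (2 * m) := by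
        rw [← hcard]; exact Cfsg.Agent.H66.kerDim_regular (by rwa [hcard]) (by rwa [hcard]) _
      have e3 := Cfsg.Agent.H66.rank_add_kerDim A (2 * m - k)
      rw [hcard, e2] at e3
      change Cfsg.Agent.H66.kerDim A k ≤ ((A - 1) ^ (2 * m - k)).rank
      omega
  intro v hv w hw
  rw [hW'] at hv hw
  obtain ⟨x, rfl⟩ := hrange hv
  rw [LinearMap.mem_ker, Matrix.mulVecLin_apply] at hw
  exact hN k x w hw

end Cfsg.Agent.S2574
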