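import Cfsg.Statements.S2575
-- import your own Cfsg.Agent.* helpers here

set_option autoImplicit false
open Cfsg

namespace Cfsg.Agent.S2575

/-- Which diagonal involutions of PGL_n(q) lie in PSL_n(q), q odd: for the diagonal matrix t with i entries −1 and n − i entries 1, some non-zero scalar multiple of t has determinant one if and only if i is even or the 2-part of q − 1 exceeds the 2-part of n (that is, −1 is an n-th power in the field exactly in the latter case). -/
theorem result {F : Type*} [Field F] [Fintype F] {q : ℕ} (hF : Fintype.card F = q) (hq : Odd q) {n : ℕ} (hn : 1 ≤ n) (i : ℕ) (hi : i ≤ n) : (∃ c : F, c ≠ 0 ∧ (c • Matrix.diagonal (fun j : Fin n => if (j : ℕ) < i then (-1 : F) else 1)).det = 1) ↔ (Even i ∨ padicValNat 2 n < padicValNat 2 (q - 1)) := by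
  classical
  subst hF
  have h2 : (2 : F) ≠ 0 := by
    have : ringChar F ≠ 2 := fun h => by
      have := FiniteField.even_card_iff_char_two.1 h
      rw [Nat.odd_iff] at hq
      omega
    exact Ring.two_ne_zero this
  have hneg : (-1 : F) ≠ 1 := fun h => h2 (by linear_combination (-1 : F) * h)
  have hdet : ∀ c : F, (c • Matrix.diagonal (fun j : Fin n => if (j : ℕ) < i then (-1 : F) else 1)).det =
      c ^ n * (-1) ^ i := by
    intro c
    rw [Matrix.det_smul, Matrix.det_diagonal, Fintype.card_fin, Finset.prod_ite]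
    simp [Fin.card_filter_val_lt, min_eq_right hi]
  simp only [hdet]
  have hq1 : Fintype.card F - 1 ≠ 0 := by
    have := Fintype.one_lt_card (α := F)
    omega
  constructor
  · rintro ⟨c, hc0, hc⟩
    by_contra h
    push Not at h
    obtain ⟨hiodd, hle⟩ := h
    rw [(Nat.not_even_iff_odd.1 hiodd).neg_one_pow] at hc
    obtain ⟨m, hm⟩ := pow_dvd_pow 2 hle |>.trans (pow_padicValNat_dvd (p := 2) (n := n))
    obtain ⟨o, ho⟩ := pow_padicValNat_dvd (p := 2) (n := Fintype.card F - 1)
    have hoodd : Odd o := by
      by_contra hev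
      rw [Nat.not_odd_iff_even] at hev
      obtain ⟨o', rfl⟩ := hev
      exact pow_succ_padicValNat_not_dvd (p := 2) hq1 ⟨o', by
          conv_lhs => rw [ho]
          ring⟩
    have h1 : c ^ n = -1 := by linear_combination (-1 : F) * hc
    have h3 : (c ^ n) ^ o = 1 := by
      rw [← pow_mul]
      have : n * o = (Fintype.card F - 1) * m := by
        nth_rewrite 1 [hm]
        nth_rewrite 2 [ho]
        ring
      rw [this, pow_mul, FiniteField.pow_card_sub_one_eq_one c hc0, one_pow]
    rw [h1, hoodd.neg_one_pow] at h3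
    exact hneg h3
  · rintro (h | h)
    · exact ⟨1, one_ne_zero, by rw [h.neg_one_pow]; simp⟩
    rcases Nat.even_or_odd i with hi' | hi'
    · exact ⟨1, one_ne_zero, by rw [hi'.neg_one_pow]; simp⟩
    obtain ⟨g, hg⟩ := IsCyclic.exists_generator (α := Fˣ)
    have hog : orderOf g = Fintype.card F - 1 := by
      rw [orderOf_eq_card_of_forall_mem_zpowers hg, Nat.card_units, Nat.card_eq_fintype_card]
    obtain ⟨o, ho⟩ := (pow_dvd_pow 2 (Nat.succ_le_of_lt h)).trans
      (pow_padicValNat_dvd (p := 2) (n := Fintype.card F - 1))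
    set b := padicValNat 2 n with hb
    obtain ⟨m, hm⟩ := pow_padicValNat_dvd (p := 2) (n := n)
    have hmodd : Odd m := by
      by_contra hev
      rw [Nat.not_odd_iff_even] at hev
      obtain ⟨m', rfl⟩ := hev
      exact pow_succ_padicValNat_not_dvd (p := 2) (by omega : n ≠ 0) ⟨m', by
          conv_lhs => rw [hm]
          ring⟩
    set d := g ^ (o * 2 ^ b) with hd
    have hd2 : d ^ 2 = 1 := by
      rw [hd, ← pow_mul, ← orderOf_dvd_iff_pow_eq_one, hog, ho]
      exact dvd_of_eq (by rw [Nat.succ_eq_add_one, pow_succ]; ring)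
    have hd1 : d ≠ 1 := by
      rw [hd, Ne, ← orderOf_dvd_iff_pow_eq_one, hog, ho]
      intro hdvd
      have hpos : 0 < o * 2 ^ b := by
        rcases Nat.eq_zero_or_pos o with rfl | h0
        · simp at ho; omega
        · positivity
      have := Nat.le_of_dvd hpos hdvd
      rw [pow_succ] at this
      nlinarith
    have hdneg : (d : F) = -1 := by
      have : ((d : F)) ^ 2 = 1 := by rw [← Units.val_pow_eq_pow_val, hd2, Units.val_one]
      rcases sq_eq_one_iff.1 this with h' | h'
      · exact absurd (Units.ext h') hd1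
      · exact h'
    refine ⟨((g ^ o : Fˣ) : F), Units.ne_zero _, ?_⟩
    have hgn : (g ^ o) ^ n = d ^ m := by
      rw [hd, ← pow_mul, ← pow_mul]
      congr 1
      conv_lhs => rw [hm]
      ring
    rw [← Units.val_pow_eq_pow_val, hgn, Units.val_pow_eq_pow_val, hdneg, hmodd.neg_one_pow,
      hi'.neg_one_pow]
    ring

end Cfsg.Agent.S2575
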