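import Cfsg.Statements.S2576
-- import your own Cfsg.Agent.* helpers here

set_option autoImplicit false
open Cfsg

namespace Cfsg.Agent.S2576

/-- Which involutions of PGL_2m(q) coming from a scalar of the quadratic extension field lie in PSL_2m(q), q odd: let μ generate the Sylow 2-subgroup of the multiplicative group of the field with q elements (μ has order the 2-part of q − 1) and let t be the block-diagonal matrix with m diagonal blocks [[0, 1], [μ, 0]] (so t² is the scalar μ and t is an involution modulo scalars). Then some non-zero scalar multiple of t has determinant one if and only if q ≡ 3 (mod 4) or the 2-part of q − 1 is less than the 2-part of 2m. -/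
theorem result {F : Type*} [Field F] [Fintype F] {q : ℕ} (hF : Fintype.card F = q) (hq : Odd q) {m : ℕ} (hm : 1 ≤ m) (μ : F) (hμ : orderOf μ = 2 ^ padicValNat 2 (q - 1)) : (∃ c : F, c ≠ 0 ∧ (c • Matrix.blockDiagonal (fun _ : Fin m => !![(0 : F), 1; μ, 0])).det = 1) ↔ (q % 4 = 3 ∨ padicValNat 2 (q - 1) < padicValNat 2 (2 * m)) := by
  classical
  subst hF
  have h2 : (2 : F) ≠ 0 := by
    have : ringChar F ≠ 2 := fun h => by
      have := FiniteField.even_card_iff_char_two.1 h
      rw [Nat.odd_iff] at hq
      omega
    exact Ring.two_ne_zero this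
  have hneg : (-1 : F) ≠ 1 := fun h => h2 (by linear_combination (-1 : F) * h)
  have hdet : ∀ c : F, (c • Matrix.blockDiagonal (fun _ : Fin m => !![(0 : F), 1; μ, 0])).det =
      c ^ (2 * m) * (-μ) ^ m := by
    intro c
    rw [Matrix.det_smul, Matrix.det_blockDiagonal, Finset.prod_const, Finset.card_univ,
      Fintype.card_fin, Matrix.det_fin_two_of]
    simp [Fintype.card_prod, mul_comm]
  simp only [hdet]
  have hq1 : Fintype.card F - 1 ≠ 0 := by
    have := Fintype.one_lt_card (α := F)
    omega
  set a := padicValNat 2 (Fintype.card F - 1) with ha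
  have ha1 : 1 ≤ a := by
    apply one_le_padicValNat_of_dvd hq1
    rw [Nat.odd_iff] at hq
    omega
  have hμa : μ ^ (2 ^ (a - 1)) = -1 := by
    have h1 : (μ ^ (2 ^ (a - 1))) ^ 2 = 1 := by
      rw [← pow_mul, ← pow_succ, Nat.sub_add_cancel ha1, ← hμ, pow_orderOf_eq_one]
    rcases sq_eq_one_iff.1 h1 with h' | h'
    · exfalso
      have := orderOf_dvd_of_pow_eq_one h'
      rw [hμ, Nat.pow_dvd_pow_iff_le_right one_lt_two] at this
      omega
    · exact h'
  have hb : padicValNat 2 (2 * m) = padicValNat 2 m + 1 := by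
    rw [padicValNat.mul two_ne_zero (by omega), padicValNat.self one_lt_two, add_comm]
  rcases Nat.lt_or_ge a 2 with ha2 | ha2
  · have : a = 1 := by omega
    rw [this] at hμa
    simp only [Nat.sub_self, pow_zero, pow_one] at hμa
    refine iff_of_true ⟨1, one_ne_zero, by rw [hμa]; simp⟩ (Or.inl ?_)
    rcases Nat.odd_mod_four_iff.1 (Nat.odd_iff.1 hq) with h | h
    · exfalso
      have h4 : (2 : ℕ) ^ 2 ∣ Fintype.card F - 1 := by
        norm_num
        omega
      have := (padicValNat_dvd_iff_le (p := 2) hq1).1 h4
      omega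
    · exact h
  · have h4 : ¬ Fintype.card F % 4 = 3 := by
      have : (2 : ℕ) ^ 2 ∣ Fintype.card F - 1 := (padicValNat_dvd_iff_le (p := 2) hq1).2 ha2
      norm_num at this
      omega
    rw [or_iff_right h4, hb]
    have hnegμ : (-μ) ^ (2 ^ (a - 1)) = -1 := by
      rw [Even.neg_pow ((Nat.even_pow' (by omega)).2 even_two), hμa]
    constructor
    · rintro ⟨c, hc0, hc⟩
      by_contra h
      push Not at h
      obtain ⟨o, ho⟩ := pow_padicValNat_dvd (p := 2) (n := Fintype.card F - 1)
      have hoodd : Odd o := by
        by_contra hev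
        rw [Nat.not_odd_iff_even] at hev
        obtain ⟨o', rfl⟩ := hev
        exact pow_succ_padicValNat_not_dvd (p := 2) hq1 ⟨o', by
            conv_lhs => rw [ho]
            ring⟩
      obtain ⟨k, hk⟩ := pow_padicValNat_dvd (p := 2) (n := m)
      have hkodd : Odd k := by
        by_contra hev
        rw [Nat.not_odd_iff_even] at hev
        obtain ⟨k', rfl⟩ := hev
        exact pow_succ_padicValNat_not_dvd (p := 2) (by omega : m ≠ 0)
          ⟨k', by conv_lhs => rw [hk]
                  ring⟩
      set b := padicValNat 2 m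
      have h5 := congrArg (fun x => x ^ (o * 2 ^ (a - 1 - b))) hc
      simp only [mul_pow, one_pow, ← pow_mul] at h5
      have e1 : 2 * m * (o * 2 ^ (a - 1 - b)) = (Fintype.card F - 1) * k := by
        rw [hk, ho, ← ha]
        have : 2 ^ a = 2 * 2 ^ b * 2 ^ (a - 1 - b) := by
          rw [← pow_succ', ← pow_add]
          congr 1
          omega
        rw [this]
        ring
      have e2 : m * (o * 2 ^ (a - 1 - b)) = 2 ^ (a - 1) * (o * k) := by
        rw [hk]
        have : 2 ^ (a - 1) = 2 ^ b * 2 ^ (a - 1 - b) := by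
          rw [← pow_add]
          congr 1
          omega
        rw [this]
        ring
      rw [e1, e2, pow_mul, FiniteField.pow_card_sub_one_eq_one c hc0, one_pow, one_mul, pow_mul,
        hnegμ, (hoodd.mul hkodd).neg_one_pow] at h5
      exact hneg h5
    · intro h
      refine ⟨1, one_ne_zero, ?_⟩
      obtain ⟨k, hk⟩ := (pow_dvd_pow 2 (show a ≤ padicValNat 2 m by omega)).trans
        (pow_padicValNat_dvd (p := 2) (n := m))
      have e : (2 : ℕ) ^ a = 2 ^ (a - 1) * 2 := by rw [← pow_succ, Nat.sub_add_cancel ha1]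
      rw [one_pow, one_mul, hk, e, pow_mul, pow_mul, hnegμ, neg_one_sq, one_pow]

end Cfsg.Agent.S2576
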