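import Cfsg.Statements.S2577
import Cfsg.Agent.H66.PGLInvolutions
-- import your own Cfsg.Agent.* helpers here

set_option autoImplicit false
open Cfsg

namespace Cfsg.Agent.S2577

/-- Number of conjugacy classes of involutions in PGL_n(q) for q odd and n ≥ 2: there are ⌊n/2⌋ classes represented by diagonal matrices with i entries −1 (1 ≤ i ≤ n/2) and, when n is even, one more class represented by a block-diagonal matrix of 2 × 2 blocks [[0, 1], [μ, 0]] with μ a non-square (a matrix squaring to a scalar but having no eigenvalue in the field); in all ⌊n/2⌋ + 1 classes if n is even and ⌊n/2⌋ if n is odd. -/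
theorem result {F : Type*} [Field F] [Fintype F] {q : ℕ} (hF : Fintype.card F = q) (hq : Odd q) {n : ℕ} (hn : 2 ≤ n) : Nat.card {C : ConjClasses (GL (Fin n) F ⧸ Subgroup.center (GL (Fin n) F)) // ∃ g : GL (Fin n) F ⧸ Subgroup.center (GL (Fin n) F), ConjClasses.mk g = C ∧ orderOf g = 2} = n / 2 + (if Even n then 1 else 0) := by
  subst hF
  exact Cfsg.Agent.H66.card_involution_classes hq hn

end Cfsg.Agent.S2577
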