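import Cfsg.Statements.S2578
import Cfsg.Agent.H66.Regular
import Cfsg.Agent.H66.ClassCount
-- import your own Cfsg.Agent.* helpers here

set_option autoImplicit false
open Cfsg

namespace Cfsg.Agent.S2578

/-- Regular unipotent classes of SL_n(q): for n ≥ 2 over the field with q elements, the matrices u of determinant one with (u − 1)^n = 0 and rank(u − 1) = n − 1 form a single GL_n(q)-class which splits into exactly gcd(n, q − 1) conjugacy classes of SL_n(q). -/
theorem result {F : Type*} [Field F] [Fintype F] {q : ℕ} (hF : Fintype.card F = q) {n : ℕ} (hn : 2 ≤ n) : Nat.card {C : ConjClasses (Matrix.SpecialLinearGroup (Fin n) F) // ∃ u : Matrix.SpecialLinearGroup (Fin n) F, ConjClasses.mk u = C ∧ ((u : Matrix (Fin n) (Fin n) F) - 1) ^ n = 0 ∧ ((u : Matrix (Fin n) (Fin n) F) - 1).rank = n - 1} = Nat.gcd n (q - 1) := by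
  classical
  subst hF
  let d : Fin 1 → ℕ := fun _ => n
  let e : ((i : Fin 1) × Fin (d i)) ≃ Fin n := Equiv.uniqueSigma fun i : Fin 1 => Fin (d i)
  set J := Matrix.reindex e e (Cfsg.jordanTypeMatrix d F) with hJdef
  have hd : ∀ i, 1 ≤ d i := fun _ => by change 1 ≤ n; omega
  have hJk : ∀ k, Cfsg.Agent.H66.kerDim J k = min k n := fun k => by
    rw [hJdef, Cfsg.Agent.H66.kerDim_reindex, Cfsg.Agent.H66.kerDim_jordanTypeMatrix,
      Cfsg.Agent.H66.typeKer, Fin.sum_univ_one]
  have hJnil : (J - 1) ^ n = 0 := (Cfsg.Agent.H66.kerDim_eq_card_iff J n).1 (by simp [hJk])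
  have hJdet : J.det = 1 := by
    rw [hJdef, Matrix.det_reindex_self, Cfsg.jordanTypeMatrix, Cfsg.Agent.H66.det_blockDiagonal'_eq_prod]
    refine Finset.prod_eq_one fun i _ => ?_
    rw [Matrix.det_of_lowerTriangular]
    · simp [Cfsg.jordanBlock]
    · intro a b hab
      change (a : ℕ) < (b : ℕ) at hab
      simp only [Cfsg.jordanBlock, Matrix.of_apply]
      rw [if_neg (by omega), if_neg (by omega)]
  let S : Matrix.SpecialLinearGroup (Fin n) F → Prop := fun g =>
    ((g : Matrix (Fin n) (Fin n) F) - 1) ^ n = 0 ∧ ((g : Matrix (Fin n) (Fin n) F) - 1).rank = n - 1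
  have hreg : ∀ g : Matrix.SpecialLinearGroup (Fin n) F, S g ↔
      ∃ P : GL (Fin n) F, (P : Matrix (Fin n) (Fin n) F) * J = g * P := by
    intro g
    constructor
    · rintro ⟨h1, h2⟩
      have hk : ∀ k, Cfsg.Agent.H66.kerDim J k = Cfsg.Agent.H66.kerDim (g : Matrix (Fin n) (Fin n) F) k :=
        fun k => by
          have := Cfsg.Agent.H66.kerDim_regular (A := (g : Matrix (Fin n) (Fin n) F)) (by simpa using h1)
            (by simpa using h2) k
          rw [Fintype.card_fin] at this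
          rw [hJk, this]
      obtain ⟨P, hP⟩ := Cfsg.Agent.H66.isConj_of_kerDim_eq ⟨n, hJnil⟩ ⟨n, h1⟩ hk
      exact ⟨P, hP⟩
    · rintro ⟨P, hP⟩
      have hk : ∀ k, Cfsg.Agent.H66.kerDim (g : Matrix (Fin n) (Fin n) F) k = min k n := fun k => by
        rw [← Cfsg.Agent.H66.kerDim_eq_of_isConj ⟨P, hP⟩, hJk]
      refine ⟨(Cfsg.Agent.H66.kerDim_eq_card_iff _ n).1 (by simp [hk]), ?_⟩
      have := Cfsg.Agent.H66.rank_add_kerDim (g : Matrix (Fin n) (Fin n) F) 1
      rw [pow_one, hk, Fintype.card_fin] at this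
      omega
  have hC : ∀ z : GL (Fin n) F, (z : Matrix (Fin n) (Fin n) F) * J = J * z →
      Matrix.GeneralLinearGroup.det z ∈ (powMonoidHom n : Fˣ →* Fˣ).range := by
    intro z hz
    set M := Matrix.reindex e.symm e.symm (z : Matrix (Fin n) (Fin n) F) with hM
    have hMJ : M * Cfsg.jordanTypeMatrix d F = Cfsg.jordanTypeMatrix d F * M := by
      have hz' : Matrix.reindex e e M = z := by simp [hM]
      apply (Matrix.reindexAlgEquiv F F e).injective
      simp only [map_mul, Matrix.reindexAlgEquiv_apply, hz', ← hJdef]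
      exact hz
    obtain ⟨c, hc⟩ := Cfsg.Agent.H66.det_commute_single hd M hMJ
    rw [hM, Matrix.det_reindex_self] at hc
    have hc0 : c ≠ 0 := by
      rintro rfl
      rw [zero_pow (by have := hd 0; omega)] at hc
      exact Matrix.GeneralLinearGroup.det_ne_zero z hc
    exact ⟨Units.mk0 c hc0, Units.ext (by
      rw [powMonoidHom_apply, Units.val_pow_eq_pow_val, Units.val_mk0, Matrix.GeneralLinearGroup.val_det_apply]
      exact hc.symm)⟩
  let R : Subgroup Fˣ := (powMonoidHom n : Fˣ →* Fˣ).range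
  let inv : Matrix.SpecialLinearGroup (Fin n) F → Fˣ ⧸ R := fun g =>
    if h : S g then QuotientGroup.mk (Matrix.GeneralLinearGroup.det ((hreg g).1 h).choose) else 1
  have hinv : ∀ g (h : S g) (Q : GL (Fin n) F), (Q : Matrix (Fin n) (Fin n) F) * J = g * Q →
      inv g = QuotientGroup.mk (Matrix.GeneralLinearGroup.det Q) := by
    intro g h Q hQ
    simp only [inv, dif_pos h]
    rw [QuotientGroup.eq, ← map_inv, ← map_mul]
    have hP := ((hreg g).1 h).choose_spec
    set P := ((hreg g).1 h).choose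
    refine hC _ ?_
    rw [Units.val_mul, mul_assoc, hQ, ← mul_assoc, ← mul_assoc]
    congr 1
    have : (g : Matrix (Fin n) (Fin n) F) = P * J * ((P⁻¹ : GL (Fin n) F) : Matrix (Fin n) (Fin n) F) := by
      rw [hP, mul_assoc, P.mul_inv, mul_one]
    rw [this, mul_assoc (P : Matrix (Fin n) (Fin n) F), Units.inv_mul_cancel_left]
  have hconj : ∀ g h : Matrix.SpecialLinearGroup (Fin n) F, IsConj g h → S g → S h := by
    intro g h hgh hg
    obtain ⟨P, hP⟩ := (hreg g).1 hg
    obtain ⟨c, hc⟩ := isConj_iff.1 hgh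
    refine (hreg h).2 ⟨Matrix.SpecialLinearGroup.toGL c * P, ?_⟩
    have hc' : (c : Matrix (Fin n) (Fin n) F) * g = h * c :=
      congrArg Subtype.val (show c * g = h * c by rw [← hc, inv_mul_cancel_right])
    change (c : Matrix (Fin n) (Fin n) F) * P * J = h * (c * P)
    rw [mul_assoc, hP, ← mul_assoc, hc', mul_assoc]
  rw [Cfsg.Agent.H66.card_classes_eq S (fun _ : Fˣ ⧸ R => True) inv hconj
    (fun g h hgh => ?_) (fun g h hg hh he => ?_) (fun g _ => trivial) (fun a _ => ?_)]
  · rw [Nat.card_congr (Equiv.subtypeUnivEquiv fun _ => trivial)]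
    change R.index = _
    rw [IsCyclic.index_powMonoidHom_range, Nat.card_units, Nat.card_eq_fintype_card, Nat.gcd_comm]
  · by_cases hg : S g
    · have hh := hconj g h hgh hg
      obtain ⟨P, hP⟩ := (hreg g).1 hg
      obtain ⟨c, hc⟩ := isConj_iff.1 hgh
      have hc' : (c : Matrix (Fin n) (Fin n) F) * g = h * c :=
        congrArg Subtype.val (show c * g = h * c by rw [← hc, inv_mul_cancel_right])
      rw [hinv g hg P hP, hinv h hh (Matrix.SpecialLinearGroup.toGL c * P) (by
        change (c : Matrix (Fin n) (Fin n) F) * P * J = h * (c * P)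
        rw [mul_assoc, hP, ← mul_assoc, hc', mul_assoc]), map_mul]
      congr 1
      have : Matrix.GeneralLinearGroup.det (Matrix.SpecialLinearGroup.toGL c) = 1 := Units.ext c.2
      rw [this, one_mul]
    · have hh : ¬ S h := fun hh => hg (hconj h g hgh.symm hh)
      simp [inv, dif_neg hg, dif_neg hh]
  · obtain ⟨P, hP⟩ := (hreg g).1 hg
    obtain ⟨Q, hQ⟩ := (hreg h).1 hh
    rw [hinv g hg P hP, hinv h hh Q hQ, QuotientGroup.eq] at he
    obtain ⟨c, hc⟩ := he
    set Z : GL (Fin n) F := Matrix.GeneralLinearGroup.scalar (Fin n) c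
    have hZ : Matrix.GeneralLinearGroup.det Z = c ^ n := Units.ext (by
      simp [Z])
    have hw : Matrix.GeneralLinearGroup.det (Q * Z⁻¹ * P⁻¹) = 1 := by
      rw [map_mul, map_mul, map_inv, map_inv, hZ]
      rw [powMonoidHom_apply] at hc
      rw [hc, mul_inv_rev, inv_inv]
      simp [mul_comm]
    let w : Matrix.SpecialLinearGroup (Fin n) F :=
      ⟨((Q * Z⁻¹ * P⁻¹ : GL (Fin n) F) : Matrix (Fin n) (Fin n) F), congrArg Units.val hw⟩
    refine isConj_iff.2 ⟨w, mul_inv_eq_iff_eq_mul.2 (Subtype.ext ?_)⟩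
    change ((Q * Z⁻¹ * P⁻¹ : GL (Fin n) F) : Matrix (Fin n) (Fin n) F) * g =
      h * ((Q * Z⁻¹ * P⁻¹ : GL (Fin n) F) : Matrix (Fin n) (Fin n) F)
    have hPi : ((P⁻¹ : GL (Fin n) F) : Matrix (Fin n) (Fin n) F) * g =
        J * ((P⁻¹ : GL (Fin n) F) : Matrix (Fin n) (Fin n) F) := by
      have h1 : (g : Matrix (Fin n) (Fin n) F) = P * J * ((P⁻¹ : GL (Fin n) F) : Matrix (Fin n) (Fin n) F) := by
        rw [hP, mul_assoc, P.mul_inv, mul_one]
      rw [h1, mul_assoc (P : Matrix (Fin n) (Fin n) F), Units.inv_mul_cancel_left]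
    have hZJ : ((Z⁻¹ : GL (Fin n) F) : Matrix (Fin n) (Fin n) F) * J =
        J * ((Z⁻¹ : GL (Fin n) F) : Matrix (Fin n) (Fin n) F) := by
      have hs : Z⁻¹ = Matrix.GeneralLinearGroup.scalar (Fin n) c⁻¹ := (map_inv _ _).symm
      rw [hs]
      exact Matrix.scalar_commute _ (fun r => Commute.all _ r) _
    simp only [Units.val_mul, mul_assoc]
    rw [hPi, ← mul_assoc ((Z⁻¹ : GL (Fin n) F) : Matrix (Fin n) (Fin n) F) J, hZJ, mul_assoc J,
      ← mul_assoc (Q : Matrix (Fin n) (Fin n) F) J, hQ, mul_assoc]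
  · obtain ⟨a, rfl⟩ := QuotientGroup.mk_surjective a
    let D : Matrix (Fin n) (Fin n) F := Matrix.diagonal fun i => if (i : ℕ) = 0 then (a : F) else 1
    have hDdet : D.det = a := by
      rw [Matrix.det_diagonal, Finset.prod_eq_single (⟨0, by omega⟩ : Fin n)]
      · simp
      · intro b _ hb
        rw [if_neg (fun h => hb (Fin.ext h))]
      · simp
    set P := Matrix.GeneralLinearGroup.mkOfDetNeZero D (hDdet ▸ a.ne_zero) with hPdef
    let g : Matrix.SpecialLinearGroup (Fin n) F :=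
      ⟨(P : Matrix (Fin n) (Fin n) F) * J * ((P⁻¹ : GL (Fin n) F) : Matrix (Fin n) (Fin n) F), by
        rw [Matrix.coe_units_inv, Matrix.det_conj P.isUnit, hJdet]⟩
    have hg : (P : Matrix (Fin n) (Fin n) F) * J = g * P := by
      change _ = P * J * ((P⁻¹ : GL (Fin n) F) : Matrix (Fin n) (Fin n) F) * P
      rw [mul_assoc _ _ (P : Matrix (Fin n) (Fin n) F), P.inv_mul, mul_one]
    refine ⟨g, (hreg g).2 ⟨P, hg⟩, ?_⟩
    rw [hinv g ((hreg g).2 ⟨P, hg⟩) P hg]
    exact congrArg QuotientGroup.mk (Units.ext hDdet)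

end Cfsg.Agent.S2578
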