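import Cfsg.Statements.S2579
import Cfsg.Agent.H66.Regular
-- import your own Cfsg.Agent.* helpers here

set_option autoImplicit false
open Cfsg

namespace Cfsg.Agent.S2579

/-- In SL_n(F) with n ≥ 3, over a finite field F, any two transvections (matrices t with t − 1 of rank one and square zero) are conjugate by an element of SL_n(F). -/
theorem result {F : Type*} [Field F] [Finite F] {n : ℕ} (hn : 3 ≤ n) (s t : Matrix.SpecialLinearGroup (Fin n) F) (hs : Cfsg.IsTransvection (s : Matrix (Fin n) (Fin n) F)) (ht : Cfsg.IsTransvection (t : Matrix (Fin n) (Fin n) F)) : IsConj s t := by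
  classical
  obtain ⟨hs1, hs2⟩ := hs
  obtain ⟨ht1, ht2⟩ := ht
  set A := (s : Matrix (Fin n) (Fin n) F) with hA
  set B := (t : Matrix (Fin n) (Fin n) F) with hB
  have hAn : IsNilpotent (A - 1) := ⟨2, by rw [pow_two]; exact hs2⟩
  have hBn : IsNilpotent (B - 1) := ⟨2, by rw [pow_two]; exact ht2⟩
  have hk : ∀ k, Cfsg.Agent.H66.kerDim A k = Cfsg.Agent.H66.kerDim B k := by
    intro k
    have h1 := Cfsg.Agent.H66.rank_add_kerDim A k
    have h2 := Cfsg.Agent.H66.rank_add_kerDim B k
    rw [Cfsg.Agent.H66.rank_pow_of_transvection hs1 hs2] at h1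
    rw [Cfsg.Agent.H66.rank_pow_of_transvection ht1 ht2] at h2
    omega
  obtain ⟨l, d, hd, hsum, hd'⟩ := Cfsg.Agent.H66.exists_type A hAn
  rw [Fintype.card_fin] at hsum
  obtain ⟨i₀, hi₀⟩ : ∃ i, d i = 1 := by
    by_contra h
    push Not at h
    have h1 := Cfsg.Agent.H66.rank_add_kerDim A 1
    rw [pow_one, hs1, Fintype.card_fin, hd', Cfsg.Agent.H66.typeKer] at h1
    have h2 : ∑ i, 2 * min 1 (d i) ≤ ∑ i, d i :=
      Finset.sum_le_sum fun i _ => by have := hd i; have := h i; omega
    rw [← Finset.mul_sum] at h2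
    omega
  exact Cfsg.Agent.H66.sl_isConj_of_kerDim_eq s t hAn hBn hk d hsum hd' i₀ hi₀

end Cfsg.Agent.S2579
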