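import Cfsg.Statements.S2585
import Cfsg.Agent.H65.OrthMatrix

set_option autoImplicit false
open Cfsg

namespace Cfsg.Agent.S2585

/-- Over a finite field of characteristic two every element of the symplectic group is orthogonal for a suitable quadratic form: for each A in Sp_2m(F) there is a quadratic form Q on F^(2m) whose polar form is the alternating form defining Sp_2m(F) (so Q is non-degenerate) and which A preserves. Equivalently, for m ≥ 1, Sp_2m(F) is the union of the conjugates of its two orthogonal subgroups O⁺_2m(F) and O⁻_2m(F). -/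
theorem result {F : Type*} [Field F] [Fintype F] [CharP F 2] {m : ℕ} (A : Matrix.symplecticGroup (Fin m) F) : ∃ Q : QuadraticForm F (Fin m ⊕ Fin m → F), (∀ u v : Fin m ⊕ Fin m → F, QuadraticMap.polar ⇑Q u v = Cfsg.sympForm m F u v) ∧ ∀ v : Fin m ⊕ Fin m → F, Q ((A : Matrix (Fin m ⊕ Fin m) (Fin m ⊕ Fin m) F).mulVec v) = Q v := by
  classical
  let V := Fin m ⊕ Fin m → F
  let Q₀ := H4.qPlus m F
  have hQ := H65.qPlus_nd (F := F) m
  have hpol : ∀ u v : V, QuadraticMap.polar Q₀ u v = Cfsg.sympForm m F u v := fun u v => by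
    rw [H4.polar_qPlus, H2.sympForm_apply]
    refine Finset.sum_congr rfl fun i _ => ?_
    rw [CharTwo.sub_eq_add, add_comm]
  let g : V ≃ₗ[F] V := H2.spEquivIsometries m F A
  have hgA : ∀ v, g v = (A : Matrix (Fin m ⊕ Fin m) (Fin m ⊕ Fin m) F).mulVec v :=
    H2.spEquivIsometries_apply A
  have hg : g ∈ H2.isometries (QuadraticMap.polarBilin Q₀) := fun u v => by
    simp only [QuadraticMap.polarBilin_apply_apply, hpol, hgA, H2.sympForm_mulVec]
  obtain ⟨u, hu⟩ := H65.exists_sq_diff Q₀ hQ hg
  let D : V →ₗ[F] V := g.toLinearMap - LinearMap.id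
  have hker : ∀ k ∈ LinearMap.ker D, g k = k := fun k hk =>
    sub_eq_zero.mp (LinearMap.mem_ker.mp hk)
  have hle : LinearMap.range D ≤ H4.perp Q₀ (LinearMap.ker D) := by
    rintro _ ⟨x, rfl⟩ k hk
    show QuadraticMap.polar Q₀ k (g x - x) = 0
    rw [QuadraticMap.polar_sub_right, sub_eq_zero]
    conv_lhs => rw [← hker k hk]
    exact hg k x
  have heq : LinearMap.range D = H4.perp Q₀ (LinearMap.ker D) := by
    refine Submodule.eq_of_le_of_finrank_eq hle ?_
    have := LinearMap.finrank_range_add_finrank_ker D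
    rw [H4.finrank_perp hQ]
    simp only [V] at *
    omega
  have hu' : u ∈ LinearMap.range D := by
    rw [heq]
    intro k hk
    have h := hu k
    rw [hker k hk, left_eq_add] at h
    show QuadraticMap.polar Q₀ k u = 0
    rw [QuadraticMap.polar_comm]
    exact (pow_eq_zero_iff two_ne_zero).mp h
  obtain ⟨x, hx⟩ := hu'
  let w := g x
  let l := QuadraticMap.polarBilin Q₀ w
  refine ⟨Q₀ + QuadraticMap.linMulLin l l, fun a b => ?_, fun v => ?_⟩
  · rw [← hpol a b]
    simp only [QuadraticMap.polar, QuadraticMap.add_apply, QuadraticMap.linMulLin_apply, map_add]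
    linear_combination (l a * l b) * (CharTwo.two_eq_zero : (2 : F) = 0)
  · rw [← hgA]
    simp only [QuadraticMap.add_apply, QuadraticMap.linMulLin_apply, l, QuadraticMap.polarBilin_apply_apply]
    have h1 : QuadraticMap.polar Q₀ w (g v) = QuadraticMap.polar Q₀ x v := hg x v
    have h2 : QuadraticMap.polar Q₀ u v = QuadraticMap.polar Q₀ w v + QuadraticMap.polar Q₀ x v := by
      rw [← hx]
      show QuadraticMap.polar Q₀ (g x - x) v = _
      rw [QuadraticMap.polar_sub_left, CharTwo.sub_eq_add]
    rw [hu, h1, h2]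
    linear_combination (QuadraticMap.polar Q₀ x v ^ 2 + QuadraticMap.polar Q₀ x v * QuadraticMap.polar Q₀ w v) *
      (CharTwo.two_eq_zero : (2 : F) = 0)

end Cfsg.Agent.S2585
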