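import Cfsg.Statements.S2594
import Cfsg.Agent.H65.SpMatrixCent

set_option autoImplicit false
open Cfsg

namespace Cfsg.Agent.S2594

/-- Over a finite field with q elements, q even, an element t of Sp_2m(F) with rank(t − 1) = 1 (a symplectic transvection) has centraliser in Sp_2m(F) of order q^(2m−1) · |Sp_(2m−2)(q)| = q^(2m−1) · q^((m−1)²) · Π_(i=1)^(m−1) (q^(2i) − 1). -/
theorem result {F : Type*} [Field F] [Fintype F] [CharP F 2] {q : ℕ} (hF : Fintype.card F = q) {m : ℕ} (hm : 1 ≤ m) (t : Matrix.symplecticGroup (Fin m) F) (ht : ((t : Matrix (Fin m ⊕ Fin m) (Fin m ⊕ Fin m) F) - 1).rank = 1) : Nat.card ↥(Subgroup.centralizer ({t} : Set ↥(Matrix.symplecticGroup (Fin m) F))) = q ^ (2 * m - 1) * (q ^ ((m - 1) ^ 2) * ∏ i : Fin (m - 1), (q ^ (2 * ((i : ℕ) + 1)) - 1)) := by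
  obtain rfl : q = Nat.card F := by rw [Nat.card_eq_fintype_card, hF]
  have hrk : (H65.spN t).range.IsPrincipal ∧ ∀ v, H65.spN t (H65.spN t v) = 0 := by
    have hd : Module.finrank F (LinearMap.range (H65.spN t)) = 1 := ht
    obtain ⟨⟨a, ha⟩, hne, hspan⟩ := finrank_eq_one_iff'.mp hd
    have hmul : ∀ v, ∃ c : F, H65.spN t v = c • a := fun v => by
      obtain ⟨c, hc⟩ := hspan ⟨_, LinearMap.mem_range_self _ v⟩
      exact ⟨c, (congrArg Subtype.val hc).symm⟩
    refine ⟨⟨⟨a, le_antisymm ?_ ?_⟩⟩, ?_⟩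
    · rintro _ ⟨v, rfl⟩
      obtain ⟨c, hc⟩ := hmul v
      exact Submodule.mem_span_singleton.mpr ⟨c, hc.symm⟩
    · rw [Submodule.span_singleton_le_iff_mem]; exact ha
    · obtain ⟨c, hc⟩ := hmul a
      suffices hc0 : c = 0 by
        intro v
        obtain ⟨e, he⟩ := hmul v
        rw [he, map_smul, hc, hc0, zero_smul, smul_zero]
      obtain ⟨b, hb⟩ : ∃ b, Cfsg.sympForm m F a b ≠ 0 := by
        by_contra hn
        push Not at hn
        exact hne (Subtype.ext (H2.sympForm_eq_zero_forall hn))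
      obtain ⟨w, hw⟩ := ha
      have hinv : ∀ u v, H2.sympBilin m F (u + H65.spN t u) (v + H65.spN t v) = H2.sympBilin m F u v :=
        fun u v => by simp [H65.spN_apply]
      have h1 := hinv a b
      have h2 := hinv a w
      obtain ⟨e, he⟩ := hmul b
      rw [hc, he] at h1
      rw [hc, hw] at h2
      simp only [map_add, map_smul, LinearMap.add_apply, LinearMap.smul_apply, smul_eq_mul,
        H2.sympBilin_apply, H2.sympForm_self] at h1
      exact (mul_eq_zero.mp (show c * Cfsg.sympForm m F a b = 0 by linear_combination h1)).resolve_right hb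
  have ht2 : t ^ 2 = 1 := by
    refine H2.ext_of_mulVec fun v => ?_
    have h := hrk.2 v
    simp only [H65.spN_apply, Matrix.mulVec_sub] at h
    rw [pow_two]
    simp only [Submonoid.coe_mul, Submonoid.coe_one, Matrix.one_mulVec, ← Matrix.mulVec_mulVec]
    funext i
    have hi := congrFun h i
    simp only [Pi.sub_apply, Pi.zero_apply] at hi
    linear_combination hi + ((t.1.mulVec v) i - v i) * (CharTwo.two_eq_zero : (2 : F) = 0)
  have hna : ¬ ∀ v, Cfsg.sympForm m F v ((t : Matrix (Fin m ⊕ Fin m) (Fin m ⊕ Fin m) F).mulVec v) = 0 := fun h => by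
    have := (H65.invData_spN t ht2).even_rank ((H65.isAltType_spN_iff t).mpr h)
    rw [H65.finrank_range_spN, ht] at this
    exact Nat.not_even_one this
  obtain ⟨-, h⟩ := H65.card_centralizer_nonalt t ht2 ht hna
  rw [h, H65.onCount_one, H2.card_sp, mul_one,
    Fin.prod_univ_eq_prod_range (fun i => Nat.card F ^ (2 * (i + 1)) - 1)]
  congr 2
  omega

end Cfsg.Agent.S2594
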