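import Cfsg.Statements.S2598
import Cfsg.Agent.H65.ClassCount

set_option autoImplicit false
open Cfsg

namespace Cfsg.Agent.S2598

/-- Number of conjugacy classes of involutions in Ω⁻_2m(F) (the commutator subgroup of the orthogonal group of an elliptic quadratic form, Σ_(i<m−1) x_i y_i plus an anisotropic binary form) over a finite field F of characteristic two, m ≥ 1: the involutions of Ω are those with s = rank(t − 1) even, one O-class for each even s with 2 ≤ s ≤ m on which v ↦ f(v, tv) is not identically zero and one for each even s with 2 ≤ s < m on which it is zero (f the polar form; in characteristic 2, f(v, tv) = Q(v + tv)), none of which splits in Ω; in all ⌊m/2⌋ + ⌊(m − 1)/2⌋. -/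
theorem result {F : Type*} [Field F] [Fintype F] [CharP F 2] {m : ℕ} (hm : 1 ≤ m) (a b : F) (hab : ∀ z₁ z₂ : F, z₁ ^ 2 + a * z₁ * z₂ + b * z₂ ^ 2 = 0 → z₁ = 0 ∧ z₂ = 0) : Nat.card {C : ConjClasses ↥(Cfsg.Omega F (Cfsg.quadFormMinus (m - 1) F a b)) // ∃ g : ↥(Cfsg.Omega F (Cfsg.quadFormMinus (m - 1) F a b)), ConjClasses.mk g = C ∧ orderOf g = 2} = m / 2 + (m - 1) / 2 := by
  classical
  obtain ⟨n, rfl⟩ : ∃ n, m = n + 1 := ⟨m - 1, by omega⟩
  suffices key : ∀ k, k = n → Nat.card {C : ConjClasses ↥(Cfsg.Omega F (Cfsg.quadFormMinus k F a b)) //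
      ∃ g : ↥(Cfsg.Omega F (Cfsg.quadFormMinus k F a b)), ConjClasses.mk g = C ∧ orderOf g = 2} =
        (n + 1) / 2 + (n + 1 - 1) / 2 from key _ (Nat.add_sub_cancel n 1)
  rintro k hk
  subst hk
  rw [Nat.add_sub_cancel]
  refine (H65.card_involution_classes_congr (H65.omegaEquiv _ (H4.coe_qMinus k a b))).trans ?_
  have hQ := H65.qMinus_nd k hab
  have hΩ : ∀ g : H5.orth (H4.qMinus k F a b), g ∈ commutator (H5.orth (H4.qMinus k F a b)) ↔ Even (H5.rk g) := by
    by_cases hex : Fintype.card F ≠ 2 ∨ Fintype.card ((Fin k ⊕ Fin k) ⊕ Fin 2) ≠ 4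
    · exact H65.mem_omega_iff_even hQ (H65.excl_of_card hex)
    · push Not at hex
      obtain rfl : k = 1 := by
        have := hex.2
        simp at this
        omega
      refine H65.mem_omega_iff_even_noPlane hQ (fun c => ?_) (fun W hW => H65.qMinus_singular_finrank_ne 1 hab hW)
      by_contra hc
      push Not at hc
      have hle := Finset.card_le_univ ({0, 1, c} : Finset F)
      rw [Finset.card_insert_of_notMem (by simp [hc.1.symm]),
        Finset.card_insert_of_notMem (by simp [hc.2.symm]), Finset.card_singleton, hex.1] at hle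
      omega
  rw [(H65.involSpace_minus k hab).card_omega_classes (by omega) hΩ (fun hr => absurd hr (by omega)),
    if_neg (by omega), add_zero]

end Cfsg.Agent.S2598
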