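import Cfsg.Statements.S2599
import Mathlib

set_option autoImplicit false
open Cfsg

namespace Cfsg.Agent.S2599

/-- An irreducible invariant subspace of a semisimple isometry is non-degenerate or totally singular: let Q be a quadratic form on F^n (F finite of characteristic p) with non-degenerate polar form f, x an isometry of Q of order prime to p, and U a non-zero x-invariant subspace containing no x-invariant subspace other than 0 and U. Then U meets its f-orthogonal trivially, or Q vanishes on U, or p = 2, U is a line spanned by a non-singular vector and x fixes U pointwise. -/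
theorem result {F : Type*} [Field F] [Fintype F] {p : ℕ} [Fact p.Prime] [CharP F p] {n : ℕ} (Q : QuadraticForm F (Fin n → F)) (hQ : (QuadraticMap.polarBilin Q).Nondegenerate) (x : ↥(Cfsg.isometryGroup F ⇑Q)) (hx : (orderOf x).Coprime p) (U : Submodule F (Fin n → F)) (hU0 : U ≠ ⊥) (hUx : ∀ u ∈ U, ((x : Matrix.GeneralLinearGroup (Fin n) F) : Matrix (Fin n) (Fin n) F).mulVec u ∈ U) (hirr : ∀ W : Submodule F (Fin n → F), W ≤ U → (∀ w ∈ W, ((x : Matrix.GeneralLinearGroup (Fin n) F) : Matrix (Fin n) (Fin n) F).mulVec w ∈ W) → W = ⊥ ∨ W = U) : U ⊓ LinearMap.BilinForm.orthogonal (QuadraticMap.polarBilin Q) U = ⊥ ∨ (∀ u ∈ U, Q u = 0) ∨ (p = 2 ∧ Module.finrank F U = 1 ∧ (∃ u ∈ U, Q u ≠ 0) ∧ ∀ u ∈ U, ((x : Matrix.GeneralLinearGroup (Fin n) F) : Matrix (Fin n) (Fin n) F).mulVec u = u) := by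
  classical
  set M : Matrix (Fin n) (Fin n) F := ((x : Matrix.GeneralLinearGroup (Fin n) F) : Matrix (Fin n) (Fin n) F)
  have hiso : ∀ v, Q (M.mulVec v) = Q v := fun v => x.2 v v
  have hadd : ∀ a b, Q (a + b) = Q a + Q b + QuadraticMap.polarBilin Q a b := fun a b => by
    simp [QuadraticMap.polar]
  have hB : ∀ a b, QuadraticMap.polarBilin Q (M.mulVec a) (M.mulVec b) = QuadraticMap.polarBilin Q a b := by
    intro a b
    simp [QuadraticMap.polar, ← Matrix.mulVec_add, hiso]
  let T : U →ₗ[F] U := LinearMap.codRestrict U (M.mulVecLin.comp U.subtype) fun u => hUx u u.2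
  have hTinj : Function.Injective T := by
    intro a b h
    exact Subtype.ext (Matrix.mulVec_injective_of_isUnit (x : Matrix.GeneralLinearGroup (Fin n) F).isUnit
      (congrArg Subtype.val h))
  have hTsurj : Function.Surjective T := LinearMap.surjective_of_injective hTinj
  set R := U ⊓ LinearMap.BilinForm.orthogonal (QuadraticMap.polarBilin Q) U
  have hR : ∀ w ∈ R, M.mulVec w ∈ R := by
    rintro w ⟨hwU, hwO⟩
    refine ⟨hUx w hwU, fun u hu => ?_⟩
    obtain ⟨u', hu'⟩ := hTsurj ⟨u, hu⟩
    rw [← show M.mulVec u' = u from congrArg Subtype.val hu']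
    rw [hB]
    exact hwO u' u'.2
  rcases hirr R inf_le_left hR with h | h
  · exact Or.inl h
  · have hf : ∀ a ∈ U, ∀ b ∈ U, QuadraticMap.polarBilin Q a b = 0 := fun a ha b hb => by
      rw [← h] at hb
      exact hb.2 a ha
    by_cases hp : p = 2
    · subst hp
      haveI : CharP F 2 := inferInstance
      let W : Submodule F (Fin n → F) :=
        { carrier := {u | u ∈ U ∧ Q u = 0}
          zero_mem' := ⟨U.zero_mem, QuadraticMap.map_zero Q⟩
          add_mem' := fun {a b} ha hb => ⟨U.add_mem ha.1 hb.1, by
            rw [hadd, ha.2, hb.2, hf a ha.1 b hb.1]; simp⟩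
          smul_mem' := fun c a ha => ⟨U.smul_mem c ha.1, by
            rw [QuadraticMap.map_smul, ha.2, smul_zero]⟩ }
      rcases hirr W (fun w hw => hw.1) (fun w hw => ⟨hUx w hw.1, by rw [hiso]; exact hw.2⟩) with hW | hW
      · right; right
        let g : U →+ F :=
          { toFun := fun u => Q (u : Fin n → F)
            map_zero' := QuadraticMap.map_zero Q
            map_add' := fun a b => by rw [Submodule.coe_add, hadd, hf a a.2 b b.2, add_zero] }
        have hg : Function.Injective g := by
          rw [injective_iff_map_eq_zero]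
          intro u hu
          have : (u : Fin n → F) ∈ W := ⟨u.2, hu⟩
          rw [hW, Submodule.mem_bot] at this
          exact Subtype.ext this
        have hpos : 0 < Module.finrank F U := by
          rw [Nat.pos_iff_ne_zero]
          intro h0
          exact hU0 (Submodule.finrank_eq_zero.1 h0)
        have hle : Module.finrank F U ≤ 1 := by
          have h1 := Nat.card_le_card_of_injective g hg
          rw [Module.natCard_eq_pow_finrank (K := F)] at h1
          have h2 : 1 < Nat.card F := Finite.one_lt_card
          exact (Nat.pow_le_pow_iff_right h2).1 (by rwa [pow_one])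
        obtain ⟨u₀, hu₀, hu0⟩ := Submodule.exists_mem_ne_zero_of_ne_bot hU0
        have hQ0 : Q u₀ ≠ 0 := fun e => hu0 (congrArg Subtype.val
          (hg (show g ⟨u₀, hu₀⟩ = g 0 by simpa [g] using e)))
        refine ⟨rfl, by omega, ⟨u₀, hu₀, hQ0⟩, fun u hu => ?_⟩
        by_cases hu1 : u = 0
        · subst hu1; simp [M]
        obtain ⟨c, hc⟩ := exists_smul_eq_of_finrank_eq_one (K := F) (V := U) (by omega)
          (x := ⟨u, hu⟩) (fun e => hu1 (congrArg Subtype.val e)) ⟨M.mulVec u, hUx u hu⟩
        have hc' : c • u = M.mulVec u := congrArg Subtype.val hc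
        have hQu : Q u ≠ 0 := fun e => hu1 (congrArg Subtype.val
          (hg (show g ⟨u, hu⟩ = g 0 by simpa [g] using e)))
        have h1 : c * c * Q u = 1 * Q u := by
          rw [one_mul, ← smul_eq_mul, ← QuadraticMap.map_smul, hc', hiso]
        have h2 : c = 1 := by
          rcases mul_self_eq_one_iff.1 (mul_right_cancel₀ hQu h1) with h3 | h3
          · exact h3
          · rw [h3, CharTwo.neg_eq]
        rw [← hc', h2, one_smul]
      · right; left
        intro u hu
        rw [← hW] at hu
        exact hu.2
    · right; left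
      intro u hu
      have h2 : (2 : F) ≠ 0 := by
        intro h2
        have h2' : ((2 : ℕ) : F) = 0 := by exact_mod_cast h2
        rw [CharP.cast_eq_zero_iff F p] at h2'
        exact hp ((Nat.prime_dvd_prime_iff_eq (Fact.out : p.Prime) Nat.prime_two).1 h2')
      have h3 := hf u hu u hu
      simp only [QuadraticMap.polarBilin_apply_apply, QuadraticMap.polar_self, nsmul_eq_mul,
        Nat.cast_ofNat, mul_eq_zero] at h3
      exact h3.resolve_left h2

end Cfsg.Agent.S2599
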