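import Cfsg.Statements.S2610
import Cfsg.Agent.H5.SpecialElements
import Cfsg.Agent.H4.NegOne

set_option autoImplicit false
open Cfsg

namespace Cfsg.Agent.S2610

/-- For a quadratic form Q on F^n with non-degenerate polar form, F finite of odd order and n ≥ 2 even, the isometry −1 lies in Ω (the commutator subgroup of the orthogonal group) if and only if the discriminant of Q (the determinant of the Gram matrix of its polar form) is a square. -/
theorem result {F : Type*} [Field F] [Fintype F] (h2 : (2 : F) ≠ 0) {n : ℕ} (hn : 2 ≤ n) (he : Even n) (Q : QuadraticForm F (Fin n → F)) (hQ : (QuadraticMap.polarBilin Q).Nondegenerate) : (∃ g : ↥(Cfsg.isometryGroup F ⇑Q), g ∈ Cfsg.Omega F ⇑Q ∧ ((g : Matrix.GeneralLinearGroup (Fin n) F) : Matrix (Fin n) (Fin n) F) = -1) ↔ IsSquare (Matrix.of (fun i j : Fin n => QuadraticMap.polar ⇑Q (Pi.single i 1) (Pi.single j 1))).det := by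
  have hM : ∀ x : Fin n → F, ((H4.negOrth Q : H5.orth Q) : (Fin n → F) ≃ₗ[F] (Fin n → F)) x =
      (-1 : Matrix (Fin n) (Fin n) F).mulVec x := fun x => by
    rw [H4.negOrth_apply, Matrix.neg_mulVec, Matrix.one_mulVec]
  rw [H5.exists_mem_Omega_iff Q rfl _ hM,
    H4.negOrth_mem_iff h2 hQ (Pi.basisFun F (Fin n)) (by rw [Module.finrank_fin_fun]; omega),
    Module.finrank_fin_fun, and_iff_right he]
  have hg : H4.gram Q (Pi.basisFun F (Fin n)) =
      Matrix.of fun i j : Fin n => QuadraticMap.polar (⇑Q) (Pi.single i 1) (Pi.single j 1) := by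
    ext i j; simp [H4.gram]
  rw [hg]

end Cfsg.Agent.S2610
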