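import Cfsg.Statements.S2611
import Cfsg.Agent.H5.Levi

set_option autoImplicit false
open Cfsg

namespace Cfsg.Agent.S2611

/-- For the hyperbolic quadratic form Σ x_i y_i on F^(2m) (F finite, m ≥ 1, excluding m = 2 over the field of two elements) and an invertible m × m matrix A, the block-diagonal isometry diag(A, (A⁻¹)ᵀ), which stabilises the two maximal totally singular subspaces x = 0 and y = 0, lies in Ω⁺_2m(F) (the commutator subgroup of the orthogonal group) if and only if det A is a square in F. -/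
theorem result {F : Type*} [Field F] [Fintype F] {m : ℕ} (hm : 1 ≤ m) (h : Fintype.card F ≠ 2 ∨ m ≠ 2) (A : GL (Fin m) F) : (∃ g : ↥(Cfsg.isometryGroup F (Cfsg.quadFormPlus m F)), g ∈ Cfsg.Omega F (Cfsg.quadFormPlus m F) ∧ ((g : Matrix.GeneralLinearGroup (Fin m ⊕ Fin m) F) : Matrix (Fin m ⊕ Fin m) (Fin m ⊕ Fin m) F) = Matrix.fromBlocks (A : Matrix (Fin m) (Fin m) F) 0 0 ((A : Matrix (Fin m) (Fin m) F)⁻¹).transpose) ↔ IsSquare (A : Matrix (Fin m) (Fin m) F).det := by
  have hQ := H5.qPlus_nondegenerate (F := F) m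
  have hstd : Nat.card F ≠ 2 ∨ Module.finrank F (Fin m ⊕ Fin m → F) ≠ 4 := by
    rw [Nat.card_eq_fintype_card, Module.finrank_fintype_fun_eq_card]
    simp only [Fintype.card_sum, Fintype.card_fin]
    omega
  rw [H5.exists_mem_Omega_iff (H5.qPlus m F) (H5.coe_qPlus m) _ (h := H5.leviHom A) (fun x => by
      rw [H5.leviHom_apply, H5.leviLin, Matrix.mulVecLin_apply,
        Matrix.GeneralLinearGroup.coe_inv]),
    H5.mem_commutator_iff hQ hstd, H5.dick_leviHom, H5.spin_leviHom, H5.sqc_eq_one_iff]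
  simp

end Cfsg.Agent.S2611
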