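import Cfsg.Statements.S2612
import Cfsg.Agent.H5.PlusParity

set_option autoImplicit false
open Cfsg

namespace Cfsg.Agent.S2612

/-- For the hyperbolic quadratic form Σ x_i y_i on F^(2m) (F finite, m ≥ 1, excluding m = 2 over the field of two elements), Ω⁺_2m(F) (the commutator subgroup of the orthogonal group) contains an element interchanging the two complementary maximal totally singular subspaces {y = 0} and {x = 0} if and only if m is even (dimension divisible by 4). -/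
theorem result {F : Type*} [Field F] [Fintype F] {m : ℕ} (hm : 1 ≤ m) (h : Fintype.card F ≠ 2 ∨ m ≠ 2) : (∃ g : ↥(Cfsg.isometryGroup F (Cfsg.quadFormPlus m F)), g ∈ Cfsg.Omega F (Cfsg.quadFormPlus m F) ∧ (∀ v : Fin m ⊕ Fin m → F, (∀ i, v (Sum.inr i) = 0) → ∀ i, (((g : Matrix.GeneralLinearGroup (Fin m ⊕ Fin m) F) : Matrix (Fin m ⊕ Fin m) (Fin m ⊕ Fin m) F).mulVec v) (Sum.inl i) = 0) ∧ (∀ v : Fin m ⊕ Fin m → F, (∀ i, v (Sum.inl i) = 0) → ∀ i, (((g : Matrix.GeneralLinearGroup (Fin m ⊕ Fin m) F) : Matrix (Fin m ⊕ Fin m) (Fin m ⊕ Fin m) F).mulVec v) (Sum.inr i) = 0)) ↔ Even m := by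
  classical
  have hc := H5.coordPairs_qPlus (F := F) m
  have hQ := H5.qPlus_nondegenerate (F := F) m
  have hstd : Nat.card F ≠ 2 ∨ Module.finrank F (Fin m ⊕ Fin m → F) ≠ 4 := by
    rw [Nat.card_eq_fintype_card, Module.finrank_fintype_fun_eq_card]
    simp only [Fintype.card_sum, Fintype.card_fin]
    omega
  constructor
  · rintro ⟨g, hg, hA, hB⟩
    set k := H5.isoEquiv (H5.qPlus m F) (H5.coe_qPlus m) g
    have hk := (H5.mem_commutator_iff hQ hstd).1 ((H5.mem_Omega_iff _ (H5.coe_qPlus m) g).1 hg)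
    have hs := hc.invariants_swapProd hQ (List.finRange m)
    set s := H5.swapProd (H5.qPlus m F) Sum.inl Sum.inr (List.finRange m)
    have hsapp : ∀ x, (∀ i, (s : (Fin m ⊕ Fin m → F) ≃ₗ[F] (Fin m ⊕ Fin m → F)) x (Sum.inl i) = x (Sum.inr i)) ∧
        (∀ i, (s : (Fin m ⊕ Fin m → F) ≃ₗ[F] (Fin m ⊕ Fin m → F)) x (Sum.inr i) = x (Sum.inl i)) := fun x =>
      ⟨fun i => by rw [(hc.swapProd_apply (List.nodup_finRange m) x).1 i]; simp,
       fun i => by rw [(hc.swapProd_apply (List.nodup_finRange m) x).2 i]; simp⟩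
    -- `s * k` preserves both coordinate subspaces, so it has even residual dimension
    set A : (Fin m ⊕ Fin m → F) →ₗ[F] (Fin m ⊕ Fin m → F) := H5.dLin (s * k)
    have hsk : ∀ x, ((s * k : H5.orth (H5.qPlus m F)) : (Fin m ⊕ Fin m → F) ≃ₗ[F] (Fin m ⊕ Fin m → F)) x =
        (s : (Fin m ⊕ Fin m → F) ≃ₗ[F] (Fin m ⊕ Fin m → F))
          (((g : Matrix.GeneralLinearGroup (Fin m ⊕ Fin m) F) : Matrix (Fin m ⊕ Fin m) (Fin m ⊕ Fin m) F).mulVec x) := fun x => rfl
    have hev : H5.dick (s * k) = 1 := H5.dick_eq_one_of_preserves (s * k)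
      (fun x hx i => by rw [hsk, (hsapp _).2]; exact hA x hx i)
      (fun x hx i => by rw [hsk, (hsapp _).1]; exact hB x hx i)
    rw [H5.dick_mul hQ (H5.swapProd_mem_reflGroup _ _ _ _), hs.1, hk.1, mul_one,
      List.length_finRange] at hev
    by_contra hodd
    rw [(Nat.not_even_iff_odd.1 hodd).neg_one_pow] at hev
    exact absurd hev (by decide)
  · intro he
    set s := H5.swapProd (H5.qPlus m F) Sum.inl Sum.inr (List.finRange m)
    have hs := hc.invariants_swapProd hQ (List.finRange m)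
    have hmem : s ∈ commutator (H5.orth (H5.qPlus m F)) := by
      rw [H5.mem_commutator_iff hQ hstd, hs.1, hs.2, List.length_finRange]
      obtain ⟨r, rfl⟩ := he
      exact ⟨Even.neg_one_pow ⟨r, rfl⟩, by rw [← two_mul, pow_mul, Int.units_sq, one_pow]⟩
    refine ⟨(H5.isoEquiv (H5.qPlus m F) (H5.coe_qPlus m)).symm s,
      (H5.mem_Omega_iff (H5.qPlus m F) (H5.coe_qPlus m) _).2 (by simpa using hmem), ?_, ?_⟩
    · intro v hv i
      rw [H5.isoEquiv_symm_apply, (hc.swapProd_apply (List.nodup_finRange m) v).1 i]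
      simp [hv i]
    · intro v hv i
      rw [H5.isoEquiv_symm_apply, (hc.swapProd_apply (List.nodup_finRange m) v).2 i]
      simp [hv i]

end Cfsg.Agent.S2612
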