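import Cfsg.Statements.S2617
import Cfsg.Agent.H4.Count

set_option autoImplicit false
open Cfsg

namespace Cfsg.Agent.S2617

/-- The two standard quadratic forms of even dimension 2m over a finite field are not isometric: there is no linear isomorphism carrying the elliptic form Σ_(i<m−1) x_i y_i + z₁² + z₁z₂ + ζ z₂² (t² + t + ζ without roots) to the hyperbolic form Σ_(i<m) x_i y_i (they have different Witt index). -/
theorem result {F : Type*} [Field F] [Finite F] {m : ℕ} (hm : 1 ≤ m) (ζ : F) (hζ : ∀ t : F, t ^ 2 + t + ζ ≠ 0) (g : (Fin m ⊕ Fin m → F) ≃ₗ[F] ((Fin (m - 1) ⊕ Fin (m - 1)) ⊕ Fin 2 → F)) : ¬ (∀ v : Fin m ⊕ Fin m → F, Cfsg.quadFormMinus (m - 1) F 1 ζ (g v) = Cfsg.quadFormPlus m F v) := by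
  intro hg
  obtain ⟨k, rfl⟩ : ∃ k, m = k + 1 := ⟨m - 1, by omega⟩
  haveI := Fintype.ofFinite F
  have hab : ∀ z₁ z₂ : F, z₁ ^ 2 + 1 * z₁ * z₂ + ζ * z₂ ^ 2 = 0 → z₁ = 0 ∧ z₂ = 0 := by
    intro z₁ z₂ h
    rcases eq_or_ne z₂ 0 with rfl | h2
    · refine ⟨pow_eq_zero_iff two_ne_zero |>.1 (by linear_combination h), rfl⟩
    · exfalso
      apply hζ (z₁ / z₂)
      field_simp
      linear_combination h
  have hp := Cfsg.Agent.H4.card_qPlus_zeros (F := F) (k + 1)
  have hm := Cfsg.Agent.H4.card_qMinus_zeros (F := F) k 1 ζ hab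
  have he : Nat.card {v : Fin (k + 1) ⊕ Fin (k + 1) → F // Cfsg.quadFormPlus (k + 1) F v = 0} =
      Nat.card {v : (Fin k ⊕ Fin k) ⊕ Fin 2 → F // Cfsg.quadFormMinus k F 1 ζ v = 0} :=
    Nat.card_congr (g.toEquiv.subtypeEquiv fun v => by
      rw [← hg v]; rfl)
  rw [he, hm] at hp
  have hq : 1 < Fintype.card F := Fintype.one_lt_card
  have h0 : (Fintype.card F : ℤ) ^ (k + 1) * ((Fintype.card F : ℤ) - 1) = 0 := by
    have h' : 2 * ((Fintype.card F : ℤ) ^ (k + 1) * ((Fintype.card F : ℤ) - 1)) = 0 := by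
      linear_combination -hp
    linarith
  rcases mul_eq_zero.1 h0 with h | h
  · exact absurd (pow_eq_zero_iff (by omega) |>.1 h) (by exact_mod_cast (by omega : Fintype.card F ≠ 0))
  · omega

end Cfsg.Agent.S2617
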