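import Cfsg.Statements.S2619
import Cfsg.Agent.H4.CharTwoForms

set_option autoImplicit false
open Cfsg

namespace Cfsg.Agent.S2619

/-- Over a finite field of characteristic two, given an alternating bilinear form B on a finite-dimensional space, a basis (v_i) and scalars (λ_i), there is exactly one quadratic form whose polar form is B and whose value at each v_i is λ_i. -/
theorem result {F V ι : Type*} [Field F] [Finite F] [CharP F 2] [AddCommGroup V] [Module F V] [Fintype ι] (b : Module.Basis ι F V) (B : LinearMap.BilinForm F V) (hB : B.IsAlt) (c : ι → F) : ∃! Q : QuadraticForm F V, QuadraticMap.polarBilin Q = B ∧ ∀ i, Q (b i) = c i := by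
  exact H4.existsUnique_qf_of_polar CharTwo.two_eq_zero b B hB c

end Cfsg.Agent.S2619
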