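import Cfsg.Statements.S2621
import Cfsg.Agent.H4.SquareClass

set_option autoImplicit false
open Cfsg

namespace Cfsg.Agent.S2621

/-- Discriminant of an elliptic quadratic form Σ_(i<m−1) x_i y_i + z₁² + a z₁z₂ + c z₂² (binary part anisotropic) in dimension 2m over a field with q elements, q odd, m ≥ 1: the determinant of the Gram matrix of its polar form in any basis is a square if and only if m(q − 1)/2 is odd (equivalently q^m ≡ 3 (mod 4)). -/
theorem result {F : Type*} [Field F] [Fintype F] {q : ℕ} (hF : Fintype.card F = q) (hq : Odd q) {m : ℕ} (hm : 1 ≤ m) (a c : F) (hac : ∀ z₁ z₂ : F, z₁ ^ 2 + a * z₁ * z₂ + c * z₂ ^ 2 = 0 → z₁ = 0 ∧ z₂ = 0) {ι : Type*} [Fintype ι] [DecidableEq ι] (b : Module.Basis ι F ((Fin (m - 1) ⊕ Fin (m - 1)) ⊕ Fin 2 → F)) : IsSquare (Matrix.of (fun i j : ι => QuadraticMap.polar (Cfsg.quadFormMinus (m - 1) F a c) (b i) (b j))).det ↔ ¬ Even (m * (q - 1) / 2) := by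
  subst hF
  classical
  obtain ⟨k, rfl⟩ : ∃ k, m = k + 1 := ⟨m - 1, by omega⟩
  rw [H4.even_mul_half hq, ← H4.isSquare_neg_one_pow (F := F)]
  obtain ⟨t, ht0, ht⟩ := H4.det_gram_isom (Q := H4.qMinus k F a c) (Q' := H4.qMinus k F a c)
    (LinearEquiv.refl F _) (fun _ => rfl) b (Pi.basisFun F _)
  rw [H4.det_gram_qMinus] at ht
  have hb : (Matrix.of fun i j : ι => QuadraticMap.polar (Cfsg.quadFormMinus (k + 1 - 1) F a c)
      (b i) (b j)) = H4.gram (H4.qMinus k F a c) b := by rw [← H4.coe_qMinus]; rfl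
  rw [hb, ht]
  have h2 := H4.two_ne_zero_of_odd_card hq
  have hn := H4.not_isSquare_disc h2 hac
  have hd0 : a ^ 2 - 4 * c ≠ 0 := fun h => hn (h ▸ IsSquare.zero)
  have hkk : ((-1 : F) ^ k) ≠ 0 := pow_ne_zero _ (neg_ne_zero.2 one_ne_zero)
  constructor
  · rintro ⟨r, hr⟩ ⟨s, hs⟩
    have hs0 : s ≠ 0 := fun h => pow_ne_zero (k + 1) (neg_ne_zero.2 one_ne_zero) (by rw [hs, h, mul_zero])
    refine hn ⟨r / (t * s), ?_⟩
    field_simp
    rw [pow_succ] at hs
    linear_combination hr - t ^ 2 * (a ^ 2 - 4 * c) * hs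
  · intro hns
    have := H4.isSquare_mul_of_not hns hn
    obtain ⟨r, hr⟩ := this
    refine ⟨t * r, ?_⟩
    rw [pow_succ] at hr
    linear_combination t ^ 2 * hr

end Cfsg.Agent.S2621
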