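import Cfsg.Statements.S2627
import Cfsg.Agent.H5.Blocks

set_option autoImplicit false
open Cfsg

namespace Cfsg.Agent.S2627

/-- For an orthogonal direct sum Q = Q₁ ⊕ Q₂ of quadratic forms with non-degenerate polar forms over a finite field, an isometry g₁ of Q₁ extended by the identity on the second summand lies in Ω(Q) (the commutator subgroup of the orthogonal group of Q) if and only if g₁ lies in Ω(Q₁). (Excluded: the field of two elements when the first summand or the whole space has dimension 4, where the commutator subgroup of O⁺₄(2) is smaller than the group usually called Ω.) -/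
theorem result {F : Type*} [Field F] [Fintype F] {k l : ℕ} (h : Fintype.card F ≠ 2 ∨ (k ≠ 4 ∧ k + l ≠ 4)) (Q₁ : QuadraticForm F (Fin k → F)) (Q₂ : QuadraticForm F (Fin l → F)) (h₁ : (QuadraticMap.polarBilin Q₁).Nondegenerate) (h₂ : (QuadraticMap.polarBilin Q₂).Nondegenerate) (g₁ : ↥(Cfsg.isometryGroup F ⇑Q₁)) : (∃ g : ↥(Cfsg.isometryGroup F (fun v : Fin k ⊕ Fin l → F => Q₁ (v ∘ Sum.inl) + Q₂ (v ∘ Sum.inr))), g ∈ Cfsg.Omega F (fun v : Fin k ⊕ Fin l → F => Q₁ (v ∘ Sum.inl) + Q₂ (v ∘ Sum.inr)) ∧ ((g : Matrix.GeneralLinearGroup (Fin k ⊕ Fin l) F) : Matrix (Fin k ⊕ Fin l) (Fin k ⊕ Fin l) F) = Matrix.fromBlocks ((g₁ : Matrix.GeneralLinearGroup (Fin k) F) : Matrix (Fin k) (Fin k) F) 0 0 1) ↔ g₁ ∈ Cfsg.Omega F ⇑Q₁ := by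
  have hn : Module.finrank F (Fin k ⊕ Fin l → F) = k + l := by
    simp [Module.finrank_fintype_fun_eq_card]
  have hstd₁ : Nat.card F ≠ 2 ∨ Module.finrank F (Fin k → F) ≠ 4 :=
    H5.std_of_card (by tauto)
  have hstd : Nat.card F ≠ 2 ∨ Module.finrank F (Fin k ⊕ Fin l → F) ≠ 4 := by
    rw [Nat.card_eq_fintype_card, hn]; tauto
  set g' := H5.isoEquiv Q₁ rfl g₁
  have hM : ∀ x, ((H5.sumHom (g', (1 : H5.orth Q₂)) : H5.orth (H5.qSum Q₁ Q₂)) :
      (Fin k ⊕ Fin l → F) ≃ₗ[F] (Fin k ⊕ Fin l → F)) x =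
      (Matrix.fromBlocks ((g₁ : Matrix.GeneralLinearGroup (Fin k) F) : Matrix (Fin k) (Fin k) F)
        0 0 1).mulVec x :=
    fun x => H5.sumHom_eq_fromBlocks _ _ _ _ (fun x => rfl) (fun x => (Matrix.one_mulVec x).symm) x
  have hg' : g' ∈ H5.reflGroup Q₁ := by rw [H5.reflGroup_eq_top h₁ hstd₁]; trivial
  rw [H5.exists_mem_Omega_iff (H5.qSum Q₁ Q₂) H5.coe_qSum _ hM,
    H5.mem_commutator_iff (H5.qSum_nondegenerate h₁ h₂) hstd, H5.dick_sumHom, H5.dick_one, mul_one,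
    H5.spin_sumHom_left hg', H5.mem_Omega_iff Q₁ rfl g₁, H5.mem_commutator_iff h₁ hstd₁]

end Cfsg.Agent.S2627
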