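import Cfsg.Statements.S2628
import Cfsg.Agent.H5.Blocks

set_option autoImplicit false
open Cfsg

namespace Cfsg.Agent.S2628

/-- For the orthogonal direct sum Q ⊕ Q of two copies of a quadratic form Q with non-degenerate polar form on F^k (F finite), every isometry g of Q acting diagonally, diag(g, g), lies in Ω(Q ⊕ Q), the commutator subgroup of the orthogonal group of Q ⊕ Q. (Excluded: k = 2 over the field of two elements, where Q ⊕ Q is the hyperbolic 4-space whose orthogonal group's commutator subgroup is smaller than the group usually called Ω.) -/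
theorem result {F : Type*} [Field F] [Fintype F] {k : ℕ} (h : Fintype.card F ≠ 2 ∨ k ≠ 2) (Q : QuadraticForm F (Fin k → F)) (hQ : (QuadraticMap.polarBilin Q).Nondegenerate) (g : ↥(Cfsg.isometryGroup F ⇑Q)) : ∃ x : ↥(Cfsg.isometryGroup F (fun v : Fin k ⊕ Fin k → F => Q (v ∘ Sum.inl) + Q (v ∘ Sum.inr))), x ∈ Cfsg.Omega F (fun v : Fin k ⊕ Fin k → F => Q (v ∘ Sum.inl) + Q (v ∘ Sum.inr)) ∧ ((x : Matrix.GeneralLinearGroup (Fin k ⊕ Fin k) F) : Matrix (Fin k ⊕ Fin k) (Fin k ⊕ Fin k) F) = Matrix.fromBlocks ((g : Matrix.GeneralLinearGroup (Fin k) F) : Matrix (Fin k) (Fin k) F) 0 0 ((g : Matrix.GeneralLinearGroup (Fin k) F) : Matrix (Fin k) (Fin k) F) := by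
  set g' := H5.isoEquiv Q rfl g
  refine ⟨(H5.isoEquiv (H5.qSum Q Q) H5.coe_qSum).symm (H5.sumHom (g', g')), ?_, ?_⟩
  · have hstd : Nat.card F ≠ 2 ∨ Module.finrank F (Fin k ⊕ Fin k → F) ≠ 4 := by
      rw [Nat.card_eq_fintype_card, Module.finrank_fintype_fun_eq_card]
      simp only [Fintype.card_sum, Fintype.card_fin]
      omega
    rw [H5.mem_Omega_iff (H5.qSum Q Q) H5.coe_qSum, MulEquiv.apply_symm_apply,
      H5.mem_commutator_iff (H5.qSum_nondegenerate hQ hQ) hstd, H5.dick_sumHom, Int.units_mul_self]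
    refine ⟨rfl, ?_⟩
    by_cases h2 : (2 : F) = 0
    · exact H5.spin_of_two_eq_zero h2 _
    · have hg' : g' ∈ H5.reflGroup Q := by
        rw [H5.reflGroup_eq_top hQ (H5.std_of_two_ne_zero h2 _)]; trivial
      rw [show (g', g') = (g', (1 : H5.orth Q)) * ((1 : H5.orth Q), g') by simp, map_mul, map_mul,
        H5.spin_sumHom_left hg', H5.spin_sumHom_right hg', Int.units_mul_self]
  · refine (H5.isoEquiv_matrix_eq_iff (H5.qSum Q Q) H5.coe_qSum _ _).2 fun x => ?_
    rw [MulEquiv.apply_symm_apply]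
    exact H5.sumHom_eq_fromBlocks _ _ _ _ (fun x => rfl) (fun x => rfl) x

end Cfsg.Agent.S2628
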