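import Cfsg.Statements.S2629
import Cfsg.Agent.H5.ClassParity

set_option autoImplicit false
open Cfsg

namespace Cfsg.Agent.S2629

/-- For the hyperbolic form Σ x_i y_i on F^(2m) over a finite field of odd order (m ≥ 1), an isometry g preserves the class of the maximal totally singular subspace U₀ = {y = 0} (that is, m − dim(U₀ ∩ gU₀) is even) if and only if det g = 1: the stabiliser of each of the two classes of maximal totally singular subspaces is SO. -/
theorem result {F : Type*} [Field F] [Fintype F] (h2 : (2 : F) ≠ 0) {m : ℕ} (hm : 1 ≤ m) (g : ↥(Cfsg.isometryGroup F (Cfsg.quadFormPlus m F))) : Even (m - Module.finrank F ↥(LinearMap.ker (LinearMap.funLeft F F (Sum.inr : Fin m → Fin m ⊕ Fin m)) ⊓ (LinearMap.ker (LinearMap.funLeft F F (Sum.inr : Fin m → Fin m ⊕ Fin m))).map (Matrix.mulVecLin ((g : Matrix.GeneralLinearGroup (Fin m ⊕ Fin m) F) : Matrix (Fin m ⊕ Fin m) (Fin m ⊕ Fin m) F)))) ↔ ((g : Matrix.GeneralLinearGroup (Fin m ⊕ Fin m)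 F) : Matrix (Fin m ⊕ Fin m) (Fin m ⊕ Fin m) F).det = 1 := by
  have hstd : Nat.card F ≠ 2 ∨ Module.finrank F (Fin m ⊕ Fin m → F) ≠ 4 :=
    H5.std_of_two_ne_zero h2 _
  have hQ := H5.qPlus_nondegenerate (F := F) m
  have hm2 : Module.finrank F (Fin m ⊕ Fin m → F) = 2 * m := by
    simp [Module.finrank_fintype_fun_eq_card, two_mul]
  set k := H5.isoEquiv (H5.qPlus m F) (H5.coe_qPlus m) g
  have hlin : Matrix.mulVecLin ((g : Matrix.GeneralLinearGroup (Fin m ⊕ Fin m) F) :
      Matrix (Fin m ⊕ Fin m) (Fin m ⊕ Fin m) F) =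
      ((k : (Fin m ⊕ Fin m → F) ≃ₗ[F] (Fin m ⊕ Fin m → F)) :
        (Fin m ⊕ Fin m → F) →ₗ[F] (Fin m ⊕ Fin m → F)) := rfl
  have hgen := H5.reflGroup_eq_top hQ hstd
  have hpar := H5.neg_one_pow_class hQ hm2 (H5.qPlus_eq_zero_leftSpace (F := F) (m := m))
    H5.finrank_leftSpace (g := k) (by rw [hgen]; trivial)
  rw [hlin]
  change Even (m - Module.finrank F (H5.leftSpace F m ⊓ H5.orthMap k (H5.leftSpace F m) :
    Submodule F (Fin m ⊕ Fin m → F))) ↔ _
  rw [← neg_one_pow_eq_one_iff_even (R := ℤˣ) (by decide), hpar,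
    ← H5.mem_specialIsometryGroup_iff (H5.qPlus m F) (H5.coe_qPlus m) hQ hgen h2 g,
    Cfsg.specialIsometryGroup, MonoidHom.mem_ker]
  simp only [MonoidHom.comp_apply, Subgroup.coe_subtype]
  rw [Units.ext_iff, Matrix.GeneralLinearGroup.val_det_apply, Units.val_one]

end Cfsg.Agent.S2629
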