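import Cfsg.Statements.S2630
import Cfsg.Agent.H5.ClassParity

set_option autoImplicit false
open Cfsg

namespace Cfsg.Agent.S2630

/-- For the hyperbolic form Σ x_i y_i on F^(2m) over a finite field of characteristic two (m ≥ 1, excluding m = 2 over the field of two elements), an isometry g preserves the class of the maximal totally singular subspace U₀ = {y = 0} (m − dim(U₀ ∩ gU₀) even) if and only if g lies in Ω (the commutator subgroup of the orthogonal group): the stabiliser of each class is Ω. -/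
theorem result {F : Type*} [Field F] [Fintype F] [CharP F 2] {m : ℕ} (hm : 1 ≤ m) (h : Fintype.card F ≠ 2 ∨ m ≠ 2) (g : ↥(Cfsg.isometryGroup F (Cfsg.quadFormPlus m F))) : Even (m - Module.finrank F ↥(LinearMap.ker (LinearMap.funLeft F F (Sum.inr : Fin m → Fin m ⊕ Fin m)) ⊓ (LinearMap.ker (LinearMap.funLeft F F (Sum.inr : Fin m → Fin m ⊕ Fin m))).map (Matrix.mulVecLin ((g : Matrix.GeneralLinearGroup (Fin m ⊕ Fin m) F) : Matrix (Fin m ⊕ Fin m) (Fin m ⊕ Fin m) F)))) ↔ g ∈ Cfsg.Omega F (Cfsg.quadFormPlus m F) := by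
  have hstd : Nat.card F ≠ 2 ∨ Module.finrank F (Fin m ⊕ Fin m → F) ≠ 4 := by
    rw [Nat.card_eq_fintype_card, Module.finrank_fintype_fun_eq_card]
    simp only [Fintype.card_sum, Fintype.card_fin]
    omega
  have hQ := H5.qPlus_nondegenerate (F := F) m
  have hm2 : Module.finrank F (Fin m ⊕ Fin m → F) = 2 * m := by
    simp [Module.finrank_fintype_fun_eq_card, two_mul]
  set k := H5.isoEquiv (H5.qPlus m F) (H5.coe_qPlus m) g
  have hlin : Matrix.mulVecLin ((g : Matrix.GeneralLinearGroup (Fin m ⊕ Fin m) F) :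
      Matrix (Fin m ⊕ Fin m) (Fin m ⊕ Fin m) F) =
      ((k : (Fin m ⊕ Fin m → F) ≃ₗ[F] (Fin m ⊕ Fin m → F)) :
        (Fin m ⊕ Fin m → F) →ₗ[F] (Fin m ⊕ Fin m → F)) := rfl
  have hgen := H5.reflGroup_eq_top hQ hstd
  have hpar := H5.neg_one_pow_class hQ hm2 (H5.qPlus_eq_zero_leftSpace (F := F) (m := m))
    H5.finrank_leftSpace (g := k) (by rw [hgen]; trivial)
  rw [hlin]
  change Even (m - Module.finrank F (H5.leftSpace F m ⊓ H5.orthMap k (H5.leftSpace F m) :
    Submodule F (Fin m ⊕ Fin m → F))) ↔ _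
  rw [← neg_one_pow_eq_one_iff_even (R := ℤˣ) (by decide), hpar,
    H5.mem_Omega_iff (H5.qPlus m F) (H5.coe_qPlus m) g, H5.mem_commutator_iff hQ hstd,
    and_iff_left (H5.spin_of_two_eq_zero CharTwo.two_eq_zero _)]

end Cfsg.Agent.S2630
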