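import Cfsg.Statements.S2631
import Cfsg.Agent.H5.ClassParity
import Cfsg.Agent.H5.Transitive

set_option autoImplicit false
open Cfsg

namespace Cfsg.Agent.S2631

/-- For the hyperbolic form Σ x_i y_i on F^(2m) over a finite field (m ≥ 1, excluding m = 2 over the field of two elements), Ω (the commutator subgroup of the orthogonal group) acts transitively on each of the two classes of maximal totally singular subspaces: if U and W are m-dimensional totally singular subspaces with m − dim(U ∩ W) even, some element of Ω carries U to W. -/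
theorem result {F : Type*} [Field F] [Fintype F] {m : ℕ} (hm : 1 ≤ m) (h : Fintype.card F ≠ 2 ∨ m ≠ 2) (U W : Submodule F (Fin m ⊕ Fin m → F)) (hU : Module.finrank F U = m) (hW : Module.finrank F W = m) (hU0 : ∀ u ∈ U, Cfsg.quadFormPlus m F u = 0) (hW0 : ∀ w ∈ W, Cfsg.quadFormPlus m F w = 0) (he : Even (m - Module.finrank F ↥(U ⊓ W))) : ∃ g : ↥(Cfsg.isometryGroup F (Cfsg.quadFormPlus m F)), g ∈ Cfsg.Omega F (Cfsg.quadFormPlus m F) ∧ U.map (Matrix.mulVecLin ((g : Matrix.GeneralLinearGroup (Fin m ⊕ Fin m) F) : Matrix (Fin m ⊕ Fin m) (Fin m ⊕ Fin m) F)) = W := by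
  have hQ := H5.qPlus_nondegenerate (F := F) m
  have hm2 : Module.finrank F (Fin m ⊕ Fin m → F) = 2 * m := by
    simp [Module.finrank_fintype_fun_eq_card, two_mul]
  have hstd : Nat.card F ≠ 2 ∨ Module.finrank F (Fin m ⊕ Fin m → F) ≠ 4 := by
    rw [Nat.card_eq_fintype_card, hm2]; omega
  have hU0' : ∀ u ∈ U, H5.qPlus m F u = 0 := fun u hu => by rw [H5.coe_qPlus]; exact hU0 u hu
  have hW0' : ∀ w ∈ W, H5.qPlus m F w = 0 := fun w hw => by rw [H5.coe_qPlus]; exact hW0 w hw
  let e := LinearEquiv.ofFinrankEq U W (hU.trans hW.symm)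
  obtain ⟨g, hg⟩ := H5.exists_orth_extension hQ U (W.subtype ∘ₗ e.toLinearMap)
    (W.injective_subtype.comp e.injective) (fun x => by
      rw [hU0' x x.2]
      exact hW0' _ (e x).2)
  have hmap : H5.orthMap g U = W := by
    refine Submodule.eq_of_le_of_finrank_eq ?_ (by rw [LinearEquiv.finrank_map_eq, hU, hW])
    rintro _ ⟨x, hx, rfl⟩
    change (g : (Fin m ⊕ Fin m → F) ≃ₗ[F] (Fin m ⊕ Fin m → F)) x ∈ W
    rw [hg ⟨x, hx⟩]
    exact (e ⟨x, hx⟩).2
  have hgen := H5.reflGroup_eq_top hQ hstd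
  have hd : H5.dick g = 1 := by
    rw [← H5.neg_one_pow_class hQ hm2 hU0' hU (g := g) (by rw [hgen]; trivial), hmap]
    exact he.neg_one_pow
  obtain ⟨k, hk, hmem⟩ := H5.exists_mul_mem_commutator hQ hstd g
    (H5.subspaceStab (H5.qPlus m F) W)
    (fun h' => absurd (h'.symm.trans hd) (by decide))
    (fun a ha => H5.exists_stab_spin hQ (fun hb => by
      rw [hb, finrank_bot] at hW; omega) hW0' ha)
  refine ⟨(H5.isoEquiv (H5.qPlus m F) (H5.coe_qPlus m)).symm (k * g),
    (H5.mem_Omega_iff (H5.qPlus m F) (H5.coe_qPlus m) _).2 (by simpa using hmem), ?_⟩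
  conv_rhs => rw [← H5.map_mul_of_stab hk hmap]
  congr 1
  exact LinearMap.ext fun x => H5.isoEquiv_symm_apply _ (H5.coe_qPlus m) _ x

end Cfsg.Agent.S2631
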