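import Cfsg.Statements.S2632
import Cfsg.Agent.H5.Transitive

set_option autoImplicit false
open Cfsg

namespace Cfsg.Agent.S2632

/-- Ω is transitive on non-degenerate subspaces of each isometry type: for a quadratic form Q on F^n, n ≥ 3, with non-degenerate polar form (F finite; excluding dimension 4 over the field of two elements), if U and W are subspaces on which the polar form is non-degenerate and there is a Q-preserving linear isomorphism U → W, then some element of Ω (the commutator subgroup of the orthogonal group) carries U to W. (In dimension 2 this fails: Ω can be {±1}, which fixes every line.) -/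
theorem result {F : Type*} [Field F] [Fintype F] {n : ℕ} (hn : 3 ≤ n) (h : Fintype.card F ≠ 2 ∨ n ≠ 4) (Q : QuadraticForm F (Fin n → F)) (hQ : (QuadraticMap.polarBilin Q).Nondegenerate) (U W : Submodule F (Fin n → F)) (hU : U ⊓ LinearMap.BilinForm.orthogonal (QuadraticMap.polarBilin Q) U = ⊥) (hW : W ⊓ LinearMap.BilinForm.orthogonal (QuadraticMap.polarBilin Q) W = ⊥) (e : U ≃ₗ[F] W) (he : ∀ u : U, Q (e u : Fin n → F) = Q (u : Fin n → F)) : ∃ g : ↥(Cfsg.isometryGroup F ⇑Q), g ∈ Cfsg.Omega F ⇑Q ∧ U.map (Matrix.mulVecLin ((g : Matrix.GeneralLinearGroup (Fin n) F) : Matrix (Fin n) (Fin n) F)) = W := by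
  have hstd := H5.std_of_card (n := n) (F := F) h
  obtain ⟨g, hg⟩ := H5.exists_orth_extension hQ U (W.subtype ∘ₗ e.toLinearMap)
    (W.injective_subtype.comp e.injective) he
  have hmap : U.map ((g : (Fin n → F) ≃ₗ[F] (Fin n → F)) : (Fin n → F) →ₗ[F] (Fin n → F)) = W := by
    refine Submodule.eq_of_le_of_finrank_eq ?_ (by rw [LinearEquiv.finrank_map_eq, e.finrank_eq])
    rintro _ ⟨x, hx, rfl⟩
    change (g : (Fin n → F) ≃ₗ[F] (Fin n → F)) x ∈ W
    rw [hg ⟨x, hx⟩]
    exact (e ⟨x, hx⟩).2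
  have hWd : W ⊓ H5.perp Q W = ⊥ := hW
  have hPd : H5.perp Q W ⊓ H5.perp Q (H5.perp Q W) = ⊥ := by
    rw [H5.perp_perp hQ, inf_comm]; exact hW
  have hsum : Module.finrank F (H5.perp Q W) + Module.finrank F W = n :=
    (H5.finrank_perp_add hQ W).trans (Module.finrank_fin_fun F)
  have hany : ∃ v, (v ∈ W ∨ v ∈ H5.perp Q W) ∧ Q v ≠ 0 := by
    rcases Nat.eq_zero_or_pos (Module.finrank F W) with h0 | h0
    · obtain ⟨v, hv, hq⟩ := H5.exists_anisotropic hPd (by omega)
      exact ⟨v, Or.inr hv, hq⟩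
    · obtain ⟨v, hv, hq⟩ := H5.exists_anisotropic hWd h0
      exact ⟨v, Or.inl hv, hq⟩
  obtain ⟨k, hk, hmem⟩ := H5.exists_mul_mem_commutator hQ hstd g (H5.subspaceStab Q W)
    (fun _ => by
      obtain ⟨v, hv, hq⟩ := hany
      exact ⟨_, H5.refl_mem_stab hv, H5.dick_refl hQ hq⟩)
    (fun a ha => by
      obtain ⟨v, w, hv, hw, hqv, hqw⟩ : ∃ v w, (v ∈ W ∨ v ∈ H5.perp Q W) ∧
          (w ∈ W ∨ w ∈ H5.perp Q W) ∧ Q v = 1 ∧ Q w = a := by
        rcases Nat.lt_or_ge (Module.finrank F W) 2 with h0 | h0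
        · obtain ⟨v, hv, hq⟩ := H5.exists_mem_norm_eq hPd (by omega) 1
          obtain ⟨w, hw, hq'⟩ := H5.exists_mem_norm_eq hPd (by omega) a
          exact ⟨v, w, Or.inr hv, Or.inr hw, hq, hq'⟩
        · obtain ⟨v, hv, hq⟩ := H5.exists_mem_norm_eq hWd h0 1
          obtain ⟨w, hw, hq'⟩ := H5.exists_mem_norm_eq hWd h0 a
          exact ⟨v, w, Or.inl hv, Or.inl hw, hq, hq'⟩
      have ha0 : a ≠ 0 := fun h0 => ha (h0 ▸ IsSquare.zero)
      have hv0 : Q v ≠ 0 := by rw [hqv]; exact one_ne_zero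
      have hw0 : Q w ≠ 0 := by rw [hqw]; exact ha0
      refine ⟨H5.refl Q v * H5.refl Q w, mul_mem (H5.refl_mem_stab hv) (H5.refl_mem_stab hw), ?_, ?_⟩
      · rw [H5.dick_refl_mul hQ hv0, H5.dick_refl hQ hw0, neg_neg]
      · rw [map_mul, H5.spin_refl hv0, H5.spin_refl hw0, hqv, hqw, H5.sqc_one, one_mul,
          H5.sqc_eq_neg_one_iff.2 ha])
  refine ⟨(H5.isoEquiv Q rfl).symm (k * g),
    (H5.mem_Omega_iff Q rfl _).2 (by simpa using hmem), ?_⟩
  conv_rhs => rw [← H5.map_mul_of_stab hk hmap]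
  congr 1
  exact LinearMap.ext fun x => H5.isoEquiv_symm_apply Q rfl _ x

end Cfsg.Agent.S2632
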