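import Cfsg.Statements.S2633
import Cfsg.Agent.H5.Transitive

set_option autoImplicit false
open Cfsg

namespace Cfsg.Agent.S2633

/-- Ω is transitive on totally singular subspaces of each dimension less than half the dimension: for a quadratic form Q on F^n with non-degenerate polar form (F finite; excluding dimension 4 over the field of two elements), if U and W are subspaces of the same dimension k with 2k < n on which Q vanishes, then some element of Ω (the commutator subgroup of the orthogonal group) carries U to W. -/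
theorem result {F : Type*} [Field F] [Fintype F] {n : ℕ} (h : Fintype.card F ≠ 2 ∨ n ≠ 4) (Q : QuadraticForm F (Fin n → F)) (hQ : (QuadraticMap.polarBilin Q).Nondegenerate) (U W : Submodule F (Fin n → F)) {k : ℕ} (hk : 2 * k < n) (hU : Module.finrank F U = k) (hW : Module.finrank F W = k) (hU0 : ∀ u ∈ U, Q u = 0) (hW0 : ∀ w ∈ W, Q w = 0) : ∃ g : ↥(Cfsg.isometryGroup F ⇑Q), g ∈ Cfsg.Omega F ⇑Q ∧ U.map (Matrix.mulVecLin ((g : Matrix.GeneralLinearGroup (Fin n) F) : Matrix (Fin n) (Fin n) F)) = W := by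
  have hstd := H5.std_of_card (n := n) (F := F) h
  rcases Nat.eq_zero_or_pos k with rfl | hk0
  · refine ⟨1, one_mem _, ?_⟩
    rw [Submodule.finrank_eq_zero.1 hU, Submodule.map_bot, Submodule.finrank_eq_zero.1 hW]
  let e := LinearEquiv.ofFinrankEq U W (hU.trans hW.symm)
  obtain ⟨g, hg⟩ := H5.exists_orth_extension hQ U (W.subtype ∘ₗ e.toLinearMap)
    (W.injective_subtype.comp e.injective) (fun x => by
      rw [hU0 x x.2]
      exact hW0 _ (e x).2)
  have hmap : U.map ((g : (Fin n → F) ≃ₗ[F] (Fin n → F)) : (Fin n → F) →ₗ[F] (Fin n → F)) = W := by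
    refine Submodule.eq_of_le_of_finrank_eq ?_ (by rw [LinearEquiv.finrank_map_eq, e.finrank_eq])
    rintro _ ⟨x, hx, rfl⟩
    change (g : (Fin n → F) ≃ₗ[F] (Fin n → F)) x ∈ W
    rw [hg ⟨x, hx⟩]
    exact (e ⟨x, hx⟩).2
  obtain ⟨j, hj, hmem⟩ := H5.exists_mul_mem_commutator hQ hstd g (H5.subspaceStab Q W)
    (fun _ => by
      obtain ⟨v, hv, hq⟩ : ∃ v ∈ H5.perp Q W, Q v ≠ 0 := by
        by_contra! hall
        have h1 := H5.two_mul_finrank_le hQ (H5.le_perp_of_forall_eq_zero hall)
        have h2 := H5.finrank_perp_add hQ W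
        rw [Module.finrank_fin_fun] at h1 h2
        omega
      exact ⟨_, H5.refl_mem_stab (Or.inr hv), H5.dick_refl hQ hq⟩)
    (fun a ha => H5.exists_stab_spin hQ (fun hb => by rw [hb, finrank_bot] at hW; omega) hW0 ha)
  refine ⟨(H5.isoEquiv Q rfl).symm (j * g),
    (H5.mem_Omega_iff Q rfl _).2 (by simpa using hmem), ?_⟩
  conv_rhs => rw [← H5.map_mul_of_stab hj hmap]
  congr 1
  exact LinearMap.ext fun x => H5.isoEquiv_symm_apply Q rfl _ x

end Cfsg.Agent.S2633
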