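import Cfsg.Statements.S2634
import Cfsg.Agent.H5.Transitive

set_option autoImplicit false
open Cfsg

namespace Cfsg.Agent.S2634

/-- Over a finite field of characteristic two, Ω (the commutator subgroup of the orthogonal group of a quadratic form Q on F^n with non-degenerate polar form; excluding dimension 4 over the field of two elements) acts transitively on the non-singular 1-spaces: for u, v with Q(u) ≠ 0 and Q(v) ≠ 0 some element of Ω carries the line through u to the line through v. -/
theorem result {F : Type*} [Field F] [Fintype F] [CharP F 2] {n : ℕ} (h : Fintype.card F ≠ 2 ∨ n ≠ 4) (Q : QuadraticForm F (Fin n → F)) (hQ : (QuadraticMap.polarBilin Q).Nondegenerate) (u v : Fin n → F) (hu : Q u ≠ 0) (hv : Q v ≠ 0) : ∃ g : ↥(Cfsg.isometryGroup F ⇑Q), g ∈ Cfsg.Omega F ⇑Q ∧ (F ∙ ((g : Matrix.GeneralLinearGroup (Fin n) F) : Matrix (Fin n) (Fin n) F).mulVec u) = F ∙ v := by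
  have hstd := H5.std_of_card (n := n) (F := F) h
  obtain ⟨s, hs⟩ := H5.isSquare_of_two_eq_zero (CharTwo.two_eq_zero : (2 : F) = 0) (Q u / Q v)
  have hs0 : s ≠ 0 := fun h0 => by simp [h0, hu, hv] at hs
  obtain ⟨g, -, hg⟩ := H5.exists_reflGroup_map hQ hstd (x := u) (y := s • v) hu (by
    rw [QuadraticMap.map_smul, smul_eq_mul, ← hs, div_mul_cancel₀ _ hv])
  obtain ⟨j, hj, hmem⟩ := H5.exists_mul_mem_commutator hQ hstd g (H5.subspaceStab Q (F ∙ v))
    (fun _ => ⟨_, H5.refl_mem_stab (Or.inl (Submodule.mem_span_singleton_self v)),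
      H5.dick_refl hQ hv⟩)
    (fun a ha => absurd (H5.isSquare_of_two_eq_zero CharTwo.two_eq_zero a) ha)
  refine ⟨(H5.isoEquiv Q rfl).symm (j * g),
    (H5.mem_Omega_iff Q rfl _).2 (by simpa using hmem), ?_⟩
  rw [H5.isoEquiv_symm_apply, H5.orth_mul_apply, hg, map_smul,
    Submodule.span_singleton_smul_eq hs0.isUnit]
  have := H5.map_mul_of_stab (g := (1 : H5.orth Q)) (U := F ∙ v) hj (Submodule.map_id _)
  rw [mul_one, Submodule.map_span, Set.image_singleton] at this
  exact this

end Cfsg.Agent.S2634
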