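import Cfsg.Statements.S2635
import Cfsg.Agent.H5.OmegaMatrix

set_option autoImplicit false
open Cfsg

namespace Cfsg.Agent.S2635

/-- Over a finite field of characteristic two, for a quadratic form Q on F^n with non-degenerate polar form, n ≥ 2, other than dimension 4 over the field of two elements, Ω (the commutator subgroup of the orthogonal group) is exactly the subgroup generated by the products of two reflections (orthogonal transvections) x ↦ x − Q(v)⁻¹ f(x, v) v, Q(v) ≠ 0: the products of an even number of reflections. -/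
theorem result {F : Type*} [Field F] [Fintype F] [CharP F 2] {n : ℕ} (hn : 2 ≤ n) (h : Fintype.card F ≠ 2 ∨ n ≠ 4) (Q : QuadraticForm F (Fin n → F)) (hQ : (QuadraticMap.polarBilin Q).Nondegenerate) : Cfsg.Omega F ⇑Q = Subgroup.closure {g : ↥(Cfsg.isometryGroup F ⇑Q) | ∃ u v : Fin n → F, Q u ≠ 0 ∧ Q v ≠ 0 ∧ ((g : Matrix.GeneralLinearGroup (Fin n) F) : Matrix (Fin n) (Fin n) F) = Cfsg.reflectionMatrix ⇑Q u * Cfsg.reflectionMatrix ⇑Q v} := by
  have hstd := H5.std_of_card (n := n) (F := F) h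
  have hgen := H5.reflGroup_eq_top hQ hstd
  let e := H5.isoEquiv Q (f := ⇑Q) rfl
  ext g
  rw [H5.mem_Omega_iff Q rfl, H5.mem_commutator_iff hQ hstd,
    and_iff_left (H5.spin_of_two_eq_zero CharTwo.two_eq_zero _),
    ← H5.mem_closure_pairs_iff hQ hgen,
    ← Subgroup.mem_map_iff_mem (f := e.toMonoidHom) e.injective, MonoidHom.map_closure]
  refine Iff.of_eq (congrArg (fun s => e g ∈ Subgroup.closure s) (Set.ext fun k => ?_))
  constructor
  · rintro ⟨u, v, hu, hv, rfl⟩
    refine ⟨e.symm (H5.refl Q u * H5.refl Q v), ⟨u, v, hu, hv, ?_⟩, e.apply_symm_apply _⟩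
    refine Matrix.ext_of_mulVec_single fun i => ?_
    rw [H5.isoEquiv_symm_apply, H5.orth_mul_apply, ← Matrix.mulVec_mulVec,
      H5.reflectionMatrix_mulVec, H5.reflectionMatrix_mulVec]
  · rintro ⟨k', ⟨u, v, hu, hv, hk⟩, rfl⟩
    refine ⟨u, v, hu, hv, H5.orth_ext fun x => ?_⟩
    change (H5.isoEquiv Q rfl k' : (Fin n → F) ≃ₗ[F] (Fin n → F)) x = _
    rw [H5.isoEquiv_apply, hk, ← Matrix.mulVec_mulVec, H5.reflectionMatrix_mulVec,
      H5.reflectionMatrix_mulVec, H5.orth_mul_apply]

end Cfsg.Agent.S2635
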