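import Cfsg.Statements.S2636
import Cfsg.Agent.H67.FieldAuto

set_option autoImplicit false
open Cfsg

namespace Cfsg.Agent.S2636

/-- Centraliser of a field automorphism in PGL_n: let F be the field with q = q₀^r elements, σ a field automorphism of F of prime order r (so its fixed field has q₀ elements) and n ≥ 1. The invertible matrices g whose entrywise image under σ is a scalar multiple of g — those whose coset modulo scalars is fixed by σ — number (q − 1)/(q₀ − 1) · |GL_n(q₀)|; equivalently the centraliser in PGL_n(q) of the induced automorphism has the order of PGL_n(q₀). -/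
theorem result {F : Type*} [Field F] [Fintype F] {q₀ r n : ℕ} (hr : r.Prime) (hn : 1 ≤ n) (hF : Fintype.card F = q₀ ^ r) (σ : F ≃+* F) (hσ : orderOf σ = r) : Nat.card {g : GL (Fin n) F // ∃ c : F, c ≠ 0 ∧ (g : Matrix (Fin n) (Fin n) F).map σ = c • (g : Matrix (Fin n) (Fin n) F)} = (q₀ ^ r - 1) / (q₀ - 1) * ∏ i : Fin n, (q₀ ^ n - q₀ ^ (i : ℕ)) := by
  have hq : 2 ≤ q₀ := by
    have := hF ▸ Fintype.one_lt_card (α := F)
    by_contra h
    have : q₀ = 0 ∨ q₀ = 1 := by omega
    rcases this with rfl | rfl <;> simp [zero_pow hr.ne_zero] at this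
  have h := H67.card_semifixed hr.pos hn hF σ hσ
  have hd : q₀ - 1 ∣ q₀ ^ r - 1 := Nat.sub_one_dvd_pow_sub_one q₀ r
  apply Nat.eq_of_mul_eq_mul_right (show 0 < q₀ - 1 by omega)
  rw [h, mul_right_comm, Nat.div_mul_cancel hd]

end Cfsg.Agent.S2636
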