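import Cfsg.Statements.S2642
import Cfsg.Agent.H67.UnitaryClasses
import Cfsg.Agent.S2570

set_option autoImplicit false
open Cfsg

namespace Cfsg.Agent.S2642

/-- Number of conjugacy classes of elements of order p in the general unitary group GU_n(q), q a power of p: every unipotent Jordan type occurs and the classes correspond to the partitions of n with all parts at most p other than the all-ones partition, exactly as in GL_n; so there are (number of partitions of n with parts ≤ p) − 1 classes. -/
theorem result {K : Type*} [Field K] [Fintype K] {p q n : ℕ} [Fact p.Prime] [CharP K p] (hK : Fintype.card K = q ^ 2) : Nat.card {C : ConjClasses ↥(Cfsg.GU n K q) // ∃ g : ↥(Cfsg.GU n K q), ConjClasses.mk g = C ∧ orderOf g = p} = (Finset.univ.filter (fun μ : Nat.Partition n => ∀ a ∈ μ.parts, a ≤ p)).card - 1 := by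
  have hp : p.Prime := Fact.out
  have h := S2570.result (F := K) (p := p) n
  rw [← h]
  have h1 := H67.card_GU_classes_eq (n := n) hK (fun g => orderOf g = p) (fun g g' hc hg => by
    obtain ⟨c, hc⟩ := isConj_iff.1 hc
    rwa [← hc, ← MulAut.conj_apply, (MulAut.conj c).orderOf_eq])
  simp only [Subgroup.orderOf_coe] at h1
  rw [h1]
  refine Nat.card_congr (Equiv.subtypeEquivRight fun C => ⟨fun ⟨g, hC, hg, _⟩ => ⟨g, hC, hg⟩,
    fun ⟨g, hC, hg⟩ => ⟨g, hC, hg, ?_⟩⟩)
  refine H67.isConj_contraMat_of_unipotent (H3.conjQ_conjQ hK) (m := p) g ?_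
  rcases Nat.eq_zero_or_pos n with rfl | hn
  · exact Subsingleton.elim _ _
  have : Nonempty (Fin n) := ⟨⟨0, hn⟩⟩
  have : CharP (Matrix (Fin n) (Fin n) K) p := Matrix.charP p
  rw [sub_pow_char_of_commute _ (Commute.one_right _), one_pow, sub_eq_zero,
    ← Units.val_pow_eq_pow_val, ← hg, pow_orderOf_eq_one, Units.val_one]

end Cfsg.Agent.S2642
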