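import Cfsg.Statements.S2643
import Cfsg.Agent.H67.SURegular

set_option autoImplicit false
open Cfsg

namespace Cfsg.Agent.S2643

/-- Regular unipotent classes of SU_n(q), n ≥ 2: the elements u of the special unitary group (isometries of Σ u_i v_i^q of determinant one over the field with q² elements) with (u − 1)^n = 0 and rank(u − 1) = n − 1 form exactly gcd(n, q + 1) conjugacy classes of SU_n(q). -/
theorem result {K : Type*} [Field K] [Fintype K] {q n : ℕ} (hK : Fintype.card K = q ^ 2) (hn : 2 ≤ n) : Nat.card {C : ConjClasses ↥(Cfsg.SU n K q) // ∃ u : ↥(Cfsg.SU n K q), ConjClasses.mk u = C ∧ (((u : GL (Fin n) K) : Matrix (Fin n) (Fin n) K) - 1) ^ n = 0 ∧ (((u : GL (Fin n) K) : Matrix (Fin n) (Fin n) K) - 1).rank = n - 1} = Nat.gcd n (q + 1) := by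
  exact Cfsg.Agent.H67.card_su_regular hK hn

end Cfsg.Agent.S2643
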