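import Cfsg.Statements.S2653
import Cfsg.Agent.H63.AltSec.Reduction

set_option autoImplicit false
open scoped MatrixGroups
open Cfsg

namespace Cfsg.Agent.S2653

/-- Alternating sections of finite linear groups. Let `F` be a finite field of characteristic `p` and `n` a natural number, and suppose some subgroup `H` of GL_n(F) has a normal subgroup `K` with `H ⧸ K` isomorphic to the alternating group of degree `r ≥ 9`. Then `n ≥ r - 2` when `p` divides `r`, and `n ≥ r - 1` otherwise (the smallest degree of a nontrivial projective representation of that alternating group in characteristic `p`). The same bound follows for every classical group with natural module of dimension `n` over `F`, since each is a section of a subgroup of GL_n(F). -/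
theorem result {F : Type*} [Field F] [Fintype F] (p : ℕ) [Fact p.Prime] [CharP F p]
    (n : ℕ) (r : ℕ) (H : Subgroup (GL (Fin n) F)) (K : Subgroup ↥H) [K.Normal]
    (h : Nonempty (↥H ⧸ K ≃* ↥(alternatingGroup (Fin r)))) (hr : 9 ≤ r) :
    r - 1 - (if p ∣ r then 1 else 0) ≤ n := by
  obtain ⟨e⟩ := h
  letI : Algebra (ZMod p) F := ZMod.algebra F p
  haveI : Algebra.IsAlgebraic (ZMod p) F := Algebra.IsAlgebraic.of_finite (ZMod p) F
  let ι : F →+* AlgebraicClosure (ZMod p) :=
    (IsAlgClosed.lift (R := ZMod p) (S := F) (M := AlgebraicClosure (ZMod p))).toRingHom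
  haveI : CharP (AlgebraicClosure (ZMod p)) p :=
    charP_of_injective_algebraMap (algebraMap (ZMod p) _).injective p
  let g : GL (Fin n) F →* GL (Fin n) (AlgebraicClosure (ZMod p)) := Matrix.GeneralLinearGroup.map ι
  have hg : Function.Injective g := fun a b hab => Units.ext
    (Matrix.map_injective ι.injective (congrArg Units.val hab))
  let H' := H.map g
  let eH : ↥H ≃* ↥H' := H.equivMapOfInjective g hg
  haveI : Finite ↥H' := Finite.of_equiv ↥H eH.toEquiv
  let π : ↥H' →* alternatingGroup (Fin r) :=
    (e.toMonoidHom.comp (QuotientGroup.mk' K)).comp eH.symm.toMonoidHom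
  have hπ : Function.Surjective π :=
    (e.surjective.comp (QuotientGroup.mk'_surjective K)).comp eH.symm.surjective
  let ρ : ↥H' →* (Module.End (AlgebraicClosure (ZMod p)) (Fin n → AlgebraicClosure (ZMod p)))ˣ :=
    (Matrix.GeneralLinearGroup.toLin : GL (Fin n) (AlgebraicClosure (ZMod p)) ≃* _).toMonoidHom.comp H'.subtype
  refine Cfsg.Agent.H63.AltSec.secBound n p (AlgebraicClosure (ZMod p))
    (Fin n → AlgebraicClosure (ZMod p)) (by simp) r hr ↥H' π hπ ρ ?_
  intro x hx
  have hx1 : x = 1 := by
    apply H'.subtype_injective
    apply (Matrix.GeneralLinearGroup.toLin : GL (Fin n) (AlgebraicClosure (ZMod p)) ≃* _).injective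
    rw [map_one, map_one]
    exact hx
  rw [hx1]
  exact one_mem _

end Cfsg.Agent.S2653
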