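import Cfsg.Statements.S2657
import Cfsg.Agent.H88.AltSec.AltF4
-- import your own Cfsg.Agent.* helpers here

set_option autoImplicit false
open scoped MatrixGroups
open Cfsg

namespace Cfsg.Agent.S2657

/-- Alternating sections of the groups of type F₄. Let `F` be a finite field of characteristic `p` and let `G` be the Chevalley group of type F₄ over `F`. If some subgroup of `G` has a quotient isomorphic to the alternating group of degree `r`, then `r` is at most 10, or 11 in characteristic 11. (Only an upper bound is asserted.) -/
theorem result {F : Type*} [Field F] [Fintype F] (p : ℕ) [Fact p.Prime] [CharP F p]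
    (r : ℕ) (H : Subgroup ↥(Cfsg.Lie.chevF4.group F)) (K : Subgroup ↥H) [K.Normal]
    (h : Nonempty (↥H ⧸ K ≃* ↥(alternatingGroup (Fin r)))) :
    r ≤ 10 + (if p = 11 then 1 else 0) := by
  obtain ⟨e⟩ := h
  have hφ : Function.Surjective (e.toMonoidHom.comp (QuotientGroup.mk' K)) :=
    e.surjective.comp (QuotientGroup.mk'_surjective K)
  by_contra hr
  by_cases hp : p = 11
  · subst hp
    rw [if_pos rfl] at hr
    exact Cfsg.Agent.H88.AltF4.not_twelve _ hφ (by omega)
  · rw [if_neg hp] at hr
    exact Cfsg.Agent.H88.AltF4.not_eleven p hp _ hφ (by omega)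

end Cfsg.Agent.S2657
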