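import Cfsg.Statements.S2665
import Cfsg.Agent.H67.Lang

set_option autoImplicit false
open scoped MatrixGroups
open Cfsg

namespace Cfsg.Agent.S2665

/-- The Lang–Steinberg Theorem for the general linear group. Let `K` be an algebraically closed field of prime characteristic `p`, let `q = p^f` with `f ≥ 1`, and let `σ` be the endomorphism of GL_n(K) raising every matrix entry to the `q`-th power. Then every element `g` of GL_n(K) can be written `g = x · σ(x)⁻¹` for some `x` in GL_n(K): the map `x ↦ x σ(x)⁻¹` is surjective. -/
theorem result {K : Type*} [Field K] [IsAlgClosed K] (p : ℕ) [Fact p.Prime] [CharP K p]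
    (f : ℕ) (hf : 1 ≤ f) (n : ℕ) (g : GL (Fin n) K) :
    ∃ x : GL (Fin n) K, g = x * (Matrix.GeneralLinearGroup.map (iterateFrobenius K p f) x)⁻¹ := by
  classical
  have hp := (Fact.out : p.Prime)
  have hq : 2 ≤ p ^ f := le_trans hp.two_le (Nat.le_self_pow (by omega) p)
  let φ := iterateFrobenius K p f
  let T : (Fin n → K) →ₛₗ[φ] (Fin n → K) :=
    { toFun := fun v => (g : Matrix (Fin n) (Fin n) K).mulVec (fun i => φ (v i))
      map_add' := fun v w => by
        rw [← Matrix.mulVec_add]
        congr 1
        funext i
        simp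
      map_smul' := fun c v => by
        rw [← Matrix.mulVec_smul]
        congr 1
        funext i
        simp }
  have hT : Function.Injective T := by
    intro v w h
    have h' := Matrix.mulVec_injective_of_isUnit g.isUnit h
    funext i
    exact φ.injective (congrFun h' i)
  have hspan := H67.span_fixed_semilinear (p ^ f) hq (fun x => iterateFrobenius_def p f x) T hT
  let s : Set (Fin n → K) := {v | T v = v}
  obtain ⟨b, hbs, hsb, hli⟩ := exists_linearIndependent K s
  have hb : Submodule.span K b = ⊤ := by rw [hsb]; exact hspan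
  let B := Module.Basis.mk (v := ((↑) : b → (Fin n → K))) hli (by
    rw [Subtype.range_coe, hb])
  let e := B.indexEquiv (Pi.basisFun K (Fin n))
  let B' := B.reindex e
  have hB' : ∀ j, T (B' j) = B' j := by
    intro j
    simp only [B', B, Module.Basis.reindex_apply, Module.Basis.mk_apply]
    exact hbs (e.symm j).2
  let M : Matrix (Fin n) (Fin n) K := (Pi.basisFun K (Fin n)).toMatrix B'
  have hMe : ∀ i j, M i j = B' j i := fun i j => by simp [M, Module.Basis.toMatrix]
  have hM : IsUnit M := by
    refine ⟨⟨M, B'.toMatrix (Pi.basisFun K (Fin n)), ?_, ?_⟩, rfl⟩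
    · exact Module.Basis.toMatrix_mul_toMatrix_flip _ _
    · exact Module.Basis.toMatrix_mul_toMatrix_flip _ _
  refine ⟨hM.unit, ?_⟩
  rw [eq_mul_inv_iff_mul_eq]
  ext i j
  rw [Units.val_mul, IsUnit.unit_spec, hMe, ← congrFun (hB' j) i]
  show ((g : Matrix (Fin n) (Fin n) K) * M.map φ) i j = _
  simp only [Matrix.mul_apply, Matrix.map_apply, hMe]
  rfl

end Cfsg.Agent.S2665
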