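import Cfsg.Statements.S2666
import Cfsg.Agent.H67.Shintani

set_option autoImplicit false
open Cfsg

namespace Cfsg.Agent.S2666

/-- Shintani descent, in an abstract form. Let `σ` be an automorphism of a group `X` such that the maps `a ↦ a·σ(a)⁻¹` and `a ↦ a·σᵉ(a)⁻¹` are surjective on `X` (the Lang–Steinberg property, which holds when `X` is a connected algebraic group and `σ` a Steinberg endomorphism), where `e ≥ 1`. Write `G` for the subgroup of fixed points of `σᵉ` and `H` for the subgroup of fixed points of `σ`. The `G`-conjugacy classes in the coset `G σ` of the semidirect product of `G` by `σ` correspond to the orbits of `G` on itself under twisted conjugation `g ↦ k g σ(k)⁻¹`, and the `e`-th power of `g σ` has `G`-part the norm `g σ(g) ⋯ σ^(e-1)(g)`. For `g` in `G` and any `a` with `g = a σ(a)⁻¹`, put `x = σᵉ(a)⁻¹ a`. Then: (1) `x` lies in `H`, and `a⁻¹ · (g σ(g) ⋯ σ^(e-1)(g)) · a = x`; (2) for `g, g'` in `G` with such elements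 `a, b` and `x, x'`, the elements `g, g'` are twisted-conjugate under `G` if and only if `x, x'` are conjugate in `H`; (3) every element of `H` arises as such an `x`. So `g ↦ x` induces a well-defined bijection from the twisted `G`-classes of `G` onto the conjugacy classes of `H` (the Shintani map). -/
theorem result {X : Type*} [Group X] (σ : MulAut X) (e : ℕ) (he : 1 ≤ e)
    (hL : ∀ g : X, ∃ a : X, g = a * (σ a)⁻¹) (hLe : ∀ g : X, ∃ a : X, g = a * ((σ ^ e) a)⁻¹) :
    (∀ g ∈ (MulEquiv.toMonoidHom (σ ^ e)).eqLocus (MonoidHom.id X), ∀ a : X, g = a * (σ a)⁻¹ →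
        ((σ ^ e) a)⁻¹ * a ∈ (MulEquiv.toMonoidHom σ).eqLocus (MonoidHom.id X) ∧
          a⁻¹ * ((List.range e).map (fun i => (σ ^ i) g)).prod * a = ((σ ^ e) a)⁻¹ * a) ∧
    (∀ g ∈ (MulEquiv.toMonoidHom (σ ^ e)).eqLocus (MonoidHom.id X), ∀ g' ∈ (MulEquiv.toMonoidHom (σ ^ e)).eqLocus (MonoidHom.id X), ∀ a b : X,
        g = a * (σ a)⁻¹ → g' = b * (σ b)⁻¹ →
          ((∃ k ∈ (MulEquiv.toMonoidHom (σ ^ e)).eqLocus (MonoidHom.id X), g' = k * g * (σ k)⁻¹) ↔
            (∃ h ∈ (MulEquiv.toMonoidHom σ).eqLocus (MonoidHom.id X), ((σ ^ e) b)⁻¹ * b = h * (((σ ^ e) a)⁻¹ * a) * h⁻¹))) ∧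
    (∀ x ∈ (MulEquiv.toMonoidHom σ).eqLocus (MonoidHom.id X), ∃ g ∈ (MulEquiv.toMonoidHom (σ ^ e)).eqLocus (MonoidHom.id X), ∃ a : X,
        g = a * (σ a)⁻¹ ∧ ((σ ^ e) a)⁻¹ * a = x) := by
  refine ⟨?_, ?_, ?_⟩
  · intro g hg a ha
    obtain rfl := ha
    simp only [H67.mem_fix_iff] at *
    refine ⟨(H67.fixed_iff σ e a).1 hg, ?_⟩
    rw [H67.prod_range_pow_apply σ a e]; group
  · intro g hg g' hg' a b ha hb
    obtain rfl := ha
    obtain rfl := hb
    simp only [H67.mem_fix_iff] at *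
    constructor
    · rintro ⟨k, hk, hkg⟩
      have h1 : (k * a) * (σ (k * a))⁻¹ = b * (σ b)⁻¹ := by rw [hkg, map_mul]; group
      have hh := (H67.lang_eq_iff σ _ _).1 h1
      set u := (k * a)⁻¹ * b with hu
      refine ⟨u⁻¹, by rw [map_inv, hh], ?_⟩
      have := (H67.shintani_translate σ e a u b hh).2 (by
        rw [show a * u * b⁻¹ = k⁻¹ by rw [hu]; group, map_inv, hk])
      rw [this]; group
    · rintro ⟨h, hh, hx⟩
      refine ⟨b * h * a⁻¹, ?_, ?_⟩
      · refine (H67.shintani_translate σ e b h a hh).1 ?_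
        rw [hx]; group
      · rw [map_mul, map_mul, map_inv, hh]; group
  · intro x hx
    simp only [H67.mem_fix_iff] at *
    obtain ⟨c, hc⟩ := hLe x⁻¹
    have hxc : ((σ ^ e) c⁻¹)⁻¹ * c⁻¹ = x := by
      rw [← inv_inj (b := x), hc, map_inv]; group
    refine ⟨c⁻¹ * (σ c⁻¹)⁻¹, (H67.fixed_iff σ e c⁻¹).2 ?_, c⁻¹, rfl, hxc⟩
    rw [hxc, hx]

end Cfsg.Agent.S2666
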