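import Cfsg.Statements.S2667
import Cfsg.Agent.H67.Shintani

set_option autoImplicit false
open Cfsg

namespace Cfsg.Agent.S2667

/-- Shintani descent, in an abstract form. Let `σ` be an automorphism of a group `X` and `e ≥ 1` (no surjectivity of the Lang maps is needed for this part; in the classical setting `X` is a connected algebraic group and `σ` a Steinberg endomorphism). Write `G` for the subgroup of fixed points of `σᵉ` and `H` for the subgroup of fixed points of `σ`. The `G`-conjugacy classes in the coset `G σ` of the semidirect product of `G` by `σ` correspond to the orbits of `G` on itself under twisted conjugation `g ↦ k g σ(k)⁻¹`, and the `e`-th power of `g σ` has `G`-part the norm `g σ(g) ⋯ σ^(e-1)(g)`. For `g` in `G` and any `a` with `g = a σ(a)⁻¹`, put `x = σᵉ(a)⁻¹ a`. Then conjugation by `a⁻¹` carries the twisted centralizer `{k ∈ G : k g σ(k)⁻¹ = g}` (the centralizer of `g σ` in `G`) exactly onto the centralizer of `x` in `H`: an element `k` of `X` lies in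 `G` and satisfies `k g σ(k)⁻¹ = g` if and only if `a⁻¹ k a` lies in `H` and commutes with `x`. In particular the two centralizers are conjugate in `X` and have the same order. -/
theorem result {X : Type*} [Group X] (σ : MulAut X) (e : ℕ) (he : 1 ≤ e)
    (g : X) (hg : g ∈ (MulEquiv.toMonoidHom (σ ^ e)).eqLocus (MonoidHom.id X)) (a : X) (ha : g = a * (σ a)⁻¹) (k : X) :
    (k ∈ (MulEquiv.toMonoidHom (σ ^ e)).eqLocus (MonoidHom.id X) ∧ k * g * (σ k)⁻¹ = g) ↔
      (a⁻¹ * k * a ∈ (MulEquiv.toMonoidHom σ).eqLocus (MonoidHom.id X) ∧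
        (a⁻¹ * k * a) * (((σ ^ e) a)⁻¹ * a) = (((σ ^ e) a)⁻¹ * a) * (a⁻¹ * k * a)) := by
  obtain rfl := ha
  simp only [H67.mem_fix_iff] at *
  set x : X := ((σ ^ e) a)⁻¹ * a with hxdef
  have hx : σ x = x := (H67.fixed_iff σ e a).1 hg
  have h2 : k * (a * (σ a)⁻¹) * (σ k)⁻¹ = a * (σ a)⁻¹ ↔ σ (a⁻¹ * k * a) = a⁻¹ * k * a := by
    have h := H67.lang_eq_iff σ a (k * a)
    rw [← mul_assoc a⁻¹ k a] at h
    rw [← h, map_mul, mul_inv_rev]
    constructor
    · intro h; rw [← h]; group
    · intro h; rw [show k * (a * (σ a)⁻¹) * (σ k)⁻¹ = k * a * ((σ a)⁻¹ * (σ k)⁻¹) by group, ← h]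
  constructor
  · rintro ⟨hk, hkg⟩
    have hh := h2.1 hkg
    refine ⟨hh, ?_⟩
    have := (H67.shintani_translate σ e a (a⁻¹ * k * a) a hh).2 (by
      rw [show a * (a⁻¹ * k * a) * a⁻¹ = k by group]; exact hk)
    rw [← hxdef] at this
    calc a⁻¹ * k * a * x = a⁻¹ * k * a * ((a⁻¹ * k * a)⁻¹ * x * (a⁻¹ * k * a)) := by rw [← this]
      _ = x * (a⁻¹ * k * a) := by group
  · rintro ⟨hh, hc⟩
    refine ⟨?_, h2.2 hh⟩
    have := (H67.shintani_translate σ e a (a⁻¹ * k * a) a hh).1 (by
      rw [← hxdef, mul_assoc _ x, ← hc]; group)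
    rwa [show a * (a⁻¹ * k * a) * a⁻¹ = k by group] at this

end Cfsg.Agent.S2667
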