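import Cfsg.Statements.S2668
import Cfsg.Agent.H67.Shintani

set_option autoImplicit false
open Cfsg

namespace Cfsg.Agent.S2668

/-- Shintani descent and powers (abstract form). Let `σ` be an automorphism of a group `X`, `e ≥ 1` and `d ≥ 1`, let `g` be fixed by `σᵉ` and let `a` satisfy `g = a σ(a)⁻¹`, so that the Shintani map of `(X, σ, e)` sends the class of `g σ` to the class of `x = σᵉ(a)⁻¹ a`. Put `h = g σ(g) ⋯ σ^(d-1)(g)`, the part in `X` of the `d`-th power `(g σ)^d = h σ^d`. Then `h = a σ^d(a)⁻¹` (so `a` also serves for `h` with respect to `σ^d`), `h` is fixed by `(σ^d)ᵉ`, and `(σ^d)ᵉ(a)⁻¹ a = x^d`: the Shintani map of `(X, σ^d, e)` sends the class of `(g σ)^d` to the class of `x^d`. (When `d` divides `e`, the Shintani map of `(X, σ^d, e/d)` sends it to the class of `x` itself, since `(σ^d)^(e/d) = σᵉ`.) -/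
theorem result {X : Type*} [Group X] (σ : MulAut X) (e d : ℕ) (he : 1 ≤ e) (hd : 1 ≤ d)
    (g : X) (hg : g ∈ (MulEquiv.toMonoidHom (σ ^ e)).eqLocus (MonoidHom.id X)) (a : X) (ha : g = a * (σ a)⁻¹) :
    ((List.range d).map (fun i => (σ ^ i) g)).prod = a * ((σ ^ d) a)⁻¹ ∧
      ((List.range d).map (fun i => (σ ^ i) g)).prod ∈ (MulEquiv.toMonoidHom ((σ ^ d) ^ e)).eqLocus (MonoidHom.id X) ∧
      (((σ ^ d) ^ e) a)⁻¹ * a = (((σ ^ e) a)⁻¹ * a) ^ d := by
  obtain rfl := ha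
  simp only [H67.mem_fix_iff] at *
  have hx := (H67.fixed_iff σ e a).1 hg
  have hprod : ∀ (n : ℕ), ((σ ^ (e * n)) a)⁻¹ * a = (((σ ^ e) a)⁻¹ * a) ^ n := by
    intro n
    induction n with
    | zero => simp
    | succ n ih =>
      rw [pow_succ', Nat.mul_succ, pow_add, MulAut.mul_apply]
      have h1 : ((σ ^ (e * n)) ((σ ^ e) a))⁻¹ * (σ ^ (e * n)) a = ((σ ^ e) a)⁻¹ * a := by
        have := H67.pow_apply_of_fixed σ _ hx (e * n)
        rwa [map_mul, map_inv] at this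
      calc ((σ ^ (e * n)) ((σ ^ e) a))⁻¹ * a
          = ((σ ^ (e * n)) ((σ ^ e) a))⁻¹ * (σ ^ (e * n)) a * (((σ ^ (e * n)) a)⁻¹ * a) := by group
        _ = (((σ ^ e) a)⁻¹ * a) * (((σ ^ e) a)⁻¹ * a) ^ n := by rw [h1, ih]
        _ = _ := by group
  refine ⟨H67.prod_range_pow_apply σ a d, ?_, ?_⟩
  · rw [← pow_mul, H67.prod_range_pow_apply σ a d]
    have hde : ∀ n : ℕ, (σ ^ (e * n)) (a * (σ a)⁻¹) = a * (σ a)⁻¹ := by
      intro n; rw [pow_mul]; exact H67.pow_apply_of_fixed (σ ^ e) _ hg n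
    rw [← H67.prod_range_pow_apply σ a d, map_list_prod, List.map_map]
    congr 1
    apply List.map_congr_left
    intro i _
    show (σ ^ (d * e)) ((σ ^ i) _) = (σ ^ i) _
    rw [H67.pow_apply_comm σ, mul_comm d e, hde d]
  · rw [← pow_mul, mul_comm d e]; exact hprod d

end Cfsg.Agent.S2668
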