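import Cfsg.Statements.S2669
import Cfsg.Agent.H67.Shintani

set_option autoImplicit false
open Cfsg

namespace Cfsg.Agent.S2669

/-- Shintani descent preserves numbers of fixed points on coset spaces (abstract form). Let `σ` be an automorphism of a group `X` and `e ≥ 1`; write `G` for the fixed points of `σᵉ` and `H` for the fixed points of `σ`, and assume `G` is finite. Let `Y` be a `σ`-stable subgroup of `X` on which the maps `a ↦ a σ(a)⁻¹` and `a ↦ a σᵉ(a)⁻¹` are surjective (as for a closed connected `σ`-stable subgroup of an algebraic group). Let `g ∈ G`, let `a ∈ X` satisfy `g = a σ(a)⁻¹` and put `x = σᵉ(a)⁻¹ a` (the Shintani image, an element of `H`). The element `g σ` of the semidirect product acts on the cosets of `Y ∩ G` in `G` by `k (Y ∩ G) ↦ g σ(k) (Y ∩ G)`, fixing that coset exactly when `k⁻¹ g σ(k) ∈ Y`; and `x` fixes the coset `h (Y ∩ H)` of `H` exactly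 when `h⁻¹ x h ∈ Y`. Then the two numbers of fixed cosets agree; in cross-multiplied form, `#{k ∈ G : k⁻¹ g σ(k) ∈ Y} · |Y ∩ H| = #{h ∈ H : h⁻¹ x h ∈ Y} · |Y ∩ G|`. -/
theorem result {X : Type*} [Group X] (σ : MulAut X) (e : ℕ) (he : 1 ≤ e)
    [Finite ↥((MulEquiv.toMonoidHom (σ ^ e)).eqLocus (MonoidHom.id X))]
    (Y : Subgroup X) (hY : ∀ y : X, y ∈ Y ↔ σ y ∈ Y)
    (hYL : ∀ y ∈ Y, ∃ a ∈ Y, y = a * (σ a)⁻¹) (hYLe : ∀ y ∈ Y, ∃ a ∈ Y, y = a * ((σ ^ e) a)⁻¹)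
    (g : X) (hg : g ∈ (MulEquiv.toMonoidHom (σ ^ e)).eqLocus (MonoidHom.id X)) (a : X) (ha : g = a * (σ a)⁻¹) :
    Nat.card {k : ↥((MulEquiv.toMonoidHom (σ ^ e)).eqLocus (MonoidHom.id X)) // (k : X)⁻¹ * g * σ k ∈ Y} *
        Nat.card ↥(Y ⊓ (MulEquiv.toMonoidHom σ).eqLocus (MonoidHom.id X)) =
      Nat.card {h : ↥((MulEquiv.toMonoidHom σ).eqLocus (MonoidHom.id X)) // (h : X)⁻¹ * (((σ ^ e) a)⁻¹ * a) * h ∈ Y} *
        Nat.card ↥(Y ⊓ (MulEquiv.toMonoidHom (σ ^ e)).eqLocus (MonoidHom.id X)) := by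
  classical
  obtain rfl := ha
  set x : X := ((σ ^ e) a)⁻¹ * a with hxdef
  set G := (MulEquiv.toMonoidHom (σ ^ e)).eqLocus (MonoidHom.id X)
  set H := (MulEquiv.toMonoidHom σ).eqLocus (MonoidHom.id X)
  have memG : ∀ z : X, z ∈ G ↔ (σ ^ e) z = z := fun z => Iff.rfl
  have memH : ∀ z : X, z ∈ H ↔ σ z = z := fun z => Iff.rfl
  have hk' : ∀ k : X, k⁻¹ * (a * (σ a)⁻¹) * σ k = (k⁻¹ * a) * (σ (k⁻¹ * a))⁻¹ := by
    intro k; rw [map_mul, map_inv]; group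
  have exy : ∀ k : {k : ↥G // (k : X)⁻¹ * (a * (σ a)⁻¹) * σ k ∈ Y},
      ∃ y ∈ Y, y * (σ y)⁻¹ = ((k.1 : X)⁻¹ * a) * (σ ((k.1 : X)⁻¹ * a))⁻¹ := by
    intro k
    obtain ⟨y, hy, he'⟩ := hYL _ k.2
    exact ⟨y, hy, by rw [← he', hk']⟩
  choose yk hykY hykeq using exy
  have exv : ∀ h : {h : ↥H // (h : X)⁻¹ * x * h ∈ Y},
      ∃ v ∈ Y, ((σ ^ e) v)⁻¹ * v = (h.1 : X)⁻¹ * x * h.1 := by
    intro h
    obtain ⟨c, hc, hce⟩ := hYLe _ (Y.inv_mem h.2)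
    refine ⟨c⁻¹, Y.inv_mem hc, ?_⟩
    rw [← inv_inj (b := (h.1 : X)⁻¹ * x * h.1), hce, map_inv]; group
  choose vh hvY hveq using exv
  have hykH : ∀ k, σ (((k.1 : ↥G) : X)⁻¹ * a)⁻¹ * σ (yk k) = (((k.1 : ↥G) : X)⁻¹ * a)⁻¹ * yk k := by
    intro k
    have := (H67.lang_eq_iff σ (((k.1 : ↥G) : X)⁻¹ * a) (yk k)).1 (hykeq k).symm
    rwa [map_mul] at this
  let hOf : {k : ↥G // (k : X)⁻¹ * (a * (σ a)⁻¹) * σ k ∈ Y} → ↥(Y ⊓ H) → X :=
    fun k w => a⁻¹ * (k.1 : X) * (yk k * (w : X))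
  have hOfH : ∀ k w, σ (hOf k w) = hOf k w := by
    intro k w
    have h1 := hykH k
    have h2 : σ (w : X) = w := (memH _).1 w.2.2
    show σ (a⁻¹ * (k.1 : X) * (yk k * (w : X))) = a⁻¹ * (k.1 : X) * (yk k * (w : X))
    rw [show a⁻¹ * (k.1 : X) * (yk k * (w : X)) = ((k.1 : X)⁻¹ * a)⁻¹ * yk k * (w : X) by group,
      map_mul, map_mul, h1, h2]
  have hyw : ∀ k (w : ↥(Y ⊓ H)), yk k * (w : X) ∈ Y := fun k w => Y.mul_mem (hykY k) w.2.1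
  have hxk : ∀ k (w : ↥(Y ⊓ H)), ((σ ^ e) (yk k * (w : X)))⁻¹ * (yk k * (w : X)) = (hOf k w)⁻¹ * x * hOf k w := by
    intro k w
    refine (H67.shintani_translate σ e a (hOf k w) (yk k * (w : X)) (hOfH k w)).2 ?_
    rw [show a * hOf k w * (yk k * (w : X))⁻¹ = (k.1 : X) by simp only [hOf]; group]
    exact k.1.2
  have hYpow : ∀ (n : ℕ) (y : X), y ∈ Y → (σ ^ n) y ∈ Y := by
    intro n
    induction n with
    | zero => intro y hy; simpa using hy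
    | succ n ih => intro y hy; rw [pow_succ, MulAut.mul_apply]; exact ih _ ((hY y).1 hy)
  let toH : {k : ↥G // (k : X)⁻¹ * (a * (σ a)⁻¹) * σ k ∈ Y} × ↥(Y ⊓ H) →
      {h : ↥H // (h : X)⁻¹ * x * h ∈ Y} := fun p =>
    ⟨⟨hOf p.1 p.2, hOfH _ _⟩, by
      show (hOf p.1 p.2)⁻¹ * x * hOf p.1 p.2 ∈ Y
      rw [← hxk]
      exact Y.mul_mem (Y.inv_mem (hYpow e _ (hyw _ _))) (hyw _ _)⟩
  have kmem : ∀ (h : {h : ↥H // (h : X)⁻¹ * x * h ∈ Y}) (u : ↥(Y ⊓ G)),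
      a * (h.1 : X) * ((u : X) * vh h)⁻¹ ∈ G := by
    intro h u
    have hu : (σ ^ e) (u : X) = u := (memG _).1 u.2.2
    refine (H67.shintani_translate σ e a (h.1 : X) _ h.1.2).1 ?_
    rw [← hxdef, ← hveq h, map_mul, hu]; group
  have kmemY : ∀ (h : {h : ↥H // (h : X)⁻¹ * x * h ∈ Y}) (u : ↥(Y ⊓ G)),
      (a * (h.1 : X) * ((u : X) * vh h)⁻¹)⁻¹ * (a * (σ a)⁻¹) *
        σ (a * (h.1 : X) * ((u : X) * vh h)⁻¹) = (u : X) * vh h * (σ ((u : X) * vh h))⁻¹ := by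
    intro h u
    have hh : σ (h.1 : X) = h.1 := h.1.2
    rw [map_mul (f := σ) (a * (h.1 : X)), map_mul (f := σ) a, map_inv, hh]; group
  have heqv : {k : ↥G // (k : X)⁻¹ * (a * (σ a)⁻¹) * σ k ∈ Y} × ↥(Y ⊓ H) ≃
      {h : ↥H // (h : X)⁻¹ * x * h ∈ Y} × ↥(Y ⊓ G) := by
    refine Equiv.ofBijective (fun p => (toH p, ⟨yk p.1 * (p.2 : X) * (vh (toH p))⁻¹, ?_, ?_⟩)) ⟨?_, ?_⟩
    · exact Y.mul_mem (hyw _ _) (Y.inv_mem (hvY _))
    · refine (memG _).2 ((H67.inv_lang_eq_iff (σ ^ e) _ _).1 ?_)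
      rw [hveq (toH p), hxk]
    · rintro ⟨k, w⟩ ⟨k', w'⟩ hp
      simp only [Prod.mk.injEq] at hp
      obtain ⟨h1, h2⟩ := hp
      have h2' := congrArg Subtype.val h2
      simp only [h1, mul_left_inj] at h2'
      have h1' : hOf k w = hOf k' w' := congrArg (fun z => ((z.1 : ↥H) : X)) h1
      simp only [hOf] at h1'
      rw [h2'] at h1'
      have hk : k = k' := Subtype.ext (Subtype.ext (by simpa using h1'))
      subst hk
      have hw : w = w' := Subtype.ext (by simpa using h2')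
      rw [hw]
    · rintro ⟨h, u⟩
      have hk2 : (⟨_, kmem h u⟩ : ↥G).1⁻¹ * (a * (σ a)⁻¹) * σ (⟨_, kmem h u⟩ : ↥G).1 ∈ Y := by
        rw [kmemY h u]
        have hy := Y.mul_mem u.2.1 (hvY h)
        exact Y.mul_mem hy (Y.inv_mem ((hY _).1 hy))
      let k : {k : ↥G // (k : X)⁻¹ * (a * (σ a)⁻¹) * σ k ∈ Y} := ⟨⟨_, kmem h u⟩, hk2⟩
      let y : X := (u : X) * vh h
      have hwH : σ ((yk k)⁻¹ * y) = (yk k)⁻¹ * y := by
        refine (H67.lang_eq_iff σ _ _).1 ?_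
        rw [hykeq, ← hk']
        exact kmemY h u
      let w : ↥(Y ⊓ H) := ⟨(yk k)⁻¹ * y, Y.mul_mem (Y.inv_mem (hykY k))
        (Y.mul_mem u.2.1 (hvY h)), hwH⟩
      have e1 : yk k * (w : X) = y := mul_inv_cancel_left _ _
      have e2 : toH (k, w) = h := Subtype.ext (Subtype.ext (by
        show a⁻¹ * (a * (h.1 : X) * y⁻¹) * (yk k * (w : X)) = h.1
        rw [e1]; group))
      refine ⟨(k, w), Prod.ext e2 (Subtype.ext ?_)⟩
      show yk k * (w : X) * (vh (toH (k, w)))⁻¹ = u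
      rw [e2, e1]; exact mul_inv_cancel_right _ _
  simpa [Nat.card_prod] using Nat.card_congr heqv

end Cfsg.Agent.S2669
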