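import Cfsg.Statements.S2673
import Cfsg.Agent.H67.OrthOrderCount

set_option autoImplicit false
open Cfsg

namespace Cfsg.Agent.S2673

/-- Number of conjugacy classes of elements of odd prime order r ≠ p in the orthogonal group O_(2m+1)(q) of x_0² + Σ x_j y_j, q odd: with i the multiplicative order of q mod r and t = (r − 1)/i, there are C(⌊m/i⌋ + t/2, t/2) − 1 classes if i is odd (dual pairs of totally singular i-blocks) and C(⌊(2m+1)/i⌋ + t, t) − 1 if i is even (elliptic i-blocks). -/
theorem result {F : Type*} [Field F] [Fintype F] {p q : ℕ} [Fact p.Prime] [CharP F p] (hF : Fintype.card F = q) (hq : Odd q) (m r i t : ℕ) (hr : r.Prime) (hr2 : r ≠ 2) (hrp : r ≠ p) (hi : i = orderOf (q : ZMod r)) (ht : t * i = r - 1) : Nat.card {C : ConjClasses ↥(Cfsg.isometryGroup F (Cfsg.quadFormOdd m F)) // ∃ g : ↥(Cfsg.isometryGroup F (Cfsg.quadFormOdd m F)), ConjClasses.mk g = C ∧ orderOf g = r} = if Odd i then Nat.choose (m / i + t / 2) (t / 2) - 1 else Nat.choose ((2 * m + 1) / i +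 t) t - 1 := by
  subst hF
  refine Cfsg.Agent.H67.card_orth_odd_classes hr hrp hr2 ?_ m hi ht
  intro h2
  have h := Cfsg.Agent.H67.not_dvd_card (K := F) (r := 2)
  obtain ⟨n, hpp, hn⟩ := FiniteField.card F p
  have : p = 2 := by
    have h3 : ((2 : ℕ) : F) = 0 := by exact_mod_cast h2
    rw [CharP.cast_eq_zero_iff F p] at h3
    exact (Nat.prime_dvd_prime_iff_eq hpp Nat.prime_two).1 h3
  rw [hn, this] at hq
  exact absurd hq (Nat.not_odd_iff_even.2 ((Nat.even_pow).2 ⟨even_two, n.ne_zero⟩))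

end Cfsg.Agent.S2673
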