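import Cfsg.Statements.S2676
import Cfsg.Statements.S2676
import Cfsg.Agent.H66.UnipotentSpCount

set_option autoImplicit false
open Classical
open Cfsg

namespace Cfsg.Agent.S2676

/-- Number of conjugacy classes of elements of order p in Sp_2m(q), q a power of the odd prime p: the classes correspond to the signed partitions of 2m — partitions with all parts at most p in which every odd part has even multiplicity, each even part size that occurs carrying a sign — other than the all-ones partition; so the count is the sum over such partitions of 2^(number of distinct even parts), minus one. -/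
theorem result {F : Type*} [Field F] [Fintype F] {p : ℕ} [Fact p.Prime] [CharP F p] (hp : p ≠ 2) (m : ℕ) : Nat.card {C : ConjClasses ↥(Matrix.symplecticGroup (Fin m) F) // ∃ g : Matrix.symplecticGroup (Fin m) F, ConjClasses.mk g = C ∧ orderOf g = p} = (∑ μ ∈ Finset.univ.filter (fun μ : Nat.Partition (2 * m) => (∀ a ∈ μ.parts, a ≤ p) ∧ ∀ j : ℕ, Odd j → Even (μ.parts.count j)), 2 ^ ((μ.parts.toFinset.filter (fun j : ℕ => Even j)).card)) - 1 := by
  classical
  have hp1 : p.Prime := Fact.out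
  have h2 : (2 : F) ≠ 0 := fun h0 => hp ((Nat.prime_dvd_prime_iff_eq hp1 Nat.prime_two).1
    ((CharP.cast_eq_zero_iff F p 2).1 (by exact_mod_cast h0)))
  set valid : Finset (Nat.Partition (2 * m)) := Finset.univ.filter
    (fun μ : Nat.Partition (2 * m) => (∀ a ∈ μ.parts, a ≤ p) ∧ ∀ j : ℕ, Odd j → Even (μ.parts.count j))
    with hvalid
  set one : Nat.Partition (2 * m) :=
    Nat.Partition.ofSums (2 * m) (Multiset.replicate (2 * m) 1) (by simp) with honedef
  have hone : one.parts = Multiset.replicate (2 * m) 1 := by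
    rw [honedef, Nat.Partition.ofSums_parts, Multiset.filter_eq_self]
    intro a ha
    rw [Multiset.eq_of_mem_replicate ha]
    exact one_ne_zero
  let TK : Nat.Partition (2 * m) → ℕ → ℕ := fun μ k => (μ.parts.map fun a => min k a).sum
  have hfun : ∀ μ : Nat.Partition (2 * m), ∃ (t : ℕ) (d : Fin t → ℕ), (∀ i, 1 ≤ d i) ∧ (∑ i, d i = 2 * m) ∧
      μ.parts = (Finset.univ.val.map d) := by
    intro μ
    have he : (Finset.univ.val.map fun i : Fin μ.parts.toList.length => μ.parts.toList[i]) = μ.parts := by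
      simp only [Fin.univ_val_map, Fin.getElem_fin, List.ofFn_getElem, Multiset.coe_toList]
    refine ⟨_, fun i : Fin μ.parts.toList.length => μ.parts.toList[i],
      fun i => μ.parts_pos (Multiset.mem_toList.1 (List.getElem_mem _)), ?_, he.symm⟩
    change (Finset.univ.val.map fun i : Fin μ.parts.toList.length => μ.parts.toList[i]).sum = 2 * m
    rw [he, μ.parts_sum]
  choose tt dd hd hsum hparts using hfun
  have hTK : ∀ {t : ℕ} (d : Fin t → ℕ) (μ : Nat.Partition (2 * m)), μ.parts = Finset.univ.val.map d →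
      TK μ = H66.typeKer d := by
    intro t d μ h
    funext k
    simp only [TK, h, Multiset.map_map]
    rfl
  have hTKinj : Function.Injective TK := by
    intro μ ν h
    rw [hTK (dd μ) μ (hparts μ), hTK (dd ν) ν (hparts ν)] at h
    refine Nat.Partition.ext (Multiset.ext.2 fun s => ?_)
    rw [hparts μ, hparts ν, Multiset.count_map, Multiset.count_map]
    have := H66.card_filter_eq_of_typeKer (hd μ) (hd ν) (congrFun h) s
    simpa only [Finset.card_def, Finset.filter_val, eq_comm (a := s)] using this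
  have hcount : ∀ μ : Nat.Partition (2 * m), ∀ j,
      μ.parts.count j = (Finset.univ.filter fun k : Fin (tt μ) => dd μ k = j).card := by
    intro μ j
    rw [hparts μ, Multiset.count_map, Finset.card_def, Finset.filter_val]
    simp only [eq_comm (a := j)]
  set good : Finset (Nat.Partition (2 * m)) := valid.erase one with hgood
  have hmem : ∀ μ : Nat.Partition (2 * m), μ ∈ good ↔
      (TK μ p = 2 * m ∧ TK μ 1 ≠ 2 * m) ∧ ∀ j : ℕ, Odd j → Even (μ.parts.count j) := by
    intro μ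
    rw [hTK (dd μ) μ (hparts μ)]
    have h1 : H66.typeKer (dd μ) p = 2 * m ↔ ∀ a ∈ μ.parts, a ≤ p := by
      rw [hparts μ]
      conv_lhs => rw [← hsum μ, H66.typeKer, Finset.sum_eq_sum_iff_of_le fun i _ => min_le_right _ _]
      simp
    have h3 : H66.typeKer (dd μ) 1 = 2 * m ↔ μ = one := by
      rw [Nat.Partition.ext_iff, hone]
      conv_lhs => rw [← hsum μ, H66.typeKer, Finset.sum_eq_sum_iff_of_le fun i _ => min_le_right _ _]
      constructor
      · intro h
        have hall : ∀ i, dd μ i = 1 := fun i => by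
          have := h i (Finset.mem_univ _); have := hd μ i; omega
        have hn : tt μ = 2 * m := by
          have := hsum μ
          simpa [hall] using this
        rw [Multiset.eq_replicate]
        refine ⟨by simp [hparts μ, hn], fun a ha => ?_⟩
        rw [hparts μ] at ha
        obtain ⟨i, -, rfl⟩ := Multiset.mem_map.1 ha
        exact hall i
      · intro h i _
        have : dd μ i = 1 := Multiset.eq_of_mem_replicate (n := 2 * m) (by
          rw [← h, hparts μ]; exact Multiset.mem_map_of_mem (dd μ) (Finset.mem_univ i))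
        omega
    rw [hgood, Finset.mem_erase, hvalid, Finset.mem_filter, h1, Ne, Ne, h3]
    simp only [Finset.mem_univ, true_and]
    tauto
  have hord : ∀ g : Matrix.symplecticGroup (Fin m) F, orderOf g = p ↔
      ((g : Matrix (Fin m ⊕ Fin m) (Fin m ⊕ Fin m) F) - 1) ^ p = 0 ∧
        (g : Matrix (Fin m ⊕ Fin m) (Fin m ⊕ Fin m) F) ≠ 1 := by
    intro g
    rw [← orderOf_submonoid g]
    rcases isEmpty_or_nonempty (Fin m ⊕ Fin m) with he | he
    · rw [Subsingleton.elim (g : Matrix (Fin m ⊕ Fin m) (Fin m ⊕ Fin m) F) 1, orderOf_one]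
      simp [hp1.one_lt.ne]
    have : CharP (Matrix (Fin m ⊕ Fin m) (Fin m ⊕ Fin m) F) p := Matrix.charP p
    rw [sub_pow_char_of_commute _ (Commute.one_right _), one_pow, sub_eq_zero]
    exact ⟨fun h => ⟨h ▸ pow_orderOf_eq_one _, fun h' => hp1.one_lt.ne (by rw [← h, h', orderOf_one])⟩,
      fun h => orderOf_eq_prime h.1 h.2⟩
  let ev : Nat.Partition (2 * m) → Finset ℕ := fun μ => μ.parts.toFinset.filter (fun j : ℕ => Even j)
  have hev : ∀ μ s, s ∈ ev μ → Even s ∧ ∃ a, dd μ a = s := by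
    intro μ s hs
    rw [Finset.mem_filter, Multiset.mem_toFinset, hparts μ, Multiset.mem_map] at hs
    obtain ⟨⟨a, -, ha⟩, he⟩ := hs
    exact ⟨he, a, ha⟩
  have hev' : ∀ μ s, Even s → (∃ a, dd μ a = s) → s ∈ ev μ := by
    rintro μ s he ⟨a, rfl⟩
    rw [Finset.mem_filter, Multiset.mem_toFinset, hparts μ]
    exact ⟨Multiset.mem_map_of_mem _ (Finset.mem_univ a), he⟩
  have hreal : ∀ x : (Σ μ : {μ // μ ∈ good}, ({j // j ∈ ev μ.1} → Bool)),
      ∃ (N : Matrix ((k : Fin (tt x.1.1)) × Fin (dd x.1.1 k)) ((k : Fin (tt x.1.1)) × Fin (dd x.1.1 k)) F)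
        (g : Matrix.symplecticGroup (Fin m) F), H66.Lead.Inv N ∧ N.det ≠ 0 ∧ N.transpose = -N ∧
        H66.Lead.Carrier g (dd x.1.1) N ∧
        ∀ s (h : s ∈ ev x.1.1), (IsSquare (H66.Lead.lead N s).det ↔ x.2 ⟨s, h⟩ = true) := by
    rintro ⟨⟨μ, hμ⟩, σ⟩
    obtain ⟨π, hππ, hπd, hfix⟩ := H66.exists_block_pairing (dd μ) Odd fun s hs => by
      rw [← hcount]; exact ((hmem μ).1 hμ).2 s hs
    obtain ⟨M, hdet, hsym, hinv, -⟩ := H66.exists_invariant_matrix (dd μ) π hππ hπd (ε := (-1 : F)) (by simp)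
      fun a ha => Or.inl ⟨rfl, Nat.not_odd_iff_even.1 (hfix a ha)⟩
    have hskew : M.transpose = -M := by
      ext x y
      rw [Matrix.transpose_apply, Matrix.neg_apply, hsym, neg_one_mul]
    choose T hT0 hTt hTsq using fun s => H66.Lead.exists_target (hd μ) h2 hinv hdet hskew s
      (if h : s ∈ ev μ then σ ⟨s, h⟩ else true)
    obtain ⟨N, hN, hNdet, hNskew, hNlead⟩ := H66.Lead.exists_with_lead h2 (hd μ) hinv hdet hskew T hT0 hTt
    obtain ⟨g, hg⟩ := H66.Lead.exists_sp_carrier h2 (hsum μ) hN hNdet hNskew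
    refine ⟨N, g, hN, hNdet, hNskew, hg, fun s hs => ?_⟩
    rw [hNlead, hTsq s (hev μ s hs).1 (hev μ s hs).2, dif_pos hs]
  choose N g hNinv hNdet hNskew hg hNsq using hreal
  have hgord : ∀ x, orderOf (g x) = p := by
    intro x
    obtain ⟨⟨μ, hμ⟩, σ⟩ := x
    have hk : H66.kerDim (g ⟨⟨μ, hμ⟩, σ⟩ : Matrix (Fin m ⊕ Fin m) (Fin m ⊕ Fin m) F) = TK μ := by
      rw [(hg ⟨⟨μ, hμ⟩, σ⟩).kerDim_eq (hsum μ), hTK (dd μ) μ (hparts μ)]
    have e1 := H66.kerDim_eq_card_iff (g ⟨⟨μ, hμ⟩, σ⟩ : Matrix (Fin m ⊕ Fin m) (Fin m ⊕ Fin m) F) p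
    have e2 := H66.kerDim_eq_card_iff (g ⟨⟨μ, hμ⟩, σ⟩ : Matrix (Fin m ⊕ Fin m) (Fin m ⊕ Fin m) F) 1
    rw [Fintype.card_sum, Fintype.card_fin, hk, ← two_mul] at e1 e2
    rw [pow_one, sub_eq_zero] at e2
    rw [hord]
    exact ⟨e1.1 ((hmem μ).1 hμ).1.1, fun h => ((hmem μ).1 hμ).1.2 (e2.2 h)⟩
  have hbij : Function.Bijective (fun x => (⟨ConjClasses.mk (g x), g x, rfl, hgord x⟩ :
      {C : ConjClasses ↥(Matrix.symplecticGroup (Fin m) F) //
        ∃ g : Matrix.symplecticGroup (Fin m) F, ConjClasses.mk g = C ∧ orderOf g = p})) := by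
    constructor
    · rintro ⟨⟨μ, hμ⟩, σ⟩ ⟨⟨ν, hν⟩, τ⟩ h
      have hc : IsConj (g ⟨⟨μ, hμ⟩, σ⟩) (g ⟨⟨ν, hν⟩, τ⟩) :=
        ConjClasses.mk_eq_mk_iff_isConj.1 (congrArg Subtype.val h)
      obtain rfl : μ = ν := by
        refine hTKinj ?_
        rw [hTK (dd μ) μ (hparts μ), hTK (dd ν) ν (hparts ν),
          ← (hg ⟨⟨μ, hμ⟩, σ⟩).kerDim_eq (hsum μ), ← (hg ⟨⟨ν, hν⟩, τ⟩).kerDim_eq (hsum ν)]
        exact funext (H66.kerDim_eq_of_isConj
          ((Matrix.symplecticGroup (Fin m) F).subtype.map_isConj hc))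
      congr 1
      funext ⟨s, hs⟩
      obtain ⟨C, hC, hCN⟩ := (H66.Lead.carrier_isConj_iff (hg ⟨⟨μ, hμ⟩, σ⟩) (hg ⟨⟨μ, hν⟩, τ⟩)).1 hc
      have e := congrArg Matrix.det (congrArg (fun M => H66.Lead.lead M s) hCN)
      rw [H66.Lead.lead_congr (hNinv ⟨⟨μ, hν⟩, τ⟩) hC hC (hd μ), Matrix.det_mul, Matrix.det_mul,
        Matrix.det_transpose] at e
      have hl : (H66.Lead.levi C s).det ≠ 0 := fun h0 =>
        H66.Lead.lead_det_ne_zero (hNinv ⟨⟨μ, hμ⟩, σ⟩) (hNdet _) (hd μ) s (by rw [← e, h0]; simp)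
      have key : IsSquare (H66.Lead.lead (N ⟨⟨μ, hμ⟩, σ⟩) s).det ↔
          IsSquare (H66.Lead.lead (N ⟨⟨μ, hν⟩, τ⟩) s).det := by
        rw [← e]
        constructor
        · rintro ⟨r, hr⟩
          refine ⟨r / (H66.Lead.levi C s).det, ?_⟩
          field_simp
          linear_combination hr
        · rintro ⟨r, hr⟩
          exact ⟨r * (H66.Lead.levi C s).det, by rw [hr]; ring⟩
      rw [hNsq ⟨⟨μ, hμ⟩, σ⟩ s hs, hNsq ⟨⟨μ, hν⟩, τ⟩ s hs] at key
      exact Bool.eq_iff_iff.2 key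
    · rintro ⟨_, a, rfl, ha⟩
      rw [hord] at ha
      obtain ⟨t, d, hd', hs', hk⟩ := H66.exists_type
        (a : Matrix (Fin m ⊕ Fin m) (Fin m ⊕ Fin m) F) ⟨p, ha.1⟩
      rw [Fintype.card_sum, Fintype.card_fin, ← two_mul] at hs'
      have hk' := funext hk
      let μ : Nat.Partition (2 * m) := ⟨Finset.univ.val.map d, fun {i} hi => by
        obtain ⟨j, -, rfl⟩ := Multiset.mem_map.1 hi
        exact hd' j, hs'⟩
      have hkμ : ∀ k, H66.kerDim (a : Matrix (Fin m ⊕ Fin m) (Fin m ⊕ Fin m) F) k =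
          H66.typeKer (dd μ) k := fun k => by
        rw [hk', ← hTK d μ rfl, hTK (dd μ) μ (hparts μ)]
      obtain ⟨e⟩ : Nonempty (((k : Fin (tt μ)) × Fin (dd μ k)) ≃ (Fin m ⊕ Fin m)) :=
        ⟨Fintype.equivOfCardEq (by simp [Fintype.card_sigma, hsum μ]; omega)⟩
      have hcj := H66.isConj_reindex_jordan (dd μ) ⟨p, ha.1⟩ e hkμ
      have hμ : μ ∈ good := by
        refine (hmem μ).2 ⟨?_, fun j hj => ?_⟩
        · rw [hTK d μ rfl, ← hk', Ne]
          have e1 := H66.kerDim_eq_card_iff (a : Matrix (Fin m ⊕ Fin m) (Fin m ⊕ Fin m) F) p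
          have e2 := H66.kerDim_eq_card_iff (a : Matrix (Fin m ⊕ Fin m) (Fin m ⊕ Fin m) F) 1
          rw [Fintype.card_sum, Fintype.card_fin, ← two_mul] at e1 e2
          rw [e1, e2, pow_one, sub_eq_zero]
          exact ha
        · rw [hcount]
          exact (H66.sp_jordan_iff (K := F) (dd μ) (hd μ) (hsum μ)).1 ⟨e, a, hcj⟩ j hj
      obtain ⟨M, hMinv, hMdet, hMskew, hMc⟩ := H66.Lead.exists_carrier_of_isConj a e hcj
      refine ⟨⟨⟨μ, hμ⟩, fun j => decide (IsSquare (H66.Lead.lead M j.1).det)⟩, Subtype.ext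
        (ConjClasses.mk_eq_mk_iff_isConj.2 ?_)⟩
      set x : (Σ μ : {μ // μ ∈ good}, ({j // j ∈ ev μ.1} → Bool)) :=
        ⟨⟨μ, hμ⟩, fun j => decide (IsSquare (H66.Lead.lead M j.1).det)⟩ with hx
      refine (H66.Lead.carrier_isConj_iff (hg x) hMc).2
        (H66.Lead.exists_commute_congr hp (hd μ) hMinv (hNinv x) hMdet (hNdet x) hMskew (hNskew x) fun s => ?_)
      have ht1 := H66.Lead.lead_transpose_of_skew hMinv hMskew (hd μ) s
      have ht2 := H66.Lead.lead_transpose_of_skew (hNinv x) (hNskew x) (hd μ) s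
      have hd1 := H66.Lead.lead_det_ne_zero hMinv hMdet (hd μ) s
      have hd2 := H66.Lead.lead_det_ne_zero (hNinv x) (hNdet x) (hd μ) s
      rcases Nat.even_or_odd s with he | ho
      · by_cases hex : ∃ a, dd μ a = s
        · rw [he.neg_one_pow, one_smul] at ht1 ht2
          have hq : IsSquare (H66.Lead.lead (N x) s).det ↔ IsSquare (H66.Lead.lead M s).det :=
            (hNsq x s (hev' μ s he hex)).trans decide_eq_true_iff
          refine H66.Lead.exists_congr_symm h2 _ _ ht1 ht2 hd1 hd2 ?_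
          by_cases hsq : IsSquare (H66.Lead.lead M s).det
          · exact hsq.mul (hq.2 hsq)
          · exact H4.isSquare_mul_of_not hsq fun h => hsq (hq.1 h)
        · have : IsEmpty {a : Fin (tt μ) // dd μ a = s} := ⟨fun a => hex ⟨a.1, a.2⟩⟩
          exact ⟨1, Subsingleton.elim _ _⟩
      · rw [ho.neg_one_pow, neg_one_smul] at ht1 ht2
        exact H66.Lead.exists_congr_skew h2 _ _ ht1 ht2 hd1 hd2
  rw [← Nat.card_eq_of_bijective _ hbij, Nat.card_eq_fintype_card, Fintype.card_sigma]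
  simp only [Fintype.card_fun, Fintype.card_coe, Fintype.card_bool]
  rw [Finset.sum_coe_sort good fun μ => 2 ^ (ev μ).card]
  have honemem : one ∈ valid := by
    rw [hvalid, Finset.mem_filter]
    refine ⟨Finset.mem_univ _, fun a ha => ?_, fun j hj => ?_⟩
    · rw [hone] at ha
      rw [Multiset.eq_of_mem_replicate ha]
      exact hp1.one_le
    · rw [hone, Multiset.count_replicate]
      split_ifs
      · exact even_two_mul m
      · exact Even.zero
  have hone0 : (ev one).card = 0 := by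
    rw [Finset.card_eq_zero, Finset.filter_eq_empty_iff]
    intro j hj
    rw [Multiset.mem_toFinset, hone] at hj
    rw [Multiset.eq_of_mem_replicate hj]
    decide
  have hsum1 := Finset.add_sum_erase valid (fun μ => 2 ^ (ev μ).card) honemem
  simp only [hone0, pow_zero] at hsum1
  exact (Nat.sub_eq_of_eq_add' hsum1.symm).symm

end Cfsg.Agent.S2676
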