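import Cfsg.Statements.S2677
import Cfsg.Agent.H67.FieldAuto

set_option autoImplicit false
open Cfsg

namespace Cfsg.Agent.S2677

/-- Centraliser of a field automorphism of odd prime order in PGU_n(q): let q = q₀^r with r an odd prime, K the field with q² elements and σ a field automorphism of K of order r (fixed field of order q₀²). The elements g of GU_n(q) whose entrywise image under σ is a scalar multiple of g — those whose coset modulo the q + 1 unitary scalars is fixed by σ — number (q + 1)/(q₀ + 1) · |GU_n(q₀)|; equivalently the centraliser in PGU_n(q) of the induced automorphism has the order of PGU_n(q₀). -/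
theorem result {K : Type*} [Field K] [Fintype K] {q₀ q r n : ℕ} (hr : r.Prime) (hr2 : r ≠ 2) (hn : 1 ≤ n) (hq : q = q₀ ^ r) (hK : Fintype.card K = q ^ 2) (σ : K ≃+* K) (hσ : orderOf σ = r) : (Nat.card {g : ↥(Cfsg.GU n K q) // ∃ c : K, c ≠ 0 ∧ ((g : GL (Fin n) K) : Matrix (Fin n) (Fin n) K).map σ = c • ((g : GL (Fin n) K) : Matrix (Fin n) (Fin n) K)} : ℤ) = ((q + 1) / (q₀ + 1) : ℕ) * ((q₀ : ℤ) ^ (n * (n - 1) / 2) * ∏ i : Fin n, ((q₀ : ℤ) ^ ((i : ℕ) + 1) - (-1) ^ ((i : ℕ) + 1))) := by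
  have hodd : Odd r := hr.odd_of_ne_two hr2
  have hq2 := H3.two_le_q hK
  have hq0 : q₀ ≠ 0 := by
    intro h0
    rw [h0, zero_pow hr.ne_zero] at hq
    omega
  have h := H67.card_semifixed_GU hr.pos hodd hn hq hK σ hσ
  obtain ⟨d, hd⟩ : q₀ + 1 ∣ q + 1 := by
    have := hodd.nat_add_dvd_pow_add_pow q₀ 1
    rwa [one_pow, ← hq] at this
  rw [hd, mul_assoc, mul_comm _ (q₀ + 1)] at h
  have h' := Nat.eq_of_mul_eq_mul_left (Nat.succ_pos q₀) h
  rw [h', hd, Nat.mul_div_cancel_left _ (Nat.succ_pos q₀)]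
  push_cast
  rw [← Fin.prod_univ_eq_prod_range]
  congr 2
  refine Finset.prod_congr rfl fun i _ => ?_
  have h1 : 1 ≤ q₀ ^ ((i : ℕ) + 1) := Nat.one_le_pow _ _ (Nat.pos_of_ne_zero hq0)
  rcases Nat.even_or_odd (i : ℕ) with he | ho
  · rw [if_pos he, (Even.add_one he).neg_one_pow]; push_cast; ring
  · rw [if_neg (Nat.not_even_iff_odd.2 ho), (Odd.add_one ho).neg_one_pow, Nat.cast_sub h1]; push_cast; ring

end Cfsg.Agent.S2677
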