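import Cfsg.Statements.S2682
import Cfsg.Agent.H65.SpMatrixCent

set_option autoImplicit false
open Cfsg

namespace Cfsg.Agent.S2682

/-- Centraliser order of an involution t of Sp_2m(q), q even, with s = rank(t − 1) even and f(v, tv) ≠ 0 for some v, f the symplectic form (type c_s): |C(t)| = q^(2ms − (3s² − 3s)/2 − 1) · |Sp_(s−2)(q)| · |Sp_(2m−2s)(q)|. -/
theorem result {F : Type*} [Field F] [Fintype F] [CharP F 2] {q : ℕ} (hF : Fintype.card F = q) {m s : ℕ} (t : Matrix.symplecticGroup (Fin m) F) (ht : t ^ 2 = 1) (hs : ((t : Matrix (Fin m ⊕ Fin m) (Fin m ⊕ Fin m) F) - 1).rank = s) (heven : Even s) (hna : ∃ v : Fin m ⊕ Fin m → F, Cfsg.sympForm m F v ((t : Matrix (Fin m ⊕ Fin m) (Fin m ⊕ Fin m) F).mulVec v) ≠ 0) : Nat.card ↥(Subgroup.centralizer ({t} : Set ↥(Matrix.symplecticGroup (Fin m) F))) = q ^ (2 * m * s - (3 * s ^ 2 - 3 * s) / 2 - 1) * ((q : ℕ) ^ (((s - 2) / 2) ^ 2) * ∏ i : Fin ((s - 2) / 2),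 (q ^ (2 * ((i : ℕ) + 1)) - 1)) * ((q : ℕ) ^ ((m - s) ^ 2) * ∏ i : Fin (m - s), (q ^ (2 * ((i : ℕ) + 1)) - 1)) := by
  obtain rfl : q = Nat.card F := by rw [Nat.card_eq_fintype_card, hF]
  have hna' : ¬ ∀ v, Cfsg.sympForm m F v ((t : Matrix (Fin m ⊕ Fin m) (Fin m ⊕ Fin m) F).mulVec v) = 0 := fun h =>
    hna.elim fun v hv => hv (h v)
  obtain ⟨hle, h⟩ := H65.card_centralizer_nonalt t ht hs hna'
  have hpos : 0 < s := by
    by_contra h0
    obtain rfl : s = 0 := by omega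
    obtain ⟨v, hv⟩ := hna
    have hN : H65.spN t v = 0 := by
      have : LinearMap.range (H65.spN t) = ⊥ := Submodule.finrank_eq_zero.mp hs
      have hm : H65.spN t v ∈ LinearMap.range (H65.spN t) := LinearMap.mem_range_self _ _
      rwa [this, Submodule.mem_bot] at hm
    rw [H65.spN_apply, sub_eq_zero] at hN
    rw [hN, H2.sympForm_self] at hv
    exact hv rfl
  obtain ⟨k, rfl⟩ : ∃ k, s = 2 * k + 2 := by
    obtain ⟨r, rfl⟩ := heven
    exact ⟨r - 1, by omega⟩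
  rw [h, H65.onCount_even, H2.card_sp, show (2 * k + 2 - 2) / 2 = k by omega]
  simp only [Fin.prod_univ_eq_prod_range (fun i => Nat.card F ^ (2 * (i + 1)) - 1)]
  rw [← mul_assoc (Nat.card F ^ _) (Nat.card F ^ (2 * k + 1)), ← pow_add]
  congr 3
  have h2 : (2 * k + 2) * (2 * k + 2) ≤ m * (2 * k + 2) := Nat.mul_le_mul_right _ hle
  have e1 : (3 * (2 * k + 2) ^ 2 - (2 * k + 2)) / 2 = 6 * (k * k) + 11 * k + 5 := by
    have : 3 * (2 * k + 2) ^ 2 = 12 * (k * k) + 24 * k + 12 := by ring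
    omega
  have e2 : (3 * (2 * k + 2) ^ 2 - 3 * (2 * k + 2)) / 2 = 6 * (k * k) + 9 * k + 3 := by
    have : 3 * (2 * k + 2) ^ 2 = 12 * (k * k) + 24 * k + 12 := by ring
    omega
  have e3 : (2 * k + 2) * (2 * k + 2) = 4 * (k * k) + 8 * k + 4 := by ring
  have e4 : 2 * m * (2 * k + 2) = 2 * (m * (2 * k + 2)) := by ring
  omega

end Cfsg.Agent.S2682
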