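import Cfsg.Statements.S2683
import Cfsg.Agent.H65.OrthPlusCent

set_option autoImplicit false
open Cfsg

namespace Cfsg.Agent.S2683

/-- For the hyperbolic form Σ x_j y_j on F^(2m) over a finite field with q elements, q even (excluding m = 2 over the field of two elements), and an involution x of the orthogonal group with s = rank(x − 1) odd (type b_s; such x lie outside Ω): the elements of Ω (the commutator subgroup of the orthogonal group) commuting with x number q^(2m(s−1) − (3s² − 3s)/2) · |Sp_(s−1)(q)| · |Sp_(2m−2s)(q)|, where |Sp_2k(q)| = q^(k²) Π_(i=1)^k (q^(2i) − 1). -/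
theorem result {F : Type*} [Field F] [Fintype F] [CharP F 2] {q : ℕ} (hF : Fintype.card F = q) {m s : ℕ} (h : Fintype.card F ≠ 2 ∨ m ≠ 2) (x : ↥(Cfsg.isometryGroup F (Cfsg.quadFormPlus m F))) (hx : x ^ 2 = 1) (hs : (((x : Matrix.GeneralLinearGroup (Fin m ⊕ Fin m) F) : Matrix (Fin m ⊕ Fin m) (Fin m ⊕ Fin m) F) - 1).rank = s) (hodd : Odd s) : Nat.card {g : ↥(Cfsg.Omega F (Cfsg.quadFormPlus m F)) // (g : ↥(Cfsg.isometryGroup F (Cfsg.quadFormPlus m F))) * x = x * (g : ↥(Cfsg.isometryGroup F (Cfsg.quadFormPlus m F)))} = q ^ (2 * m * (s - 1) - (3 * s ^ 2 - 3 * s) / 2) * ((q : ℕ) ^ (((s - 1) / 2) ^ 2) * ∏ i : Fin ((s - 1) / 2), (q ^ (2 * ((i : ℕ) + 1)) - 1)) * ((q : ℕ) ^ ((m - s) ^ 2) * ∏ i : Fin (m - s), (q ^ (2 * ((i : ℕ) + 1)) - 1)) := by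
  obtain rfl : q = Nat.card F := by rw [Nat.card_eq_fintype_card, hF]
  have hna : ¬ ∀ v, Cfsg.sympForm m F v (((H65.plusToSp x) : Matrix (Fin m ⊕ Fin m) (Fin m ⊕ Fin m) F).mulVec v) = 0 := fun ha => by
    have := (H65.invData_spN _ (H65.plusToSp_sq hx)).even_rank ((H65.isAltType_spN_iff _).mpr ha)
    rw [H65.finrank_range_spN] at this
    exact (Nat.not_even_iff_odd.mpr hodd) (by rw [← hs]; exact this)
  have hle := (H65.card_centralizer_nonalt _ (H65.plusToSp_sq hx) (show _ = s from hs) hna).1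
  have e := H65.plus_cent_nonalt h x hx hs hna
  obtain ⟨k, rfl⟩ := hodd
  rw [show (2 * k + 1 - 1) / 2 = k by omega] at *
  rw [H65.onCount_odd, H2.card_sp] at e
  simp only [Fin.prod_univ_eq_prod_range (fun i => Nat.card F ^ (2 * (i + 1)) - 1)]
  refine Nat.eq_of_mul_eq_mul_right (pow_pos (Nat.card_pos (α := F)) (2 * m - (2 * k + 1))) (e.trans ?_)
  have h2 : (2 * k + 1) * (2 * k + 1) ≤ m * (2 * k + 1) := Nat.mul_le_mul_right _ hle
  have hexp : 2 * m * (2 * k + 1) - (3 * (2 * k + 1) ^ 2 - (2 * k + 1)) / 2 =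
      2 * m * (2 * k + 1 - 1) - (3 * (2 * k + 1) ^ 2 - 3 * (2 * k + 1)) / 2 + (2 * m - (2 * k + 1)) := by
    have e0 : 3 * (2 * k + 1) ^ 2 = 12 * (k * k) + 12 * k + 3 := by ring
    have e3 : (2 * k + 1) * (2 * k + 1) = 4 * (k * k) + 4 * k + 1 := by ring
    have e4 : 2 * m * (2 * k + 1) = 4 * (m * k) + 2 * m := by ring
    have e5 : 2 * m * (2 * k + 1 - 1) = 4 * (m * k) := by rw [Nat.add_sub_cancel]; ring
    have e6 : m * (2 * k + 1) = 2 * (m * k) + m := by ring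
    have e7 : k * k ≤ m * k := Nat.mul_le_mul_right _ (by omega)
    have e8 : (2 * k + 1) * k ≤ m * k := Nat.mul_le_mul_right _ hle
    have e9 : (2 * k + 1) * k = 2 * (k * k) + k := by ring
    omega
  rw [hexp, pow_add]
  ring

end Cfsg.Agent.S2683
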