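import Cfsg.Statements.S2684
import Cfsg.Agent.H65.OrthPlusCent

set_option autoImplicit false
open Cfsg

namespace Cfsg.Agent.S2684

/-- For the hyperbolic form Q = Σ x_j y_j on F^(2m) over a finite field with q elements, q even (excluding m = 2 over the field of two elements), and an involution x ≠ 1 of the orthogonal group with s = rank(x − 1) even and Q vanishing on the image of x − 1 (equivalently f(v, xv) = 0 for all v, where f(u, w) = Q(u + w) − Q(u) − Q(w) is the bilinear form of Q; type a_s, which lies in Ω): its centraliser in Ω (the commutator subgroup of the orthogonal group) has order q^(2ms − (3s² + s)/2) · |Sp_s(q)| · |Ω⁺_(2m−2s)(q)|, where |Ω⁺_2k(q)| = q^(k(k−1)) (q^k − 1) Π_(i=1)^(k−1) (q^(2i) − 1) for k ≥ 1 and the last factor is 1 when s = m. -/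
theorem result {F : Type*} [Field F] [Fintype F] [CharP F 2] {q : ℕ} (hF : Fintype.card F = q) {m s : ℕ} (h : Fintype.card F ≠ 2 ∨ m ≠ 2) (x : ↥(Cfsg.isometryGroup F (Cfsg.quadFormPlus m F))) (hx : x ^ 2 = 1) (hx1 : x ≠ 1) (hs : (((x : Matrix.GeneralLinearGroup (Fin m ⊕ Fin m) F) : Matrix (Fin m ⊕ Fin m) (Fin m ⊕ Fin m) F) - 1).rank = s) (heven : Even s) (halt : ∀ v : Fin m ⊕ Fin m → F, Cfsg.quadFormPlus m F ((((x : Matrix.GeneralLinearGroup (Fin m ⊕ Fin m) F) : Matrix (Fin m ⊕ Fin m) (Fin m ⊕ Fin m) F) - 1).mulVec v) = 0) : Nat.card {g : ↥(Cfsg.Omega F (Cfsg.quadFormPlus m F)) // (g : ↥(Cfsg.isometryGroup F (Cfsg.quadFormPlus m F))) * x = x * (g : ↥(Cfsg.isometryGroup F (Cfsg.quadFormPlus m F)))} = q ^ (2 * m * s - (3 * s ^ 2 + s) / 2) * ((q : ℕ) ^ ((s / 2) ^ 2) * ∏ i : Fin (s / 2), (q ^ (2 * ((i : ℕ) + 1)) - 1)) * (if s = m then 1 else q ^ ((m - s) * (m - s - 1)) * (q ^ (m - s) - 1) * ∏ i : Fin (m - s - 1), (q ^ (2 * ((i :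 ℕ) + 1)) - 1)) := by
  obtain rfl : q = Nat.card F := by rw [Nat.card_eq_fintype_card, hF]
  obtain ⟨hle, e⟩ := H65.plus_cent_alt h x hx hs halt
  have hs0 : s ≠ 0 := by
    rintro rfl
    apply hx1
    have hz : ((x : Matrix.GeneralLinearGroup (Fin m ⊕ Fin m) F) : Matrix (Fin m ⊕ Fin m) (Fin m ⊕ Fin m) F) - 1 = 0 := by
      by_contra hne
      exact hne (Matrix.toLin'.injective ((LinearMap.range_eq_bot.mp (Submodule.finrank_eq_zero.mp hs)).trans (map_zero _).symm))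
    exact Subtype.ext (Units.ext (sub_eq_zero.mp hz))
  obtain ⟨r, rfl⟩ : ∃ r, s = 2 * r := ⟨s / 2, by obtain ⟨r, rfl⟩ := heven; omega⟩
  rw [show 2 * r / 2 = r by omega] at *
  rw [H2.card_sp, H2.card_sp] at e
  simp only [Fin.prod_univ_eq_prod_range (fun i => Nat.card F ^ (2 * (i + 1)) - 1)]
  have hq : 0 < Nat.card F := Nat.card_pos
  have hA : 2 * m * (2 * r) - (3 * (2 * r) ^ 2 - 2 * r) / 2 =
      2 * m * (2 * r) - (3 * (2 * r) ^ 2 + 2 * r) / 2 + 2 * r := by
    have e0 : 3 * (2 * r) ^ 2 = 12 * (r * r) := by ring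
    have e4 : 2 * m * (2 * r) = 4 * (m * r) := by ring
    have e8 : 2 * r * r ≤ m * r := Nat.mul_le_mul_right _ hle
    have e9 : 2 * r * r = 2 * (r * r) := by ring
    have e10 : r ≤ r * r := Nat.le_mul_self r
    omega
  rw [hA] at e
  by_cases hsm : 2 * r = m
  · rw [if_pos hsm] at e ⊢
    rw [mul_one] at e ⊢
    rw [show m - 2 * r = 0 by omega, Finset.range_zero, Finset.prod_empty, mul_one, pow_add, hsm] at e
    rw [hsm]
    refine Nat.eq_of_mul_eq_mul_right (pow_pos hq m) (e.trans ?_)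
    ring
  · rw [if_neg hsm] at e ⊢
    obtain ⟨k, hk⟩ : ∃ k, m - 2 * r = k + 1 := ⟨m - 2 * r - 1, by omega⟩
    rw [hk] at e ⊢
    rw [Nat.add_sub_cancel, Finset.prod_range_succ] at *
    refine Nat.eq_of_mul_eq_mul_right (show 0 < Nat.card F ^ m * (Nat.card F ^ (k + 1) + 1) by positivity) (e.trans ?_)
    have hdiff : Nat.card F ^ (2 * (k + 1)) - 1 = (Nat.card F ^ (k + 1) - 1) * (Nat.card F ^ (k + 1) + 1) := by
      rw [two_mul, pow_add, mul_comm (_ - 1), ← Nat.sq_sub_sq, one_pow, pow_two]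
    rw [hdiff]
    obtain rfl : m = 2 * r + (k + 1) := by omega
    simp only [pow_add, pow_two, mul_add, add_mul, mul_one, one_mul]
    ring

end Cfsg.Agent.S2684
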