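import Cfsg.Statements.S2685
import Cfsg.Agent.H65.OrthPlusCent

set_option autoImplicit false
open Cfsg

namespace Cfsg.Agent.S2685

/-- For the hyperbolic form Q = Σ x_j y_j on F^(2m) over a finite field with q elements, q even (excluding m = 2 over the field of two elements), and an involution x of the orthogonal group with s = rank(x − 1) even and Q not vanishing on the image of x − 1 (f(v, xv) ≠ 0 for some v, where f(u, w) = Q(u + w) − Q(u) − Q(w) is the bilinear form of Q; type c_s, which lies in Ω): its centraliser in Ω (the commutator subgroup of the orthogonal group) has order q^(2m(s−1) − (3s² − 5s)/2 − 1) · |Sp_(s−2)(q)| · |Sp_(2m−2s)(q)|. -/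
theorem result {F : Type*} [Field F] [Fintype F] [CharP F 2] {q : ℕ} (hF : Fintype.card F = q) {m s : ℕ} (h : Fintype.card F ≠ 2 ∨ m ≠ 2) (x : ↥(Cfsg.isometryGroup F (Cfsg.quadFormPlus m F))) (hx : x ^ 2 = 1) (hs : (((x : Matrix.GeneralLinearGroup (Fin m ⊕ Fin m) F) : Matrix (Fin m ⊕ Fin m) (Fin m ⊕ Fin m) F) - 1).rank = s) (heven : Even s) (hna : ∃ v : Fin m ⊕ Fin m → F, Cfsg.quadFormPlus m F ((((x : Matrix.GeneralLinearGroup (Fin m ⊕ Fin m) F) : Matrix (Fin m ⊕ Fin m) (Fin m ⊕ Fin m) F) - 1).mulVec v) ≠ 0) : Nat.card {g : ↥(Cfsg.Omega F (Cfsg.quadFormPlus m F)) // (g : ↥(Cfsg.isometryGroup F (Cfsg.quadFormPlus m F))) * x = x * (g : ↥(Cfsg.isometryGroup F (Cfsg.quadFormPlus m F)))} = q ^ (2 * m * (s - 1) - (3 * s ^ 2 - 5 * s) / 2 - 1) * ((q : ℕ) ^ (((s - 2) / 2) ^ 2) * ∏ i : Fin ((s - 2) / 2), (q ^ (2 * ((i : ℕ) + 1)) - 1)) * ((q : ℕ) ^ ((m - s) ^ 2) * ∏ i : Fin (m - s), (q ^ (2 * ((i : ℕ) + 1)) - 1)) := by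
  obtain rfl : q = Nat.card F := by rw [Nat.card_eq_fintype_card, hF]
  have hna' : ¬ ∀ v, Cfsg.sympForm m F v (((H65.plusToSp x) : Matrix (Fin m ⊕ Fin m) (Fin m ⊕ Fin m) F).mulVec v) = 0 := fun ha => by
    obtain ⟨v, hv⟩ := hna
    apply hv
    have h1 := H65.map_dLin_char_two (H5.isoEquiv _ (H4.coe_qPlus m) x) v
    rw [H5.isoEquiv_apply, H65.polar_qPlus_eq_sympForm, H65.dLin_isoEquiv, Matrix.toLin'_apply, H4.coe_qPlus] at h1
    exact h1.trans (ha v)
  have hle := (H65.card_centralizer_nonalt _ (H65.plusToSp_sq hx) (show _ = s from hs) hna').1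
  have e := H65.plus_cent_nonalt h x hx hs hna'
  have hpos : 0 < s := by
    by_contra h0
    obtain rfl : s = 0 := by omega
    obtain ⟨v, hv⟩ := hna
    apply hv
    have hz : ((x : Matrix.GeneralLinearGroup (Fin m ⊕ Fin m) F) : Matrix (Fin m ⊕ Fin m) (Fin m ⊕ Fin m) F) - 1 = 0 :=
      Matrix.toLin'.injective ((LinearMap.range_eq_bot.mp (Submodule.finrank_eq_zero.mp hs)).trans (map_zero _).symm)
    rw [hz, Matrix.zero_mulVec]
    simp [Cfsg.quadFormPlus]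
  obtain ⟨k, rfl⟩ : ∃ k, s = 2 * k + 2 := by
    obtain ⟨r, rfl⟩ := heven
    exact ⟨r - 1, by omega⟩
  rw [show (2 * k + 2 - 2) / 2 = k by omega] at *
  rw [H65.onCount_even, H2.card_sp] at e
  simp only [Fin.prod_univ_eq_prod_range (fun i => Nat.card F ^ (2 * (i + 1)) - 1)]
  refine Nat.eq_of_mul_eq_mul_right (pow_pos (Nat.card_pos (α := F)) (2 * m - (2 * k + 2))) (e.trans ?_)
  have hexp : 2 * m * (2 * k + 2) - (3 * (2 * k + 2) ^ 2 - (2 * k + 2)) / 2 + (2 * k + 1) =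
      2 * m * (2 * k + 2 - 1) - (3 * (2 * k + 2) ^ 2 - 5 * (2 * k + 2)) / 2 - 1 + (2 * m - (2 * k + 2)) := by
    have e0 : 3 * (2 * k + 2) ^ 2 = 12 * (k * k) + 24 * k + 12 := by ring
    have e4 : 2 * m * (2 * k + 2) = 4 * (m * k) + 4 * m := by ring
    have e5 : 2 * m * (2 * k + 2 - 1) = 4 * (m * k) + 2 * m := by
      rw [show 2 * k + 2 - 1 = 2 * k + 1 by omega]; ring
    have e8 : (2 * k + 2) * k ≤ m * k := Nat.mul_le_mul_right _ hle
    have e9 : (2 * k + 2) * k = 2 * (k * k) + 2 * k := by ring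
    omega
  rw [← mul_assoc (Nat.card F ^ _) (Nat.card F ^ (2 * k + 1)), ← pow_add, hexp, pow_add]
  ring

end Cfsg.Agent.S2685
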