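import Cfsg.Statements.S2693
import Cfsg.Agent.H2.AutPSp.Main

set_option autoImplicit false
open Cfsg

namespace Cfsg.Agent.S2693

/-- The automorphism group of a simple projective symplectic group PSp_{2m}(F) over a finite field of characteristic p, with m ≥ 2 and (2m, p) ≠ (4, 2), is generated by the automorphisms induced by the semilinear maps v ↦ g σ(v) with g conformal symplectic and σ an automorphism of F (the image of the projective semilinear symplectic group). For (2m, p) = (4, 2) the statement fails: a duality of the underlying polar space gives a further automorphism. -/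
theorem result {F : Type*} [Field F] [Fintype F] {p : ℕ} [Fact p.Prime] [CharP F p] {m : ℕ} (hm : 2 ≤ m) (h4 : m = 2 → p ≠ 2) :
    Cfsg.gammaPSp m F = ⊤ := by
  have h22 : m = 2 → (2 : F) ≠ 0 := fun hm2 h0 => h4 hm2 (by
    have h1 : ((2 : ℕ) : F) = 0 := by exact_mod_cast h0
    exact (Nat.prime_dvd_prime_iff_eq (Fact.out) Nat.prime_two).mp ((CharP.cast_eq_zero_iff F p 2).mp h1))
  refine eq_top_iff.mpr fun α _ => ?_
  obtain ⟨g, hg, σ, rfl⟩ := Cfsg.Agent.H2.AutPSp.exists_semilinear hm h22 α
  exact Subgroup.subset_closure ⟨g, σ, hg, Cfsg.Agent.H2.AutPSp.semiAut_induced g hg σ⟩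

end Cfsg.Agent.S2693
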