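import Cfsg.Statements.S2699
import Cfsg.Agent.H62.GraphPSL.Main

set_option autoImplicit false
open Cfsg

namespace Cfsg.Agent.S2699

/-- Let T = PSL_n(F) over the field with p^f elements with n ≥ 3 odd, n = 2m + 1, and G = Inndiag(T) the image of PGL_n(F). Every involutory graph automorphism γ of T (an inner-diagonal automorphism followed by inverse-transpose, of order 2) has centralizer C_G(γ) isomorphic to the projective conformal orthogonal group of the form x₀² + Σ xᵢ yᵢ in dimension n (for q even this group is isomorphic to Sp_{n−1}(q)), and any two involutory graph automorphisms are G-conjugate. -/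
theorem result {F : Type*} [Field F] [Fintype F] {p f : ℕ} [Fact p.Prime] (hF : Fintype.card F = p ^ f) (hf : 1 ≤ f) {n : ℕ} (hn : 3 ≤ n) {m : ℕ} (hnm : n = 2 * m + 1) (γ γ' : MulAut (Matrix.ProjectiveSpecialLinearGroup (Fin n) F)) (hγ : Cfsg.IsGraphAutClassPSL γ) (hγ2 : orderOf γ = 2) (hγ' : Cfsg.IsGraphAutClassPSL γ') (hγ'2 : orderOf γ' = 2) :
    Nonempty (↥(Cfsg.inndiagPSL n F ⊓ Subgroup.centralizer {γ}) ≃* Cfsg.PGO F (Cfsg.quadFormOdd m F)) ∧ Cfsg.IsConjUnder (Cfsg.inndiagPSL n F) γ γ' := by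
  exact H62.GraphPSL.odd_dim_result hn hnm hγ hγ2 hγ' hγ'2

end Cfsg.Agent.S2699
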