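import Cfsg.Statements.S2700
import Cfsg.Agent.H62.GraphPSL.Main

set_option autoImplicit false
open Cfsg

namespace Cfsg.Agent.S2700

/-- Let T = PSL_n(F) over a finite field of odd order with n = 2m ≥ 4 even, and G = Inndiag(T) the image of PGL_n(F). The involutory graph automorphisms of T fall into exactly three G-classes, with representatives γ₁, γ₂, γ₃ whose centralizers in G are isomorphic respectively to the projective conformal symplectic group PGSp_n(F), the projective conformal orthogonal group of the plus-type form Σ xᵢ yᵢ, and that of a minus-type form Σ xᵢ yᵢ + z₁² + a z₁ z₂ + b z₂² (anisotropic binary part) in dimension n. -/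
theorem result {F : Type*} [Field F] [Fintype F] (hodd : Odd (Fintype.card F)) {n m : ℕ} (hm : 2 ≤ m) (hnm : n = 2 * m) :
    ∃ (γ₁ γ₂ γ₃ : MulAut (Matrix.ProjectiveSpecialLinearGroup (Fin n) F)) (a b : F), (∀ z₁ z₂ : F, z₁ ^ 2 + a * z₁ * z₂ + b * z₂ ^ 2 = 0 → z₁ = 0 ∧ z₂ = 0) ∧ Cfsg.IsGraphAutClassPSL γ₁ ∧ orderOf γ₁ = 2 ∧ Cfsg.IsGraphAutClassPSL γ₂ ∧ orderOf γ₂ = 2 ∧ Cfsg.IsGraphAutClassPSL γ₃ ∧ orderOf γ₃ = 2 ∧ ¬ Cfsg.IsConjUnder (Cfsg.inndiagPSL n F) γ₁ γ₂ ∧ ¬ Cfsg.IsConjUnder (Cfsg.inndiagPSL n F) γ₁ γ₃ ∧ ¬ Cfsg.IsConjUnder (Cfsg.inndiagPSL n F) γ₂ γ₃ ∧ (∀ γ : MulAut (Matrix.ProjectiveSpecialLinearGroup (Fin n) F), Cfsg.IsGraphAutClassPSL γ → orderOf γ = 2 → Cfsg.IsConjUnder (Cfsg.inndiagPSL n F) γ₁ γ ∨ Cfsg.IsConjUnder (Cfsg.inndiagPSL n F) γ₂ γ ∨ Cfsg.IsConjUnder (Cfsg.inndiagPSL n F) γ₃ γ) ∧ Nonempty (↥(Cfsg.inndiagPSL n F ⊓ Subgroup.centralizer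 {γ₁}) ≃* Cfsg.PGSp m F) ∧ Nonempty (↥(Cfsg.inndiagPSL n F ⊓ Subgroup.centralizer {γ₂}) ≃* Cfsg.PGO F (Cfsg.quadFormPlus m F)) ∧ Nonempty (↥(Cfsg.inndiagPSL n F ⊓ Subgroup.centralizer {γ₃}) ≃* Cfsg.PGO F (Cfsg.quadFormMinus (m - 1) F a b)) := by
  exact H62.GraphPSL.even_odd_q_result hodd hm hnm

end Cfsg.Agent.S2700
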