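import Cfsg.Statements.S2701
import Cfsg.Agent.H62.GraphPSL.Main

set_option autoImplicit false
open Cfsg

namespace Cfsg.Agent.S2701

/-- Let T = PSL_n(F) over a finite field of characteristic 2 with n = 2m ≥ 4 even, and G = Inndiag(T) the image of PGL_n(F). The involutory graph automorphisms of T fall into exactly two G-classes, with representatives γ₁ and γ₃ whose centralizers in G are isomorphic respectively to the symplectic group Sp_n(F) and to the centralizer in Sp_n(F) of a symplectic transvection. -/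
theorem result {F : Type*} [Field F] [Fintype F] [CharP F 2] {n m : ℕ} (hm : 2 ≤ m) (hnm : n = 2 * m) :
    ∃ (γ₁ γ₃ : MulAut (Matrix.ProjectiveSpecialLinearGroup (Fin n) F)) (t : ↥(Matrix.symplecticGroup (Fin m) F)), Cfsg.IsTransvection (t : Matrix (Fin m ⊕ Fin m) (Fin m ⊕ Fin m) F) ∧ Cfsg.IsGraphAutClassPSL γ₁ ∧ orderOf γ₁ = 2 ∧ Cfsg.IsGraphAutClassPSL γ₃ ∧ orderOf γ₃ = 2 ∧ ¬ Cfsg.IsConjUnder (Cfsg.inndiagPSL n F) γ₁ γ₃ ∧ (∀ γ : MulAut (Matrix.ProjectiveSpecialLinearGroup (Fin n) F), Cfsg.IsGraphAutClassPSL γ → orderOf γ = 2 → Cfsg.IsConjUnder (Cfsg.inndiagPSL n F) γ₁ γ ∨ Cfsg.IsConjUnder (Cfsg.inndiagPSL n F) γ₃ γ) ∧ Nonempty (↥(Cfsg.inndiagPSL n F ⊓ Subgroup.centralizer {γ₁}) ≃* ↥(Matrix.symplecticGroup (Fin m) F)) ∧ Nonempty (↥(Cfsg.inndiagPSL n F ⊓ Subgroup.centralizer {γ₃}) ≃* ↥(Subgroup.centralizer ({t} : Set ↥(Matrix.symplecticGroup (Fin m) F)))) := by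
  exact H62.GraphPSL.even_char_two_result hm hnm

end Cfsg.Agent.S2701
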