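import Cfsg.Statements.S2717
import Cfsg.Agent.H4.Coset.PlusGraph

set_option autoImplicit false
open Cfsg

namespace Cfsg.Agent.S2717

/-- Let T = PΩ⁺_{2m}(F) with m ≥ 5 (dimension 2m ≠ 8) and |F| = p^f, G = Inndiag(T), and x an involutory graph-field automorphism of T. Then f is even; any two involutory graph-field automorphisms of T are G-conjugate; C_G(x) is isomorphic to Inndiag(PΩ⁻_{2m}(F₀)) for a field F₀ with p^(f/2) elements (some anisotropic binary part over F₀); and the G-class of x is the union of exactly c T-classes with c = 1 if p = 2, c = 4 if p is odd, m is odd and p^(f/2) ≡ 1 (mod 4), and c = 2 otherwise. -/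
theorem result {F : Type*} [Field F] [Fintype F] {p f : ℕ} [Fact p.Prime] (hF : Fintype.card F = p ^ f) (hf : 1 ≤ f) {m : ℕ} (hm : 5 ≤ m) (x : MulAut (Cfsg.POmega F (Cfsg.quadFormPlus m F))) (hx : Cfsg.IsGraphFieldAutClassPOmegaPlus m x) (hx2 : orderOf x = 2) (F₀ : Type*) [Field F₀] [Fintype F₀] (hF₀ : Fintype.card F₀ = p ^ (f / 2)) :
    Even f ∧ (∀ y : MulAut (Cfsg.POmega F (Cfsg.quadFormPlus m F)), Cfsg.IsGraphFieldAutClassPOmegaPlus m y → orderOf y = 2 → Cfsg.IsConjUnder (Cfsg.inndiagPOmegaPlus m F) x y) ∧ (∃ a₀ b₀ : F₀, (∀ z₁ z₂ : F₀, z₁ ^ 2 + a₀ * z₁ * z₂ + b₀ * z₂ ^ 2 = 0 → z₁ = 0 ∧ z₂ = 0) ∧ Nonempty (↥(Cfsg.inndiagPOmegaPlus m F ⊓ Subgroup.centralizer {x}) ≃* ↥(Cfsg.inndiagPOmegaMinus (m - 1) F₀ a₀ b₀))) ∧ (p = 2 → Cfsg.splitClassCount (Cfsg.inndiagPOmegaPlus m F) (Cfsg.Inn (Cfsg.POmega F (Cfsg.quadFormPlus m F))) x = 1) ∧ ((p ≠ 2 ∧ Odd m ∧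 p ^ (f / 2) % 4 = 1) → Cfsg.splitClassCount (Cfsg.inndiagPOmegaPlus m F) (Cfsg.Inn (Cfsg.POmega F (Cfsg.quadFormPlus m F))) x = 4) ∧ ((p ≠ 2 ∧ ¬ (Odd m ∧ p ^ (f / 2) % 4 = 1)) → Cfsg.splitClassCount (Cfsg.inndiagPOmegaPlus m F) (Cfsg.Inn (Cfsg.POmega F (Cfsg.quadFormPlus m F))) x = 2) := by
  obtain ⟨k, rfl⟩ : ∃ k, m = k + 1 := ⟨m - 1, by omega⟩
  exact Cfsg.Agent.H4.plus_graphField hF hf (by omega) hx hx2 F₀ hF₀

end Cfsg.Agent.S2717
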