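import Cfsg.Statements.S2718
import Cfsg.Agent.H62.GraphSplit

set_option autoImplicit false
open Cfsg

namespace Cfsg.Agent.S2718

/-- Let T = PΩ⁺_{2m}(F) with m ≥ 4 and |F| = q odd, G = Inndiag(T), and γ an involutory graph automorphism of T induced by a similarity (one interchanging the two classes of maximal totally singular subspaces). Then the G-class of γ is either a single T-class or the union of exactly two T-classes, and it is the union of two unless m is odd and q ≡ 3 (mod 4). -/
theorem result {F : Type*} [Field F] [Fintype F] (hodd : Odd (Fintype.card F)) {m : ℕ} (hm : 4 ≤ m) (γ : MulAut (Cfsg.POmega F (Cfsg.quadFormPlus m F))) (hγ : Cfsg.IsSimilarityGraphAutPOmegaPlus m γ) (hγ2 : orderOf γ = 2) :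
    (Cfsg.splitClassCount (Cfsg.inndiagPOmegaPlus m F) (Cfsg.Inn (Cfsg.POmega F (Cfsg.quadFormPlus m F))) γ = 1 ∨ Cfsg.splitClassCount (Cfsg.inndiagPOmegaPlus m F) (Cfsg.Inn (Cfsg.POmega F (Cfsg.quadFormPlus m F))) γ = 2) ∧ (¬ (Odd m ∧ Fintype.card F % 4 = 3) → Cfsg.splitClassCount (Cfsg.inndiagPOmegaPlus m F) (Cfsg.Inn (Cfsg.POmega F (Cfsg.quadFormPlus m F))) γ = 2) := by
  exact Cfsg.Agent.H62.GraphSplit.split_plus hodd hm γ hγ hγ2

end Cfsg.Agent.S2718
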