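import Cfsg.Statements.S2720
import Cfsg.Agent.H62.SemisimpleFusion

set_option autoImplicit false
open Cfsg

namespace Cfsg.Agent.S2720

/-- Let T = PΩ⁺_{2m}(F) (m ≥ 4, F finite of odd characteristic p), G = Inndiag(T), and let x be an automorphism of T induced by a similarity of the form (an element of the image G̃ of the conformal orthogonal group) of odd prime order r ≠ p. Then the T-class, the PSO-class and the G-class of x coincide (conjugacy under inner automorphisms, under the image of the special orthogonal group, and under G), and the PO-class of x coincides with its G̃-class. (In characteristic 2 the first equality fails: there the special orthogonal group is the full orthogonal group and some such classes split.) -/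
theorem result {F : Type*} [Field F] [Fintype F] {p : ℕ} [Fact p.Prime] [CharP F p] (hp : p ≠ 2) {m : ℕ} (hm : 4 ≤ m) (x : MulAut (Cfsg.POmega F (Cfsg.quadFormPlus m F))) (hx : x ∈ Cfsg.pgoAut F (Cfsg.quadFormPlus m F)) {r : ℕ} (hr : r.Prime) (hro : Odd r) (hrp : r ≠ p) (hxr : orderOf x = r) :
    (∀ y : MulAut (Cfsg.POmega F (Cfsg.quadFormPlus m F)), (Cfsg.IsConjUnder (Cfsg.Inn (Cfsg.POmega F (Cfsg.quadFormPlus m F))) x y ↔ Cfsg.IsConjUnder (Cfsg.inndiagPOmegaPlus m F) x y) ∧ (Cfsg.IsConjUnder (Cfsg.psoAut F (Cfsg.quadFormPlus m F)) x y ↔ Cfsg.IsConjUnder (Cfsg.inndiagPOmegaPlus m F) x y)) ∧ (∀ y : MulAut (Cfsg.POmega F (Cfsg.quadFormPlus m F)), Cfsg.IsConjUnder (Cfsg.poAut F (Cfsg.quadFormPlus m F)) x y ↔ Cfsg.IsConjUnder (Cfsg.pgoAut F (Cfsg.quadFormPlus m F)) x y) := by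
  haveI : Finite (Fin m ⊕ Fin m → F) := Pi.finite
  have h2 : (2 : F) ≠ 0 := by
    intro h
    haveI := CharTwo.of_one_ne_zero_of_two_eq_zero (R := F) one_ne_zero h
    exact hp (CharP.eq F ‹CharP F p› ‹CharP F 2›)
  have hrF : (r : F) ≠ 0 := fun h =>
    hrp (((Nat.prime_dvd_prime_iff_eq Fact.out hr).1 ((CharP.cast_eq_zero_iff F p r).1 h)).symm)
  rw [H62.Conformal.inndiag_plus_eq' (show 3 ≤ m by omega)]
  exact H62.SemiComm.fusion (H4.coe_qPlus m) _ h2 H62.Conformal.hmult_plus hx hro hr.ne_one hrF hxr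

end Cfsg.Agent.S2720
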