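import Cfsg.Statements.S2723
import Cfsg.Agent.H62.ConformalPlusMinus

set_option autoImplicit false
open Cfsg

namespace Cfsg.Agent.S2723

/-- Let T = PΩ⁺_{2m}(F) with m ≥ 4 and |F| = q odd. The image of the special orthogonal group in Aut(T) contains the inner automorphism group T with index 1 (they coincide) when m is odd and q ≡ 3 (mod 4), and with index 2 otherwise (the index is 2 exactly when the discriminant of the form is a square). -/
theorem result {F : Type*} [Field F] [Fintype F] (hodd : Odd (Fintype.card F)) {m : ℕ} (hm : 4 ≤ m) :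
    ((Odd m ∧ Fintype.card F % 4 = 3) → (Cfsg.Inn (Cfsg.POmega F (Cfsg.quadFormPlus m F))).relIndex (Cfsg.psoAut F (Cfsg.quadFormPlus m F)) = 1) ∧ (¬ (Odd m ∧ Fintype.card F % 4 = 3) → (Cfsg.Inn (Cfsg.POmega F (Cfsg.quadFormPlus m F))).relIndex (Cfsg.psoAut F (Cfsg.quadFormPlus m F)) = 2) := by
  have hn := Cfsg.Agent.H62.Conformal.negOrth_plus_iff (m := m) (Cfsg.Agent.H62.Conformal.two_ne_zero_of_odd_card hodd) (by omega)
  refine ⟨fun h => ?_, fun h => Cfsg.Agent.H62.Conformal.relIndex_inn_pso (Cfsg.Agent.H4.coe_qPlus (F := F) m) (Cfsg.Agent.H4.evenForm_qPlus (show 3 ≤ m by omega)) (Cfsg.Agent.H62.Conformal.two_ne_zero_of_odd_card hodd) (hn.2 h)⟩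
  rw [Cfsg.Agent.H62.Conformal.pso_eq_inn (Cfsg.Agent.H4.coe_qPlus (F := F) m) (Cfsg.Agent.H4.evenForm_qPlus (show 3 ≤ m by omega)) (Cfsg.Agent.H62.Conformal.two_ne_zero_of_odd_card hodd) (fun h' => hn.1 h' h), Subgroup.relIndex_self]

end Cfsg.Agent.S2723
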