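import Cfsg.Statements.S2725
import Cfsg.Agent.H62.ConformalPlusMinus

set_option autoImplicit false
open Cfsg

namespace Cfsg.Agent.S2725

/-- Let T = PΩ⁺_{2m}(F) with m ≥ 4 and |F| = q odd. The inner-diagonal group G = Inndiag(T) (image of the class-preserving similarities) taken modulo the inner automorphism group T is cyclic of order 2 when m is odd and q ≡ 3 (mod 4), cyclic of order 4 when m is odd and q ≡ 1 (mod 4), and elementary abelian of order 4 when m is even. -/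
theorem result {F : Type*} [Field F] [Fintype F] (hodd : Odd (Fintype.card F)) {m : ℕ} (hm : 4 ≤ m) :
    ((Odd m ∧ Fintype.card F % 4 = 3) → (∃ φ : ↥(Cfsg.inndiagPOmegaPlus m F) →* Multiplicative (ZMod 2), Function.Surjective φ ∧ φ.ker = (Cfsg.Inn (Cfsg.POmega F (Cfsg.quadFormPlus m F))).subgroupOf (Cfsg.inndiagPOmegaPlus m F))) ∧ ((Odd m ∧ Fintype.card F % 4 = 1) → (∃ φ : ↥(Cfsg.inndiagPOmegaPlus m F) →* Multiplicative (ZMod 4), Function.Surjective φ ∧ φ.ker = (Cfsg.Inn (Cfsg.POmega F (Cfsg.quadFormPlus m F))).subgroupOf (Cfsg.inndiagPOmegaPlus m F))) ∧ (Even m → (∃ φ : ↥(Cfsg.inndiagPOmegaPlus m F) →* Multiplicative (ZMod 2 × ZMod 2), Function.Surjective φ ∧ φ.ker = (Cfsg.Inn (Cfsg.POmega F (Cfsg.quadFormPlus m F))).subgroupOf (Cfsg.inndiagPOmegaPlus m F))) := by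
  have hn := Cfsg.Agent.H62.Conformal.negOrth_plus_iff (m := m) (Cfsg.Agent.H62.Conformal.two_ne_zero_of_odd_card hodd) (by omega)
  obtain ⟨d, k, s, hd, hdm, hk, hs⟩ := Cfsg.Agent.H62.Conformal.plus_square_data (F := F) (m := m) (Cfsg.Agent.H62.Conformal.two_ne_zero_of_odd_card hodd) (by omega)
  rw [Cfsg.Agent.H62.Conformal.inndiag_plus_eq' (show 3 ≤ m by omega)]
  refine ⟨fun h => Cfsg.Agent.H62.Conformal.proper_mod_inn_two (Cfsg.Agent.H4.coe_qPlus (F := F) m) (Cfsg.Agent.H4.evenForm_qPlus (show 3 ≤ m by omega)) (Cfsg.Agent.H62.Conformal.two_ne_zero_of_odd_card hodd) Cfsg.Agent.H62.Conformal.hmult_plus (fun h' => hn.1 h' h),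
    fun h => ?_, fun h => ?_⟩
  · exact (Cfsg.Agent.H62.Conformal.proper_mod_inn_four (Cfsg.Agent.H4.coe_qPlus (F := F) m) (Cfsg.Agent.H4.evenForm_qPlus (show 3 ≤ m by omega)) (Cfsg.Agent.H62.Conformal.two_ne_zero_of_odd_card hodd) Cfsg.Agent.H62.Conformal.hmult_plus (hn.2 fun h' => by omega) d hd hdm k s hk).1
      (by rw [hs, h.1.neg_one_pow])
  · exact (Cfsg.Agent.H62.Conformal.proper_mod_inn_four (Cfsg.Agent.H4.coe_qPlus (F := F) m) (Cfsg.Agent.H4.evenForm_qPlus (show 3 ≤ m by omega)) (Cfsg.Agent.H62.Conformal.two_ne_zero_of_odd_card hodd) Cfsg.Agent.H62.Conformal.hmult_plus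
      (hn.2 fun h' => (Nat.not_even_iff_odd.2 h'.1) h) d hd hdm k s hk).2
      (by rw [hs, h.neg_one_pow])

end Cfsg.Agent.S2725
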