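import Cfsg.Statements.S2726
import Cfsg.Agent.H62.ConformalPlusMinus

set_option autoImplicit false
open Cfsg

namespace Cfsg.Agent.S2726

/-- Let T = PΩ⁻_{2m+2}(F) with m ≥ 3 and |F| = q odd (form with anisotropic binary part). Inside Aut(T), the image G̃ of the conformal orthogonal group of the form modulo the image of the special orthogonal group is elementary abelian of order 4. -/
theorem result {F : Type*} [Field F] [Fintype F] (hodd : Odd (Fintype.card F)) {m : ℕ} (hm : 3 ≤ m) (a b : F) (hab : (∀ z₁ z₂ : F, z₁ ^ 2 + a * z₁ * z₂ + b * z₂ ^ 2 = 0 → z₁ = 0 ∧ z₂ = 0)) :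
    (∃ φ : ↥(Cfsg.pgoAut F (Cfsg.quadFormMinus m F a b)) →* Multiplicative (ZMod 2 × ZMod 2), Function.Surjective φ ∧ φ.ker = (Cfsg.psoAut F (Cfsg.quadFormMinus m F a b)).subgroupOf (Cfsg.pgoAut F (Cfsg.quadFormMinus m F a b))) := by
  exact (Cfsg.Agent.H62.Conformal.pgo_mod_pso (Cfsg.Agent.H4.coe_qMinus (F := F) m a b) (Cfsg.Agent.H4.evenForm_qMinus (show 2 ≤ m by omega) (Cfsg.Agent.H4.disc_ne_zero hab)) (Cfsg.Agent.H62.Conformal.two_ne_zero_of_odd_card hodd) (Cfsg.Agent.H62.Conformal.hmult_minus hab)).1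

end Cfsg.Agent.S2726
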