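import Cfsg.Statements.S2734
import Cfsg.Agent.H64.Triality.Main

set_option autoImplicit false
open Cfsg

namespace Cfsg.Agent.S2734

/-- In the Chevalley group of type D₄ over a finite field F (the matrix group generated by the root elements), a graph automorphism attached to a symmetry π of the Dynkin diagram (sending each fundamental root element x_p(t) to x_{π(p)}(t) and each x_{−p}(t) to x_{−π(p)}(t)) that has order 3 — a standard triality graph automorphism, π being a 3-cycle of the three outer nodes — has fixed-point subgroup isomorphic to the Chevalley group of type G₂ over F. -/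
theorem result {F : Type*} [Field F] [Fintype F] (τ : MulAut ↥(Cfsg.Lie.chevD4.group F)) (hτ : Cfsg.Lie.chevD4.IsGraphAut τ) (hτ3 : orderOf τ = 3) :
    Nonempty (↥(MonoidHom.eqLocus τ.toMonoidHom (MonoidHom.id ↥(Cfsg.Lie.chevD4.group F))) ≃* ↥(Cfsg.Lie.chevG2.group F)) := by
  exact Cfsg.Agent.H64.Triality.triality_centralizer τ hτ hτ3

end Cfsg.Agent.S2734
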