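import Cfsg.Statements.S2738
import Cfsg.Agent.H70.SL34
-- import your own Cfsg.Agent.* helpers here

set_option autoImplicit false
open Cfsg

namespace Cfsg.Agent.S2738

/-- The special linear group SL(3, 4) has centre of order 3 and does not split over it: no subgroup is a complement to the centre (so SL(3, 4) is a non-split central extension of PSL(3, 4) by a group of order 3). -/
theorem result (F : Type*) [Field F] [Fintype F] (hF : Fintype.card F = 4) : Nat.card ↥(Subgroup.center (Matrix.SpecialLinearGroup (Fin 3) F)) = 3 ∧ ¬ ∃ K : Subgroup (Matrix.SpecialLinearGroup (Fin 3) F), Subgroup.IsComplement' (Subgroup.center (Matrix.SpecialLinearGroup (Fin 3) F)) K := by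
  exact ⟨Cfsg.Agent.H70.center_sl34 hF, Cfsg.Agent.H70.sl34_nonsplit hF⟩

end Cfsg.Agent.S2738
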