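import Cfsg.Statements.S2751
import Cfsg.Agent.H73.GoldMain
import Cfsg.Agent.H19.Cores

set_option autoImplicit false
open Cfsg Cfsg.Agent
open scoped Pointwise commutatorElement

namespace Cfsg.Agent.S2751

/-- Goldschmidt's bound for amalgams of index (3, 3): let M₁ and M₂ be finite subgroups of a group G such that M₁ ⊓ M₂ is a Sylow 2-subgroup of both M₁ and M₂, each quotient Mᵢ / O₂(Mᵢ) is isomorphic to the symmetric group of degree 3, and no nontrivial subgroup of M₁ ⊓ M₂ is normal in both M₁ and M₂. Then M₁ ⊓ M₂ has order at most 2^7. -/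
theorem result {G : Type*} [Group G] (M₁ M₂ : Subgroup G) [Finite M₁] [Finite M₂] (ha₁ : ∃ P : Sylow 2 M₁, (P : Subgroup M₁) = (M₁ ⊓ M₂).subgroupOf M₁) (ha₂ : ∃ P : Sylow 2 M₂, (P : Subgroup M₂) = (M₁ ⊓ M₂).subgroupOf M₂) (hb₁ : Nonempty (M₁ ⧸ Cfsg.pCore 2 M₁ ≃* Equiv.Perm (Fin 3))) (hb₂ : Nonempty (M₂ ⧸ Cfsg.pCore 2 M₂ ≃* Equiv.Perm (Fin 3))) (hc : ∀ N : Subgroup G, N ≤ M₁ ⊓ M₂ → (N.subgroupOf M₁).Normal → (N.subgroupOf M₂).Normal → N = ⊥) : Nat.card ↥(M₁ ⊓ M₂) ≤ 2 ^ 7 := by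
  haveI : Fact (Nat.Prime 2) := ⟨Nat.prime_two⟩
  set T := M₁ ⊓ M₂ with hT
  have hT1 : T ≤ M₁ := inf_le_left
  have hT2 : T ≤ M₂ := inf_le_right
  haveI : Finite ↥T := Finite.of_injective _ (Subgroup.inclusion_injective hT1)
  have facts : ∀ (P : Subgroup G) [Finite ↥P], T ≤ P →
      (∃ S : Sylow 2 ↥P, (S : Subgroup ↥P) = T.subgroupOf P) →
      Nonempty (↥P ⧸ Cfsg.pCore 2 ↥P ≃* Equiv.Perm (Fin 3)) →
      Nat.card P = 3 * Nat.card T ∧ Nat.card T = 2 * Nat.card (Cfsg.pCore 2 ↥P) ∧ IsPGroup 2 T := by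
    intro P _ hTP hS he
    haveI := H19.pCore_normal 2 ↥P
    obtain ⟨S, hS⟩ := hS
    obtain ⟨e⟩ := he
    have hq : Nat.card (↥P ⧸ Cfsg.pCore 2 ↥P) = 6 := by
      rw [Nat.card_congr e.toEquiv, Nat.card_perm, Nat.card_eq_fintype_card, Fintype.card_fin]
      rfl
    have hPc : Nat.card P = 6 * Nat.card (Cfsg.pCore 2 ↥P) := by
      rw [(Cfsg.pCore 2 ↥P).card_eq_card_quotient_mul_card_subgroup, hq]
    have hT2 : IsPGroup 2 T :=
      (S.isPGroup'.of_equiv ((MulEquiv.subgroupCongr hS).trans (Subgroup.subgroupOfEquivOfLe hTP)))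
    obtain ⟨k, hk⟩ := ((H19.pCore_isPGroup 2 (G := ↥P))).exists_card_eq
    have hTc : Nat.card T = 2 ^ (k + 1) := by
      rw [← Nat.card_congr (Subgroup.subgroupOfEquivOfLe hTP).toEquiv, ← hS, Sylow.card_eq_multiplicity,
        hPc, hk, show 6 * 2 ^ k = 3 * 2 ^ (k + 1) by ring,
        Nat.factorization_mul (by norm_num) (by positivity)]
      simp [Nat.Prime.factorization_pow, Nat.prime_two, Nat.prime_three.factorization]
    refine ⟨?_, ?_, hT2⟩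
    · rw [hPc, hk, hTc]; ring
    · rw [hk, hTc]; ring
  obtain ⟨c1, q1, t2⟩ := facts M₁ hT1 ha₁ hb₁
  obtain ⟨c2, q2, -⟩ := facts M₂ hT2 ha₂ hb₂
  let P₁ : Subgroup ↥(M₁ ⊔ M₂) := M₁.subgroupOf (M₁ ⊔ M₂)
  let P₂ : Subgroup ↥(M₁ ⊔ M₂) := M₂.subgroupOf (M₁ ⊔ M₂)
  let e1 : ↥P₁ ≃* ↥M₁ := Subgroup.subgroupOfEquivOfLe le_sup_left
  let e2 : ↥P₂ ≃* ↥M₂ := Subgroup.subgroupOfEquivOfLe le_sup_right
  haveI : Finite ↥P₁ := Finite.of_equiv _ e1.symm.toEquiv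
  haveI : Finite ↥P₂ := Finite.of_equiv _ e2.symm.toEquiv
  have hinf : P₁ ⊓ P₂ = T.subgroupOf (M₁ ⊔ M₂) := rfl
  have eT : ↥(P₁ ⊓ P₂ : Subgroup ↥(M₁ ⊔ M₂)) ≃* ↥T :=
    (MulEquiv.subgroupCongr hinf).trans (Subgroup.subgroupOfEquivOfLe (hT1.trans le_sup_left))
  have hcT := Nat.card_congr eT.toEquiv
  have hcore : ∀ (P : Subgroup ↥(M₁ ⊔ M₂)) (M : Subgroup G), (↥P ≃* ↥M) →
      Nat.card (Cfsg.pCoreOf 2 P) = Nat.card (Cfsg.pCore 2 ↥M) := fun P M e => by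
    rw [Cfsg.pCoreOf, Subgroup.card_map_of_injective P.subtype_injective, ← H72.pCore_map_equiv e 2,
      Subgroup.card_map_of_injective (f := e.toMonoidHom) e.injective]
  have := H73.GA.goldschmidt_bound P₁ P₂
    (by rw [← Subgroup.subgroupOf_sup le_sup_left le_sup_right, Subgroup.subgroupOf_self])
    (by rw [Nat.card_congr e1.toEquiv, hcT, c1]) (by rw [hcore P₁ M₁ e1, hcT, q1])
    (by rw [Nat.card_congr e2.toEquiv, hcT, c2]) (by rw [hcore P₂ M₂ e2, hcT, q2])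
    (t2.of_equiv eT.symm) ?_
  · rwa [hcT] at this
  intro N hN hn
  set N' := N.map (M₁ ⊔ M₂).subtype with hN'
  have hle : N' ≤ T := by
    rintro _ ⟨x, hx, rfl⟩
    exact hN hx
  have hnorm : ∀ M : Subgroup G, M ≤ M₁ ⊔ M₂ → (N'.subgroupOf M).Normal := fun M hM => by
    constructor
    rintro ⟨x, hxM⟩ ⟨n, hnN, hnx⟩ ⟨g, hgM⟩
    refine ⟨⟨g, hM hgM⟩ * n * ⟨g, hM hgM⟩⁻¹, hn.conj_mem n hnN _, ?_⟩
    simp only [Subgroup.subtype_apply, Subgroup.coe_mul, Subgroup.coe_inv] at hnx ⊢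
    rw [hnx]
  exact (Subgroup.map_eq_bot_iff_of_injective N (M₁ ⊔ M₂).subtype_injective).1
    (hc N' hle (hnorm M₁ le_sup_left) (hnorm M₂ le_sup_right))

end Cfsg.Agent.S2751
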