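import Cfsg.Statements.S2752
import Cfsg.Agent.H34.SuzOffender.Main

set_option autoImplicit false
universe u
open Cfsg

namespace Cfsg.Agent.S2752

/-- Let M be an elementary abelian 2-subgroup of a finite group L and G a subgroup of L acting faithfully on M by conjugation (G normalizes M and meets C(M) trivially). Assume O₂(G) = 1, the symmetric group of degree 3 is not involved in G, and every non-abelian composition factor of G is a Suzuki group Sz(2^(2n+1)) or a group PSL₂(3^(2n+1)). Then every elementary abelian 2-subgroup A of G satisfies |M / C_M(A)| ≥ |A|² and |[M, A]| ≥ |A|². -/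
theorem result {L : Type u} [Group L] [Finite L] (M G : Subgroup L) (hM : Cfsg.IsElementaryAbelian 2 M) (hGM : G ≤ Subgroup.normalizer (M : Set L)) (hf : G ⊓ Subgroup.centralizer (M : Set L) = ⊥) (ha : Cfsg.pCore 2 ↥G = ⊥) (hb : ¬ Cfsg.Involves (Equiv.Perm (Fin 3)) ↥G) (hc : Cfsg.IsCompositionKGroupWith Cfsg.IsSuzukiOrPSL2OddPowerThree ↥G) (A : Subgroup L) (hA : A ≤ G) (hAe : Cfsg.IsElementaryAbelian 2 A) : Nat.card A ^ 2 * Nat.card ↥(M ⊓ Subgroup.centralizer (A : Set L)) ≤ Nat.card M ∧ Nat.card A ^ 2 ≤ Nat.card ↥⁅M, A⁆ := by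
  haveI : IsMulCommutative M := hM.1
  letI : CommGroup M :=
    { (inferInstance : Group M) with mul_comm := fun a b => IsMulCommutative.is_comm.comm a b }
  have hmem : ∀ (g : G) (v : L), v ∈ M → (g : L) * v * (g : L)⁻¹ ∈ M := fun g v hv =>
    (Subgroup.mem_normalizer_iff.1 (hGM g.2) v).1 hv
  let φ : G →* MulAut M := MonoidHom.mk' (fun g =>
    { toFun := fun v => ⟨(g : L) * v * (g : L)⁻¹, hmem g v v.2⟩
      invFun := fun v => ⟨((g⁻¹ : G) : L) * v * ((g⁻¹ : G) : L)⁻¹, hmem g⁻¹ v v.2⟩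
      left_inv := fun v => Subtype.ext (by simp [mul_assoc])
      right_inv := fun v => Subtype.ext (by simp [mul_assoc])
      map_mul' := fun v w => Subtype.ext (by simp [mul_assoc]) }) fun g₁ g₂ => by
    apply MulEquiv.ext; intro v; exact Subtype.ext (by simp [mul_assoc])
  have hφ : Function.Injective φ := by
    rw [injective_iff_map_eq_one]
    intro g hg
    have hm : (g : L) ∈ G ⊓ Subgroup.centralizer (M : Set L) := ⟨g.2, Subgroup.mem_centralizer_iff.2 fun v hv => by
      have h := congrArg (fun ψ : MulAut M => ((ψ ⟨v, hv⟩ : M) : L)) hg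
      change (g : L) * v * (g : L)⁻¹ = v at h
      exact (mul_inv_eq_iff_eq_mul.1 h).symm⟩
    rw [hf, Subgroup.mem_bot] at hm
    exact Subtype.ext hm
  have hsq : ∀ {B : Subgroup L}, Cfsg.IsElementaryAbelian 2 B → ∀ b ∈ B, b * b = 1 := fun hB b hb => by
    rw [← pow_two]; exact hB.2 b hb
  obtain ⟨h1, h2⟩ := Cfsg.Agent.H34.Suz.offender_bound φ hφ (fun v => Subtype.ext (hsq hM v v.2)) ha hb hc
    (A.subgroupOf G) (fun a ha' => Subtype.ext (hsq hAe _ (Subgroup.mem_subgroupOf.1 ha')))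
  rw [Nat.card_congr (Subgroup.subgroupOfEquivOfLe hA).toEquiv] at h1 h2
  set X := Cfsg.Agent.H83.fixedSub φ (A.subgroupOf G : Set G) with hX
  set U := Cfsg.Agent.H83.commSub φ (A.subgroupOf G : Set G) with hU
  have hXe : X.map M.subtype = M ⊓ Subgroup.centralizer (A : Set L) := by
    ext v
    constructor
    · rintro ⟨w, hw, rfl⟩
      refine ⟨w.2, Subgroup.mem_centralizer_iff.2 fun a ha' => ?_⟩
      have h := congrArg Subtype.val (hw ⟨a, hA ha'⟩ (show (⟨a, hA ha'⟩ : G) ∈ A.subgroupOf G from ha'))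
      change a * (w : L) * a⁻¹ = w at h
      exact mul_inv_eq_iff_eq_mul.1 h
    · rintro ⟨hv, hvA⟩
      refine ⟨⟨v, hv⟩, fun a ha' => Subtype.ext ?_, rfl⟩
      show (a : L) * v * (a : L)⁻¹ = v
      rw [show (a : L) * v = v * (a : L) from Subgroup.mem_centralizer_iff.1 hvA _ ha', mul_inv_cancel_right]
  have hcX : Nat.card ↥(M ⊓ Subgroup.centralizer (A : Set L)) = Nat.card X := by
    rw [← hXe, Subgroup.card_map_of_injective M.subtype_injective]
  refine ⟨?_, ?_⟩
  · rw [hcX, ← X.card_mul_index, mul_comm (Nat.card X)]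
    exact Nat.mul_le_mul_right _ h1
  · refine h2.trans ?_
    rw [← Subgroup.card_subtype M U]
    refine Subgroup.card_le_of_le ?_
    rw [hU, Cfsg.Agent.H83.commSub, MonoidHom.map_closure, Subgroup.closure_le]
    rintro _ ⟨_, ⟨a, ha', v, rfl⟩, rfl⟩
    have e : M.subtype (Cfsg.Agent.H83.delta φ a v) = ((v : L)⁻¹ * (a : L) * (v : L) * (a : L)⁻¹) := by
      rw [Cfsg.Agent.H83.delta_apply, div_eq_mul_inv, mul_comm (φ a v) v⁻¹]
      show (v : L)⁻¹ * ((a : L) * (v : L) * (a : L)⁻¹) = _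
      group
    rw [e]
    simpa [commutatorElement_def, mul_assoc] using
      Subgroup.commutator_mem_commutator (inv_mem v.2) (Subgroup.mem_subgroupOf.1 ha')

end Cfsg.Agent.S2752
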