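import Cfsg.Statements.S2755
import Cfsg.Agent.H82.Goldschmidt.Families

set_option autoImplicit false
open Cfsg

namespace Cfsg.Agent.S2755

/-- Every finite Goldschmidt group is S₄-free (the symmetric group of degree 4 is not involved in it); and for a finite Goldschmidt group G, the symmetric group of degree 3 is not involved in G exactly when G is a Suzuki group or PSL₂ over a field with 3^(2n+1) elements. -/
theorem result {G : Type*} [Group G] [Finite G] (hG : Cfsg.IsGoldschmidtGroup G) : ¬ Cfsg.Involves (Equiv.Perm (Fin 4)) G ∧ (¬ Cfsg.Involves (Equiv.Perm (Fin 3)) G ↔ Cfsg.IsSuzukiOrPSL2OddPowerThree G) := by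
  exact ⟨Cfsg.Agent.H82.Goldschmidt.not_involves_s4 hG, Cfsg.Agent.H82.Goldschmidt.of_not_s3 hG,
    Cfsg.Agent.H82.Goldschmidt.not_involves_s3⟩

end Cfsg.Agent.S2755
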