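import Cfsg.Statements.S2759
import Cfsg.Agent.H72.S4Section

open scoped commutatorElement

set_option autoImplicit false
open Cfsg

namespace Cfsg.Agent.S2759

/-- For a finite group G, the symmetric group of degree 4 is involved in G if and only if there is a 2-subgroup T of G such that the symmetric group of degree 3 is involved in N(T)/C(T). -/
theorem result {G : Type*} [Group G] [Finite G] : Cfsg.Involves (Equiv.Perm (Fin 4)) G ↔ ∃ T : Subgroup G, IsPGroup 2 ↥T ∧ Cfsg.Involves (Equiv.Perm (Fin 3)) (↥(Subgroup.normalizer (T : Set G)) ⧸ (Subgroup.centralizer (T : Set G)).subgroupOf (Subgroup.normalizer (T : Set G))) := by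
  classical
  haveI : Fact (Nat.Prime 2) := ⟨Nat.prime_two⟩
  haveI : Fact (Nat.Prime 3) := ⟨Nat.prime_three⟩
  obtain ⟨π, hπ, -, hπc, hπ2⟩ := H72.exists_four_to_three
  constructor
  · rintro ⟨K, R, hn, ⟨e⟩⟩
    let f : K →* Equiv.Perm (Fin 4) := e.toMonoidHom.comp (QuotientGroup.mk' _)
    have hf : Function.Surjective f := e.surjective.comp (QuotientGroup.mk'_surjective _)
    let p : K →* Equiv.Perm (Fin 3) := π.comp f
    have hp : Function.Surjective p := hπ.comp hf
    let V : Subgroup K := p.ker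
    let fV : V →* π.ker := (f.comp V.subtype).codRestrict π.ker fun v => v.2
    have hfV : Function.Surjective fV := by
      rintro ⟨g, hg⟩
      obtain ⟨k, rfl⟩ := hf g
      exact ⟨⟨k, hg⟩, rfl⟩
    obtain ⟨T0⟩ : Nonempty (Sylow 2 V) := inferInstance
    have hT0 : (T0 : Subgroup V).map fV = ⊤ := H96.sylow_map_eq_top hπ2 fV hfV T0
    let TK : Subgroup K := (T0 : Subgroup V).map V.subtype
    let NK : Subgroup K := Subgroup.normalizer (TK : Set K)
    let T : Subgroup G := TK.map K.subtype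
    refine ⟨T, (T0.2.map _).map _, ?_⟩
    let N : Subgroup G := Subgroup.normalizer (T : Set G)
    have hNK : ∀ k : NK, ((k : K) : G) ∈ N := by
      rintro ⟨k, hk⟩
      have hkey : ∀ k ∈ NK, ∀ y ∈ T, (k : G) * y * (k : G)⁻¹ ∈ T := by
        rintro k hk _ ⟨y, hy, rfl⟩
        exact ⟨k * y * k⁻¹, (Subgroup.mem_normalizer_iff.1 hk y).1 hy, rfl⟩
      refine Subgroup.mem_normalizer_iff.2 fun y => ⟨hkey k hk y, fun hy => ?_⟩
      simpa [mul_assoc] using hkey k⁻¹ (inv_mem hk) _ hy
    let φ : NK →* N ⧸ (Subgroup.centralizer (T : Set G)).subgroupOf N :=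
      (QuotientGroup.mk' _).comp (MonoidHom.codRestrict (K.subtype.comp NK.subtype) N hNK)
    have hker : φ.ker ≤ (p.comp NK.subtype).ker := by
      intro k hk
      have hkC : ((k : K) : G) ∈ Subgroup.centralizer (T : Set G) :=
        (QuotientGroup.eq_one_iff (N := (Subgroup.centralizer (T : Set G)).subgroupOf N)
          (⟨((k : K) : G), hNK k⟩ : N)).1 hk
      refine hπc (f k) fun v hv => ?_
      obtain ⟨u, hu, huv⟩ : (⟨v, hv⟩ : π.ker) ∈ (T0 : Subgroup V).map fV := hT0 ▸ Subgroup.mem_top _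
      have hfu : f (u : K) = v := congrArg Subtype.val huv
      have hc : ((u : K) : G) * ((k : K) : G) = ((k : K) : G) * ((u : K) : G) :=
        Subgroup.mem_centralizer_iff.1 hkC _ ⟨_, ⟨u, hu, rfl⟩, rfl⟩
      rw [← hfu, ← map_mul, ← map_mul]
      exact congrArg f (Subtype.ext hc.symm)
    let ψ : φ.range →* Equiv.Perm (Fin 3) :=
      (QuotientGroup.lift φ.ker (p.comp NK.subtype) hker).comp (QuotientGroup.quotientKerEquivRange φ).symm.toMonoidHom
    refine H96.involves_of_surjective ψ ?_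
    have hL : Function.Surjective (QuotientGroup.lift φ.ker (p.comp NK.subtype) hker) := ?_
    · exact hL.comp (QuotientGroup.quotientKerEquivRange φ).symm.surjective
    intro s
    obtain ⟨k, rfl⟩ := hp s
    have hk : k ∈ NK ⊔ V := by rw [Sylow.normalizer_sup_eq_top T0]; trivial
    rw [← SetLike.mem_coe, Subgroup.mul_normal, Set.mem_mul] at hk
    obtain ⟨n, hn', v, hv, hnv⟩ := hk
    refine ⟨QuotientGroup.mk (⟨n, hn'⟩ : NK), ?_⟩
    show p n = p k
    rw [← hnv, map_mul, (show p v = 1 from hv), mul_one]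
  · rintro ⟨T, hT, K, R, hn, ⟨e⟩⟩
    set N : Subgroup G := Subgroup.normalizer (T : Set G) with hNdef
    let K' : Subgroup N := K.comap (QuotientGroup.mk' _)
    let g : K' →* K := ((QuotientGroup.mk' _).comp K'.subtype).codRestrict K fun x => x.2
    let f : K' →* Equiv.Perm (Fin 3) := e.toMonoidHom.comp ((QuotientGroup.mk' _).comp g)
    have hf : Function.Surjective f := by
      intro s
      obtain ⟨q, rfl⟩ := e.surjective s
      obtain ⟨⟨k, hk⟩, rfl⟩ := QuotientGroup.mk'_surjective _ q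
      obtain ⟨n, rfl⟩ := QuotientGroup.mk'_surjective _ k
      exact ⟨⟨n, hk⟩, rfl⟩
    obtain ⟨z, t, a, i, hz, hfz, htz, hta⟩ := H72.exists_inverted_of_surjective f hf
    set C : Subgroup G := Subgroup.centralizer (T : Set G) with hCdef
    let zG : G := ((z : N) : G)
    let τ : G := ((t : N) : G)
    have hzC : zG ∉ C := fun h => hfz (by
      have hg : g z = 1 := Subtype.ext ((QuotientGroup.eq_one_iff _).2 h)
      show e (QuotientGroup.mk' _ (g z)) = 1
      rw [hg, map_one, map_one])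
    have hzi : zG ^ 3 ^ i ∈ C := by
      have h1 : z ^ 3 ^ i = 1 := by rw [← hz, pow_orderOf_eq_one]
      have : zG ^ 3 ^ i = 1 := congrArg (fun w : K' => ((w : N) : G)) h1
      rw [this]; exact one_mem C
    obtain ⟨j, hj, hj'⟩ : ∃ j, zG ^ 3 ^ j ∉ C ∧ zG ^ 3 ^ (j + 1) ∈ C := by
      have hex : ∃ k, zG ^ 3 ^ k ∈ C := ⟨i, hzi⟩
      obtain ⟨j, hj⟩ := Nat.exists_eq_succ_of_ne_zero (n := Nat.find hex) (fun h => hzC (by
        simpa [h] using Nat.find_spec hex))
      refine ⟨j, fun h => ?_, by have := Nat.find_spec hex; rwa [hj] at this⟩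
      have := Nat.find_le (h := hex) h
      omega
    set x : G := zG ^ 3 ^ j with hxdef
    have hx3C : x ^ 3 ∈ C := by rw [hxdef, ← pow_mul, ← pow_succ]; exact hj'
    have htz' : τ * zG * τ⁻¹ = zG⁻¹ := congrArg (fun w : K' => ((w : N) : G)) htz
    have hinv : τ * x * τ⁻¹ = x⁻¹ := by rw [hxdef, ← conj_pow, htz', inv_pow]
    have hinv3 : τ * x ^ 3 * τ⁻¹ = (x ^ 3)⁻¹ := by rw [← conj_pow, hinv, inv_pow]
    have hτa : τ ^ 2 ^ a = 1 := congrArg (fun w : K' => ((w : N) : G)) hta
    have hxi : x ^ 3 ^ i = 1 := by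
      have h1 : z ^ 3 ^ i = 1 := by rw [← hz, pow_orderOf_eq_one]
      have : zG ^ 3 ^ i = 1 := congrArg (fun w : K' => ((w : N) : G)) h1
      rw [hxdef, ← pow_mul, mul_comm, pow_mul, this, one_pow]
    have hxN : x ∈ N := N.pow_mem (z : N).2 _
    have hτN : τ ∈ N := (t : N).2
    set H : Subgroup G := T ⊔ (Subgroup.zpowers x ⊔ Subgroup.zpowers τ) with hH
    set W : Subgroup G := Subgroup.zpowers (x ^ 3) with hW
    have hxH : x ∈ H := Subgroup.mem_sup_right (Subgroup.mem_sup_left (Subgroup.mem_zpowers x))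
    have hτH : τ ∈ H := Subgroup.mem_sup_right (Subgroup.mem_sup_right (Subgroup.mem_zpowers τ))
    have hTH : T ≤ H := le_sup_left
    have hWH : W ≤ H := Subgroup.zpowers_le.2 (pow_mem hxH 3)
    have hW3 : IsPGroup 3 W := IsPGroup.of_card_dvd_pow (n := i) (by
      rw [hW, Nat.card_zpowers]
      exact orderOf_dvd_of_pow_eq_one (by rw [← pow_mul, mul_comm, pow_mul, hxi, one_pow]))
    have hWC : W ≤ C := Subgroup.zpowers_le.2 hx3C
    have hHW : H ≤ Subgroup.normalizer (W : Set G) := by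
      refine sup_le (fun s hs => ?_) (sup_le (Subgroup.zpowers_le.2 ?_) (Subgroup.zpowers_le.2 ?_))
      · rw [Subgroup.mem_normalizer_iff_map_conj_eq, hW, MonoidHom.map_zpowers]
        congr 1
        show s * x ^ 3 * s⁻¹ = x ^ 3
        rw [Subgroup.mem_centralizer_iff.1 hx3C s hs]; group
      · rw [Subgroup.mem_normalizer_iff_map_conj_eq, hW, MonoidHom.map_zpowers]
        congr 1
        show x * x ^ 3 * x⁻¹ = x ^ 3
        group
      · rw [Subgroup.mem_normalizer_iff_map_conj_eq, hW, MonoidHom.map_zpowers]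
        show Subgroup.zpowers (τ * x ^ 3 * τ⁻¹) = _
        rw [hinv3, Subgroup.zpowers_inv]
    haveI : (W.subgroupOf H).Normal := (Subgroup.normal_subgroupOf_iff_le_normalizer hWH).2 hHW
    have hHT : H ≤ N := sup_le Subgroup.le_normalizer
      (sup_le (Subgroup.zpowers_le.2 hxN) (Subgroup.zpowers_le.2 hτN))
    haveI hTn : (T.subgroupOf H).Normal := (Subgroup.normal_subgroupOf_iff_le_normalizer hTH).2 hHT
    let q : H →* H ⧸ W.subgroupOf H := QuotientGroup.mk' _
    let T' : Subgroup (H ⧸ W.subgroupOf H) := (T.subgroupOf H).map q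
    haveI hT'n : T'.Normal := hTn.map _ (QuotientGroup.mk'_surjective _)
    have hT'2 : IsPGroup 2 T' := (hT.comap_of_injective H.subtype H.subtype_injective).map _
    set x' := q ⟨x, hxH⟩ with hx'
    set τ' := q ⟨τ, hτH⟩ with hτ'
    have hx'3 : x' ^ 3 = 1 := by
      rw [hx', ← map_pow]
      exact (QuotientGroup.eq_one_iff _).2 (Subgroup.mem_zpowers (x ^ 3))
    have hx'1 : x' ≠ 1 := fun h => hj (hWC ((QuotientGroup.eq_one_iff (⟨x, hxH⟩ : H)).1 h))
    have hinv' : τ' * x' * τ'⁻¹ = x'⁻¹ := by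
      rw [hx', hτ', ← map_inv, ← map_inv, ← map_mul, ← map_mul]
      exact congrArg q (Subtype.ext hinv)
    have hτ'a : τ' ^ 2 ^ a = 1 := by
      rw [hτ', ← map_pow, ← map_one q]; exact congrArg q (Subtype.ext hτa)
    -- everything is in T'⟨x'⟩⟨τ'⟩
    let P : Subgroup (H ⧸ W.subgroupOf H) := T' ⊔ Subgroup.zpowers x'
    have hgen : P ⊔ Subgroup.zpowers τ' = ⊤ := by
      have h1 : (⊤ : Subgroup H) = T.subgroupOf H ⊔
          (Subgroup.zpowers ⟨x, hxH⟩ ⊔ Subgroup.zpowers ⟨τ, hτH⟩) := by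
        refine Subgroup.map_injective H.subtype_injective ?_
        rw [Subgroup.map_sup, Subgroup.map_sup, Subgroup.subgroupOf_map_subtype, inf_eq_left.2 hTH,
          MonoidHom.map_zpowers, MonoidHom.map_zpowers, ← MonoidHom.range_eq_map, Subgroup.range_subtype]
        exact hH
      have h2 := congrArg (Subgroup.map q) h1
      rw [Subgroup.map_top_of_surjective _ (QuotientGroup.mk'_surjective _), Subgroup.map_sup,
        Subgroup.map_sup, MonoidHom.map_zpowers, MonoidHom.map_zpowers] at h2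
      rw [h2, sup_assoc]
    have hPn : P.Normal := by
      rw [← Subgroup.normalizer_eq_top_iff, eq_top_iff, ← hgen]
      refine sup_le Subgroup.le_normalizer (Subgroup.zpowers_le.2 ?_)
      rw [Subgroup.mem_normalizer_iff_map_conj_eq, Subgroup.map_sup, MonoidHom.map_zpowers]
      show _ ⊔ Subgroup.zpowers (τ' * x' * τ'⁻¹) = _
      rw [hinv', Subgroup.zpowers_inv]
      congr 1
      exact Subgroup.mem_normalizer_iff_map_conj_eq.1 (by rw [Subgroup.normalizer_eq_top]; trivial)
    have hchar : Subgroup.centralizer (Cfsg.pCore 2 (H ⧸ W.subgroupOf H) : Set (H ⧸ W.subgroupOf H))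
        ≤ Cfsg.pCore 2 (H ⧸ W.subgroupOf H) := by
      haveI := H19.pCore_normal 2 (H ⧸ W.subgroupOf H)
      set Q := Cfsg.pCore 2 (H ⧸ W.subgroupOf H) with hQ
      refine H19.le_pCore inferInstance ?_
      by_contra hnot
      obtain ⟨q₀, hq₀, hne, hdvd⟩ : ∃ r : ℕ, r.Prime ∧ r ≠ 2 ∧
          r ∣ Nat.card (Subgroup.centralizer (Q : Set (H ⧸ W.subgroupOf H))) := by
        by_contra hall
        refine hnot (IsPGroup.of_card (n := (Nat.card (Subgroup.centralizer (Q : Set (H ⧸ W.subgroupOf H)))).primeFactorsList.length) ?_)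
        exact Nat.eq_prime_pow_of_unique_prime_dvd Nat.card_pos.ne' fun {d} hd hdn =>
          by_contra fun hne => hall ⟨d, hd, hne, hdn⟩
      haveI : Fact q₀.Prime := ⟨hq₀⟩
      obtain ⟨⟨y, hyC⟩, hy⟩ := exists_prime_orderOf_dvd_card' q₀ hdvd
      rw [Subgroup.orderOf_mk] at hy
      have hcop : ∀ s : H ⧸ W.subgroupOf H, ∀ m, s ^ 2 ^ m = 1 → ∀ {u : H ⧸ W.subgroupOf H},
          u ^ q₀ = 1 → u = s → u = 1 := by
        intro s m hs u hu hus
        subst hus
        refine orderOf_eq_one_iff.1 (Nat.eq_one_of_dvd_coprimes ?_ (orderOf_dvd_of_pow_eq_one hu)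
          (orderOf_dvd_of_pow_eq_one hs))
        exact ((Nat.coprime_primes hq₀ Nat.prime_two).2 hne).pow_right m
      have hyP : y ∈ P := by
        haveI := hPn
        obtain ⟨p₀, hp₀, s, hs, hps⟩ : ∃ p₀ ∈ P, ∃ s ∈ Subgroup.zpowers τ', p₀ * s = y := by
          have : y ∈ ((P ⊔ Subgroup.zpowers τ' : Subgroup _) : Set _) := by rw [hgen]; trivial
          rw [Subgroup.normal_mul] at this
          exact this
        rw [← QuotientGroup.eq_one_iff]
        have h1 : (y : (H ⧸ W.subgroupOf H) ⧸ P) = (s : (H ⧸ W.subgroupOf H) ⧸ P) := by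
          rw [← hps, QuotientGroup.mk_mul, (QuotientGroup.eq_one_iff p₀).2 hp₀, one_mul]
        obtain ⟨m, rfl⟩ := hs
        refine orderOf_eq_one_iff.1 (Nat.eq_one_of_dvd_coprimes
          (((Nat.coprime_primes hq₀ Nat.prime_two).2 hne).pow_right a) ?_ ?_)
        · refine orderOf_dvd_of_pow_eq_one ?_
          rw [← QuotientGroup.mk_pow, ← hy, pow_orderOf_eq_one]; rfl
        · refine orderOf_dvd_of_pow_eq_one ?_
          rw [h1, ← QuotientGroup.mk_pow, ← zpow_natCast, zpow_comm, zpow_natCast, hτ'a, one_zpow]; rfl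
      obtain ⟨s, hs, w, hw, hsw⟩ : ∃ s ∈ T', ∃ w ∈ Subgroup.zpowers x', s * w = y := by
        have : y ∈ ((T' ⊔ Subgroup.zpowers x' : Subgroup _) : Set _) := hyP
        rw [Subgroup.normal_mul] at this
        exact this
      obtain ⟨m, hm⟩ := hs |> fun hs => hT'2 ⟨s, hs⟩
      have hm' : s ^ 2 ^ m = 1 := congrArg Subtype.val hm
      have hys : Commute y s := (Subgroup.mem_centralizer_iff.1 hyC s
        (H19.le_pCore hT'n hT'2 hs)).symm
      have hw3 : w ^ 3 = 1 := by
        obtain ⟨k, rfl⟩ := hw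
        rw [← zpow_natCast, zpow_comm, zpow_natCast, hx'3, one_zpow]
      have hwe : w = s⁻¹ * y := by rw [← hsw]; group
      have hs3 : s ^ 3 = y ^ 3 := by
        have h := hw3
        rw [hwe, (Commute.inv_right hys).symm.mul_pow, inv_pow, inv_mul_eq_one] at h
        exact h
      have hy3 : y ^ 3 = 1 := hcop (s ^ 3) m
        (by rw [← pow_mul, mul_comm, pow_mul, hm', one_pow])
        (by rw [← pow_mul, mul_comm, pow_mul, ← hy, pow_orderOf_eq_one, one_pow]) hs3.symm
      have hs1 : s = 1 := by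
        refine orderOf_eq_one_iff.1 (Nat.eq_one_of_dvd_coprimes
          (((Nat.coprime_primes Nat.prime_three Nat.prime_two).2 (by decide)).pow_right m)
          (orderOf_dvd_of_pow_eq_one (hs3.trans hy3)) (orderOf_dvd_of_pow_eq_one hm'))
      rw [hs1, one_mul] at hsw
      -- y generates ⟨x'⟩
      have hyne : y ≠ 1 := fun h => hq₀.ne_one (by rw [← hy, h, orderOf_one])
      have hgeny : Subgroup.zpowers y = Subgroup.zpowers x' := by
        apply Subgroup.eq_of_le_of_card_ge (Subgroup.zpowers_le.2 (hsw ▸ hw))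
        rw [Nat.card_zpowers, Nat.card_zpowers, orderOf_eq_prime hx'3 hx'1, orderOf_eq_prime hy3 hyne]
      have hx'C : x' ∈ Subgroup.centralizer (Q : Set (H ⧸ W.subgroupOf H)) :=
        (Subgroup.zpowers_le.2 hyC) (hgeny ▸ Subgroup.mem_zpowers x')
      apply hj
      rw [hCdef, Subgroup.mem_centralizer_iff]
      intro u hu
      have hu' : q ⟨u, hTH hu⟩ ∈ Q := H19.le_pCore hT'n hT'2 ⟨_, hu, rfl⟩
      have h := Subgroup.mem_centralizer_iff.1 hx'C _ hu'
      rw [hx', ← map_mul, ← map_mul] at h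
      have hmem : (u * x)⁻¹ * (x * u) ∈ W := (QuotientGroup.eq (s := W.subgroupOf H)).1 h
      have hmemT : (u * x)⁻¹ * (x * u) ∈ T := by
        have h' := (Subgroup.mem_normalizer_iff.1 (inv_mem hxN) u⁻¹).1 (inv_mem hu)
        have := mul_mem h' hu
        simpa [mul_assoc] using this
      have hbot := IsPGroup.disjoint_of_ne 3 2 (by norm_num) W T hW3 hT
      have := Subgroup.mem_bot.1 (hbot.le_bot ⟨hmem, hmemT⟩)
      rwa [inv_mul_eq_one] at this
    exact H83.involves_of_subgroup (H83.involves_of_quotient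
      (H83.involves_s4_aux hchar hx'3 hx'1 hinv' hτ'a))

end Cfsg.Agent.S2759
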