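import Cfsg.Statements.S2762
import Cfsg.Agent.H72.QdOver

open scoped commutatorElement

set_option autoImplicit false
open Cfsg

namespace Cfsg.Agent.S2762

/-- Structure of Qd over a finite field F of characteristic p (the affine subgroup of SL₃(F)): its largest normal p-subgroup is the group of translations (matrices with upper-left block the identity), the block-diagonal matrices form a complement isomorphic to SL₂(F), and the translation subgroup is a natural SL₂(F)-module for that complement. -/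
theorem result {F : Type*} [Field F] [Fintype F] {p : ℕ} [Fact p.Prime] [CharP F p] : (∀ M : ↥(Cfsg.qdOver F), M ∈ Cfsg.pCore p ↥(Cfsg.qdOver F) ↔ ((M : Matrix.SpecialLinearGroup (Fin 3) F) : Matrix (Fin 3) (Fin 3) F) 0 0 = 1 ∧ ((M : Matrix.SpecialLinearGroup (Fin 3) F) : Matrix (Fin 3) (Fin 3) F) 0 1 = 0 ∧ ((M : Matrix.SpecialLinearGroup (Fin 3) F) : Matrix (Fin 3) (Fin 3) F) 1 0 = 0 ∧ ((M : Matrix.SpecialLinearGroup (Fin 3) F) : Matrix (Fin 3) (Fin 3) F) 1 1 = 1) ∧ ∃ K : Subgroup ↥(Cfsg.qdOver F), (∀ M : ↥(Cfsg.qdOver F), M ∈ K ↔ ((M : Matrix.SpecialLinearGroup (Fin 3) F) : Matrix (Fin 3) (Fin 3) F) 0 2 = 0 ∧ ((M : Matrix.SpecialLinearGroup (Fin 3) F) : Matrix (Fin 3) (Fin 3) F) 1 2 = 0) ∧ K ⊓ Cfsg.pCore p ↥(Cfsg.qdOver F) = ⊥ ∧ K ⊔ Cfsg.pCore p ↥(Cfsg.qdOver F) = ⊤ ∧ Nonempty (↥K ≃* Matrix.SpecialLinearGroup (Fin 2) F) ∧ Cfsg.IsNaturalSL2Module F (Cfsg.pCore p ↥(Cfsg.qdOver F)) K := by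
  classical
  open H72.QdOver in
  have hP := pCore_eq (F := F) (p := p)
  open H72.QdOver in
  refine ⟨fun M => ?_, (lin (F := F)).range, fun M => ?_, ?_, ?_, ⟨(MonoidHom.ofInjective (f := lin) fun A B h => (mk_inj h).1).symm⟩, ?_⟩
  · obtain ⟨A, w, rfl⟩ := H72.QdOver.exists_mk M
    rw [hP, MonoidHom.mem_ker, H72.QdOver.proj_mk]
    constructor
    · rintro rfl; exact ⟨rfl, rfl, rfl, rfl⟩
    · rintro ⟨a, b, c, d⟩
      apply Subtype.ext
      ext i j
      fin_cases i <;> fin_cases j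
      · exact a
      · exact b
      · exact c
      · exact d
  · obtain ⟨A, w, rfl⟩ := H72.QdOver.exists_mk M
    constructor
    · rintro ⟨B, hB⟩
      obtain ⟨-, rfl⟩ := H72.QdOver.mk_inj (show H72.QdOver.mk B 0 = _ from hB)
      exact ⟨rfl, rfl⟩
    · rintro ⟨a, b⟩
      refine ⟨A, ?_⟩
      show H72.QdOver.mk A 0 = _
      congr 1
      ext i
      fin_cases i
      · exact a.symm
      · exact b.symm
  · rw [hP, Subgroup.eq_bot_iff_forall]
    rintro M ⟨⟨A, rfl⟩, hM⟩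
    have hM' : H72.QdOver.proj (H72.QdOver.lin A) = 1 := hM
    rw [show H72.QdOver.lin A = H72.QdOver.mk A 0 from rfl,
      H72.QdOver.proj_mk] at hM'
    rw [hM', map_one]
  · rw [hP, eq_top_iff]
    intro M _
    obtain ⟨A, w, rfl⟩ := H72.QdOver.exists_mk M
    have he : H72.QdOver.mk A w = H72.QdOver.trans (Multiplicative.ofAdd w) * H72.QdOver.lin A := by
      show _ = H72.QdOver.mk 1 w * H72.QdOver.mk A 0
      rw [H72.QdOver.mk_mul, one_mul]
      congr 1
      rw [Matrix.mulVec_zero, zero_add]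
    rw [he]
    exact mul_mem (Subgroup.mem_sup_right (H72.QdOver.mem_ker_proj.2 ⟨_, rfl⟩)) (Subgroup.mem_sup_left ⟨A, rfl⟩)
  rw [hP]
  set K := (H72.QdOver.lin (F := F)).range
  set W := (H72.QdOver.proj (F := F)).ker
  have hWn : W.Normal := inferInstance
  let ρ : K →* Matrix.SpecialLinearGroup (Fin 2) F := (H72.QdOver.proj (F := F)).comp K.subtype
  have hlin : ∀ k : K, (k : ↥(Cfsg.qdOver F)) = H72.QdOver.lin (ρ k) := by
    rintro ⟨_, A, rfl⟩
    show _ = H72.QdOver.lin (H72.QdOver.proj (H72.QdOver.mk A 0))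
    rw [H72.QdOver.proj_mk]
  have hrange : W = (H72.QdOver.trans (F := F)).range := by
    ext M
    rw [H72.QdOver.mem_ker_proj]
    exact ⟨fun ⟨w, hw⟩ => ⟨w, hw.symm⟩, fun ⟨w, hw⟩ => ⟨w, hw.symm⟩⟩
  let e : W ≃* Multiplicative (Fin 2 → F) :=
    (MulEquiv.subgroupCongr hrange).trans (MonoidHom.ofInjective H72.QdOver.trans_injective).symm
  have htr : ∀ w : W, (w : ↥(Cfsg.qdOver F)) = H72.QdOver.trans (e w) := fun w => by
    exact (MonoidHom.apply_ofInjective_symm (f := (H72.QdOver.trans (F := F)))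
      H72.QdOver.trans_injective (MulEquiv.subgroupCongr hrange w)).symm
  let ψ : Additive W ≃+ (Fin 2 → F) := MulEquiv.toAdditiveLeft e
  have hcong : ∀ (k : K) (w : W), ((k : ↥(Cfsg.qdOver F)) * (w : ↥(Cfsg.qdOver F)) * (k : ↥(Cfsg.qdOver F))⁻¹) =
      H72.QdOver.trans (Multiplicative.ofAdd (((ρ k : Matrix.SpecialLinearGroup (Fin 2) F) :
        Matrix (Fin 2) (Fin 2) F).mulVec (e w).toAdd)) := by
    intro k w
    rw [← H72.QdOver.lin_trans, hlin k, htr w]; rfl
  refine ⟨fun k _ => by rw [Subgroup.normalizer_eq_top]; trivial, ρ, ψ, fun A => ⟨⟨_, A, rfl⟩, H72.QdOver.proj_mk A 0⟩,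
    ?_, fun k w => ?_⟩
  · ext k
    rw [MonoidHom.mem_ker, Subgroup.mem_subgroupOf, Subgroup.mem_centralizer_iff]
    constructor
    · intro h w _
      rw [hlin k, h, map_one, mul_one, one_mul]
    · intro h
      apply Subtype.ext
      apply Matrix.ext_of_mulVec_single
      intro i
      have hw : H72.QdOver.trans (Multiplicative.ofAdd (Pi.single i (1 : F))) ∈ W :=
        H72.QdOver.mem_ker_proj.2 ⟨_, rfl⟩
      set w : W := ⟨_, hw⟩ with hwdef
      have hk := hcong k w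
      rw [← h (w : ↥(Cfsg.qdOver F)) w.2, mul_inv_cancel_right, htr w] at hk
      have h2 := congrArg Multiplicative.toAdd (H72.QdOver.trans_injective hk)
      have h3 : (e w).toAdd = Pi.single i (1 : F) := by
        have := htr w
        rw [← H72.QdOver.trans_injective this]; rfl
      rw [toAdd_ofAdd, h3] at h2
      rw [← h2, Matrix.SpecialLinearGroup.coe_one, Matrix.one_mulVec]
  · refine ⟨⟨_, hWn.conj_mem _ w.2 k⟩, rfl, ?_⟩
    show (e _).toAdd = _
    apply Multiplicative.ofAdd.injective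
    apply H72.QdOver.trans_injective
    rw [ofAdd_toAdd, ← htr]
    exact hcong k w

end Cfsg.Agent.S2762
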