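import Cfsg.Statements.S2763
import Cfsg.Agent.H50.QdSylow
import Cfsg.Agent.H53.OmegaFaithful

set_option autoImplicit false
open Cfsg

namespace Cfsg.Agent.S2763

/-- In the group Qd(p) (p prime; the natural semidirect product of an elementary abelian group of order p² by SL₂(p)), the normalizer of every nontrivial characteristic subgroup of a Sylow p-subgroup S equals the normalizer of S, which is a proper subgroup; in particular no such characteristic subgroup is normal. -/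
theorem result {p : ℕ} [Fact p.Prime] (S : Sylow p ↥(Cfsg.qd p)) (T : Subgroup ↥(S : Subgroup ↥(Cfsg.qd p))) (hT : T ≠ ⊥) (hTc : T.Characteristic) : Subgroup.normalizer ((T.map (S : Subgroup ↥(Cfsg.qd p)).subtype : Subgroup ↥(Cfsg.qd p)) : Set ↥(Cfsg.qd p)) = Subgroup.normalizer ((S : Subgroup ↥(Cfsg.qd p)) : Set ↥(Cfsg.qd p)) ∧ Subgroup.normalizer ((S : Subgroup ↥(Cfsg.qd p)) : Set ↥(Cfsg.qd p)) ≠ ⊤ := by
  classical
  have hmax0 : ∀ {e : ↥(Cfsg.qd p) ≃* ↥(Cfsg.qd p)}, ∃ P : Sylow p ↥(Cfsg.qd p),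
      (P : Subgroup ↥(Cfsg.qd p)) = Cfsg.Agent.H50.QdSylow.syl e := fun {e} =>
    ⟨{ toSubgroup := Cfsg.Agent.H50.QdSylow.syl e
       isPGroup' := Cfsg.Agent.H50.QdSylow.isPGroup_syl e
       is_maximal' := fun hQ h => Cfsg.Agent.H50.QdSylow.syl_maximal e hQ h }, rfl⟩
  obtain ⟨S0, hS0⟩ := hmax0 (e := MulEquiv.refl _)
  obtain ⟨g, hg⟩ := MulAction.exists_smul_eq (↥(Cfsg.qd p)) S0 S
  set e : ↥(Cfsg.qd p) ≃* ↥(Cfsg.qd p) := MulAut.conj g with he
  have hS : (S : Subgroup ↥(Cfsg.qd p)) = Cfsg.Agent.H50.QdSylow.syl e := by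
    ext z
    constructor
    · intro hz
      rw [← hg] at hz
      obtain ⟨y, hy, rfl⟩ := hz
      rw [hS0] at hy
      obtain ⟨a, b, x, rfl⟩ := hy
      refine ⟨a, b, x, ?_⟩
      simp [Cfsg.Agent.H50.QdSylow.el, Cfsg.Agent.H72.QdModel.tr, Cfsg.Agent.H72.QdModel.li, he]
    · rintro ⟨a, b, x, rfl⟩
      rw [← hg]
      refine ⟨Cfsg.Agent.H50.QdSylow.el (MulEquiv.refl _) a b x, ?_, ?_⟩
      · rw [hS0]; exact ⟨a, b, x, rfl⟩
      · simp [Cfsg.Agent.H50.QdSylow.el, Cfsg.Agent.H72.QdModel.tr, Cfsg.Agent.H72.QdModel.li, he]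
  set T' := T.map (S : Subgroup ↥(Cfsg.qd p)).subtype with hT'
  have hSnT : (Subgroup.normalizer ((S : Subgroup ↥(Cfsg.qd p)) : Set ↥(Cfsg.qd p))) ≤
      Subgroup.normalizer (T' : Set ↥(Cfsg.qd p)) := by
    haveI := hTc
    exact Cfsg.Agent.H53.normalizer_le_normalizer_map_characteristic _ _
  have hproper : Subgroup.normalizer ((S : Subgroup ↥(Cfsg.qd p)) : Set ↥(Cfsg.qd p)) ≠ ⊤ := by
    intro h
    have hn : (S : Subgroup ↥(Cfsg.qd p)).Normal := Subgroup.normalizer_eq_top_iff.mp h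
    refine Cfsg.Agent.H50.QdSylow.syl_not_le_range e (hS ▸ ?_)
    exact (Cfsg.Agent.H19.le_pCore hn S.isPGroup').trans (Cfsg.Agent.H72.QdModel.pCore_le e)
  refine ⟨le_antisymm ?_ hSnT, hproper⟩
  intro z hz
  by_contra hzS
  obtain ⟨A, v, hzv⟩ := Cfsg.Agent.H72.QdModel.exists_eq_mul e z
  have hSle : Cfsg.Agent.H50.QdSylow.syl e ≤ Subgroup.normalizer (T' : Set ↥(Cfsg.qd p)) :=
    hS ▸ Subgroup.le_normalizer.trans hSnT
  have hA : Cfsg.Agent.H72.QdModel.li e A ∈ Subgroup.normalizer (T' : Set ↥(Cfsg.qd p)) := by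
    have := mul_mem (inv_mem (hSle (Cfsg.Agent.H50.QdSylow.range_le_syl e ⟨v, rfl⟩))) hz
    rwa [hzv, inv_mul_cancel_left] at this
  have hc : (A : Matrix (Fin 2) (Fin 2) (ZMod p)) 1 0 ≠ 0 := by
    intro hc
    refine hzS ?_
    have hAN : Cfsg.Agent.H72.QdModel.li e A ∈ Subgroup.normalizer
        ((S : Subgroup ↥(Cfsg.qd p)) : Set ↥(Cfsg.qd p)) := by
      rw [hS]
      exact Cfsg.Agent.H50.QdSylow.li_mem_normalizer e hc
    rw [hzv]
    refine mul_mem (Subgroup.le_normalizer ?_) hAN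
    rw [hS]; exact Cfsg.Agent.H50.QdSylow.range_le_syl e ⟨v, rfl⟩
  haveI hTn : T'.Normal := Subgroup.normalizer_eq_top_iff.mp
    (Cfsg.Agent.H50.QdSylow.eq_top_of_syl_le e hSle hA hc)
  have hTV : T' ≤ (Cfsg.Agent.H72.QdModel.tr e).range :=
    (Cfsg.Agent.H19.le_pCore hTn (S.isPGroup'.to_le (Subgroup.map_subtype_le _))).trans
      (Cfsg.Agent.H72.QdModel.pCore_le e)
  have hT1 : T' ≠ ⊥ := by
    rwa [hT', ne_eq, Subgroup.map_eq_bot_iff_of_injective _ Subtype.val_injective]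
  have hVT := Cfsg.Agent.H72.QdModel.range_le_of_normal e T' hTV hT1
  obtain ⟨f, y, hy, hfy⟩ := Cfsg.Agent.H50.QdSylow.exists_aut_moving e
  obtain ⟨t, ht, hty⟩ := hVT hy
  let f' : ↥(S : Subgroup ↥(Cfsg.qd p)) ≃* ↥(S : Subgroup ↥(Cfsg.qd p)) :=
    ((MulEquiv.subgroupCongr hS).trans f).trans (MulEquiv.subgroupCongr hS).symm
  refine hfy (hTV ⟨f' t, ?_, ?_⟩)
  · have := Subgroup.characteristic_iff_map_le.mp hTc f' (Subgroup.mem_map_of_mem _ ht)
    exact this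
  · have : MulEquiv.subgroupCongr hS t = y := Subtype.ext hty
    simp [f', this]

end Cfsg.Agent.S2763
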