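import Cfsg.Statements.S2766
import Cfsg.Agent.H72.Push.Local

open scoped commutatorElement

set_option autoImplicit false
open Cfsg

namespace Cfsg.Agent.S2766

/-- Let p ≥ 5 be prime and G a maximal p-local subgroup of a finite group H (G is the normalizer of a nontrivial p-subgroup and lies in no other such normalizer). Suppose C_G(O_p(G)) ≤ O_p(G), G/K ≅ PSL₂(p^n) for some normal K and n ≥ 1, a Sylow p-subgroup S of G lies in exactly one maximal subgroup of G, and N_H(S) is not contained in G. Then G = G₀ × E for subgroups G₀ ≅ Qd(p^n) (the natural semidirect product of the plane over the field with p^n elements by SL₂) and E an elementary abelian p-group. -/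
theorem result {H : Type*} [Group H] [Finite H] {p : ℕ} [Fact p.Prime] (hp : 5 ≤ p) (G : Subgroup H) (hloc : ∃ R : Subgroup H, IsPGroup p ↥R ∧ R ≠ ⊥ ∧ G = Subgroup.normalizer (R : Set H)) (hmax : ∀ R : Subgroup H, IsPGroup p ↥R → R ≠ ⊥ → G ≤ Subgroup.normalizer (R : Set H) → Subgroup.normalizer (R : Set H) = G) (S : Sylow p ↥G) (hE₁ : Subgroup.centralizer (Cfsg.pCore p ↥G : Set ↥G) ≤ Cfsg.pCore p ↥G) (hE₂ : ∃! M : Subgroup ↥G, IsCoatom M ∧ (S : Subgroup ↥G) ≤ M) (K : Subgroup ↥G) [K.Normal] (F : Type) [Field F] [Fintype F] (n : ℕ) (hn : 1 ≤ n) (hF : Fintype.card F = p ^ n) (hE₃ : Nonempty (↥G ⧸ K ≃* Matrix.ProjectiveSpecialLinearGroup (Fin 2) F)) (hN : ¬ Subgroup.normalizer (((S : Subgroup ↥G).map G.subtype : Subgroup H) : Set H) ≤ G) : ∃ G₀ E : Subgroup H, Cfsg.IsInternalDirectProduct G₀ E G ∧ Cfsg.IsElementaryAbelian p E ∧ Nonempty (↥G₀ ≃* ↥(Cfsg.qdOver F)) := by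
    exact H72.Push.local_qd hp G hmax S K F n (H72.Push.setup_of hE₁ hE₂ hn hF hE₃) hN

end Cfsg.Agent.S2766
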