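import Cfsg.Statements.S2769
import Cfsg.Agent.H72.RankOneTrichotomy

open scoped commutatorElement

set_option autoImplicit false
open Cfsg

namespace Cfsg.Agent.S2769

/-- Let G be a finite group and p a prime with C_G(O_p(G)) ≤ O_p(G), S a Sylow p-subgroup lying in exactly one maximal subgroup of G, and G/K ≅ PSL₂(p^n) for some normal K and n ≥ 1. Let J(S) be generated by the abelian subgroups of S of largest order. If [Z(J(S)), S] ≠ 1, then either [Z(J(S)), S] ∩ Z(S) is normal in G or C_S(Z(J(S))) is normal in G. -/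
theorem result {G : Type*} [Group G] [Finite G] {p : ℕ} [Fact p.Prime] (S : Sylow p G) (hE₁ : Subgroup.centralizer (Cfsg.pCore p G : Set G) ≤ Cfsg.pCore p G) (hE₂ : ∃! M : Subgroup G, IsCoatom M ∧ (S : Subgroup G) ≤ M) (K : Subgroup G) [K.Normal] (F : Type) [Field F] [Fintype F] (n : ℕ) (hn : 1 ≤ n) (hF : Fintype.card F = p ^ n) (hE₃ : Nonempty (G ⧸ K ≃* Matrix.ProjectiveSpecialLinearGroup (Fin 2) F)) (h : ⁅(Cfsg.centerThompsonAOf (S : Subgroup G)), (S : Subgroup G)⁆ ≠ ⊥) : (⁅(Cfsg.centerThompsonAOf (S : Subgroup G)), (S : Subgroup G)⁆ ⊓ ((S : Subgroup G) ⊓ Subgroup.centralizer ((S : Subgroup G) : Set G))).Normal ∨ (((S : Subgroup G) ⊓ Subgroup.centralizer (Cfsg.centerThompsonAOf (S : Subgroup G) : Set G))).Normal := by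
    classical
    obtain ⟨e⟩ := hE₃
    have hs : Cfsg.Agent.H72.RankOne.Setup S K F n := ⟨hE₁, hE₂, hF, hn, inferInstance,
      e.toMonoidHom.comp (QuotientGroup.mk' K), e.surjective.comp (QuotientGroup.mk'_surjective _),
      by ext x; simp [MonoidHom.mem_ker]⟩
    rcases hs.trichotomy with hc | hn' | ⟨L₀, hL₀, hLS, hdec⟩
    · exact Or.inl (Cfsg.Agent.H72.RankOne.normal_of_le_center (inf_le_right.trans hc))
    · rcases hs.centralizer_cases hn' with hc | hc
      · refine Or.inl (Cfsg.Agent.H72.RankOne.normal_of_le_center fun x hx => ?_)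
        have hxZ := Cfsg.Agent.H72.RankOne.center_le S hx.2
        refine Cfsg.Agent.H72.RankOne.mem_center_of_sup hc ?_ hx.2.2
        exact Subgroup.mem_centralizer_iff.2 fun c hc' => (Subgroup.mem_centralizer_iff.1 hc' x hxZ).symm
      · exact Or.inr hc
    · haveI := hL₀
      haveI : (Subgroup.centralizer (L₀ : Set G)).Normal := Subgroup.normal_centralizer
      refine Or.inl (Cfsg.Agent.H72.RankOne.normal_of_le_center fun x hx => ?_)
      refine Cfsg.Agent.H72.RankOne.mem_center_of_sup hLS ?_ hx.2.2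
      suffices ⁅Cfsg.centerThompsonAOf (S : Subgroup G), (S : Subgroup G)⁆ ≤ Subgroup.centralizer (L₀ : Set G) from this hx.1
      rw [Subgroup.commutator_le]
      intro z hz s hsS
      obtain ⟨w, hwZ, hw, -, hc⟩ := hdec z hz
      have h1 : Commute s (z * w⁻¹) := hc s hsS
      have hzS : z ∈ (S : Subgroup G) := Cfsg.Agent.H72.thompsonSubgroupAOf_le _ hz.1
      have hwS : w ∈ (S : Subgroup G) := Cfsg.Agent.H72.thompsonSubgroupAOf_le _ hwZ.1
      have h2 : Commute ⁅w, s⁆ (z * w⁻¹) := hc _ (by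
        rw [commutatorElement_def]
        exact (S : Subgroup G).mul_mem ((S : Subgroup G).mul_mem ((S : Subgroup G).mul_mem hwS hsS)
          ((S : Subgroup G).inv_mem hwS)) ((S : Subgroup G).inv_mem hsS))
      have heq : ⁅z, s⁆ = ⁅w, s⁆ := by
        calc ⁅z, s⁆ = (z * w⁻¹) * ⁅w, s⁆ * (s * (z * w⁻¹)⁻¹ * s⁻¹) := by
              simp only [commutatorElement_def]; group
          _ = (z * w⁻¹) * ⁅w, s⁆ * (z * w⁻¹)⁻¹ := by rw [h1.inv_right.eq, mul_inv_cancel_right]
          _ = ⁅w, s⁆ := by rw [← h2.eq, mul_inv_cancel_right]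
      rw [heq, commutatorElement_def]
      rw [show w * s * w⁻¹ * s⁻¹ = w * (s * w⁻¹ * s⁻¹) by group]
      exact (Subgroup.centralizer (L₀ : Set G)).mul_mem hw
        (Subgroup.Normal.conj_mem inferInstance _ ((Subgroup.centralizer (L₀ : Set G)).inv_mem hw) s)

end Cfsg.Agent.S2769
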