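import Cfsg.Statements.S2770
import Cfsg.Agent.H72.RankOneTrichotomy

open scoped commutatorElement

set_option autoImplicit false
open Cfsg

namespace Cfsg.Agent.S2770

/-- Let G be a finite group and p a prime with C_G(O_p(G)) ≤ O_p(G), S a Sylow p-subgroup lying in exactly one maximal subgroup of G, and G/K ≅ PSL₂(p^n) for some normal K and n ≥ 1. If Z(S) is not elementary abelian, then either ℧¹(Z(S)) (the subgroup generated by the p-th powers of the elements of Z(S)) is normal in G or C_S(Z(J(S))) is normal in G, J(S) being generated by the abelian subgroups of S of largest order. -/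
theorem result {G : Type*} [Group G] [Finite G] {p : ℕ} [Fact p.Prime] (S : Sylow p G) (hE₁ : Subgroup.centralizer (Cfsg.pCore p G : Set G) ≤ Cfsg.pCore p G) (hE₂ : ∃! M : Subgroup G, IsCoatom M ∧ (S : Subgroup G) ≤ M) (K : Subgroup G) [K.Normal] (F : Type) [Field F] [Fintype F] (n : ℕ) (hn : 1 ≤ n) (hF : Fintype.card F = p ^ n) (hE₃ : Nonempty (G ⧸ K ≃* Matrix.ProjectiveSpecialLinearGroup (Fin 2) F)) (h : ¬ Cfsg.IsElementaryAbelian p ((S : Subgroup G) ⊓ Subgroup.centralizer ((S : Subgroup G) : Set G))) : (Cfsg.powerClosure p 1 ((S : Subgroup G) ⊓ Subgroup.centralizer ((S : Subgroup G) : Set G))).Normal ∨ (((S : Subgroup G) ⊓ Subgroup.centralizer (Cfsg.centerThompsonAOf (S : Subgroup G) : Set G))).Normal := by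
    classical
    obtain ⟨e⟩ := hE₃
    have hs : Cfsg.Agent.H72.RankOne.Setup S K F n := ⟨hE₁, hE₂, hF, hn, inferInstance,
      e.toMonoidHom.comp (QuotientGroup.mk' K), e.surjective.comp (QuotientGroup.mk'_surjective _),
      by ext x; simp [MonoidHom.mem_ker]⟩
    have hle : ∀ X : Subgroup G, (∀ z ∈ (S : Subgroup G) ⊓ Subgroup.centralizer ((S : Subgroup G) : Set G), z ^ p ∈ X) →
        Cfsg.powerClosure p 1 ((S : Subgroup G) ⊓ Subgroup.centralizer ((S : Subgroup G) : Set G)) ≤ X := fun X hX =>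
      (Subgroup.closure_le _).2 (by rintro _ ⟨z, hz, rfl⟩; rw [pow_one]; exact hX z hz)
    rcases hs.trichotomy with hc | hn' | ⟨L₀, hL₀, hLS, hdec⟩
    · exact Or.inl (Cfsg.Agent.H72.RankOne.normal_of_le_center (hle _ fun z hz => (Subgroup.center G).pow_mem (hc hz) p))
    · rcases hs.centralizer_cases hn' with hc | hc
      · refine Or.inl (Cfsg.Agent.H72.RankOne.normal_of_le_center (hle _ fun z hz => (Subgroup.center G).pow_mem ?_ p))
        refine Cfsg.Agent.H72.RankOne.mem_center_of_sup hc ?_ hz.2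
        exact Subgroup.mem_centralizer_iff.2 fun c hc' =>
          (Subgroup.mem_centralizer_iff.1 hc' z (Cfsg.Agent.H72.RankOne.center_le S hz)).symm
      · exact Or.inr hc
    · refine Or.inl (Cfsg.Agent.H72.RankOne.normal_of_le_center (hle _ fun z hz => ?_))
      obtain ⟨w, hwZ, hw, hp', hc⟩ := hdec z (Cfsg.Agent.H72.RankOne.center_le S hz)
      have hzp : z ^ p = w ^ p := by
        have hcw : Commute (z * w⁻¹) w := (hc w (Cfsg.Agent.H72.thompsonSubgroupAOf_le _ hwZ.1)).symm
        conv_lhs => rw [show z = (z * w⁻¹) * w by group]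
        rw [hcw.mul_pow, hp', one_mul]
      refine Cfsg.Agent.H72.RankOne.mem_center_of_sup hLS ?_ ((Subgroup.centralizer _).pow_mem hz.2 p)
      rw [hzp]
      exact (Subgroup.centralizer _).pow_mem hw p

end Cfsg.Agent.S2770
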