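import Cfsg.Statements.S2774
import Cfsg.Agent.H73.Focal.Functor

set_option autoImplicit false
open Cfsg

namespace Cfsg.Agent.S2774

/-- Let p be an odd prime and S a nontrivial Sylow p-subgroup of a finite group G. Then S ∩ G' is generated by the subgroups S ∩ (N_G(K))' as K ranges over the nontrivial characteristic subgroups of S (derived subgroups of the normalizers). -/
theorem result {G : Type*} [Group G] [Finite G] {p : ℕ} [Fact p.Prime] (hp : p ≠ 2) (S : Sylow p G) (hS : (S : Subgroup G) ≠ ⊥) : (S : Subgroup G) ⊓ commutator G = ⨆ K : {K : Subgroup ↥(S : Subgroup G) // K ≠ ⊥ ∧ K.Characteristic}, (S : Subgroup G) ⊓ ⁅Subgroup.normalizer ((((K : Subgroup ↥(S : Subgroup G))).map (S : Subgroup G).subtype : Subgroup G) : Set G), Subgroup.normalizer ((((K : Subgroup ↥(S : Subgroup G))).map (S : Subgroup G).subtype : Subgroup G) : Set G)⁆ := by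
  have hOK := H73.Focal.trOK_all hp (Nat.card G) G rfl S
  refine le_antisymm ?_ (iSup_le fun K => inf_le_inf_left _ (Subgroup.commutator_mono le_top le_top))
  rw [commutator_def]
  refine hOK.trans (iSup₂_le fun V hV => ?_)
  obtain ⟨W, hW, rfl⟩ := hV
  haveI : Nontrivial ↥(S : Subgroup G) := (Subgroup.nontrivial_iff_ne_bot _).2 hS
  refine le_trans ?_ (le_iSup _ ⟨W ↥(S : Subgroup G), hW.1 _ S.2 inferInstance,
    H73.Focal.functor_char S.2 hW⟩)
  simp only [top_inf_eq]
  exact le_rfl

end Cfsg.Agent.S2774
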