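import Cfsg.Statements.S2779
import Cfsg.Agent.H72.NaturalModule

open scoped commutatorElement

set_option autoImplicit false
open Cfsg

namespace Cfsg.Agent.S2779

/-- Let L act on the elementary abelian p-group V (inside a finite group, by conjugation, faithfully) as SL₂(F) on its natural module, F a field with p^n elements, and let S be a Sylow p-subgroup of L. Then [V, S, S] = 1; |V| = p^(2n) and |C_V(S)| = p^n; and for every nonidentity s ∈ S and every v ∈ V outside C_V(S): C_V(s) = C_V(S) = [V, S] = [V, s] = the subgroup generated by the commutators [v, t], t ∈ S. -/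
theorem result {G : Type*} [Group G] [Finite G] {p : ℕ} [Fact p.Prime] {F : Type*} [Field F] [Fintype F] (n : ℕ) (hF : Fintype.card F = p ^ n) (V L : Subgroup G) (hnat : Cfsg.IsNaturalSL2Module F V L) (hf : L ⊓ Subgroup.centralizer (V : Set G) = ⊥) (S : Sylow p ↥L) (T : Subgroup G) (hT : T = ((S : Subgroup ↥L).map L.subtype)) : ⁅⁅V, T⁆, T⁆ = ⊥ ∧ Nat.card V = p ^ (2 * n) ∧ Nat.card ↥(V ⊓ Subgroup.centralizer ((T : Subgroup G) : Set G)) = p ^ n ∧ ∀ s ∈ T, s ≠ 1 → (V ⊓ Subgroup.centralizer ({s} : Set G)) = (V ⊓ Subgroup.centralizer ((T : Subgroup G) : Set G)) ∧ ⁅V, T⁆ = (V ⊓ Subgroup.centralizer ((T : Subgroup G) : Set G)) ∧ ⁅V, Subgroup.zpowers s⁆ = (V ⊓ Subgroup.centralizer ((T : Subgroup G) : Set G)) ∧ ∀ v ∈ V, v ∉ Subgroup.centralizer (T : Set G) → Subgroup.closure {x : G | ∃ t ∈ T, x = v * t * v⁻¹ * t⁻¹} = (V ⊓ Subgroup.centralizer ((T : Subgroup G) : Set G)) := by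
  classical
  haveI := H72.charP_of_card (F := F) hF
  obtain ⟨D⟩ := H72.exists_natFrame hnat hf S hT
  set C : Subgroup G := V ⊓ Subgroup.centralizer ((T : Subgroup G) : Set G) with hC
  have hmemC : ∀ v : V, (v : G) ∈ C ↔ D.co v 1 = 0 := fun v => by
    rw [hC, Subgroup.mem_inf, D.mem_fix_iff]; simp
  have hcommC : ⁅V, T⁆ ≤ C := by
    rw [Subgroup.commutator_le]
    intro v hv t ht
    obtain ⟨c, rfl⟩ := D.exists_param ht
    rw [commutatorElement_def, ← D.cm_coe (D.tEl c) ⟨v, hv⟩, hmemC, D.co_cm]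
    simp
  -- every element of C is a commutator with any prescribed parameter
  have hprod : ∀ (c : F) (v : V), c * D.co v 1 ≠ 0 → ∀ w : V, D.co w 1 = 0 →
      ∃ (v' : V) (d : F), D.cm (D.tEl c) v' = w ∧ D.cm (D.tEl d) v = w := by
    intro c v hcv w hw
    obtain ⟨v', hv'⟩ := D.co_surj ![0, -(D.co w 0) / c]
    refine ⟨v', -(D.co w 0) / D.co v 1, D.co_inj ?_, D.co_inj ?_⟩
    · rw [D.co_cm]
      ext i
      fin_cases i
      · simp [hv', mul_div_cancel₀ _ (left_ne_zero_of_mul hcv)]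
      · simp [hw]
    · rw [D.co_cm]
      ext i
      fin_cases i
      · simp [div_mul_cancel₀ _ (right_ne_zero_of_mul hcv)]
      · simp [hw]
  refine ⟨?_, ?_, ?_, fun s hs hs1 => ?_⟩
  · rw [Subgroup.commutator_eq_bot_iff_le_centralizer]
    exact hcommC.trans inf_le_right
  · have h := Nat.card_congr (D.χ.toEquiv)
    rw [Nat.card_fun, Nat.card_fin, Nat.card_eq_fintype_card (α := F), hF, ← pow_mul, mul_comm] at h
    rw [← h]
    exact (Nat.card_congr Additive.ofMul).trans rfl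
  · let φ : C → F := fun x => D.co ⟨(x : G), x.2.1⟩ 0
    have hφ : Function.Bijective φ := by
      constructor
      · intro x y h
        have hx := (hmemC ⟨(x : G), x.2.1⟩).1 x.2
        have hy := (hmemC ⟨(y : G), y.2.1⟩).1 y.2
        have : (⟨(x : G), x.2.1⟩ : V) = ⟨(y : G), y.2.1⟩ := D.co_inj (by
          ext i; fin_cases i
          · exact h
          · exact hx.trans hy.symm)
        exact Subtype.ext (congrArg (fun v : V => (v : G)) this)
      · intro c
        obtain ⟨v, hv⟩ := D.co_surj ![c, 0]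
        exact ⟨⟨v, (hmemC v).2 (by rw [hv]; rfl)⟩, by simp [φ, hv]⟩
    rw [Nat.card_eq_of_bijective φ hφ, Nat.card_eq_fintype_card, hF]
  obtain ⟨c, rfl⟩ := D.exists_param hs
  have hc : c ≠ 0 := fun h => hs1 (by simp [H72.NatFrame.tEl, h])
  obtain ⟨v₁, hv₁⟩ := D.co_surj ![0, 1]
  have hcv₁ : c * D.co v₁ 1 ≠ 0 := by simpa [hv₁] using hc
  have hCz : C ≤ ⁅V, Subgroup.zpowers (D.tEl c : G)⁆ := by
    intro w hw
    obtain ⟨v', d, hv', -⟩ := hprod c v₁ hcv₁ ⟨w, hw.1⟩ ((hmemC ⟨w, hw.1⟩).1 hw)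
    have hwe := congrArg (fun v : V => (v : G)) hv'
    rw [D.cm_coe] at hwe
    rw [← show _ = w from hwe]
    exact Subgroup.commutator_mem_commutator v'.2 (Subgroup.mem_zpowers _)
  have hzT : ⁅V, Subgroup.zpowers (D.tEl c : G)⁆ ≤ ⁅V, T⁆ :=
    Subgroup.commutator_mono le_rfl (Subgroup.zpowers_le.2 (D.tEl_mem c))
  refine ⟨?_, le_antisymm hcommC (hCz.trans hzT), le_antisymm (hzT.trans hcommC) hCz,
    fun v hv hvC => le_antisymm ?_ ?_⟩
  · ext x
    constructor
    · rintro ⟨hxV, hx⟩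
      refine (hmemC ⟨x, hxV⟩).2 ?_
      have h := (D.comm_tEl_iff c ⟨x, hxV⟩).1 (Subgroup.mem_centralizer_singleton_iff.1 hx)
      exact (mul_eq_zero.1 h).resolve_left hc
    · intro hx
      exact ⟨hx.1, Subgroup.centralizer_le (Set.singleton_subset_iff.2 (D.tEl_mem c)) hx.2⟩
  · rw [Subgroup.closure_le]
    rintro x ⟨t, ht, rfl⟩
    exact hcommC (Subgroup.commutator_mem_commutator hv ht)
  · intro w hw
    have hv1 : D.co ⟨v, hv⟩ 1 ≠ 0 := fun h => hvC ((D.mem_fix_iff _).2 h)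
    obtain ⟨v', d, -, hd⟩ := hprod 1 ⟨v, hv⟩ (by simpa using hv1) ⟨w, hw.1⟩ ((hmemC ⟨w, hw.1⟩).1 hw)
    refine Subgroup.subset_closure ⟨D.tEl d, D.tEl_mem d, ?_⟩
    have hwe := congrArg (fun v : V => (v : G)) hd
    rw [D.cm_coe] at hwe
    exact hwe.symm

end Cfsg.Agent.S2779
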