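import Cfsg.Statements.S2780
import Cfsg.Agent.H72.NaturalModule

open scoped commutatorElement

set_option autoImplicit false
open Cfsg

namespace Cfsg.Agent.S2780

/-- Let L act on the elementary abelian p-group V (inside a finite group, faithfully) as SL₂(F) on its natural module, F a field with p^n elements, S a Sylow p-subgroup of L. Then: for every g ∈ L not normalizing S, V is the internal direct product of C_V(S) and C_V(gSg⁻¹); every nonidentity element of L of order prime to p acts on V without nonidentity fixed points; and C_V(S) and V/C_V(S) are irreducible for N_L(S): the only N_L(S)-invariant subgroups of C_V(S) are 1 and C_V(S), and the only N_L(S)-invariant subgroups between C_V(S) and V are those two. -/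
theorem result {G : Type*} [Group G] [Finite G] {p : ℕ} [Fact p.Prime] {F : Type*} [Field F] [Fintype F] (n : ℕ) (hF : Fintype.card F = p ^ n) (V L : Subgroup G) (hnat : Cfsg.IsNaturalSL2Module F V L) (hf : L ⊓ Subgroup.centralizer (V : Set G) = ⊥) (S : Sylow p ↥L) (T : Subgroup G) (hT : T = ((S : Subgroup ↥L).map L.subtype)) : (∀ g ∈ L, g ∉ Subgroup.normalizer (T : Set G) → Cfsg.IsInternalDirectProduct (V ⊓ Subgroup.centralizer ((T : Subgroup G) : Set G)) (V ⊓ Subgroup.centralizer ((T.map (MulAut.conj g).toMonoidHom : Subgroup G) : Set G)) V) ∧ (∀ x ∈ L, x ≠ 1 → (orderOf x).Coprime p → (V ⊓ Subgroup.centralizer ({x} : Set G)) = ⊥) ∧ (∀ U : Subgroup G, U ≤ (V ⊓ Subgroup.centralizer ((T : Subgroup G) : Set G)) → L ⊓ Subgroup.normalizer (T : Set G) ≤ Subgroup.normalizer (U : Set G) → U = ⊥ ∨ U = (V ⊓ Subgroup.centralizer ((T : Subgroup G) : Set G))) ∧ (∀ U : Subgroup G, (V ⊓ Subgroup.centralizer ((T : Subgroup G) : Set G)) ≤ U → U ≤ V → L ⊓ Subgroup.normalizer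 (T : Set G) ≤ Subgroup.normalizer (U : Set G) → U = (V ⊓ Subgroup.centralizer ((T : Subgroup G) : Set G)) ∨ U = V) := by
  classical
  haveI := H72.charP_of_card (F := F) hF
  obtain ⟨D⟩ := H72.exists_natFrame hnat hf S hT
  have hpp : p.Prime := Fact.out
  set C : Subgroup G := V ⊓ Subgroup.centralizer ((T : Subgroup G) : Set G) with hC
  have hmemC : ∀ v : V, (v : G) ∈ C ↔ D.co v 1 = 0 := fun v => by
    rw [hC, Subgroup.mem_inf, D.mem_fix_iff]; simp
  have hconj : ∀ (U : Subgroup G), L ⊓ Subgroup.normalizer (T : Set G) ≤ Subgroup.normalizer (U : Set G) →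
      ∀ (a : Fˣ) (u : V), (u : G) ∈ U → ((D.cj (D.torus a) u : V) : G) ∈ U := by
    intro U hU a u hu
    exact (Subgroup.mem_normalizer_iff.1 (hU (D.torus_mem_normalizer a)) _).1 hu
  refine ⟨fun g hgL hg => ?_, fun x hxL hx1 hxo => ?_, fun U hUC hU => ?_, fun U hCU hUV hU => ?_⟩
  · set k : Matrix.SpecialLinearGroup (Fin 2) F := D.σ (⟨g, hgL⟩ : L)⁻¹ with hk
    have hk10 : (k : Matrix (Fin 2) (Fin 2) F) 1 0 ≠ 0 := by
      intro h
      apply hg
      have hn := H1.mem_normalizer_upperUni h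
      rw [hk, map_inv] at hn
      have hn' := inv_mem_iff.1 hn
      refine Subgroup.mem_normalizer_iff.2 fun t => ⟨fun ht => ?_, fun ht => ?_⟩
      · refine (D.mem_iff (⟨g, hgL⟩ * ⟨t, D.le ht⟩ * (⟨g, hgL⟩ : L)⁻¹)).2 ?_
        rw [map_mul, map_mul, map_inv]
        exact (Subgroup.mem_normalizer_iff.1 hn' _).1 ((D.mem_iff ⟨t, D.le ht⟩).1 ht)
      · have htL : t ∈ L := by
          have := L.mul_mem (L.mul_mem (L.inv_mem hgL) (D.le ht)) hgL
          simpa [mul_assoc] using this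
        refine (D.mem_iff ⟨t, htL⟩).2 ((Subgroup.mem_normalizer_iff.1 hn' _).2 ?_)
        rw [← map_inv, ← map_mul, ← map_mul]
        exact (D.mem_iff _).1 ht
    set C' : Subgroup G := V ⊓ Subgroup.centralizer ((T.map (MulAut.conj g).toMonoidHom : Subgroup G) : Set G)
      with hC'
    have hmemC' : ∀ v : V, (v : G) ∈ C' ↔
        (k : Matrix (Fin 2) (Fin 2) F) 1 0 * D.co v 0 + (k : Matrix (Fin 2) (Fin 2) F) 1 1 * D.co v 1 = 0 := by
      intro v
      have h1 : (v : G) ∈ C' ↔ ((D.cj (⟨g, hgL⟩ : L)⁻¹ v : V) : G) ∈ Subgroup.centralizer (T : Set G) := by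
        rw [hC', Subgroup.mem_inf, Subgroup.mem_centralizer_iff, Subgroup.mem_centralizer_iff]
        simp only [SetLike.coe_mem, true_and]
        constructor
        · intro h t ht
          have := h (g * t * g⁻¹) ⟨t, ht, rfl⟩
          show t * ((g⁻¹) * v * (g⁻¹)⁻¹) = (g⁻¹) * v * (g⁻¹)⁻¹ * t
          calc t * ((g⁻¹) * v * (g⁻¹)⁻¹) = g⁻¹ * ((g * t * g⁻¹) * v) * g := by group
            _ = g⁻¹ * (v * (g * t * g⁻¹)) * g := by rw [this]
            _ = _ := by group
        · rintro h _ ⟨t, ht, rfl⟩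
          have := h t ht
          change t * ((g⁻¹) * v * (g⁻¹)⁻¹) = (g⁻¹) * v * (g⁻¹)⁻¹ * t at this
          show g * t * g⁻¹ * v = v * (g * t * g⁻¹)
          calc g * t * g⁻¹ * v = g * (t * ((g⁻¹) * v * (g⁻¹)⁻¹)) * g⁻¹ := by group
            _ = g * ((g⁻¹) * v * (g⁻¹)⁻¹ * t) * g⁻¹ := by rw [this]
            _ = _ := by group
      rw [h1, D.mem_fix_iff, D.co_cj, ← hk]
      simp [Matrix.mulVec, dotProduct, Fin.sum_univ_two]
    refine ⟨inf_le_left, inf_le_left, fun a ha b hb => ?_, ?_, le_antisymm (sup_le inf_le_left inf_le_left) ?_⟩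
    · have : D.co (⟨a, ha.1⟩ * ⟨b, hb.1⟩ : V) = D.co (⟨b, hb.1⟩ * ⟨a, ha.1⟩ : V) := by
        rw [D.co_mul, D.co_mul, add_comm]
      exact congrArg (fun v : V => (v : G)) (D.co_inj this)
    · rw [Subgroup.eq_bot_iff_forall]
      rintro x ⟨hx, hx'⟩
      have h1 := (hmemC ⟨x, hx.1⟩).1 hx
      have h2 := (hmemC' ⟨x, hx.1⟩).1 hx'
      rw [h1, mul_zero, add_zero, mul_eq_zero] at h2
      have : (⟨x, hx.1⟩ : V) = 1 := D.co_inj (by
        rw [D.co_one]; ext i; fin_cases i
        · exact h2.resolve_left hk10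
        · exact h1)
      exact congrArg (fun v : V => (v : G)) this
    · intro x hx
      set y := D.co ⟨x, hx⟩ 1 with hy
      obtain ⟨b, hb⟩ := D.co_surj ![-((k : Matrix (Fin 2) (Fin 2) F) 1 1 * y) /
        (k : Matrix (Fin 2) (Fin 2) F) 1 0, y]
      have hbC : (b : G) ∈ C' := by
        rw [hmemC', hb]
        simp [mul_div_cancel₀ _ hk10]
      have haC : (((⟨x, hx⟩ : V) * b⁻¹ : V) : G) ∈ C := by
        rw [hmemC, D.co_mul, D.co_inv, hb]; simp [hy]
      have : x = (((⟨x, hx⟩ : V) * b⁻¹ : V) : G) * b := by simp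
      rw [this]
      exact Subgroup.mul_mem_sup haC hbC
  · rw [Subgroup.eq_bot_iff_forall]
    rintro v ⟨hv, hvx⟩
    by_contra hv1
    have hxv : D.cj ⟨x, hxL⟩ ⟨v, hv⟩ = ⟨v, hv⟩ := Subtype.ext (by
      show x * v * x⁻¹ = v
      rw [← Subgroup.mem_centralizer_singleton_iff.1 hvx, mul_inv_cancel_right])
    have hfix := congrArg D.co hxv
    rw [D.co_cj] at hfix
    set X : Matrix (Fin 2) (Fin 2) F :=
      ((D.σ ⟨x, hxL⟩ : Matrix.SpecialLinearGroup (Fin 2) F) : Matrix (Fin 2) (Fin 2) F) with hX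
    have hdetX : X.det = 1 := (D.σ ⟨x, hxL⟩).2
    have hM : (X - 1).det = 0 := by
      refine Matrix.exists_mulVec_eq_zero_iff.1 ⟨D.co ⟨v, hv⟩, fun h => hv1 ?_, ?_⟩
      · exact congrArg (fun w : V => (w : G)) (D.co_inj (h.trans D.co_one.symm))
      · rw [Matrix.sub_mulVec, Matrix.one_mulVec, hfix, sub_self]
    have hsq : (X - 1) ^ 2 = 0 := by
      rw [Matrix.det_fin_two] at hdetX hM
      simp only [Matrix.sub_apply, Matrix.one_apply_eq, ne_eq, Fin.reduceEq, not_false_eq_true,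
        Matrix.one_apply_ne, sub_zero] at hM
      ext i j
      rw [pow_two, Matrix.mul_apply, Fin.sum_univ_two]
      fin_cases i <;> fin_cases j <;>
        simp only [Matrix.sub_apply, Matrix.one_apply_eq, ne_eq, Fin.reduceEq, not_false_eq_true,
          Matrix.one_apply_ne, sub_zero, Matrix.zero_apply, Fin.zero_eta, Fin.mk_one]
      · linear_combination -(X 0 0 - 1) * (hM - hdetX) - hM
      · linear_combination -(X 0 1) * (hM - hdetX)
      · linear_combination -(X 1 0) * (hM - hdetX)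
      · linear_combination -(X 1 1 - 1) * (hM - hdetX) - hM
    have hXp : X ^ p = 1 := by
      have h : (1 + (X - 1)) ^ p = 1 ^ p + (X - 1) ^ p := add_pow_char_of_commute p (Commute.one_left _)
      rw [add_sub_cancel, one_pow] at h
      obtain ⟨d, hd⟩ := Nat.exists_eq_add_of_le hpp.two_le
      have h0 : (X - 1) ^ p = 0 := by rw [hd, pow_add, hsq, zero_mul]
      rw [h, h0, add_zero]
    have hxp : (⟨x, hxL⟩ : L) ^ p = 1 := D.σ.injective (by
      rw [map_pow, map_one]; exact Subtype.ext hXp)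
    have : x ^ p = 1 := congrArg (fun l : L => (l : G)) hxp
    exact hx1 (orderOf_eq_one_iff.1 (Nat.eq_one_of_dvd_coprimes hxo dvd_rfl (orderOf_dvd_of_pow_eq_one this)))
  · rcases eq_or_ne U ⊥ with h | h
    · exact Or.inl h
    obtain ⟨u, hu, hu1⟩ := (U.bot_or_exists_ne_one).resolve_left h
    refine Or.inr (le_antisymm hUC fun w hw => ?_)
    have huC := (hmemC ⟨u, (hUC hu).1⟩).1 (hUC hu)
    have hu0 : D.co ⟨u, (hUC hu).1⟩ 0 ≠ 0 := fun h0 => hu1 (congrArg (fun v : V => (v : G))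
      (D.co_inj (show D.co ⟨u, (hUC hu).1⟩ = D.co 1 by
        rw [D.co_one]; ext i; fin_cases i
        · exact h0
        · exact huC)))
    rcases eq_or_ne (D.co ⟨w, hw.1⟩ 0) 0 with hw0 | hw0
    · have : (⟨w, hw.1⟩ : V) = 1 := D.co_inj (by
        rw [D.co_one]; ext i; fin_cases i
        · exact hw0
        · exact (hmemC ⟨w, hw.1⟩).1 hw)
      rw [show w = 1 from congrArg (fun v : V => (v : G)) this]
      exact one_mem U
    · have := hconj U hU (Units.mk0 _ (div_ne_zero hw0 hu0)) ⟨u, (hUC hu).1⟩ hu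
      have he : D.cj (D.torus (Units.mk0 _ (div_ne_zero hw0 hu0))) ⟨u, (hUC hu).1⟩ = ⟨w, hw.1⟩ := D.co_inj (by
        rw [D.co_cj_torus]; ext i; fin_cases i
        · simp [div_mul_cancel₀ _ hu0]
        · simp [huC, (hmemC ⟨w, hw.1⟩).1 hw])
      rwa [he] at this
  · rcases eq_or_lt_of_le hCU with h | h
    · exact Or.inl h.symm
    obtain ⟨u, hu, huC⟩ := SetLike.exists_of_lt h
    refine Or.inr (le_antisymm hUV fun w hw => ?_)
    have hu1 : D.co ⟨u, hUV hu⟩ 1 ≠ 0 := fun h1 => huC ((hmemC ⟨u, hUV hu⟩).2 h1)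
    rcases eq_or_ne (D.co ⟨w, hw⟩ 1) 0 with hw0 | hw0
    · exact hCU ((hmemC ⟨w, hw⟩).2 hw0)
    · set a : Fˣ := Units.mk0 _ (div_ne_zero hu1 hw0)
      have := hconj U hU a ⟨u, hUV hu⟩ hu
      set u' := D.cj (D.torus a) ⟨u, hUV hu⟩
      have hd : ((((⟨w, hw⟩ : V) * u'⁻¹ : V)) : G) ∈ U := hCU ((hmemC _).2 (by
        rw [D.co_mul, D.co_inv, D.co_cj_torus]; simp [a, div_mul_cancel₀ _ hu1]))
      have he : w = ((((⟨w, hw⟩ : V) * u'⁻¹ : V)) : G) * (u' : G) := by simp
      rw [he]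
      exact mul_mem hd this

end Cfsg.Agent.S2780
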