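import Cfsg.Statements.S2781
import Cfsg.Agent.H22.PResidual

set_option autoImplicit false
open Cfsg

namespace Cfsg.Agent.S2781

open scoped commutatorElement

/-- An element centralized by a subgroup of index prime to `p` has its index power in
`⁅V, R⁆ C_V(R)`. -/
theorem pow_index_mem {G : Type*} [Group G] [Finite G] (V R : Subgroup G) (hV : IsMulCommutative V)
    (hRV : R ≤ Subgroup.normalizer (V : Set G)) (S : Subgroup R) (v : G) (hv : v ∈ V)
    (hS : ∀ s ∈ S, (s : G) * v = v * s) :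
    v ^ S.index ∈ ⁅V, R⁆ ⊔ (V ⊓ Subgroup.centralizer ((R : Subgroup G) : Set G)) := by
  classical
  let : CommGroup V := { (inferInstance : Group V) with mul_comm := hV.is_comm.comm }
  let : Fintype (R ⧸ S) := Fintype.ofFinite _
  let act : R → V → V := fun r w => ⟨r * w * (r : G)⁻¹, (Subgroup.mem_normalizer_iff.1 (hRV r.2) _).1 w.2⟩
  have hact : ∀ r w₁ w₂, act r (w₁ * w₂) = act r w₁ * act r w₂ := fun r w₁ w₂ =>
    Subtype.ext (by simp [act, mul_assoc])
  let actHom : R → (V →* V) := fun r => MonoidHom.mk' (act r) (hact r)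
  let f : R ⧸ S → V := fun q => act q.out ⟨v, hv⟩
  set n : V := ∏ q, f q with hn
  have hfix : ∀ r : R, act r n = n := by
    intro r
    have key : ∀ q, act r (f q) = f (r • q) := by
      intro q
      obtain ⟨t, ht⟩ : ∃ t : S, (r • q).out = r * q.out * t := by
        have h := QuotientGroup.mk_out_eq_mul S (r * q.out)
        obtain ⟨t, ht⟩ := h
        refine ⟨t, ?_⟩
        rw [← ht]
        congr 1
        conv_lhs => rw [← QuotientGroup.out_eq' q]
        rfl
      refine Subtype.ext ?_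
      show (r : G) * ((q.out : R) * v * ((q.out : R) : G)⁻¹) * (r : G)⁻¹ =
        ((r • q).out : G) * v * ((r • q).out : G)⁻¹
      rw [ht, Subgroup.coe_mul, Subgroup.coe_mul]
      have h := hS t t.2
      calc _ = (r : G) * q.out * (v * (t : R) * ((t : R) : G)⁻¹) * ((r : G) * q.out)⁻¹ := by group
        _ = (r : G) * q.out * ((t : R) * v * ((t : R) : G)⁻¹) * ((r : G) * q.out)⁻¹ := by rw [h]
        _ = _ := by group
    calc act r n = actHom r n := rfl
      _ = ∏ q, actHom r (f q) := map_prod (actHom r) _ _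
      _ = ∏ q, f (r • q) := Finset.prod_congr rfl fun q _ => key q
      _ = n := Equiv.prod_comp (MulAction.toPerm r) f
  have hnC : (n : G) ∈ Subgroup.centralizer (R : Set G) := by
    rw [Subgroup.mem_centralizer_iff]
    intro r hr
    exact mul_inv_eq_iff_eq_mul.1 (congrArg Subtype.val (hfix ⟨r, hr⟩))
  set D := (⁅V, R⁆).subgroupOf V with hD
  have hDn : D.Normal := inferInstance
  have hcong : ∀ q, QuotientGroup.mk' D (f q) = QuotientGroup.mk' D ⟨v, hv⟩ := by
    intro q
    rw [QuotientGroup.mk'_eq_mk']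
    refine ⟨(f q)⁻¹ * ⟨v, hv⟩, ?_, mul_inv_cancel_left _ _⟩
    rw [hD, Subgroup.mem_subgroupOf, mul_comm]
    have : ((⟨v, hv⟩ * (f q)⁻¹ : V) : G) = ⁅v, (q.out : G)⁆ := by
      rw [commutatorElement_def]
      show v * ((q.out : G) * v * (q.out : G)⁻¹)⁻¹ = _
      group
    rw [this]
    exact Subgroup.commutator_mem_commutator hv q.out.2
  have hpow : QuotientGroup.mk' D n = QuotientGroup.mk' D ((⟨v, hv⟩ : V) ^ S.index) := by
    rw [hn, map_prod, map_pow, Finset.prod_congr rfl (fun q _ => hcong q), Finset.prod_const,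
      Finset.card_univ, ← Nat.card_eq_fintype_card]
    rfl
  obtain ⟨d, hd, hnd⟩ := (QuotientGroup.mk'_eq_mk' D).1 hpow
  have : v ^ S.index = (n : G) * d := by
    have := congrArg Subtype.val hnd
    simpa using this.symm
  rw [this]
  exact mul_mem (Subgroup.mem_sup_right ⟨n.2, hnC⟩) (Subgroup.mem_sup_left hd)


/-- Let H act faithfully by conjugation on the elementary abelian p-subgroup V of a finite group, let O^p(H) be the subgroup of H generated by its elements of order prime to p, and T a Sylow p-subgroup of O^p(H). If V is generated by the H-conjugates of C_V(T) (V is the smallest H-invariant subgroup containing C_V(T)), then V = [V, O^p(H)]·C_V(O^p(H)). -/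
theorem result {G : Type*} [Group G] [Finite G] {p : ℕ} [Fact p.Prime] (V H : Subgroup G) (hV : Cfsg.IsElementaryAbelian p V) (hHV : H ≤ Subgroup.normalizer (V : Set G)) (hf : H ⊓ Subgroup.centralizer (V : Set G) = ⊥) (R : Subgroup G) (hR : R = (Cfsg.pResidual p ↥H).map H.subtype) (S : Sylow p ↥R) (T : Subgroup G) (hT : T = ((S : Subgroup ↥R).map R.subtype)) (hgen : ∀ W : Subgroup G, H ≤ Subgroup.normalizer (W : Set G) → (V ⊓ Subgroup.centralizer ((T : Subgroup G) : Set G)) ≤ W → V ≤ W) : ⁅V, R⁆ ⊔ (V ⊓ Subgroup.centralizer ((R : Subgroup G) : Set G)) = V := by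
  have hRH : R ≤ H := hR ▸ Subgroup.map_subtype_le _
  have hRV : R ≤ Subgroup.normalizer (V : Set G) := hRH.trans hHV
  have hRn : ∀ h ∈ H, ∀ r ∈ R, h * r * h⁻¹ ∈ R := by
    intro h hh r hr
    rw [hR] at hr ⊢
    obtain ⟨w, hw, rfl⟩ := hr
    exact ⟨⟨h, hh⟩ * w * ⟨h, hh⟩⁻¹, Agent.H22.pResidual_normal.conj_mem w hw ⟨h, hh⟩, rfl⟩
  set C := V ⊓ Subgroup.centralizer ((R : Subgroup G) : Set G) with hC
  have hle : ⁅V, R⁆ ⊔ C ≤ V := sup_le (Subgroup.commutator_le.2 fun a ha b hb => by
    rw [commutatorElement_def, mul_assoc a b, mul_assoc a]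
    exact mul_mem ha ((Subgroup.mem_normalizer_iff.1 (hRV hb) _).1 (inv_mem ha))) inf_le_left
  refine le_antisymm hle (hgen _ ?_ ?_)
  · intro h hh
    have key : ∀ g ∈ H, ⁅V, R⁆ ⊔ C ≤ (⁅V, R⁆ ⊔ C).comap (MulAut.conj g).toMonoidHom := by
      intro g hg
      have hVg : ∀ a ∈ V, g * a * g⁻¹ ∈ V := fun a ha => (Subgroup.mem_normalizer_iff.1 (hHV hg) a).1 ha
      refine sup_le (Subgroup.commutator_le.2 fun a ha b hb => ?_) fun a ha => ?_
      · refine Subgroup.mem_sup_left (show (MulAut.conj g).toMonoidHom ⁅a, b⁆ ∈ ⁅V, R⁆ from ?_)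
        rw [map_commutatorElement]
        exact Subgroup.commutator_mem_commutator (hVg a ha) (hRn g hg b hb)
      · refine Subgroup.mem_sup_right ⟨hVg a ha.1, Subgroup.mem_centralizer_iff.2 fun r hr => ?_⟩
        have h1 : g⁻¹ * r * g ∈ R := by simpa using hRn g⁻¹ (inv_mem hg) r hr
        have h2 := Subgroup.mem_centralizer_iff.1 ha.2 _ h1
        show r * (g * a * g⁻¹) = g * a * g⁻¹ * r
        calc r * (g * a * g⁻¹) = g * (g⁻¹ * r * g * a) * g⁻¹ := by group
          _ = g * (a * (g⁻¹ * r * g)) * g⁻¹ := by rw [h2]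
          _ = g * a * g⁻¹ * r := by group
    rw [Subgroup.mem_normalizer_iff]
    refine fun a => ⟨fun ha => key h hh ha, fun ha => ?_⟩
    have h3 := key h⁻¹ (inv_mem hh) ha
    rw [Subgroup.mem_comap] at h3
    simp only [MulEquiv.coe_toMonoidHom, MulAut.conj_apply] at h3
    rwa [show h⁻¹ * (h * a * h⁻¹) * h⁻¹⁻¹ = a by group] at h3
  · rintro v ⟨hvV, hvT⟩
    have hm := pow_index_mem V R hV.1 hRV (S : Subgroup R) v hvV fun s hs =>
      Subgroup.mem_centralizer_iff.1 hvT _ (hT ▸ ⟨s, hs, rfl⟩)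
    have hcop : (S : Subgroup R).index.Coprime p :=
      Nat.Coprime.symm ((Fact.out : p.Prime).coprime_iff_not_dvd.2 S.not_dvd_index)
    have hg := Nat.gcd_eq_gcd_ab (S : Subgroup R).index p
    rw [hcop.gcd_eq_one, Nat.cast_one] at hg
    have : v = (v ^ (S : Subgroup R).index) ^ Nat.gcdA (S : Subgroup R).index p := by
      conv_lhs => rw [← zpow_one v, hg, zpow_add, zpow_mul, zpow_mul, zpow_natCast, zpow_natCast,
        hV.2 v hvV, one_zpow, mul_one]
    rw [this]
    exact zpow_mem hm _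

end Cfsg.Agent.S2781
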