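import Cfsg.Statements.S2788
import Cfsg.Agent.H72.SLModuleBound
import Cfsg.Agent.H72.NaturalModule

open scoped commutatorElement

set_option autoImplicit false
open Cfsg

namespace Cfsg.Agent.S2788

/-- Let H act faithfully by conjugation on the elementary abelian p-subgroup V of a finite group with H ≅ SL₂(F), F a field with p^n elements, S a Sylow p-subgroup of H, and A ≤ S a subgroup of order at least 3 acting quadratically on V ([V, A, A] = 1). Then |V/C_V(a)| ≥ p^n for every nonidentity a ∈ A. -/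
theorem result {G : Type*} [Group G] [Finite G] {p : ℕ} [Fact p.Prime] (V H : Subgroup G) (hV : Cfsg.IsElementaryAbelian p V) (hHV : H ≤ Subgroup.normalizer (V : Set G)) (hf : H ⊓ Subgroup.centralizer (V : Set G) = ⊥) {F : Type*} [Field F] [Fintype F] (n : ℕ) (hF : Fintype.card F = p ^ n) (hiso : Nonempty (↥H ≃* Matrix.SpecialLinearGroup (Fin 2) F)) (S : Sylow p ↥H) (T : Subgroup G) (hT : T = ((S : Subgroup ↥H).map H.subtype)) (A : Subgroup G) (hA : A ≤ T) (hA3 : 3 ≤ Nat.card A) (hquad : ⁅⁅V, A⁆, A⁆ = ⊥) : ∀ a ∈ A, a ≠ 1 → p ^ n ≤ ((V ⊓ Subgroup.centralizer ({a} : Set G))).relIndex V := by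
  classical
  haveI := H72.charP_of_card (F := F) hF
  have hp : p.Prime := Fact.out
  haveI : IsMulCommutative V := hV.1
  letI : CommGroup V := { (inferInstance : Group V) with mul_comm := fun a b => IsMulCommutative.is_comm.comm a b }
  intro a ha ha1
  have hn : 0 < n := by
    rcases Nat.eq_zero_or_pos n with h | h
    · have := Fintype.one_lt_card (α := F); rw [hF, h, pow_zero] at this; omega
    · exact h
  -- the index is a power of p
  set C : Subgroup G := V ⊓ Subgroup.centralizer ({a} : Set G) with hCdef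
  obtain ⟨c, hc⟩ : ∃ c, C.relIndex V = p ^ c := by
    have hVp : IsPGroup p V := fun v => ⟨1, by rw [pow_one]; exact Subtype.ext (hV.2 v v.2)⟩
    obtain ⟨c, hc⟩ := hVp.index (C.subgroupOf V)
    exact ⟨c, hc⟩
  have haH : a ∈ H := Subgroup.map_subtype_le _ (hT ▸ hA ha)
  have hc0 : c ≠ 0 := by
    rintro rfl
    rw [pow_zero, Subgroup.relIndex_eq_one] at hc
    have : a ∈ H ⊓ Subgroup.centralizer (V : Set G) := ⟨haH, Subgroup.mem_centralizer_iff.2 fun v hv =>
      (Subgroup.mem_centralizer_singleton_iff.1 (hc hv).2)⟩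
    rw [hf, Subgroup.mem_bot] at this
    exact ha1 this
  rw [hc]
  refine Nat.pow_le_pow_right hp.pos ?_
  rcases Nat.lt_or_ge n 2 with hn2 | hn2
  · omega
  -- coordinates on H
  obtain ⟨e⟩ := hiso
  let Se : Sylow p (Matrix.SpecialLinearGroup (Fin 2) F) := S.mapSurjective (f := e.toMonoidHom) e.surjective
  obtain ⟨g, hg⟩ := MulAction.exists_smul_eq (Matrix.SpecialLinearGroup (Fin 2) F) Se (H1.sylowSL (F := F) p)
  let σ : H ≃* Matrix.SpecialLinearGroup (Fin 2) F := e.trans (MulAut.conj g)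
  obtain ⟨α, hα⟩ : ∃ α : F, σ ⟨a, haH⟩ = H1.upperUniHom F (Multiplicative.ofAdd α) := by
    have : σ ⟨a, haH⟩ ∈ H1.upperUni F := by
      rw [← H1.coe_sylowSL p, ← hg]
      obtain ⟨l, hl, hla⟩ := hT ▸ hA ha
      obtain rfl : l = ⟨a, haH⟩ := Subtype.ext hla
      exact ⟨e ⟨a, haH⟩, ⟨_, hl, rfl⟩, rfl⟩
    obtain ⟨d, hd⟩ := this
    exact ⟨d.toAdd, hd.symm⟩
  have hα0 : α ≠ 0 := by
    rintro rfl
    rw [ofAdd_zero, map_one, MulEquiv.map_eq_one_iff] at hα
    exact ha1 (congrArg Subtype.val hα)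
  -- the order to aim at
  obtain ⟨r, k₀, hr, hr2, hrp, hrd, hord⟩ : ∃ r k₀ : ℕ, r.Prime ∧ r ≠ 2 ∧ r ≠ p ∧
      r ^ (k₀ + 1) ∣ Nat.card (Matrix.SpecialLinearGroup (Fin 2) F) ∧
      ∀ d, r ^ (k₀ + 1) ∣ p ^ d - 1 → 2 * n ∣ d := by
    have hcard := H6.card_sl2 (F := F) hF
    by_cases h6 : p = 2 ∧ 2 * n = 6
    · obtain ⟨rfl, h6⟩ := h6
      obtain rfl : n = 3 := by omega
      refine ⟨3, 1, Nat.prime_three, by norm_num, by norm_num, by rw [hcard]; norm_num, fun d hd => ?_⟩
      have h9 : orderOf (2 : ZMod 9) = 6 := by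
        rw [orderOf_eq_iff (by norm_num)]
        refine ⟨by decide, fun m hm hm0 => ?_⟩
        interval_cases m <;> decide
      rw [show 2 * 3 = 6 from rfl, ← h9]
      refine orderOf_dvd_of_pow_eq_one ?_
      have h := (ZMod.natCast_eq_zero_iff _ _ |>.2 hd : ((2 ^ d - 1 : ℕ) : ZMod 9) = 0)
      rw [Nat.cast_sub (Nat.one_le_pow _ _ (by norm_num)), sub_eq_zero] at h
      simpa using h
    · obtain ⟨r, hr, hrd, hro⟩ := H74.exists_prime_orderOf_eq (a := p) (n := 2 * n) hp.one_lt (by omega) h6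
        (fun h => by omega)
      haveI : Fact r.Prime := ⟨hr⟩
      have hp0 : (p : ZMod r) ≠ 0 := fun h => by
        rw [h, orderOf_eq_zero] at hro
        · omega
        · intro hfin
          obtain ⟨m, hm, hm1⟩ := isOfFinOrder_iff_pow_eq_one.1 hfin
          rw [zero_pow hm.ne'] at hm1
          exact zero_ne_one hm1
      have hrp : r ≠ p := fun h => hp0 (by rw [← h]; exact ZMod.natCast_self r)
      have hr2 : r ≠ 2 := by
        rintro rfl
        have : (p : ZMod 2) ^ 1 = 1 := by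
          rw [pow_one]
          exact (ZMod.natCast_eq_one_iff_odd (n := p)).2 (hp.odd_of_ne_two fun h => hp0 (by rw [h]; rfl))
        have := orderOf_dvd_of_pow_eq_one this
        rw [hro, Nat.dvd_one] at this
        omega
      refine ⟨r, 0, hr, hr2, hrp, ?_, fun d hd => ?_⟩
      · rw [hcard, pow_one]
        refine dvd_mul_of_dvd_right ?_ _
        rw [← pow_mul, mul_comm]
        exact hrd
      · rw [← hro]
        refine orderOf_dvd_of_pow_eq_one ?_
        have h := (ZMod.natCast_eq_zero_iff _ _ |>.2 (by simpa using hd) : ((p ^ d - 1 : ℕ) : ZMod r) = 0)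
        rw [Nat.cast_sub (Nat.one_le_pow _ _ hp.pos), sub_eq_zero] at h
        simpa using h
  obtain ⟨k, hk⟩ := H72.exists_pair_orderOf (p := p) (e := k₀) hr hr2 hrp hrd hα0
  set m := r ^ (k₀ + 1) with hm
  let aH : H := ⟨a, haH⟩
  let k' : H := σ.symm k
  let a' : H := k' * aH * k'⁻¹
  let y : H := (aH * a') ^ 2
  have hy : orderOf y = m := by
    rw [← MulEquiv.orderOf_eq σ y, ← hk]
    congr 1
    simp only [y, a', k', map_pow, map_mul, map_inv, MulEquiv.apply_symm_apply, aH, hα]
  -- the action on V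
  have hmem : ∀ (h : H) (v : G), v ∈ V → (h : G) * v * (h : G)⁻¹ ∈ V := fun h v hv =>
    (Subgroup.mem_normalizer_iff.1 (hHV h.2) v).1 hv
  let φ : H →* MulAut V := MonoidHom.mk' (fun h =>
    { toFun := fun v => ⟨(h : G) * v * (h : G)⁻¹, hmem h v v.2⟩
      invFun := fun v => ⟨((h⁻¹ : H) : G) * v * ((h⁻¹ : H) : G)⁻¹, hmem h⁻¹ v v.2⟩
      left_inv := fun v => Subtype.ext (by simp [mul_assoc])
      right_inv := fun v => Subtype.ext (by simp [mul_assoc])
      map_mul' := fun v w => Subtype.ext (by simp [mul_assoc]) }) fun h₁ h₂ => by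
    apply MulEquiv.ext; intro v; exact Subtype.ext (by simp [mul_assoc])
  have hφ : Function.Injective φ := by
    rw [injective_iff_map_eq_one]
    intro h hh
    have : (h : G) ∈ H ⊓ Subgroup.centralizer (V : Set G) := ⟨h.2, Subgroup.mem_centralizer_iff.2 fun v hv => by
      have := congrArg (fun ψ : MulAut V => ((ψ ⟨v, hv⟩ : V) : G)) hh
      change (h : G) * v * (h : G)⁻¹ = v at this
      calc v * (h : G) = (h : G) * v * (h : G)⁻¹ * h := by rw [this]
        _ = (h : G) * v := by group⟩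
    rw [hf, Subgroup.mem_bot] at this
    exact Subtype.ext this
  set ψ := φ y with hψdef
  have hψ : orderOf ψ = r ^ (k₀ + 1) := by rw [hψdef, orderOf_injective φ hφ, hy]
  let U : Subgroup V :=
    { carrier := {v | (ψ ^ r ^ k₀) v = v}
      mul_mem' := fun {u v} hu hv => by simp only [Set.mem_setOf_eq] at *; rw [map_mul, hu, hv]
      one_mem' := map_one _
      inv_mem' := fun {u} hu => by simp only [Set.mem_setOf_eq] at *; rw [map_inv, hu] }
  have hVp : IsPGroup p V := fun v => ⟨1, by rw [pow_one]; exact Subtype.ext (hV.2 v v.2)⟩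
  have hcopV : (Nat.card V).Coprime r := by
    obtain ⟨j, hj⟩ := hVp.exists_card_eq
    rw [hj]
    exact ((Nat.coprime_primes hp hr).2 hrp.symm).pow_left j
  have hdvd := H72.dvd_index_fixed_sub_one ψ hr hψ hcopV U (fun v => Iff.rfl)
  obtain ⟨d, hd⟩ := hVp.index U
  rw [hd] at hdvd
  have h2n := hord d hdvd
  have hd0 : d ≠ 0 := by
    rintro rfl
    rw [pow_zero, Subgroup.index_eq_one] at hd
    have h1 : ψ ^ r ^ k₀ = 1 := MulEquiv.ext fun v => (hd ▸ Subgroup.mem_top v : v ∈ U)
    have := orderOf_dvd_of_pow_eq_one h1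
    rw [hψ, Nat.pow_dvd_pow_iff_le_right hr.one_lt] at this
    omega
  -- the common fixed points of a and a'
  set C' : Subgroup G := V ⊓ Subgroup.centralizer ({(a' : G)} : Set G) with hC'
  have hC'c : C'.relIndex V = p ^ c := by
    rw [← hc]
    have hVmap : V.map (MulAut.conj (k' : G)).toMonoidHom = V := by
      ext v
      rw [Subgroup.mem_map_equiv, MulAut.conj_symm_apply]
      have := Subgroup.mem_normalizer_iff.1 (inv_mem (hHV k'.2)) v
      simpa using this.symm
    have hCmap : C.map (MulAut.conj (k' : G)).toMonoidHom = C' := by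
      ext v
      rw [Subgroup.mem_map_equiv, MulAut.conj_symm_apply, hC', hCdef, Subgroup.mem_inf, Subgroup.mem_inf,
        Subgroup.mem_centralizer_singleton_iff, Subgroup.mem_centralizer_singleton_iff]
      have h1 : (k' : G)⁻¹ * v * k' ∈ V ↔ v ∈ V := by
        have := Subgroup.mem_normalizer_iff.1 (inv_mem (hHV k'.2)) v
        simpa using this.symm
      rw [h1]
      refine and_congr_right fun _ => ?_
      show (k' : G)⁻¹ * v * k' * a = a * ((k' : G)⁻¹ * v * k') ↔
        v * ((k' : G) * a * (k' : G)⁻¹) = (k' : G) * a * (k' : G)⁻¹ * v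
      constructor
      · intro h
        calc v * ((k' : G) * a * (k' : G)⁻¹) = (k' : G) * ((k' : G)⁻¹ * v * k' * a) * (k' : G)⁻¹ := by group
          _ = (k' : G) * (a * ((k' : G)⁻¹ * v * k')) * (k' : G)⁻¹ := by rw [h]
          _ = _ := by group
      · intro h
        calc (k' : G)⁻¹ * v * k' * a = (k' : G)⁻¹ * (v * ((k' : G) * a * (k' : G)⁻¹)) * k' := by group
          _ = (k' : G)⁻¹ * ((k' : G) * a * (k' : G)⁻¹ * v) * k' := by rw [h]
          _ = _ := by group
    rw [← hCmap]
    conv_lhs => rw [← hVmap]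
    exact Subgroup.relIndex_map_map_of_injective _ _ (MulAut.conj (k' : G)).injective
  have hWU : (C ⊓ C').subgroupOf V ≤ U := by
    intro v hv
    rw [Subgroup.mem_subgroupOf] at hv
    obtain ⟨⟨-, h1⟩, -, h2⟩ := hv
    have hfix : ∀ h : H, (v : G) * (h : G) = (h : G) * v → φ h v = v := fun h hh => Subtype.ext (by
      show (h : G) * v * (h : G)⁻¹ = v
      rw [← hh, mul_inv_cancel_right])
    have ha_fix := hfix aH (Subgroup.mem_centralizer_singleton_iff.1 h1)
    have ha'_fix := hfix a' (Subgroup.mem_centralizer_singleton_iff.1 h2)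
    have hy_fix : ψ v = v := by
      show φ ((aH * a') ^ 2) v = v
      rw [pow_two, map_mul, map_mul, MulAut.mul_apply, MulAut.mul_apply, MulAut.mul_apply, ha'_fix, ha_fix, ha'_fix, ha_fix]
    show (ψ ^ r ^ k₀) v = v
    generalize r ^ k₀ = j
    induction j with
    | zero => rfl
    | succ j ih => rw [pow_succ', MulAut.mul_apply, ih, hy_fix]
  have hle : p ^ d ≤ p ^ c * p ^ c := by
    rw [← hd]
    refine le_trans (Nat.le_of_dvd (Nat.pos_of_ne_zero Subgroup.index_ne_zero_of_finite)
      (Subgroup.index_dvd_of_le hWU)) ?_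
    show (C ⊓ C').relIndex V ≤ _
    refine Subgroup.relIndex_inf_le.trans ?_
    rw [hc, hC'c]
  rw [← pow_add] at hle
  have := (Nat.pow_le_pow_iff_right hp.one_lt).1 hle
  have := Nat.le_of_dvd (Nat.pos_of_ne_zero hd0) h2n
  omega

end Cfsg.Agent.S2788
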