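import Cfsg.Statements.S2791
import Cfsg.Agent.H93.Normal
import Cfsg.Agent.H93.Group

open scoped commutatorElement

set_option autoImplicit false
open Cfsg

namespace Cfsg.Agent.S2791

/-- Let S be a Sylow p-subgroup of the finite group G and A an abelian subgroup of S that is strongly closed in S with respect to G. Then A controls strong fusion in G: for some Sylow p-subgroup T containing A, whenever a subset of T is conjugated into T by an element of G, the same elementwise conjugation is induced by an element of N_G(A). -/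
theorem result {G : Type*} [Group G] [Finite G] {p : ℕ} [Fact p.Prime] (S : Sylow p G) (A : Subgroup G) (hA : IsMulCommutative ↥A) (hsc : Cfsg.IsStronglyClosed A (S : Subgroup G)) : Cfsg.ControlsStrongFusion p A := by
  have hS : IsPGroup p ↥(S : Subgroup G) := S.isPGroup'
  have hsc' : (Cfsg.groupFusionSystem (S : Subgroup G)).StronglyClosed A := by
    refine ⟨hsc.1, ?_⟩
    rintro R hRA φ ⟨-, hφS, g, hg⟩ x
    rw [hg x]
    exact hsc.2 x (hRA x.2) g (hg x ▸ hφS x)
  have hab : ∀ a ∈ A, ∀ b ∈ A, a * b = b * a := fun a ha b hb =>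
    congrArg Subtype.val (hA.is_comm.comm ⟨a, ha⟩ ⟨b, hb⟩)
  have hnorm := H93.isNormal_of_stronglyClosed_abelian (p := p) hS
    (H93.isSaturated_groupFusionSystem S) hsc' hab
  refine ⟨S, hsc.1, fun X hX => ⟨hX, fun g hg => ?_⟩⟩
  set P := Subgroup.closure X with hP
  have hPS : P ≤ (S : Subgroup G) := (Subgroup.closure_le _).2 hX
  have hgS : ∀ x : P, g * (x : G) * g⁻¹ ∈ (S : Subgroup G) := by
    have h : P ≤ (S : Subgroup G).comap (MulAut.conj g).toMonoidHom :=
      (Subgroup.closure_le _).2 fun x hx => hg ⟨x, hx, rfl⟩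
    exact fun x => h x.2
  obtain ⟨ψ, ⟨-, -, y, hy⟩, hext, hmap⟩ := hnorm.2 P ((MulAut.conj g).toMonoidHom.comp P.subtype)
    ⟨hPS, hgS, g, fun x => rfl⟩
  refine ⟨y, ?_, fun a ha => ?_⟩
  · refine Subgroup.mem_normalizer_iff_map_conj_eq.2 ?_
    conv_rhs => rw [← hmap]
    ext z
    simp only [Subgroup.mem_map, Subgroup.mem_subgroupOf]
    constructor
    · rintro ⟨a, ha, rfl⟩
      exact ⟨⟨a, (le_sup_right : A ≤ P ⊔ A) ha⟩, ha, hy _⟩
    · rintro ⟨a, ha, rfl⟩
      exact ⟨a, ha, (hy a).symm⟩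
  · exact ((hext ⟨a, Subgroup.subset_closure ha⟩).symm.trans (hy _) :)

end Cfsg.Agent.S2791
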