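import Cfsg.Statements.S2793
import Cfsg.Agent.H74.ZJFail.Main

set_option autoImplicit false
open Cfsg

namespace Cfsg.Agent.S2793

/-- Let p be an odd prime, S a Sylow p-subgroup of the finite group G, J(S) the subgroup generated by the abelian subgroups of S of largest order, and suppose Z(J(S)) does not control strong fusion in G. Put H = N_G(Z(J(S))). Then the group F(p) of upper triangular 3 × 3 matrices (a b c; 0 a⁻¹ d; 0 0 1) over the field with p elements is involved in H, and Z(J(S)) contains a subgroup C of order p with |N_H(C) : C_H(C)| = p − 1. -/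
theorem result {G : Type*} [Group G] [Finite G] {p : ℕ} [Fact p.Prime] (hp : p ≠ 2) (S : Sylow p G) (h : ¬ Cfsg.ControlsStrongFusion p (Cfsg.centerThompsonAOf (S : Subgroup G))) (H : Subgroup G) (hH : H = Subgroup.normalizer ((Cfsg.centerThompsonAOf (S : Subgroup G)) : Set G)) : Cfsg.Involves ↥(Cfsg.fOver (ZMod p)) ↥H ∧ ∃ C : Subgroup G, C ≤ (Cfsg.centerThompsonAOf (S : Subgroup G)) ∧ Nat.card C = p ∧ (H ⊓ Subgroup.centralizer (C : Set G)).relIndex (H ⊓ Subgroup.normalizer (C : Set G)) = p - 1 := by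
  subst hH
  open Cfsg.Agent.H74.ZJFail in
  obtain ⟨A, hA⟩ : ∃ A, Bad S A := by
    by_contra hn
    refine h ⟨S, zc_le (S := S), fun A hA => ⟨hA, fun g hg => ?_⟩⟩
    have hcA : Subgroup.closure A ≤ (S : Subgroup G) := (Subgroup.closure_le _).2 hA
    have hgA : Cfsg.Agent.H61.cj g (Subgroup.closure A) ≤ (S : Subgroup G) := by
      rw [Subgroup.map_le_iff_le_comap, Subgroup.closure_le]
      exact fun a ha => hg ⟨a, ha, rfl⟩
    by_contra hx
    refine hn ⟨Subgroup.closure A, hcA, g, hgA, fun hc => hx ?_⟩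
    obtain ⟨x, hxH, he⟩ := hc.exists_eq
    exact ⟨x, hxH, fun a ha => he a (Subgroup.subset_closure ha)⟩
  obtain ⟨hI, z, hz, x, hx, m, hzo, hm, hxz⟩ :=
    Cfsg.Agent.H74.ZJFail.concl_of_bad hp (Nat.card G) G S rfl ⟨A, hA⟩
  refine ⟨hI, Subgroup.zpowers z, Subgroup.zpowers_le.2 hz, by rw [Nat.card_zpowers, hzo], ?_⟩
  set H := Subgroup.normalizer ((Cfsg.centerThompsonAOf (S : Subgroup G)) : Set G) with hH
  set C := Subgroup.zpowers z with hC
  have hcard : Nat.card C = p := by rw [hC, Nat.card_zpowers, hzo]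
  let f : ↥(H ⊓ Subgroup.normalizer (C : Set G)) →* MulAut C :=
    (Subgroup.normalizerMonoidHom C).comp (Subgroup.inclusion inf_le_right)
  have hker : f.ker = (H ⊓ Subgroup.centralizer (C : Set G)).subgroupOf
      (H ⊓ Subgroup.normalizer (C : Set G)) := by
    rw [← MonoidHom.comap_ker, Subgroup.normalizerMonoidHom_ker]
    ext y
    exact ⟨fun hy => ⟨y.2.1, hy⟩, fun hy => hy.2⟩
  rw [Subgroup.relIndex, ← hker, Subgroup.index_ker]
  haveI : IsCyclic C := isCyclic_of_prime_card hcard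
  have hmul : Nat.card (MulAut C) = p - 1 := by
    rw [IsCyclic.card_mulAut, hcard, Nat.totient_prime Fact.out]
  refine Nat.dvd_antisymm (hmul ▸ Subgroup.card_subgroup_dvd_card f.range) ?_
  have hxC : x ∈ Subgroup.normalizer (C : Set G) := by
    refine Cfsg.Agent.H61.mem_normalizer_of_cj (Cfsg.Agent.H61.cj_eq_of_le ?_)
    rw [hC, Cfsg.Agent.H61.cj, MonoidHom.map_zpowers, Subgroup.zpowers_le]
    exact ⟨m, by simp [hxz]⟩
  let y : ↥(H ⊓ Subgroup.normalizer (C : Set G)) := ⟨x, hx, hxC⟩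
  refine (?_ : p - 1 ∣ orderOf (f y)).trans ?_
  · have hpow : ∀ k : ℕ, (x ^ k) * z * (x ^ k)⁻¹ = z ^ (m ^ k) := by
      intro k
      induction k with
      | zero => simp
      | succ k ih =>
        calc x ^ (k + 1) * z * (x ^ (k + 1))⁻¹ = x * (x ^ k * z * (x ^ k)⁻¹) * x⁻¹ := by
              rw [pow_succ']; group
          _ = (x * z * x⁻¹) ^ (m ^ k) := by rw [ih, conj_pow]
          _ = z ^ (m ^ (k + 1)) := by rw [hxz, ← pow_mul, ← pow_succ']
    have h1 : f (y ^ orderOf (f y)) = 1 := by rw [map_pow, pow_orderOf_eq_one]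
    have h2 : (x ^ orderOf (f y)) * z * (x ^ orderOf (f y))⁻¹ = z :=
      congrArg Subtype.val (DFunLike.congr_fun h1 (⟨z, Subgroup.mem_zpowers z⟩ : C))
    rw [hpow] at h2
    have h3 : ((m ^ orderOf (f y) : ℕ) : ZMod p) = ((1 : ℕ) : ZMod p) := by
      rw [ZMod.natCast_eq_natCast_iff', ← hzo]
      exact pow_inj_mod.1 (h2.trans (pow_one z).symm)
    rw [← hm]
    exact orderOf_dvd_of_pow_eq_one (by simpa using h3)
  · rw [← Subgroup.orderOf_mk (H := f.range) (f y) ⟨y, rfl⟩]
    exact orderOf_dvd_natCard _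

end Cfsg.Agent.S2793
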