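import Cfsg.Statements.S2807
import Cfsg.Agent.H80.YoshidaTransfer
import Cfsg.Agent.H93.Group

set_option autoImplicit false
open Cfsg
open scoped commutatorElement

namespace Cfsg.Agent.S2807

/-- Let S be a Sylow p-subgroup of the finite group G. If S ∩ G' ≠ S ∩ (N_G(S))' (derived subgroups), then the wreath product Z_p ≀ Z_p — realised as a Sylow p-subgroup of the symmetric group of degree p² — is a homomorphic image of S. -/
theorem result {G : Type*} [Group G] [Finite G] {p : ℕ} [Fact p.Prime] (S : Sylow p G) (h : (S : Subgroup G) ⊓ commutator G ≠ (S : Subgroup G) ⊓ ⁅Subgroup.normalizer ((S : Subgroup G) : Set G), Subgroup.normalizer ((S : Subgroup G) : Set G)⁆) : ∃ (P : Sylow p (Equiv.Perm (Fin (p ^ 2)))) (f : ↥(S : Subgroup G) →* ↥(P : Subgroup (Equiv.Perm (Fin (p ^ 2))))), Function.Surjective f := by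
  by_contra hW
  have hF : (Cfsg.groupFusionSystem (S : Subgroup G)).IsSaturated p := H93.isSaturated_groupFusionSystem S
  have htop := H80.Yoshida.focal_le_topFocal S.2 hF hW
  refine h (le_antisymm ?_ ?_)
  · have hfoc : (S : Subgroup G) ⊓ commutator G ≤ (Cfsg.groupFusionSystem (S : Subgroup G)).focalSubgroup := by
      rw [inf_comm, Subgroup.commutator_inf_eq_focalSubgroup S, Subgroup.focalSubgroup, Subgroup.closure_le]
      rintro _ ⟨hy, x, hx, u, rfl⟩
      have hP : Subgroup.zpowers x⁻¹ ≤ (S : Subgroup G) := by simpa using inv_mem hx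
      have hm : ∀ z : Subgroup.zpowers x⁻¹, u * (z : G) * u⁻¹ ∈ (S : Subgroup G) := by
        rintro ⟨_, k, rfl⟩
        show u * x⁻¹ ^ k * u⁻¹ ∈ _
        rw [← conj_zpow]
        have h1 := mul_mem (inv_mem hx) hy
        rw [commutatorElement_def, ← mul_assoc, ← mul_assoc, ← mul_assoc, inv_mul_cancel, one_mul] at h1
        exact zpow_mem h1 k
      refine Subgroup.subset_closure ⟨Subgroup.zpowers x⁻¹,
        ((MulAut.conj u).toMonoidHom).comp (Subgroup.zpowers x⁻¹).subtype,
        ⟨x⁻¹, Subgroup.mem_zpowers _⟩, ⟨hP, hm, u, fun z => rfl⟩, ?_⟩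
      simp [commutatorElement_def, mul_assoc]
    refine le_inf inf_le_left (hfoc.trans (htop.trans ?_))
    rw [H80.Yoshida.topFocal, Subgroup.closure_le]
    rintro _ ⟨α, hα, x, rfl⟩
    obtain ⟨-, -, g, hg⟩ := (H96.mem_autGroup _ le_rfl).1 hα
    have hgN : g ∈ Subgroup.normalizer ((S : Subgroup G) : Set G) := by
      refine Subgroup.mem_normalizer_iff.mpr fun s => ⟨fun hs => ?_, fun hs => ?_⟩
      · have := (α ⟨s, hs⟩).2
        rwa [show ((α ⟨s, hs⟩ : (S : Subgroup G)) : G) = g * s * g⁻¹ from hg ⟨s, hs⟩] at this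
      · obtain ⟨y, hy⟩ := α.surjective ⟨_, hs⟩
        have h1 : g * (y : G) * g⁻¹ = g * s * g⁻¹ := (hg y).symm.trans (congrArg Subtype.val hy)
        rw [← mul_left_cancel (mul_right_cancel h1)]
        exact y.2
    have h2 : (x : G)⁻¹ * ((α x : (S : Subgroup G)) : G) = ⁅(x : G)⁻¹, g⁆ := by
      rw [show ((α x : (S : Subgroup G)) : G) = g * x * g⁻¹ from hg x, commutatorElement_def]
      group
    show (x : G)⁻¹ * _ ∈ _
    rw [h2]
    exact Subgroup.commutator_mem_commutator
      (inv_mem (Subgroup.le_normalizer x.2)) hgN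
  · exact inf_le_inf_left _ (Subgroup.commutator_mono le_top le_top)

end Cfsg.Agent.S2807
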