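import Cfsg.Statements.S2856
import Cfsg.Agent.H73.VertexV
import Cfsg.Agent.H19.Cores

set_option autoImplicit false
open Cfsg Cfsg.Agent
open scoped Pointwise commutatorElement

namespace Cfsg.Agent.S2856

/-- Let (M₁, M₂) be an amalgam pair in X satisfying the rank-two standing hypothesis (characteristic p, the normalizers in M₁ and in M₂ of a Sylow p-subgroup of M₁ ∩ M₂ equal and contained in M₁ ∩ M₂, and strongly p-embedded residues), λ a vertex of the coset graph, L_λ the subgroup of its stabilizer generated by the p-elements, Q_λ = O_p of the stabilizer, O^p(L_λ) the subgroup of L_λ generated by its elements of order prime to p, and V_λ^{(k)} the subgroup generated by the Z_μ over the vertices μ at distance at most k from λ (Z_μ being generated by the Ω₁(Z(S)), S a Sylow p-subgroup of the stabilizer of μ). If n ≥ 1 and V_λ^{(n)} ≤ Q_λ, then O^p(L_λ) does not centralize V_λ^{(n)}/[V_λ^{(n)}, Q_λ], that is, [V_λ^{(n)}, O^p(L_λ)] is not contained in [V_λ^{(n)}, Q_λ]. -/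
theorem result {X : Type*} [Group X] {p : ℕ} [Fact p.Prime] (M₁ M₂ : Subgroup X) (h : Cfsg.IsSpeAmalgamPair p M₁ M₂) (lam : Cfsg.CosetVertex M₁ M₂) (n : ℕ) (hn : 1 ≤ n) (V : Subgroup X) (hV : V = Cfsg.vertexVIter p M₁ M₂ n lam) (hVQ : V ≤ Cfsg.vertexQ p lam) : ¬ ⁅V, ((Cfsg.pResidual p ↥(Cfsg.pElementClosure p (MulAction.stabilizer X lam))).map (Cfsg.pElementClosure p (MulAction.stabilizer X lam)).subtype)⁆ ≤ ⁅V, Cfsg.vertexQ p lam⁆ := by
  subst hV
  obtain ⟨m, rfl⟩ : ∃ m, n = m + 1 := ⟨n - 1, by omega⟩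
  obtain ⟨μ, hμ⟩ := H72.exists_adj lam
  intro hle
  haveI := H72.finite_stab h.1 lam
  have hQle : vertexQ p lam ≤ MulAction.stabilizer X lam := H72.pCoreOf_le _ _
  haveI : Finite ↥(vertexQ p lam) := Finite.of_injective _ (Subgroup.inclusion_injective hQle)
  refine H73.vertexVIter_not_le h hμ m hVQ ?_
  have hW := (H73.vertexVIter_le_of_adj h.1.1 hμ.symm m).trans hVQ
  refine H73.le_of_le_sup_commutator (p := p) ?_ hVQ hW ?_ ?_
  · exact (H19.pCore_isPGroup p).map _
  · refine le_trans (fun g hg => ?_) (H73.stabilizer_le_normalizer_vertexVIter h.1 m μ)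
    exact (H72.mem_neighbourKernel.1 (H72.vertexQ_le_neighbourKernel h.1 lam hg)).2 μ hμ
  · exact (H73.vertexVIter_le_sup_commutator h hμ m).trans (sup_le_sup_left hle _)

end Cfsg.Agent.S2856
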