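import Cfsg.Statements.S2941
import Cfsg.Agent.H74.JCompBasic

set_option autoImplicit false
open Cfsg

namespace Cfsg.Agent.S2941

/-- Let G be a finite group of characteristic 2 type in which every 2-local subgroup is solvable and the centralizer of Ω₁(Z(S)) lies in N_G(S) for every Sylow 2-subgroup S, and let T be a nontrivial 2-subgroup and K a J(T)-component (J the Thompson subgroup generated by the elementary abelian 2-subgroups of largest order). If a subgroup Q is normalized by ⟨K, J(T)⟩ and normalizes J(T), then Q normalizes K. -/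
theorem result {G : Type*} [Group G] [Finite G] (hL : Cfsg.IsCharacteristicTwoType G) (hN : ∀ N : Subgroup G, Cfsg.IsTwoLocal N → Group.IsSolvable ↥N)
    (hZ : ∀ S : Sylow 2 G, Subgroup.centralizer (Cfsg.omegaCenterOf (S : Subgroup G) : Set G) ≤ Subgroup.normalizer ((S : Subgroup G) : Set G)) (T : Subgroup G) (hT : IsPGroup 2 ↥T) (hT1 : T ≠ ⊥) (K : Subgroup G) (hK : Cfsg.IsJComponent T K)
    (Q : Subgroup G) (hQ1 : K ⊔ Cfsg.thompsonSubgroupOf 2 T ≤ Subgroup.normalizer (Q : Set G)) (hQ2 : Q ≤ Subgroup.normalizer (Cfsg.thompsonSubgroupOf 2 T : Set G)) :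
    Q ≤ Subgroup.normalizer (K : Set G) := by
  haveI : Fact (Nat.Prime 2) := ⟨Nat.prime_two⟩
  exact H74.normalizes_odd_generated hK.1 hK.2.1 (hT.to_le (H34.thompsonSubgroupOf_le T)) hQ1 hQ2

end Cfsg.Agent.S2941
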