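import Cfsg.Statements.S2944
import Cfsg.Agent.H74.JLocal

set_option autoImplicit false
open Cfsg

namespace Cfsg.Agent.S2944

/-- Let G be a finite group of characteristic 2 type in which every 2-local subgroup is solvable and the centralizer of Ω₁(Z(S)) lies in N_G(S) for every Sylow 2-subgroup S, and let T be a nontrivial 2-subgroup (below, J is the Thompson subgroup generated by the elementary abelian 2-subgroups of largest order) and K a J(T)-component such that J(T) is the Thompson subgroup of every Sylow 2-subgroup of N_G(W_K) containing J(T), where W_K = [Ω₁(Z(O₂(K))), K]. Then N_G(K) = N_G(W_K), and K is a J(Tᵍ)-component for every conjugate Tᵍ of T with J(Tᵍ) ≤ N_G(W_K). -/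
theorem result {G : Type*} [Group G] [Finite G] (hL : Cfsg.IsCharacteristicTwoType G) (hN : ∀ N : Subgroup G, Cfsg.IsTwoLocal N → Group.IsSolvable ↥N)
    (hZ : ∀ S : Sylow 2 G, Subgroup.centralizer (Cfsg.omegaCenterOf (S : Subgroup G) : Set G) ≤ Subgroup.normalizer ((S : Subgroup G) : Set G)) (T : Subgroup G) (hT : IsPGroup 2 ↥T) (hT1 : T ≠ ⊥) (K : Subgroup G) (hK : K ∈ Cfsg.jComponentsZero T) :
    Subgroup.normalizer (K : Set G) = Subgroup.normalizer (Cfsg.wOf K : Set G) ∧
      ∀ g : G, Cfsg.thompsonSubgroupOf 2 (T.map (MulAut.conj g).toMonoidHom) ≤ Subgroup.normalizer (Cfsg.wOf K : Set G) →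
        Cfsg.IsJComponent (T.map (MulAut.conj g).toMonoidHom) K := by
  exact H74.JB.zero_normalizer ⟨hL, hN, hZ⟩ hT hK

end Cfsg.Agent.S2944
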