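import Cfsg.Statements.S2951
import Cfsg.Agent.H74.JPair

set_option autoImplicit false
open Cfsg

namespace Cfsg.Agent.S2951

/-- Let G be a finite group of characteristic 2 type in which every 2-local subgroup is solvable and the centralizer of Ω₁(Z(S)) lies in N_G(S) for every Sylow 2-subgroup S; suppose O₂(G) = 1, fix a Sylow 2-subgroup S and a 2-local subgroup M containing N_G(J(S)) (J the Thompson subgroup generated by the elementary abelian 2-subgroups of largest order), and put Z = Ω₁(Z(S)). Let T ≤ S be maximal (for the order of a largest elementary abelian subgroup, then the order of J(T), then the order of T) among the nontrivial 2-subgroups of M lying in a 2-local subgroup not inside M, K a J(T)-component not contained in M with J(T) the Thompson subgroup of every Sylow 2-subgroup of N_G(W_K) containing J(T), and O₂(⟨K, T⟩) ≠ 1, L a maximal 2-local subgroup containing ⟨K, J(T)⟩ (there is only one), and Z₀ = Ω₁(Z(J(T))). Then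 Z₀ ∩ W_K ≠ 1, and one of: Z = Z₀ has order 2; Z = Z₀ has order 4 and T = S; Ω₁(Z(T)) = Z₀ has order 4 and C_L(Z₀) has index 2 in N_G(Z₀). -/
theorem result {G : Type*} [Group G] [Finite G] (hL : Cfsg.IsCharacteristicTwoType G) (hN : ∀ N : Subgroup G, Cfsg.IsTwoLocal N → Group.IsSolvable ↥N)
    (hZ : ∀ S : Sylow 2 G, Subgroup.centralizer (Cfsg.omegaCenterOf (S : Subgroup G) : Set G) ≤ Subgroup.normalizer ((S : Subgroup G) : Set G)) (hO : Cfsg.pCore 2 G = ⊥) (S : Sylow 2 G) (M : Subgroup G) (hM : Cfsg.IsTwoLocal M)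
    (hMJ : Subgroup.normalizer (Cfsg.thompsonSubgroupOf 2 (S : Subgroup G) : Set G) ≤ M) (T : Subgroup G) (hT : T ∈ Cfsg.maxStraddlingTwoSubgroups M)
    (hTS : T ≤ (S : Subgroup G)) (K : Subgroup G) (hK : K ∈ Cfsg.jComponentsOutside M T)
    (L : Subgroup G) (hLmax : Cfsg.IsMaximalTwoLocal L) (hKL : K ⊔ Cfsg.thompsonSubgroupOf 2 T ≤ L)
    (Z Z₀ : Subgroup G) (hZdef : Z = Cfsg.omegaCenterOf (S : Subgroup G)) (hZ₀ : Z₀ = Cfsg.omegaCenterOf (Cfsg.thompsonSubgroupOf 2 T)) :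
    Z₀ ⊓ Cfsg.wOf K ≠ ⊥ ∧
      ((Z = Z₀ ∧ Nat.card ↥Z₀ = 2) ∨ (Z = Z₀ ∧ Nat.card ↥Z₀ = 4 ∧ T = (S : Subgroup G)) ∨
        (Cfsg.omegaCenterOf T = Z₀ ∧ Nat.card ↥Z₀ = 4 ∧
          (L ⊓ Subgroup.centralizer (Z₀ : Set G)).relIndex (Subgroup.normalizer (Z₀ : Set G)) = 2)) := by
  haveI : Fact (Nat.Prime 2) := ⟨Nat.prime_two⟩
  subst hZdef hZ₀
  have hZN : H74.JB.ZN G := ⟨hL, hN, hZ⟩
  obtain ⟨hT2, hT1, -, -⟩ := hT.1
  obtain ⟨hW2, -, -, hcard⟩ := H74.JB.z0_split hT2 hK.1.1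
  refine ⟨fun h0 => by rw [h0, Subgroup.card_bot] at hW2; omega, ?_⟩
  obtain ⟨L₀, K', L', hP, hP', hne, h4, -⟩ := H74.JB.exists_pair hZN hO S hMJ hT hTS hK
  have hLe : L = L₀ := (hLmax.2 L₀ hP.cont.max.1 (hP.cont.univ L hLmax.1 hKL)).symm
  subst hLe
  have hS1 : (S : Subgroup G) ≠ ⊥ := fun e => hT1 (le_bot_iff.mp (e ▸ hTS))
  have hS2 : IsPGroup 2 (S : Subgroup G) := S.isPGroup'
  have hZle : omegaCenterOf (S : Subgroup G) ≤ omegaCenterOf (thompsonSubgroupOf 2 T) := fun x hx =>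
    (H74.JB.center_mem_z0 hT1 hP.ovg hTS hx).2
  have hZ2 : 2 ≤ Nat.card ↥(omegaCenterOf (S : Subgroup G)) := by
    haveI := (Subgroup.nontrivial_iff_ne_bot _).mpr (H74.JB.omega_ne_bot hS2 hS1)
    exact Finite.one_lt_card
  set Z₀ := omegaCenterOf (thompsonSubgroupOf 2 T) with hZ₀
  have hc1 : 1 ≤ Nat.card ↥(H74.JB.cZero T K) := Nat.card_pos
  rcases (show Nat.card ↥(H74.JB.cZero T K) = 1 ∨ Nat.card ↥(H74.JB.cZero T K) = 2 by omega) with hC | hC
  · exact Or.inl ⟨Subgroup.eq_of_le_of_card_ge hZle (by omega), by omega⟩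
  by_cases hTeq : T = (S : Subgroup G)
  · refine Or.inr (Or.inl ⟨?_, by omega, hTeq⟩)
    rw [← hTeq]
    exact hP.omega_eq
  refine Or.inr (Or.inr ⟨hP.omega_eq, by omega, ?_⟩)
  obtain ⟨g, hg, hgT⟩ := SetLike.exists_of_lt (H22.lt_inf_normalizer_of_lt hS2 (lt_of_le_of_ne hTS hTeq))
  have hgL : g ∉ L := fun hh => hgT (by
    have hX := H74.JB.sylow_max hP.ovg.1 (X := (S : Subgroup G) ⊓ Subgroup.normalizer (T : Set G) ⊓ L)
      (hS2.to_le (inf_le_left.trans inf_le_left)) (le_inf (le_inf hTS Subgroup.le_normalizer) hP.ovg.1.1)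
      inf_le_right
    exact hX.le ⟨hg, hh⟩)
  have hgN : g ∈ Subgroup.normalizer (Z₀ : Set G) := by
    rw [Subgroup.mem_normalizer_iff_map_conj_eq]
    exact (H74.JB.map_omegaCenterOf (MulAut.conj g).injective _).trans (congrArg omegaCenterOf
      (Subgroup.mem_normalizer_iff_map_conj_eq.mp (H34.normalizer_le_normalizer_thompson T hg.2)))
  obtain ⟨c, hc, hc1'⟩ : ∃ c ∈ H74.JB.cZero T K, c ≠ 1 := by
    by_contra hh
    push Not at hh
    rw [(Subgroup.eq_bot_iff_forall _).mpr hh, Subgroup.card_bot] at hC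
    omega
  have hcc : c * c = 1 := (H74.JB.omega_mem hc.1).2.2
  have hloc := H74.JB.centralizer_local ((H74.JB.z0_elem T).2 c hc.1) hc1'
  have hCc : Subgroup.centralizer ({c} : Set G) ≤ L := hP.cont.univ _ hloc (H74.JB.cZero_centralizer hc)
  have hCZ : Subgroup.centralizer (Z₀ : Set G) ≤ L := fun x hx =>
    hCc (Subgroup.mem_centralizer_singleton_iff.mpr (hx c hc.1).symm)
  obtain ⟨z, hz, hz1⟩ : ∃ z ∈ omegaCenterOf (S : Subgroup G), z ≠ 1 := by
    by_contra hh
    push Not at hh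
    exact H74.JB.omega_ne_bot hS2 hS1 ((Subgroup.eq_bot_iff_forall _).mpr hh)
  obtain ⟨hzS, hzc, hzz⟩ := H74.JB.omega_mem hz
  have hgz : g * z * g⁻¹ = z := by rw [hzc g hg.1, mul_inv_cancel_right]
  have hcz : c ≠ z := fun e => hgL (hCc (Subgroup.mem_centralizer_singleton_iff.mpr (e ▸ hzc g hg.1)))
  have hcases : ∀ x ∈ Z₀, x = 1 ∨ x = z ∨ x = c ∨ x = z * c := fun x hx =>
    H74.JB.four_cases h4 (hZle hz) hc.1 hz1 hc1' hcz.symm hzz hx
  have hZz : omegaCenterOf (S : Subgroup G) ≤ Subgroup.zpowers z := by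
    intro x hx
    rcases hcases x (hZle hx) with e | e | e | e
    · rw [e]; exact one_mem _
    · rw [e]; exact Subgroup.mem_zpowers z
    · exact absurd (Subgroup.mem_centralizer_singleton_iff.mpr ((H74.JB.omega_mem hx).2.1 g hg.1))
        (e ▸ fun hh => hgL (hCc hh))
    · refine absurd (Subgroup.mem_centralizer_singleton_iff.mpr ?_) (fun hh => hgL (hCc hh))
      have h1 : g * (z * c) = z * c * g := e ▸ (H74.JB.omega_mem hx).2.1 g hg.1
      exact mul_left_cancel (a := z) (by rw [← mul_assoc, ← hzc g hg.1, mul_assoc, h1, mul_assoc])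
  -- a member of `C₀(K)` is not conjugate to `z`
  have hnot : ∀ n : G, n * z * n⁻¹ ≠ c := by
    intro n e
    refine H74.JB.not_two_closed hT2 hK.1.1 (MulAut.conj n • S) ((H74.JB.cZero_centralizer hc).trans ?_)
    intro x hx
    have hxc : x * c = c * x := Subgroup.mem_centralizer_singleton_iff.mp hx
    have hm : n⁻¹ * x * n ∈ Subgroup.normalizer ((S : Subgroup G) : Set G) := hZ S fun w hw => by
      rcases H74.JB.eq_of_mem_zpowers hzz (hZz hw) with e' | e' <;> rw [e']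
      · rw [one_mul, mul_one]
      · calc z * (n⁻¹ * x * n) = n⁻¹ * (c * x) * n := by rw [← e]; group
          _ = n⁻¹ * (x * c) * n := by rw [hxc]
          _ = _ := by rw [← e]; group
    have h1 := Subgroup.map_normalizer_eq_of_bijective (S : Subgroup G)
      (f := (MulAut.conj n).toMonoidHom) (MulAut.conj n).bijective
    have h2 : n * (n⁻¹ * x * n) * n⁻¹ ∈ (Subgroup.normalizer ((S : Subgroup G) : Set G)).map
        (MulAut.conj n).toMonoidHom := ⟨_, hm, rfl⟩
    rw [show n * (n⁻¹ * x * n) * n⁻¹ = x by group] at h2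
    exact h1.le h2
  set c₂ := g * c * g⁻¹ with hc₂
  have hc₂c : c₂ ≠ c := fun e => hgL (hCc (Subgroup.mem_centralizer_singleton_iff.mpr (mul_inv_eq_iff_eq_mul.mp e)))
  have hc₂e : c₂ = z * c := by
    rcases hcases c₂ ((Subgroup.mem_normalizer_iff.mp hgN c).mp hc.1) with e | e | e | e
    · exact absurd (conj_eq_one_iff.mp e) hc1'
    · exact absurd (mul_left_cancel (mul_right_cancel (e.trans hgz.symm))) hcz
    · exact absurd e hc₂c
    · exact e
  have hfixz : ∀ n ∈ Subgroup.normalizer (Z₀ : Set G), n * z * n⁻¹ = z := by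
    intro n hn
    rcases hcases _ ((Subgroup.mem_normalizer_iff.mp hn z).mp (hZle hz)) with e | e | e | e
    · exact absurd (conj_eq_one_iff.mp e) hz1
    · exact e
    · exact absurd e (hnot n)
    · refine absurd ?_ (hnot (g⁻¹ * n))
      calc g⁻¹ * n * z * (g⁻¹ * n)⁻¹ = g⁻¹ * (n * z * n⁻¹) * g := by group
        _ = g⁻¹ * (g * c * g⁻¹) * g := by rw [e, ← hc₂e, hc₂]
        _ = c := by group
  have hdich : ∀ n ∈ Subgroup.normalizer (Z₀ : Set G), n * c * n⁻¹ = c ∨ n * c * n⁻¹ = z * c := by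
    intro n hn
    rcases hcases _ ((Subgroup.mem_normalizer_iff.mp hn c).mp hc.1) with e | e | e | e
    · exact absurd (conj_eq_one_iff.mp e) hc1'
    · exact absurd (mul_left_cancel (mul_right_cancel (e.trans (hfixz n hn).symm))) hcz
    · exact Or.inl e
    · exact Or.inr e
  have hmemC : ∀ n ∈ Subgroup.normalizer (Z₀ : Set G), n * c * n⁻¹ = c →
      n ∈ L ⊓ Subgroup.centralizer (Z₀ : Set G) := by
    intro n hn e
    have hC' : n ∈ Subgroup.centralizer (Z₀ : Set G) := fun x hx => by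
      refine (mul_inv_eq_iff_eq_mul.mp ?_).symm
      rcases hcases x hx with rfl | rfl | rfl | rfl
      · group
      · exact hfixz n hn
      · exact e
      · calc n * (z * c) * n⁻¹ = (n * z * n⁻¹) * (n * c * n⁻¹) := by group
          _ = _ := by rw [hfixz n hn, e]
    exact ⟨hCZ hC', hC'⟩
  have hfixc : ∀ n ∈ L ⊓ Subgroup.centralizer (Z₀ : Set G), n * c * n⁻¹ = c := fun n hn => by
    rw [← hn.2 c hc.1, mul_inv_cancel_right]
  rw [Subgroup.relIndex, Subgroup.index_eq_two_iff]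
  refine ⟨⟨g, hgN⟩, fun b => ?_⟩
  simp only [Subgroup.mem_subgroupOf, Subgroup.coe_mul]
  rcases hdich b b.2 with e | e
  · refine Or.inr ⟨hmemC b b.2 e, fun hh => hc₂c ?_⟩
    have h1 := hfixc _ hh
    have h2 : (b : G) * c₂ * (b : G)⁻¹ = c := by rw [← h1, hc₂]; group
    exact mul_left_cancel (mul_right_cancel (h2.trans e.symm))
  · refine Or.inl ⟨hmemC _ (mul_mem b.2 hgN) ?_, fun hh => hc₂c ?_⟩
    · calc (b : G) * g * c * ((b : G) * g)⁻¹ = (b : G) * (g * c * g⁻¹) * (b : G)⁻¹ := by group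
        _ = ((b : G) * z * (b : G)⁻¹) * ((b : G) * c * (b : G)⁻¹) := by rw [← hc₂, hc₂e]; group
        _ = z * (z * c) := by rw [hfixz b b.2, e]
        _ = c := by rw [← mul_assoc, hzz, one_mul]
    · rw [hc₂e, ← e]
      exact hfixc _ hh


end Cfsg.Agent.S2951
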