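import Cfsg.Statements.S3084
import Cfsg.Agent.H75.ExtraspecialClifford

set_option autoImplicit false
set_option linter.all false
open Cfsg

namespace Cfsg.Agent.S3084
open Cfsg.Agent.H75
open scoped commutatorElement

/-- Let K be a group acting faithfully and linearly on a finite-dimensional vector space U of dimension 2n ≥ 2 over the field with two elements, preserving a quadratic form q whose polar bilinear form is non-degenerate and which vanishes on some n-dimensional subspace (a non-singular form of plus type). Then there is a finite group R with a normal extraspecial 2-subgroup Q of order 2^(2n+1), an isomorphism of R/Q with K, and a surjective homomorphism χ from Q onto (the additive group of) U with kernel the centre of Q, such that χ carries conjugation by any r in R to the action of the image of r in K, and an element a of Q squares to the identity exactly when q vanishes at χ(a). -/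
theorem result {K : Type*} [Group K] {U : Type*} [AddCommGroup U] [Module (ZMod 2) U] [Module.Finite (ZMod 2) U] (n : ℕ) (hn1 : 1 ≤ n) (hn : Module.finrank (ZMod 2) U = 2 * n) (ρ : Representation (ZMod 2) K U) (hρ : Function.Injective ρ) (q : QuadraticForm (ZMod 2) U) (hq : ∀ (k : K) (u : U), q (ρ k u) = q u) (hnd : (QuadraticMap.polarBilin q).Nondegenerate) (hplus : ∃ W : Submodule (ZMod 2) U, Module.finrank (ZMod 2) ↥W = n ∧ ∀ w ∈ W, q w = 0) : ∃ (R : Type) (_ : Group R) (_ : Finite R) (Q : Subgroup R) (hN : Q.Normal) (e : R ⧸ Q ≃* K) (χ : ↥Q →* Multiplicative U), Cfsg.IsExtraspecial 2 ↥Q ∧ Nat.card ↥Q = 2 ^ (2 * n + 1) ∧ Function.Surjective χ ∧ χ.ker = Subgroup.center ↥Q ∧ (∀ (r : R) (a : ↥Q), χ ⟨r * a * r⁻¹, hN.conj_mem (a : R) a.2 r⟩ = Multiplicative.ofAdd (ρ (e (r : R ⧸ Q)) (Multiplicative.toAdd (χ a)))) ∧ ∀ a : ↥Q, a * a = 1 ↔ q (Multiplicative.toAdd (χ a)) = 0 := by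
  classical
  haveI : Fact (Nat.Prime 2) := ⟨Nat.prime_two⟩
  obtain ⟨W, hWn, hW0⟩ := hplus
  have hquot : Module.finrank (ZMod 2) (U ⧸ W) = Module.finrank (ZMod 2) (Fin n → ZMod 2) := by
    have := W.finrank_quotient_add_finrank
    rw [hWn, hn] at this
    rw [Module.finrank_fin_fun]
    omega
  let π : U →ₗ[ZMod 2] (Fin n → ZMod 2) := (LinearEquiv.ofFinrankEq _ _ hquot).toLinearMap.comp W.mkQ
  have hπW : ∀ u, π u = 0 → q u = 0 := fun u hu => hW0 u (by
    simpa [π] using hu)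
  obtain ⟨σ, hσ⟩ := π.exists_rightInverse_of_surjective (LinearMap.range_eq_top.mpr
    ((LinearEquiv.ofFinrankEq _ _ hquot).surjective.comp (Submodule.mkQ_surjective W)))
  let D : CliffData U n :=
    { q := q, π := π, σ := σ, hσ := fun c => LinearMap.congr_fun hσ c, hW := hπW,
      hnd := fun u hu => hnd.1 u fun v => hu v, hdim := hn }
  let ι := Fin n → ZMod 2
  let Rmem : Matrix.orthogonalGroup ι ℝ → K → Prop := fun T k =>
    ∀ u, ∃ s, (T : Matrix ι ι ℝ) * D.M u 0 * (T : Matrix ι ι ℝ).transpose = D.M (ρ k u) s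
  have hTT : ∀ T : Matrix.orthogonalGroup ι ℝ, (T : Matrix ι ι ℝ).transpose * (T : Matrix ι ι ℝ) = 1 :=
    fun T => (Matrix.mem_orthogonalGroup_iff' ι ℝ).mp T.2
  have hsgn : ∀ u s, D.M u s = sgn2 s • D.M u 0 := fun u s => by rw [← D.M_sign, add_zero]
  have hRmul : ∀ S T k l, Rmem S k → Rmem T l → Rmem (S * T) (k * l) := by
    intro S T k l hS hT u
    obtain ⟨t, ht⟩ := hT u
    obtain ⟨s, hs⟩ := hS (ρ l u)
    refine ⟨t + s, ?_⟩
    have e : ((S * T : Matrix.orthogonalGroup ι ℝ) : Matrix ι ι ℝ) = (S : Matrix ι ι ℝ) * T := rfl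
    rw [e, Matrix.transpose_mul, map_mul, Module.End.mul_apply, D.M_sign, ← hs]
    calc (S : Matrix ι ι ℝ) * T * D.M u 0 * ((T : Matrix ι ι ℝ).transpose * (S : Matrix ι ι ℝ).transpose)
        = (S : Matrix ι ι ℝ) * ((T : Matrix ι ι ℝ) * D.M u 0 * (T : Matrix ι ι ℝ).transpose) * (S : Matrix ι ι ℝ).transpose := by
          simp only [mul_assoc]
      _ = _ := by rw [ht, hsgn _ t, Matrix.mul_smul, Matrix.smul_mul]
  have hRone : Rmem 1 1 := fun u => ⟨0, by simp⟩
  have hRinv : ∀ T k, Rmem T k → Rmem T⁻¹ k⁻¹ := by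
    intro T k hT u
    obtain ⟨s, hs⟩ := hT (ρ k⁻¹ u)
    refine ⟨s, ?_⟩
    have e : ((T⁻¹ : Matrix.orthogonalGroup ι ℝ) : Matrix ι ι ℝ) = (T : Matrix ι ι ℝ).transpose := rfl
    rw [← Module.End.mul_apply, ← map_mul, mul_inv_cancel, map_one, Module.End.one_apply, hsgn u s] at hs
    have h1 : D.M (ρ k⁻¹ u) 0 = sgn2 s • ((T : Matrix ι ι ℝ).transpose * D.M u 0 * T) := by
      calc D.M (ρ k⁻¹ u) 0
          = (T : Matrix ι ι ℝ).transpose * ((T : Matrix ι ι ℝ) * D.M (ρ k⁻¹ u) 0 * (T : Matrix ι ι ℝ).transpose) * T := by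
            rw [← mul_assoc, ← mul_assoc, hTT, one_mul, mul_assoc, hTT, mul_one]
        _ = _ := by rw [hs, Matrix.mul_smul, Matrix.smul_mul]
    rw [e, Matrix.transpose_transpose, hsgn _ s, h1, smul_smul, sgn2_mul_self, one_smul]
  have huniq : ∀ T k l, Rmem T k → Rmem T l → k = l := by
    intro T k l hk hl
    refine hρ (LinearMap.ext fun u => ?_)
    obtain ⟨s, hs⟩ := hk u
    obtain ⟨t, ht⟩ := hl u
    exact (D.M_inj (hs.symm.trans ht)).1
  let RR : Subgroup (Matrix.orthogonalGroup ι ℝ) :=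
    { carrier := {T | ∃ k, Rmem T k}
      one_mem' := ⟨1, hRone⟩
      mul_mem' := fun {S T} ⟨k, hk⟩ ⟨l, hl⟩ => ⟨k * l, hRmul S T k l hk hl⟩
      inv_mem' := fun {T} ⟨k, hk⟩ => ⟨k⁻¹, hRinv T k hk⟩ }
  let Ψ : RR →* K :=
    { toFun := fun T => T.2.choose
      map_one' := huniq _ _ _ (1 : RR).2.choose_spec hRone
      map_mul' := fun S T => huniq _ _ _ (S * T).2.choose_spec (hRmul _ _ _ _ S.2.choose_spec T.2.choose_spec) }
  have hΨ : ∀ T : RR, Rmem T.1 (Ψ T) := fun T => T.2.choose_spec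
  have hΨeq : ∀ (T : RR) k, Rmem T.1 k → Ψ T = k := fun T k h => huniq _ _ _ (hΨ T) h
  have hΨsurj : Function.Surjective Ψ := by
    intro k
    obtain ⟨T, hT, hTM⟩ := D.exists_intertwiner (ρ k) (hq k)
    exact ⟨⟨⟨T, (Matrix.mem_orthogonalGroup_iff ι ℝ).mpr hT⟩, k, hTM⟩, hΨeq _ k hTM⟩
  let em : U → ZMod 2 → Matrix.orthogonalGroup ι ℝ := fun u s =>
    ⟨D.M u s, (Matrix.mem_orthogonalGroup_iff ι ℝ).mpr (D.M_mul_transpose u s)⟩
  have hemR : ∀ u s, Rmem (em u s) 1 := by
    intro u s v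
    refine ⟨QuadraticMap.polar D.q u v, ?_⟩
    show D.M u s * D.M v 0 * (D.M u s).transpose = _
    rw [D.M_comm, Matrix.smul_mul, mul_assoc, D.M_mul_transpose, mul_one, map_one, Module.End.one_apply,
      hsgn v (QuadraticMap.polar _ _ _)]
  let er : U → ZMod 2 → RR := fun u s => ⟨em u s, 1, hemR u s⟩
  have hker : ∀ T : RR, T ∈ Ψ.ker → ∃ u s, er u s = T := by
    intro T hT
    have h1 : Rmem T.1 1 := by rw [← (MonoidHom.mem_ker.mp hT)]; exact hΨ T
    choose s hs using h1
    simp only [map_one, Module.End.one_apply] at hs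
    have hadd : ∀ u v, s (u + v) = s u + s v := by
      intro u v
      have h2 : D.M u (s u) * D.M v (s v) = sgn2 (D.β u (D.π v)) • D.M (u + v) (s (u + v)) := by
        rw [← hs u, ← hs v, ← hs (u + v), ← Matrix.smul_mul, ← Matrix.mul_smul, ← D.M_sign]
        calc (T.1 : Matrix ι ι ℝ) * D.M u 0 * (T.1 : Matrix ι ι ℝ).transpose *
              ((T.1 : Matrix ι ι ℝ) * D.M v 0 * (T.1 : Matrix ι ι ℝ).transpose)
            = (T.1 : Matrix ι ι ℝ) * D.M u 0 * (((T.1 : Matrix ι ι ℝ).transpose * (T.1 : Matrix ι ι ℝ)) * D.M v 0) *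
                (T.1 : Matrix ι ι ℝ).transpose := by simp only [mul_assoc]
          _ = _ := by rw [hTT, one_mul, mul_assoc (T.1 : Matrix ι ι ℝ), D.M_mul]; simp
      rw [D.M_mul, ← D.M_sign] at h2
      have h3 := (D.M_inj h2).2
      linear_combination -h3
    let ψ : U →ₗ[ZMod 2] ZMod 2 := (AddMonoidHom.mk' s hadd).toZModLinearMap 2
    obtain ⟨v, hv⟩ := (LinearMap.injective_iff_surjective_of_finrank_eq_finrank
      (f := QuadraticMap.polarBilin q) (Subspace.dual_finrank_eq).symm).mp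
      (by rw [← LinearMap.ker_eq_bot, LinearMap.ker_eq_bot']; exact fun u hu => hnd.1 u fun w => LinearMap.congr_fun hu w) ψ
    have hX : ∀ u, (D.M v 0).transpose * (T.1 : Matrix ι ι ℝ) * D.M u 0 = D.M u 0 * ((D.M v 0).transpose * T.1) := by
      intro u
      have h4 : D.M v 0 * D.M u 0 * (D.M v 0).transpose = D.M u (s u) := by
        rw [D.M_comm, Matrix.smul_mul, mul_assoc, D.M_mul_transpose, mul_one, hsgn u (s u)]
        congr 2
        exact LinearMap.congr_fun hv u
      have h5 : (T.1 : Matrix ι ι ℝ) * D.M u 0 = D.M u (s u) * T.1 := by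
        rw [← hs u, mul_assoc, hTT, mul_one]
      calc (D.M v 0).transpose * (T.1 : Matrix ι ι ℝ) * D.M u 0
          = (D.M v 0).transpose * ((T.1 : Matrix ι ι ℝ) * D.M u 0) := mul_assoc _ _ _
        _ = ((D.M v 0).transpose * D.M v 0) * D.M u 0 * ((D.M v 0).transpose * T.1) := by
            rw [h5, ← h4]; simp only [mul_assoc]
        _ = _ := by rw [D.transpose_M_mul, one_mul]
    obtain ⟨c, hc⟩ := D.schur hX
    have hT' : (T.1 : Matrix ι ι ℝ) = c • D.M v 0 := by
      have h6 := congrArg (D.M v 0 * ·) hc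
      simp only [← mul_assoc, D.M_mul_transpose, one_mul, Matrix.mul_smul, mul_one] at h6
      exact h6
    have hc2 : c * c = 1 := by
      have h7 := (Matrix.mem_orthogonalGroup_iff ι ℝ).mp T.1.2
      rw [hT', Matrix.transpose_smul, Matrix.smul_mul, Matrix.mul_smul, smul_smul, D.M_mul_transpose] at h7
      simpa using congrFun (congrFun h7 0) 0
    rcases mul_self_eq_one_iff.mp hc2 with rfl | rfl
    · exact ⟨v, 0, Subtype.ext (Subtype.ext (by rw [hT', one_smul]))⟩
    · exact ⟨v, 1, Subtype.ext (Subtype.ext (by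
        rw [hT']; show D.M v 1 = _; rw [hsgn v 1]; simp [sgn2]))⟩
  have hermem : ∀ u s, er u s ∈ Ψ.ker := fun u s => MonoidHom.mem_ker.mpr (hΨeq _ 1 (hemR u s))
  haveI : Finite U := Module.finite_of_finite (ZMod 2)
  let f : U × ZMod 2 → Ψ.ker := fun x => ⟨er x.1 x.2, hermem _ _⟩
  have hf : Function.Bijective f := by
    refine ⟨fun x y h => ?_, fun T => ?_⟩
    · obtain ⟨h1, h2⟩ := D.M_inj (congrArg (fun t : Ψ.ker => ((t : RR).1 : Matrix ι ι ℝ)) h)
      exact Prod.ext h1 h2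
    · obtain ⟨u, s, h⟩ := hker T.1 T.2
      exact ⟨(u, s), Subtype.ext h⟩
  haveI hfk : Finite Ψ.ker := Finite.of_surjective f hf.2
  haveI hKfin : Finite K := by
    haveI : Finite (U →ₗ[ZMod 2] U) := Finite.of_injective _ DFunLike.coe_injective
    exact Finite.of_injective _ hρ
  haveI : Finite (RR ⧸ Ψ.ker) := Finite.of_injective _ (QuotientGroup.quotientKerEquivOfSurjective Ψ hΨsurj).injective
  haveI hfin : Finite RR := Finite.of_equiv _ (Subgroup.groupEquivQuotientProdSubgroup (s := Ψ.ker)).symm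
  let fe := Equiv.ofBijective f hf
  have hmulf : ∀ x y : U × ZMod 2, f x * f y = f (x.1 + y.1, x.2 + y.2 + D.β x.1 (D.π y.1)) := fun x y =>
    Subtype.ext (Subtype.ext (Subtype.ext (D.M_mul _ _ _ _)))
  let χ : Ψ.ker →* Multiplicative U :=
    MonoidHom.mk' (fun a => Multiplicative.ofAdd (fe.symm a).1) fun a b => by
      obtain ⟨x, rfl⟩ := fe.surjective a
      obtain ⟨y, rfl⟩ := fe.surjective b
      rw [show fe x * fe y = fe (x.1 + y.1, x.2 + y.2 + D.β x.1 (D.π y.1)) from hmulf x y]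
      simp only [Equiv.symm_apply_apply, ← ofAdd_add]
  have hχf : ∀ x, χ (f x) = Multiplicative.ofAdd x.1 := fun x => by
    show Multiplicative.ofAdd (fe.symm (fe x)).1 = _
    rw [Equiv.symm_apply_apply]
  have hone : (1 : Ψ.ker) = f (0, 0) := Subtype.ext (Subtype.ext (Subtype.ext D.M_zero.symm))
  have hcentral : ∀ x : U × ZMod 2, f x ∈ Subgroup.center Ψ.ker ↔ x.1 = 0 := by
    intro x
    rw [Subgroup.mem_center_iff]
    constructor
    · intro h
      refine D.hnd _ fun v => ?_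
      have h1 := h (f (v, 0))
      rw [hmulf, hmulf] at h1
      have h2 := congrArg Prod.snd (hf.1 h1)
      simp only [zero_add, add_zero] at h2
      rw [← D.β_polar]
      linear_combination h2 + CharTwo.add_self_eq_zero (D.β x.1 (D.π v))
    · intro hx g
      obtain ⟨y, rfl⟩ := hf.2 g
      rw [hmulf, hmulf]
      congr 1
      simp [hx, add_comm]
  have hcardQ : Nat.card Ψ.ker = 2 ^ (2 * n + 1) := by
    rw [← Nat.card_congr fe, Nat.card_prod, Nat.card_zmod, Module.natCard_eq_pow_finrank (K := ZMod 2) (V := U),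
      Nat.card_zmod, hn, pow_succ]
  have hsq : ∀ x : U × ZMod 2, f x * f x = f (0, D.q x.1) := by
    intro x
    rw [hmulf, D.β_self]
    congr 1
    refine Prod.ext ?_ ?_
    · show x.1 + x.1 = 0
      rw [← two_smul (ZMod 2) x.1, (CharTwo.two_eq_zero : (2 : ZMod 2) = 0), zero_smul]
    · show x.2 + x.2 + D.q x.1 = D.q x.1
      rw [CharTwo.add_self_eq_zero, zero_add]
  have hχsurj : Function.Surjective χ := fun u => ⟨f (Multiplicative.toAdd u, 0), by rw [hχf]; rfl⟩
  have hχker : χ.ker = Subgroup.center Ψ.ker := by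
    ext a
    obtain ⟨x, rfl⟩ := hf.2 a
    rw [MonoidHom.mem_ker, hχf, hcentral, ofAdd_eq_one]
  have hQe : Cfsg.IsExtraspecial 2 Ψ.ker := by
    refine Cfsg.Agent.H24.isExtraspecial_of (IsPGroup.of_card hcardQ) ?_ ?_ (fun a b => ?_) fun a => ?_
    · rw [← hχker]
      have h := Subgroup.card_eq_card_quotient_mul_card_subgroup χ.ker
      rw [Nat.card_congr (QuotientGroup.quotientKerEquivOfSurjective χ hχsurj).toEquiv, hcardQ,
        Nat.card_congr Multiplicative.toAdd, Module.natCard_eq_pow_finrank (K := ZMod 2) (V := U), Nat.card_zmod, hn,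
        pow_succ] at h
      exact (Nat.eq_of_mul_eq_mul_left (by positivity) h).symm
    · intro htop
      haveI : Nontrivial U := Module.nontrivial_of_finrank_pos (R := ZMod 2) (by omega)
      obtain ⟨u, hu⟩ := exists_ne (0 : U)
      exact hu ((hcentral (u, 0)).mp (htop ▸ Subgroup.mem_top _))
    · rw [← hχker, MonoidHom.mem_ker, map_commutatorElement]
      exact commutatorElement_eq_one_iff_mul_comm.mpr (mul_comm _ _)
    · obtain ⟨x, rfl⟩ := hf.2 a
      rw [pow_two, hsq, hcentral]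
  refine ⟨RR, inferInstance, hfin, Ψ.ker, inferInstance, QuotientGroup.quotientKerEquivOfSurjective Ψ hΨsurj, χ,
    hQe, hcardQ, hχsurj, hχker, fun r a => ?_, fun a => ?_⟩
  · obtain ⟨⟨u, s⟩, rfl⟩ := hf.2 a
    obtain ⟨t, ht⟩ := hΨ r u
    have h : (⟨r * (f (u, s) : RR) * r⁻¹, (inferInstance : (Ψ.ker).Normal).conj_mem _ (f (u, s)).2 r⟩ : Ψ.ker) =
        f (ρ (Ψ r) u, s + t) := by
      refine Subtype.ext (Subtype.ext (Subtype.ext ?_))
      show (r.1 : Matrix ι ι ℝ) * D.M u s * (r.1 : Matrix ι ι ℝ).transpose = D.M (ρ (Ψ r) u) (s + t)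
      rw [hsgn u s, Matrix.mul_smul, Matrix.smul_mul, ht, D.M_sign]
    rw [h, hχf, hχf, toAdd_ofAdd]
    rfl
  · obtain ⟨x, rfl⟩ := hf.2 a
    rw [hχf, toAdd_ofAdd, hsq, hone]
    exact ⟨fun h => congrArg Prod.snd (hf.1 h), fun h => by rw [show D.q x.1 = 0 from h]⟩

end Cfsg.Agent.S3084
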