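import Cfsg.Statements.S3085
import Mathlib

set_option autoImplicit false
set_option linter.all false
open Cfsg

namespace Cfsg.Agent.S3085
section
variable {Q : Type*} [Group Q]

/-- The reflection attached to `a`: fix what commutes with `a`, multiply the rest by `a`. -/
noncomputable def reflFun (a : Q) (q : Q) : Q := by
  classical exact if Commute q a then q else q * a

/-- Basic facts on a group whose commutators and squares lie in a centre of order two. -/
structure Small (Q : Type*) [Group Q] where
  z : Q
  central : ∀ g : Q, Commute z g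
  zz : z * z = 1
  comm : ∀ g h : Q, g * h = h * g ∨ g * h = h * g * z
  sq : ∀ g : Q, g * g = 1 ∨ g * g = z
  center : ∀ g : Q, (∀ h, Commute g h) → g = 1 ∨ g = z

theorem reflFun_comm (a : Q) {q : Q} (h : Commute q a) : reflFun a q = q := by
  classical simp [reflFun, h]

theorem reflFun_ncomm (a : Q) {q : Q} (h : ¬ Commute q a) : reflFun a q = q * a := by
  classical simp [reflFun, h]

theorem commute_mul_left_iff {q r a : Q} (h : Commute q a) : Commute (q * r) a ↔ Commute r a :=
  ⟨fun h2 => by simpa using h.inv_left.mul_left h2, fun h2 => h.mul_left h2⟩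

theorem commute_mul_right_iff {q r a : Q} (h : Commute r a) : Commute (q * r) a ↔ Commute q a :=
  ⟨fun h2 => by simpa using h2.mul_left h.inv_left, fun h2 => h2.mul_left h⟩

theorem Small.ncomm (S : Small Q) {g h : Q} (hn : ¬ Commute g h) : g * h = h * g * S.z :=
  (S.comm g h).resolve_left hn

theorem Small.commute_mul (S : Small Q) {q r a : Q} (hq : ¬ Commute q a) (hr : ¬ Commute r a) :
    Commute (q * r) a := by
  show q * r * a = a * (q * r)
  calc q * r * a = q * (r * a) := mul_assoc _ _ _
    _ = q * (a * r * S.z) := by rw [S.ncomm hr]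
    _ = q * a * r * S.z := by group
    _ = a * q * S.z * r * S.z := by rw [S.ncomm hq]
    _ = a * q * (r * S.z) * S.z := by rw [← (S.central r).eq]; group
    _ = a * (q * r) * (S.z * S.z) := by group
    _ = _ := by rw [S.zz, mul_one]

theorem reflFun_mul (S : Small Q) {a : Q} (ha : a * a = S.z) (q r : Q) :
    reflFun a (q * r) = reflFun a q * reflFun a r := by
  by_cases hq : Commute q a <;> by_cases hr : Commute r a
  · rw [reflFun_comm a hq, reflFun_comm a hr, reflFun_comm a (hq.mul_left hr)]
  · rw [reflFun_comm a hq, reflFun_ncomm a hr, reflFun_ncomm a (mt (commute_mul_left_iff hq).mp hr),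
      mul_assoc]
  · rw [reflFun_ncomm a hq, reflFun_comm a hr, reflFun_ncomm a (mt (commute_mul_right_iff hr).mp hq),
      mul_assoc, mul_assoc, hr.eq]
  · rw [reflFun_ncomm a hq, reflFun_ncomm a hr, reflFun_comm a (S.commute_mul hq hr)]
    symm
    calc q * a * (r * a) = q * (a * r) * a := by group
      _ = q * (r * a * S.z) * a := by rw [S.ncomm (mt Commute.symm hr)]
      _ = q * r * (a * (S.z * a)) := by group
      _ = q * r * (a * a) * S.z := by rw [(S.central a).eq]; group
      _ = q * r := by rw [ha, mul_assoc, S.zz, mul_one]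

/-- The reflection as an automorphism. -/
noncomputable def refl [Finite Q] (S : Small Q) {a : Q} (ha : a * a = S.z) : MulAut Q :=
  MulEquiv.ofBijective (MonoidHom.mk' (reflFun a) (reflFun_mul S ha))
    (Finite.injective_iff_bijective.mp <| (injective_iff_map_eq_one _).mpr fun q hq => by
      by_cases h : Commute q a
      · simpa [reflFun_comm a h] using hq
      · have hq' : q * a = 1 := by simpa [reflFun_ncomm a h] using hq
        rw [mul_eq_one_iff_eq_inv.mp hq'] at h
        exact absurd (Commute.refl a).inv_left h)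

theorem refl_apply [Finite Q] (S : Small Q) {a : Q} (ha : a * a = S.z) (q : Q) :
    refl S ha q = reflFun a q := rfl

/-- The correcting element of a reflection: the complement gives it, and it anticommutes with `a`. -/
theorem exists_lift [Finite Q] (S : Small Q) {L : Subgroup (MulAut Q)}
    (hL : (Cfsg.Inn Q).IsComplement' L) {a : Q} (ha : a * a = S.z) (hnc : ∃ g, ¬ Commute a g) :
    ∃ b : Q, MulAut.conj b * refl S ha ∈ L ∧ ¬ Commute b a := by
  obtain ⟨⟨⟨i, hi⟩, ⟨l, hl⟩⟩, hil⟩ := (Subgroup.isComplement'_def.mp hL).2 (refl S ha)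
  obtain ⟨b₀, hb₀⟩ := hi
  have hlb : MulAut.conj b₀⁻¹ * refl S ha = l := by
    simp only [← hil, ← hb₀, ← mul_assoc, ← map_mul, inv_mul_cancel, map_one, one_mul]
  refine ⟨b₀⁻¹, hlb ▸ hl, fun hb => ?_⟩
  have hll : l * l = MulAut.conj (b₀⁻¹ * b₀⁻¹ * a) := by
    rw [← hlb]
    ext q
    simp only [MulAut.mul_apply, MulAut.conj_apply]
    rw [map_mul (refl S ha), map_mul (refl S ha), map_inv (refl S ha)]
    simp only [refl_apply]
    simp only [reflFun_comm a hb, reflFun_comm a (Commute.inv_left_iff.mp hb), inv_inv]
    have h2 : reflFun a (reflFun a q) = a * q * a⁻¹ := by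
      by_cases h : Commute q a
      · rw [reflFun_comm a h, reflFun_comm a h, ← h.eq, mul_inv_cancel_right]
      · rw [reflFun_ncomm a h, reflFun_ncomm a (mt (commute_mul_right_iff (Commute.refl a)).mp h)]
        calc q * a * a = q * (a * a) := mul_assoc _ _ _
          _ = q * S.z := by rw [ha]
          _ = q * a * S.z * a⁻¹ := by rw [mul_assoc q a, ← (S.central a).eq]; group
          _ = a * q * a⁻¹ := by
            rw [S.ncomm h, mul_assoc (a * q), S.zz, mul_one]
    rw [h2]
    simp only [mul_inv_rev, inv_inv, mul_assoc]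
  have hmem : l * l ∈ L := mul_mem hl hl
  have h1 : l * l = 1 := by
    have := Subgroup.disjoint_def.mp hL.disjoint ⟨_, hll.symm⟩ hmem
    exact this
  obtain ⟨g, hg⟩ := hnc
  apply hg
  rw [hll] at h1
  have h2 := congrArg (fun f : MulAut Q => f g) h1
  simp only [MulAut.conj_apply, MulAut.one_apply, mul_inv_eq_iff_eq_mul] at h2
  have h3 : Commute (b₀⁻¹ * b₀⁻¹ * a) g := h2
  have h4 : Commute (b₀⁻¹ * b₀⁻¹) g := by
    rcases S.sq b₀⁻¹ with e | e <;> rw [e]
    · exact Commute.one_left g
    · exact S.central g
  exact (commute_mul_left_iff h4).mp h3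

/-- Corrections of commuting reflections are orthogonal to the other vector. -/
theorem commute_of_lift [Finite Q] (S : Small Q) {L : Subgroup (MulAut Q)}
    (hL : (Cfsg.Inn Q).IsComplement' L) {a c : Q} (ha : a * a = S.z) (hc : c * c = S.z)
    (hac : Commute a c) (hc1 : c ≠ 1 ∧ c ≠ S.z) (hne : a ≠ c ∧ a ≠ c * S.z) {b b' : Q}
    (hb : MulAut.conj b * refl S ha ∈ L) (hb' : MulAut.conj b' * refl S hc ∈ L) : Commute b c := by
  by_contra hbc
  have hsc : ∀ q, reflFun a (reflFun c q) = reflFun c (reflFun a q) := by
    intro q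
    by_cases h1 : Commute q a <;> by_cases h2 : Commute q c
    · rw [reflFun_comm c h2, reflFun_comm a h1, reflFun_comm c h2]
    · rw [reflFun_ncomm c h2, reflFun_comm a h1, reflFun_ncomm c h2, reflFun_comm a (h1.mul_left hac.symm)]
    · rw [reflFun_comm c h2, reflFun_ncomm a h1, reflFun_comm c (h2.mul_left hac)]
    · rw [reflFun_ncomm c h2, reflFun_ncomm a h1,
        reflFun_ncomm a (mt (commute_mul_right_iff hac.symm).mp h1),
        reflFun_ncomm c (mt (commute_mul_right_iff hac).mp h2), mul_assoc, mul_assoc, hac.eq]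
  set x := b * reflFun a b' with hx
  set y := b' * reflFun c b with hy
  have e1 : MulAut.conj b * refl S ha * (MulAut.conj b' * refl S hc) = MulAut.conj x * (refl S ha * refl S hc) := by
    ext q; simp only [hx, MulAut.mul_apply, MulAut.conj_apply]
    rw [map_mul (refl S ha), map_mul (refl S ha), map_inv (refl S ha)]
    simp only [refl_apply]; group
  have e2 : MulAut.conj b' * refl S hc * (MulAut.conj b * refl S ha) = MulAut.conj y * (refl S ha * refl S hc) := by
    ext q; simp only [hy, MulAut.mul_apply, MulAut.conj_apply]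
    rw [map_mul (refl S hc), map_mul (refl S hc), map_inv (refl S hc)]
    simp only [refl_apply, hsc]; group
  have h1 : MulAut.conj (x * y⁻¹) = 1 := by
    refine Subgroup.disjoint_def.mp hL.disjoint ⟨_, rfl⟩ ?_
    have := mul_mem (mul_mem hb hb') (inv_mem (mul_mem hb' hb))
    rw [e1, e2, mul_inv_rev, mul_assoc, mul_inv_cancel_left, ← map_inv, ← map_mul] at this
    exact this
  have h2 : x * y⁻¹ = 1 ∨ x * y⁻¹ = S.z := S.center _ fun g => by
    have := congrArg (fun f : MulAut Q => f g) h1
    simp only [MulAut.conj_apply, MulAut.one_apply, mul_inv_eq_iff_eq_mul] at this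
    exact this
  have hy' : y = b' * b * c := by rw [hy, reflFun_ncomm c hbc, mul_assoc]
  have hbb : b * b' = b' * b ∨ b * b' = b' * b * S.z := S.comm b b'
  by_cases hb'a : Commute b' a
  · have hx' : x = b * b' := by rw [hx, reflFun_comm a hb'a]
    rw [hx', hy', mul_inv_eq_iff_eq_mul, mul_inv_eq_iff_eq_mul, one_mul] at h2
    rcases h2 with e | e <;> rcases hbb with f | f <;> rw [f] at e
    · exact hc1.1 (mul_left_cancel ((mul_one _).trans e)).symm
    · exact hc1.2 (mul_left_cancel e).symm
    · rw [(S.central _).eq, mul_assoc (b' * b)] at e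
      have := mul_left_cancel ((mul_one _).trans e)
      exact hc1.2 (by rw [eq_inv_of_mul_eq_one_left this.symm, inv_eq_of_mul_eq_one_left S.zz])
    · rw [(S.central _).eq, mul_assoc (b' * b)] at e
      have := mul_left_cancel e
      exact hc1.1 (mul_right_cancel ((one_mul _).trans this)).symm
  · have hx' : x = b * b' * a := by rw [hx, reflFun_ncomm a hb'a, mul_assoc]
    rw [hx', hy', mul_inv_eq_iff_eq_mul, mul_inv_eq_iff_eq_mul, one_mul] at h2
    rcases h2 with e | e <;> rcases hbb with f | f <;> rw [f] at e
    · exact hne.1 (mul_left_cancel e)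
    · rw [mul_assoc _ S.z] at e
      refine hne.2 ?_
      rw [← mul_left_cancel e, (S.central a).eq, mul_assoc, S.zz, mul_one]
    · rw [(S.central _).eq, mul_assoc (b' * b) c] at e
      exact hne.2 (mul_left_cancel e)
    · rw [(S.central _).eq, mul_assoc _ S.z, mul_assoc (b' * b) c, (S.central a).eq] at e
      exact hne.1 (mul_right_cancel (mul_left_cancel e))

end


/-- Let Q be an extraspecial 2-group of order 2^(2n+1) with n ≥ 3 that is of plus type (it contains an elementary abelian subgroup of order 2^(n+1)). Then the group of inner automorphisms of Q has no complement in the full automorphism group of Q: the extension of the inner automorphism group (elementary abelian of order 2^(2n)) by the outer automorphism group (the orthogonal group of plus type) does not split. -/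
theorem result {Q : Type*} [Group Q] [Finite Q] (n : ℕ) (hn : 3 ≤ n) (hQ : Cfsg.IsExtraspecial 2 Q) (hcard : Nat.card Q = 2 ^ (2 * n + 1)) (hplus : ∃ E : Subgroup Q, Cfsg.IsElementaryAbelian 2 E ∧ Nat.card ↥E = 2 ^ (n + 1)) (L : Subgroup (MulAut Q)) : ¬ (Cfsg.Inn Q).IsComplement' L := by
  intro hL
  classical
  obtain ⟨⟨hp, hfr, hder⟩, hz2⟩ := hQ
  have hcard2 : (Subgroup.center Q : Set Q).ncard = 2 := by rw [← Nat.card_coe_set_eq]; exact hz2
  obtain ⟨z, hz, hz1⟩ := Set.exists_ne_of_one_lt_ncard (by rw [hcard2]; norm_num) (1 : Q)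
  have hzset : ∀ g ∈ Subgroup.center Q, g = 1 ∨ g = z := by
    intro g hg
    by_contra h
    push Not at h
    have hsub : ({1, z, g} : Set Q) ⊆ (Subgroup.center Q : Set Q) :=
      Set.insert_subset (Subgroup.one_mem _) (Set.insert_subset hz (Set.singleton_subset_iff.mpr hg))
    have h3 : ({1, z, g} : Set Q).ncard = 3 := by
      rw [Set.ncard_insert_of_notMem (by simp [hz1.symm, h.1.symm]), Set.ncard_pair h.2.symm]
    have := Set.ncard_le_ncard hsub (Set.toFinite _)
    omega
  have hzc : ∀ g : Q, Commute z g := fun g => (Subgroup.mem_center_iff.mp hz g).symm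
  have hzz : z * z = 1 := by
    rcases hzset _ (mul_mem hz hz) with h | h
    · exact h
    · exact absurd (mul_left_cancel (h.trans (mul_one z).symm)) hz1
  have hcomm : ∀ g h : Q, g * h = h * g ∨ g * h = h * g * z := by
    intro g h
    have hmem : g⁻¹ * h⁻¹ * g * h ∈ Subgroup.center Q := by
      rw [← hder]
      have := Subgroup.commutator_mem_commutator (Subgroup.mem_top g⁻¹) (Subgroup.mem_top h⁻¹)
      simpa [commutatorElement_def, _root_.commutator_def] using this
    have e : g * h = h * g * (g⁻¹ * h⁻¹ * g * h) := by group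
    rcases hzset _ hmem with k | k <;> rw [k] at e
    · left; rw [mul_one] at e; exact e
    · exact Or.inr e
  have hsqc : ∀ g h : Q, Commute (g * g) h := by
    intro g h
    rcases hcomm g h with e | e
    · exact Commute.mul_left e e
    · show g * g * h = h * (g * g)
      calc g * g * h = g * (g * h) := mul_assoc _ _ _
        _ = g * (h * g * z) := by rw [e]
        _ = g * h * (g * z) := by group
        _ = h * g * z * (g * z) := by rw [e]
        _ = h * g * (z * g) * z := by group
        _ = h * (g * g) * (z * z) := by rw [(hzc g).eq]; group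
        _ = _ := by rw [hzz, mul_one]
  let S : Small Q := ⟨z, hzc, hzz, hcomm,
    fun g => hzset _ (Subgroup.mem_center_iff.mpr fun h => (hsqc g h).symm.eq),
    fun g hg => hzset g (Subgroup.mem_center_iff.mpr fun h => (hg h).symm.eq)⟩
  have hnonab : ∃ g h : Q, ¬ Commute g h := by
    by_contra h
    push Not at h
    have : Subgroup.center Q = ⊤ := eq_top_iff.mpr fun x _ => Subgroup.mem_center_iff.mpr fun y => (h y x).eq
    rw [this, Subgroup.card_top, hcard] at hz2
    have h4 : 2 ^ 2 ≤ 2 ^ (2 * n + 1) := Nat.pow_le_pow_right (by norm_num) (by omega)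
    omega
  obtain ⟨a, ha⟩ : ∃ a : Q, a * a = z := by
    by_contra h
    push Not at h
    obtain ⟨g, k, hgk⟩ := hnonab
    have hinv : ∀ x : Q, x * x = 1 := fun x => (S.sq x).resolve_right (h x)
    apply hgk
    show g * k = k * g
    calc g * k = (g * k)⁻¹ := (inv_eq_of_mul_eq_one_left (hinv _)).symm
      _ = k⁻¹ * g⁻¹ := mul_inv_rev g k
      _ = k * g := by rw [inv_eq_of_mul_eq_one_left (hinv k), inv_eq_of_mul_eq_one_left (hinv g)]
  have hanc : ∃ g, ¬ Commute a g := by
    by_contra h
    push Not at h
    rcases S.center a h with e | e <;> rw [e] at ha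
    · rw [one_mul] at ha; exact hz1 ha.symm
    · rw [show S.z = z from rfl, hzz] at ha; exact hz1 ha.symm
  obtain ⟨E, ⟨hEc, hE2⟩, hEcard⟩ := hplus
  set C := E ⊓ Subgroup.centralizer ({a} : Set Q) with hCdef
  have hCcard : 8 ≤ Nat.card C := by
    have hle : 2 * Nat.card C ≥ Nat.card E := by
      have hm : ∀ x : E, ∃ w : Bool × C, (w.1 = true ↔ Commute (x : Q) a) := by
        intro x
        by_cases h : Commute (x : Q) a
        · exact ⟨(true, 1), by simp [h]⟩
        · exact ⟨(false, 1), by simp [h]⟩
      by_cases hall : ∀ x : E, Commute (x : Q) a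
      · have : E ≤ C := fun x hx => ⟨hx, Subgroup.mem_centralizer_singleton_iff.mpr (hall ⟨x, hx⟩).eq⟩
        have := Subgroup.card_le_of_le this
        omega
      push Not at hall
      obtain ⟨e₀, he₀⟩ := hall
      let f : E → Bool × C := fun x =>
        if h : Commute (x : Q) a then (true, ⟨x, x.2, Subgroup.mem_centralizer_singleton_iff.mpr h.eq⟩)
        else (false, ⟨x * e₀, mul_mem x.2 e₀.2, Subgroup.mem_centralizer_singleton_iff.mpr (S.commute_mul h he₀).eq⟩)
      have hf : Function.Injective f := by
        intro x y hxy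
        simp only [f] at hxy
        split_ifs at hxy <;> simp only [Prod.mk.injEq, Bool.true_eq_false, Bool.false_eq_true, false_and,
          Subtype.mk.injEq, mul_left_inj, true_and] at hxy
        all_goals (have hv := congrArg Subtype.val hxy; first | exact Subtype.ext hv | exact Subtype.ext (mul_right_cancel hv))
      have := Nat.card_le_card_of_injective f hf
      simpa [Nat.card_prod, mul_comm] using this
    rw [hEcard, pow_succ] at hle
    have : 2 ^ 3 ≤ 2 ^ n := Nat.pow_le_pow_right (by norm_num) hn
    omega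
  have hpick : ∀ s : Finset Q, s.card < 8 → ∃ c ∈ C, c ∉ s := by
    intro s hs
    by_contra h
    push Not at h
    have := Set.ncard_le_ncard (s := (C : Set Q)) (t := (s : Set Q)) (fun x hx => h x hx) (Finset.finite_toSet s)
    rw [← Nat.card_coe_set_eq, Set.ncard_coe_finset] at this
    change Nat.card C ≤ s.card at this
    omega
  obtain ⟨c, ⟨hcE, hca'⟩, hcn⟩ := hpick {1, z} (Finset.card_le_two.trans_lt (by norm_num))
  obtain ⟨d, ⟨hdE, hda'⟩, hdn⟩ := hpick {1, z, c, c * z} (Finset.card_le_four.trans_lt (by norm_num))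
  simp only [Finset.mem_insert, Finset.mem_singleton, not_or] at hcn hdn
  have hca : Commute c a := Subgroup.mem_centralizer_singleton_iff.mp hca'
  have hda : Commute d a := Subgroup.mem_centralizer_singleton_iff.mp hda'
  have hcd : Commute c d := congrArg Subtype.val (hEc.is_comm.comm (⟨c, hcE⟩ : E) ⟨d, hdE⟩)
  have hcd2 : c * d ≠ 1 ∧ c * d ≠ z := by
    have hcc : c * c = 1 := by rw [← pow_two]; exact hE2 c hcE
    constructor <;> intro h
    · exact hdn.2.2.1 (mul_left_cancel (h.trans hcc.symm))
    · exact hdn.2.2.2 (mul_left_cancel (h.trans (by rw [← mul_assoc, hcc, one_mul])))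
  have hu : ∀ w ∈ E, Commute w a → (a * w) * (a * w) = z := by
    intro w hw hwa
    calc a * w * (a * w) = a * (w * a) * w := by group
      _ = (a * a) * (w * w) := by rw [hwa.eq]; group
      _ = z := by rw [ha, ← pow_two, hE2 w hw, mul_one]
  obtain ⟨b, hb, hba⟩ := exists_lift S hL (a := a) ha hanc
  have horth : ∀ w ∈ E, Commute w a → w ≠ 1 → w ≠ z → Commute b (a * w) := by
    intro w hw hwa h1 h2
    have hne1 : a * w ≠ 1 ∧ a * w ≠ z := by
      constructor <;> intro h <;> have h' := hu w hw hwa <;> rw [h] at h'
      · rw [one_mul] at h'; exact hz1 h'.symm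
      · rw [hzz] at h'; exact hz1 h'.symm
    obtain ⟨b', hb', -⟩ := exists_lift S hL (a := a * w) (hu w hw hwa) (by
      by_contra h
      push Not at h
      rcases S.center _ h with e | e
      exacts [hne1.1 e, hne1.2 e])
    refine commute_of_lift S hL ha (hu w hw hwa) ((Commute.refl a).mul_right hwa.symm) hne1
      ⟨fun h => h1 (mul_left_cancel ((mul_one a).trans h)).symm, fun h => h2 ?_⟩ hb hb'
    have h' : w * z = 1 := mul_left_cancel (a := a) (by rw [mul_one, ← mul_assoc]; exact h.symm)
    rw [eq_inv_of_mul_eq_one_left h', inv_eq_of_mul_eq_one_left hzz]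
  refine hba ?_
  have h := ((horth c hcE hca hcn.1 hcn.2).mul_right (horth (c * d) (mul_mem hcE hdE)
    (hca.mul_left hda) hcd2.1 hcd2.2)).mul_right (horth d hdE hda hdn.1 hdn.2.1)
  have e : a * c * (a * (c * d)) * (a * d) = a * a * a := by
    have hcc : c * c = 1 := by rw [← pow_two]; exact hE2 c hcE
    have hdd : d * d = 1 := by rw [← pow_two]; exact hE2 d hdE
    calc a * c * (a * (c * d)) * (a * d) = a * (c * a) * c * (d * a) * d := by group
      _ = a * a * (c * c) * a * (d * d) := by rw [hca.eq, hda.eq]; group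
      _ = a * a * a := by rw [hcc, hdd, mul_one, mul_one]
  rw [e, ha] at h
  have := (S.central b).symm.inv_right.mul_right h
  simpa [S] using this

end Cfsg.Agent.S3085
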