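import Cfsg.Statements.S3104
import Cfsg.Agent.H54.RankFour.Quotients
import Cfsg.Agent.H19.Cores
-- import your own Cfsg.Agent.* helpers here

set_option autoImplicit false
open Cfsg

namespace Cfsg.Agent.S3104

/-- Let X be a finite nonsolvable 2-constrained group with no nontrivial normal subgroup of odd order such that O₂(X) has sectional 2-rank at most 4, and write Q for X/O₂(X). Then Q is isomorphic to the projective special linear group of dimension 3 over the field with 2 elements, to an alternating group of degree n with 5 ≤ n ≤ 8, to a symmetric group of degree n with 5 ≤ n ≤ 7, or else O₃(Q) has order 3 and Q/O₃(Q) is isomorphic to the alternating or the symmetric group of degree 5 (so Q is the direct product of a group of order 3 with the alternating group of degree 5, or an extension of that direct product by a group of order 2). If moreover X itself has sectional 2-rank at most 4, then Q is not isomorphic to the symmetric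 group of degree 6 or 7 nor to the alternating group of degree 8. -/
theorem result {X : Type*} [Group X] [Finite X] (hns : ¬ Group.IsSolvable X) (hc : Cfsg.IsPConstrained 2 X) (hO : Cfsg.oddCore X = ⊥)
    (h4 : Cfsg.SectionalPRankLE 2 4 ↥(Cfsg.pCore 2 X)) :
    ((∃ (F : Type) (_ : Field F) (_ : Fintype F), Fintype.card F = 2 ∧
          Nonempty (X ⧸ Cfsg.pCore 2 X ≃* Matrix.ProjectiveSpecialLinearGroup (Fin 3) F)) ∨
        (∃ n : ℕ, 5 ≤ n ∧ n ≤ 8 ∧ Nonempty (X ⧸ Cfsg.pCore 2 X ≃* ↥(alternatingGroup (Fin n)))) ∨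
        (∃ n : ℕ, 5 ≤ n ∧ n ≤ 7 ∧ Nonempty (X ⧸ Cfsg.pCore 2 X ≃* Equiv.Perm (Fin n))) ∨
        (Nat.card ↥(Cfsg.pCore 3 (X ⧸ Cfsg.pCore 2 X)) = 3 ∧
          (Nonempty ((X ⧸ Cfsg.pCore 2 X) ⧸ Cfsg.pCore 3 (X ⧸ Cfsg.pCore 2 X) ≃* ↥(alternatingGroup (Fin 5))) ∨
            Nonempty ((X ⧸ Cfsg.pCore 2 X) ⧸ Cfsg.pCore 3 (X ⧸ Cfsg.pCore 2 X) ≃* Equiv.Perm (Fin 5))))) ∧
      (Cfsg.SectionalPRankLE 2 4 X →
        ¬ (Nonempty (X ⧸ Cfsg.pCore 2 X ≃* Equiv.Perm (Fin 6)) ∨ Nonempty (X ⧸ Cfsg.pCore 2 X ≃* Equiv.Perm (Fin 7)) ∨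
            Nonempty (X ⧸ Cfsg.pCore 2 X ≃* ↥(alternatingGroup (Fin 8))))) := by
  have hP : IsPGroup 2 (Cfsg.pCore 2 X) := Cfsg.Agent.H40.isPGroup_pCore 2 X
  obtain ⟨f, hf⟩ := Cfsg.Agent.S3103.result hc hO h4
  have hnsQ : ¬ Group.IsSolvable (X ⧸ Cfsg.pCore 2 X) := fun h => hns (by
    haveI : Fact (Nat.Prime 2) := ⟨Nat.prime_two⟩
    haveI := hP.isNilpotent
    exact (Group.isSolvable_iff_subgroup_quotient (Cfsg.pCore 2 X)).2 ⟨inferInstance, h⟩)
  refine ⟨Cfsg.Agent.H54.RankFour.quotient_cases f hf hnsQ (Cfsg.Agent.H19.pCore_quotient_pCore 2), fun h4X h => ?_⟩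
  rcases h with ⟨⟨e⟩⟩ | ⟨⟨e⟩⟩ | ⟨⟨e⟩⟩
  · exact Cfsg.Agent.H54.RankFour.no_sym_six hc hO h4X e.symm.toMonoidHom e.symm.injective
  · obtain ⟨g, hg⟩ := Cfsg.Agent.H54.RankFour.exists_six_seven
    exact Cfsg.Agent.H54.RankFour.no_sym_six hc hO h4X (e.symm.toMonoidHom.comp g) (e.symm.injective.comp hg)
  · obtain ⟨g, hg⟩ := Cfsg.Agent.H54.RankFour.exists_six_eight
    exact Cfsg.Agent.H54.RankFour.no_sym_six hc hO h4X (e.symm.toMonoidHom.comp g) (e.symm.injective.comp hg)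

end Cfsg.Agent.S3104
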