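import Cfsg.Statements.S3116
import Mathlib

set_option autoImplicit false
open Cfsg

namespace Cfsg.Agent.S3116

/-- If `⟨x⟩` has index two and every element outside squares to an element of order at most two,
with `x` of order `2^n ≥ 4`... the automorphism group is a 2-group. -/
theorem aux {X : Type*} [Group X] [Finite X] (x y : X) (n : ℕ) (hx : orderOf x = 2 ^ n)
    (hall : ∀ g : X, g ∈ Subgroup.zpowers x ∨ g * y⁻¹ ∈ Subgroup.zpowers x)
    (hout : ∀ g : X, g ∉ Subgroup.zpowers x → orderOf g < 2 ^ n) : IsPGroup 2 (MulAut X) := by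
  rcases Nat.eq_zero_or_pos n with rfl | hn
  · intro φ
    refine ⟨0, ?_⟩
    rw [pow_zero, orderOf_eq_one_iff] at hx
    have htop : ∀ g : X, g = 1 := fun g => by
      by_contra hg
      refine absurd (hout g ?_) ?_
      · rw [hx, Subgroup.zpowers_one_eq_bot, Subgroup.mem_bot]; exact hg
      · simp only [pow_zero, Nat.lt_one_iff]; exact (orderOf_pos g).ne'
    exact MulEquiv.ext fun g => (htop _).trans (htop _).symm
  intro φ
  refine ⟨n + n, ?_⟩
  have hfx : ∀ ψ : MulAut X, ∃ u : ℤ, ψ x = x ^ u := fun ψ => by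
    by_cases h : ψ x ∈ Subgroup.zpowers x
    · exact h.imp fun u hu => hu.symm
    · exact absurd (hout _ h) (by rw [MulEquiv.orderOf_eq, hx]; exact lt_irrefl _)
  obtain ⟨u, hu⟩ := hfx φ
  have hx2 : x ^ ((2 : ℤ) ^ n) = 1 := by
    rw [show ((2 : ℤ) ^ n) = ((2 ^ n : ℕ) : ℤ) by push_cast; rfl, zpow_natCast, ← hx, pow_orderOf_eq_one]
  have hpow : ∀ m : ℕ, (φ ^ m) x = x ^ (u ^ m) := by
    intro m
    induction m with
    | zero => simp
    | succ m ih => rw [pow_succ', MulAut.mul_apply, ih, map_zpow, hu, ← zpow_mul, ← pow_succ']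
  have huodd : Odd u := by
    rcases Int.even_or_odd u with ⟨v, rfl⟩ | h
    · exfalso
      obtain ⟨k, rfl⟩ : ∃ k, n = k + 1 := ⟨n - 1, by omega⟩
      have h1 : φ (x ^ ((2 : ℤ) ^ k)) = 1 := by
        rw [map_zpow, hu, ← zpow_mul, show (v + v) * (2 : ℤ) ^ k = (2 : ℤ) ^ (k + 1) * v by ring, zpow_mul, hx2, one_zpow]
      rw [map_eq_one_iff _ φ.injective, ← orderOf_dvd_iff_zpow_eq_one, hx] at h1
      push_cast at h1
      exact absurd (Int.le_of_dvd (by positivity) h1) (not_le.mpr (pow_lt_pow_right₀ (by norm_num) (by omega)))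
    · exact h
  have hu1 : (2 : ℤ) ^ n ∣ u ^ (2 ^ n) - 1 := by
    have : ∀ k : ℕ, (2 : ℤ) ^ (k + 1) ∣ u ^ (2 ^ k) - 1 := by
      intro k
      induction k with
      | zero => obtain ⟨v, rfl⟩ := huodd; exact ⟨v, by simp⟩
      | succ k ih =>
        rw [show u ^ (2 ^ (k + 1)) - 1 = (u ^ (2 ^ k) - 1) * (u ^ (2 ^ k) + 1) by rw [pow_succ, pow_mul]; ring,
          pow_succ (2 : ℤ) (k + 1)]
        refine mul_dvd_mul ih ?_
        have := (huodd.pow (n := 2 ^ k)).add_odd odd_one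
        exact this.two_dvd
    exact (pow_dvd_pow 2 (Nat.le_succ n)).trans (this n)
  set ψ := φ ^ (2 ^ n)
  have hψ : ψ x = x := by
    obtain ⟨c, hc⟩ := hu1
    rw [hpow, show u ^ (2 ^ n) = (2 : ℤ) ^ n * c + 1 by linarith, zpow_add, zpow_mul, hx2, one_zpow,
      one_mul, zpow_one]
  obtain ⟨i, hi⟩ : ∃ i : ℤ, ψ y = x ^ i * y := by
    rcases hall (ψ y) with h | ⟨i, hi⟩
    · obtain ⟨j, hj⟩ := h
      have h' : ψ (x ^ j) = ψ y := by rw [map_zpow, hψ]; exact hj
      have hy : x ^ j = y := ψ.injective h'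
      exact ⟨0, by rw [zpow_zero, one_mul, ← h', map_zpow, hψ, hy]⟩
    · exact ⟨i, by rw [show x ^ i = ψ y * y⁻¹ from hi, inv_mul_cancel_right]⟩
  have hm : ∀ m : ℕ, (ψ ^ m) y = x ^ (i * m) * y := by
    intro m
    induction m with
    | zero => simp
    | succ m ih =>
      rw [pow_succ', MulAut.mul_apply, ih, map_mul, map_zpow, hψ, hi, ← mul_assoc, ← zpow_add]
      congr 2; push_cast; ring
  have hy1 : (ψ ^ (2 ^ n)) y = y := by
    rw [hm, mul_comm, zpow_mul]; push_cast; rw [hx2, one_zpow, one_mul]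
  have hx1 : ∀ m : ℕ, (ψ ^ m) x = x := by
    intro m
    induction m with
    | zero => simp
    | succ m ih => rw [pow_succ', MulAut.mul_apply, ih, hψ]
  rw [pow_add, pow_mul]
  refine MulEquiv.ext fun g => ?_
  show (ψ ^ (2 ^ n)) g = g
  rcases hall g with ⟨j, rfl⟩ | ⟨j, hj⟩
  · rw [map_zpow, hx1]
  · rw [show g = x ^ j * y by rw [show x ^ j = g * y⁻¹ from hj, inv_mul_cancel_right], map_mul, map_zpow, hx1, hy1]

/-- The automorphism group of a dihedral 2-group of order at least 8, or of a quasi-dihedral (semidihedral) 2-group of order at least 16, is a 2-group. -/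
theorem result {X : Type*} [Group X] [Finite X] (h2 : IsPGroup 2 X)
    (h : (∃ n : ℕ, 4 ≤ n ∧ Nonempty (X ≃* DihedralGroup n)) ∨ Cfsg.IsQuasiDihedral X) : IsPGroup 2 (MulAut X) := by
  rcases h with ⟨n, hn, ⟨e⟩⟩ | ⟨n, hn, hcard, x, y, hx, hy, hrel⟩
  · have : NeZero n := ⟨by omega⟩
    obtain ⟨k, hk⟩ : ∃ k : ℕ, n = 2 ^ k := by
      obtain ⟨k, hk⟩ := IsPGroup.iff_orderOf.mp (h2.of_equiv e) (DihedralGroup.r 1)
      rw [DihedralGroup.orderOf_r_one] at hk
      exact ⟨k, hk⟩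
    have hmem : ∀ i : ZMod n, e.symm (DihedralGroup.r i) ∈ Subgroup.zpowers (e.symm (DihedralGroup.r 1)) := by
      intro i
      refine ⟨(i.val : ℤ), ?_⟩
      show e.symm (DihedralGroup.r 1) ^ (i.val : ℤ) = _
      rw [zpow_natCast, ← map_pow, DihedralGroup.r_one_pow, ZMod.natCast_zmod_val]
    refine aux (e.symm (DihedralGroup.r 1)) (e.symm (DihedralGroup.sr 0)) k
      (by rw [MulEquiv.orderOf_eq, DihedralGroup.orderOf_r_one, hk]) ?_ ?_
    · intro g
      obtain ⟨d, rfl⟩ := e.symm.surjective g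
      cases d with
      | r i => exact Or.inl (hmem i)
      | sr i =>
        refine Or.inr ?_
        rw [← map_inv, ← map_mul, DihedralGroup.inv_sr, DihedralGroup.sr_mul_sr]
        exact hmem _
    · intro g hg
      obtain ⟨d, rfl⟩ := e.symm.surjective g
      cases d with
      | r i => exact absurd (hmem i) hg
      | sr i =>
        rw [MulEquiv.orderOf_eq, DihedralGroup.orderOf_sr]
        omega
  · have hxm : y ∉ Subgroup.zpowers x := by
      rintro ⟨j, hj⟩
      rw [← show x ^ j = y from hj, ((Commute.refl x).zpow_left j).eq, mul_inv_cancel_right] at hrel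
      obtain ⟨k, rfl⟩ : ∃ k, n = k + 3 := ⟨n - 3, by omega⟩
      have h4 : (2 : ℕ) ^ 2 ≤ 2 ^ (k + 3 - 1) := Nat.pow_le_pow_right (by norm_num) (by omega)
      have h1 : x ^ (2 ^ (k + 3 - 1) - 2) = 1 := by
        have h5 : x ^ (2 ^ (k + 3 - 1) - 2) * x = x := by
          rw [← pow_succ, show 2 ^ (k + 3 - 1) - 2 + 1 = 2 ^ (k + 3 - 1) - 1 by omega]; exact hrel.symm
        exact mul_eq_right.mp h5
      have := Nat.le_of_dvd (by omega) (hx ▸ orderOf_dvd_of_pow_eq_one h1)
      have h6 : 2 ^ (k + 3 - 1) ≤ 2 ^ (k + 3) := Nat.pow_le_pow_right (by norm_num) (by omega)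
      omega
    have hidx : (Subgroup.zpowers x).index = 2 := by
      have := (Subgroup.zpowers x).card_mul_index
      rw [Nat.card_zpowers, hx, hcard, pow_succ] at this
      exact Nat.eq_of_mul_eq_mul_left (by positivity) this
    have hall : ∀ g : X, g ∈ Subgroup.zpowers x ∨ g * y⁻¹ ∈ Subgroup.zpowers x := by
      intro g
      by_cases hg : g ∈ Subgroup.zpowers x
      · exact Or.inl hg
      · exact Or.inr ((Subgroup.mul_mem_iff_of_index_two hidx).mpr
          (iff_of_false hg (fun h => hxm (inv_mem_iff.mp h))))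
    refine aux x y n hx hall fun g hg => ?_
    obtain ⟨i, hi⟩ := (hall g).resolve_left hg
    have hg' : g = x ^ i * y := by rw [show x ^ i = g * y⁻¹ from hi, inv_mul_cancel_right]
    have hy2 : y * y = 1 := by rw [← sq, ← hy, pow_orderOf_eq_one]
    have hsq : g ^ 2 = x ^ (i * (2 : ℤ) ^ (n - 1)) := by
      have hle : 1 ≤ 2 ^ (n - 1) := Nat.one_le_two_pow
      calc g ^ 2 = x ^ i * (y * x ^ i * y⁻¹) * (y * y) := by rw [hg', sq]; group
        _ = x ^ i * (x ^ (((2 : ℤ) ^ (n - 1) - 1) * i)) := by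
          rw [hy2, mul_one, ← conj_zpow, hrel, ← zpow_natCast, Nat.cast_sub hle, ← zpow_mul]; push_cast; rfl
        _ = x ^ (i * (2 : ℤ) ^ (n - 1)) := by rw [← zpow_add]; congr 1; ring
    have h4 : g ^ 4 = 1 := by
      rw [show (4 : ℕ) = 2 * 2 from rfl, pow_mul, hsq, ← zpow_natCast, ← zpow_mul, ← orderOf_dvd_iff_zpow_eq_one, hx]
      refine ⟨i, ?_⟩
      obtain ⟨k, rfl⟩ : ∃ k, n = k + 1 := ⟨n - 1, by omega⟩
      simp only [Nat.add_sub_cancel]; push_cast; ring
    have h5 := Nat.le_of_dvd (by norm_num) (orderOf_dvd_of_pow_eq_one h4)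
    have h6 : 2 ^ 3 ≤ 2 ^ n := Nat.pow_le_pow_right (by norm_num) hn
    omega

end Cfsg.Agent.S3116
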