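import Cfsg.Statements.S3117
import Cfsg.Agent.H49.PerfectThreeInv

set_option autoImplicit false
open Cfsg

namespace Cfsg.Agent.S3117

/-- If X is a finite 2-group containing exactly three involutions, then the automorphism group of X is solvable. -/
theorem result {X : Type*} [Group X] [Finite X] (h2 : IsPGroup 2 X) (h3 : Nat.card {x : X // orderOf x = 2} = 3) : Group.IsSolvable (MulAut X) := by
  classical
  have h4 : Nat.card {x : X // x * x = 1} ≤ 4 := by
    have h : ({x : X | x * x = 1}).ncard ≤ (insert (1 : X) {x : X | orderOf x = 2}).ncard := by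
      refine Set.ncard_le_ncard ?_ (Set.toFinite _)
      intro x hx
      by_cases h1 : x = 1
      · exact Or.inl h1
      · exact Or.inr (orderOf_eq_prime (p := 2) (by rw [sq]; exact hx) h1)
    have h' := Set.ncard_insert_le (1 : X) {x : X | orderOf x = 2}
    have e1 : Nat.card {x : X // x * x = 1} = ({x : X | x * x = 1}).ncard :=
      Nat.card_coe_set_eq {x : X | x * x = 1}
    have e2 : Nat.card {x : X // orderOf x = 2} = ({x : X | orderOf x = 2}).ncard :=
      Nat.card_coe_set_eq {x : X | orderOf x = 2}
    omega
  rw [Group.isSolvable_iff_commutator_lt]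
  intro H hH
  refine lt_of_le_of_ne (Subgroup.commutator_le_self H) fun heq => hH ?_
  have hperf : commutator ↥H = ⊤ := by
    refine Subgroup.map_injective H.subtype_injective ?_
    rw [commutator_def, Subgroup.map_commutator, ← MonoidHom.range_eq_map, Subgroup.range_subtype, heq]
  have hstab : ∀ (α : MulAut X) (x : X), x * x = 1 ↔ α x * α x = 1 := fun α x => by
    rw [← map_mul, map_eq_one_iff _ α.injective]
  let f : ↥H →* Equiv.Perm {x : X // x * x = 1} :=
    { toFun := fun e => (e : MulAut X).toEquiv.subtypeEquiv (fun x => hstab _ x)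
      map_one' := by ext x; rfl
      map_mul' := fun a b => by ext x; rfl }
  have hinv : ∀ (e : ↥H) (x : X), x * x = 1 → H.subtype e x = x := fun e x hx => by
    have h := H49.Aniso.perfect_perm_trivial hperf h4 f e
    exact congrArg Subtype.val (Equiv.Perm.congr_fun h ⟨x, hx⟩)
  rw [eq_bot_iff]
  intro α hα
  rw [Subgroup.mem_bot]
  exact MulEquiv.ext fun x =>
    H49.ThreeInv.fixed_of_perfect H.subtype h2 hperf hinv h4 ⟨α, hα⟩ x

end Cfsg.Agent.S3117
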