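import Cfsg.Statements.S3356
-- import your own Cfsg.Agent.* helpers here

set_option autoImplicit false
open Cfsg

namespace Cfsg.Agent.S3356

open Pointwise

section

variable {G Ω : Type*} [Group G] [Finite G] [MulAction G Ω] [Finite Ω]

/-- If all point stabilizers in a group have the same order, then the common orbit size divides
the number of points. -/
theorem orbit_card_dvd {L X : Type*} [Group L] [Finite L] [MulAction L X] [Finite X] (e : ℕ)
    (h : ∀ x : X, Nat.card (MulAction.orbit L x) = e) : e ∣ Nat.card X := by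
  classical
  haveI := Fintype.ofFinite (Quotient (MulAction.orbitRel L X))
  have h1 : ∀ c : Quotient (MulAction.orbitRel L X), Nat.card (MulAction.orbit L c.out) = e :=
    fun c => h c.out
  rw [Nat.card_congr (MulAction.selfEquivSigmaOrbits L X), Nat.card_sigma]
  simp only [h1, Finset.sum_const, smul_eq_mul]
  exact dvd_mul_left e _

/-- On a set invariant under the stabilizers of its points, of size prime to the orbit size, the
stabilizers are all equal. -/
theorem stab_const {H : Type*} [Group H] [Finite H] [MulAction H Ω] (k s : ℕ) (X : Set Ω)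
    (hs : ∀ y ∈ X, Nat.card (MulAction.stabilizer H y) = s)
    (hk : ∀ y ∈ X, Nat.card (MulAction.orbit H y) = k)
    (hinv : ∀ y ∈ X, MulAction.stabilizer H y ≤ MulAction.stabilizer H X)
    (hcop : Nat.Coprime k (Nat.card X)) :
    ∀ y ∈ X, MulAction.stabilizer H y = MulAction.stabilizer H X := by
  intro y hy
  set L := MulAction.stabilizer H X with hL
  letI actX : MulAction L X :=
    { smul := fun l z => ⟨(l : H) • (z : Ω), by
        have h := (MulAction.mem_stabilizer_iff).mp l.2
        exact (Set.ext_iff.mp h _).mp (Set.smul_mem_smul_set z.2)⟩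
      one_smul := fun z => Subtype.ext (one_smul H (z : Ω))
      mul_smul := fun l m z => Subtype.ext (mul_smul (l : H) (m : H) (z : Ω)) }
  have hst : ∀ z : X, Nat.card (MulAction.stabilizer L z) = s := by
    intro z
    rw [← hs z z.2]
    refine Nat.card_congr
      { toFun := fun l => ⟨((l : L) : H), congrArg Subtype.val (MulAction.mem_stabilizer_iff.mp l.2)⟩
        invFun := fun h => ⟨⟨h.1, hinv z z.2 h.2⟩, Subtype.ext (MulAction.mem_stabilizer_iff.mp h.2)⟩
        left_inv := fun l => rfl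
        right_inv := fun h => rfl }
  have hmul : ∀ z : X, Nat.card (MulAction.orbit L z) * s = Nat.card L := by
    intro z
    rw [← hst z, Nat.card_congr (MulAction.orbitEquivQuotientStabilizer L z),
      ← Subgroup.card_eq_card_quotient_mul_card_subgroup]
  have hs0 : 0 < s := by rw [← hs y hy]; exact Nat.card_pos
  set e := Nat.card (MulAction.orbit L (⟨y, hy⟩ : X)) with he
  have heq : ∀ z : X, Nat.card (MulAction.orbit L z) = e := fun z =>
    Nat.eq_of_mul_eq_mul_right hs0 ((hmul z).trans (hmul _).symm)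
  have hex : e ∣ Nat.card X := orbit_card_dvd e heq
  have hek : e ∣ k := by
    have hkH : k * s = Nat.card H := by
      rw [← hk y hy, ← hs y hy, Nat.card_congr (MulAction.orbitEquivQuotientStabilizer H y),
        ← Subgroup.card_eq_card_quotient_mul_card_subgroup]
    have h1 : e * s ∣ k * s := by
      rw [hmul, hkH]; exact Subgroup.card_subgroup_dvd_card L
    exact (Nat.mul_dvd_mul_iff_right hs0).mp h1
  have he1 : e = 1 := Nat.eq_one_of_dvd_coprimes hcop hek hex
  refine Subgroup.eq_of_le_of_card_ge (hinv y hy) ?_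
  rw [hs y hy, ← hmul ⟨y, hy⟩, ← he, he1, one_mul]

end

/-- The main argument. -/
theorem main {G Ω : Type*} [Group G] [Finite G]
    [MulAction G Ω] [FaithfulSMul G Ω] [Finite Ω]
    (hhalf : ∀ a b c : Ω, b ≠ a → c ≠ a →
      Nat.card (MulAction.orbit (MulAction.stabilizer G a) b) = Nat.card (MulAction.orbit (MulAction.stabilizer G a) c))
    (N : Subgroup G) [hN : N.Normal] (hNt : MulAction.IsPretransitive N Ω) (hNr : ∀ a : Ω, MulAction.stabilizer N a = ⊥)
    {a b : Ω} (hab : a ≠ b) (hfix : MulAction.stabilizer G a ⊓ MulAction.stabilizer G b ≠ ⊥) :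
    (∃ p : ℕ, p.Prime ∧ IsMulCommutative N ∧ ∀ x ∈ N, x ^ p = 1) ∧
    (∀ M : Subgroup G, M.Normal → M ≠ ⊥ → N ≤ M) := by
  classical
  set H := MulAction.stabilizer G a with hH
  have ha : ∀ h : H, (h : G) • a = a := fun h => MulAction.mem_stabilizer_iff.mp h.2
  have inj : ∀ n m : N, (n : G) • a = (m : G) • a → n = m := by
    intro n m h
    have h2 : (m⁻¹ * n : N) ∈ MulAction.stabilizer N a := by
      rw [MulAction.mem_stabilizer_iff]
      show ((m⁻¹ * n : N) : G) • a = a
      rw [Subgroup.coe_mul, Subgroup.coe_inv, mul_smul, h, inv_smul_smul]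
    rw [hNr a, Subgroup.mem_bot, inv_mul_eq_one] at h2
    exact h2.symm
  have surj : ∀ w : Ω, ∃ n : N, (n : G) • a = w := fun w => MulAction.exists_smul_eq N a w
  have hne : ∀ n : N, n ≠ 1 → (n : G) • a ≠ a := fun n hn h => hn (inj n 1 (by simpa using h))
  have hconj : ∀ (h : H) (n : N), ((h : G) * n * (h : G)⁻¹ ∈ N) := fun h n => hN.conj_mem n n.2 h
  let cj : H → N → N := fun h n => ⟨(h : G) * n * (h : G)⁻¹, hconj h n⟩
  have hequiv : ∀ (h : H) (n : N), h • ((n : G) • a) = ((cj h n : N) : G) • a := by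
    intro h n
    show (h : G) • ((n : G) • a) = ((h : G) * n * (h : G)⁻¹) • a
    have : (h : G)⁻¹ • a = a := inv_smul_eq_iff.mpr (ha h).symm
    rw [mul_smul, mul_smul, this]
  -- stabilizers
  let S : N → Subgroup H := fun n => MulAction.stabilizer H ((n : G) • a)
  have hS : ∀ (h : H) (n : N), h ∈ S n ↔ cj h n = n := by
    intro h n
    rw [MulAction.mem_stabilizer_iff, hequiv]
    exact ⟨inj _ _, fun e => by rw [e]⟩
  set k := Nat.card (MulAction.orbit H b) with hk
  set s := Nat.card (MulAction.stabilizer H b) with hs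
  have hks : ∀ c : Ω, Nat.card (MulAction.orbit H c) * Nat.card (MulAction.stabilizer H c) = Nat.card H := by
    intro c
    rw [Nat.card_congr (MulAction.orbitEquivQuotientStabilizer H c),
      ← Subgroup.card_eq_card_quotient_mul_card_subgroup]
  have hkc : ∀ c : Ω, c ≠ a → Nat.card (MulAction.orbit H c) = k := fun c hc => hhalf a c b hc hab.symm
  have hk0 : 0 < k := by
    rw [hk]
    haveI : Nonempty (MulAction.orbit H b) := ⟨⟨b, MulAction.mem_orbit_self b⟩⟩
    exact Nat.card_pos
  have hsc : ∀ c : Ω, c ≠ a → Nat.card (MulAction.stabilizer H c) = s := by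
    intro c hc
    have h1 := (hks c).trans (hks b).symm
    rw [hkc c hc] at h1
    exact Nat.eq_of_mul_eq_mul_left hk0 h1
  have hs1 : 1 < s := by
    rw [hs, Subgroup.one_lt_card_iff_ne_bot]
    intro h
    apply hfix
    rw [Subgroup.eq_bot_iff_forall]
    rintro g ⟨hga, hgb⟩
    have : (⟨g, hga⟩ : H) ∈ MulAction.stabilizer H b := MulAction.mem_stabilizer_iff.mp hgb
    rw [h, Subgroup.mem_bot] at this
    exact congrArg Subtype.val this
  have hSeq : ∀ x y : N, x ≠ 1 → y ≠ 1 → S x ≤ S y → S x = S y := by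
    intro x y hx hy hle
    refine Subgroup.eq_of_le_of_card_ge hle (le_of_eq ?_)
    rw [hsc _ (hne y hy), hsc _ (hne x hx)]
  have hfaith : ∀ h : H, (∀ n : N, cj h n = n) → h = 1 := by
    intro h hh
    apply Subtype.ext
    refine FaithfulSMul.eq_of_smul_eq_smul (α := Ω) fun w => ?_
    obtain ⟨n, rfl⟩ := surj w
    show (h : G) • ((n : G) • a) = (1 : G) • ((n : G) • a)
    rw [one_smul]
    exact MulAction.mem_stabilizer_iff.mp ((hS h n).mpr (hh n))
  have hSne : ∀ x : N, x ≠ 1 → ∃ h ∈ S x, h ≠ 1 := by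
    intro x hx
    have h1 : S x ≠ ⊥ := by
      rw [← Subgroup.one_lt_card_iff_ne_bot, hsc _ (hne x hx)]
      exact hs1
    obtain ⟨⟨h, hh⟩, hh1⟩ := Subgroup.ne_bot_iff_exists_ne_one.mp h1
    exact ⟨h, hh, fun e => hh1 (Subtype.ext e)⟩
  -- k is prime to the order of N
  have hcardN : Nat.card N = Nat.card Ω :=
    Nat.card_congr (Equiv.ofBijective (fun n : N => (n : G) • a) ⟨inj, surj⟩)
  have hcop : Nat.Coprime k (Nat.card N) := by
    have hd : k ∣ Nat.card N - 1 := by
      haveI := Fintype.ofFinite Ω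
      rw [hcardN]
      let X := SubMulAction.ofStabilizer G a
      have hX : Nat.card X = Nat.card Ω - 1 := by
        have he : (X : Set Ω) = Set.univ \ {a} := by ext w; simp [X, SubMulAction.mem_ofStabilizer_iff]
        rw [show Nat.card X = Nat.card (X : Set Ω) from rfl, Nat.card_coe_set_eq, he,
          Set.ncard_sdiff_singleton_of_mem (Set.mem_univ _), Set.ncard_univ]
      rw [← hX]
      refine orbit_card_dvd (L := H) k fun z => ?_
      rw [← hkc (z : Ω) ((SubMulAction.mem_ofStabilizer_iff G a).mp z.2)]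
      rw [Nat.card_congr (MulAction.orbitEquivQuotientStabilizer H z),
        Nat.card_congr (MulAction.orbitEquivQuotientStabilizer H (z : Ω)),
        show MulAction.stabilizer H z = MulAction.stabilizer H (z : Ω) from by
          ext h; simp [MulAction.mem_stabilizer_iff, Subtype.ext_iff]]
    have hpos : 0 < Nat.card N := Nat.card_pos
    have h1 : Nat.Coprime (Nat.card N - 1) (Nat.card N) := by
      obtain ⟨m, hm⟩ : ∃ m, Nat.card N = m + 1 := ⟨Nat.card N - 1, by omega⟩
      rw [hm, Nat.add_sub_cancel]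
      exact Nat.coprime_self_add_right.mpr (Nat.coprime_one_right m)
    exact h1.coprime_dvd_left hd
  -- constancy on suitable sets
  have constX : ∀ (Y : Set N), (∀ y ∈ Y, y ≠ 1) → Nat.card Y ∣ Nat.card N →
      (∀ (h : H) (y : N), y ∈ Y → cj h y = y → ∀ z ∈ Y, cj h z ∈ Y) →
      ∀ y ∈ Y, ∀ z ∈ Y, S y = S z := by
    intro Y hY hYd hYi y hy z hz
    set X : Set Ω := (fun n : N => (n : G) • a) '' Y with hXdef
    have hcX : Nat.card X = Nat.card Y := Nat.card_image_of_injective (fun n m h => inj n m h) Y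
    have h1 : ∀ w ∈ X, MulAction.stabilizer H w = MulAction.stabilizer H X := by
      refine stab_const k s X ?_ ?_ ?_ ?_
      · rintro _ ⟨n, hn, rfl⟩; exact hsc _ (hne n (hY n hn))
      · rintro _ ⟨n, hn, rfl⟩; exact hkc _ (hne n (hY n hn))
      · rintro _ ⟨n, hn, rfl⟩ h hh
        rw [MulAction.mem_stabilizer_iff]
        refine Set.eq_of_subset_of_ncard_le ?_ (le_of_eq ?_) (Set.toFinite _)
        · rintro _ ⟨_, ⟨m, hm, rfl⟩, rfl⟩
          exact ⟨cj h m, hYi h n hn ((hS h n).mp hh) m hm, (hequiv h m).symm⟩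
        · exact (Set.ncard_smul_set h X).symm
      · rw [hcX]; exact hcop.coprime_dvd_right hYd
    exact (h1 _ ⟨y, hy, rfl⟩).trans (h1 _ ⟨z, hz, rfl⟩).symm
  have hclass : ∀ (x n : N), x ≠ 1 → S (n * x * n⁻¹) = S x := by
    intro x n hx
    refine constX (Set.range fun m : N => m * x * m⁻¹) ?_ ?_ ?_ _ ⟨n, rfl⟩ _ ⟨1, by simp⟩
    · rintro _ ⟨m, rfl⟩ h
      exact hx (conj_eq_one_iff.mp h)
    · have he : Set.range (fun m : N => m * x * m⁻¹) = MulAction.orbit (ConjAct N) x := by
        ext w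
        constructor
        · rintro ⟨m, rfl⟩
          exact ⟨ConjAct.toConjAct m, by simp [ConjAct.smul_def]⟩
        · rintro ⟨m, rfl⟩
          exact ⟨ConjAct.ofConjAct m, by simp [ConjAct.smul_def]⟩
      rw [he, Nat.card_congr (MulAction.orbitEquivQuotientStabilizer (ConjAct N) x)]
      exact (Subgroup.card_quotient_dvd_card _).trans (dvd_of_eq (Nat.card_congr ConjAct.ofConjAct.toEquiv))
    · rintro h _ ⟨m₀, rfl⟩ hfix' _ ⟨m, rfl⟩
      refine ⟨cj h (m * m₀⁻¹) * m₀, Subtype.ext ?_⟩
      have h0 := congrArg Subtype.val hfix'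
      simp only [cj, Subgroup.coe_mul, Subgroup.coe_inv] at h0 ⊢
      have h0' : (m₀ : G)⁻¹ * ((h : G) * ((m₀ : G) * x * (m₀ : G)⁻¹) * (h : G)⁻¹) * m₀ = x := by
        rw [h0]; group
      conv_lhs => rw [← h0']
      group
  -- the parts
  let A : N → Subgroup N := fun x =>
    { carrier := {n | ∀ h ∈ S x, cj h n = n}
      one_mem' := fun h _ => Subtype.ext (by simp [cj])
      mul_mem' := fun {u v} hu hv h hh => Subtype.ext (by
        have e1 := congrArg Subtype.val (hu h hh)
        have e2 := congrArg Subtype.val (hv h hh)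
        simp only [cj, Subgroup.coe_mul] at e1 e2 ⊢
        conv_rhs => rw [← e1, ← e2]
        group)
      inv_mem' := fun {u} hu h hh => Subtype.ext (by
        have e1 := congrArg Subtype.val (hu h hh)
        simp only [cj, Subgroup.coe_inv] at e1 ⊢
        conv_rhs => rw [← e1]
        group) }
  have hAself : ∀ x : N, x ∈ A x := fun x h hh => (hS h x).mp hh
  have hAS : ∀ x n : N, x ≠ 1 → n ≠ 1 → n ∈ A x → S n = S x := fun x n hx hn hnA =>
    (hSeq x n hx hn fun h hh => (hS h n).mpr (hnA h hh)).symm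
  have hSA : ∀ x n : N, S n = S x → n ∈ A x := fun x n e h hh => (hS h n).mp (e ▸ hh)
  have hAn : ∀ x : N, x ≠ 1 → (A x).Normal := by
    intro x hx
    refine ⟨fun n hn g => ?_⟩
    rcases eq_or_ne n 1 with rfl | hn1
    · simp [one_mem]
    · exact hSA x _ ((hclass n g hn1).trans (hAS x n hx hn1 hn))
  have hother : ∀ x : N, x ≠ 1 → ∃ z : N, z ≠ 1 ∧ S z ≠ S x := by
    intro x hx
    by_contra hc
    push Not at hc
    obtain ⟨h, hh, hh1⟩ := hSne x hx
    refine hh1 (hfaith h fun n => ?_)
    rcases eq_or_ne n 1 with rfl | hn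
    · exact (A x).one_mem h hh
    · exact hSA x n (hc n hn) h hh
  have hcomm_diff : ∀ x y : N, x ≠ 1 → y ≠ 1 → S x ≠ S y → x * y = y * x := by
    intro x y hx hy hne'
    set c := x * y * x⁻¹ * y⁻¹ with hc
    have hcx : c ∈ A x := by
      rw [hc, show x * y * x⁻¹ * y⁻¹ = x * (y * x⁻¹ * y⁻¹) by group]
      exact mul_mem (hAself x) ((hAn x hx).conj_mem _ (inv_mem (hAself x)) y)
    have hcy : c ∈ A y := mul_mem ((hAn y hy).conj_mem _ (hAself y) x) (inv_mem (hAself y))
    by_contra hxy
    have hc1 : c ≠ 1 := fun h => hxy (by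
      rw [hc, mul_inv_eq_one, mul_inv_eq_iff_eq_mul] at h; exact h)
    exact hne' ((hAS x c hx hc1 hcx).symm.trans (hAS y c hy hc1 hcy))
  have hcomm : ∀ x y : N, x * y = y * x := by
    intro x y
    rcases eq_or_ne x 1 with rfl | hx
    · simp
    rcases eq_or_ne y 1 with rfl | hy
    · simp
    by_cases he : S x = S y
    · obtain ⟨z, hz, hzne⟩ := hother x hx
      have hzA : z ∉ A x := fun h => hzne (hAS x z hx hz h)
      have hyz : y * z ∉ A x := fun h => hzA (((A x).mul_mem_cancel_left (hSA x y he.symm)).mp h)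
      have hyz1 : y * z ≠ 1 := fun h => hyz (h ▸ one_mem _)
      have h1 := hcomm_diff x z hx hz (fun e => hzne e.symm)
      have h2 := hcomm_diff x (y * z) hx hyz1 (fun e => hyz (hSA x _ e.symm))
      rw [← mul_assoc, mul_assoc y z x, ← h1, ← mul_assoc y x z] at h2
      exact mul_right_cancel h2
    · exact hcomm_diff x y hx hy he
  have hord_diff : ∀ x y : N, x ≠ 1 → y ≠ 1 → S x ≠ S y → orderOf y ∣ orderOf x := by
    intro x y hx hy hne'
    apply orderOf_dvd_of_pow_eq_one
    by_contra hyn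
    have hxy : x * y ∈ A y ∨ True := Or.inr trivial
    have hmem : (x * y) ^ orderOf x = y ^ orderOf x := by
      rw [(show Commute x y from hcomm x y).mul_pow, pow_orderOf_eq_one, one_mul]
    have hxy1 : x * y ≠ 1 := fun h => hne' (by
      have hyx : y = x⁻¹ := eq_inv_of_mul_eq_one_right h
      exact (hAS x y hx hy (hyx ▸ inv_mem (hAself x))).symm)
    have e1 : S (y ^ orderOf x) = S (x * y) := hAS (x * y) _ hxy1 hyn (hmem ▸ pow_mem (hAself _) _)
    have e2 : S (y ^ orderOf x) = S y := hAS y _ hy hyn (pow_mem (hAself _) _)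
    have hxyA : x * y ∈ A y := hSA y _ (e1.symm.trans e2)
    exact hne' (hAS y x hy hx (((A y).mul_mem_cancel_right (hAself y)).mp hxyA))
  have hord : ∀ x y : N, x ≠ 1 → y ≠ 1 → orderOf x = orderOf y := by
    have hd : ∀ x y : N, x ≠ 1 → y ≠ 1 → S x ≠ S y → orderOf x = orderOf y := fun x y hx hy h =>
      Nat.dvd_antisymm (hord_diff y x hy hx (Ne.symm h)) (hord_diff x y hx hy h)
    intro x y hx hy
    by_cases he : S x = S y
    · obtain ⟨z, hz, hzne⟩ := hother x hx
      exact (hd x z hx hz (Ne.symm hzne)).trans (hd z y hz hy (he ▸ hzne))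
    · exact hd x y hx hy he
  obtain ⟨nb, hnb⟩ := surj b
  have hnb1 : nb ≠ 1 := fun h => hab (by rw [← hnb, h]; simp)
  obtain ⟨p, hp, hpd⟩ := Nat.exists_prime_and_dvd (n := orderOf nb) (orderOf_eq_one_iff.not.mpr hnb1)
  have hexp : ∀ x : N, x ^ p = 1 := by
    intro x
    rcases eq_or_ne x 1 with rfl | hx
    · simp
    have hw : orderOf (nb ^ (orderOf nb / p)) = p := orderOf_pow_orderOf_div (orderOf_pos nb).ne' hpd
    have hw1 : nb ^ (orderOf nb / p) ≠ 1 := fun h => hp.one_lt.ne (by rw [← hw, h, orderOf_one])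
    rw [← (hord _ x hw1 hx).symm.trans hw]
    exact pow_orderOf_eq_one x
  haveI hcN : IsMulCommutative N := ⟨⟨hcomm⟩⟩
  refine ⟨⟨p, hp, hcN, fun x hx => congrArg Subtype.val (hexp ⟨x, hx⟩)⟩, fun M hM hM1 => ?_⟩
  -- M meets N
  have hMN : ∃ x : N, x ≠ 1 ∧ (x : G) ∈ M := by
    by_contra hc
    push Not at hc
    apply hM1
    rw [Subgroup.eq_bot_iff_forall]
    intro g hg
    have hgc : ∀ n : N, g * n = n * g := by
      intro n
      have hmem : g * n * g⁻¹ * (n : G)⁻¹ ∈ N := mul_mem (hN.conj_mem n n.2 g) (inv_mem n.2)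
      have hmemM : g * n * g⁻¹ * (n : G)⁻¹ ∈ M := by
        rw [show g * n * g⁻¹ * (n : G)⁻¹ = g * ((n : G) * g⁻¹ * (n : G)⁻¹) by group]
        exact mul_mem hg (hM.conj_mem _ (inv_mem hg) n)
      by_cases h1 : (⟨_, hmem⟩ : N) = 1
      · have h1' : g * n * g⁻¹ * (n : G)⁻¹ = 1 := congrArg Subtype.val h1
        rwa [mul_inv_eq_one, mul_inv_eq_iff_eq_mul] at h1'
      · exact absurd hmemM (hc _ h1)
    obtain ⟨n, hn⟩ := surj (g • a)
    have hgn : g = (n : G) := by
      refine FaithfulSMul.eq_of_smul_eq_smul (α := Ω) fun w => ?_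
      obtain ⟨m, rfl⟩ := surj w
      rw [← mul_smul, ← mul_smul, hgc, ← Subgroup.coe_mul, hcomm n m, Subgroup.coe_mul, mul_smul,
        mul_smul, hn]
    subst hgn
    by_contra hne1
    exact hc n (fun h => hne1 (by rw [h]; rfl)) hg
  let U : Subgroup N := M.subgroupOf N
  by_contra hnot
  obtain ⟨v0, hv0, hv0M⟩ := SetLike.not_le_iff_exists.mp hnot
  set v : N := ⟨v0, hv0⟩
  have hvU : v ∉ U := hv0M
  obtain ⟨u₀, hu₀, hu₀M⟩ := hMN
  have hu0U : u₀ ∈ U := hu₀M
  have hout : ∀ v : N, v ∉ U → ∀ u ∈ U, u ≠ 1 → S v = S u := by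
    intro v hv u hu hu1
    have hcos : ∀ w ∈ U, S (w * v) = S v := by
      intro w hw
      refine constX (Set.range fun t : U => (t : N) * v) ?_ ?_ ?_ _ ⟨⟨w, hw⟩, rfl⟩ _ ⟨1, by simp⟩
      · rintro _ ⟨t, rfl⟩ h
        exact hv (by rw [eq_inv_of_mul_eq_one_right h]; exact inv_mem t.2)
      · rw [Nat.card_range_of_injective (fun s t h => Subtype.ext (mul_right_cancel h))]
        exact Subgroup.card_subgroup_dvd_card U
      · rintro h _ ⟨t₀, rfl⟩ hfix' _ ⟨t, rfl⟩
        have hmem : cj h ((t : N) * (t₀ : N)⁻¹) ∈ U :=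
          hM.conj_mem _ (show (((t : N) * (t₀ : N)⁻¹ : N) : G) ∈ M from
            U.mul_mem t.2 (U.inv_mem t₀.2)) (h : G)
        refine ⟨⟨cj h ((t : N) * (t₀ : N)⁻¹) * t₀, mul_mem hmem t₀.2⟩, Subtype.ext ?_⟩
        have h0 := congrArg Subtype.val hfix'
        simp only [cj, Subgroup.coe_mul, Subgroup.coe_inv] at h0 ⊢
        conv_lhs => rw [mul_assoc, ← h0]
        group
    have hv1 : v ≠ 1 := fun h => hv (h ▸ one_mem U)
    have huA : u ∈ A v := ((A v).mul_mem_cancel_right (hAself v)).mp (hSA v _ (hcos u hu))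
    exact (hAS v u hv1 hu1 huA).symm
  have hv1 : v ≠ 1 := fun h => hvU (h ▸ one_mem U)
  obtain ⟨h, hh, hh1⟩ := hSne u₀ hu₀
  refine hh1 (hfaith h fun n => (hS h n).mp ?_)
  rcases eq_or_ne n 1 with rfl | hn
  · exact (hS h 1).mpr (Subtype.ext (by simp [cj]))
  by_cases hnU : n ∈ U
  · rw [← hout v hvU n hnU hn, hout v hvU u₀ hu0U hu₀]; exact hh
  · rw [hout n hnU u₀ hu0U hu₀]; exact hh

/-- Let G be a finite 3/2-transitive permutation group: G acts faithfully and transitively on a finite set, the point stabilizers are non-trivial, and for each point a all orbits of G_a on the remaining points have the same size. Suppose G has a regular normal subgroup N and G is not a Frobenius group (some two-point stabilizer is non-trivial). Then N is an elementary abelian p-group for some prime p, and every non-trivial normal subgroup of G contains N (so N is the unique minimal normal subgroup). -/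
theorem result {G Ω : Type*} [Group G] [Finite G]
    [MulAction G Ω] [FaithfulSMul G Ω] [Finite Ω] (htrans : MulAction.IsPretransitive G Ω)
    (hne : ∀ a : Ω, MulAction.stabilizer G a ≠ ⊥)
    (hhalf : ∀ a b c : Ω, b ≠ a → c ≠ a →
      Nat.card (MulAction.orbit (MulAction.stabilizer G a) b) = Nat.card (MulAction.orbit (MulAction.stabilizer G a) c))
    (N : Subgroup G) [hN : N.Normal] (hNt : MulAction.IsPretransitive N Ω) (hNr : ∀ a : Ω, MulAction.stabilizer N a = ⊥)
    (hnotF : ∃ a b : Ω, a ≠ b ∧ MulAction.stabilizer G a ⊓ MulAction.stabilizer G b ≠ ⊥) :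
    (∃ p : ℕ, p.Prime ∧ IsMulCommutative N ∧ ∀ x ∈ N, x ^ p = 1) ∧
    (∀ M : Subgroup G, M.Normal → M ≠ ⊥ → N ≤ M) := by
  obtain ⟨a, b, hab, hfix⟩ := hnotF
  exact main hhalf N hNt hNr hab hfix

end Cfsg.Agent.S3356
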