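import Cfsg.Statements.S3358
import Cfsg.Agent.H21.ComplementQuotient
import Cfsg.Agent.H21.ZGroupPresentation

set_option autoImplicit false
open Cfsg

namespace Cfsg.Agent.S3358

/-- Structure of solvable Frobenius complements. Let G be a finite solvable group that occurs as a Frobenius complement. Then G has a normal subgroup G₀ such that G/G₀ is isomorphic to a subgroup of Sym(4) (G₀ is the kernel of a homomorphism to Sym(4)), all Sylow subgroups of G₀ are cyclic, and G₀ has a presentation ⟨x, y | x^n = 1, y^m = 1, x⁻¹ y x = y^r⟩ with n, m ≥ 1, gcd(r − 1, m) = gcd(n, m) = 1 and r^(n/n′) ≡ 1 (mod m), where n′ is the product of the distinct primes dividing n. -/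
theorem result {G : Type*} [Group G] [Finite G] (hsol : Group.IsSolvable G)
    (hFC : ∃ (L : Type) (_ : Group L) (_ : Finite L) (H : Subgroup L), Cfsg.IsFrobeniusComplement H ∧ Nonempty (G ≃* H)) :
    ∃ G₀ : Subgroup G, G₀.Normal ∧
      (∃ f : G →* Equiv.Perm (Fin 4), f.ker = G₀) ∧
      (∀ (p : ℕ) [Fact p.Prime] (P : Sylow p G₀), IsCyclic P) ∧
      ∃ n m r : ℕ, 0 < n ∧ 0 < m ∧ Nat.Coprime (r - 1) m ∧ Nat.Coprime n m ∧ 1 ≤ r ∧
        r ^ (n / ∏ p ∈ n.primeFactors, p) % m = 1 % m ∧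
        Nonempty (G₀ ≃* PresentedGroup
          ({FreeGroup.of (0 : Fin 2) ^ n, FreeGroup.of (1 : Fin 2) ^ m,
            (FreeGroup.of (0 : Fin 2))⁻¹ * FreeGroup.of 1 * FreeGroup.of 0 * (FreeGroup.of (1 : Fin 2) ^ r)⁻¹} :
            Set (FreeGroup (Fin 2)))) := by
  obtain ⟨L, _, _, H, hH, ⟨e⟩⟩ := hFC
  obtain ⟨K, _, ψ, hψ⟩ := Cfsg.Agent.H21.exists_action_of_fc hH e
  obtain ⟨G₀, hn, hf, hZ⟩ : ∃ G₀ : Subgroup G, G₀.Normal ∧
      (∃ f : G →* Equiv.Perm (Fin 4), f.ker = G₀) ∧ IsZGroup G₀ := by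
    by_cases hZ : IsZGroup G
    · exact ⟨⊤, inferInstance, ⟨1, MonoidHom.ker_one⟩, inferInstance⟩
    rcases Cfsg.Agent.H21.quotient_of_solvable hψ hZ with ⟨f, -, hk⟩ | ⟨f, -, hk⟩ | ⟨f, -, hk⟩
    · let e4 : DihedralGroup 2 ≃ Fin 4 := Fintype.equivFinOfCardEq (by decide +kernel)
      let i := (e4.permCongrHom.toMonoidHom).comp (MulAction.toPermHom (DihedralGroup 2) (DihedralGroup 2))
      have hi : Function.Injective i := e4.permCongrHom.injective.comp MulAction.toPerm_injective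
      exact ⟨f.ker, f.normal_ker, ⟨i.comp f, by ext g; simp [MonoidHom.mem_ker, map_eq_one_iff i hi]⟩, hk⟩
    · exact ⟨f.ker, f.normal_ker, ⟨(alternatingGroup (Fin 4)).subtype.comp f, by
        ext g; simp [MonoidHom.mem_ker]⟩, hk⟩
    · exact ⟨f.ker, f.normal_ker, ⟨f, rfl⟩, hk⟩
  refine ⟨G₀, hn, hf, fun p _ P => inferInstance, ?_⟩
  exact Cfsg.Agent.H21.zgroup_presentation (ψ.comp G₀.subtype)
    fun g hg v hv => hψ g (fun h => hg (Subtype.ext h)) v hv

end Cfsg.Agent.S3358
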