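import Cfsg.Statements.S3362
import Cfsg.Agent.H13.M12Fin

set_option autoImplicit false
open Cfsg

namespace Cfsg.Agent.S3362

open Cfsg.Agent.H13

/-- An explicit construction of the Mathieu groups of degrees 11 and 12. On the points 0, …, 11 let s = (3 4 5)(6 7 8)(9 10 11), t = (3 6 9)(4 7 10)(5 8 11), u = (4 6 5 9)(7 8 11 10), v = (4 7 5 11)(6 10 9 8), w = (4 10 5 8)(6 11 9 7), x₁ = (0 3)(6 7)(8 10)(9 11), x₂ = (0 1)(6 9)(7 10)(8 11), x₃ = (1 2)(6 11)(7 9)(8 10) (each written as a product of transpositions). Then the group M₁₂ generated by all eight permutations is sharply 5-transitive on the 12 points and has order 95040, and the group M₁₁ generated by the first seven has order 7920 and is the stabilizer of the point 2 in M₁₂. -/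
theorem result
    (s t u v w x₁ x₂ x₃ : Equiv.Perm (Fin 12))
    (hs : s = Equiv.swap (3 : Fin 12) 5 * Equiv.swap (3 : Fin 12) 4 * Equiv.swap (6 : Fin 12) 8 * Equiv.swap (6 : Fin 12) 7 * Equiv.swap (9 : Fin 12) 11 * Equiv.swap (9 : Fin 12) 10) (ht : t = Equiv.swap (3 : Fin 12) 9 * Equiv.swap (3 : Fin 12) 6 * Equiv.swap (4 : Fin 12) 10 * Equiv.swap (4 : Fin 12) 7 * Equiv.swap (5 : Fin 12) 11 * Equiv.swap (5 : Fin 12) 8)
    (hu : u = Equiv.swap (4 : Fin 12) 9 * Equiv.swap (4 : Fin 12) 5 * Equiv.swap (4 : Fin 12) 6 * Equiv.swap (7 : Fin 12) 10 * Equiv.swap (7 : Fin 12) 11 * Equiv.swap (7 : Fin 12) 8) (hv : v = Equiv.swap (4 : Fin 12) 11 * Equiv.swap (4 : Fin 12) 5 * Equiv.swap (4 : Fin 12) 7 * Equiv.swap (6 : Fin 12) 8 * Equiv.swap (6 : Fin 12) 9 * Equiv.swap (6 : Fin 12) 10) (hw : w = Equiv.swap (4 : Fin 12) 8 * Equiv.swap (4 : Fin 12) 5 * Equiv.swap (4 : Fin 12) 10 * Equiv.swap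 (6 : Fin 12) 7 * Equiv.swap (6 : Fin 12) 9 * Equiv.swap (6 : Fin 12) 11)
    (hx₁ : x₁ = Equiv.swap (0 : Fin 12) 3 * Equiv.swap (6 : Fin 12) 7 * Equiv.swap (8 : Fin 12) 10 * Equiv.swap (9 : Fin 12) 11) (hx₂ : x₂ = Equiv.swap (0 : Fin 12) 1 * Equiv.swap (6 : Fin 12) 9 * Equiv.swap (7 : Fin 12) 10 * Equiv.swap (8 : Fin 12) 11)
    (hx₃ : x₃ = Equiv.swap (1 : Fin 12) 2 * Equiv.swap (6 : Fin 12) 11 * Equiv.swap (7 : Fin 12) 9 * Equiv.swap (8 : Fin 12) 10)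
    (M₁₂ M₁₁ : Subgroup (Equiv.Perm (Fin 12))) (hM₁₂ : M₁₂ = Subgroup.closure {s, t, u, v, w, x₁, x₂, x₃})
    (hM₁₁ : M₁₁ = Subgroup.closure {s, t, u, v, w, x₁, x₂}) :
    MulAction.IsMultiplyPretransitive M₁₂ (Fin 12) 5 ∧ (∀ y : Fin 5 ↪ Fin 12, MulAction.stabilizer M₁₂ y = ⊥) ∧
    Nat.card M₁₂ = 95040 ∧ Nat.card M₁₁ = 7920 ∧
    M₁₁ = M₁₂ ⊓ MulAction.stabilizer (Equiv.Perm (Fin 12)) (2 : Fin 12) := by
  have hset12 : ({s, t, u, v, w, x₁, x₂, x₃} : Set (Equiv.Perm (Fin 12))) = {σ | σ ∈ M12Fin.perms} := by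
    ext σ
    simp [M12Fin.perms, hs, ht, hu, hv, hw, hx₁, hx₂, hx₃]
  have hset11 : ({s, t, u, v, w, x₁, x₂} : Set (Equiv.Perm (Fin 12))) = {σ | σ ∈ M12Fin.perms.take 7} := by
    ext σ
    simp [M12Fin.perms, hs, ht, hu, hv, hw, hx₁, hx₂]
  rw [hset12, M12Fin.m12_closure] at hM₁₂
  rw [hset11, M12Fin.m11_closure] at hM₁₁
  subst hM₁₂ hM₁₁
  have h12 : Nat.card (genGroup 12 M12Fin.gens12) = 95040 := by
    rw [(check_spec _ _ M12Fin.valid12 M12Fin.check12).2]; decide +kernel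
  have h11 : Nat.card (genGroup 12 M12Fin.gens11) = 7920 := by
    rw [(check_spec _ _ M12Fin.valid11 M12Fin.check11).2]; decide +kernel
  let y₀ : Fin 5 ↪ Fin 12 := ⟨![2, 1, 0, 3, 4], by decide +kernel⟩
  have hy₀ : MulAction.stabilizer (genGroup 12 M12Fin.gens12) y₀ = ⊥ := by
    rw [Subgroup.eq_bot_iff_forall]
    rintro ⟨g, hg⟩ hgy
    apply Subtype.ext
    refine eq_one_of_fix_bases _ _ M12Fin.valid12 M12Fin.check12 g hg ?_
    intro d hd b hdb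
    have hmem : ∀ b : Fin 12, b.val ∈ M12Fin.levels12.map Level.base → ∃ i, y₀ i = b := by
      decide +kernel
    obtain ⟨i, rfl⟩ := hmem b (List.mem_map.mpr ⟨d, hd, hdb⟩)
    exact congrArg (fun e : Fin 5 ↪ Fin 12 => e i) hgy
  have hcard : Nat.card (genGroup 12 M12Fin.gens12) = Nat.card (Fin 5 ↪ Fin 12) := by
    rw [h12, Nat.card_eq_fintype_card, Fintype.card_embedding_eq]
    decide +kernel
  obtain ⟨ht', hst⟩ := regular_of_card y₀ hy₀ hcard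
  exact ⟨ht', hst, h12, h11, M12Fin.m11_eq.symm⟩


end Cfsg.Agent.S3362
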