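import Cfsg.Statements.S3371
import Cfsg.Agent.H21.HalfTransitive.Imprimitive
import Cfsg.Agent.H21.HalfTransitive.Primitive
import Cfsg.Agent.H21.UniqueSubgroup
import Cfsg.Agent.H21.Complement
import Cfsg.Agent.S0519
import Cfsg.Agent.H55.Cyclic

set_option autoImplicit false
open Cfsg

namespace Cfsg.Agent.S3371

/-- Let q be a prime, V a non-trivial finite vector space over the field with q elements, and G a finite p-group (p prime) acting faithfully and linearly on V such that all G-orbits on the non-zero vectors have the same size. Then one of the following holds: G is cyclic or generalized quaternion and acts semiregularly on the non-zero vectors; or V has q² elements with q = 2^m − 1 and G is dihedral of order 2^(m+1) or semidihedral of order 2^(m+2); or V has q² elements with q = 2^m + 1 and, in suitable coordinates V = F_q², G is exactly the group of maps (x, y) ↦ (a x, ± a⁻¹ y) and (x, y) ↦ (± a⁻¹ y, a x) with a ≠ 0; or V has 81 elements (q = 3) and G is a 2-group. -/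
theorem result (q : ℕ) [Fact q.Prime] {V : Type*} [AddCommGroup V] [Module (ZMod q) V] [Finite V] [Nontrivial V]
    {G : Type*} [Group G] [Finite G] (p : ℕ) [Fact p.Prime] (hG : IsPGroup p G)
    (ρ : G →* (V ≃ₗ[ZMod q] V)) (hρ : Function.Injective ρ)
    (hhalf : ∀ v w : V, v ≠ 0 → w ≠ 0 → Nat.card {u : V | ∃ g : G, ρ g v = u} = Nat.card {u : V | ∃ g : G, ρ g w = u}) :
    ((IsCyclic G ∨ ∃ n : ℕ, Nonempty (G ≃* QuaternionGroup n)) ∧ ∀ v : V, v ≠ 0 → ∀ g : G, ρ g v = v → g = 1) ∨
    (Nat.card V = q ^ 2 ∧ ∃ m : ℕ, q = 2 ^ m - 1 ∧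
      (Nonempty (G ≃* DihedralGroup (2 ^ m)) ∨ (Cfsg.IsQuasiDihedral G ∧ Nat.card G = 2 ^ (m + 2)))) ∨
    (Nat.card V = q ^ 2 ∧ (∃ m : ℕ, q = 2 ^ m + 1) ∧
      ∃ e : V ≃ₗ[ZMod q] (Fin 2 → ZMod q), ∀ f : (Fin 2 → ZMod q) ≃ₗ[ZMod q] (Fin 2 → ZMod q),
        (∃ g : G, f = e.symm.trans ((ρ g).trans e)) ↔
        ∃ a s : ZMod q, a ≠ 0 ∧ (s = 1 ∨ s = -1) ∧
          ((∀ v, f v = ![a * v 0, s * a⁻¹ * v 1]) ∨ (∀ v, f v = ![s * a⁻¹ * v 1, a * v 0]))) ∨
    (Nat.card V = 81 ∧ q = 3 ∧ p = 2) := by
  classical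
  have he : Cfsg.Agent.H21.HT.EqualStab ρ := Cfsg.Agent.H21.HT.equalStab_of_orbits ρ hhalf
  by_cases hns : Cfsg.Agent.H21.HT.Semiregular ρ
  · left
    refine ⟨?_, hns⟩
    let ψ : G →* MulAut (Multiplicative V) :=
      { toFun := fun g => AddEquiv.toMultiplicative (ρ g).toAddEquiv
        map_one' := by ext x; simp
        map_mul' := fun g h => by ext x; simp }
    have hfpf : ∀ e : G, e ≠ 1 → ∀ k : Multiplicative V, ψ e k = k → k = 1 := by
      intro e he1 k hk
      by_contra hk1
      exact he1 (hns (Multiplicative.toAdd k) hk1 e hk)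
    rcases Cfsg.Agent.H21.cyclic_or_quaternion p hG
      (fun H K hH hK => Cfsg.Agent.H21.unique_subgroup_of_fpf hG ψ hfpf H K hH hK) with h | ⟨_, n, hn⟩
    · exact Or.inl h
    · exact Or.inr ⟨_, hn⟩
  right
  have hpq := Cfsg.Agent.H21.HT.ne_of_not_semiregular ρ hG hρ he hns
  have hirr := Cfsg.Agent.H21.HT.irr_of_not_semiregular ρ hG hpq hρ he hns
  obtain ⟨v, hv⟩ := exists_ne (0 : V)
  have hstab : Cfsg.Agent.H21.HT.stab ρ v ≠ ⊥ := fun h =>
    hns (Cfsg.Agent.H21.HT.semiregular_of_stab_eq_bot ρ he hv h)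
  have : Nontrivial G := by
    obtain ⟨⟨t, _⟩, ht1⟩ := Subgroup.ne_bot_iff_exists_ne_one.1 hstab
    exact ⟨⟨t, 1, fun h => ht1 (Subtype.ext h)⟩⟩
  have hcard_p : ∀ (H : Subgroup G), H ≠ ⊥ → ∃ t ∈ H, orderOf t = p := by
    intro H hH
    have : Nontrivial H := (Subgroup.nontrivial_iff_ne_bot H).2 hH
    obtain ⟨k, hk⟩ := IsPGroup.iff_card.1 (hG.to_subgroup H)
    have hk0 : k ≠ 0 := by
      rintro rfl
      have := Finite.one_lt_card (α := H)
      rw [hk] at this; simp at this
    obtain ⟨t, ht⟩ := exists_prime_orderOf_dvd_card' (G := H) p (hk ▸ dvd_pow_self p hk0)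
    exact ⟨t, t.2, by rw [Subgroup.orderOf_coe, ht]⟩
  obtain ⟨z, hzC, hz⟩ := hcard_p (Subgroup.center G)
    ((Subgroup.nontrivial_iff_ne_bot _).1 hG.center_nontrivial)
  obtain ⟨t, htS, ht⟩ := hcard_p _ hstab
  have hz1 : z ≠ 1 := fun h => by
    rw [h, orderOf_one] at hz; exact (Fact.out : p.Prime).ne_one hz.symm
  have hzc : ∀ g : G, g * z = z * g := fun g => Subgroup.mem_center_iff.1 hzC g
  have hzp : z ^ p = 1 := hz ▸ pow_orderOf_eq_one z
  by_cases hn : ∀ A : Subgroup G, A.Normal → IsMulCommutative A → IsCyclic A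
  · have hm : ∃ B : Subgroup G, IsMulCommutative B ∧ ¬ IsCyclic B := by
      have htz : Commute t z := hzc t
      let B : Subgroup G := Subgroup.closure {t, z}
      have hB : IsMulCommutative B := Subgroup.isMulCommutative_closure (by
        rintro a (rfl | rfl) b (rfl | rfl) <;> first | rfl | exact htz | exact htz.symm)
      refine ⟨B, hB, fun hc => ?_⟩
      have htB : t ∈ B := Subgroup.subset_closure (by simp)
      have hzB : z ∈ B := Subgroup.subset_closure (by simp)
      have h := Cfsg.Agent.H55.cyclic_subgroup_eq_of_card_eq (C := B) (H := Subgroup.zpowers ⟨t, htB⟩)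
        (K := Subgroup.zpowers ⟨z, hzB⟩)
        (by rw [Nat.card_zpowers, Nat.card_zpowers, Subgroup.orderOf_mk, Subgroup.orderOf_mk, ht, hz])
      have hzt : z ∈ Subgroup.zpowers t := by
        have h2 := congrArg (Subgroup.map B.subtype) h
        rw [MonoidHom.map_zpowers, MonoidHom.map_zpowers] at h2
        exact (h2 ▸ Subgroup.mem_zpowers z : z ∈ Subgroup.zpowers t)
      have : z ∈ Cfsg.Agent.H21.HT.stab ρ v := Subgroup.zpowers_le.2 htS hzt
      exact hv (Cfsg.Agent.H21.HT.fpf_of_central ρ hρ hirr hz1 hzc v this)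
    obtain ⟨rfl, hQ | ⟨n, hn8, ⟨e⟩⟩ | hSD⟩ := Cfsg.Agent.S0519.result p hG hn hm
    · exfalso
      obtain ⟨n, ⟨e⟩⟩ := hQ
      have hn0 : NeZero n := ⟨fun h => by
        subst h
        have hf : Finite (QuaternionGroup 0) := Finite.of_equiv G e.toEquiv
        have : Finite (ZMod (2 * 0)) :=
          Finite.of_injective (QuaternionGroup.a (n := 0)) fun _ _ h => QuaternionGroup.a.inj h
        exact Int.infinite.not_finite this⟩
      have huniq : ∀ x : QuaternionGroup n, orderOf x = 2 → x = QuaternionGroup.a (n : ZMod (2 * n)) := by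
        intro x hx
        cases x with
        | a i =>
          congr 1
          have h2 : i + i = 0 := by
            have := pow_orderOf_eq_one (QuaternionGroup.a i)
            rw [hx, sq, QuaternionGroup.a_mul_a, ← QuaternionGroup.a_zero] at this
            exact QuaternionGroup.a.inj this
          have hi0 : i ≠ 0 := fun h => by
            rw [h, QuaternionGroup.a_zero, orderOf_one] at hx; norm_num at hx
          have hd : (2 * n) ∣ (i.val + i.val) := by
            rw [← ZMod.natCast_eq_zero_iff]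
            push_cast
            rw [ZMod.natCast_zmod_val, h2]
          have hlt := ZMod.val_lt i
          have hne : i.val ≠ 0 := fun h => hi0 ((ZMod.val_eq_zero i).1 h)
          obtain ⟨c, hc⟩ := hd
          have hc1 : c = 1 := by
            rcases c with _ | _ | c
            · omega
            · rfl
            · exfalso; nlinarith
          subst hc1
          rw [← ZMod.natCast_zmod_val i]
          congr 1
          omega
        | xa i => rw [QuaternionGroup.orderOf_xa] at hx; norm_num at hx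
      have h1 := huniq (e t) (by rw [MulEquiv.orderOf_eq, ht])
      have h2 := huniq (e z) (by rw [MulEquiv.orderOf_eq, hz])
      have htz : t = z := e.injective (h1.trans h2.symm)
      exact hv (Cfsg.Agent.H21.HT.fpf_of_central ρ hρ hirr hz1 hzc v (htz ▸ htS))
    · left
      obtain ⟨h1, m, h2, h3⟩ := Cfsg.Agent.H21.HT.dihedral ρ hρ hirr he hns hpq hG hn8 e
      exact ⟨h1, m, h2, Or.inl h3⟩
    · left
      obtain ⟨h1, m, h2, h3⟩ := Cfsg.Agent.H21.HT.semidihedral ρ hρ hirr he hns hpq hSD
      exact ⟨h1, m, h2, Or.inr ⟨hSD, h3⟩⟩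
  · push Not at hn
    obtain ⟨A, hAn, hA, hAc⟩ := hn
    obtain ⟨t₀, ht₀, ht₀p, ht₀z⟩ : ∃ t₀ ∈ A, t₀ ^ p = 1 ∧
        ∀ c : ZMod p, t₀ ≠ Cfsg.Agent.H21.HT.pz z c := by
      by_contra hcon
      push Not at hcon
      refine hAc (Cfsg.Agent.H21.isCyclic_of_comm_unique (hG.to_subgroup A) fun H L hH hL => ?_)
      have key : ∀ H : Subgroup A, Nat.card H = p → H.map A.subtype = Subgroup.zpowers z := by
        intro H hH
        refine Subgroup.eq_of_le_of_card_ge ?_ ?_
        · rintro x ⟨y, hy, rfl⟩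
          have hy' : (y : A) ^ p = 1 := by
            have := pow_card_eq_one' (x := (⟨y, hy⟩ : H))
            rw [hH] at this
            exact congrArg Subtype.val this
          obtain ⟨c, hc⟩ := hcon y y.2 (congrArg Subtype.val hy')
          show (y : G) ∈ _
          rw [hc]
          exact Subgroup.pow_mem _ (Subgroup.mem_zpowers z) _
        · rw [Nat.card_zpowers, hz, Subgroup.card_map_of_injective A.subtype_injective, hH]
      exact Subgroup.map_injective A.subtype_injective ((key H hH).trans (key L hL).symm)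
    obtain ⟨D, -⟩ := Cfsg.Agent.H21.HT.exists_pairData hG A hA z hzp hz1 hzc t₀ ht₀ ht₀p ht₀z
    obtain rfl := D.eq_two ρ hρ hirr hpq he hns
    rcases Cfsg.Agent.H21.HT.imprimitive ρ hρ hirr he hns hpq hG D with ⟨h1, h2⟩ | h
    · exact Or.inr (Or.inr ⟨h1, h2, rfl⟩)
    · exact Or.inr (Or.inl h)

end Cfsg.Agent.S3371
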