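import Cfsg.Statements.S3374
import Cfsg.Agent.H78.BinaryIcosahedral
import Cfsg.Agent.H90.FrobeniusModule

set_option autoImplicit false
open Cfsg

namespace Cfsg.Agent.S3374

open Matrix MatrixGroups

local instance : Fact (Nat.Prime 11) := ⟨by norm_num⟩

/-- An element of `SL(2,11)` fixing a nonzero vector has order dividing eleven. -/
theorem pow_eleven {g : SL(2, ZMod 11)} {v : Fin 2 → ZMod 11} (hv : v ≠ 0)
    (h : (g : Matrix (Fin 2) (Fin 2) (ZMod 11)).mulVec v = v) : g ^ 11 = 1 := by
  have hd := H6.sl2_det g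
  have h0 : g 0 0 * v 0 + g 0 1 * v 1 = v 0 := by
    have := congrFun h 0
    simpa [mulVec, dotProduct, Fin.sum_univ_two] using this
  have h1 : g 1 0 * v 0 + g 1 1 * v 1 = v 1 := by
    have := congrFun h 1
    simpa [mulVec, dotProduct, Fin.sum_univ_two] using this
  have htr : g 0 0 + g 1 1 = 2 := by
    have e0 : (2 - (g 0 0 + g 1 1)) * v 0 = 0 := by
      linear_combination (g 1 1 - 1) * h0 - g 0 1 * h1 - v 0 * hd
    have e1 : (2 - (g 0 0 + g 1 1)) * v 1 = 0 := by
      linear_combination (g 0 0 - 1) * h1 - g 1 0 * h0 - v 1 * hd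
    by_contra hne
    have hne' : (2 : ZMod 11) - (g 0 0 + g 1 1) ≠ 0 := sub_ne_zero.mpr (Ne.symm hne)
    apply hv
    funext i
    fin_cases i
    · exact (mul_eq_zero.mp e0).resolve_left hne'
    · exact (mul_eq_zero.mp e1).resolve_left hne'
  set M : Matrix (Fin 2) (Fin 2) (ZMod 11) := (g : Matrix (Fin 2) (Fin 2) (ZMod 11)) with hM
  have hN : (M - 1) ^ 2 = 0 := by
    rw [pow_two]
    ext i j
    fin_cases i <;> fin_cases j <;> simp [Matrix.mul_apply, Fin.sum_univ_two, hM]
    · linear_combination (g 0 0) * htr - hd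
    · linear_combination (g 0 1) * htr
    · linear_combination (g 1 0) * htr
    · linear_combination (g 1 1) * htr - hd
  apply Subtype.ext
  refine (Matrix.SpecialLinearGroup.coe_pow g 11).trans ?_
  show M ^ 11 = 1
  have hs := add_pow_char_of_commute (p := 11) (h := Commute.one_right (M - 1))
  rw [sub_add_cancel, one_pow, pow_eq_zero_of_le (by norm_num) hN, zero_add] at hs
  exact hs

/-- SL(2,5) occurs as a Frobenius complement: there is a finite group L with a subgroup H isomorphic to SL(2,5) which is a non-trivial proper subgroup meeting each conjugate gHg⁻¹ with g outside H trivially. -/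
theorem result :
    ∃ (L : Type) (_ : Group L) (_ : Finite L) (H : Subgroup L),
      Cfsg.IsFrobeniusComplement H ∧ Nonempty (H ≃* Matrix.SpecialLinearGroup (Fin 2) (ZMod 5)) := by
  obtain ⟨ι, hι⟩ := Cfsg.Agent.H78.exists_embed_sl2_eleven
  haveI : Fact (Nat.Prime 5) := ⟨by norm_num⟩
  let act : SL(2, ZMod 11) → MulAut (Multiplicative (Fin 2 → ZMod 11)) := fun g =>
    AddEquiv.toMultiplicative (SpecialLinearGroup.toLin' g).toAddEquiv
  have hact : ∀ g v, Multiplicative.toAdd (act g v) =
      (g : Matrix (Fin 2) (Fin 2) (ZMod 11)).mulVec (Multiplicative.toAdd v) := fun g v => rfl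
  let φ : SL(2, ZMod 5) →* MulAut (Multiplicative (Fin 2 → ZMod 11)) :=
    { toFun := fun h => act (ι h)
      map_one' := by
        refine MulEquiv.ext fun v => Multiplicative.toAdd.injective ?_
        rw [hact, map_one]
        exact Matrix.one_mulVec _
      map_mul' := fun a b => by
        refine MulEquiv.ext fun v => Multiplicative.toAdd.injective ?_
        rw [hact, map_mul]
        exact (Matrix.mulVec_mulVec (Multiplicative.toAdd v)
          (ι a : Matrix (Fin 2) (Fin 2) (ZMod 11)) (ι b : Matrix (Fin 2) (Fin 2) (ZMod 11))).symm }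
  haveI : Nontrivial SL(2, ZMod 5) :=
    Finite.one_lt_card_iff_nontrivial.1 (by rw [H6.card_sl2 (q := 5) (ZMod.card 5)]; norm_num)
  obtain ⟨L, iL, fL, C, hC, ⟨e⟩, -⟩ := Cfsg.Agent.H90.exists_fc_of_fpf φ (fun h hh x hx => by
    by_contra hne
    have hne' : Multiplicative.toAdd x ≠ 0 := fun e => hne (Multiplicative.toAdd.injective e)
    have h11 := pow_eleven hne' (congrArg Multiplicative.toAdd hx)
    rw [← map_pow, ← map_one ι] at h11
    have h11' : h ^ 11 = 1 := hι h11
    have h120 : h ^ 120 = 1 := by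
      have := pow_card_eq_one' (G := SL(2, ZMod 5)) (x := h)
      rwa [H6.card_sl2 (q := 5) (ZMod.card 5)] at this
    exact hh (orderOf_eq_one_iff.mp (Nat.eq_one_of_dvd_coprimes (by norm_num)
      (orderOf_dvd_of_pow_eq_one h11') (orderOf_dvd_of_pow_eq_one h120))))
  exact ⟨L, iL, fL, C, hC, ⟨e.symm⟩⟩

end Cfsg.Agent.S3374
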