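import Cfsg.Statements.S3375
import Mathlib
-- import your own Cfsg.Agent.* helpers here

set_option autoImplicit false
open Cfsg

namespace Cfsg.Agent.S3375

/-- Let γ be an automorphism of order 2 of a finite group H. (i) If γ fixes only the identity, then H is abelian and γ inverts every element. (ii) If γ has exactly two fixed points and H has a subgroup of index 2, then H has a γ-invariant abelian subgroup of index 2 on which γ acts by inversion. -/
theorem result {H : Type*} [Group H] [Finite H] (γ : MulAut H) (hγ : orderOf γ = 2) :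
    ((∀ h : H, γ h = h → h = 1) → (∀ a b : H, a * b = b * a) ∧ ∀ h : H, γ h = h⁻¹) ∧
    ((Nat.card {h : H // γ h = h} = 2 ∧ ∃ M : Subgroup H, M.index = 2) →
      ∃ A : Subgroup H, A.index = 2 ∧ IsMulCommutative A ∧ (∀ a ∈ A, γ a ∈ A) ∧ ∀ a ∈ A, γ a = a⁻¹) := by
  classical
  have hγγ : ∀ h, γ (γ h) = h := by
    intro h
    have h1 : γ ^ 2 = 1 := hγ ▸ pow_orderOf_eq_one γ
    rw [pow_two] at h1
    exact DFunLike.congr_fun h1 h
  have habel : ∀ A : Subgroup H, (∀ a ∈ A, γ a = a⁻¹) → ∀ a ∈ A, ∀ b ∈ A, a * b = b * a := by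
    intro A hA a ha b hb
    have h1 := hA _ (mul_mem ha hb)
    rw [map_mul, hA a ha, hA b hb, ← mul_inv_rev, inv_inj] at h1
    exact h1.symm
  let f : H → H := fun h => h⁻¹ * γ h
  have hinv : ∀ h, γ (f h) = (f h)⁻¹ := by
    intro h
    simp only [f, map_mul, map_inv, hγγ, mul_inv_rev, inv_inv]
  have hker : ∀ a b, f a = f b ↔ γ (b * a⁻¹) = b * a⁻¹ := by
    intro a b
    simp only [f, map_mul, map_inv]
    rw [mul_inv_eq_iff_eq_mul, mul_assoc, inv_mul_eq_iff_eq_mul]
    constructor
    · intro h; rw [h]; group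
    · intro h; rw [h]; group
  refine ⟨fun hfpf => ?_, fun ⟨hcard, M, hM⟩ => ?_⟩
  · have hinj : Function.Injective f := fun a b hab =>
      (mul_inv_eq_one.1 (hfpf _ ((hker a b).1 hab))).symm
    have hall : ∀ h, γ h = h⁻¹ := by
      intro h
      obtain ⟨a, rfl⟩ := (Finite.injective_iff_surjective.1 hinj) h
      exact hinv a
    exact ⟨fun a b => habel ⊤ (fun a _ => hall a) a trivial b trivial, hall⟩
  · obtain ⟨A, hA, hAinv⟩ : ∃ A : Subgroup H, A.index = 2 ∧ ∀ h, γ h ∈ A ↔ h ∈ A := by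
      by_cases hMM : ∀ h, γ h ∈ M ↔ h ∈ M
      · exact ⟨M, hM, hMM⟩
      push Not at hMM
      obtain ⟨h₀, hh₀⟩ := hMM
      let A : Subgroup H :=
        { carrier := {h | γ h ∈ M ↔ h ∈ M}
          one_mem' := by simp
          mul_mem' := fun {a b} (ha : γ a ∈ M ↔ a ∈ M) (hb : γ b ∈ M ↔ b ∈ M) => by
            change γ (a * b) ∈ M ↔ a * b ∈ M
            rw [map_mul, Subgroup.mul_mem_iff_of_index_two hM, Subgroup.mul_mem_iff_of_index_two hM,
              ha, hb]
          inv_mem' := fun {a} (ha : γ a ∈ M ↔ a ∈ M) => by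
            change γ a⁻¹ ∈ M ↔ a⁻¹ ∈ M
            rw [map_inv, inv_mem_iff, inv_mem_iff, ha] }
      have hmem : ∀ h, h ∈ A ↔ (γ h ∈ M ↔ h ∈ M) := fun h => Iff.rfl
      refine ⟨A, ?_, fun h => ?_⟩
      · rw [Subgroup.index_eq_two_iff]
        refine ⟨h₀, fun b => ?_⟩
        rw [hmem, hmem, map_mul, Subgroup.mul_mem_iff_of_index_two hM,
          Subgroup.mul_mem_iff_of_index_two hM]
        by_cases h1 : γ h₀ ∈ M <;> by_cases h2 : h₀ ∈ M <;> by_cases h3 : γ b ∈ M <;>
          by_cases h4 : b ∈ M <;> simp_all [Xor']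
      · rw [hmem, hmem, hγγ]
        exact Iff.comm
    have hfA : ∀ h, f h ∈ A := by
      intro h
      simp only [f]
      rw [Subgroup.mul_mem_iff_of_index_two hA, inv_mem_iff, hAinv]
    have hsurj : ∀ a ∈ A, ∃ h, f h = a := by
      let F : H → A := fun h => ⟨f h, hfA h⟩
      have hfib : ∀ a : A, Nat.card {h // F h = a} ≤ 2 := by
        intro a
        rcases isEmpty_or_nonempty {h // F h = a} with he | ⟨⟨h₁, hh₁⟩⟩
        · simp
        rw [← hcard]
        refine Nat.card_le_card_of_injective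
          (fun x => ⟨x.1 * h₁⁻¹, (hker h₁ x.1).1 (congrArg Subtype.val (hh₁.trans x.2.symm))⟩) ?_
        intro x y hxy
        exact Subtype.ext (mul_right_cancel (congrArg Subtype.val hxy))
      intro a ha
      by_contra hne
      push Not at hne
      letI := Fintype.ofFinite A
      have h1 : Nat.card H = ∑ b : A, Nat.card {h // F h = b} := by
        rw [← Nat.card_sigma, Nat.card_congr (Equiv.sigmaFiberEquiv F)]
      have h0 : Nat.card {h // F h = ⟨a, ha⟩} = 0 := by
        rw [Nat.card_eq_zero]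
        exact Or.inl ⟨fun x => hne x.1 (congrArg Subtype.val x.2)⟩
      have h2 : ∑ b : A, Nat.card {h // F h = b} < ∑ _b : A, 2 :=
        Finset.sum_lt_sum (fun b _ => hfib b) ⟨⟨a, ha⟩, Finset.mem_univ _, by rw [h0]; norm_num⟩
      have h3 := A.card_mul_index
      rw [hA] at h3
      simp only [Finset.sum_const, Finset.card_univ, smul_eq_mul, ← Nat.card_eq_fintype_card] at h2
      omega
    have hall : ∀ a ∈ A, γ a = a⁻¹ := by
      intro a ha
      obtain ⟨h, rfl⟩ := hsurj a ha
      exact hinv h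
    exact ⟨A, hA, ⟨⟨fun x y => Subtype.ext (habel A hall x.1 x.2 y.1 y.2)⟩⟩,
      fun a ha => (hAinv a).2 ha, hall⟩

end Cfsg.Agent.S3375
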