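import Cfsg.Statements.S3378
import Cfsg.Agent.H78.BinaryIcosahedral

set_option autoImplicit false
open Cfsg

namespace Cfsg.Agent.S3378

open Equiv

theorem quaternion_invol : ∀ g : QuaternionGroup 2, g * g = 1 → g = 1 ∨ g = QuaternionGroup.a 2 := by
  decide

/-- With quaternion Sylow 2-subgroups, commuting involutions are equal. -/
theorem eq_of_commute {G : Type*} [Group G] [Finite G]
    (hS : ∀ P : Sylow 2 G, Nonempty ((P : Subgroup G) ≃* QuaternionGroup 2)) {a b : G}
    (ha : a ^ 2 = 1) (ha1 : a ≠ 1) (hb : b ^ 2 = 1) (hb1 : b ≠ 1) (hab : Commute a b) : a = b := by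
  have hK : IsPGroup 2 (Subgroup.closure ({a, b} : Set G)) := by
    rintro ⟨g, hg⟩
    refine ⟨1, Subtype.ext ?_⟩
    show g ^ (2 ^ 1) = 1
    rw [pow_one]
    have key : g ^ 2 = 1 ∧ Commute g a ∧ Commute g b := by
      induction hg using Subgroup.closure_induction with
      | mem x hx =>
        rcases hx with rfl | rfl
        · exact ⟨ha, Commute.refl _, hab⟩
        · exact ⟨hb, hab.symm, Commute.refl _⟩
      | one => exact ⟨one_pow 2, Commute.one_left _, Commute.one_left _⟩
      | mul x y hx hy ihx ihy =>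
        refine ⟨?_, ihx.2.1.mul_left ihy.2.1, ihx.2.2.mul_left ihy.2.2⟩
        have hxy : Commute x y := by
          have h' : y ∈ Subgroup.centralizer ({x} : Set G) := by
            refine (Subgroup.closure_le _).mpr ?_ hy
            rintro c (rfl | rfl)
            · exact Subgroup.mem_centralizer_singleton_iff.mpr ihx.2.1.eq.symm
            · exact Subgroup.mem_centralizer_singleton_iff.mpr ihx.2.2.eq.symm
          exact (Subgroup.mem_centralizer_singleton_iff.mp h').symm
        rw [hxy.mul_pow, ihx.1, ihy.1, one_mul]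
      | inv x hx ihx => exact ⟨by rw [inv_pow, ihx.1, inv_one], ihx.2.1.inv_left, ihx.2.2.inv_left⟩
    exact key.1
  obtain ⟨P, hP⟩ := hK.exists_le_sylow
  obtain ⟨e⟩ := hS P
  have ham : a ∈ (P : Subgroup G) := hP (Subgroup.subset_closure (Or.inl rfl))
  have hbm : b ∈ (P : Subgroup G) := hP (Subgroup.subset_closure (Or.inr rfl))
  have key : ∀ (g : G) (hg : g ∈ (P : Subgroup G)), g ^ 2 = 1 → g ≠ 1 →
      e ⟨g, hg⟩ = QuaternionGroup.a 2 := by
    intro g hg h2 h1
    have h : e ⟨g, hg⟩ * e ⟨g, hg⟩ = 1 := by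
      rw [← map_mul, ← map_one e]
      exact congrArg e (Subtype.ext ((pow_two g).symm.trans h2))
    refine (quaternion_invol _ h).resolve_left fun h' => h1 ?_
    rw [← map_one e] at h'
    exact congrArg Subtype.val (e.injective h')
  exact congrArg Subtype.val (e.injective ((key a ham ha ha1).trans (key b hbm hb hb1).symm))

theorem not_equiv_alt_five {G : Type*} [Group G] [Finite G]
    (hS : ∀ P : Sylow 2 G, Nonempty ((P : Subgroup G) ≃* QuaternionGroup 2))
    (f : alternatingGroup (Fin 5) →* G) (hf : Function.Injective f) : False := by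
  let a : alternatingGroup (Fin 5) :=
    ⟨swap 0 1 * swap 2 3, Equiv.Perm.mem_alternatingGroup.mpr (by decide)⟩
  let b : alternatingGroup (Fin 5) :=
    ⟨swap 0 2 * swap 1 3, Equiv.Perm.mem_alternatingGroup.mpr (by decide)⟩
  have hne : a ≠ b := by decide
  have h1 : a ≠ 1 := by decide
  have h2 : b ≠ 1 := by decide
  have ha : a ^ 2 = 1 := by decide
  have hb : b ^ 2 = 1 := by decide
  have hab : a * b = b * a := by decide
  refine hne (hf (eq_of_commute hS (a := f a) (b := f b) (by rw [← map_pow, ha, map_one])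
    ?_ (by rw [← map_pow, hb, map_one]) ?_ (Commute.map hab f)))
  · rw [← map_one f]; exact hf.ne h1
  · rw [← map_one f]; exact hf.ne h2

/-- There is no simple group of order 120 with quaternion Sylow 2-subgroups. -/
theorem not_simple {G : Type*} [Group G] [Finite G] (hcard : Nat.card G = 120)
    (hns : ¬ Group.IsSolvable G)
    (hS : ∀ P : Sylow 2 G, Nonempty ((P : Subgroup G) ≃* QuaternionGroup 2)) :
    ∃ N : Subgroup G, N.Normal ∧ N ≠ ⊥ ∧ N ≠ ⊤ := by
  by_contra hcon
  push Not at hcon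
  haveI : Fact (Nat.Prime 5) := ⟨by norm_num⟩
  haveI : Fact (Nat.Prime 2) := ⟨Nat.prime_two⟩
  have hno : ∀ N : Subgroup G, N.Normal → N = ⊥ ∨ N = ⊤ := fun N hN => or_iff_not_imp_left.mpr (hcon N hN)
  obtain ⟨P5⟩ := (inferInstance : Nonempty (Sylow 5 G))
  have hP5 : Nat.card (P5 : Subgroup G) = 5 := by
    rw [P5.card_eq_multiplicity, hcard, Nat.factorization_def _ (by norm_num : Nat.Prime 5)]
    have h1 : padicValNat 5 120 = 1 := by
      rw [show (120 : ℕ) = 5 * 24 by norm_num, padicValNat.mul (by norm_num) (by norm_num),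
        padicValNat_self, padicValNat.eq_zero_of_not_dvd (by norm_num)]
    rw [h1, pow_one]
  have hn : Nat.card (Sylow 5 G) = 6 := by
    have hmod : Nat.card (Sylow 5 G) ≡ 1 [MOD 5] := card_sylow_modEq_one 5 G
    have hdvd : Nat.card (Sylow 5 G) ∣ 24 := by
      have h := P5.card_dvd_index
      have hm := (P5 : Subgroup G).card_mul_index
      rw [hP5, hcard] at hm
      rwa [show (P5 : Subgroup G).index = 24 by omega] at h
    have hne : Nat.card (Sylow 5 G) ≠ 1 := by
      intro h1
      haveI := (Nat.card_eq_one_iff_unique.mp h1).1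
      have hN : (P5 : Subgroup G).Normal := Sylow.normal_of_subsingleton P5
      rcases hno _ hN with h | h
      · rw [h, Subgroup.card_bot] at hP5; omega
      · rw [h, Subgroup.card_top, hcard] at hP5; omega
    have hle := Nat.le_of_dvd (by norm_num) hdvd
    unfold Nat.ModEq at hmod
    interval_cases hc : Nat.card (Sylow 5 G) <;> omega
  let X := Sylow 5 G
  let eX : X ≃ Fin 6 := (Finite.equivFin X).trans (finCongr hn)
  let ψ : G →* Equiv.Perm (Fin 6) :=
    (Equiv.permCongrHom eX).toMonoidHom.comp (MulAction.toPermHom G X)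
  have hψker : ψ.ker = ⊥ := by
    refine (hno _ inferInstance).resolve_right fun h => ?_
    have hfix : ∀ g : G, g • P5 = P5 := by
      intro g
      have hg : g ∈ ψ.ker := h ▸ Subgroup.mem_top g
      have h' : MulAction.toPermHom G X g = 1 := (Equiv.permCongrHom eX).map_eq_one_iff.mp hg
      exact congrArg (fun π : Equiv.Perm X => π P5) h'
    have hsub : Subsingleton X := ⟨fun P Q => by
      obtain ⟨g, rfl⟩ := MulAction.exists_smul_eq G P5 P
      obtain ⟨k, rfl⟩ := MulAction.exists_smul_eq G P5 Q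
      rw [hfix g, hfix k]⟩
    have : Nat.card (Sylow 5 G) ≤ 1 := Finite.card_le_one_iff_subsingleton.mpr hsub
    omega
  have hψ : Function.Injective ψ := (MonoidHom.ker_eq_bot_iff ψ).mp hψker
  have heven : ∀ g, ψ g ∈ alternatingGroup (Fin 6) := by
    have hk : (Equiv.Perm.sign.comp ψ).ker = ⊤ := by
      refine (hno _ inferInstance).resolve_left fun h => ?_
      have := Nat.card_le_card_of_injective _ ((MonoidHom.ker_eq_bot_iff _).mp h)
      rw [hcard, Nat.card_eq_fintype_card, Fintype.card_units_int] at this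
      omega
    intro g
    exact Equiv.Perm.mem_alternatingGroup.mpr ((hk ▸ Subgroup.mem_top g : g ∈ (Equiv.Perm.sign.comp ψ).ker))
  let φ : G →* alternatingGroup (Fin 6) := ψ.codRestrict _ heven
  have hφ : Function.Injective φ := fun a b h => hψ (congrArg Subtype.val h)
  have hA : Nat.card (alternatingGroup (Fin 6)) = 360 := by
    rw [nat_card_alternatingGroup, Nat.card_eq_fintype_card, Fintype.card_fin]
    rfl
  obtain ⟨P⟩ := (inferInstance : Nonempty (Sylow 2 G))
  obtain ⟨e⟩ := hS P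
  have hcQ : Nat.card ((P : Subgroup G).map φ) = 8 := by
    rw [← Nat.card_congr ((P : Subgroup G).equivMapOfInjective φ hφ).toEquiv,
      Nat.card_congr e.toEquiv, Nat.card_eq_fintype_card]
    rfl
  let Q : Sylow 2 (alternatingGroup (Fin 6)) := Sylow.ofCard ((P : Subgroup G).map φ) (by
    rw [hcQ, hA, Nat.factorization_def _ Nat.prime_two]
    rw [show (360 : ℕ) = 2 ^ 3 * 45 by norm_num, padicValNat.mul (by norm_num) (by norm_num),
      padicValNat.prime_pow, padicValNat.eq_zero_of_not_dvd (by norm_num)]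
    norm_num)
  have hSA : ∀ R : Sylow 2 (alternatingGroup (Fin 6)),
      Nonempty ((R : Subgroup (alternatingGroup (Fin 6))) ≃* QuaternionGroup 2) := fun R =>
    ⟨(R.equiv Q).trans (((P : Subgroup G).equivMapOfInjective φ hφ).symm.trans e)⟩
  let a : alternatingGroup (Fin 6) :=
    ⟨swap 0 1 * swap 2 3, Equiv.Perm.mem_alternatingGroup.mpr (by decide)⟩
  let b : alternatingGroup (Fin 6) :=
    ⟨swap 0 2 * swap 1 3, Equiv.Perm.mem_alternatingGroup.mpr (by decide)⟩
  have hne : a ≠ b := by decide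
  exact hne (eq_of_commute hSA (by decide) (by decide) (by decide) (by decide)
    (show a * b = b * a by decide))

/-- The classification half. -/
theorem equiv_of_quaternion {G : Type*} [Group G] [Finite G] (hcard : Nat.card G = 120)
    (hns : ¬ Group.IsSolvable G)
    (hS : ∀ P : Sylow 2 G, Nonempty ((P : Subgroup G) ≃* QuaternionGroup 2)) :
    Nonempty (G ≃* Matrix.SpecialLinearGroup (Fin 2) (ZMod 5)) := by
  haveI : Fact (Nat.Prime 2) := ⟨Nat.prime_two⟩
  obtain ⟨N, hN, hb, ht⟩ := not_simple hcard hns hS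
  haveI := hN
  have hm := N.card_mul_index
  rw [hcard] at hm
  have hN1 : 1 < Nat.card N := (Subgroup.one_lt_card_iff_ne_bot N).2 hb
  have hi1 : 1 < N.index := by
    have h0 := Subgroup.index_ne_zero_of_finite (H := N)
    have h1 : N.index ≠ 1 := fun e => ht (Subgroup.index_eq_one.1 e)
    omega
  have hsolN : Group.IsSolvable N := by
    by_contra h
    obtain ⟨-, ⟨e⟩⟩ := H6.nonempty_equiv_alternating_five h (by nlinarith)
    exact not_equiv_alt_five hS (N.subtype.comp e.symm.toMonoidHom)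
      (N.subtype_injective.comp e.symm.injective)
  have hnsq : ¬ Group.IsSolvable (G ⧸ N) := fun h =>
    hns (Group.isSolvable_of_ker_le_range N.subtype (QuotientGroup.mk' N) (by simp))
  obtain ⟨hq60, ⟨e⟩⟩ := H6.nonempty_equiv_alternating_five hnsq (by
    show N.index ≤ 60
    nlinarith)
  have hN2 : Nat.card N = 2 := by
    change N.index = 60 at hq60
    rw [hq60] at hm; omega
  haveI : Finite N := inferInstance
  obtain ⟨⟨z, hzN⟩, hz1'⟩ := Subgroup.ne_bot_iff_exists_ne_one.mp hb
  have hz1 : z ≠ 1 := fun h => hz1' (Subtype.ext h)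
  have hNel : ∀ n ∈ N, n = 1 ∨ n = z := by
    intro n hn
    obtain ⟨w, -, huniq⟩ := (Nat.card_eq_two_iff' (1 : N)).mp hN2
    by_cases h1 : n = 1
    · exact Or.inl h1
    · refine Or.inr ?_
      have e1 := huniq ⟨n, hn⟩ fun h => h1 (congrArg Subtype.val h)
      have e2 := huniq ⟨z, hzN⟩ fun h => hz1 (congrArg Subtype.val h)
      exact congrArg Subtype.val (e1.trans e2.symm)
  have hz : z ^ 2 = 1 := by
    have h := pow_card_eq_one' (G := N) (x := ⟨z, hzN⟩)
    rw [hN2] at h
    exact congrArg Subtype.val h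
  have hzc : ∀ g : G, Commute g z := by
    intro g
    rcases hNel _ (hN.conj_mem z hzN g) with h | h
    · exact absurd (by rwa [mul_inv_eq_one, mul_eq_left] at h) hz1
    · show g * z = z * g
      exact mul_inv_eq_iff_eq_mul.mp h
  let a5 : alternatingGroup (Fin 5) :=
    ⟨swap 0 2 * swap 0 3, Equiv.Perm.mem_alternatingGroup.mpr (by decide)⟩
  let b5 : alternatingGroup (Fin 5) :=
    ⟨finRotate 5, Equiv.Perm.mem_alternatingGroup.mpr (by decide)⟩
  have ha : a5 ^ 3 = 1 := by decide
  have hb' : b5 ^ 5 = 1 := by decide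
  have hab : (a5 * b5) ^ 2 = 1 := by decide
  have hab1 : a5 * b5 ≠ 1 := by decide
  obtain ⟨x0, hx0⟩ := QuotientGroup.mk'_surjective N (e.symm a5)
  obtain ⟨y0, hy0⟩ := QuotientGroup.mk'_surjective N (e.symm b5)
  have hsq : ∀ g : G, QuotientGroup.mk' N g = 1 → g ^ 2 = 1 := by
    intro g hg
    rcases hNel g ((QuotientGroup.eq_one_iff g).mp hg) with rfl | rfl
    · exact one_pow 2
    · exact hz
  set x := x0 ^ 4 with hxdef
  set y := y0 ^ 6 with hydef
  have hx : x ^ 3 = 1 := by
    have h := hsq (x0 ^ 3) (by rw [map_pow, hx0, ← map_pow, ha, map_one])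
    rw [← pow_mul] at h
    rw [hxdef, ← pow_mul, show 4 * 3 = (3 * 2) * 2 by rfl, pow_mul, h, one_pow]
  have hy : y ^ 5 = 1 := by
    have h := hsq (y0 ^ 5) (by rw [map_pow, hy0, ← map_pow, hb', map_one])
    rw [← pow_mul] at h
    rw [hydef, ← pow_mul, show 6 * 5 = (5 * 2) * 3 by rfl, pow_mul, h, one_pow]
  have hπx : QuotientGroup.mk' N x = e.symm a5 := by
    rw [hxdef, map_pow, hx0, ← map_pow, show (4 : ℕ) = 3 + 1 by rfl, pow_succ, ha, one_mul]
  have hπy : QuotientGroup.mk' N y = e.symm b5 := by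
    rw [hydef, map_pow, hy0, ← map_pow, show (6 : ℕ) = 5 + 1 by rfl, pow_succ, hb', one_mul]
  have hπ : QuotientGroup.mk' N (x * y) = e.symm (a5 * b5) := by
    rw [map_mul, hπx, hπy, map_mul]
  have hπ1 : QuotientGroup.mk' N (x * y) ≠ 1 := by
    rw [hπ]; exact fun h => hab1 (e.symm.map_eq_one_iff.mp h)
  have hxy : (x * y) ^ 2 = z := by
    rcases hNel _ ((QuotientGroup.eq_one_iff ((x * y) ^ 2)).mp
      (show QuotientGroup.mk' N ((x * y) ^ 2) = 1 by rw [map_pow, hπ, ← map_pow, hab, map_one])) with h | h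
    · exfalso
      have hxy1 : x * y ≠ 1 := fun h' => hπ1 (by rw [h', map_one])
      have heq := eq_of_commute hS h hxy1 hz hz1 (hzc _)
      exact hπ1 (by rw [heq]; exact (QuotientGroup.eq_one_iff z).mpr hzN)
    · exact h
  have hB := H78.binIcosa_closure hx hy hz (hzc x) (hzc y) hxy hz1
  have htop : Subgroup.closure ({x, y} : Set G) = ⊤ :=
    Subgroup.eq_top_of_card_eq _ (hB.card_eq.2.trans hcard.symm)
  obtain ⟨e1⟩ := hB.nonempty_equiv
  obtain ⟨e2⟩ := H78.nonempty_equiv_sl2_five
  exact ⟨(((MulEquiv.subgroupCongr htop).trans Subgroup.topEquiv).symm.trans e1.symm).trans e2⟩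

/-- Every non-solvable group of order 120 whose Sylow 2-subgroups are quaternion of order 8 is isomorphic to SL(2,5), and SL(2,5) has the presentation ⟨x, y, z | x³ = y⁵ = z² = 1, z⁻¹xz = x, z⁻¹yz = y, (xy)² = z⟩. -/
theorem result :
    (∀ (G : Type*) [Group G] [Finite G], Nat.card G = 120 → ¬ Group.IsSolvable G →
      (∀ P : Sylow 2 G, Nonempty ((P : Subgroup G) ≃* QuaternionGroup 2)) →
      Nonempty (G ≃* Matrix.SpecialLinearGroup (Fin 2) (ZMod 5))) ∧
    Nonempty (PresentedGroup ({FreeGroup.of (0 : Fin 3) ^ 3, FreeGroup.of (1 : Fin 3) ^ 5, FreeGroup.of (2 : Fin 3) ^ 2,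
        (FreeGroup.of (2 : Fin 3))⁻¹ * FreeGroup.of 0 * FreeGroup.of 2 * (FreeGroup.of (0 : Fin 3))⁻¹,
        (FreeGroup.of (2 : Fin 3))⁻¹ * FreeGroup.of 1 * FreeGroup.of 2 * (FreeGroup.of (1 : Fin 3))⁻¹,
        (FreeGroup.of (0 : Fin 3) * FreeGroup.of 1) ^ 2 * (FreeGroup.of (2 : Fin 3))⁻¹} : Set (FreeGroup (Fin 3)))
      ≃* Matrix.SpecialLinearGroup (Fin 2) (ZMod 5)) :=
  ⟨fun _ _ _ hc hns hS => equiv_of_quaternion hc hns hS, H78.nonempty_equiv_sl2_five⟩

end Cfsg.Agent.S3378
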