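import Cfsg.Statements.S3379
-- import your own Cfsg.Agent.* helpers here

set_option autoImplicit false
open Cfsg

namespace Cfsg.Agent.S3379

/-- Let G be a finite group all of whose Sylow subgroups are cyclic. Then G is generated by two elements x and y of coprime orders n and m with x⁻¹yx = y^r, where gcd(r − 1, m) = 1 and r^n ≡ 1 (mod m). -/
theorem result {G : Type*} [Group G] [Finite G]
    (hZ : ∀ (p : ℕ) [Fact p.Prime] (P : Sylow p G), IsCyclic (P : Subgroup G)) :
    ∃ (x y : G) (n m r : ℕ), Subgroup.closure {x, y} = ⊤ ∧ orderOf x = n ∧ orderOf y = m ∧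
      x⁻¹ * y * x = y ^ r ∧ Nat.Coprime (r - 1) m ∧ Nat.Coprime n m ∧ 1 ≤ r ∧ r ^ n % m = 1 % m := by
  haveI : IsZGroup G := ⟨fun p hp P => by haveI := Fact.mk hp; exact hZ p P⟩
  set M := commutator G with hMdef
  obtain ⟨H, hH⟩ := Subgroup.exists_right_complement'_of_coprime (IsZGroup.coprime_commutator_index G)
  let h1 : Abelianization G ≃* H := hH.symm.QuotientMulEquiv
  haveI hHc : IsCyclic H := isCyclic_of_surjective _ h1.surjective
  haveI hMc : IsCyclic M := IsZGroup.isCyclic_commutator G
  have hcop : Nat.Coprime (Nat.card M) (Nat.card H) := by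
    rw [← Nat.card_congr h1.toEquiv]
    exact IsZGroup.coprime_commutator_index G
  obtain ⟨x', hx'⟩ := IsCyclic.exists_generator (α := H)
  obtain ⟨y', hy'⟩ := IsCyclic.exists_generator (α := M)
  set x : G := (x' : G) with hxdef
  set y : G := (y' : G) with hydef
  have hox : orderOf x = Nat.card H := by
    rw [hxdef, Subgroup.orderOf_coe, orderOf_eq_card_of_forall_mem_zpowers hx']
  have hoy : orderOf y = Nat.card M := by
    rw [hydef, Subgroup.orderOf_coe, orderOf_eq_card_of_forall_mem_zpowers hy']
  have hMy : M = Subgroup.zpowers y := by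
    refine le_antisymm (fun g hg => ?_) (Subgroup.zpowers_le.mpr y'.2)
    obtain ⟨i, hi⟩ := Subgroup.mem_zpowers_iff.mp (hy' ⟨g, hg⟩)
    exact ⟨i, congrArg Subtype.val hi⟩
  have hgen : Subgroup.closure ({x, y} : Set G) = ⊤ := by
    rw [eq_top_iff, ← hH.sup_eq_top, sup_le_iff]
    refine ⟨?_, ?_⟩
    · intro g hg
      have hg' : g ∈ Subgroup.zpowers y := hMy ▸ hg
      have hy0 : y ∈ Subgroup.closure ({x, y} : Set G) := Subgroup.subset_closure (Or.inr rfl)
      exact (Subgroup.zpowers_le.mpr hy0) hg'
    · intro g hg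
      obtain ⟨i, hi⟩ := Subgroup.mem_zpowers_iff.mp (hx' ⟨g, hg⟩)
      rw [show g = x ^ i from (congrArg Subtype.val hi).symm]
      have hx0 : x ∈ Subgroup.closure ({x, y} : Set G) := Subgroup.subset_closure (Or.inl rfl)
      exact zpow_mem hx0 i
  have hMn : M.Normal := inferInstance
  obtain ⟨k, hk⟩ : ∃ k : ℕ, x⁻¹ * y * x = y ^ k := by
    have hmem : x⁻¹ * y * x ∈ Subgroup.zpowers y := by
      rw [← hMy]
      have := hMn.conj_mem y y'.2 x⁻¹
      rwa [inv_inv] at this
    rw [← mem_powers_iff_mem_zpowers] at hmem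
    obtain ⟨k, hk⟩ := hmem
    exact ⟨k, hk.symm⟩
  have hm0 : 0 < orderOf y := orderOf_pos y
  set r := k + orderOf y with hrdef
  have hr : x⁻¹ * y * x = y ^ r := by
    rw [hrdef, pow_add, pow_orderOf_eq_one, mul_one, hk]
  have hr1 : 1 ≤ r := by omega
  have hconj : ∀ j : ℕ, (x⁻¹) ^ j * y * x ^ j = y ^ (r ^ j) := by
    intro j
    induction j with
    | zero => simp
    | succ j ih =>
      have h : (x⁻¹) ^ (j + 1) * y * x ^ (j + 1) = x⁻¹ * ((x⁻¹) ^ j * y * x ^ j) * x := by
        rw [pow_succ', pow_succ]
        group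
      rw [h, ih]
      have hc : x⁻¹ * y ^ (r ^ j) * x = (x⁻¹ * y * x) ^ (r ^ j) := by
        have := conj_pow (i := r ^ j) (a := x⁻¹) (b := y)
        rw [inv_inv] at this
        exact this.symm
      rw [hc, hr, ← pow_mul, pow_succ']
  refine ⟨x, y, orderOf x, orderOf y, r, hgen, rfl, rfl, hr, ?_, by rw [hox, hoy]; exact hcop.symm,
    hr1, ?_⟩
  · set z := y ^ (r - 1) with hzdef
    set N := Subgroup.zpowers z with hNdef
    have hxz : x⁻¹ * z * x = z ^ r := by
      rw [hzdef, ← pow_mul, mul_comm, pow_mul, ← hr]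
      have := conj_pow (i := r - 1) (a := x⁻¹) (b := y)
      rw [inv_inv] at this
      exact this.symm
    have hN : N.Normal := by
      refine ⟨fun n hn g => ?_⟩
      have hy_comm : y * z = z * y := (Commute.self_pow y (r - 1)).eq
      have hcl : ∀ g ∈ Subgroup.closure ({x, y} : Set G), g ∈ Subgroup.normalizer (N : Set G) := by
        intro g hg
        refine (Subgroup.closure_le _).mpr ?_ hg
        rintro a (rfl | rfl)
        · rw [SetLike.mem_coe, ← inv_mem_iff]
          have hle : N.map (MulAut.conj x⁻¹).toMonoidHom ≤ N := by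
            rw [hNdef, MonoidHom.map_zpowers, Subgroup.zpowers_le]
            show x⁻¹ * z * x⁻¹⁻¹ ∈ _
            rw [inv_inv, hxz]
            exact pow_mem (Subgroup.mem_zpowers z) r
          have heq : N.map (MulAut.conj x⁻¹).toMonoidHom = N :=
            Subgroup.eq_of_le_of_card_ge hle (le_of_eq (Nat.card_congr
              ((N.equivMapOfInjective _ (MulAut.conj x⁻¹).injective).toEquiv)))
          rw [Subgroup.mem_normalizer_iff]
          intro w
          constructor
          · intro hw
            exact hle ⟨w, hw, rfl⟩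
          · intro hw
            rw [← heq] at hw
            obtain ⟨v, hv, hve⟩ := hw
            have : v = w := (MulAut.conj x⁻¹).injective hve
            exact this ▸ hv
        · rw [SetLike.mem_coe]
          refine Subgroup.centralizer_le_normalizer _ (Subgroup.mem_centralizer_iff.mpr fun w hw => ?_)
          obtain ⟨i, rfl⟩ := hw
          exact (Commute.zpow_left (show Commute z y from hy_comm.symm) i).eq
      exact (Subgroup.mem_normalizer_iff.mp (hcl g (hgen ▸ Subgroup.mem_top g)) n).mp hn
    have hle : M ≤ N := by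
      rw [hMdef, commutator_def, Subgroup.commutator_le]
      intro a _ b _
      rw [← QuotientGroup.eq_one_iff, ← QuotientGroup.mk'_apply, map_commutatorElement,
        commutatorElement_eq_one_iff_mul_comm]
      set π := QuotientGroup.mk' N
      have hxy : π x * π y = π y * π x := by
        have h : π (x⁻¹ * y * x) = π y := by
          rw [hr, ← Nat.sub_add_cancel hr1, pow_succ, map_mul,
            show π (y ^ (r - 1)) = 1 from (QuotientGroup.eq_one_iff _).mpr (Subgroup.mem_zpowers z),
            one_mul]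
        rw [map_mul, map_mul, map_inv, mul_assoc, inv_mul_eq_iff_eq_mul] at h
        exact h.symm
      have hall : ∀ g : G, π g ∈ Subgroup.closure ({π x, π y} : Set (G ⧸ N)) := by
        intro g
        have hg : g ∈ Subgroup.closure ({x, y} : Set G) := hgen ▸ Subgroup.mem_top g
        have := Subgroup.mem_map_of_mem π hg
        rwa [MonoidHom.map_closure, Set.image_pair] at this
      haveI := Subgroup.isMulCommutative_closure (k := ({π x, π y} : Set (G ⧸ N))) (by
        rintro u (rfl | rfl) v (rfl | rfl) <;> first | rfl | exact hxy | exact hxy.symm)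
      exact congrArg Subtype.val (mul_comm' (⟨π a, hall a⟩ : Subgroup.closure ({π x, π y} : Set (G ⧸ N))) ⟨π b, hall b⟩)
    have hyN : y ∈ N := hle y'.2
    have hord : orderOf z = orderOf y := by
      refine Nat.dvd_antisymm (orderOf_pow_dvd _) ?_
      obtain ⟨i, hi⟩ := Subgroup.mem_zpowers_iff.mp hyN
      apply orderOf_dvd_of_pow_eq_one
      rw [← hi, ← zpow_natCast, ← zpow_mul, mul_comm, zpow_mul, zpow_natCast, pow_orderOf_eq_one,
        one_zpow]
    rcases Nat.eq_zero_or_pos (r - 1) with h0 | h0
    · rw [hzdef, h0, pow_zero, orderOf_one] at hord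
      rw [← hord]
      exact Nat.coprime_one_right _
    · rw [hzdef, orderOf_pow' _ h0.ne'] at hord
      have hg : Nat.gcd (orderOf y) (r - 1) = 1 := by
        have hd := Nat.div_eq_self.mp hord
        omega
      exact Nat.Coprime.symm hg
  · have h := hconj (orderOf x)
    rw [inv_pow, pow_orderOf_eq_one, inv_one, one_mul, mul_one] at h
    have h' : y ^ (r ^ orderOf x) = y ^ 1 := by rw [pow_one]; exact h.symm
    exact pow_eq_pow_iff_modEq.mp h' 

end Cfsg.Agent.S3379
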