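import Cfsg.Statements.S3380
import Cfsg.Agent.S0519
import Cfsg.Agent.H21.UniqueSubgroup
import Cfsg.Agent.H21.Complement

set_option autoImplicit false
open Cfsg

namespace Cfsg.Agent.S3380

/-- A geometric sum of a central element of order dividing `p` is zero. -/
theorem geom_zero {q : ℕ} {V : Type*} [AddCommGroup V] [Module (ZMod q) V]
    {G : Type*} [Group G] {p : ℕ} {ρ : G →* (V ≃ₗ[ZMod q] V)}
    (hfpf : ∀ c ∈ Subgroup.center G, c ≠ 1 → ∀ v : V, ρ c v = v → v = 0)
    {d : G} (hd : d ∈ Subgroup.center G) (hd1 : d ≠ 1) (hdp : d ^ p = 1) (u : V) :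
    ∑ j ∈ Finset.range p, ρ (d ^ j) u = 0 := by
  refine hfpf d hd hd1 _ ?_
  rw [map_sum]
  simp only [← LinearEquiv.mul_apply, ← map_mul, ← pow_succ']
  have := Finset.sum_range_succ (fun j => ρ (d ^ j) u) p
  rw [Finset.sum_range_succ', hdp, pow_zero] at this
  exact add_right_cancel this

theorem sum_proj {q : ℕ} {V : Type*} [AddCommGroup V] [Module (ZMod q) V]
    {G : Type*} [Group G] {p : ℕ} [Fact p.Prime] {ρ : G →* (V ≃ₗ[ZMod q] V)} {z x : G}
    (hzc : z ∈ Subgroup.center G) (hzo : orderOf z = p) (hρ : Function.Injective ρ)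
    (hfpf : ∀ c ∈ Subgroup.center G, c ≠ 1 → ∀ v : V, ρ c v = v → v = 0) (v : V) :
    ∑ i : ZMod p, ∑ j ∈ Finset.range p, ρ ((x * z ^ i.val) ^ j) v = (p : ZMod q) • v := by
  have _ := hρ
  have hp : p.Prime := Fact.out
  rw [Finset.sum_comm]
  have hterm : ∀ j ∈ Finset.range p, (∑ i : ZMod p, ρ ((x * z ^ i.val) ^ j) v) =
      if j = 0 then (p : ZMod q) • v else 0 := by
    intro j hj
    split_ifs with h0
    · subst h0
      simp only [pow_zero, map_one, LinearEquiv.coe_one, id_eq, Finset.sum_const, Finset.card_univ,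
        ZMod.card]
      rw [Nat.cast_smul_eq_nsmul]
    · have hexp : ∀ i : ZMod p, ρ ((x * z ^ i.val) ^ j) v = ρ (x ^ j) (ρ ((z ^ j) ^ i.val) v) := by
        intro i
        rw [(show Commute x (z ^ i.val) from Subgroup.mem_center_iff.mp (pow_mem hzc i.val) x).mul_pow,
          ← pow_mul, mul_comm i.val j, pow_mul, map_mul]
        rfl
      simp only [hexp, ← map_sum]
      have hd1 : z ^ j ≠ 1 := by
        intro h
        have := orderOf_dvd_of_pow_eq_one h
        rw [hzo] at this
        have := Nat.le_of_dvd (Nat.pos_of_ne_zero h0) this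
        have := Finset.mem_range.mp hj
        omega
      have hsum : ∑ i : ZMod p, ρ ((z ^ j) ^ i.val) v = ∑ k ∈ Finset.range p, ρ ((z ^ j) ^ k) v :=
        Finset.sum_bij (fun i _ => i.val) (fun i _ => Finset.mem_range.mpr (ZMod.val_lt i))
          (fun a _ b _ h => ZMod.val_injective p h)
          (fun k hk => ⟨(k : ZMod p), Finset.mem_univ _, ZMod.val_natCast_of_lt (Finset.mem_range.mp hk)⟩)
          (fun i _ => rfl)
      rw [hsum, geom_zero hfpf (pow_mem hzc j) hd1 (by
        rw [← pow_mul, mul_comm, pow_mul, ← hzo, pow_orderOf_eq_one, one_pow]) v, map_zero]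
  rw [Finset.sum_congr rfl hterm, Finset.sum_ite_eq']
  simp [hp.pos]

theorem span_aux {q : ℕ} [Fact q.Prime] {V : Type*} [AddCommGroup V] [Module (ZMod q) V]
    {G : Type*} [Group G] {p : ℕ} [Fact p.Prime] {ρ : G →* (V ≃ₗ[ZMod q] V)} {z x : G}
    (hzc : z ∈ Subgroup.center G) (hzo : orderOf z = p) (_hxp : x ^ p = 1)
    (hρ : Function.Injective ρ)
    (hfpf : ∀ c ∈ Subgroup.center G, c ≠ 1 → ∀ v : V, ρ c v = v → v = 0)
    (hpV : (p : ZMod q) ≠ 0) {v : V}
    (hsum : ∀ i : ZMod p, ∑ j ∈ Finset.range p, ρ ((x * z ^ i.val) ^ j) v = 0) : v = 0 := by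
  have h := sum_proj (x := x) hzc hzo hρ hfpf v
  simp only [hsum, Finset.sum_const_zero] at h
  exact (smul_eq_zero.mp h.symm).resolve_left hpV

/-- A geometric sum is fixed. -/
theorem geom_fixed {q : ℕ} {V : Type*} [AddCommGroup V] [Module (ZMod q) V]
    {G : Type*} [Group G] {p : ℕ} (ρ : G →* (V ≃ₗ[ZMod q] V)) {d : G} (hdp : d ^ p = 1) (u : V) :
    ρ d (∑ j ∈ Finset.range p, ρ (d ^ j) u) = ∑ j ∈ Finset.range p, ρ (d ^ j) u := by
  rw [map_sum]
  simp only [← LinearEquiv.mul_apply, ← map_mul, ← pow_succ']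
  have := Finset.sum_range_succ (fun j => ρ (d ^ j) u) p
  rw [Finset.sum_range_succ', hdp, pow_zero] at this
  exact add_right_cancel this

/-- Subgroups of a finite cyclic group with equal order are equal. -/
theorem eq_of_cyclic {G : Type*} [Group G] [Finite G] {B H K : Subgroup G} [IsCyclic B] (h1 : H ≤ B)
    (h2 : K ≤ B) (hc : Nat.card H = Nat.card K) : H = K := by
  have key : ∀ L : Subgroup G, L ≤ B → ∀ g : G, g ∈ L ↔ g ∈ B ∧ g ^ Nat.card L = 1 := by
    intro L hL g
    refine ⟨fun hg => ⟨hL hg, congrArg Subtype.val (pow_card_eq_one' (G := L) (x := ⟨g, hg⟩))⟩, ?_⟩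
    rintro ⟨hgB, hgp⟩
    classical
    haveI := Fintype.ofFinite B
    have hsub : ((L.subgroupOf B : Subgroup B) : Set B).toFinset ⊆
        Finset.univ.filter (fun a : B => a ^ Nat.card L = 1) := by
      intro a ha
      rw [Set.mem_toFinset, SetLike.mem_coe, Subgroup.mem_subgroupOf] at ha
      simp only [Finset.mem_filter, Finset.mem_univ, true_and]
      have := congrArg Subtype.val (pow_card_eq_one' (G := L) (x := ⟨(a : G), ha⟩))
      exact Subtype.ext this
    have hcard := IsCyclic.card_pow_eq_one_le (α := B) (n := Nat.card L) Nat.card_pos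
    have heq := Finset.eq_of_subset_of_card_le hsub (hcard.trans (le_of_eq (by
      rw [Set.toFinset_card, ← Nat.card_eq_fintype_card]
      exact (Nat.card_congr (Subgroup.subgroupOfEquivOfLe hL).toEquiv).symm)))
    have hm : (⟨g, hgB⟩ : B) ∈ Finset.univ.filter (fun a : B => a ^ Nat.card L = 1) := by
      simp only [Finset.mem_filter, Finset.mem_univ, true_and]
      exact Subtype.ext hgp
    rw [← heq, Set.mem_toFinset, SetLike.mem_coe, Subgroup.mem_subgroupOf] at hm
    exact hm
  ext g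
  rw [key H h1, key K h2, hc]

/-- A `p`-group that is not of rank one has a normal abelian noncyclic subgroup. -/
theorem exists_normal_noncyclic {G : Type*} [Group G] [Finite G] (p : ℕ) [Fact p.Prime]
    (hG : IsPGroup p G)
    (hnc : ¬ IsCyclic G) (hnq : ∀ n : ℕ, ¬ Nonempty (G ≃* QuaternionGroup n))
    (hnd : ∀ n : ℕ, ¬ Nonempty (G ≃* DihedralGroup n)) (hnsd : ¬ Cfsg.IsQuasiDihedral G) :
    ∃ A : Subgroup G, A.Normal ∧ IsMulCommutative A ∧ ¬ IsCyclic A := by
  by_contra hcon
  push Not at hcon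
  by_cases hm : ∃ B : Subgroup G, IsMulCommutative B ∧ ¬ IsCyclic B
  · rcases (Cfsg.Agent.S0519.result p hG hcon hm).2 with ⟨n, h⟩ | ⟨n, -, ⟨e⟩⟩ | h
    · exact hnq n h
    · exact hnd n ⟨e⟩
    · exact hnsd h
  · push Not at hm
    haveI : Nontrivial G := by
      by_contra h
      rw [not_nontrivial_iff_subsingleton] at h
      exact hnc inferInstance
    obtain ⟨z, -, hzc, hzo⟩ := Cfsg.Agent.H24.exists_central_orderOf hG (N := ⊤)
      (by simpa [eq_comm] using bot_ne_top (α := Subgroup G))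
    have key : ∀ H : Subgroup G, Nat.card H = p → H = Subgroup.zpowers z := by
      intro H hH
      haveI : IsCyclic H := isCyclic_of_prime_card hH
      have hHcomm : ∀ a ∈ H, ∀ b ∈ H, a * b = b * a := fun a ha b hb =>
        congrArg Subtype.val (IsCyclic.commGroup.mul_comm (⟨a, ha⟩ : H) ⟨b, hb⟩)
      haveI := hm (Subgroup.closure ((H : Set G) ∪ {z})) (Subgroup.isMulCommutative_closure (by
        rintro a (ha | rfl) b (hb | rfl)
        · exact hHcomm a ha b hb
        · exact Subgroup.mem_center_iff.mp hzc a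
        · exact (Subgroup.mem_center_iff.mp hzc b).symm
        · rfl))
      have h1 : H ≤ Subgroup.closure ((H : Set G) ∪ {z}) := fun a ha =>
        Subgroup.subset_closure (Or.inl ha)
      have h2 : Subgroup.zpowers z ≤ Subgroup.closure ((H : Set G) ∪ {z}) :=
        Subgroup.zpowers_le.mpr (Subgroup.subset_closure (Or.inr rfl))
      exact eq_of_cyclic h1 h2 (hH.trans (by rw [Nat.card_zpowers, hzo]))
    rcases Cfsg.Agent.H21.cyclic_or_quaternion p hG
      (fun H K hH hK => (key H hH).trans (key K hK).symm) with h | ⟨-, n, h⟩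
    · exact hnc h
    · exact hnq _ h

/-- Core statement. -/
theorem main {q : ℕ} [Fact q.Prime] {V : Type*} [AddCommGroup V] [Module (ZMod q) V] [Finite V]
    [Nontrivial V] {G : Type*} [Group G] [Finite G] {p : ℕ} [Fact p.Prime] (hG : IsPGroup p G)
    (ρ : G →* (V ≃ₗ[ZMod q] V)) (hρ : Function.Injective ρ)
    (hirr : ∀ W : Submodule (ZMod q) V, (∀ g : G, ∀ w ∈ W, ρ g w ∈ W) → W = ⊥ ∨ W = ⊤)
    (hnc : ¬ IsCyclic G) {z x : G} (hzc : z ∈ Subgroup.center G) (hzo : orderOf z = p)
    (hxp : x ^ p = 1) (hxz : x ∉ Subgroup.zpowers z)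
    (hconj : ∀ g : G, ∃ c : ℕ, g * x * g⁻¹ = x * z ^ c) :
    ∃ (H : Subgroup G) (W : ZMod p → Submodule (ZMod q) V), H.index = p ∧
      iSup W = ⊤ ∧ iSupIndep W ∧
      (∀ h ∈ H, ∀ i, ∀ w ∈ W i, ρ h w ∈ W i) ∧
      (∀ i, ∃ h ∈ H, h ≠ 1 ∧ ∀ w ∈ W i, ρ h w = w) ∧
      ∀ g : G, g ∉ H → ∃ c : ZMod p, c ≠ 0 ∧ ∀ i, (W i).map (ρ g : V →ₗ[ZMod q] V) = W (i + c) := by
  classical
  have hp : p.Prime := Fact.out
  have hpowz : ∀ a b : ℕ, (a : ZMod p) = b ↔ z ^ a = z ^ b := fun a b => by
    rw [pow_eq_pow_iff_modEq, hzo, ZMod.natCast_eq_natCast_iff]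
  have hzp : ∀ j : ℕ, (z ^ j) ^ p = 1 := fun j => by
    rw [← pow_mul, mul_comm, pow_mul, ← hzo, pow_orderOf_eq_one, one_pow]
  -- q is not p
  have hqp : q ≠ p := by
    intro hqp
    letI act : MulAction G V := MulAction.compHom V ρ
    have h1 : p ∣ Nat.card V := by
      rw [Module.natCard_eq_pow_finrank (K := ZMod q), Nat.card_zmod]
      exact (dvd_of_eq hqp.symm).trans (dvd_pow_self q (Nat.pos_iff_ne_zero.mp Module.finrank_pos))
    obtain ⟨b, hb, hb0⟩ := hG.exists_fixed_point_of_prime_dvd_card_of_fixed_point V h1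
      (a := 0) (fun g => map_zero (ρ g))
    let W : Submodule (ZMod q) V :=
      { carrier := MulAction.fixedPoints G V
        add_mem' := fun {a b} ha hb g => by
          show ρ g (a + b) = a + b
          rw [map_add]; exact congrArg₂ (· + ·) (ha g) (hb g)
        zero_mem' := fun g => map_zero (ρ g)
        smul_mem' := fun c a ha g => by
          show ρ g (c • a) = c • a
          rw [map_smul]; exact congrArg (c • ·) (ha g) }
    rcases hirr W (fun g w hw => by
      have : ρ g w = w := hw g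
      rw [this]; exact hw) with hW | hW
    · have : b ∈ W := hb
      rw [hW] at this
      exact hb0 ((Submodule.mem_bot _).mp this).symm
    · apply hnc
      have : Subsingleton G := ⟨fun g h => hρ (LinearEquiv.ext fun v => by
        have hv : v ∈ W := hW ▸ Submodule.mem_top
        exact (hv g).trans (hv h).symm)⟩
      infer_instance
  have hpV : (p : ZMod q) ≠ 0 := by
    rw [Ne, ZMod.natCast_eq_zero_iff]
    exact fun h => hqp ((Nat.prime_dvd_prime_iff_eq (Fact.out : q.Prime) hp).mp h)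
  -- central elements act without fixed points
  have hfpf : ∀ c ∈ Subgroup.center G, c ≠ 1 → ∀ v : V, ρ c v = v → v = 0 := by
    intro c hc hc1 v hv
    rcases hirr (LinearMap.eqLocus (ρ c : V →ₗ[ZMod q] V) LinearMap.id) (fun g w hw => by
      have hw' : ρ c w = w := hw
      show ρ c (ρ g w) = ρ g w
      rw [← LinearEquiv.mul_apply, ← map_mul, ← Subgroup.mem_center_iff.mp hc g, map_mul,
        LinearEquiv.mul_apply, hw']) with hW | hW
    · have : v ∈ LinearMap.eqLocus (ρ c : V →ₗ[ZMod q] V) LinearMap.id := hv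
      rw [hW] at this
      exact (Submodule.mem_bot _).mp this
    · exact absurd (hρ (LinearEquiv.ext fun w => by
        have : w ∈ LinearMap.eqLocus (ρ c : V →ₗ[ZMod q] V) LinearMap.id := hW ▸ Submodule.mem_top
        rw [map_one]; exact this)) hc1
  -- the p conjugate elements and their fixed spaces
  let y : ZMod p → G := fun i => x * z ^ i.val
  have hy : ∀ a : ℕ, y (a : ZMod p) = x * z ^ a := fun a => by
    show x * z ^ ((a : ZMod p)).val = x * z ^ a
    rw [(hpowz _ _).mp (ZMod.natCast_zmod_val (a : ZMod p))]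
  have hzx : ∀ a : ℕ, Commute x (z ^ a) := fun a => Subgroup.mem_center_iff.mp (pow_mem hzc a) x
  have hy1 : ∀ i, y i ≠ 1 := fun i h => hxz (by
    rw [eq_inv_of_mul_eq_one_left h]
    exact inv_mem (pow_mem (Subgroup.mem_zpowers z) _))
  have hyp : ∀ i, y i ^ p = 1 := fun i => by
    show (x * z ^ i.val) ^ p = 1
    rw [(hzx _).mul_pow, hxp, one_mul, hzp]
  let W : ZMod p → Submodule (ZMod q) V := fun i =>
    LinearMap.eqLocus (ρ (y i) : V →ₗ[ZMod q] V) LinearMap.id
  have hW : ∀ (i : ZMod p) (w : V), w ∈ W i ↔ ρ (y i) w = w := fun i w => Iff.rfl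
  choose c hc using hconj
  have hgy : ∀ (g : G) (i : ZMod p), g * y i * g⁻¹ = y (i + c g) := by
    intro g i
    have h1 : g * y i * g⁻¹ = (g * x * g⁻¹) * z ^ i.val := by
      show g * (x * z ^ i.val) * g⁻¹ = _
      rw [← mul_assoc g x, mul_assoc (g * x) (z ^ i.val),
        ← Subgroup.mem_center_iff.mp (pow_mem hzc i.val) g⁻¹, ← mul_assoc]
    rw [h1, hc, mul_assoc, ← pow_add, ← hy]
    congr 1
    push_cast
    rw [ZMod.natCast_zmod_val]
    ring
  have hmap : ∀ (g : G) (i : ZMod p), (W i).map (ρ g : V →ₗ[ZMod q] V) = W (i + c g) := by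
    intro g i
    ext w
    rw [Submodule.mem_map, hW]
    constructor
    · rintro ⟨u, hu, rfl⟩
      rw [hW] at hu
      show ρ (y (i + c g)) (ρ g u) = ρ g u
      rw [← hgy, ← LinearEquiv.mul_apply, ← map_mul, inv_mul_cancel_right, map_mul,
        LinearEquiv.mul_apply, hu]
    · intro hw
      refine ⟨ρ g⁻¹ w, ?_, ?_⟩
      · rw [hW, ← LinearEquiv.mul_apply, ← map_mul]
        conv_rhs => rw [← hw, ← LinearEquiv.mul_apply, ← map_mul, ← hgy, mul_assoc g,
          inv_mul_cancel_left]
      · show ρ g (ρ g⁻¹ w) = w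
        rw [← LinearEquiv.mul_apply, ← map_mul, mul_inv_cancel, map_one]; rfl
  let H := Subgroup.centralizer ({x} : Set G)
  have hHc : ∀ g, g ∈ H ↔ (c g : ZMod p) = 0 := by
    intro g
    rw [Subgroup.mem_centralizer_singleton_iff, ← Nat.cast_zero, hpowz, pow_zero,
      ← mul_inv_eq_iff_eq_mul, hc, mul_eq_left]
  have hyH : ∀ i, y i ∈ H := fun i => by
    rw [Subgroup.mem_centralizer_singleton_iff]
    exact (((Commute.refl x).mul_right (hzx _)).symm).eq
  let χ : G →* Multiplicative (ZMod p) :=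
    { toFun := fun g => Multiplicative.ofAdd (c g : ZMod p)
      map_one' := by
        rw [(hHc 1).mp (one_mem H)]; rfl
      map_mul' := fun g h => by
        show Multiplicative.ofAdd (c (g * h) : ZMod p) = Multiplicative.ofAdd ((c g : ZMod p) + (c h : ZMod p))
        rw [← Nat.cast_add]
        refine congrArg Multiplicative.ofAdd ((hpowz _ _).mpr ?_)
        have e : g * h * x * (g * h)⁻¹ = g * (h * x * h⁻¹) * g⁻¹ := by group
        rw [hc, hc h] at e
        apply mul_left_cancel (a := x)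
        rw [e, ← mul_assoc g x, mul_assoc (g * x) (z ^ c h),
          ← Subgroup.mem_center_iff.mp (pow_mem hzc (c h)) g⁻¹, ← mul_assoc, hc, mul_assoc,
          ← pow_add] }
  have hχ : ∀ g, χ g = 1 ↔ g ∈ H := fun g => by
    rw [hHc]
    exact ⟨fun h => congrArg Multiplicative.toAdd h, fun h => by
      show Multiplicative.ofAdd (c g : ZMod p) = 1
      rw [h]; rfl⟩
  have hxnc : x ∉ Subgroup.center G := by
    intro hxc
    obtain ⟨v, hv⟩ := exists_ne (0 : V)
    refine hv (span_aux (x := x) hzc hzo hxp hρ hfpf hpV fun i =>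
      hfpf (y i) (mul_mem hxc (pow_mem hzc _)) (hy1 i) _ (geom_fixed ρ (hyp i) v))
  have hindex : H.index = p := by
    have hker : χ.ker = H := by ext g; rw [MonoidHom.mem_ker, hχ]
    rw [← hker, Subgroup.index_ker]
    have hne : χ.range ≠ ⊥ := by
      rw [Ne, MonoidHom.range_eq_bot_iff]
      intro h
      apply hxnc
      rw [Subgroup.mem_center_iff]
      intro g
      have hg : g ∈ H := (hχ g).mp (by rw [h]; rfl)
      exact Subgroup.mem_centralizer_singleton_iff.mp hg
    have hcard : Nat.card (Multiplicative (ZMod p)) = p := by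
      rw [Nat.card_congr Multiplicative.toAdd, Nat.card_zmod]
    rcases (Nat.dvd_prime hp).mp (hcard ▸ Subgroup.card_subgroup_dvd_card χ.range) with h | h
    · exact absurd (Subgroup.card_eq_one.mp h) hne
    · exact h
  refine ⟨H, W, hindex, ?_, ?_, ?_, fun i => ⟨y i, hyH i, hy1 i, fun w hw => hw⟩, ?_⟩
  · rw [eq_top_iff]
    intro v _
    have key : (p : ZMod q) • v = ∑ i : ZMod p, ∑ j ∈ Finset.range p, ρ (y i ^ j) v :=
      (sum_proj (x := x) hzc hzo hρ hfpf v).symm
    rw [← one_smul (ZMod q) v, ← inv_mul_cancel₀ hpV, mul_smul, key]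
    exact Submodule.smul_mem _ _ (Submodule.sum_mem _ fun i _ =>
      Submodule.mem_iSup_of_mem i ((hW i _).mpr (geom_fixed ρ (hyp i) v)))
  · rw [iSupIndep_def]
    intro i
    rw [Submodule.disjoint_def]
    intro w hwi hw
    let T : V →ₗ[ZMod q] V := ∑ j ∈ Finset.range p, (ρ (y i ^ j) : V →ₗ[ZMod q] V)
    have hT : ∀ u, T u = ∑ j ∈ Finset.range p, ρ (y i ^ j) u := fun u => by
      simp [T, LinearMap.sum_apply]
    have hker : ⨆ (k) (_ : k ≠ i), W k ≤ LinearMap.ker T := by
      refine iSup₂_le fun k hk u hu => ?_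
      rw [LinearMap.mem_ker, hT]
      rw [hW] at hu
      set d := z ^ ((i - k).val) with hd
      have hdc : d ∈ Subgroup.center G := pow_mem hzc _
      have hdy : y i = d * y k := by
        have e : i = ((k.val + (i - k).val : ℕ) : ZMod p) := by
          push_cast; rw [ZMod.natCast_zmod_val, ZMod.natCast_zmod_val]; ring
        conv_lhs => rw [e, hy, pow_add, ← mul_assoc]
        exact Subgroup.mem_center_iff.mp hdc _
      have hfixk : ∀ j : ℕ, ρ (y k ^ j) u = u := by
        intro j
        induction j with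
        | zero => simp
        | succ j ih => rw [pow_succ, map_mul, LinearEquiv.mul_apply, hu, ih]
      have hj : ∀ j : ℕ, ρ (y i ^ j) u = ρ (d ^ j) u := by
        intro j
        rw [hdy, (show Commute d (y k) from (Subgroup.mem_center_iff.mp hdc _).symm).mul_pow,
          map_mul, LinearEquiv.mul_apply, hfixk]
      simp only [hj]
      refine geom_zero hfpf hdc ?_ (hzp _) u
      intro h1
      apply hk
      have h2 : (((i - k).val : ℕ) : ZMod p) = ((0 : ℕ) : ZMod p) :=
        (hpowz _ _).mpr (by rw [pow_zero]; exact h1)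
      rw [ZMod.natCast_zmod_val, Nat.cast_zero, sub_eq_zero] at h2
      exact h2.symm
    have h0 : T w = 0 := hker hw
    rw [hW] at hwi
    have hj : ∀ j : ℕ, ρ (y i ^ j) w = w := by
      intro j
      induction j with
      | zero => simp
      | succ j ih => rw [pow_succ, map_mul, LinearEquiv.mul_apply, hwi, ih]
    rw [hT] at h0
    simp only [hj, Finset.sum_const, Finset.card_range] at h0
    rw [← Nat.cast_smul_eq_nsmul (ZMod q)] at h0
    exact (smul_eq_zero.mp h0).resolve_left hpV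
  · intro h hh i w hw
    have := hmap h i
    rw [(hHc h).mp hh, add_zero] at this
    rw [← this]
    exact ⟨w, hw, rfl⟩
  · exact fun g hg => ⟨(c g : ZMod p), fun h => hg ((hHc g).mpr h), hmap g⟩


/-- Let a finite p-group G act faithfully and irreducibly on a non-trivial finite vector space V over the field with q elements (q prime), and suppose G is not cyclic, generalized quaternion, dihedral or semidihedral. Then G has a subgroup H of index p and V is the direct sum of p subspaces, each invariant under H, on none of which H acts faithfully, and which every element of G outside H permutes in a single p-cycle. -/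
theorem result
    (q : ℕ) [Fact q.Prime] {V : Type*} [AddCommGroup V] [Module (ZMod q) V] [Finite V] [Nontrivial V]
    {G : Type*} [Group G] [Finite G] (p : ℕ) [Fact p.Prime] (hG : IsPGroup p G)
    (ρ : G →* (V ≃ₗ[ZMod q] V)) (hρ : Function.Injective ρ)
    (hirr : ∀ W : Submodule (ZMod q) V, (∀ g : G, ∀ w ∈ W, ρ g w ∈ W) → W = ⊥ ∨ W = ⊤)
    (hnc : ¬ IsCyclic G) (hnq : ∀ n : ℕ, ¬ Nonempty (G ≃* QuaternionGroup n))
    (hnd : ∀ n : ℕ, ¬ Nonempty (G ≃* DihedralGroup n)) (hnsd : ¬ Cfsg.IsQuasiDihedral G) :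
    ∃ (H : Subgroup G) (W : Fin p → Submodule (ZMod q) V), H.index = p ∧
      iSup W = ⊤ ∧ iSupIndep W ∧
      (∀ h ∈ H, ∀ i, ∀ w ∈ W i, ρ h w ∈ W i) ∧
      (∀ i, ∃ h ∈ H, h ≠ 1 ∧ ∀ w ∈ W i, ρ h w = w) ∧
      ∀ g : G, g ∉ H → ∃ σ : Equiv.Perm (Fin p), orderOf σ = p ∧ ∀ i, (W i).map (ρ g : V →ₗ[ZMod q] V) = W (σ i) := by
  obtain ⟨A, hAn, hAc, hAnc⟩ := exists_normal_noncyclic p hG hnc hnq hnd hnsd
  haveI := hAn
  haveI := hAc
  have hA : A ≠ ⊥ := fun h => hAnc (h ▸ inferInstance)
  obtain ⟨z, hzA, hzc, hzo⟩ := Cfsg.Agent.H24.exists_central_orderOf hG hA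
  let Om : Subgroup G :=
    { carrier := {a | a ∈ A ∧ a ^ p = 1}
      one_mem' := ⟨one_mem A, one_pow p⟩
      mul_mem' := fun {a b} ha hb => ⟨mul_mem ha.1 hb.1, by
        have hab : Commute a b :=
          congrArg Subtype.val (mul_comm' (⟨a, ha.1⟩ : A) ⟨b, hb.1⟩)
        rw [hab.mul_pow, ha.2, hb.2, one_mul]⟩
      inv_mem' := fun {a} ha => ⟨inv_mem ha.1, by rw [inv_pow, ha.2, inv_one]⟩ }
  haveI hOn : Om.Normal := ⟨fun n hn g => ⟨hAn.conj_mem n hn.1 g, by
    rw [conj_pow, hn.2, mul_one, mul_inv_cancel]⟩⟩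
  haveI hzn : (Subgroup.zpowers z).Normal :=
    Cfsg.Agent.H24.normal_of_le_center (Subgroup.zpowers_le.mpr hzc)
  have hle : Subgroup.zpowers z ≤ Om :=
    Subgroup.zpowers_le.mpr ⟨hzA, by rw [← hzo]; exact pow_orderOf_eq_one z⟩
  have hne : Subgroup.zpowers z ≠ Om := by
    intro h
    apply hAnc
    refine Cfsg.Agent.H21.isCyclic_of_comm_unique (hG.to_subgroup A) fun H K hH hK => ?_
    have key : ∀ H : Subgroup A, Nat.card H = p → H.map A.subtype = Subgroup.zpowers z := by
      intro H hH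
      refine Subgroup.eq_of_le_of_card_ge ?_ (le_of_eq ?_)
      · rintro _ ⟨a, ha, rfl⟩
        rw [h]
        refine ⟨a.2, ?_⟩
        have := pow_card_eq_one' (G := H) (x := ⟨a, ha⟩)
        rw [hH] at this
        exact congrArg (fun w : H => ((w : A) : G)) this
      · rw [Nat.card_zpowers, hzo, ← hH]
        exact Nat.card_congr (H.equivMapOfInjective _ A.subtype_injective).toEquiv
    exact Subgroup.map_injective A.subtype_injective ((key H hH).trans (key K hK).symm)
  obtain ⟨E, -, hzE, hEO, hEc, hEcomm⟩ := Cfsg.Agent.H24.exists_normal_between hG hle hne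
  obtain ⟨x, hxE, hxz⟩ : ∃ x ∈ E, x ∉ Subgroup.zpowers z := by
    by_contra hcon
    push Not at hcon
    have : E = Subgroup.zpowers z := le_antisymm hcon hzE
    rw [this, Nat.card_zpowers, hzo] at hEc
    have hp1 := (Fact.out : p.Prime).one_lt
    nlinarith
  obtain ⟨H, W, hi, hsup, hind, hinv, hker, hperm⟩ := main hG ρ hρ hirr hnc hzc hzo (hEO hxE).2 hxz
    (fun g => by
      have hm : x⁻¹ * (g * x * g⁻¹) ∈ Subgroup.zpowers z := by
        have h0 := hEcomm (Subgroup.commutator_mem_commutator (Subgroup.mem_top g) hxE)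
        rw [commutatorElement_def] at h0
        have h1 := hzn.conj_mem _ h0 x⁻¹
        rwa [inv_inv, mul_assoc x⁻¹, inv_mul_cancel_right] at h1
      rw [← mem_powers_iff_mem_zpowers] at hm
      obtain ⟨k, hk⟩ := hm
      refine ⟨k, ?_⟩
      simp only at hk
      rw [hk, mul_inv_cancel_left])
  haveI : NeZero p := ⟨(Fact.out : p.Prime).ne_zero⟩
  let e : Fin p ≃ ZMod p := (ZMod.finEquiv p).toEquiv
  refine ⟨H, fun i => W (e i), hi, ?_, hind.comp e.injective, fun h hh i => hinv h hh (e i),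
    fun i => hker (e i), fun g hg => ?_⟩
  · rw [e.surjective.iSup_comp]; exact hsup
  · obtain ⟨c, hc0, hc⟩ := hperm g hg
    refine ⟨Equiv.permCongrHom e.symm (Equiv.addRight c), ?_, fun i => ?_⟩
    · rw [MulEquiv.orderOf_eq]
      refine orderOf_eq_prime ?_ fun h => hc0 (by simpa using congrArg (fun π => π (0 : ZMod p)) h)
      have hpow : ∀ n : ℕ, ∀ a : ZMod p, (Equiv.addRight c ^ n) a = a + n • c := by
        intro n
        induction n with
        | zero => intro a; simp
        | succ n ih => intro a; rw [pow_succ', Equiv.Perm.mul_apply, ih, succ_nsmul]; simp [add_assoc]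
      ext a
      rw [hpow]
      simp
    · rw [hc]
      congr 1
      simp [Equiv.permCongrHom]

end Cfsg.Agent.S3380
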