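import Cfsg.Statements.S3381

set_option autoImplicit false
open Cfsg

namespace Cfsg.Agent.S3381

/-- Let G be a finite group acting faithfully and linearly on a non-trivial finite vector space V over the field with q elements (q prime) so that every non-zero vector has a stabilizer of order 2, and suppose G has a central involution. Then V has q^(2r) elements for some r and G contains exactly q^r + 1 non-central involutions. -/
theorem result
    (q : ℕ) [Fact q.Prime] {V : Type*} [AddCommGroup V] [Module (ZMod q) V] [Finite V] [Nontrivial V]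
    {G : Type*} [Group G] [Finite G] (ρ : G →* (V ≃ₗ[ZMod q] V)) (hρ : Function.Injective ρ)
    (hstab : ∀ v : V, v ≠ 0 → Nat.card {g : G // ρ g v = v} = 2)
    (z : G) (hz : orderOf z = 2) (hzc : z ∈ Subgroup.center G) :
    ∃ r : ℕ, Nat.card V = q ^ (2 * r) ∧
      Nat.card {g : G // orderOf g = 2 ∧ g ∉ Subgroup.center G} = q ^ r + 1 := by
  classical
  have hq : q.Prime := Fact.out
  haveI : FiniteDimensional (ZMod q) V := Module.Finite.of_finite
  haveI : Fintype G := Fintype.ofFinite G
  -- stabilisers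
  have hact : ∀ (g h : G) (v : V), ρ (g * h) v = ρ g (ρ h v) := fun g h v => by rw [map_mul]; rfl
  have hone : ∀ v : V, ρ 1 v = v := fun v => by rw [map_one]; rfl
  have huniq : ∀ v : V, v ≠ 0 → ∀ g h : G, g ≠ 1 → h ≠ 1 → ρ g v = v → ρ h v = v → g = h := by
    intro v hv g h hg hh hgv hhv
    by_contra hne
    have hs : ({1, g, h} : Finset G) ⊆ Finset.univ.filter (fun k => ρ k v = v) := by
      intro k hk
      simp only [Finset.mem_insert, Finset.mem_singleton] at hk
      rcases hk with rfl | rfl | rfl <;> simp [hone, hgv, hhv]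
    have h3 : ({1, g, h} : Finset G).card = 3 := Finset.card_eq_three.2 ⟨1, g, h, hg.symm, hh.symm, hne, rfl⟩
    have := Finset.card_le_card hs
    rw [h3] at this
    have h2 := hstab v hv
    rw [Nat.card_eq_fintype_card, Fintype.card_subtype] at h2
    omega
  have hexist : ∀ v : V, v ≠ 0 → ∃ g : G, orderOf g = 2 ∧ ρ g v = v := by
    intro v hv
    have h2 := hstab v hv
    rw [Nat.card_eq_fintype_card, Fintype.card_subtype] at h2
    obtain ⟨a, ha, ha1⟩ : ∃ a ∈ Finset.univ.filter (fun k => ρ k v = v), a ≠ 1 := by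
      by_contra hc
      push Not at hc
      have : Finset.univ.filter (fun k => ρ k v = v) ⊆ {1} := fun x hx =>
        Finset.mem_singleton.2 (hc x hx)
      have := Finset.card_le_card this
      rw [h2, Finset.card_singleton] at this
      omega
    simp only [Finset.mem_filter, Finset.mem_univ, true_and] at ha
    refine ⟨a, orderOf_eq_prime ?_ ha1, ha⟩
    by_contra h2'
    have h2v : ρ (a ^ 2) v = v := by rw [pow_two, hact, ha, ha]
    have := huniq v hv (a ^ 2) a h2' ha1 h2v ha
    exact ha1 (by rw [pow_two] at this; exact mul_eq_right.1 this)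
  have hsq : ∀ g : G, orderOf g = 2 → ∀ v, ρ g (ρ g v) = v := fun g hg v => by
    rw [← hact, ← pow_two, ← hg, pow_orderOf_eq_one, hone]
  have hne1 : ∀ g : G, orderOf g = 2 → g ≠ 1 := fun g hg e => by simp [e] at hg
  -- central involutions act as `-1`
  have hcent : ∀ c : G, orderOf c = 2 → c ∈ Subgroup.center G → ∀ v : V, v ≠ 0 → ρ c v ≠ v := by
    intro c hc hcc v0 hv0 hfix
    have hcomm : ∀ (g : G) (u : V), ρ g (ρ c u) = ρ c (ρ g u) := fun g u => by
      rw [← hact, ← hact, Subgroup.mem_center_iff.1 hcc g]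
    apply hne1 c hc
    apply hρ
    rw [map_one]
    refine LinearEquiv.ext fun w => ?_
    show ρ c w = w
    by_contra hw
    have hw0 : w ≠ 0 := fun e => hw (by rw [e, map_zero])
    rcases eq_or_ne q 2 with rfl | hq2
    · obtain ⟨t, ht, htw⟩ := hexist w hw0
      have hadd : ∀ u : V, u + u = 0 := fun u => by
        rw [← two_nsmul, ← Nat.cast_smul_eq_nsmul (ZMod 2), ZMod.natCast_self, zero_smul]
      have htc : t = c := by
        by_cases h0 : v0 + ρ t v0 = 0
        · refine huniq v0 hv0 t c (hne1 t ht) (hne1 c hc) ?_ hfix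
          rw [← add_zero (ρ t v0), ← hadd v0]
          rw [← add_assoc, add_comm (ρ t v0) v0, h0, zero_add]
        · refine huniq _ h0 t c (hne1 t ht) (hne1 c hc) ?_ ?_
          · rw [map_add, hsq t ht, add_comm]
          · rw [map_add, hfix, ← hcomm, hfix]
      exact hw (htc ▸ htw)
    · have h2 : (2 : ZMod q) ≠ 0 := by
        intro h
        have h' : ((2 : ℕ) : ZMod q) = 0 := by exact_mod_cast h
        rw [ZMod.natCast_eq_zero_iff] at h'
        exact hq2 ((Nat.prime_dvd_prime_iff_eq hq Nat.prime_two).1 h')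
      set d := w - ρ c w with hd
      have hd0 : d ≠ 0 := fun e => hw (sub_eq_zero.1 e).symm
      have hcd : ρ c d = -d := by rw [hd, map_sub, hsq c hc, neg_sub]
      have hs0 : v0 + d ≠ 0 := by
        intro e
        have h := congrArg (ρ c) e
        rw [map_add, hfix, hcd, map_zero] at h
        have h2d : (2 : ZMod q) • d = 0 := by
          rw [two_smul]
          calc d + d = (v0 + d) - (v0 + -d) := by abel
            _ = 0 := by rw [e, h, sub_zero]
        exact hd0 ((smul_eq_zero.1 h2d).resolve_left h2)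
      obtain ⟨t, ht, htv⟩ := hexist _ hs0
      have htv' : ρ t (v0 + -d) = v0 + -d := by
        have h := hcomm t (v0 + d)
        rw [htv, map_add, hfix, hcd] at h
        exact h
      have ht0 : ρ t v0 = v0 := by
        have h := congrArg₂ (· + ·) htv htv'
        simp only [← map_add] at h
        rw [show v0 + d + (v0 + -d) = (2 : ZMod q) • v0 by rw [two_smul]; abel, map_smul] at h
        exact smul_right_injective V h2 h
      have htd : ρ t d = d := by
        rw [map_add, ht0] at htv
        exact add_left_cancel htv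
      have := huniq v0 hv0 t c (hne1 t ht) (hne1 c hc) ht0 hfix
      rw [this, hcd] at htd
      have h2d : (2 : ZMod q) • d = 0 := by
        rw [two_smul]
        nth_rewrite 1 [← htd]
        exact neg_add_cancel d
      exact hd0 ((smul_eq_zero.1 h2d).resolve_left h2)
  have hneg : ∀ c : G, orderOf c = 2 → c ∈ Subgroup.center G → ∀ v : V, ρ c v = -v := by
    intro c hc hcc v
    by_contra h
    have h0 : ρ c v + v ≠ 0 := fun e => h (eq_neg_of_add_eq_zero_left e)
    refine hcent c hc hcc _ h0 ?_
    rw [map_add, hsq c hc, add_comm]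
  have hzneg := hneg z hz hzc
  obtain ⟨e0, he0⟩ := exists_ne (0 : V)
  have hq2 : (2 : ZMod q) ≠ 0 := by
    intro h
    refine hcent z hz hzc e0 he0 ?_
    rw [hzneg, neg_eq_iff_add_eq_zero, ← two_smul (ZMod q), h, zero_smul]
  let T := {g : G // orderOf g = 2 ∧ g ∉ Subgroup.center G}
  let W : G → Submodule (ZMod q) V := fun g => LinearMap.ker ((ρ g : V →ₗ[ZMod q] V) - LinearMap.id)
  have hW : ∀ (g : G) (v : V), v ∈ W g ↔ ρ g v = v := fun g v => by
    simp [W, LinearMap.mem_ker, sub_eq_zero]
  have hfixT : ∀ v : V, v ≠ 0 → ∃ t : T, v ∈ W t := by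
    intro v hv
    obtain ⟨t, ht, htv⟩ := hexist v hv
    exact ⟨⟨t, ht, fun hc => hcent t ht hc v hv htv⟩, (hW _ _).2 htv⟩
  have hdisj : ∀ s t : T, s ≠ t → Disjoint (W s) (W t) := by
    intro s t hst
    rw [Submodule.disjoint_def]
    intro v hs ht
    by_contra hv
    exact hst (Subtype.ext (huniq v hv _ _ (hne1 _ s.2.1) (hne1 _ t.2.1) ((hW _ _).1 hs) ((hW _ _).1 ht)))
  have hzcomm : ∀ g : G, Commute z g := fun g => (Subgroup.mem_center_iff.1 hzc g).symm
  have hzT : ∀ t : T, orderOf (z * t.1) = 2 ∧ z * t.1 ∉ Subgroup.center G := by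
    intro t
    refine ⟨orderOf_eq_prime ?_ ?_, fun h => t.2.2 ?_⟩
    · have hzz := pow_orderOf_eq_one z
      have htt := pow_orderOf_eq_one t.1
      rw [hz] at hzz
      rw [t.2.1] at htt
      rw [(hzcomm t.1).mul_pow, hzz, htt, one_mul]
    · intro e
      exact t.2.2 (by rw [eq_inv_of_mul_eq_one_right e]; exact inv_mem hzc)
    · rw [← inv_mul_cancel_left z t.1]
      exact mul_mem (inv_mem hzc) h
  let zt : T → T := fun t => ⟨z * t.1, hzT t⟩
  have hzt : ∀ t : T, zt t ≠ t := fun t e => hne1 z hz (mul_eq_right.1 (congrArg Subtype.val e))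
  set n := Module.finrank (ZMod q) V with hn
  have hcompl : ∀ t : T, Module.finrank (ZMod q) (W t) + Module.finrank (ZMod q) (W (zt t)) = n := by
    intro t
    refine Submodule.finrank_add_eq_of_isCompl ⟨hdisj _ _ (hzt t).symm, ?_⟩
    rw [codisjoint_iff, eq_top_iff]
    intro v _
    have hv : v = (2 : ZMod q)⁻¹ • (v + ρ t.1 v) + (2 : ZMod q)⁻¹ • (v - ρ t.1 v) := by
      rw [← smul_add, show v + ρ t.1 v + (v - ρ t.1 v) = (2 : ZMod q) • v by rw [two_smul]; abel,
        inv_smul_smul₀ hq2]
    rw [hv]
    refine Submodule.add_mem_sup (Submodule.smul_mem _ _ ((hW _ _).2 ?_))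
      (Submodule.smul_mem _ _ ((hW _ _).2 ?_))
    · rw [map_add, hsq _ t.2.1, add_comm]
    · show ρ (z * t.1) _ = _
      rw [hact, map_sub, hsq _ t.2.1, hzneg, neg_sub]
  have hsum : ∀ s t : T, s ≠ t →
      Module.finrank (ZMod q) (W s) + Module.finrank (ZMod q) (W t) ≤ n := fun s t h =>
    Submodule.finrank_add_finrank_le_of_disjoint (hdisj s t h)
  have hpos : ∀ t : T, 0 < Module.finrank (ZMod q) (W t) := by
    intro t
    rw [pos_iff_ne_zero, Ne, Submodule.finrank_eq_zero]
    intro hb
    apply t.2.2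
    have : t.1 = z := hρ (LinearEquiv.ext fun v => by
      have h0 : v + ρ t.1 v = 0 := by
        have : v + ρ t.1 v ∈ W t := (hW _ _).2 (by rw [map_add, hsq _ t.2.1, add_comm])
        rwa [hb, Submodule.mem_bot] at this
      rw [hzneg]
      exact (neg_eq_of_add_eq_zero_right h0).symm)
    rw [this]; exact hzc
  have hhalf : ∀ t : T, 2 * Module.finrank (ZMod q) (W t) ≤ n := by
    intro t
    obtain ⟨x, hx, hx0⟩ := (Submodule.ne_bot_iff _).1 (fun e => (hpos t).ne' (Submodule.finrank_eq_zero.2 e))
    obtain ⟨y, hy, hy0⟩ := (Submodule.ne_bot_iff _).1 (fun e => (hpos (zt t)).ne' (Submodule.finrank_eq_zero.2 e))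
    have hd := Submodule.disjoint_def.1 (hdisj t (zt t) (hzt t).symm)
    have hxy : x + y ≠ 0 := fun e => hx0 (hd x hx (by
      rw [eq_neg_of_add_eq_zero_left e]; exact Submodule.neg_mem _ hy))
    obtain ⟨s, hs⟩ := hfixT _ hxy
    have h1 : s ≠ t := by
      rintro rfl
      exact hy0 (hd y (by simpa using Submodule.sub_mem _ hs hx) hy)
    have h2 : s ≠ zt t := by
      rintro rfl
      exact hx0 (hd x hx (by simpa using Submodule.sub_mem _ hs hy))
    have h3 : zt s ≠ t := by
      intro e
      apply h2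
      apply Subtype.ext
      show s.1 = z * t.1
      rw [← e]
      show s.1 = z * (z * s.1)
      have hzz : z ^ 2 = 1 := by rw [← hz]; exact pow_orderOf_eq_one z
      rw [← mul_assoc, ← pow_two, hzz, one_mul]
    have := hsum s t h1
    have := hsum (zt s) t h3
    have := hcompl s
    omega
  obtain ⟨t0, -⟩ := hfixT e0 he0
  set r := Module.finrank (ZMod q) (W t0) with hr
  have hnr : n = 2 * r := by
    have := hhalf t0
    have := hhalf (zt t0)
    have := hcompl t0
    omega
  have hall : ∀ t : T, Module.finrank (ZMod q) (W t) = r := by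
    intro t
    have := hhalf t
    have := hhalf (zt t)
    have := hcompl t
    omega
  have hVc : Nat.card V = q ^ (2 * r) := by
    rw [Module.natCard_eq_pow_finrank (K := ZMod q), ← hn, hnr, Nat.card_zmod]
  refine ⟨r, hVc, ?_⟩
  haveI : Fintype V := Fintype.ofFinite V
  let e : {v : V // v ≠ 0} ≃ Σ t : T, {v : W t // v ≠ 0} :=
    Equiv.ofBijective (fun v => ⟨(hfixT v.1 v.2).choose,
      ⟨⟨v.1, (hfixT v.1 v.2).choose_spec⟩, fun h => v.2 (congrArg Subtype.val h)⟩⟩) (by
      constructor
      · intro a b h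
        exact Subtype.ext (congrArg (fun p : Σ t : T, {v : W t // v ≠ 0} => (p.2.1 : V)) h)
      · rintro ⟨t, ⟨v, hv⟩, hv0⟩
        have hv' : v ≠ 0 := fun h => hv0 (Subtype.ext h)
        refine ⟨⟨v, hv'⟩, ?_⟩
        have ht : (hfixT v hv').choose = t := by
          by_contra hne
          exact hv' (Submodule.disjoint_def.1 (hdisj _ _ hne) v (hfixT v hv').choose_spec hv)
        subst ht
        rfl)
  have hcount := Nat.card_congr e
  haveI : Fintype T := Fintype.ofFinite T
  rw [Nat.card_sigma] at hcount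
  have hWc : ∀ t : T, Nat.card {v : W t // v ≠ 0} = q ^ r - 1 := by
    intro t
    rw [Nat.card_eq_fintype_card, Fintype.card_subtype_compl, Fintype.card_subtype_eq,
      ← Nat.card_eq_fintype_card, Module.natCard_eq_pow_finrank (K := ZMod q), hall, Nat.card_zmod]
  have hVc' : Nat.card {v : V // v ≠ 0} = q ^ (2 * r) - 1 := by
    rw [Nat.card_eq_fintype_card, Fintype.card_subtype_compl, Fintype.card_subtype_eq,
      ← Nat.card_eq_fintype_card, hVc]
  rw [hVc', Finset.sum_congr rfl (fun t _ => hWc t), Finset.sum_const, smul_eq_mul, Finset.card_univ,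
    ← Nat.card_eq_fintype_card] at hcount
  have hr0 : 0 < r := hpos t0
  have hqr : 1 < q ^ r := Nat.one_lt_pow hr0.ne' hq.one_lt
  have hfac : q ^ (2 * r) - 1 = (q ^ r + 1) * (q ^ r - 1) := by
    rw [two_mul, pow_add, ← Nat.sq_sub_sq]
    ring_nf
  exact Nat.eq_of_mul_eq_mul_right (by omega) (hcount.symm.trans hfac)

end Cfsg.Agent.S3381
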