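import Cfsg.Statements.S3382
-- import your own Cfsg.Agent.* helpers here

set_option autoImplicit false
open Cfsg

namespace Cfsg.Agent.S3382

/-- An automorphism of odd prime order fixes `x` if it fixes `u` of 2-power order and sends `x` to
`x * u`. -/
theorem fixed_of_shift {H : Type*} [Group H] {p : ℕ} (hp : p.Prime) (hp2 : p ≠ 2) (α : MulAut H)
    (hα : α ^ p = 1) {x u : H} {k : ℕ} (hu : u ^ (2 ^ k) = 1) (hfix : α u = u)
    (hx : α x = x * u) : α x = x := by
  have hit : ∀ j : ℕ, (α ^ j) x = x * u ^ j := by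
    intro j
    induction j with
    | zero => simp
    | succ j ih =>
      rw [pow_succ', MulAut.mul_apply, ih, map_mul, hx, map_pow, hfix, mul_assoc, ← pow_succ']
  have h := hit p
  rw [hα, MulAut.one_apply, left_eq_mul] at h
  have hc : Nat.Coprime p (2 ^ k) :=
    Nat.Coprime.pow_right k ((Nat.coprime_primes hp Nat.prime_two).mpr hp2)
  have : u = 1 := orderOf_eq_one_iff.mp (Nat.eq_one_of_dvd_coprimes hc
    (orderOf_dvd_of_pow_eq_one h) (orderOf_dvd_of_pow_eq_one hu))
  rw [hx, this, mul_one]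

/-- An automorphism of odd prime order fixes any element of a cyclic 2-subgroup it normalizes. -/
theorem fixed_of_cyclic {H : Type*} [Group H] {p : ℕ} (hp : p.Prime) (hp2 : p ≠ 2) (α : MulAut H)
    (hα : α ^ p = 1) {d : H} {k : ℕ} (hd : orderOf d = 2 ^ (k + 1)) {j : ℕ} (hj : α d = d ^ j) :
    α d = d := by
  have hit : ∀ i : ℕ, (α ^ i) d = d ^ (j ^ i) := by
    intro i
    induction i with
    | zero => simp
    | succ i ih =>
      rw [pow_succ', MulAut.mul_apply, ih, map_pow, hj, ← pow_mul, pow_succ']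
  have h := hit p
  rw [hα, MulAut.one_apply] at h
  have hmod : j ^ p ≡ 1 [MOD 2 ^ (k + 1)] := by
    rw [← hd]
    exact pow_eq_pow_iff_modEq.mp (by rw [pow_one]; exact h.symm)
  have hj2 : Nat.Coprime j (2 ^ (k + 1)) := by
    refine Nat.Coprime.pow_right _ (Nat.Coprime.symm ((Nat.prime_two.coprime_iff_not_dvd).mpr ?_))
    intro h2
    have h3 : j ^ p ≡ 1 [MOD 2] := by
      have h' := hmod
      rw [pow_succ, mul_comm] at h'
      exact h'.of_mul_right (2 ^ k)
    unfold Nat.ModEq at h3
    rw [Nat.pow_mod, Nat.mod_eq_zero_of_dvd h2, zero_pow hp.ne_zero] at h3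
    norm_num at h3
  set u := ZMod.unitOfCoprime j hj2 with hu
  have hup : u ^ p = 1 := by
    apply Units.ext
    rw [Units.val_pow_eq_pow_val, hu, ZMod.coe_unitOfCoprime, Units.val_one, ← Nat.cast_pow]
    refine Eq.trans ((ZMod.natCast_eq_natCast_iff _ 1 _).mpr ?_) Nat.cast_one
    exact hmod
  have hut : u ^ (2 ^ k) = 1 := by
    have := ZMod.pow_totient u
    rwa [Nat.totient_prime_pow_succ Nat.prime_two, show 2 - 1 = 1 from rfl, mul_one] at this
  have hu1 : u = 1 := orderOf_eq_one_iff.mp (Nat.eq_one_of_dvd_coprimes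
    (Nat.Coprime.pow_right k ((Nat.coprime_primes hp Nat.prime_two).mpr hp2))
    (orderOf_dvd_of_pow_eq_one hup) (orderOf_dvd_of_pow_eq_one hut))
  have : (j : ZMod (2 ^ (k + 1))) = ((1 : ℕ) : ZMod (2 ^ (k + 1))) := by
    rw [← ZMod.coe_unitOfCoprime j hj2, ← hu, hu1, Units.val_one, Nat.cast_one]
  rw [hj]
  conv_rhs => rw [← pow_one d]
  rw [pow_eq_pow_iff_modEq, hd]
  exact (ZMod.natCast_eq_natCast_iff _ _ _).mp this

section

variable {q : ℕ} [Fact q.Prime]

abbrev L (q : ℕ) := (Fin 2 → ZMod q) ≃ₗ[ZMod q] (Fin 2 → ZMod q)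

/-- the diagonal map -/
def IsD (a s : ZMod q) (f : L q) : Prop := ∀ v, f v = ![a * v 0, s * a⁻¹ * v 1]

/-- the antidiagonal map -/
def IsO (a s : ZMod q) (f : L q) : Prop := ∀ v, f v = ![s * a⁻¹ * v 1, a * v 0]

theorem IsD.mul {a s b t : ZMod q} {f g : L q} (hf : IsD a s f) (hg : IsD b t g) :
    IsD (a * b) (s * t) (f * g) := fun v => by
  show f (g v) = _
  rw [hf, hg]; funext i; fin_cases i <;> simp [mul_inv] <;> ring

theorem IsD.mulO {a s b t : ZMod q} {f g : L q} (hs : s = 1 ∨ s = -1) (hf : IsD a s f)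
    (hg : IsO b t g) : IsO (b * s * a⁻¹) (t * s) (f * g) := fun v => by
  show f (g v) = _
  rw [hf, hg]
  funext i
  fin_cases i <;> rcases hs with rfl | rfl <;> simp [mul_inv, inv_neg] <;> ring

theorem IsO.mulD {a s b t : ZMod q} {f g : L q} (hf : IsO a s f) (hg : IsD b t g) :
    IsO (a * b) (s * t) (f * g) := fun v => by
  show f (g v) = _
  rw [hf, hg]; funext i; fin_cases i <;> simp [mul_inv] <;> ring

theorem IsO.mulO {a s b t : ZMod q} {f g : L q} (hs : s = 1 ∨ s = -1) (hf : IsO a s f)
    (hg : IsO b t g) : IsD (s * b * a⁻¹) (s * t) (f * g) := fun v => by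
  show f (g v) = _
  rw [hf, hg]
  funext i
  fin_cases i <;> rcases hs with rfl | rfl <;> simp [mul_inv, inv_neg] <;> ring

theorem IsD.ext' {a s : ZMod q} {f g : L q} (hf : IsD a s f) (hg : IsD a s g) : f = g :=
  LinearEquiv.ext fun v => (hf v).trans (hg v).symm

theorem IsO.ext' {a s : ZMod q} {f g : L q} (hf : IsO a s f) (hg : IsO a s g) : f = g :=
  LinearEquiv.ext fun v => (hf v).trans (hg v).symm

theorem isD_one : IsD (1 : ZMod q) 1 (1 : L q) := fun v => by
  show v = _
  funext i; fin_cases i <;> simp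

theorem IsD.inj {a s b t : ZMod q} {f : L q} (ha : a ≠ 0) (hf : IsD a s f) (hg : IsD b t f) :
    a = b ∧ s = t := by
  have h := (hf ![1, 1]).symm.trans (hg ![1, 1])
  have h0 : a = b := by simpa using congrFun h 0
  subst h0
  exact ⟨rfl, by simpa [ha] using congrFun h 1⟩

theorem IsO.inj {a s b t : ZMod q} {f : L q} (ha : a ≠ 0) (hf : IsO a s f) (hg : IsO b t f) :
    a = b ∧ s = t := by
  have h := (hf ![1, 1]).symm.trans (hg ![1, 1])
  have h0 : a = b := by simpa using congrFun h 1
  subst h0
  exact ⟨rfl, by simpa [ha] using congrFun h 0⟩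

theorem IsD.not_isO {a s b t : ZMod q} {f : L q} (ha : a ≠ 0) (hf : IsD a s f) : ¬ IsO b t f :=
  fun hg => by
  have h := (hf ![1, 0]).symm.trans (hg ![1, 0])
  exact ha (by simpa using congrFun h 0)

theorem IsD.pow {a s : ZMod q} {f : L q} (hf : IsD a s f) (n : ℕ) :
    IsD (a ^ n) (s ^ n) (f ^ n) := by
  induction n with
  | zero => rw [pow_zero, pow_zero, pow_zero]; exact isD_one
  | succ n ih => rw [pow_succ, pow_succ, pow_succ]; exact ih.mul hf

/-- The monomial group has no automorphism of odd prime order. -/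
theorem no_odd (m : ℕ) (hq : q = 2 ^ m + 1) (hq5 : q ≠ 5) (T : Subgroup (L q))
    (hT : ∀ f, f ∈ T ↔ ∃ a s : ZMod q, a ≠ 0 ∧ (s = 1 ∨ s = -1) ∧ (IsD a s f ∨ IsO a s f))
    {p : ℕ} (hp : p.Prime) (hp2 : p ≠ 2) (α : MulAut T) (hα : α ^ p = 1) : α = 1 := by
  have hqp : q.Prime := Fact.out
  -- every element decomposes
  have cases' : ∀ g : T, ∃ a s : ZMod q, a ≠ 0 ∧ (s = 1 ∨ s = -1) ∧
      (IsD a s (g : L q) ∨ IsO a s (g : L q)) := fun g => (hT _).mp g.2
  have two_power : ∀ a : ZMod q, a ≠ 0 → a ^ (2 ^ m) = 1 := by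
    intro a ha
    have h := ZMod.pow_card_sub_one_eq_one ha
    rwa [show q - 1 = 2 ^ m from Nat.sub_eq_of_eq_add hq] at h
  have sq_sign : ∀ s : ZMod q, (s = 1 ∨ s = -1) → s * s = 1 := by
    rintro s (rfl | rfl) <;> simp
  -- antidiagonal squares
  have hOsq : ∀ {a s : ZMod q} {g : T}, a ≠ 0 → (s = 1 ∨ s = -1) → IsO a s (g : L q) →
      IsD s 1 ((g ^ 2 : T) : L q) := by
    intro a s g ha hs hg
    have h := hg.mulO hs hg
    rw [mul_assoc, mul_inv_cancel₀ ha, mul_one, sq_sign s hs] at h
    rw [pow_two]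
    exact h
  have hT2 : ∀ g : T, g ^ (2 ^ (m + 2)) = 1 := by
    intro g
    apply Subtype.ext
    obtain ⟨a, s, ha, hs, h | h⟩ := cases' g
    · have h' := h.pow (2 ^ (m + 2))
      rw [show 2 ^ (m + 2) = 2 ^ m * 4 by rw [pow_add]; rfl, pow_mul a, two_power a ha, one_pow,
        show 2 ^ m * 4 = 2 * (2 ^ m * 2) by ring, pow_mul s, pow_two, sq_sign s hs, one_pow] at h'
      rw [Subgroup.coe_pow, show 2 ^ (m + 2) = 2 * (2 ^ m * 2) by rw [pow_add]; ring]
      exact h'.ext' isD_one
    · have h2 := hOsq ha hs h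
      have h' := h2.pow (2 ^ (m + 1))
      rw [one_pow, show 2 ^ (m + 1) = 2 * 2 ^ m by rw [pow_succ]; ring, pow_mul s, pow_two,
        sq_sign s hs, one_pow, ← Subgroup.coe_pow, ← pow_mul] at h'
      rw [show 2 ^ (m + 2) = 2 * (2 * 2 ^ m) by rw [pow_add]; ring]
      exact h'.ext' isD_one
  -- the basic elements
  let sw : L q :=
    { toFun := fun v => ![v 1, v 0]
      map_add' := fun v w => by funext i; fin_cases i <;> simp
      map_smul' := fun c v => by funext i; fin_cases i <;> simp
      invFun := fun v => ![v 1, v 0]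
      left_inv := fun v => by funext i; fin_cases i <;> simp
      right_inv := fun v => by funext i; fin_cases i <;> simp }
  have hsw : IsO 1 1 sw := fun v => by
    show ![v 1, v 0] = _
    simp
  have mkD : ∀ a s : ZMod q, a ≠ 0 → (s = 1 ∨ s = -1) → ∃ g : T, IsD a s (g : L q) := by
    intro a s ha hs
    let f : L q :=
      { toFun := fun v => ![a * v 0, s * a⁻¹ * v 1]
        map_add' := fun v w => by funext i; fin_cases i <;> simp <;> ring
        map_smul' := fun c v => by funext i; fin_cases i <;> simp <;> ring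
        invFun := fun v => ![a⁻¹ * v 0, s * a * v 1]
        left_inv := fun v => by
          funext i
          fin_cases i
          · simp [ha]
          · simp only [Fin.mk_one, Matrix.cons_val_one, Matrix.cons_val_zero]
            linear_combination (v 1) * (a * a⁻¹) * (sq_sign s hs) + (v 1) * (mul_inv_cancel₀ ha)
        right_inv := fun v => by
          funext i
          fin_cases i
          · simp [ha]
          · simp only [Fin.mk_one, Matrix.cons_val_one, Matrix.cons_val_zero]
            linear_combination (v 1) * (a * a⁻¹) * (sq_sign s hs) + (v 1) * (mul_inv_cancel₀ ha) }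
    have hf : IsD a s f := fun v => rfl
    exact ⟨⟨f, (hT f).mpr ⟨a, s, ha, hs, Or.inl hf⟩⟩, hf⟩
  let r : T := ⟨sw, (hT sw).mpr ⟨1, 1, one_ne_zero, Or.inl rfl, Or.inr hsw⟩⟩
  obtain ⟨z, hz⟩ := mkD 1 (-1) one_ne_zero (Or.inr rfl)
  obtain ⟨c, hc⟩ := mkD (-1) 1 (by simp) (Or.inl rfl)
  -- generation: everything is a product of a diagonal `s = 1` element, `z` and `r`
  have gen : ∀ g : T, ∃ a : ZMod q, a ≠ 0 ∧ ∃ d : T, IsD a 1 (d : L q) ∧
      (g = d ∨ g = z * d ∨ g = r * d ∨ g = z * r * d) := by
    intro g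
    obtain ⟨a, s, ha, hs, h | h⟩ := cases' g
    · obtain ⟨d, hd⟩ := mkD a 1 ha (Or.inl rfl)
      refine ⟨a, ha, d, hd, ?_⟩
      rcases hs with rfl | rfl
      · exact Or.inl (Subtype.ext (h.ext' hd))
      · refine Or.inr (Or.inl (Subtype.ext (h.ext' ?_)))
        have := hz.mul hd
        rwa [one_mul, mul_one] at this
    · rcases hs with rfl | rfl
      · obtain ⟨d, hd⟩ := mkD a 1 ha (Or.inl rfl)
        refine ⟨a, ha, d, hd, Or.inr (Or.inr (Or.inl (Subtype.ext (h.ext' ?_))))⟩
        have := hsw.mulD hd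
        rwa [one_mul, mul_one] at this
      · obtain ⟨d, hd⟩ := mkD (-a) 1 (by simpa using ha) (Or.inl rfl)
        refine ⟨-a, by simpa using ha, d, hd, Or.inr (Or.inr (Or.inr (Subtype.ext (h.ext' ?_))))⟩
        have := ((hz.mulO (Or.inr rfl) hsw).mulD hd)
        simpa using this
  rcases (show m ≤ 1 ∨ 3 ≤ m by
      rcases Nat.lt_or_ge m 2 with h | h
      · omega
      · rcases eq_or_lt_of_le h with rfl | h
        · norm_num at hq; omega
        · omega) with hm | hm
  · -- the small cases: the group of order at most eight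
    have hsmall : ∀ a : ZMod q, a ≠ 0 → a = 1 ∨ a = -1 := by
      intro a ha
      have h := two_power a ha
      interval_cases m
      · left; simpa using h
      · rw [pow_one, pow_two] at h
        exact mul_self_eq_one_iff.mp h
    set i : T := z * r with hidef
    have hi : IsO (-1) (-1) (i : L q) := by
      have := hz.mulO (Or.inr rfl) hsw
      simpa [hidef, r] using this
    have hi2 : i ^ 2 = c := Subtype.ext ((hOsq (by simp) (Or.inr rfl) hi).ext' hc)
    have hdc : ∀ {a : ZMod q} {d : T}, a ≠ 0 → IsD a 1 (d : L q) → d = 1 ∨ d = i ^ 2 := by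
      intro a d ha hd
      rcases hsmall a ha with rfl | rfl
      · exact Or.inl (Subtype.ext (hd.ext' isD_one))
      · exact Or.inr (hi2 ▸ Subtype.ext (hd.ext' hc))
    have hr2 : r * r = 1 := Subtype.ext (((hsw.mulO (Or.inl rfl) hsw).ext'
      (by simpa using isD_one (q := q))))
    have hz2 : z * z = 1 := Subtype.ext ((hz.mul hz).ext' (by simpa using isD_one (q := q)))
    have hzi : z * i = r := by rw [hidef, ← mul_assoc, hz2, one_mul]
    have decomp : ∀ g : T, ∃ k : ℕ, g = i ^ k ∨ g = z * i ^ k := by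
      intro g
      obtain ⟨a, ha, d, hd, h⟩ := gen g
      obtain ⟨k, rfl⟩ : ∃ k : ℕ, d = i ^ k := by
        rcases hdc ha hd with rfl | rfl
        · exact ⟨0, (pow_zero i).symm⟩
        · exact ⟨2, rfl⟩
      rcases h with h | h | h | h
      · exact ⟨k, Or.inl h⟩
      · exact ⟨k, Or.inr h⟩
      · exact ⟨1 + k, Or.inr (by rw [h, pow_add, pow_one, ← mul_assoc, hzi])⟩
      · exact ⟨1 + k, Or.inl (by rw [h, pow_add, pow_one])⟩
    have hD2 : ∀ {a s : ZMod q} {g : T}, a ≠ 0 → (s = 1 ∨ s = -1) → IsD a s (g : L q) →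
        g ^ 2 = 1 := by
      intro a s g ha hs hg
      have h := hg.mul hg
      have ha2 : a * a = 1 := by rcases hsmall a ha with rfl | rfl <;> simp
      rw [ha2, sq_sign s hs] at h
      rw [pow_two]
      exact Subtype.ext (h.ext' isD_one)
    by_cases hneg : (-1 : ZMod q) = 1
    · -- characteristic two: the group has at most two elements
      have hz1 : z = 1 := Subtype.ext (hz.ext' (hneg.symm ▸ isD_one))
      have hc1 : c = 1 := Subtype.ext (hc.ext' (hneg.symm ▸ isD_one))
      refine MulEquiv.ext fun g => ?_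
      have two : ∀ g : T, g = 1 ∨ g = r := by
        intro g
        obtain ⟨k, h | h⟩ := decomp g <;>
        · rw [hidef, hz1, one_mul] at h
          try rw [one_mul] at h
          rcases Nat.even_or_odd k with ⟨l, rfl⟩ | ⟨l, rfl⟩
          · left; rw [h, ← two_mul, pow_mul, pow_two, hr2, one_pow]
          · right; rw [h, pow_succ, pow_mul, pow_two, hr2, one_pow, one_mul]
      rw [MulAut.one_apply]
      rcases two g with rfl | rfl
      · exact map_one α
      · rcases two (α r) with h | h
        · have h1 : r = 1 := α.injective (h.trans (map_one α).symm)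
          rw [h1, map_one]
        · exact h
    · have hi2ne : i ^ 2 ≠ 1 := by
        intro h
        rw [hi2] at h
        exact hneg ((hc.inj (by simp) (h ▸ isD_one : IsD 1 1 (c : L q))).1)
      have four : ∀ g : T, g ^ 2 ≠ 1 → g = i ∨ g = i ^ 3 := by
        intro g hg
        obtain ⟨a, s, ha, hs, h | h⟩ := cases' g
        · exact absurd (hD2 ha hs h) hg
        · rcases hs with rfl | rfl
          · exact absurd (Subtype.ext ((hOsq ha (Or.inl rfl) h).ext' isD_one)) hg
          · rcases hsmall a ha with rfl | rfl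
            · right
              refine Subtype.ext (h.ext' ?_)
              have := hi.mulD hc
              rw [neg_mul_neg, one_mul, mul_one] at this
              rw [pow_succ', hi2]
              exact this
            · exact Or.inl (Subtype.ext (h.ext' hi))
      have hifix : α i = i := by
        rcases four (α i) (by rw [← map_pow, ← map_one α]; exact α.injective.ne hi2ne) with h | h
        · exact h
        · exfalso
          have hord : orderOf i = 2 ^ (1 + 1) := by
            refine orderOf_eq_prime_pow (by simpa using hi2ne) ?_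
            rw [show 2 ^ (1 + 1) = 2 * 2 by rfl, pow_mul, hi2, pow_two]
            exact Subtype.ext ((hc.mul hc).ext' (by simpa using isD_one (q := q)))
          have := fixed_of_cyclic hp hp2 α hα hord h
          rw [h] at this
          apply hi2ne
          rw [pow_succ, mul_eq_right] at this
          exact this
      have hik : ∀ k : ℕ, α (i ^ k) = i ^ k := fun k => by rw [map_pow, hifix]
      have hzfix : α z = z := by
        obtain ⟨k, h | h⟩ := decomp (α z)
        · have hzk : z = i ^ k := α.injective (h.trans (hik k).symm)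
          rw [h, hzk]
        · exact fixed_of_shift hp hp2 α hα (k := m + 2) (hT2 _) (hik k) h
      refine MulEquiv.ext fun g => ?_
      rw [MulAut.one_apply]
      obtain ⟨k, rfl | rfl⟩ := decomp g
      · exact hik k
      · rw [map_mul, hik, hzfix]
  · -- the large cases
    obtain ⟨k, rfl⟩ : ∃ k, m = k + 3 := ⟨m - 3, by omega⟩
    obtain ⟨u, hu⟩ := IsCyclic.exists_ofOrder_eq_natCard (α := (ZMod q)ˣ)
    rw [Nat.card_eq_fintype_card, ZMod.card_units q, show q - 1 = 2 ^ (k + 3) from Nat.sub_eq_of_eq_add hq] at hu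
    set g0 : ZMod q := (u : ZMod q) with hg0
    have hg0n : g0 ≠ 0 := u.ne_zero
    have hordg : orderOf g0 = 2 ^ (k + 3) := by rw [hg0, orderOf_units, hu]
    obtain ⟨d, hd⟩ := mkD g0 1 hg0n (Or.inl rfl)
    have hdo : orderOf d = 2 ^ (k + 2 + 1) := by
      rw [show k + 2 + 1 = k + 3 by omega, ← hordg]
      refine orderOf_eq_orderOf_iff.mpr fun n => ?_
      have hn := hd.pow n
      rw [one_pow] at hn
      constructor
      · intro h
        rw [← Subgroup.coe_pow, h] at hn
        exact (hn.inj (pow_ne_zero n hg0n) isD_one).1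
      · intro h
        rw [h] at hn
        exact Subtype.ext (hn.ext' isD_one)
    have D0pow : ∀ {a : ZMod q} {e : T}, a ≠ 0 → IsD a 1 (e : L q) → ∃ n : ℕ, e = d ^ n := by
      intro a e ha he
      obtain ⟨n, hn⟩ : ∃ n : ℕ, u ^ n = Units.mk0 a ha := by
        have hmem : Units.mk0 a ha ∈ Subgroup.zpowers u := by
          have : Subgroup.zpowers u = ⊤ := Subgroup.eq_top_of_card_eq _ (by
            rw [Nat.card_zpowers, hu, Nat.card_eq_fintype_card, ZMod.card_units q]
            exact (Nat.sub_eq_of_eq_add hq).symm)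
          rw [this]; exact Subgroup.mem_top _
        exact mem_powers_iff_mem_zpowers.mpr hmem
      refine ⟨n, Subtype.ext (he.ext' ?_)⟩
      have hn' := hd.pow n
      rw [one_pow, hg0, ← Units.val_pow_eq_pow_val, hn, Units.val_mk0, ← Subgroup.coe_pow] at hn'
      exact hn'
    have hneg : (-1 : ZMod q) ≠ 1 := by
      intro h
      have hg8 : g0 ^ 4 ≠ 1 := by
        intro h4
        have := orderOf_dvd_of_pow_eq_one h4
        rw [hordg] at this
        have := Nat.le_of_dvd (by norm_num) this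
        have : 8 ≤ 2 ^ (k + 3) := by rw [pow_add]; norm_num; exact Nat.one_le_two_pow
        omega
      have h2 : (2 : ZMod q) = 0 := by linear_combination -h
      apply hg8
      have hq2 : q ∣ 2 := (ZMod.natCast_eq_zero_iff 2 q).mp (by exact_mod_cast h2)
      have := Nat.le_of_dvd (by norm_num) hq2
      have : 8 ≤ 2 ^ (k + 3) := by rw [pow_add]; norm_num; exact Nat.one_le_two_pow
      omega
    have hd4 : d ^ 4 ≠ 1 := by
      intro h4
      have := orderOf_dvd_of_pow_eq_one h4
      rw [hdo] at this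
      have := Nat.le_of_dvd (by norm_num) this
      have : 8 ≤ 2 ^ (k + 2 + 1) := by
        rw [show k + 2 + 1 = k + 3 by omega, pow_add]; norm_num; exact Nat.one_le_two_pow
      omega
    let Diag : T → Prop := fun g => ∀ h : T, h ^ 4 ≠ 1 → g * h = h * g
    have diag_iff : ∀ g : T, Diag g ↔ ∃ a s : ZMod q, a ≠ 0 ∧ (s = 1 ∨ s = -1) ∧ IsD a s (g : L q) := by
      intro g
      constructor
      · intro hg
        obtain ⟨a, s, ha, hs, h | h⟩ := cases' g
        · exact ⟨a, s, ha, hs, h⟩
        · exfalso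
          have he : ((g * d : T) : L q) = ((d * g : T) : L q) := congrArg Subtype.val (hg d hd4)
          have h1 := h.mulD hd
          have h2 := hd.mulO (Or.inl rfl) h
          rw [mul_one] at h2
          rw [Subgroup.coe_mul, Subgroup.coe_mul] at he
          rw [← he] at h2
          have e := (h1.inj (mul_ne_zero ha hg0n) h2).1
          have e1 : g0 = g0⁻¹ := mul_left_cancel₀ ha e
          have e2 : g0 ^ 2 = 1 := by
            rw [pow_two]; nth_rewrite 2 [e1]; exact mul_inv_cancel₀ hg0n
          apply hd4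
          have h4 := hd.pow 4
          rw [one_pow, show (4 : ℕ) = 2 * 2 by rfl, pow_mul, e2, one_pow] at h4
          exact Subtype.ext (h4.ext' isD_one)
      · rintro ⟨a, s, ha, hs, hg⟩ h hh
        obtain ⟨b, t, hb, ht, h' | h'⟩ := cases' h
        · refine Subtype.ext ((hg.mul h').ext' ?_)
          have := h'.mul hg
          rwa [mul_comm b a, mul_comm t s] at this
        · exfalso
          apply hh
          have h2 := (hOsq hb ht h').pow 2
          rw [one_pow, pow_two t, sq_sign t ht, ← Subgroup.coe_pow, ← pow_mul] at h2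
          exact Subtype.ext (h2.ext' isD_one)
    have Diag_inv : ∀ g : T, Diag g → Diag (α g) := by
      intro g hg h hh
      have := hg (α.symm h) (by
        intro e
        apply hh
        rw [← α.apply_symm_apply h, ← map_pow, e, map_one])
      have := congrArg α this
      rwa [map_mul, map_mul, α.apply_symm_apply] at this
    have Diag_symm : ∀ g : T, Diag (α g) → Diag g := by
      intro g hg h hh
      have := hg (α h) (by rw [← map_pow, ← map_one α]; exact α.injective.ne hh)
      exact α.injective (by rw [map_mul, map_mul, this])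
    have R_iff : ∀ g : T, (g ^ 2 = 1 ∧ ¬ Diag g) ↔ ∃ a, a ≠ 0 ∧ IsO a (1 : ZMod q) (g : L q) := by
      intro g
      constructor
      · rintro ⟨h2, hnd⟩
        obtain ⟨a, s, ha, hs, h | h⟩ := cases' g
        · exact absurd ((diag_iff g).mpr ⟨a, s, ha, hs, h⟩) hnd
        · rcases hs with rfl | rfl
          · exact ⟨a, ha, h⟩
          · exfalso
            have := hOsq ha (Or.inr rfl) h
            rw [h2] at this
            exact hneg (this.inj (by simp) isD_one).1
      · rintro ⟨a, ha, h⟩
        refine ⟨Subtype.ext ((hOsq ha (Or.inl rfl) h).ext' isD_one), fun hd' => ?_⟩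
        obtain ⟨b, t, hb, -, h'⟩ := (diag_iff g).mp hd'
        exact h'.not_isO hb h
    have R_inv : ∀ g : T, (∃ a, a ≠ 0 ∧ IsO a (1 : ZMod q) (g : L q)) →
        ∃ a, a ≠ 0 ∧ IsO a (1 : ZMod q) ((α g : T) : L q) := by
      intro g hg
      obtain ⟨h2, hnd⟩ := (R_iff g).mpr hg
      exact (R_iff _).mp ⟨by rw [← map_pow, h2, map_one], fun h => hnd (Diag_symm g h)⟩
    have hr : ∃ a, a ≠ 0 ∧ IsO a (1 : ZMod q) (r : L q) := ⟨1, one_ne_zero, hsw⟩
    have hrd : ∃ a, a ≠ 0 ∧ IsO a (1 : ZMod q) ((r * d : T) : L q) := by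
      refine ⟨1 * g0, by simpa using hg0n, ?_⟩
      have := hsw.mulD hd
      rwa [one_mul (1 : ZMod q)] at this
    obtain ⟨a1, ha1, h1⟩ := R_inv r hr
    obtain ⟨a2, ha2, h2⟩ := R_inv (r * d) hrd
    have hrr : r * r = 1 := Subtype.ext (((hsw.mulO (Or.inl rfl) hsw).ext'
      (by simpa using isD_one (q := q))))
    obtain ⟨n, hn⟩ : ∃ n : ℕ, α d = d ^ n := by
      refine D0pow (mul_ne_zero (mul_ne_zero one_ne_zero ha2) (inv_ne_zero ha1)) (a := 1 * a2 * a1⁻¹) ?_
      have := h1.mulO (Or.inl rfl) h2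
      rw [mul_one] at this
      have e : α r * α (r * d) = α d := by rw [← map_mul, ← mul_assoc, hrr, one_mul]
      rw [← e, Subgroup.coe_mul]
      exact this
    have hdfix : α d = d := fixed_of_cyclic hp hp2 α hα hdo hn
    have hdn : ∀ j : ℕ, α (d ^ j) = d ^ j := fun j => by rw [map_pow, hdfix]
    have hrfix : α r = r := by
      obtain ⟨e, he⟩ := mkD a1 1 ha1 (Or.inl rfl)
      obtain ⟨j, rfl⟩ := D0pow ha1 he
      refine fixed_of_shift hp hp2 α hα (k := k + 3 + 2) (hT2 _) (hdn j) (Subtype.ext (h1.ext' ?_))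
      have := hsw.mulD he
      rwa [one_mul, one_mul] at this
    have hzfix : α z = z := by
      obtain ⟨a, s, ha, hs, h⟩ := (diag_iff _).mp
        (Diag_inv z ((diag_iff z).mpr ⟨1, -1, one_ne_zero, Or.inr rfl, hz⟩))
      obtain ⟨e, he⟩ := mkD a 1 ha (Or.inl rfl)
      obtain ⟨j, rfl⟩ := D0pow ha he
      rcases hs with rfl | rfl
      · exfalso
        have hzj : z = d ^ j := α.injective ((Subtype.ext (h.ext' he)).trans (hdn j).symm)
        rw [← hzj] at he
        exact hneg (hz.inj one_ne_zero he).2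
      · refine fixed_of_shift hp hp2 α hα (k := k + 3 + 2) (hT2 _) (hdn j) (Subtype.ext (h.ext' ?_))
        have := hz.mul he
        rwa [one_mul, mul_one] at this
    refine MulEquiv.ext fun g => ?_
    rw [MulAut.one_apply]
    obtain ⟨a, ha, e, he, h⟩ := gen g
    obtain ⟨j, rfl⟩ := D0pow ha he
    rcases h with rfl | rfl | rfl | rfl <;> simp only [map_mul, hdn, hzfix, hrfix]

end

/-- A finite group without elements of odd prime order is a 2-group. -/
theorem isPGroup_two {A : Type*} [Group A] [Finite A]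
    (h : ∀ p : ℕ, p.Prime → p ≠ 2 → ∀ a : A, a ^ p = 1 → a = 1) : IsPGroup 2 A := by
  refine IsPGroup.of_card (n := (Nat.card A).primeFactorsList.length) ?_
  refine Nat.eq_prime_pow_of_unique_prime_dvd Nat.card_pos.ne' fun {d} hd hdvd => ?_
  by_contra hne
  haveI := Fact.mk hd
  obtain ⟨a, ha⟩ := exists_prime_orderOf_dvd_card' d hdvd
  have h1 := h d hd hne a (ha ▸ pow_orderOf_eq_one a)
  rw [h1, orderOf_one] at ha
  exact hd.one_lt.ne ha

/-- Let q = 2^m + 1 be a prime other than 5. Then the automorphism group of the group of linear maps of F_q² of the forms (x, y) ↦ (a x, ± a⁻¹ y) and (x, y) ↦ (± a⁻¹ y, a x) with a ≠ 0 is itself a 2-group. -/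
theorem result (q m : ℕ) [Fact q.Prime] (hq : q = 2 ^ m + 1) (hq5 : q ≠ 5)
    (T : Subgroup ((Fin 2 → ZMod q) ≃ₗ[ZMod q] (Fin 2 → ZMod q)))
    (hT : ∀ f, f ∈ T ↔ ∃ a s : ZMod q, a ≠ 0 ∧ (s = 1 ∨ s = -1) ∧
      ((∀ v, f v = ![a * v 0, s * a⁻¹ * v 1]) ∨ (∀ v, f v = ![s * a⁻¹ * v 1, a * v 0]))) :
    IsPGroup 2 (MulAut T) := by
  haveI : Finite T := by
    haveI : NeZero q := ⟨(Fact.out : q.Prime).ne_zero⟩
    haveI : Finite ((Fin 2 → ZMod q) ≃ₗ[ZMod q] (Fin 2 → ZMod q)) := DFunLike.finite _
    infer_instance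
  haveI : Finite (MulAut T) := DFunLike.finite _
  exact isPGroup_two fun p hp hp2 α hα => no_odd m hq hq5 T hT hp hp2 α hα

end Cfsg.Agent.S3382
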