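import Cfsg.Statements.S3383
import Cfsg.Agent.H21.FrobeniusStructure

set_option autoImplicit false
open Cfsg

namespace Cfsg.Agent.S3383

/-- Let H be a Frobenius complement in a finite group L and K the Frobenius kernel (as a subgroup). Then K is characteristic in L, and every normal subgroup of L either contains K or is contained in K. -/
theorem result {L : Type*} [Group L] [Finite L]
    (H : Subgroup L) (hH : Cfsg.IsFrobeniusComplement H)
    (K : Subgroup L) (hK : (K : Set L) = Cfsg.frobeniusKernel H) :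
    K.Characteristic ∧ ∀ N : Subgroup L, N.Normal → K ≤ N ∨ N ≤ K := by
  classical
  obtain ⟨K', hK', hKn, hKc⟩ := Cfsg.Agent.H21.exists_kernel hH
  obtain rfl : K = K' := SetLike.coe_injective (hK.trans hK'.symm)
  haveI := hKn
  have hcomp : ∀ N : Subgroup L, N.Normal → K ≤ N ∨ N ≤ K := by
    intro N hN
    by_cases hall : ∀ x ∈ N, x ∈ K
    · exact Or.inr hall
    refine Or.inl ?_
    push Not at hall
    obtain ⟨x₀, hx₀N, hx₀K⟩ := hall
    have hx₀ : x₀ ∉ Cfsg.frobeniusKernel H := by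
      rw [← hK]; exact hx₀K
    simp only [Cfsg.frobeniusKernel, Set.mem_setOf_eq, not_or, not_forall, not_not] at hx₀
    obtain ⟨hne, g, hg⟩ := hx₀
    rw [Subgroup.mem_pointwise_smul_iff_inv_smul_mem] at hg
    set x := g⁻¹ * x₀ * g with hx
    have hxH : x ∈ H := by
      rw [← map_inv, MulAut.smul_def, MulAut.conj_apply, inv_inv] at hg
      exact hg
    have hxN : x ∈ N := by
      have := hN.conj_mem x₀ hx₀N g⁻¹
      rwa [inv_inv] at this
    have hx1 : x ≠ 1 := by
      intro h
      apply hne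
      have : g * x * g⁻¹ = x₀ := by rw [hx]; group
      rw [← this, h]; group
    let f : K → K := fun k => ⟨x * k * x⁻¹ * (k : L)⁻¹,
      mul_mem (hKn.conj_mem _ k.2 x) (inv_mem k.2)⟩
    have hf : Function.Injective f := by
      intro a b hab
      have h : x * (a : L) * x⁻¹ * (a : L)⁻¹ = x * b * x⁻¹ * (b : L)⁻¹ := congrArg Subtype.val hab
      have h2 : x * ((b : L)⁻¹ * a) = ((b : L)⁻¹ * a) * x := by
        calc x * ((b : L)⁻¹ * a) = x * (b : L)⁻¹ * (x⁻¹ * (x * a * x⁻¹ * (a : L)⁻¹) * (a : L)) * x := by group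
          _ = _ := by rw [h]; group
      have h3 : (b : L)⁻¹ * a ∈ K ⊓ H :=
        Subgroup.mem_inf.2 ⟨mul_mem (inv_mem b.2) a.2, Cfsg.Agent.H21.fc_mem_of_commute hH hxH hx1 h2⟩
      rw [hKc.disjoint.eq_bot, Subgroup.mem_bot] at h3
      exact Subtype.ext (inv_mul_eq_one.1 h3).symm
    intro k hk
    obtain ⟨a, ha⟩ := (Finite.injective_iff_surjective.1 hf) ⟨k, hk⟩
    have ha' : x * (a : L) * x⁻¹ * (a : L)⁻¹ = k := congrArg Subtype.val ha
    rw [← ha', mul_assoc (x * (a : L)), mul_assoc x]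
    exact mul_mem hxN (by simpa [mul_assoc] using hN.conj_mem _ (inv_mem hxN) (a : L))
  refine ⟨⟨fun φ => ?_⟩, hcomp⟩
  have hn : (K.comap φ.toMonoidHom).Normal := hKn.comap _
  have hcard : Nat.card (K.comap φ.toMonoidHom) = Nat.card K :=
    Nat.card_congr (φ.toEquiv.subtypeEquiv fun s => Iff.rfl)
  rcases hcomp _ hn with h | h
  · exact (Subgroup.eq_of_le_of_card_ge h hcard.le).symm
  · exact Subgroup.eq_of_le_of_card_ge h hcard.ge

end Cfsg.Agent.S3383
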