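import Cfsg.Statements.S3430
import Cfsg.Agent.H91.Small.PrimitivePart

set_option autoImplicit false
open Cfsg Cfsg.Agent

namespace Cfsg.Agent.S3430

theorem exists_primitive_part (q e : ℕ) (hq2 : 2 ≤ q) (he : 3 ≤ e)
    (hne : (q, e) ∉ [(2, 6), (2, 4), (2, 10), (2, 12), (2, 18), (3, 4), (3, 6), (5, 6), (2, 3), (2, 8), (2, 20), (4, 3), (4, 6)]) :
    ∃ m : ℕ, m ∣ q ^ e - 1 ∧ (∀ i : ℕ, 1 ≤ i → i < e → Nat.Coprime m (q ^ i - 1)) ∧ 3 * e + 1 ≤ m := by
    simp only [List.mem_cons, List.not_mem_nil, or_false, Prod.mk.injEq] at hne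
    by_cases hS : e ∈ ([3, 4, 5, 6, 7, 8, 9, 10, 12, 14, 15, 16, 18, 20, 22, 24, 30] : List ℕ)
    · simp only [List.mem_cons, List.not_mem_nil, or_false] at hS
      rcases hS with rfl | rfl | rfl | rfl | rfl | rfl | rfl | rfl | rfl | rfl | rfl | rfl | rfl | rfl | rfl | rfl | rfl
      · exact H91.PrimitivePart.primitive_3 q hq2 (fun h => hne (by subst h; norm_num)) (fun h => hne (by subst h; norm_num))
      · exact H91.PrimitivePart.primitive_4 q hq2 (fun h => hne (by subst h; norm_num)) (fun h => hne (by subst h; norm_num))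
      · exact H91.PrimitivePart.primitive_5 q hq2
      · exact H91.PrimitivePart.primitive_6 q hq2 (fun h => hne (by subst h; norm_num)) (fun h => hne (by subst h; norm_num)) (fun h => hne (by subst h; norm_num)) (fun h => hne (by subst h; norm_num))
      · exact H91.PrimitivePart.primitive_7 q hq2
      · exact H91.PrimitivePart.primitive_8 q hq2 (fun h => hne (by subst h; norm_num))
      · exact H91.PrimitivePart.primitive_9 q hq2
      · exact H91.PrimitivePart.primitive_10 q hq2 (fun h => hne (by subst h; norm_num))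
      · exact H91.PrimitivePart.primitive_12 q hq2 (fun h => hne (by subst h; norm_num))
      · exact H91.PrimitivePart.primitive_14 q hq2
      · exact H91.PrimitivePart.primitive_15 q hq2
      · exact H91.PrimitivePart.primitive_16 q hq2
      · exact H91.PrimitivePart.primitive_18 q hq2 (fun h => hne (by subst h; norm_num))
      · exact H91.PrimitivePart.primitive_20 q hq2 (fun h => hne (by subst h; norm_num))
      · exact H91.PrimitivePart.primitive_22 q hq2
      · exact H91.PrimitivePart.primitive_24 q hq2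
      · exact H91.PrimitivePart.primitive_30 q hq2
    · refine H91.PrimitivePart.primitive_of_le he hq2 (H91.PrimitivePart.check_mono 2 hq2 ?_)
      rcases Nat.lt_or_ge e 171 with h | h
      · exact (H91.PrimitivePart.small_check e h he).resolve_left hS
      · exact H91.PrimitivePart.big_check h

/-- Let q, n ≥ 2 be integers. Unless (n = 2 and q + 1 = 2^s·3^t for some s ≥ 0 and t ≤ 1), or (q = 2 and n ∈ {4, 6, 10, 12, 18}), or (q = 3 and n ∈ {4, 6}), or (q, n) = (5, 6), there is a prime p dividing q^n − 1 but no q^i − 1 with 1 ≤ i < n (a primitive prime divisor), such that p > n + 1 or p² divides q^n − 1. -/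
theorem result (q n : ℕ) (hq : 2 ≤ q) (hn : 2 ≤ n)
    (h1 : ¬ (n = 2 ∧ ∃ s t : ℕ, t ≤ 1 ∧ q + 1 = 2 ^ s * 3 ^ t))
    (h2 : ¬ (q = 2 ∧ (n = 4 ∨ n = 6 ∨ n = 10 ∨ n = 12 ∨ n = 18)))
    (h3 : ¬ (q = 3 ∧ (n = 4 ∨ n = 6))) (h4 : ¬ (q = 5 ∧ n = 6)) :
    ∃ p : ℕ, p.Prime ∧ p ∣ q ^ n - 1 ∧ (∀ i : ℕ, 1 ≤ i → i < n → ¬ p ∣ q ^ i - 1) ∧ (n + 1 < p ∨ p ^ 2 ∣ q ^ n - 1) := by
  rcases eq_or_lt_of_le hn with rfl | hn3
  · -- `n = 2`
    have h12 : ¬ (∃ s t : ℕ, t ≤ 1 ∧ q + 1 = 2 ^ s * 3 ^ t) := fun h => h1 ⟨rfl, h⟩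
    have hsq : q ^ 2 - 1 = (q + 1) * (q - 1) := Nat.sq_sub_sq q 1
    have hprim : ∀ p : ℕ, p ∣ q + 1 → 3 ≤ p → ∀ i : ℕ, 1 ≤ i → i < 2 → ¬ p ∣ q ^ i - 1 := by
      intro p hp hp3 i hi hi2 hd
      obtain rfl : i = 1 := by omega
      rw [pow_one] at hd
      have := Nat.le_of_dvd two_pos (show p ∣ 2 by
        have := Nat.dvd_sub hp hd
        rwa [show q + 1 - (q - 1) = 2 by omega] at this)
      omega
    by_cases h9 : 9 ∣ q + 1
    · refine ⟨3, Nat.prime_three, ?_, hprim 3 (dvd_trans ⟨3, rfl⟩ h9) le_rfl, Or.inr ?_⟩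
      · rw [hsq]; exact dvd_mul_of_dvd_left (dvd_trans ⟨3, rfl⟩ h9) _
      · rw [hsq]; exact dvd_mul_of_dvd_left (by simpa using h9) _
    obtain ⟨p, hp, hpd, hp5⟩ : ∃ p, p.Prime ∧ p ∣ q + 1 ∧ 3 < p := by
      by_contra hno
      push Not at hno
      have hq1 : q + 1 ≠ 0 := by omega
      refine h12 ⟨(q + 1).factorization 2, (q + 1).factorization 3, ?_, ?_⟩
      · by_contra h
        exact h9 ((Nat.prime_three.pow_dvd_iff_le_factorization hq1).mpr (show 2 ≤ _ by omega))
      · refine Nat.eq_of_factorization_eq hq1 (by positivity) fun r => ?_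
        rw [Nat.factorization_mul (by positivity) (by positivity), Nat.prime_two.factorization_pow,
          Nat.prime_three.factorization_pow, Finsupp.add_apply]
        by_cases hr2 : r = 2
        · subst hr2; simp
        by_cases hr3 : r = 3
        · subst hr3; simp
        simp only [Finsupp.single_eq_of_ne hr2, Finsupp.single_eq_of_ne hr3, add_zero]
        by_contra h
        have hr : r.Prime := Nat.prime_of_mem_primeFactors (Finsupp.mem_support_iff.mpr h)
        have := hno r hr (Nat.dvd_of_factorization_pos h)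
        have := hr.two_le
        omega
    exact ⟨p, hp, hsq ▸ dvd_mul_of_dvd_left hpd _, hprim p hpd (by omega), Or.inl (by omega)⟩
  have hord : ∀ p : ℕ, p.Prime → p ∣ q ^ n - 1 → (∀ i : ℕ, 1 ≤ i → i < n → ¬ p ∣ q ^ i - 1) →
      n + 1 ≤ p := by
    intro p hp hd hprim
    haveI := Fact.mk hp
    have hcast : ∀ i, p ∣ q ^ i - 1 ↔ ((q : ZMod p)) ^ i = 1 := fun i => by
      rw [← ZMod.natCast_eq_zero_iff, Nat.cast_sub (Nat.one_le_pow _ _ (by omega)), sub_eq_zero,
        Nat.cast_pow, Nat.cast_one]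
    have hq0 : (q : ZMod p) ≠ 0 := fun h0 => by
      have := (hcast n).mp hd
      rw [h0, zero_pow (by omega)] at this
      exact zero_ne_one this
    have h1' := orderOf_dvd_of_pow_eq_one ((hcast n).mp hd)
    have h2' := ZMod.orderOf_dvd_card_sub_one hq0
    have h3' : orderOf (q : ZMod p) = n := by
      by_contra hne
      have hlt := lt_of_le_of_ne (Nat.le_of_dvd (by omega) h1') hne
      exact hprim _ (Nat.pos_of_dvd_of_pos h1' (by omega)) hlt ((hcast _).mpr (pow_orderOf_eq_one _))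
    rw [h3'] at h2'
    have := Nat.le_of_dvd (by have := hp.two_le; omega) h2'
    omega
  by_cases hex : (q, n) ∈ [(2, 3), (2, 8), (2, 20), (4, 3), (4, 6)]
  · have hw : ∃ p : ℕ, p.Prime ∧ p ∣ q ^ n - 1 ∧ (∀ i < n, i = 0 ∨ ¬ p ∣ q ^ i - 1) ∧ n + 1 < p := by
      simp only [List.mem_cons, List.not_mem_nil, or_false, Prod.mk.injEq] at hex
      rcases hex with ⟨rfl, rfl⟩ | ⟨rfl, rfl⟩ | ⟨rfl, rfl⟩ | ⟨rfl, rfl⟩ | ⟨rfl, rfl⟩
      · exact ⟨7, by norm_num, by norm_num, by decide +kernel, by norm_num⟩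
      · exact ⟨17, by norm_num, by norm_num, by decide +kernel, by norm_num⟩
      · exact ⟨41, by norm_num, by norm_num, by decide +kernel, by norm_num⟩
      · exact ⟨7, by norm_num, by norm_num, by decide +kernel, by norm_num⟩
      · exact ⟨13, by norm_num, by norm_num, by decide +kernel, by norm_num⟩
    obtain ⟨p, hp, hd, hi, hlt⟩ := hw
    exact ⟨p, hp, hd, fun i h1i hin => (hi i hin).resolve_left (by omega), Or.inl hlt⟩
  obtain ⟨m, hm, hcop, hbig⟩ := exists_primitive_part q n hq hn3 (fun hmem => by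
    simp only [List.mem_cons, List.not_mem_nil, or_false, Prod.mk.injEq] at hmem hex
    omega)
  have hprim : ∀ p : ℕ, p.Prime → p ∣ m → ∀ i : ℕ, 1 ≤ i → i < n → ¬ p ∣ q ^ i - 1 :=
    fun p hp hpm i hi hin hd => hp.not_dvd_one ((hcop i hi hin).gcd_eq_one ▸ Nat.dvd_gcd hpm hd)
  by_cases hbigp : ∃ p, p.Prime ∧ p ∣ m ∧ n + 1 < p
  · obtain ⟨p, hp, hpm, hlt⟩ := hbigp
    exact ⟨p, hp, hpm.trans hm, hprim p hp hpm, Or.inl hlt⟩
  push Not at hbigp
  have huniq : ∀ {p : ℕ}, p.Prime → p ∣ m → p = n + 1 := fun {p} hp hpm =>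
    le_antisymm (hbigp p hp hpm) (hord p hp (hpm.trans hm) (hprim p hp hpm))
  have hm0 : m ≠ 0 := by omega
  have hpow := Nat.eq_prime_pow_of_unique_prime_dvd hm0 huniq
  obtain ⟨p, hp, hpm⟩ := Nat.exists_prime_and_dvd (show m ≠ 1 by omega)
  have hpn := huniq hp hpm
  refine ⟨p, hp, hpm.trans hm, hprim p hp hpm, Or.inr (dvd_trans ?_ hm)⟩
  rw [hpow, hpn]
  refine pow_dvd_pow _ ?_
  by_contra h
  have h5 : m ≤ (n + 1) ^ 1 := hpow.le.trans (Nat.pow_le_pow_right (by omega) (by omega))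
  rw [pow_one] at h5
  omega

end Cfsg.Agent.S3430
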