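import Cfsg.Statements.S3431
import Cfsg.Agent.H80.OrderTypeAlt.Main

set_option autoImplicit false
open Cfsg

namespace Cfsg.Agent.S3431

/-- Let n be 4, 5 or 6 and let G be a finite group whose set of sizes of same-order classes (the set of numbers #{g : o(g) = m} over the element orders m of G) equals that of the alternating group of degree n. Then G is isomorphic to that alternating group. -/
theorem result {G : Type*} [Group G] [Finite G] (n : ℕ) (hn : n = 4 ∨ n = 5 ∨ n = 6)
    (h : ((fun m : ℕ => Nat.card {g : G // orderOf g = m}) '' Set.range (orderOf : G → ℕ)) = ((fun m : ℕ => Nat.card {g : ↥(alternatingGroup (Fin n)) // orderOf g = m}) '' Set.range (orderOf : ↥(alternatingGroup (Fin n)) → ℕ))) :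
    Nonempty (G ≃* ↥(alternatingGroup (Fin n))) := by
  rcases hn with rfl | rfl | rfl
  · refine H80.OrderTypeAlt.four (h.trans ?_)
    show H80.OrderTypeAlt.sizeSet ↥(alternatingGroup (Fin 4)) = _
    rw [H80.OrderTypeAlt.sizeSet_alternating H80.OrderTypeAlt.smallCounts_four
      H80.OrderTypeAlt.exponent_four]
    ext v
    simp
    omega
  · refine H80.OrderTypeAlt.five (h.trans ?_)
    show H80.OrderTypeAlt.sizeSet ↥(alternatingGroup (Fin 5)) = _
    rw [H80.OrderTypeAlt.sizeSet_alternating H80.OrderTypeAlt.smallCounts_five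
      H80.OrderTypeAlt.exponent_five]
    ext v
    simp
    omega
  · refine H80.OrderTypeAlt.six (h.trans ?_)
    show H80.OrderTypeAlt.sizeSet ↥(alternatingGroup (Fin 6)) = _
    rw [H80.OrderTypeAlt.sizeSet_alternating H80.OrderTypeAlt.smallCounts_six
      H80.OrderTypeAlt.exponent_six]
    ext v
    simp
    omega

end Cfsg.Agent.S3431
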