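import Cfsg.Statements.S3704
-- import your own Cfsg.Agent.* helpers here

set_option autoImplicit false
open Cfsg

namespace Cfsg.Agent.S3704

open Finset

/-- An index-`n` subgroup of a doubly transitive group of degree `n` has at most two orbits. -/
theorem orbits_le_two {G Ω : Type*} [Group G] [Finite G] [MulAction G Ω] [Finite Ω]
    (h2 : MulAction.IsMultiplyPretransitive G Ω 2) (H : Subgroup G)
    (hidx : H.index = Nat.card Ω) : Nat.card (MulAction.orbitRel.Quotient H Ω) ≤ 2 := by
  classical
  by_contra hr
  haveI : Fintype Ω := Fintype.ofFinite Ω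
  haveI : Fintype (G ⧸ H) := Fintype.ofFinite _
  haveI : Fintype (MulAction.orbitRel.Quotient H Ω) := Fintype.ofFinite _
  rw [Nat.card_eq_fintype_card] at hr hidx
  set n := Fintype.card Ω with hn
  have hX : Fintype.card (G ⧸ H) = n := by
    rw [← hidx, Subgroup.index, Nat.card_eq_fintype_card]
  let cls : Ω → MulAction.orbitRel.Quotient H Ω := fun a => Quotient.mk'' a
  have hcls : Function.Surjective cls := Quotient.mk''_surjective
  let c : G ⧸ H → Ω → MulAction.orbitRel.Quotient H Ω := fun x a => cls (x.out⁻¹ • a)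
  have hc : ∀ (g : G) (x : G ⧸ H) (a : Ω), c (g • x) (g • a) = c x a := by
    intro g x a
    have hx : ((g * x.out : G) : G ⧸ H) = g • x := by
      conv_rhs => rw [← QuotientGroup.out_eq' x]
      rfl
    obtain ⟨h, hh⟩ := QuotientGroup.mk_out_eq_mul H (g * x.out)
    rw [hx] at hh
    simp only [c, cls, hh, mul_inv_rev, mul_smul, inv_smul_smul]
    exact Quotient.sound' ⟨h⁻¹, rfl⟩
  let k : MulAction.orbitRel.Quotient H Ω → ℕ := fun i => #{a : Ω | cls a = i}
  have hk : ∀ x i, #{a : Ω | c x a = i} = k i := fun x i =>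
    Finset.card_equiv (MulAction.toPerm x.out⁻¹) (by simp [c])
  have hk0 : ∀ i, 0 < k i := fun i => by
    obtain ⟨a, ha⟩ := hcls i
    exact Finset.card_pos.mpr ⟨a, by simp [ha]⟩
  let N : MulAction.orbitRel.Quotient H Ω → MulAction.orbitRel.Quotient H Ω → Ω → Ω → ℕ :=
    fun i j a b => #{x : G ⧸ H | c x a = i ∧ c x b = j}
  have hN : ∀ (g : G) i j a b, N i j (g • a) (g • b) = N i j a b := fun g i j a b =>
    Finset.card_equiv (MulAction.toPerm g⁻¹) (by
      intro x
      simp only [mem_filter, mem_univ, true_and, MulAction.toPerm_apply]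
      rw [← hc g (g⁻¹ • x) a, ← hc g (g⁻¹ • x) b, smul_inv_smul])
  haveI := h2
  haveI : MulAction.IsPretransitive G Ω := MulAction.isPretransitive_of_is_two_pretransitive
  let D : MulAction.orbitRel.Quotient H Ω → Ω → ℕ := fun i a => #{x : G ⧸ H | c x a = i}
  have hD : ∀ i a, D i a = k i := by
    intro i a
    have hconst : ∀ b, D i b = D i a := fun b => by
      obtain ⟨g, rfl⟩ := MulAction.exists_smul_eq G a b
      exact Finset.card_equiv (MulAction.toPerm g⁻¹) (by
        intro x
        simp only [mem_filter, mem_univ, true_and, MulAction.toPerm_apply]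
        rw [← hc g (g⁻¹ • x) a, smul_inv_smul])
    have hswap : ∑ b : Ω, D i b = ∑ x : G ⧸ H, #{b : Ω | c x b = i} := by
      simp only [D, Finset.card_filter]
      exact Finset.sum_comm
    simp only [hk, hconst, Finset.sum_const, Finset.card_univ, hX, smul_eq_mul] at hswap
    exact Nat.eq_of_mul_eq_mul_left (Fintype.card_pos_iff.mpr ⟨a⟩) hswap
  have hrow : ∀ i j a, ∑ b, N i j a b = k i * k j := by
    intro i j a
    have hswap : ∑ b, N i j a b =
        ∑ x : G ⧸ H, if c x a = i then #{b : Ω | c x b = j} else 0 := by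
      simp only [N, Finset.card_filter]
      rw [Finset.sum_comm]
      refine Finset.sum_congr rfl fun x _ => ?_
      by_cases hx : c x a = i <;> simp [hx]
    rw [hswap]
    simp only [hk]
    rw [← Finset.sum_filter, Finset.sum_const, smul_eq_mul, ← hD i a]
  have hdiag : ∀ i j a, N i j a a = if i = j then k i else 0 := by
    intro i j a
    by_cases hij : i = j
    · subst hij
      simp [N, ← hD i a, D]
    · rw [if_neg hij]
      simp only [N, Finset.card_eq_zero, Finset.filter_eq_empty_iff]
      rintro x - ⟨h1, h1'⟩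
      exact hij (h1.symm.trans h1')
  have hoff : ∀ i j a b, a ≠ b →
      ((n : ℚ) - 1) * N i j a b = k i * k j - (if i = j then (k i : ℚ) else 0) := by
    intro i j a b hab
    have hconst : ∀ b' ∈ univ.erase a, N i j a b' = N i j a b := fun b' hb' => by
      obtain ⟨g, hg1, hg2⟩ :=
        MulAction.is_two_pretransitive_iff.mp h2 hab (Finset.ne_of_mem_erase hb').symm
      have := hN g i j a b
      rwa [hg1, hg2] at this
    have := hrow i j a
    rw [← Finset.add_sum_erase _ _ (Finset.mem_univ a), Finset.sum_congr rfl hconst,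
      Finset.sum_const, Finset.card_erase_of_mem (Finset.mem_univ a), Finset.card_univ, hdiag,
      smul_eq_mul] at this
    have h1 : 1 ≤ n := Fintype.card_pos_iff.mpr ⟨a⟩
    have hq : ((if i = j then k i else 0 : ℕ) : ℚ) + ((n - 1 : ℕ) : ℚ) * N i j a b = k i * k j := by
      exact_mod_cast this
    rw [Nat.cast_sub h1] at hq
    push_cast at hq
    rw [← hq]
    ring
  have hkey : ∀ i j (f : Ω → ℚ), ∑ b, f b = 0 → ∀ a,
      ((n : ℚ) - 1) * ∑ x : G ⧸ H, (if c x a = j then ∑ b, (if c x b = i then f b else 0) else 0) =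
        ((n : ℚ) * (if j = i then (k j : ℚ) else 0) - k j * k i) * f a := by
    intro i j f hf a
    have : ∑ x : G ⧸ H, (if c x a = j then ∑ b, (if c x b = i then f b else 0) else 0) =
        ∑ b, (N j i a b : ℚ) * f b := by
      have hb : ∀ b, (N j i a b : ℚ) * f b =
          ∑ x : G ⧸ H, (if c x a = j then (if c x b = i then f b else 0) else 0) := fun b => by
        simp only [N, Finset.card_filter, Nat.cast_sum, Finset.sum_mul]
        refine Finset.sum_congr rfl fun x _ => ?_
        by_cases h1 : c x a = j <;> by_cases h2 : c x b = i <;> simp [h1, h2]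
      simp only [hb]
      rw [Finset.sum_comm (s := (univ : Finset Ω))]
      refine Finset.sum_congr rfl fun x _ => ?_
      by_cases h1 : c x a = j <;> simp [h1]
    rw [this, Finset.mul_sum, ← Finset.add_sum_erase _ _ (Finset.mem_univ a), hdiag]
    have hrest : ∀ b ∈ univ.erase a, ((n : ℚ) - 1) * ((N j i a b : ℚ) * f b) =
        ((k j : ℚ) * k i - (if j = i then (k j : ℚ) else 0)) * f b := fun b hb => by
      rw [← mul_assoc, hoff j i a b (Finset.ne_of_mem_erase hb).symm]
    rw [Finset.sum_congr rfl hrest, ← Finset.mul_sum]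
    have hsum : ∑ b ∈ univ.erase a, f b = - f a := by
      rw [← Finset.add_sum_erase _ _ (Finset.mem_univ a)] at hf
      linarith
    rw [hsum]
    push_cast
    ring
  obtain ⟨i, j, l, hij, hil, hjl⟩ := Fintype.two_lt_card_iff.mp (by omega :
    2 < Fintype.card (MulAction.orbitRel.Quotient H Ω))
  have hkn : k i + k j < n := by
    obtain ⟨a, ha⟩ := hcls l
    rw [← Finset.card_union_of_disjoint]
    · refine Finset.card_lt_card ((Finset.ssubset_univ_iff).mpr fun h => ?_)
      have := h ▸ Finset.mem_univ a
      simp [ha, hil.symm, hjl.symm] at this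
    · rw [Finset.disjoint_filter]
      intro x _ h1 h1'
      exact hij (h1.symm.trans h1')
  let T : MulAction.orbitRel.Quotient H Ω → (Ω → ℚ) →ₗ[ℚ] (G ⧸ H → ℚ) := fun i =>
    { toFun := fun f x => ∑ b, if c x b = i then f b else 0
      map_add' := fun f g => by
        funext x
        simp only [Pi.add_apply, ← Finset.sum_add_distrib]
        exact Finset.sum_congr rfl fun b _ => by split_ifs <;> simp
      map_smul' := fun r f => by
        funext x
        simp [Finset.mul_sum] }
  let S : (Ω → ℚ) →ₗ[ℚ] ℚ := ∑ b, LinearMap.proj b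
  have hS : ∀ f, S f = ∑ b, f b := fun f => by simp [S]
  let Ψ : (Ω → ℚ) × (Ω → ℚ) →ₗ[ℚ] (G ⧸ H → ℚ) × ℚ × ℚ :=
    ((T i).coprod (T j)).prod ((S.comp (LinearMap.fst ℚ _ _)).prod (S.comp (LinearMap.snd ℚ _ _)))
  have hinj : Function.Injective Ψ := by
    rw [injective_iff_map_eq_zero]
    rintro ⟨f, g⟩ h
    have h0 : T i f + T j g = 0 := congrArg Prod.fst h
    have hf : ∑ b, f b = 0 := (hS f).symm.trans (congrArg (fun p => p.2.1) h)
    have hg : ∑ b, g b = 0 := (hS g).symm.trans (congrArg (fun p => p.2.2) h)
    have hzero : ∀ a m, (∑ x : G ⧸ H, if c x a = m then ∑ b, (if c x b = i then f b else 0) else 0)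
        + (∑ x : G ⧸ H, if c x a = m then ∑ b, (if c x b = j then g b else 0) else 0) = 0 := by
      intro a m
      rw [← Finset.sum_add_distrib]
      refine Finset.sum_eq_zero fun x _ => ?_
      split_ifs
      · exact congrFun h0 x
      · simp
    have hfg : ∀ a, f a = 0 ∧ g a = 0 := by
      intro a
      have e1 := congrArg (((n : ℚ) - 1) * ·) (hzero a i)
      have e2 := congrArg (((n : ℚ) - 1) * ·) (hzero a j)
      simp only [mul_add, mul_zero, hkey i i f hf a, hkey j i g hg a] at e1
      simp only [mul_add, mul_zero, hkey i j f hf a, hkey j j g hg a] at e2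
      simp only [if_true, if_neg hij] at e1
      simp only [if_true, if_neg hij.symm] at e2
      have hi : (0 : ℚ) < k i := by exact_mod_cast hk0 i
      have hj : (0 : ℚ) < k j := by exact_mod_cast hk0 j
      have hlt : (k i : ℚ) + k j < n := by exact_mod_cast hkn
      have e1' : ((n : ℚ) - k i) * f a = k j * g a := by
        apply mul_left_cancel₀ hi.ne'
        linear_combination e1
      have e2' : ((n : ℚ) - k j) * g a = k i * f a := by
        apply mul_left_cancel₀ hj.ne'
        linear_combination e2
      have hdet : (n : ℚ) * ((n : ℚ) - k i - k j) * f a = 0 := by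
        linear_combination ((n : ℚ) - k j) * e1' + (k j : ℚ) * e2'
      have hfa : f a = 0 := by
        rcases mul_eq_zero.mp hdet with h | h
        · rcases mul_eq_zero.mp h with h | h <;> linarith
        · exact h
      rw [hfa, mul_zero] at e1'
      exact ⟨hfa, (mul_eq_zero.mp e1'.symm).resolve_left hj.ne'⟩
    exact Prod.ext (funext fun a => (hfg a).1) (funext fun a => (hfg a).2)
  have hdim := LinearMap.finrank_le_finrank_of_injective hinj
  simp only [Module.finrank_prod, Module.finrank_fintype_fun_eq_card, Module.finrank_self, hX] at hdim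
  have := hk0 i
  have := hk0 j
  omega

/-- Let G be a finite group acting faithfully and 2-transitively on a finite set Ω of size n, and let H be a subgroup of index n in G which is not transitive on Ω and fixes no point of Ω. Then H has exactly two orbits on Ω. -/
theorem result {G Ω : Type*} [Group G] [Finite G] [MulAction G Ω] [FaithfulSMul G Ω] [Finite Ω] (h2 : MulAction.IsMultiplyPretransitive G Ω 2) (H : Subgroup G) (hidx : H.index = Nat.card Ω) (hnt : ¬ MulAction.IsPretransitive H Ω) (hfix : ∀ a : Ω, ∃ h : H, h • a ≠ a) : Nat.card (MulAction.orbitRel.Quotient H Ω) = 2 := by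
  have hle := orbits_le_two h2 H hidx
  have hge : 2 ≤ Nat.card (MulAction.orbitRel.Quotient H Ω) := by
    by_contra h
    have hs : Subsingleton (MulAction.orbitRel.Quotient H Ω) :=
      Finite.card_le_one_iff_subsingleton.mp (by omega)
    exact hnt ((MulAction.pretransitive_iff_subsingleton_quotient H Ω).mpr hs)
  omega

end Cfsg.Agent.S3704
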