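import Cfsg.Statements.S3732
import Cfsg.Agent.H27.OW.Coord
import Cfsg.Agent.H27.OW.SmallField
-- import your own Cfsg.Agent.* helpers here

set_option autoImplicit false
open Cfsg

namespace Cfsg.Agent.S3732

/-- The Ostrom–Wagner Theorem. Let Π be a finite projective plane (points P, lines L) whose collineation group is 2-transitive on points: for any two ordered pairs of distinct points there is a permutation of the points, together with a compatible permutation of the lines preserving incidence, carrying the first pair to the second. Then Π is Desarguesian: there is a finite field F and a bijection from P onto the points of the projective plane over F (the 1-dimensional subspaces of F³) under which the lines of Π correspond exactly to the 2-dimensional subspaces of F³. -/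
theorem result
    {P L : Type*} [Membership P L] [Fintype P] [Fintype L] [Configuration.ProjectivePlane P L]
    (h2t : ∀ p₁ p₂ q₁ q₂ : P, p₁ ≠ p₂ → q₁ ≠ q₂ →
      ∃ (σ : Equiv.Perm P) (τ : Equiv.Perm L), (∀ (p : P) (l : L), σ p ∈ τ l ↔ p ∈ l) ∧ σ p₁ = q₁ ∧ σ p₂ = q₂) :
    ∃ (F : Type) (_ : Field F) (_ : Fintype F) (φ : P ≃ Projectivization F (Fin 3 → F)),
      (∀ l : L, ∃ W : Submodule F (Fin 3 → F), Module.finrank F W = 2 ∧
          ∀ p : P, p ∈ l ↔ (φ p).submodule ≤ W) ∧
      (∀ W : Submodule F (Fin 3 → F), Module.finrank F W = 2 →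
          ∃ l : L, ∀ p : P, p ∈ l ↔ (φ p).submodule ≤ W) := by
  classical
  have h2 : Cfsg.Agent.H27.OW.TwoTrans P L := by
    intro p q p' q' hpq hpq'
    obtain ⟨σ, τ, hinc, h1, h2⟩ := h2t p q p' q' hpq hpq'
    exact ⟨⟨(σ, τ), hinc⟩, h1, h2⟩
  obtain ⟨K, _, _, f, hf0, hfinj, hfsurj, hfline⟩ := Cfsg.Agent.H27.OW.coordinatise h2
  obtain ⟨F, _, _, ⟨e⟩⟩ := Cfsg.Agent.H27.OW.exists_small_field K
  let v : P → Fin 3 → F := fun p i => e (f p i)
  have hv0 : ∀ p, v p ≠ 0 := fun p h => hf0 p (funext fun i =>
    e.injective (by simpa [v] using congrFun h i))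
  have hinj : Function.Injective fun p => Projectivization.mk F (v p) (hv0 p) := by
    intro p q h
    obtain ⟨c, hc⟩ := (Projectivization.mk_eq_mk_iff' F _ _ _ _).1 h
    refine hfinj p q (e.symm c) (funext fun i => e.injective ?_)
    have := congrFun hc i
    simp only [Pi.smul_apply, smul_eq_mul, map_mul, RingEquiv.apply_symm_apply, v] at this ⊢
    exact this.symm
  have hsurj : Function.Surjective fun p => Projectivization.mk F (v p) (hv0 p) := by
    intro x
    induction x using Projectivization.ind with
    | h w hw =>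
      obtain ⟨p, c, hc⟩ := hfsurj (fun i => e.symm (w i)) (fun h => hw (funext fun i =>
        e.symm.injective (by simpa using congrFun h i)))
      refine ⟨p, ((Projectivization.mk_eq_mk_iff' F _ _ _ _).2 ⟨e c, funext fun i => ?_⟩).symm⟩
      have := congrArg e (congrFun hc i)
      simp only [Pi.smul_apply, smul_eq_mul, map_mul, RingEquiv.apply_symm_apply, v] at this ⊢
      exact this.symm
  let φ := Equiv.ofBijective _ ⟨hinj, hsurj⟩
  have key : ∀ l : L, ∃ W : Submodule F (Fin 3 → F), Module.finrank F W = 2 ∧
      ∀ p : P, p ∈ l ↔ (φ p).submodule ≤ W := by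
    intro l
    obtain ⟨w, hw, hl⟩ := hfline l
    let T : (Fin 3 → F) →ₗ[F] F := e (w 0) • LinearMap.proj 0 + e (w 1) • LinearMap.proj 1 +
      e (w 2) • LinearMap.proj 2
    have hT : ∀ x, T x = e (w 0) * x 0 + e (w 1) * x 1 + e (w 2) * x 2 := fun x => rfl
    refine ⟨LinearMap.ker T, ?_, fun p => ?_⟩
    · have hTs : Function.Surjective T := by
        refine LinearMap.surjective fun h => hw (funext fun i => e.injective ?_)
        have := LinearMap.congr_fun h (Pi.single i 1)
        rw [hT] at this
        fin_cases i <;> simpa using this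
      have := LinearMap.finrank_range_add_finrank_ker T
      rw [LinearMap.range_eq_top.2 hTs, finrank_top, Module.finrank_self, Module.finrank_fintype_fun_eq_card,
        Fintype.card_fin] at this
      omega
    · show _ ↔ (Projectivization.mk F (v p) (hv0 p)).submodule ≤ _
      rw [Projectivization.submodule_mk, Submodule.span_singleton_le_iff_mem, LinearMap.mem_ker, hT,
        hl p]
      simp only [v, ← map_mul, ← map_add, map_eq_zero]
  refine ⟨F, inferInstance, inferInstance, φ, key, fun W hW => ?_⟩
  have hpt : ∀ x ∈ W, x ≠ 0 → ∃ p : P, (φ p).submodule = Submodule.span F {x} := by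
    intro x _ hx
    exact ⟨φ.symm (Projectivization.mk F x hx), by rw [Equiv.apply_symm_apply, Projectivization.submodule_mk]⟩
  let b := Module.finBasisOfFinrankEq F W hW
  obtain ⟨p, hp⟩ := hpt _ (b 0).2 (fun h => b.ne_zero 0 (Subtype.ext h))
  obtain ⟨q, hq⟩ := hpt _ (b 1).2 (fun h => b.ne_zero 1 (Subtype.ext h))
  refine ⟨Cfsg.Agent.H27.OW.join p q, ?_⟩
  obtain ⟨W', hW', hl⟩ := key (Cfsg.Agent.H27.OW.join p q)
  have hpW := (hl p).1 (Cfsg.Agent.H27.OW.left_mem_join p q)
  have hqW := (hl q).1 (Cfsg.Agent.H27.OW.right_mem_join p q)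
  rw [hp, Submodule.span_singleton_le_iff_mem] at hpW
  rw [hq, Submodule.span_singleton_le_iff_mem] at hqW
  have hle : W ≤ W' := by
    intro x hx
    have h := b.sum_repr ⟨x, hx⟩
    rw [Fin.sum_univ_two] at h
    have h' := congrArg Subtype.val h
    simp only [Submodule.coe_add, Submodule.coe_smul] at h'
    rw [← h']
    exact add_mem (W'.smul_mem _ hpW) (W'.smul_mem _ hqW)
  have hWW : W = W' := Submodule.eq_of_le_of_finrank_eq hle (hW.trans hW'.symm)
  exact hWW ▸ hl

end Cfsg.Agent.S3732
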