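import Mathlib
import Cfsg.Statements.S3733

set_option autoImplicit false
open Cfsg

namespace Cfsg.Agent.S3733

/-- Let A and V be subgroups of a finite group with V abelian and nontrivial and A normalizing V. Suppose a nonempty finite family of proper subgroups of A partitions A: every non-identity element of A lies in exactly one member. If the number of members minus one is coprime to the order of V, then some member B of the family has a non-identity fixed point on V, that is V ∩ C(B) ≠ 1. -/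
theorem result {G : Type*} [Group G] [Finite G] (A V : Subgroup G) (hVab : IsMulCommutative V) (hV : V ≠ ⊥) (hAV : A ≤ Subgroup.normalizer (V : Set G)) (𝒜 : Finset (Subgroup G)) (hne : 𝒜.Nonempty) (hprop : ∀ B ∈ 𝒜, B < A) (hpart : ∀ a ∈ A, a ≠ 1 → ∃! B, B ∈ 𝒜 ∧ a ∈ B) (hk : (𝒜.card - 1).Coprime (Nat.card V)) : ∃ B ∈ 𝒜, V ⊓ Subgroup.centralizer (B : Set G) ≠ ⊥ := by
  classical
  haveI := Fintype.ofFinite G
  letI : CommGroup V := { (inferInstance : Group V) with mul_comm := hVab.is_comm.comm }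
  by_contra hcon
  simp only [not_exists, not_and, not_not] at hcon
  apply hV
  rw [eq_bot_iff]
  intro v hv
  let f : G → V := fun g =>
    if h : g ∈ A then ⟨g * v * g⁻¹, (Subgroup.mem_normalizer_iff.1 (hAV h) v).1 hv⟩ else 1
  have hf : ∀ g (hg : g ∈ A), ((f g : V) : G) = g * v * g⁻¹ := fun g hg => by simp [f, hg]
  -- products over subgroups are fixed points
  have hfix : ∀ B : Subgroup G, B ≤ A → ∀ c ∈ B,
      c * ((∏ b ∈ Finset.univ.filter (· ∈ B), f b : V) : G) * c⁻¹
        = ((∏ b ∈ Finset.univ.filter (· ∈ B), f b : V) : G) := by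
    intro B hB c hc
    let φ : V →* V :=
      { toFun := fun x => ⟨c * x * c⁻¹, (Subgroup.mem_normalizer_iff.1 (hAV (hB hc)) x).1 x.2⟩
        map_one' := by ext; simp
        map_mul' := fun x y => by ext; simp [mul_assoc] }
    have h1 : φ (∏ b ∈ Finset.univ.filter (· ∈ B), f b) = ∏ b ∈ Finset.univ.filter (· ∈ B), f b := by
      rw [map_prod]
      refine Finset.prod_bij' (fun b _ => c * b) (fun b _ => c⁻¹ * b) ?_ ?_ ?_ ?_ ?_
      · intro b hb; simp only [Finset.mem_filter, Finset.mem_univ, true_and] at hb ⊢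
        exact B.mul_mem hc hb
      · intro b hb; simp only [Finset.mem_filter, Finset.mem_univ, true_and] at hb ⊢
        exact B.mul_mem (B.inv_mem hc) hb
      · intro b hb; simp
      · intro b hb; simp
      · intro b hb
        simp only [Finset.mem_filter, Finset.mem_univ, true_and] at hb
        ext
        show c * (f b : G) * c⁻¹ = (f (c * b) : G)
        rw [hf b (hB hb), hf _ (hB (B.mul_mem hc hb))]
        group
    exact congrArg (Subtype.val) h1
  have hone : ∀ B ∈ 𝒜, ∀ S : Subgroup G, B ≤ S → S ≤ A →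
      (∏ b ∈ Finset.univ.filter (· ∈ S), f b) = 1 := by
    intro B hB S hBS hSA
    have hm : ((∏ b ∈ Finset.univ.filter (· ∈ S), f b : V) : G)
        ∈ V ⊓ Subgroup.centralizer (B : Set G) := by
      refine ⟨SetLike.coe_mem _, ?_⟩
      show _ ∈ Subgroup.centralizer (B : Set G)
      rw [Subgroup.mem_centralizer_iff]
      intro c hc
      exact mul_inv_eq_iff_eq_mul.1 (hfix S hSA c (hBS hc))
    rw [hcon B hB, Subgroup.mem_bot] at hm
    exact Subtype.ext hm
  let T : Subgroup G → Finset G := fun B => (Finset.univ.filter (· ∈ B)).erase 1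
  have hsplit : ∀ B : Subgroup G, (∏ b ∈ Finset.univ.filter (· ∈ B), f b) = f 1 * ∏ b ∈ T B, f b :=
    fun B => (Finset.mul_prod_erase _ f (by simp)).symm
  have hdisj : (𝒜 : Set (Subgroup G)).PairwiseDisjoint T := by
    intro B hB C hC hne
    rw [Function.onFun, Finset.disjoint_left]
    intro a haB haC
    simp only [T, Finset.mem_erase, Finset.mem_filter, Finset.mem_univ, true_and] at haB haC
    obtain ⟨D, -, hD⟩ := hpart a ((hprop B hB).le haB.2) haB.1
    exact hne ((hD B ⟨hB, haB.2⟩).trans (hD C ⟨hC, haC.2⟩).symm)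
  have hU : 𝒜.biUnion T = T A := by
    ext a
    simp only [T, Finset.mem_biUnion, Finset.mem_erase, Finset.mem_filter, Finset.mem_univ, true_and]
    constructor
    · rintro ⟨B, hB, h1, h2⟩; exact ⟨h1, (hprop B hB).le h2⟩
    · rintro ⟨h1, h2⟩
      obtain ⟨B, ⟨hB, hBa⟩, -⟩ := hpart a h2 h1
      exact ⟨B, hB, h1, hBa⟩
  obtain ⟨B₀, hB₀⟩ := hne
  have e1 : f 1 * ∏ b ∈ T A, f b = 1 := by
    rw [← hsplit]; exact hone B₀ hB₀ A (hprop B₀ hB₀).le le_rfl
  have e2 : f 1 ^ 𝒜.card * ∏ b ∈ T A, f b = 1 := by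
    have h : ∏ B ∈ 𝒜, (f 1 * ∏ b ∈ T B, f b) = 1 :=
      Finset.prod_eq_one fun B hB => by rw [← hsplit]; exact hone B hB B le_rfl (hprop B hB).le
    rwa [Finset.prod_mul_distrib, Finset.prod_const, ← Finset.prod_biUnion hdisj, hU] at h
  have e3 : f 1 ^ (𝒜.card - 1) = 1 := by
    have hc : 𝒜.card = 𝒜.card - 1 + 1 := (Nat.succ_pred_eq_of_pos (Finset.card_pos.2 ⟨B₀, hB₀⟩)).symm
    rw [hc, pow_succ, mul_assoc, e1, mul_one] at e2
    exact e2
  have e4 : f 1 = 1 := by
    have h := Nat.dvd_gcd (orderOf_dvd_of_pow_eq_one e3) (orderOf_dvd_natCard (f 1))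
    rwa [hk.gcd_eq_one, Nat.dvd_one, orderOf_eq_one_iff] at h
  have := congrArg Subtype.val e4
  rw [hf 1 A.one_mem] at this
  simpa using this


end Cfsg.Agent.S3733
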