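import Cfsg.Statements.S3735
import Cfsg.Agent.H83.LocalLemmas
import Mathlib

set_option autoImplicit false
open Cfsg

namespace Cfsg.Agent.S3735

/-- Clifford's Theorem for actions on finite abelian groups, first part. Let H and V be subgroups of a finite group with V abelian and H normalizing V, and let A be a normal subgroup of H. If every H-invariant subgroup of V has an H-invariant complement in V, then every A-invariant subgroup of V has an A-invariant complement in V. -/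
theorem result {G : Type*} [Group G] [Finite G] (H A V : Subgroup G) (hVab : IsMulCommutative V) (hHV : H ≤ Subgroup.normalizer (V : Set G)) (hAH : A ≤ H) (hAn : H ≤ Subgroup.normalizer (A : Set G)) (hss : ∀ U : Subgroup G, U ≤ V → H ≤ Subgroup.normalizer (U : Set G) → ∃ W : Subgroup G, W ≤ V ∧ H ≤ Subgroup.normalizer (W : Set G) ∧ U ⊓ W = ⊥ ∧ U ⊔ W = V) (U : Subgroup G) (hUV : U ≤ V) (hAU : A ≤ Subgroup.normalizer (U : Set G)) : ∃ W : Subgroup G, W ≤ V ∧ A ≤ Subgroup.normalizer (W : Set G) ∧ U ⊓ W = ⊥ ∧ U ⊔ W = V := by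
  classical
  have hc : ∀ a ∈ V, ∀ b ∈ V, a * b = b * a := fun a ha b hb =>
    congrArg Subtype.val (hVab.is_comm.comm ⟨a, ha⟩ ⟨b, hb⟩)
  have hVn : ∀ X : Subgroup G, X ≤ V → V ≤ Subgroup.normalizer (X : Set G) := fun X hX =>
    Subgroup.le_normalizer_iff.2 fun v hv x hx => by
      rw [hc v hv x (hX hx), mul_inv_cancel_right]; exact hx
  let P : Subgroup G → Prop := fun X => X ≤ V ∧ X ≠ ⊥ ∧ A ≤ Subgroup.normalizer (X : Set G)
  let Soc : Subgroup G := sSup {X | Minimal P X}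
  have hSocV : Soc ≤ V := sSup_le fun X hX => hX.prop.1
  have hconj : ∀ h ∈ H, ∀ X, P X → P (X.map (MulAut.conj h).toMonoidHom) := by
    intro h hh X hX
    refine ⟨(Subgroup.map_mono hX.1).trans (Subgroup.mem_normalizer_iff_map_conj_eq.1 (hHV hh)).le,
      fun e => hX.2.1 ((Subgroup.map_eq_bot_iff_of_injective _ (MulAut.conj h).injective).1 e), ?_⟩
    refine Subgroup.le_normalizer_iff.2 fun a ha y hy => ?_
    obtain ⟨x, hx, rfl⟩ := hy
    have ha' : h⁻¹ * a * h ∈ A := (Subgroup.mem_normalizer_iff''.1 (hAn hh) a).1 ha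
    refine ⟨(h⁻¹ * a * h) * x * (h⁻¹ * a * h)⁻¹, (Subgroup.mem_normalizer_iff.1 (hX.2.2 ha') x).1 hx, ?_⟩
    show h * ((h⁻¹ * a * h) * x * (h⁻¹ * a * h)⁻¹) * h⁻¹ = a * (h * x * h⁻¹) * a⁻¹
    group
  have hsocconj : ∀ h ∈ H, Soc.map (MulAut.conj h).toMonoidHom ≤ Soc := by
    intro h hh
    rw [Subgroup.map_le_iff_le_comap]
    refine sSup_le fun X hX => ?_
    rw [← Subgroup.map_le_iff_le_comap]
    refine le_sSup ⟨hconj h hh X hX.prop, fun Y hY hle => ?_⟩
    have h2 := hconj h⁻¹ (H.inv_mem hh) Y hY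
    have h3 : Y.map (MulAut.conj h⁻¹).toMonoidHom ≤ X := by
      rintro _ ⟨y, hy, rfl⟩
      obtain ⟨x, hx, rfl⟩ := hle hy
      simpa [mul_assoc] using hx
    rintro _ ⟨x, hx, rfl⟩
    obtain ⟨y, hy, rfl⟩ := hX.le_of_le h2 h3 hx
    simpa [mul_assoc] using hy
  have hHSoc : H ≤ Subgroup.normalizer (Soc : Set G) := Subgroup.le_normalizer_iff.2 fun h hh x hx =>
    hsocconj h hh ⟨x, hx, rfl⟩
  have hSocTop : V ≤ Soc := by
    obtain ⟨W, hWV, hWn, hdis, hsup⟩ := hss Soc hSocV hHSoc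
    suffices hW : W = ⊥ by rw [← hsup, hW, sup_bot_eq]
    by_contra hW
    obtain ⟨X, hXW, hX⟩ := Finite.exists_le_minimal (p := P) (a := W) ⟨hWV, hW, hAH.trans hWn⟩
    exact hX.prop.2.1 (le_bot_iff.1 (hdis ▸ le_inf (le_sSup hX) hXW))
  obtain ⟨W, -, hW⟩ := Finite.exists_le_maximal (a := (⊥ : Subgroup G))
    (p := fun W : Subgroup G => W ≤ V ∧ A ≤ Subgroup.normalizer (W : Set G) ∧ U ⊓ W = ⊥)
    ⟨bot_le, le_top.trans (Subgroup.normalizer_eq_top (⊥ : Subgroup G)).ge, inf_bot_eq U⟩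
  obtain ⟨hWV, hWn, hdis⟩ := hW.prop
  refine ⟨W, hWV, hWn, hdis, le_antisymm (sup_le hUV hWV) ?_⟩
  by_contra hne
  obtain ⟨S, hS, hSUW⟩ : ∃ S, Minimal P S ∧ ¬ S ≤ U ⊔ W := by
    by_contra h
    push Not at h
    exact hne (hSocTop.trans (sSup_le h))
  have hUW : A ≤ Subgroup.normalizer ((U ⊔ W : Subgroup G) : Set G) := H83.le_normalizer_sup hAU hWn
  have hSbot : S ⊓ (U ⊔ W) = ⊥ := by
    by_contra h
    exact hSUW ((hS.le_of_le ⟨inf_le_left.trans hS.prop.1, h, H83.le_normalizer_inf hS.prop.2.2 hUW⟩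
      inf_le_left).trans inf_le_right)
  have hle : W ⊔ S ≤ W := hW.le_of_ge
    ⟨sup_le hWV hS.prop.1, H83.le_normalizer_sup hWn hS.prop.2.2, by
      rw [Subgroup.eq_bot_iff_forall]
      rintro x ⟨hxU, hx⟩
      rw [sup_comm] at hx
      obtain ⟨s, hs, w, hw, rfl⟩ := H83.exists_mul_of_mem_sup (hS.prop.1.trans (hVn W hWV)) hx
      have hs1 : s = 1 := by
        refine Subgroup.mem_bot.1 (hSbot ▸ ⟨hs, ?_⟩)
        have := Subgroup.mul_mem (U ⊔ W) (Subgroup.mem_sup_left hxU) (Subgroup.mem_sup_right (W.inv_mem hw))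
        rwa [mul_inv_cancel_right] at this
      rw [hs1, one_mul] at hxU ⊢
      exact Subgroup.mem_bot.1 (hdis ▸ ⟨hxU, hw⟩)⟩ le_sup_left
  exact hSUW ((le_sup_right.trans hle).trans le_sup_right)

end Cfsg.Agent.S3735
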