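import Cfsg.Statements.S3738
import Cfsg.Agent.H83.FpfThree
import Mathlib

set_option autoImplicit false
open Cfsg
open scoped commutatorElement

namespace Cfsg.Agent.S3738

/-- Let d be a non-identity 3-element of a finite group and P a 2-subgroup normalized by d on which ⟨d⟩ acts faithfully (no non-identity power of d centralizes P) and without non-identity fixed points (C_P(d) = 1). If every abelian subgroup of P has 2-rank at most 2, then d has order 3. -/
theorem result {X : Type*} [Group X] [Finite X] (d : X) (n : ℕ) (hn : 1 ≤ n) (hd : orderOf d = 3 ^ n) (P : Subgroup X) (hP : IsPGroup 2 P) (hdP : d ∈ Subgroup.normalizer (P : Set X)) (hfaith : Subgroup.zpowers d ⊓ Subgroup.centralizer (P : Set X) = ⊥) (hfpf : P ⊓ Subgroup.centralizer {d} = ⊥) (hrank : ∀ V : Subgroup X, V ≤ P → IsMulCommutative V → Cfsg.PRankLE 2 2 V) : orderOf d = 3 := by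
  classical
  haveI : Fact (Nat.Prime 2) := ⟨Nat.prime_two⟩
  by_contra hne
  have hn2 : 2 ≤ n := by
    by_contra h
    exact hne (by rw [hd, show n = 1 by omega, pow_one])
  set e := d ^ 3 ^ (n - 1) with he
  have he3 : orderOf e = 3 := by
    rw [he, orderOf_pow' d (pow_ne_zero _ (by norm_num)), hd,
      Nat.gcd_eq_right (pow_dvd_pow 3 (Nat.sub_le n 1)), Nat.pow_div (Nat.sub_le n 1) (by norm_num),
      show n - (n - 1) = 1 by omega, pow_one]
  set B := Subgroup.zpowers d with hB
  set A := Subgroup.zpowers e with hA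
  have hAB : A ≤ B := Subgroup.zpowers_le.2 (B.pow_mem (Subgroup.mem_zpowers d) _)
  have hBcard : Nat.card B = 3 ^ n := by rw [hB, Nat.card_zpowers, hd]
  have hAne : ∀ b ∈ B, b ≠ 1 → e ∈ Subgroup.zpowers b := by
    intro b hb hb1
    obtain ⟨i, hi⟩ := mem_powers_iff_mem_zpowers.2 hb
    have hid : ¬ 3 ^ n ∣ i := fun h => hb1 (by
      rw [← hi]; exact orderOf_dvd_iff_pow_eq_one.1 (hd ▸ h))
    obtain ⟨k, hk, hgcd⟩ : ∃ k, k ≤ n ∧ Nat.gcd i (3 ^ n) = 3 ^ k :=
      (Nat.dvd_prime_pow Nat.prime_three).1 (Nat.gcd_dvd_right i (3 ^ n))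
    have hkn : k ≠ n := fun h => hid (h ▸ hgcd ▸ Nat.gcd_dvd_left i (3 ^ n))
    have hmem : d ^ 3 ^ k ∈ Subgroup.zpowers b := by
      have hb' := Nat.gcd_eq_gcd_ab i (3 ^ n)
      rw [hgcd] at hb'
      rw [← zpow_natCast, hb', zpow_add, zpow_mul, zpow_mul, zpow_natCast, zpow_natCast, ← hd,
        pow_orderOf_eq_one, one_zpow, mul_one, show d ^ i = b from hi]
      exact Subgroup.zpow_mem _ (Subgroup.mem_zpowers b) _
    have e2 : e = (d ^ 3 ^ k) ^ 3 ^ (n - 1 - k) := by
      rw [he, ← pow_mul, ← pow_add]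
      congr 2
      omega
    rw [e2]
    exact Subgroup.pow_mem _ hmem _
  have hnt : ⁅P, A⁆ ≠ ⊥ := by
    intro h
    rw [Subgroup.commutator_comm] at h
    have hmem : e ∈ Subgroup.zpowers d ⊓ Subgroup.centralizer (P : Set X) :=
      ⟨hAB (Subgroup.mem_zpowers e), Subgroup.commutator_eq_bot_iff_le_centralizer.1 h (Subgroup.mem_zpowers e)⟩
    rw [hfaith, Subgroup.mem_bot] at hmem
    rw [hmem, orderOf_one] at he3
    omega
  haveI : IsMulCommutative B := inferInstance
  obtain ⟨U, F, hUP, hFU, hBU, hBF, hAU, hUF, hsq, hFn, hdich, hFe, hFbot⟩ :=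
    H83.exists_minimal_invariant B A P hP (Subgroup.zpowers_le.2 hdP) hAB inferInstance
      (by rw [hBcard]; exact Nat.Coprime.pow_left n (by norm_num)) hnt
  haveI := hFn
  set φ : B →* MulAut (U ⧸ F.subgroupOf U) := H83.secAct hBU hBF with hφ
  have hfree : ∀ b : B, b ≠ 1 → ∀ x, x ≠ 1 → φ b x ≠ x := by
    intro b hb x hx hfix
    obtain ⟨u, rfl⟩ := QuotientGroup.mk_surjective x
    rw [hφ, H83.secAct_mk, H83.sec_mk_eq, H83.conjRestrict_apply, ← commutatorElement_def] at hfix
    rcases hdich b b.2 with h | h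
    · exact hx ((QuotientGroup.eq_one_iff u).2 (h u u.2 hfix))
    · refine hAU (Subgroup.zpowers_le.2 ?_)
      exact Subgroup.zpowers_le.2 h (hAne b b.2 fun e' => hb (Subtype.ext e'))
  have hdvd := H83.card_dvd_pred_of_free φ hfree
  rw [hBcard] at hdvd
  have h9 : 9 ∣ Nat.card (U ⧸ F.subgroupOf U) - 1 := (pow_dvd_pow 3 hn2).trans hdvd
  haveI : Nontrivial (U ⧸ F.subgroupOf U) :=
    QuotientGroup.nontrivial_iff.2 fun h => hFU.not_ge (Subgroup.subgroupOf_eq_top.1 h)
  obtain ⟨k, hk⟩ := IsPGroup.iff_card.1 ((hP.to_le hUP).to_quotient (F.subgroupOf U))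
  have hk1 := Finite.one_lt_card (α := U ⧸ F.subgroupOf U)
  rw [hk] at h9 hk1
  have hk6 : 6 ≤ k := by
    by_contra h
    interval_cases k <;> simp_all
  have hUc : Nat.card U = 2 ^ k * Nat.card F := by
    rw [← hk, ← Subgroup.index_eq_card, mul_comm,
      ← Nat.card_congr (Subgroup.subgroupOfEquivOfLe hFU.le).toEquiv, Subgroup.card_mul_index]
  have hrank2 : ∀ V : Subgroup X, V ≤ P → Cfsg.IsElementaryAbelian 2 V → Nat.card V ≤ 4 := by
    intro V hV hVe
    have := hrank V hV hVe.1 ⊤ (by haveI := hVe.1; infer_instance)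
      (fun a _ => Subtype.ext (hVe.2 a a.2))
    rwa [Subgroup.card_top] at this
  have hFP : F ≤ P := hFU.le.trans hUP
  have hFcard : Nat.card F ≤ 4 := hrank2 F hFP hFe
  have hFne : F ≠ ⊥ := by
    intro h
    have h4 := hrank2 U hUP (hFbot h)
    rw [hUc] at h4
    have := Nat.pow_le_pow_right two_pos hk6
    have := Nat.card_pos (α := F)
    nlinarith
  have hF4 : Nat.card F = 4 := by
    obtain ⟨j, hj⟩ := IsPGroup.iff_card.1 (hP.to_le hFP)
    rcases Nat.lt_or_ge j 2 with hj2 | hj2
    · exfalso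
      have hj1 : j = 1 := by
        rcases Nat.eq_zero_or_pos j with rfl | hjp
        · exact absurd (Subgroup.card_eq_one.1 (by rw [hj, pow_zero])) hFne
        · omega
      rw [hj1, pow_one] at hj
      obtain ⟨a, b, hab, hu⟩ := Nat.card_eq_two_iff.1 hj
      obtain ⟨z, hz1⟩ : ∃ z : F, z ≠ 1 := by
        by_contra hall
        push Not at hall
        exact hab ((hall a).trans (hall b).symm)
      have hall : ∀ y : F, y = 1 ∨ y = z := fun y => by
        have m1 : y ∈ ({a, b} : Set F) := hu ▸ Set.mem_univ y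
        have m2 : z ∈ ({a, b} : Set F) := hu ▸ Set.mem_univ z
        have m3 : (1 : F) ∈ ({a, b} : Set F) := hu ▸ Set.mem_univ _
        simp only [Set.mem_insert_iff, Set.mem_singleton_iff] at m1 m2 m3
        rcases m1 with h1 | h1 <;> rcases m2 with h2 | h2 <;> rcases m3 with h3 | h3 <;>
          first
            | exact Or.inl (h1.trans h3.symm)
            | exact Or.inr (h1.trans h2.symm)
            | exact absurd (h2.trans h3.symm) hz1
      have hzd : d * (z : X) * d⁻¹ ∈ F :=
        (Subgroup.mem_normalizer_iff.1 (hBF (Subgroup.mem_zpowers d)) _).1 z.2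
      rcases hall ⟨_, hzd⟩ with h | h
      · apply hz1
        apply Subtype.ext
        have h' : d * (z : X) * d⁻¹ = 1 := congrArg Subtype.val h
        calc (z : X) = d⁻¹ * (d * z * d⁻¹) * d := by group
          _ = 1 := by rw [h']; group
      · have h' : d * (z : X) * d⁻¹ = z := congrArg Subtype.val h
        exact hz1 (Subtype.ext (Subgroup.mem_bot.1 (hfpf.le ⟨hFP z.2,
          Subgroup.mem_centralizer_singleton_iff.2 (mul_inv_eq_iff_eq_mul.1 h').symm⟩)))
    · have := Nat.pow_le_pow_right two_pos hj2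
      omega
  by_cases hinv : ∀ u ∈ U, u * u = 1 → u ∈ F
  · have h64 := H83.card_le_of_no_outer_involution (hP.to_le hUP) hFU.le hUF hsq hFe hF4 hinv
    have := Nat.pow_le_pow_right two_pos hk6
    rw [hUc, hF4] at h64
    omega
  · push Not at hinv
    obtain ⟨u, hu, hu2, huF⟩ := hinv
    have hVe : Cfsg.IsElementaryAbelian 2 (F ⊔ Subgroup.zpowers u : Subgroup X) := by
      rw [← Subgroup.closure_eq F, Subgroup.zpowers_eq_closure, ← Subgroup.closure_union]
      refine H83.elementary_closure ?_ ?_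
      · rintro x (hx | rfl) y (hy | rfl)
        · exact H83.comm_of_elementary hFe hx hy
        · exact Subgroup.mem_centralizer_iff.1 (hUF hu) x hx
        · exact (Subgroup.mem_centralizer_iff.1 (hUF hu) y hy).symm
        · rfl
      · rintro x (hx | rfl)
        · exact H83.mul_self_of_elementary hFe hx
        · exact hu2
    have h4 := hrank2 _ (sup_le hFP (Subgroup.zpowers_le.2 (hUP hu))) hVe
    have hlt : F < F ⊔ Subgroup.zpowers u := lt_of_le_not_ge le_sup_left fun h =>
      huF (h (Subgroup.mem_sup_right (Subgroup.mem_zpowers u)))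
    exact hlt.ne (Subgroup.eq_of_le_of_card_ge hlt.le (h4.trans hF4.ge))

end Cfsg.Agent.S3738
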