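import Cfsg.Statements.S3739
import Cfsg.Agent.H83.FpfThree
import Cfsg.Agent.H83.S4FreeLocals
import Cfsg.Agent.H19.Misc
import Mathlib

set_option autoImplicit false
open Cfsg
open scoped commutatorElement

namespace Cfsg.Agent.S3739

/-- Let G be a finite group with C_G(O₂(G)) ≤ O₂(G) containing an element of order 6, and let d be a non-identity 3-element of G normalizing a nontrivial elementary abelian 2-subgroup W with C_W(d) = 1. Then G has an elementary abelian subgroup of order 8. -/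
theorem result {G : Type*} [Group G] [Finite G] (hchar : Subgroup.centralizer (Cfsg.pCore 2 G : Set G) ≤ Cfsg.pCore 2 G) (hsix : ∃ g : G, orderOf g = 6) (d : G) (hd1 : d ≠ 1) (hd : IsPGroup 3 ↥(Subgroup.zpowers d)) (W : Subgroup G) (hW : Cfsg.IsElementaryAbelian 2 W) (hW1 : W ≠ ⊥) (hdW : d ∈ Subgroup.normalizer (W : Set G)) (hfpf : W ⊓ Subgroup.centralizer {d} = ⊥) : ∃ E : Subgroup G, Cfsg.IsElementaryAbelian 2 E ∧ Nat.card E = 8 := by
  classical
  haveI : Fact (Nat.Prime 2) := ⟨Nat.prime_two⟩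
  haveI : Fact (Nat.Prime 3) := ⟨Nat.prime_three⟩
  by_contra hno
  push Not at hno
  -- elementary abelian 2-subgroups have order at most 4
  have h4 : ∀ E : Subgroup G, Cfsg.IsElementaryAbelian 2 E → Nat.card E ≤ 4 := by
    intro E hE
    by_contra hgt
    obtain ⟨k, hk⟩ := IsPGroup.iff_card.1 (H83.isPGroup_elementary hE)
    have hk3 : 3 ≤ k := by
      by_contra h
      have := Nat.pow_le_pow_right two_pos (show k ≤ 2 by omega)
      omega
    obtain ⟨E', hE'⟩ := Sylow.exists_subgroup_card_pow_prime (G := E) 2 (n := 3) (hk ▸ pow_dvd_pow 2 hk3)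
    refine hno (E'.map E.subtype) (H83.elementary_mono hE (Subgroup.map_subtype_le _)) ?_
    rw [Subgroup.card_map_of_injective E.subtype_injective, hE']
    norm_num
  -- subgroups of order two have central involutions
  have htwo : ∀ X : Subgroup G, IsPGroup 2 X → X ≠ ⊥ → Nat.card X ≤ 2 →
      ∀ g ∈ Subgroup.normalizer (X : Set G), ∀ x ∈ X, g * x * g⁻¹ = x := by
    intro X hX hne hle g hg x hx
    by_cases hx1 : x = 1
    · rw [hx1, mul_one, mul_inv_cancel]
    have hc : ∀ y ∈ X, y ≠ 1 → y = x := by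
      intro y hy hy1
      by_contra hyx
      have h3 : ({⟨1, X.one_mem⟩, ⟨x, hx⟩, ⟨y, hy⟩} : Finset X).card = 3 := by
        rw [Finset.card_eq_three]
        exact ⟨_, _, _, fun h => hx1 (congrArg Subtype.val h).symm,
          fun h => hy1 (congrArg Subtype.val h).symm, fun h => hyx (congrArg Subtype.val h).symm, rfl⟩
      haveI := Fintype.ofFinite X
      have := Finset.card_le_univ ({⟨1, X.one_mem⟩, ⟨x, hx⟩, ⟨y, hy⟩} : Finset X)
      rw [h3, ← Nat.card_eq_fintype_card] at this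
      omega
    refine hc _ ((Subgroup.mem_normalizer_iff.1 hg x).1 hx) fun h => hx1 ?_
    calc x = g⁻¹ * (g * x * g⁻¹) * g := by group
      _ = 1 := by rw [h]; group
  have hW2 : IsPGroup 2 W := H83.isPGroup_elementary hW
  have hWd : ∀ X : Subgroup G, X ≤ W → X ≠ ⊥ → d ∈ Subgroup.normalizer (X : Set G) → Nat.card X = 4 := by
    intro X hXW hX1 hdX
    obtain ⟨k, hk⟩ := IsPGroup.iff_card.1 (hW2.to_le hXW)
    have hle : Nat.card X ≤ 4 := h4 X (H83.elementary_mono hW hXW)
    rcases Nat.lt_or_ge k 2 with h | h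
    · exfalso
      have hX2 : Nat.card X ≤ 2 := by rw [hk]; exact Nat.pow_le_pow_right two_pos (show k ≤ 1 by omega)
      refine hX1 ((Subgroup.eq_bot_iff_forall X).2 fun x hx => ?_)
      exact Subgroup.mem_bot.1 (hfpf.le ⟨hXW hx, Subgroup.mem_centralizer_singleton_iff.2
        (mul_inv_eq_iff_eq_mul.1 (htwo X (hW2.to_le hXW) hX1 hX2 d hdX x hx)).symm⟩)
    · have := Nat.pow_le_pow_right two_pos h
      omega
  set Q := Cfsg.pCore 2 G with hQdef
  haveI : Q.Normal := H19.pCore_normal 2 G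
  have hQ2 : IsPGroup 2 Q := H19.pCore_isPGroup 2
  have hQn : ∀ g : G, g ∈ Subgroup.normalizer (Q : Set G) := fun g => by
    rw [Subgroup.normalizer_eq_top Q]; trivial
  have hQne : Q ≠ ⊥ := fun h => hW1 (by
    have hall : (⊤ : Subgroup G) ≤ ⊥ := fun g _ => by
      rw [← h]
      exact hchar (Subgroup.mem_centralizer_iff.2 fun y hy => by
        have hy' : y ∈ Q := hy
        rw [h, Subgroup.mem_bot] at hy'
        rw [hy', one_mul, mul_one])
    exact le_bot_iff.1 (le_top.trans hall))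
  set Z := H83.zOmega Q with hZdef
  have hZe : Cfsg.IsElementaryAbelian 2 Z := H83.zOmega_elementary Q
  have hZn : ∀ g : G, g ∈ Subgroup.normalizer (Z : Set G) := fun g =>
    H83.normalizer_le_zOmega Q (hQn g)
  have hZne : Z ≠ ⊥ := H83.zOmega_ne_bot hQ2 hQne
  have hcc : ∀ (g : G) (X : Subgroup G), X ≤ Subgroup.centralizer (X : Set G) →
      (∀ x ∈ X, g * x = x * g) → g * g = 1 → (∀ x ∈ X, x * x = 1) →
      Cfsg.IsElementaryAbelian 2 (Subgroup.zpowers g ⊔ X : Subgroup G) := by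
    intro g X hX hg hg2 hX2
    rw [← Subgroup.closure_eq X, Subgroup.zpowers_eq_closure, ← Subgroup.closure_union]
    refine H83.elementary_closure ?_ ?_
    · rintro x (rfl | hx) y (rfl | hy)
      · rfl
      · exact hg y hy
      · exact (hg x hx).symm
      · exact Subgroup.mem_centralizer_iff.1 (hX hy) x hx
    · rintro x (rfl | hx)
      · exact hg2
      · exact hX2 x hx
  have hZ4 : Nat.card Z = 4 := by
    obtain ⟨k, hk⟩ := IsPGroup.iff_card.1 (H83.isPGroup_elementary hZe)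
    have hle : Nat.card Z ≤ 4 := h4 Z hZe
    by_contra hne
    have hZ2 : Nat.card Z ≤ 2 := by
      rcases Nat.lt_or_ge k 2 with h | h
      · rw [hk]; exact Nat.pow_le_pow_right two_pos (show k ≤ 1 by omega)
      · have := Nat.pow_le_pow_right two_pos h
        omega
    have hcen : ∀ z ∈ Z, ∀ g : G, g * z = z * g := fun z hz g =>
      mul_inv_eq_iff_eq_mul.1 (htwo Z (H83.isPGroup_elementary hZe) hZne hZ2 g (hZn g) z hz)
    have hsup := h4 _ (H83.elementary_sup hW hZe fun a _ b hb => hcen b hb a)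
    have hW4 := hWd W le_rfl hW1 hdW
    have hZW : Z ≤ W := le_sup_right.trans
      (Subgroup.eq_of_le_of_card_ge (le_sup_left : W ≤ W ⊔ Z) (by omega)).ge
    refine hZne ((Subgroup.eq_bot_iff_forall Z).2 fun z hz => ?_)
    exact Subgroup.mem_bot.1 (hfpf.le ⟨hZW hz,
      Subgroup.mem_centralizer_singleton_iff.2 (hcen z hz d).symm⟩)
  have hZeq : ∀ X : Subgroup G, Z ≤ X → Cfsg.IsElementaryAbelian 2 X → X = Z := fun X hle hX =>
    (Subgroup.eq_of_le_of_card_ge hle ((h4 X hX).trans hZ4.ge)).symm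
  have hZc : Z ≤ Subgroup.centralizer (Z : Set G) := fun x hx =>
    Subgroup.mem_centralizer_iff.2 fun y hy => H83.comm_of_elementary hZe hy hx
  have hZinv : ∀ t : G, t * t = 1 → t ∈ Subgroup.centralizer (Z : Set G) → t ∈ Z := by
    intro t ht htC
    have := hZeq _ le_sup_right (hcc t Z hZc (fun x hx => (Subgroup.mem_centralizer_iff.1 htC x hx).symm) ht
      (fun x hx => H83.mul_self_of_elementary hZe hx))
    exact this.le (Subgroup.mem_sup_left (Subgroup.mem_zpowers t))
  have hQinv : ∀ t ∈ Q, t * t = 1 → t ∈ Z := fun t ht ht2 =>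
    hZinv t ht2 (Subgroup.mem_centralizer_iff.2 fun z hz =>
      (Subgroup.mem_centralizer_iff.1 (H83.zOmega_le_centralizer Q hz) t ht).symm)
  set C := Subgroup.centralizer (Z : Set G) with hCdef
  have hCn : ∀ g : G, g ∈ Subgroup.normalizer (C : Set G) := fun g =>
    H83.normalizer_le_normalizer_centralizer Z (hZn g)
  -- the element `d` acts on `Z` without fixed points
  have hWZ : W = Z := by
    have hW4 := hWd W le_rfl hW1 hdW
    by_cases hWC : W ⊓ C = ⊥
    · exfalso
      let X := {x : Z // x ≠ 1}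
      have hstep : ∀ (w : W) (z : X), (w : G) * (z.1 : G) * (w : G)⁻¹ ∈ Z := fun w z =>
        (Subgroup.mem_normalizer_iff.1 (hZn w) _).1 z.1.2
      let f : W →* Equiv.Perm X := MonoidHom.mk' (fun w =>
        { toFun := fun z => ⟨⟨_, hstep w z⟩, fun h => z.2 (Subtype.ext (by
            have h' : (w : G) * (z.1 : G) * (w : G)⁻¹ = 1 := congrArg Subtype.val h
            calc (z.1 : G) = (w : G)⁻¹ * ((w : G) * (z.1 : G) * (w : G)⁻¹) * w := by group
              _ = 1 := by rw [h']; group))⟩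
          invFun := fun z => ⟨⟨_, hstep w⁻¹ z⟩, fun h => z.2 (Subtype.ext (by
            have h' : ((w⁻¹ : W) : G) * (z.1 : G) * ((w⁻¹ : W) : G)⁻¹ = 1 := congrArg Subtype.val h
            calc (z.1 : G) = ((w⁻¹ : W) : G)⁻¹ * (((w⁻¹ : W) : G) * (z.1 : G) * ((w⁻¹ : W) : G)⁻¹) *
                  ((w⁻¹ : W) : G) := by group
              _ = 1 := by rw [h']; group))⟩
          left_inv := fun z => Subtype.ext (Subtype.ext (by simp [mul_assoc]))
          right_inv := fun z => Subtype.ext (Subtype.ext (by simp [mul_assoc])) })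
        (fun a b => Equiv.ext fun z => Subtype.ext (Subtype.ext (by simp [mul_assoc])))
      have hf : Function.Injective f := by
        refine (injective_iff_map_eq_one f).2 fun w hw => Subtype.ext (Subgroup.mem_bot.1 (hWC.le ⟨w.2, ?_⟩))
        refine Subgroup.mem_centralizer_iff.2 fun z hz => ?_
        by_cases hz1 : z = 1
        · rw [hz1, one_mul, mul_one]
        have e := congrArg (fun s : Equiv.Perm X => ((s ⟨⟨z, hz⟩, fun h => hz1 (congrArg Subtype.val h)⟩).1 : G)) hw
        exact (mul_inv_eq_iff_eq_mul.1 e).symm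
      have hd' := Subgroup.card_dvd_of_injective f hf
      haveI := Fintype.ofFinite X
      haveI := Fintype.ofFinite Z
      rw [hW4, Nat.card_perm, Nat.card_eq_fintype_card, Fintype.card_subtype_compl, Fintype.card_subtype_eq,
        ← Nat.card_eq_fintype_card, hZ4] at hd'
      norm_num [Nat.factorial] at hd'
    · have hc4 := hWd _ inf_le_left hWC (H83.le_normalizer_inf (B := Subgroup.zpowers d)
        (Subgroup.zpowers_le.2 hdW) (fun g _ => hCn g) (Subgroup.mem_zpowers d))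
      have hWC' : W ⊓ C = W := Subgroup.eq_of_le_of_card_ge inf_le_left (by omega)
      refine Subgroup.eq_of_le_of_card_ge (fun w hw => hZinv w (H83.mul_self_of_elementary hW hw) ?_) (by omega)
      exact (hWC'.ge hw).2
  have hZfix : ∀ z ∈ Z, d * z = z * d → z = 1 := fun z hz h =>
    Subgroup.mem_bot.1 (hfpf.le ⟨hWZ ▸ hz, Subgroup.mem_centralizer_singleton_iff.2 h.symm⟩)
  -- an element of order three centralising `Z`
  obtain ⟨y, hy1, hy3, hyC⟩ : ∃ y : G, y ≠ 1 ∧ y ^ 3 = 1 ∧ y ∈ C := by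
    obtain ⟨g, hg⟩ := hsix
    have hg6 : g ^ 6 = 1 := hg ▸ pow_orderOf_eq_one g
    refine ⟨g ^ 2, pow_ne_one_of_lt_orderOf two_ne_zero (hg ▸ by norm_num), by rw [← pow_mul]; exact hg6, ?_⟩
    set y := g ^ 2 with hy
    set t := g ^ 3 with ht
    have hy3 : y * y * y = 1 := by rw [hy, ← pow_add, ← pow_add]; exact hg6
    have ht2 : t * t = 1 := by rw [ht, ← pow_add]; exact hg6
    have ht1 : t ≠ 1 := pow_ne_one_of_lt_orderOf three_ne_zero (hg ▸ by norm_num)
    have hyt : y * t = t * y := ((Commute.refl g).pow_pow 2 3).eq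
    haveI := Fintype.ofFinite Z
    have hall : ∀ a ∈ Z, ∀ b ∈ Z, a ≠ 1 → b ≠ 1 → a ≠ b → ∀ x ∈ Z, x = 1 ∨ x = a ∨ x = b ∨ x = a * b := by
      intro a ha b hb ha1 hb1 hab x hx
      have hab1 : a * b ≠ 1 := fun h => hab (by
        rw [← inv_eq_of_mul_eq_one_right h, inv_eq_of_mul_eq_one_right (H83.mul_self_of_elementary hZe ha)])
      by_contra h
      push Not at h
      obtain ⟨h1, h2, h3, h4'⟩ := h
      have hc : ({⟨1, Z.one_mem⟩, ⟨a, ha⟩, ⟨b, hb⟩, ⟨a * b, Z.mul_mem ha hb⟩, ⟨x, hx⟩} : Finset Z).card = 5 := by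
        rw [Finset.card_insert_of_notMem, Finset.card_insert_of_notMem, Finset.card_insert_of_notMem,
          Finset.card_insert_of_notMem, Finset.card_singleton] <;>
          simp only [Finset.mem_insert, Finset.mem_singleton, Subtype.mk.injEq, not_or]
        · exact Ne.symm h4'
        · exact ⟨fun h => ha1 (mul_eq_right.1 h.symm), Ne.symm h3⟩
        · exact ⟨hab, fun h => hb1 (mul_eq_left.1 h.symm), Ne.symm h2⟩
        · exact ⟨Ne.symm ha1, Ne.symm hb1, Ne.symm hab1, Ne.symm h1⟩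
      have := Finset.card_le_univ
        ({⟨1, Z.one_mem⟩, ⟨a, ha⟩, ⟨b, hb⟩, ⟨a * b, Z.mul_mem ha hb⟩, ⟨x, hx⟩} : Finset Z)
      rw [hc, ← Nat.card_eq_fintype_card, hZ4] at this
      omega
    have hconjZ : ∀ (u : G), ∀ x ∈ Z, u * x * u⁻¹ ∈ Z := fun u x hx =>
      (Subgroup.mem_normalizer_iff.1 (hZn u) x).1 hx
    have hfixy : ∀ z ∈ Z, z ≠ 1 → y * z = z * y → y ∈ C := by
      intro z hz hz1 hyz
      refine Subgroup.mem_centralizer_iff.2 fun w hw => ?_
      by_cases hwz : w = z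
      · rw [hwz]; exact hyz.symm
      by_cases hw1 : w = 1
      · rw [hw1, one_mul, mul_one]
      have hw' := hconjZ y w hw
      rcases hall w hw z hz hw1 hz1 hwz _ hw' with h | h | h | h
      · refine absurd ?_ hw1
        calc w = y⁻¹ * (y * w * y⁻¹) * y := by group
          _ = 1 := by rw [h]; group
      · exact (mul_inv_eq_iff_eq_mul.1 h).symm
      · refine absurd ?_ hwz
        calc w = y⁻¹ * (y * w * y⁻¹) * y := by group
          _ = y⁻¹ * (y * z) := by rw [h, hyz]; group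
          _ = z := inv_mul_cancel_left y z
      · have h2 : y * y * w * (y * y)⁻¹ = w := by
          calc y * y * w * (y * y)⁻¹ = (y * (w * z) * y⁻¹) := by rw [← h]; group
            _ = (y * w * y⁻¹) * (y * z * y⁻¹) := by group
            _ = w * z * z := by rw [h, hyz, mul_inv_cancel_right]
            _ = w := by rw [mul_assoc, H83.mul_self_of_elementary hZe hz, mul_one]
        have h3 : y * w * y⁻¹ = w := by
          calc y * w * y⁻¹ = y * (y * y * w * (y * y)⁻¹) * y⁻¹ := by rw [h2]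
            _ = (y * y * y) * w * (y * y * y)⁻¹ := by group
            _ = w := by rw [hy3, one_mul, inv_one, mul_one]
        exact (mul_inv_eq_iff_eq_mul.1 h3).symm
    obtain ⟨z, hz, hz1, htz⟩ : ∃ z ∈ Z, z ≠ 1 ∧ t * z = z * t := by
      obtain ⟨a, ha, ha1⟩ := (Subgroup.ne_bot_iff_exists_ne_one.1 hZne : ∃ a : Z, a ≠ 1) |> fun ⟨a, h⟩ =>
        (⟨(a : G), a.2, fun e => h (Subtype.ext e)⟩ : ∃ a ∈ Z, a ≠ 1)
      by_cases hta : t * a * t⁻¹ = a
      · exact ⟨a, ha, ha1, mul_inv_eq_iff_eq_mul.1 hta⟩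
      have htt : t⁻¹ = t := inv_eq_of_mul_eq_one_right ht2
      refine ⟨a * (t * a * t⁻¹), Z.mul_mem ha (hconjZ t a ha), fun h => hta ?_, ?_⟩
      · rw [← inv_eq_of_mul_eq_one_right h, inv_eq_of_mul_eq_one_right (H83.mul_self_of_elementary hZe ha)]
      · refine mul_inv_eq_iff_eq_mul.1 ?_
        calc t * (a * (t * a * t⁻¹)) * t⁻¹ = (t * a * t⁻¹) * ((t * t) * a * (t * t)⁻¹) := by group
          _ = (t * a * t⁻¹) * a := by rw [ht2, one_mul, inv_one, mul_one]
          _ = a * (t * a * t⁻¹) := H83.comm_of_elementary hZe (hconjZ t a ha) ha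
    by_cases hyz : y * z = z * y
    · exact hfixy z hz hz1 hyz
    have htC : t ∈ C := by
      refine Subgroup.mem_centralizer_iff.2 fun w hw => ?_
      set z' := y * z * y⁻¹ with hz'
      have htz' : t * z' = z' * t := by
        have hyinv : t * y⁻¹ = y⁻¹ * t := by
          calc t * y⁻¹ = y⁻¹ * (y * t) * y⁻¹ := by group
            _ = y⁻¹ * t := by rw [hyt]; group
        calc t * (y * z * y⁻¹) = (t * y) * z * y⁻¹ := by group
          _ = y * (t * z) * y⁻¹ := by rw [← hyt]; group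
          _ = y * z * (t * y⁻¹) := by rw [htz]; group
          _ = y * z * y⁻¹ * t := by rw [hyinv]; group
      have hne : z ≠ z' := fun h => hyz (mul_inv_eq_iff_eq_mul.1 h.symm)
      have hz'1 : z' ≠ 1 := fun h => hz1 (by
        calc z = y⁻¹ * z' * y := by rw [hz']; group
          _ = 1 := by rw [h]; group)
      rcases hall z hz z' (hconjZ y z hz) hz1 hz'1 hne w hw with rfl | rfl | rfl | rfl
      · rw [one_mul, mul_one]
      · exact htz.symm
      · exact htz'.symm
      · rw [mul_assoc, ← htz', ← mul_assoc, ← htz, mul_assoc]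
    have htZ := hZinv t ht2 htC
    exact hfixy t htZ ht1 hyt
  -- a 3-element of `C` commuting with `d`
  obtain ⟨P3, hdP⟩ := hd.exists_le_sylow
  obtain ⟨y', hy'P, hy'C, hy'1, hy'd⟩ : ∃ y' : G, y' ∈ (P3 : Subgroup G) ∧ y' ∈ C ∧ y' ≠ 1 ∧ y' * d = d * y' := by
    set K := (C.subgroupOf (P3 : Subgroup G)) with hK
    have hCnorm : C.Normal := Subgroup.normalizer_eq_top_iff.1 (eq_top_iff.2 fun g _ => hCn g)
    haveI : K.Normal := hCnorm.subgroupOf _
    have hKne : K ≠ ⊥ := by
      obtain ⟨R, hR⟩ := (IsPGroup.of_card (G := Subgroup.zpowers y) (p := 3) (n := 1)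
        (by rw [Nat.card_zpowers, orderOf_eq_prime hy3 hy1, pow_one])).exists_le_sylow
      obtain ⟨g, hg⟩ := MulAction.exists_smul_eq G R P3
      intro hb
      have h1 : g * y * g⁻¹ ∈ (P3 : Subgroup G) := by
        rw [← hg, Sylow.coe_subgroup_smul]
        exact Subgroup.smul_mem_pointwise_smul _ _ _ (hR (Subgroup.mem_zpowers y))
      have h2 : (⟨_, h1⟩ : (P3 : Subgroup G)) ∈ K := hCnorm.conj_mem y hyC g
      rw [hb, Subgroup.mem_bot] at h2
      have h3 : g * y * g⁻¹ = 1 := congrArg Subtype.val h2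
      exact hy1 (by
        calc y = g⁻¹ * (g * y * g⁻¹) * g := by group
          _ = 1 := by rw [h3]; group)
    haveI := (P3.2 : IsPGroup 3 (P3 : Subgroup G)).isNilpotent
    obtain ⟨w, hw⟩ := Subgroup.ne_bot_iff_exists_ne_one.1 (H19.inf_center_ne_bot K hKne)
    exact ⟨((w : (P3 : Subgroup G)) : G), (w : (P3 : Subgroup G)).2, w.2.1,
      fun h => hw (Subtype.ext (Subtype.ext h)),
      (congrArg Subtype.val (Subgroup.mem_center_iff.1 w.2.2 ⟨d, hdP (Subgroup.mem_zpowers d)⟩)).symm⟩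
  set B := Subgroup.zpowers d ⊔ Subgroup.zpowers y' with hBdef
  have hBP : B ≤ (P3 : Subgroup G) := sup_le hdP (Subgroup.zpowers_le.2 hy'P)
  have hBc : IsMulCommutative B := by
    rw [hBdef, Subgroup.zpowers_eq_closure, Subgroup.zpowers_eq_closure, ← Subgroup.closure_union]
    exact Subgroup.isMulCommutative_closure (by
      rintro a (rfl | rfl) b (rfl | rfl)
      · rfl
      · exact hy'd.symm
      · exact hy'd
      · rfl)
  have hB3 : IsPGroup 3 B := P3.2.to_le hBP
  obtain ⟨bk, hbk⟩ := IsPGroup.iff_card.1 hB3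
  have hB2 : (Nat.card B).Coprime 2 := by rw [hbk]; exact Nat.Coprime.pow_left bk (by norm_num)
  set A := Subgroup.zpowers y' with hA
  have hnt : ⁅Q, A⁆ ≠ ⊥ := by
    intro h
    rw [Subgroup.commutator_comm] at h
    have hyQ : y' ∈ Q := hchar (Subgroup.commutator_eq_bot_iff_le_centralizer.1 h (Subgroup.mem_zpowers y'))
    have hh := IsPGroup.disjoint_of_ne 2 3 (by norm_num) Q (P3 : Subgroup G) hQ2 P3.2
    exact hy'1 (Subgroup.disjoint_def.1 hh hyQ hy'P)
  obtain ⟨U, F, hUQ, hFU, hBU, hBF, hAU, hUF, hsq, hFn, hdich, hFe, hFbot⟩ :=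
    H83.exists_minimal_invariant B A Q hQ2 (fun b _ => hQn b) le_sup_right hBc hB2 hnt
  haveI := hFn
  have hFQ : F ≤ Q := hFU.le.trans hUQ
  have hFZ : F ≤ Z := fun f hf => hQinv f (hFQ hf) (H83.mul_self_of_elementary hFe hf)
  have hFne : F ≠ ⊥ := fun h => hAU (Subgroup.zpowers_le.2 (Subgroup.centralizer_le
    (fun u hu => hQinv u (hUQ hu) (H83.mul_self_of_elementary (hFbot h) hu)) hy'C))
  have hFZeq : F = Z := by
    refine Subgroup.eq_of_le_of_card_ge hFZ ?_
    rw [hZ4]
    exact (hWd F (hFZ.trans hWZ.ge) hFne (hBF (Subgroup.mem_sup_left (Subgroup.mem_zpowers d)))).ge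
  have hinv : ∀ u ∈ U, u * u = 1 → u ∈ F := fun u hu h => hFZeq.ge (hQinv u (hUQ hu) h)
  have h64 := H83.card_le_of_no_outer_involution (hQ2.to_le hUQ) hFU.le hUF hsq hFe (hFZeq ▸ hZ4) hinv
  set φ := H83.secAct (L := B) hBU hBF with hφ
  have hUc : Nat.card U = Nat.card (U ⧸ F.subgroupOf U) * 4 := by
    rw [← Subgroup.index_eq_card, mul_comm, ← hZ4, ← hFZeq,
      ← Nat.card_congr (Subgroup.subgroupOfEquivOfLe hFU.le).toEquiv, Subgroup.card_mul_index]
  haveI : Nontrivial (U ⧸ F.subgroupOf U) :=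
    QuotientGroup.nontrivial_iff.2 fun h => hFU.not_ge (Subgroup.subgroupOf_eq_top.1 h)
  -- elements either centralise `U` or act freely
  have hker : ∀ b : B, φ b = 1 → (b : G) ∈ Subgroup.centralizer (U : Set G) := by
    intro b hb
    refine (hdich b b.2).resolve_left fun h => ?_
    obtain ⟨u, hu, huF⟩ := SetLike.exists_of_lt hFU
    exact huF (h u hu (H83.mem_secAct_ker.1 (MonoidHom.mem_ker.2 hb) u hu))
  have hfree : ∀ r : φ.range, r ≠ 1 → ∀ x, x ≠ 1 → (φ.range.subtype r) x ≠ x := by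
    rintro ⟨_, b, rfl⟩ hr x hx hfix
    obtain ⟨u, rfl⟩ := QuotientGroup.mk_surjective x
    change φ b _ = _ at hfix
    rw [hφ, H83.secAct_mk, H83.sec_mk_eq, H83.conjRestrict_apply, ← commutatorElement_def] at hfix
    rcases hdich b b.2 with h | h
    · exact hx ((QuotientGroup.eq_one_iff u).2 (h u u.2 hfix))
    · refine hr (Subtype.ext (MonoidHom.mem_ker.1 (H83.mem_secAct_ker.2 fun v hv => ?_)))
      rw [commutatorElement_eq_one_iff_mul_comm.2 (Subgroup.mem_centralizer_iff.1 h v hv).symm]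
      exact F.one_mem
  have hdvd := H83.card_dvd_pred_of_free φ.range.subtype hfree
  haveI := hBc
  have hRc : Nat.card φ.range ∣ 3 ^ bk := hbk ▸ Subgroup.card_range_dvd φ
  obtain ⟨r, -, hr⟩ := (Nat.dvd_prime_pow Nat.prime_three).1 hRc
  obtain ⟨m, hm⟩ := IsPGroup.iff_card.1 ((hQ2.to_le hUQ).to_quotient (F.subgroupOf U))
  have hm1 := Finite.one_lt_card (α := U ⧸ F.subgroupOf U)
  rw [hr, hm] at hdvd
  rw [hm] at hm1
  have hm4 : m ≤ 4 := by
    by_contra h
    have := Nat.pow_le_pow_right two_pos (show 5 ≤ m by omega)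
    rw [hUc, hm] at h64
    omega
  have hr1 : r ≤ 1 := by
    by_contra h
    have h9 : 9 ∣ 2 ^ m - 1 := (pow_dvd_pow 3 (show 2 ≤ r by omega)).trans hdvd
    interval_cases m <;> omega
  have hyne : φ ⟨y', Subgroup.mem_sup_right (Subgroup.mem_zpowers y')⟩ ≠ 1 := fun h =>
    hAU (Subgroup.zpowers_le.2 (hker _ h))
  have hr3 : Nat.card φ.range = 3 := by
    rcases Nat.eq_zero_or_pos r with rfl | h
    · rw [pow_zero, Subgroup.card_eq_one, MonoidHom.range_eq_bot_iff] at hr
      exact absurd (by rw [hr]; rfl) hyne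
    · rw [hr, show r = 1 by omega, pow_one]
  have hgen : Subgroup.zpowers (⟨_, ⟨⟨y', Subgroup.mem_sup_right (Subgroup.mem_zpowers y')⟩, rfl⟩⟩ : φ.range) = ⊤ :=
    zpowers_eq_top_of_prime_card hr3 fun h => hyne (congrArg Subtype.val h)
  obtain ⟨i, hi⟩ := Subgroup.mem_zpowers_iff.1 (hgen.ge (Subgroup.mem_top
    (⟨_, ⟨⟨d, Subgroup.mem_sup_left (Subgroup.mem_zpowers d)⟩, rfl⟩⟩ : φ.range)))
  have hi' := congrArg Subtype.val hi
  rw [Subgroup.coe_zpow, ← map_zpow] at hi'
  have hxU := hker ((⟨y', Subgroup.mem_sup_right (Subgroup.mem_zpowers y')⟩ : B) ^ i *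
    (⟨d, Subgroup.mem_sup_left (Subgroup.mem_zpowers d)⟩ : B)⁻¹)
    (by rw [map_mul, map_inv, hi', mul_inv_cancel])
  obtain ⟨f, hf⟩ := Subgroup.ne_bot_iff_exists_ne_one.1 hFne
  refine hf (Subtype.ext (hZfix _ (hFZ f.2) ?_))
  have h1 := Subgroup.mem_centralizer_iff.1 hxU (f : G) (hFU.le f.2)
  have h2 : (f : G) * y' ^ i = y' ^ i * (f : G) :=
    Subgroup.mem_centralizer_iff.1 (C.zpow_mem hy'C i) _ (hFZ f.2)
  rw [Subgroup.coe_mul, Subgroup.coe_inv, Subgroup.coe_zpow, ← mul_assoc, h2, mul_assoc, mul_assoc,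
    mul_left_cancel_iff] at h1
  calc d * (f : G) = d * ((f : G) * d⁻¹) * d := by group
    _ = d * (d⁻¹ * (f : G)) * d := by rw [h1]
    _ = (f : G) * d := by group

end Cfsg.Agent.S3739
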