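import Mathlib
import Cfsg.Statements.S3741

set_option autoImplicit false
open Cfsg
open scoped commutatorElement

namespace Cfsg.Agent.S3741

open Cfsg in
/-- A finite p-group is generated by at most `log_p` of its order many elements. -/
theorem exists_small_gen {G : Type*} [Group G] [Finite G] {p : ℕ} [Fact p.Prime] (hG : IsPGroup p G)
    (K : Subgroup G) : ∃ S : Finset G, Subgroup.closure (S : Set G) = K ∧ p ^ S.card ≤ Nat.card K := by
  classical
  induction hn : Nat.card K using Nat.strong_induction_on generalizing K with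
  | _ n ih =>
    by_cases hK : K = ⊥
    · refine ⟨∅, by simp [hK], ?_⟩
      subst hn; simp [hK]
    · obtain ⟨M, -, hM⟩ := Finite.exists_le_maximal (p := fun M : Subgroup G => M < K) (Ne.bot_lt hK)
      have hlt : M < K := hM.prop
      have hcl : Nat.card M < n := hn ▸ lt_of_not_ge fun h => hlt.ne (Subgroup.eq_of_le_of_card_ge hlt.le h)
      obtain ⟨S, hS, hSc⟩ := ih _ hcl M rfl
      obtain ⟨x, hxK, hxM⟩ := SetLike.exists_of_lt hlt
      refine ⟨insert x S, ?_, ?_⟩
      · rw [Finset.coe_insert, Set.insert_eq, Subgroup.closure_union, hS]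
        have h1 : Subgroup.zpowers x ⊔ M ≤ K := sup_le (Subgroup.zpowers_le.2 hxK) hlt.le
        rw [← Subgroup.zpowers_eq_closure]
        rcases h1.lt_or_eq with h | h
        · exact absurd (hM.le_of_ge h le_sup_right ((le_sup_left : Subgroup.zpowers x ≤ _) (Subgroup.mem_zpowers x))) hxM
        · exact h
      · obtain ⟨i, hi⟩ := IsPGroup.iff_card.1 (hG.to_subgroup M)
        obtain ⟨j, hj⟩ := IsPGroup.iff_card.1 (hG.to_subgroup K)
        have hp1 := (Fact.out : p.Prime).one_lt
        have hij : i < j := (Nat.pow_lt_pow_iff_right hp1).1 (by rw [← hi, ← hj, hn]; exact hcl)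
        calc p ^ (insert x S).card ≤ p ^ (S.card + 1) :=
              Nat.pow_le_pow_right hp1.le (Finset.card_insert_le x S)
          _ ≤ p ^ i * p := by rw [pow_succ]; exact Nat.mul_le_mul_right p (hi ▸ hSc)
          _ ≤ n := by rw [← hn, hj, ← pow_succ]; exact Nat.pow_le_pow_right hp1.le hij

theorem relIndex_le {G : Type*} [Group G] [Finite G] {p : ℕ} [Fact p.Prime] (hG : IsPGroup p G)
    (A B : Subgroup G) (hAB : ⁅A, B⁆ ≤ A ⊓ B) (hcard : Nat.card ↥⁅A, B⁆ ≤ p) :
    (A ⊓ Subgroup.centralizer (B : Set G)).relIndex A ≤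
      (B ⊓ Subgroup.centralizer (A : Set G)).relIndex B := by
  classical
  set Z := ⁅A, B⁆ with hZ
  -- `Z` is centralized by every element normalizing it
  have hcent : ∀ z ∈ Z, (∀ a ∈ A, a * z = z * a) ∧ ∀ b ∈ B, b * z = z * b := by
    have hnA : A ≤ Subgroup.normalizer (Z : Set G) := fun a ha =>
      Subgroup.mem_normalizer_iff_map_conj_eq.2 <| Subgroup.eq_of_le_of_card_ge (by
        rw [hZ, Subgroup.map_commutator, Subgroup.commutator_le]
        rintro _ ⟨a', ha', rfl⟩ _ ⟨b, hb, rfl⟩
        show ⁅a * a' * a⁻¹, a * b * a⁻¹⁆ ∈ ⁅A, B⁆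
        have : ⁅a * a' * a⁻¹, a * b * a⁻¹⁆ = ⁅a * a', b⁆ * ⁅a, b⁆⁻¹ := by
          simp only [commutatorElement_def]; group
        rw [this]
        exact mul_mem (Subgroup.commutator_mem_commutator (A.mul_mem ha ha') hb)
          (inv_mem (Subgroup.commutator_mem_commutator ha hb)))
        (Nat.card_congr (Subgroup.equivMapOfInjective Z _ (MulAut.conj a).injective).toEquiv).le
    have hnB : B ≤ Subgroup.normalizer (Z : Set G) := fun b hb =>
      Subgroup.mem_normalizer_iff_map_conj_eq.2 <| Subgroup.eq_of_le_of_card_ge (by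
        rw [hZ, Subgroup.map_commutator, Subgroup.commutator_le]
        rintro _ ⟨a, ha, rfl⟩ _ ⟨b', hb', rfl⟩
        show ⁅b * a * b⁻¹, b * b' * b⁻¹⁆ ∈ ⁅A, B⁆
        have : ⁅b * a * b⁻¹, b * b' * b⁻¹⁆ = ⁅a, b⁆⁻¹ * ⁅a, b * b'⁆ := by
          simp only [commutatorElement_def]; group
        rw [this]
        exact mul_mem (inv_mem (Subgroup.commutator_mem_commutator ha hb))
          (Subgroup.commutator_mem_commutator ha (B.mul_mem hb hb')))
        (Nat.card_congr (Subgroup.equivMapOfInjective Z _ (MulAut.conj b).injective).toEquiv).le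
    have key : ∀ z ∈ Z, ∀ n ∈ Subgroup.normalizer (Z : Set G), n * z = z * n := by
      intro z hz n hn
      by_cases hbot : Z = ⊥
      · rw [hbot, Subgroup.mem_bot] at hz; simp [hz]
      let N := Subgroup.normalizer (Z : Set G)
      haveI : (Z.subgroupOf N).Normal := Subgroup.normal_in_normalizer
      have hN : IsPGroup p N := hG.to_subgroup N
      have hle : Z.subgroupOf N ≤ Subgroup.center N := by
        have hZc : Nat.card (Z.subgroupOf N) = Nat.card Z :=
          Nat.card_congr (Subgroup.subgroupOfEquivOfLe Subgroup.le_normalizer).toEquiv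
        have h2 : p ∣ Nat.card (Z.subgroupOf N) := by
          rw [hZc]
          exact (hG.to_subgroup Z).card_eq_or_dvd.resolve_left fun h => hbot (Subgroup.card_eq_one.1 h)
        intro w hw
        rw [Subgroup.mem_center_iff]
        intro g
        letI act : MulAction N (Z.subgroupOf N : Subgroup N) :=
          { smul := fun g w => ⟨g * w * g⁻¹, Subgroup.Normal.conj_mem inferInstance _ w.2 g⟩
            one_smul := fun w => Subtype.ext (by show (1 : N) * w * 1⁻¹ = w; simp)
            mul_smul := fun g h w => Subtype.ext (by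
              show g * h * w * (g * h)⁻¹ = g * (h * w * h⁻¹) * g⁻¹; group) }
        obtain ⟨b, hb, hne⟩ := hN.exists_fixed_point_of_prime_dvd_card_of_fixed_point
          (Z.subgroupOf N : Subgroup N) h2 (a := 1) (by
            intro g; exact Subtype.ext (by show g * 1 * g⁻¹ = 1; simp))
        have hbg : (g : N) * b = b * g := by
          have := congrArg Subtype.val (hb g)
          exact mul_inv_eq_iff_eq_mul.1 this
        have hp : Nat.card (Z.subgroupOf N) = p :=
          le_antisymm (hZc ▸ hcard) (Nat.le_of_dvd Nat.card_pos h2)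
        have : (⟨w, hw⟩ : (Z.subgroupOf N : Subgroup N)) ∈ Subgroup.zpowers b :=
          mem_zpowers_of_prime_card hp hne.symm
        obtain ⟨k, hk⟩ := this
        have hk' : (b : N) ^ k = w := congrArg Subtype.val hk
        rw [← hk']
        exact (Commute.zpow_right hbg k).eq
      have := Subgroup.mem_center_iff.1 (hle (show (⟨z, Subgroup.le_normalizer hz⟩ : N) ∈ _ from hz)) ⟨n, hn⟩
      exact congrArg Subtype.val this
    exact fun z hz => ⟨fun a ha => key z hz a (hnA ha), fun b hb => key z hz b (hnB hb)⟩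
  set D := B ⊓ Subgroup.centralizer (A : Set G)
  have hDn : (D.subgroupOf B).Normal := by
    constructor
    rintro ⟨d, hdB⟩ hd ⟨b, hb⟩
    refine ⟨B.mul_mem (B.mul_mem hb hdB) (B.inv_mem hb), ?_⟩
    show b * d * b⁻¹ ∈ Subgroup.centralizer (A : Set G)
    rw [Subgroup.mem_centralizer_iff]
    intro a ha
    have hd' : a * d = d * a := (Subgroup.mem_centralizer_iff.1 hd.2) a ha
    set z := ⁅b⁻¹, a⁆ with hz
    have hzZ : z ∈ Z := by
      rw [hz, ← commutatorElement_inv]
      exact inv_mem (Subgroup.commutator_mem_commutator ha (B.inv_mem hb))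
    have e1 : b⁻¹ * a * b = z * a := by rw [hz, commutatorElement_def]; group
    have e2 : d * z = z * d := (hcent z hzZ).2 d hdB
    show a * (b * d * b⁻¹) = b * d * b⁻¹ * a
    calc a * (b * d * b⁻¹) = b * ((b⁻¹ * a * b) * d) * b⁻¹ := by group
      _ = b * (d * (b⁻¹ * a * b)) * b⁻¹ := by
          rw [e1, mul_assoc z a d, hd', ← mul_assoc z d a, ← e2, mul_assoc d z a]
      _ = b * d * b⁻¹ * a := by group
  let Q := B ⧸ D.subgroupOf B
  let η : A → (B →* Z) := fun a =>
    { toFun := fun b => ⟨⁅(a : G), (b : G)⁆, Subgroup.commutator_mem_commutator a.2 b.2⟩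
      map_one' := Subtype.ext (commutatorElement_one_right _)
      map_mul' := fun b c => Subtype.ext (by
        show ⁅(a : G), (b : G) * c⁆ = ⁅(a : G), (b : G)⁆ * ⁅(a : G), (c : G)⁆
        have h := (hcent ⁅(a : G), (c : G)⁆ (Subgroup.commutator_mem_commutator a.2 c.2)).2 b b.2
        have : ⁅(a : G), (b : G) * c⁆ = ⁅(a : G), (b : G)⁆ * ((b : G) * ⁅(a : G), (c : G)⁆ * (b : G)⁻¹) := by
          simp only [commutatorElement_def]; group
        rw [this, h]; group) }
  have hker : ∀ a : A, D.subgroupOf B ≤ (η a).ker := by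
    intro a d hd
    apply Subtype.ext
    show ⁅(a : G), (d : G)⁆ = 1
    exact commutatorElement_eq_one_iff_mul_comm.2 ((Subgroup.mem_centralizer_iff.1 hd.2) a a.2)
  have hηeq : ∀ a a' : A, η a = η a' → (a : G)⁻¹ * a' ∈ A ⊓ Subgroup.centralizer (B : Set G) := by
    intro a a' h
    refine ⟨A.mul_mem (A.inv_mem a.2) a'.2, ?_⟩
    show (a : G)⁻¹ * a' ∈ Subgroup.centralizer (B : Set G)
    rw [Subgroup.mem_centralizer_iff]
    intro b hb
    have h' : ⁅(a : G), b⁆ = ⁅(a' : G), b⁆ := congrArg Subtype.val (DFunLike.congr_fun h ⟨b, hb⟩)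
    simp only [commutatorElement_def] at h'
    have h'' : (a : G) * b * (a : G)⁻¹ = (a' : G) * b * (a' : G)⁻¹ := mul_right_cancel h'
    calc b * ((a : G)⁻¹ * a') = (a : G)⁻¹ * ((a : G) * b * (a : G)⁻¹) * a' := by group
      _ = (a : G)⁻¹ * ((a' : G) * b * (a' : G)⁻¹) * a' := by rw [h'']
      _ = (a : G)⁻¹ * a' * b := by group
  let ψ : A ⧸ (A ⊓ Subgroup.centralizer (B : Set G)).subgroupOf A → (Q →* Z) :=
    fun q => QuotientGroup.lift _ (η q.out) (hker _)
  have hψ : Function.Injective ψ := by
    intro q r h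
    rw [← QuotientGroup.out_eq' q, ← QuotientGroup.out_eq' r, QuotientGroup.eq]
    refine hηeq _ _ ?_
    ext b
    exact congrArg Subtype.val (DFunLike.congr_fun h (b : Q))
  have hQ : IsPGroup p Q := (hG.to_subgroup B).to_quotient _
  obtain ⟨S, hS, hSc⟩ := exists_small_gen hQ ⊤
  have hinj : Function.Injective (fun f : Q →* Z => fun s : S => f s) := by
    intro f g h
    refine MonoidHom.eq_of_eqOn_dense hS ?_
    intro s hs
    exact congrFun h ⟨s, hs⟩
  haveI : Finite (Q →* Z) := Finite.of_injective _ hinj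
  unfold Subgroup.relIndex
  calc Nat.card (A ⧸ (A ⊓ Subgroup.centralizer (B : Set G)).subgroupOf A)
      ≤ Nat.card (Q →* Z) := Nat.card_le_card_of_injective ψ hψ
    _ ≤ Nat.card (S → Z) := Nat.card_le_card_of_injective _ hinj
    _ = Nat.card Z ^ S.card := by rw [Nat.card_fun, Nat.card_eq_finsetCard]
    _ ≤ p ^ S.card := Nat.pow_le_pow_left hcard _
    _ ≤ Nat.card (⊤ : Subgroup Q) := hSc
    _ = Nat.card Q := Subgroup.card_top

/-- Let A and B be subgroups of a finite p-group with [A, B] ≤ A ∩ B and [A, B] of order at most p. Then |A : C_A(B)| = |B : C_B(A)|. -/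
theorem result {G : Type*} [Group G] [Finite G] {p : ℕ} [Fact p.Prime] (hG : IsPGroup p G) (A B : Subgroup G) (hAB : ⁅A, B⁆ ≤ A ⊓ B) (hcard : Nat.card ↥⁅A, B⁆ ≤ p) : (A ⊓ Subgroup.centralizer (B : Set G)).relIndex A = (B ⊓ Subgroup.centralizer (A : Set G)).relIndex B := by
  classical
  apply le_antisymm
  · exact relIndex_le hG A B hAB hcard
  · apply relIndex_le hG B A
    · rw [Subgroup.commutator_comm, inf_comm]; exact hAB
    · rw [Subgroup.commutator_comm]; exact hcard


end Cfsg.Agent.S3741
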