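import Cfsg.Statements.S3743
import Cfsg.Agent.H19.Cores
import Mathlib

set_option autoImplicit false
open Cfsg

namespace Cfsg.Agent.S3743

/-- The `π`-core is a `π`-group. -/
theorem piCore_isPi {G : Type*} [Group G] [Finite G] (π : Set ℕ) :
    ∀ q : ℕ, q.Prime → q ∣ Nat.card (Cfsg.piCore π G) → q ∈ π :=
  Cfsg.Agent.H19.sSup_normal_mem (fun N : Subgroup G => ∀ q : ℕ, q.Prime → q ∣ Nat.card N → q ∈ π)
    (fun q hq h => absurd (Subgroup.card_bot (G := G) ▸ h) hq.not_dvd_one)
    fun A B hA _ h1 h2 q hq h => by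
      haveI := hA
      exact (hq.dvd_mul.1 (h.trans (Cfsg.Agent.H19.card_sup_dvd A B))).elim (h1 q hq) (h2 q hq)

/-- A characteristic subgroup of `H` is normalized by the normalizer of `H`. -/
theorem normalizer_le_map_char {G : Type*} [Group G] (H : Subgroup G) (C : Subgroup H)
    (hC : C.Characteristic) :
    Subgroup.normalizer (H : Set G) ≤ Subgroup.normalizer ((C.map H.subtype : Subgroup G) : Set G) := by
  intro k hk
  rw [Subgroup.mem_normalizer_iff_map_conj_eq] at hk ⊢
  let φ : H ≃* H := (H.equivMapOfInjective (MulAut.conj k).toMonoidHom (MulAut.conj k).injective).trans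
    (MulEquiv.subgroupCongr hk)
  conv_rhs => rw [← Subgroup.characteristic_iff_map_eq.1 hC φ]
  rw [Subgroup.map_map, Subgroup.map_map]
  rfl

theorem le_of_subnormal {G : Type*} [Group G] [Finite G] {K : Subgroup G} (hK : K.IsSubnormal) :
    (∀ N : Subgroup G, N ≤ K → K ≤ Subgroup.normalizer (N : Set G) → Group.IsNilpotent N →
      N ≤ Cfsg.fittingSubgroup G) ∧
    ∀ π : Set ℕ, ∀ N : Subgroup G, N ≤ K → K ≤ Subgroup.normalizer (N : Set G) →
      (∀ q : ℕ, q.Prime → q ∣ Nat.card N → q ∈ π) → N ≤ Cfsg.piCore π G := by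
  induction hK with
  | top =>
    refine ⟨fun N _ hN hn => Cfsg.Agent.H19.le_fitting ?_ hn, fun π N _ hN hn => le_sSup ⟨?_, hn⟩⟩ <;>
      exact Subgroup.normalizer_eq_top_iff.1 (top_le_iff.1 hN)
  | step H K hle _ hn ih =>
    have hKH : K ≤ Subgroup.normalizer (H : Set G) := (Subgroup.normal_subgroupOf_iff_le_normalizer hle).1 hn
    refine ⟨fun N hNH hN hnil => ?_, fun π N hNH hN hpi => ?_⟩
    · haveI : (N.subgroupOf H).Normal := (Subgroup.normal_subgroupOf_iff_le_normalizer hNH).2 hN
      have h1 : N.subgroupOf H ≤ Cfsg.fittingSubgroup H := Cfsg.Agent.H19.le_fitting inferInstance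
        ((Group.isNilpotent_congr (Subgroup.subgroupOfEquivOfLe hNH)).2 hnil)
      have h2 := ih.1 ((Cfsg.fittingSubgroup H).map H.subtype)
        ((Subgroup.map_subtype_le _).trans hle)
        (hKH.trans (normalizer_le_map_char H _ (Cfsg.Agent.H19.fitting_characteristic H)))
        ((Group.isNilpotent_congr (Subgroup.equivMapOfInjective _ H.subtype H.subtype_injective)).1
          Cfsg.Agent.H19.fitting_isNilpotent)
      exact fun x hx => h2 ⟨⟨x, hNH hx⟩, h1 hx, rfl⟩
    · haveI : (N.subgroupOf H).Normal := (Subgroup.normal_subgroupOf_iff_le_normalizer hNH).2 hN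
      have h1 : N.subgroupOf H ≤ Cfsg.piCore π H := le_sSup ⟨inferInstance, fun q hq h =>
        hpi q hq (Nat.card_congr (Subgroup.subgroupOfEquivOfLe hNH).toEquiv ▸ h)⟩
      have h2 := ih.2 π ((Cfsg.piCore π H).map H.subtype) ((Subgroup.map_subtype_le _).trans hle)
        (hKH.trans (normalizer_le_map_char H _ (Cfsg.Agent.H19.sSup_normal_characteristic
          (fun N : Subgroup H => ∀ q : ℕ, q.Prime → q ∣ Nat.card N → q ∈ π)
          (fun f M hM q hq h => hM q hq (h.trans (Subgroup.card_map_dvd M f.toMonoidHom))))))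
        (fun q hq h => piCore_isPi π q hq (h.trans (Subgroup.card_map_dvd _ _)))
      exact fun x hx => h2 ⟨⟨x, hNH hx⟩, h1 hx, rfl⟩

/-- In a finite group G, every subnormal nilpotent subgroup lies in the Fitting subgroup F(G), and, for a set of primes π, every subnormal subgroup all of whose prime divisors lie in π lies in O_π(G). -/
theorem result {G : Type*} [Group G] [Finite G] (A : Subgroup G) (hA : A.IsSubnormal) : (Group.IsNilpotent A → A ≤ Cfsg.fittingSubgroup G) ∧ ∀ π : Set ℕ, (∀ p : ℕ, p.Prime → p ∣ Nat.card A → p ∈ π) → A ≤ Cfsg.piCore π G := by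
  refine ⟨fun h => ?_, fun π h => ?_⟩
  · exact (le_of_subnormal hA).1 A le_rfl Subgroup.le_normalizer h
  · exact (le_of_subnormal hA).2 π A le_rfl Subgroup.le_normalizer h


end Cfsg.Agent.S3743
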