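import Cfsg.Statements.S3744
import Cfsg.Agent.H83.PComplement
import Mathlib

set_option autoImplicit false
open Cfsg

namespace Cfsg.Agent.S3744

/-- A finite p-soluble group has a p-complement, all its p-complements are conjugate, and every subgroup of order prime to p lies in one of them. Here a p-complement is a subgroup of order prime to p whose index is a power of p. -/
theorem result {G : Type*} [Group G] [Finite G] {p : ℕ} [Fact p.Prime] (hG : Cfsg.IsPSolvable p G) : (∃ H : Subgroup G, (Nat.card H).Coprime p ∧ ∃ n : ℕ, H.index = p ^ n) ∧ (∀ H₁ H₂ : Subgroup G, (Nat.card H₁).Coprime p → (∃ n : ℕ, H₁.index = p ^ n) → (Nat.card H₂).Coprime p → (∃ n : ℕ, H₂.index = p ^ n) → ∃ g : G, H₂ = H₁.map (MulAut.conj g).toMonoidHom) ∧ (∀ U : Subgroup G, (Nat.card U).Coprime p → ∃ H : Subgroup G, (Nat.card H).Coprime p ∧ (∃ n : ℕ, H.index = p ^ n) ∧ ∃ g : G, U.map (MulAut.conj g).toMonoidHom ≤ H) := by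
  have hdom := @H83.pComplement_dominant G _ _ p _ hG
  obtain ⟨H, hH, n, hn⟩ := H83.exists_pComplement hG
  refine ⟨⟨H, hH, n, hn⟩, ?_, fun U hU => ⟨H, hH, ⟨n, hn⟩, hdom H hH hn U hU⟩⟩
  rintro H₁ H₂ h₁ ⟨n₁, hn₁⟩ h₂ ⟨n₂, hn₂⟩
  obtain ⟨g, hg⟩ := hdom H₂ h₂ hn₂ H₁ h₁
  refine ⟨g, (Subgroup.eq_of_le_of_card_ge hg (le_of_eq ?_)).symm⟩
  rw [Subgroup.card_map_of_injective (MulAut.conj g).injective]
  exact Nat.dvd_antisymm (H83.card_dvd_of_pPower_index H₂ H₁ h₂ hn₁)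
    (H83.card_dvd_of_pPower_index H₁ H₂ h₁ hn₂)

end Cfsg.Agent.S3744
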