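import Cfsg.Statements.S3746
import Cfsg.Agent.H51.Primitive

set_option autoImplicit false
open Cfsg
open scoped commutatorElement

namespace Cfsg.Agent.S3746

/-- Let Z ≤ Z(G) be a central subgroup of a finite group G and E a subgroup of G containing Z whose image E/Z is a component of G/Z (subnormal and quasisimple). Then the derived subgroup [E, E] is a component of G. -/
theorem result {G : Type*} [Group G] [Finite G] (Z : Subgroup G) (hZ : Z ≤ Subgroup.center G) [Z.Normal] (E : Subgroup G) (hZE : Z ≤ E) (hE : Cfsg.IsComponent (E.map (QuotientGroup.mk' Z))) : Cfsg.IsComponent ⁅E, E⁆ := by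
  set π := QuotientGroup.mk' Z with hπ
  have hEsn : E.IsSubnormal := by
    have h := hE.1.comap π
    rwa [Subgroup.comap_map_eq, QuotientGroup.ker_mk', sup_eq_left.mpr hZE] at h
  have hmap : (⁅E, E⁆).map π = E.map π := by
    rw [Subgroup.map_commutator]; exact Cfsg.Agent.H51.component_commutator_self hE
  have hsup : E = ⁅E, E⁆ ⊔ Z := by
    have h := congrArg (Subgroup.comap π) hmap
    rwa [Subgroup.comap_map_eq, Subgroup.comap_map_eq, QuotientGroup.ker_mk',
      sup_eq_left.mpr hZE, eq_comm] at h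
  have hperf : ⁅⁅E, E⁆, ⁅E, E⁆⁆ = ⁅E, E⁆ := by
    conv_rhs => rw [hsup]
    rw [Cfsg.Agent.H51.commutator_sup_central_left hZ, Subgroup.commutator_comm ⁅E, E⁆ (⁅E, E⁆ ⊔ Z),
      Cfsg.Agent.H51.commutator_sup_central_left hZ]
  refine ⟨.step _ E (Subgroup.commutator_le_self E) hEsn
    (Subgroup.normal_subgroupOf_of_le_normalizer (Subgroup.normalizer_commutator_ge_left E E)), ?_⟩
  haveI : Group.IsPerfect ↥⁅E, E⁆ := Subgroup.isPerfect_iff.mpr hperf
  have hq : Cfsg.IsQuasisimple ↥((⁅E, E⁆).map π) := by rw [hmap]; exact hE.2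
  refine Cfsg.Agent.H51.isQuasisimple_of_central_extension
    (f := π.subgroupMap ⁅E, E⁆) (π.subgroupMap_surjective _) ?_ hq
  intro x hx
  have h : (x : G) ∈ Z := by
    have := congrArg Subtype.val (MonoidHom.mem_ker.mp hx)
    exact (QuotientGroup.eq_one_iff (x : G)).mp this
  exact Subgroup.mem_center_iff.mpr fun y => Subtype.ext (Subgroup.mem_center_iff.mp (hZ h) y)

end Cfsg.Agent.S3746
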