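import Cfsg.Statements.S3747
import Cfsg.Agent.H51.Primitive

set_option autoImplicit false
open Cfsg
open scoped commutatorElement

namespace Cfsg.Agent.S3747

/-- Let G be a finite group. (a) If K is a component of G with trivial centre, then the normal closure of K in G is a minimal normal subgroup of G. (b) If the Fitting subgroup of G is trivial, then the layer E(G) is generated by the minimal normal subgroups of G. -/
theorem result {G : Type*} [Group G] [Finite G] : (∀ K : Subgroup G, Cfsg.IsComponent K → Subgroup.center ↥K = ⊥ → (Subgroup.normalClosure (K : Set G) ≠ ⊥ ∧ ∀ N : Subgroup G, N.Normal → N ≤ Subgroup.normalClosure (K : Set G) → N = ⊥ ∨ N = Subgroup.normalClosure (K : Set G))) ∧ (Cfsg.fittingSubgroup G = ⊥ → sSup {N : Subgroup G | N ≠ ⊥ ∧ N.Normal ∧ ∀ N' : Subgroup G, N'.Normal → N' ≤ N → N' = ⊥ ∨ N' = N} = Cfsg.layer G) := by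
  refine ⟨fun K hK hc => ⟨fun h => Cfsg.Agent.H51.component_ne_bot hK (le_bot_iff.mp
    (h ▸ Subgroup.le_normalClosure)),
    fun N hN hle => Cfsg.Agent.H51.normal_le_normalClosure_component hK hc hN hle⟩, fun hF => ?_⟩
  refine le_antisymm (sSup_le ?_) (sSup_le fun K hK => ?_)
  · rintro N ⟨hne, hN, hmin⟩
    haveI := hN
    haveI := Cfsg.Agent.H51.layer_normal G
    rcases hmin (N ⊓ Cfsg.layer G) inferInstance inf_le_left with h | h
    · exfalso
      have hc : ⁅N, Cfsg.generalizedFittingSubgroup G⁆ = ⊥ := by
        rw [Cfsg.generalizedFittingSubgroup, hF, sup_bot_eq]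
        exact le_bot_iff.mp (h ▸ Subgroup.commutator_le_inf N (Cfsg.layer G))
      apply hne
      rw [eq_bot_iff, ← hF]
      exact (Subgroup.commutator_eq_bot_iff_le_centralizer.mp hc).trans
        (Cfsg.Agent.H51.centralizer_generalizedFitting_le_fitting G)
    · exact h ▸ inf_le_right
  · have hc : Subgroup.center ↥K = ⊥ := by
      haveI := hK.2.1
      rw [← Subgroup.map_eq_bot_iff_of_injective _ K.subtype_injective, eq_bot_iff, ← hF]
      refine @Cfsg.Agent.H51.le_fittingSubgroup_of_subnormal G _ _ ((Subgroup.center ↥K).map K.subtype)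
        (Subgroup.IsSubnormal.trans' (Subgroup.Normal.isSubnormal inferInstance) hK.1)
        (Cfsg.Agent.H51.isNilpotent_of_commutator_commutator_eq_bot ?_)
      rw [← le_bot_iff]
      refine (Subgroup.commutator_mono (Subgroup.commutator_le_self _) le_rfl).trans (le_of_eq ?_)
      rw [← Subgroup.map_commutator, Subgroup.map_eq_bot_iff_of_injective _ K.subtype_injective,
        ← le_bot_iff]
      exact (Subgroup.commutator_mono le_rfl le_top).trans
        (Subgroup.commutator_top_right_eq_bot_iff_le_center.mpr le_rfl).le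
    refine Subgroup.le_normalClosure.trans (le_sSup ⟨fun h => Cfsg.Agent.H51.component_ne_bot hK
      (le_bot_iff.mp (h ▸ Subgroup.le_normalClosure)), Subgroup.normalClosure_normal,
      fun N hN hle => Cfsg.Agent.H51.normal_le_normalClosure_component hK hc hN hle⟩)

end Cfsg.Agent.S3747
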