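import Cfsg.Statements.S3748
import Cfsg.Agent.H32.Subnormal
import Cfsg.Agent.H90.SubnormalExample
import Cfsg.Agent.H19.Cores
import Mathlib

set_option autoImplicit false
open Cfsg

namespace Cfsg.Agent.S3748

/-- Call a proper subgroup M of G primitive when M = N_G(N) for every non-trivial normal subgroup N of M. If M is a primitive subgroup of the finite group G, then no non-trivial subnormal subgroup of G is contained in M; in particular M ∩ F(G) = 1. -/
theorem result {G : Type*} [Group G] [Finite G] (M : Subgroup G) (hM : M ≠ ⊤) (hprim : ∀ N : Subgroup G, N ≤ M → M ≤ Subgroup.normalizer (N : Set G) → N ≠ ⊥ → Subgroup.normalizer (N : Set G) = M) : (∀ L : Subgroup G, L.IsSubnormal → L ≤ M → L = ⊥) ∧ M ⊓ Cfsg.fittingSubgroup G = ⊥ := by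
  classical
  set J := sSup {L : Subgroup G | L.IsSubnormal ∧ L ≤ M} with hJ
  have hJs : J.IsSubnormal := H32.isSubnormal_sSup _ fun A hA => hA.1
  have hJM : J ≤ M := sSup_le fun A hA => hA.2
  have hJn : M ≤ Subgroup.normalizer (J : Set G) := by
    refine Subgroup.le_normalizer_iff.2 fun m hm x hx => ?_
    have hle : J ≤ J.comap (MulAut.conj m).toMonoidHom := by
      refine sSup_le fun L hL => ?_
      rw [← Subgroup.map_le_iff_le_comap]
      refine le_sSup ⟨hL.1.map (MulAut.conj m).surjective, ?_⟩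
      rintro _ ⟨y, hy, rfl⟩
      exact M.mul_mem (M.mul_mem hm (hL.2 hy)) (M.inv_mem hm)
    exact hle hx
  have hJb : J = ⊥ := by
    by_contra hne
    have hN := hprim J hJM hJn hne
    rcases (Subgroup.IsSubnormal.iff_eq_top_or_exists).1 hJs with h | ⟨K, hJK, hK, hKn⟩
    · exact hM (top_le_iff.1 (h ▸ hJM))
    · have hKM : K ≤ M := hN ▸ (Subgroup.normal_subgroupOf_iff_le_normalizer hJK.le).1 hKn
      exact hJK.not_ge (le_sSup ⟨hK, hKM⟩)
  have h1 : ∀ L : Subgroup G, L.IsSubnormal → L ≤ M → L = ⊥ := fun L hL hLM =>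
    le_bot_iff.1 ((le_sSup ⟨hL, hLM⟩ : L ≤ J).trans hJb.le)
  refine ⟨h1, h1 _ ?_ inf_le_left⟩
  haveI : (Cfsg.fittingSubgroup G).Normal := H19.fitting_normal G
  haveI : Group.IsNilpotent (Cfsg.fittingSubgroup G) := H19.fitting_isNilpotent
  refine Subgroup.IsSubnormal.trans inf_le_right ?_ (Subgroup.Normal.isSubnormal inferInstance)
  exact H90.isSubnormal_of_isNilpotent _

end Cfsg.Agent.S3748
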