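import Cfsg.Statements.S3749
import Cfsg.Agent.H83.LocalLemmas
import Cfsg.Agent.H20.Sylow
import Mathlib

set_option autoImplicit false
open Cfsg

namespace Cfsg.Agent.S3749

/-- Call a proper subgroup M of G primitive when M = N_G(N) for every non-trivial normal subgroup N of M. Let M be a primitive subgroup of the finite group G, p a prime with O_p(M) ≠ 1, and N a normal subgroup of G with M ∩ N = 1. Then p does not divide the order of N; for every prime q there is exactly one Sylow q-subgroup of N normalized by M; and if the order of N has at least two prime divisors then M is not a maximal subgroup of G. -/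
theorem result {G : Type*} [Group G] [Finite G] (M : Subgroup G) (hM : M ≠ ⊤) (hprim : ∀ N : Subgroup G, N ≤ M → M ≤ Subgroup.normalizer (N : Set G) → N ≠ ⊥ → Subgroup.normalizer (N : Set G) = M) {p : ℕ} [Fact p.Prime] (hOp : Cfsg.pCore p ↥M ≠ ⊥) (N : Subgroup G) [N.Normal] (hMN : M ⊓ N = ⊥) : ¬ p ∣ Nat.card N ∧ (∀ q : ℕ, [Fact q.Prime] → ∃! Q : Sylow q ↥N, M ≤ Subgroup.normalizer ((Q : Subgroup ↥N).map N.subtype : Set G)) ∧ ((∃ q r : ℕ, q.Prime ∧ r.Prime ∧ q ≠ r ∧ q ∣ Nat.card N ∧ r ∣ Nat.card N) → ¬ IsCoatom M) := by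
  classical
  set P := (Cfsg.pCore p ↥M).map M.subtype with hP
  have hPne : P ≠ ⊥ := fun e => hOp ((Subgroup.map_eq_bot_iff_of_injective _ M.subtype_injective).1 e)
  have hPp : IsPGroup p P := (H19.pCore_isPGroup p).map _
  have hPM : P ≤ M := Subgroup.map_subtype_le _
  have hMP : M ≤ Subgroup.normalizer (P : Set G) := Subgroup.le_normalizer.trans
    (H83.normalizer_le_map_char M _ (H19.pCore_characteristic p ↥M))
  have hNP := hprim P hPM hMP hPne
  have hall : ∀ K : Subgroup G, K ≤ Subgroup.normalizer (N : Set G) := fun K =>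
    le_top.trans (Subgroup.normalizer_eq_top N).ge
  have hC : ∀ x ∈ N, x ∈ Subgroup.centralizer (P : Set G) → x = 1 := fun x hxN hxC =>
    Subgroup.mem_bot.1 (hMN ▸ ⟨hNP ▸ Subgroup.centralizer_le_normalizer _ hxC, hxN⟩)
  have hpN : ¬ p ∣ Nat.card N := by
    intro hd
    letI : MulAction P N :=
      { smul := fun a x => ⟨(a : G) * x * (a : G)⁻¹, ‹N.Normal›.conj_mem x x.2 a⟩
        one_smul := fun x => Subtype.ext (show ((1 : P) : G) * x * ((1 : P) : G)⁻¹ = x by simp)
        mul_smul := fun a b x => Subtype.ext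
          (show ((a * b : P) : G) * x * ((a * b : P) : G)⁻¹ = (a : G) * ((b : G) * x * (b : G)⁻¹) * (a : G)⁻¹ by
            simp [mul_assoc]) }
    have hfix : (1 : N) ∈ MulAction.fixedPoints P N := fun a =>
      Subtype.ext (show (a : G) * ((1 : N) : G) * (a : G)⁻¹ = ((1 : N) : G) by simp)
    obtain ⟨b, hb, hb1⟩ := hPp.exists_fixed_point_of_prime_dvd_card_of_fixed_point N hd hfix
    refine hb1 (Subtype.ext (hC b b.2 (Subgroup.mem_centralizer_iff.2 fun a ha => ?_)).symm)
    exact mul_inv_eq_iff_eq_mul.1 (congrArg Subtype.val (hb ⟨a, ha⟩) : (a : G) * b * a⁻¹ = b)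
  have hcop : (Nat.card P).Coprime (Nat.card N) := by
    obtain ⟨k, hk⟩ := IsPGroup.iff_card.1 hPp
    rw [hk]
    exact ((Fact.out : p.Prime).coprime_iff_not_dvd.2 hpN).pow_left k
  haveI := hPp.isNilpotent
  have huniq : ∀ q : ℕ, [Fact q.Prime] →
      ∃! Q : Sylow q ↥N, M ≤ Subgroup.normalizer ((Q : Subgroup ↥N).map N.subtype : Set G) := by
    intro q _
    obtain ⟨Q, hQ⟩ := H20.exists_invariant_sylow (hall P) hcop (Or.inl inferInstance) q
    have hu : ∀ Q' : Sylow q ↥N, P ≤ Subgroup.normalizer ((Q' : Subgroup ↥N).map N.subtype : Set G) →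
        Q' = Q := by
      intro Q' hQ'
      obtain ⟨c, hc, hcQ⟩ := H20.invariant_sylow_conj (hall P) hcop (Or.inl inferInstance) Q' Q hQ' hQ
      have hc1 : c = 1 := Subtype.ext (hC c c.2 hc)
      rw [← hcQ]
      refine Sylow.ext ?_
      subst hc1
      first
        | simp
        | rw [map_one, one_smul]
    refine ⟨Q, fun m hm => ?_, fun Q' hQ' => hu Q' (hPM.trans hQ')⟩
    set Qg := (Q : Subgroup ↥N).map N.subtype with hQg
    set Qm := Qg.map (MulAut.conj m).toMonoidHom with hQm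
    have hle : Qm ≤ N := by
      rintro _ ⟨y, hy, rfl⟩
      exact ‹N.Normal›.conj_mem y (Subgroup.map_subtype_le _ hy) m
    obtain ⟨Q', hQ'⟩ := H20.exists_sylow_map_eq (p := q) hle (by
      rw [hQm, Subgroup.card_map_of_injective (MulAut.conj m).injective]
      exact H20.card_map_sylow Q)
    have hPQ' : P ≤ Subgroup.normalizer (Qm : Set G) := by
      refine Subgroup.le_normalizer_iff.2 fun a ha y hy => ?_
      obtain ⟨x, hx, rfl⟩ := hy
      have ha' : m⁻¹ * a * m ∈ P := (Subgroup.mem_normalizer_iff''.1 (hMP hm) a).1 ha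
      exact ⟨(m⁻¹ * a * m) * x * (m⁻¹ * a * m)⁻¹, (Subgroup.mem_normalizer_iff.1 (hQ ha') x).1 hx, by
        show m * ((m⁻¹ * a * m) * x * (m⁻¹ * a * m)⁻¹) * m⁻¹ = a * (m * x * m⁻¹) * a⁻¹
        group⟩
    have e := hu Q' (hQ' ▸ hPQ')
    refine Subgroup.mem_normalizer_iff_map_conj_eq.2 ?_
    show Qm = Qg
    rw [← hQ', e]
  refine ⟨hpN, huniq, ?_⟩
  rintro ⟨q, r, hq, hr, hqr, hqN, hrN⟩ hco
  haveI := Fact.mk hq
  obtain ⟨Q, hQ, -⟩ := huniq q
  set Qg := (Q : Subgroup ↥N).map N.subtype with hQg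
  have hQN : Qg ≤ N := Subgroup.map_subtype_le _
  have hQne : Qg ≠ ⊥ := fun e => by
    have h := H20.card_map_sylow Q
    rw [← hQg, e, Subgroup.card_bot] at h
    have := (hq.dvd_iff_one_le_factorization Nat.card_pos.ne').1 hqN
    exact absurd h.symm (Nat.one_lt_pow (by omega) hq.one_lt).ne'
  have htop : M ⊔ Qg = ⊤ := hco.2 _ (lt_of_le_not_ge le_sup_left fun h =>
    hQne (le_bot_iff.1 ((le_inf (le_sup_right.trans h) hQN).trans hMN.le)))
  have hNQ : N ≤ Qg := by
    intro x hx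
    obtain ⟨a, ha, b, hb, e⟩ := H83.exists_mul_of_mem_sup hQ (htop.ge (Subgroup.mem_top x) : x ∈ M ⊔ Qg)
    have ha1 : a = 1 := by
      refine Subgroup.mem_bot.1 (hMN ▸ ⟨ha, ?_⟩)
      have := N.mul_mem hx (N.inv_mem (hQN hb))
      rwa [← e, mul_inv_cancel_right] at this
    rwa [← e, ha1, one_mul]
  have hd := hrN.trans (Subgroup.card_dvd_of_le hNQ)
  rw [hQg, H20.card_map_sylow Q] at hd
  exact hqr ((Nat.prime_dvd_prime_iff_eq hr hq).1 (hr.dvd_of_dvd_pow hd)).symm

end Cfsg.Agent.S3749
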