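import Cfsg.Statements.S3750
import Cfsg.Agent.H51.PLayer

set_option autoImplicit false
open Cfsg
open scoped commutatorElement

namespace Cfsg.Agent.S3750

/-- Call a proper subgroup M of G primitive when M = N_G(N) for every non-trivial normal subgroup N of M. Let M be a primitive subgroup of the finite group G and N a normal subgroup of G with M ∩ F*(N) ≠ 1. Then F(G) = 1 and F*(N) = F*(G) = E(G); in particular every minimal normal subgroup of G is contained in N. -/
theorem result {G : Type*} [Group G] [Finite G] (M : Subgroup G) (hM : M ≠ ⊤) (hprim : ∀ N : Subgroup G, N ≤ M → M ≤ Subgroup.normalizer (N : Set G) → N ≠ ⊥ → Subgroup.normalizer (N : Set G) = M) (N : Subgroup G) [N.Normal] (hMF : M ⊓ (Cfsg.generalizedFittingSubgroup ↥N).map N.subtype ≠ ⊥) : Cfsg.fittingSubgroup G = ⊥ ∧ (Cfsg.generalizedFittingSubgroup ↥N).map N.subtype = Cfsg.generalizedFittingSubgroup G ∧ Cfsg.generalizedFittingSubgroup G = Cfsg.layer G ∧ ∀ K : Subgroup G, K.Normal → K ≠ ⊥ → (∀ K' : Subgroup G, K'.Normal →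 K' ≤ K → K' = ⊥ ∨ K' = K) → K ≤ N := by
  haveI hFN := Cfsg.Agent.H51.generalizedFittingSubgroup_characteristic ↥N
  haveI := Cfsg.Agent.H51.fittingSubgroup_normal G
  haveI := Cfsg.Agent.H51.layer_normal G
  set FN := (Cfsg.generalizedFittingSubgroup ↥N).map N.subtype with hFNdef
  haveI hFNn : FN.Normal := by
    rw [hFNdef]; infer_instance
  have hXn : M ≤ Subgroup.normalizer ((M ⊓ FN : Subgroup G) : Set G) := by
    rw [Subgroup.le_normalizer_iff]
    intro g hg x hx
    exact ⟨M.mul_mem (M.mul_mem hg hx.1) (M.inv_mem hg), hFNn.conj_mem x hx.2 g⟩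
  have hNX := hprim _ inf_le_left hXn hMF
  have hcent : ∀ {K : Subgroup G}, ⁅K, FN⁆ = ⊥ → K ≤ M := by
    intro K hK
    rw [← hNX]
    exact ((Subgroup.commutator_eq_bot_iff_le_centralizer.mp hK).trans
      (Subgroup.centralizer_le (SetLike.coe_subset_coe.mpr inf_le_right))).trans
      (Subgroup.centralizer_le_normalizer _)
  have hcore : ∀ {K : Subgroup G}, K.Normal → K ≤ M → K = ⊥ := by
    intro K hK hKM
    by_contra hne
    refine hM ?_
    rw [← hprim K hKM (by rw [Subgroup.normalizer_eq_top]; exact le_top) hne,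
      Subgroup.normalizer_eq_top]
  have hsn : N.IsSubnormal := ‹N.Normal›.isSubnormal
  have hle : FN ≤ Cfsg.generalizedFittingSubgroup G :=
    Cfsg.Agent.H51.generalizedFitting_map_subtype_le hsn
  have hF : Cfsg.fittingSubgroup G = ⊥ := by
    haveI := Cfsg.Agent.H51.fittingSubgroup_isNilpotent G
    set Z := (Subgroup.center ↥(Cfsg.fittingSubgroup G)).map (Cfsg.fittingSubgroup G).subtype with hZ
    have hZn : Z.Normal := by rw [hZ]; infer_instance
    have hZc : ⁅Z, Cfsg.generalizedFittingSubgroup G⁆ = ⊥ := by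
      apply Cfsg.Agent.H51.commutator_sup_right_eq_bot
      · rw [← le_bot_iff, ← Cfsg.Agent.H51.layer_commute_fittingSubgroup G,
          Subgroup.commutator_comm (Cfsg.layer G)]
        exact Subgroup.commutator_mono (Subgroup.map_subtype_le _) le_rfl
      · rw [Subgroup.commutator_eq_bot_iff_le_centralizer]
        rintro _ ⟨z, hz, rfl⟩
        exact Subgroup.mem_centralizer_iff.mpr fun y hy =>
          congrArg Subtype.val (Subgroup.mem_center_iff.mp hz ⟨y, hy⟩)
    have hZ0 : Z = ⊥ := hcore hZn (hcent (le_bot_iff.mp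
      ((Subgroup.commutator_mono le_rfl hle).trans hZc.le)))
    rw [hZ, Subgroup.map_eq_bot_iff_of_injective _ (Cfsg.fittingSubgroup G).subtype_injective] at hZ0
    by_contra hne
    haveI : Nontrivial ↥(Cfsg.fittingSubgroup G) := (Subgroup.nontrivial_iff_ne_bot _).mpr hne
    exact Group.IsNilpotent.center_ne_bot ↥(Cfsg.fittingSubgroup G) hZ0
  have hEF : Cfsg.generalizedFittingSubgroup G = Cfsg.layer G := by
    rw [Cfsg.generalizedFittingSubgroup, hF, sup_bot_eq]
  set R := sSup {L : Subgroup G | Cfsg.IsComponent L ∧ ¬ L ≤ N} with hR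
  have hRn : R.Normal := by
    rw [← Subgroup.normalizer_eq_top_iff, eq_top_iff]
    intro g _
    rw [Cfsg.Agent.H51.mem_normalizer_iff_map_conj_eq]
    have key : ∀ (a : G) (L : Subgroup G), Cfsg.IsComponent L ∧ ¬ L ≤ N →
        Cfsg.IsComponent (L.map (MulAut.conj a).toMonoidHom) ∧
          ¬ L.map (MulAut.conj a).toMonoidHom ≤ N := by
      intro a L hL
      refine ⟨Cfsg.Agent.H51.component_map_conj hL.1 a, fun h => hL.2 fun x hx => ?_⟩
      have := ‹N.Normal›.conj_mem _ (h ⟨x, hx, rfl⟩) a⁻¹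
      simpa [mul_assoc] using this
    refine Cfsg.Agent.H51.map_sSup_eq (fun L hL => key g L hL) fun L hL => ?_
    refine ⟨_, key g⁻¹ L hL, ?_⟩
    ext x
    simp [Subgroup.map_map, mul_assoc]
  have hR0 : R = ⊥ := hcore hRn (hcent (le_bot_iff.mp (by
    rw [Subgroup.commutator_comm]
    refine (Subgroup.commutator_mono (Subgroup.map_subtype_le _) le_rfl).trans (le_of_eq ?_)
    apply Cfsg.Agent.H51.commutator_sSup_right_eq_bot
    intro L hL
    rw [Subgroup.commutator_comm]
    exact (Cfsg.Agent.H51.component_le_or_commute_of_normal hL.1 ‹N.Normal›).resolve_left hL.2)))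
  have hcomp : ∀ L : Subgroup G, Cfsg.IsComponent L → L ≤ N := by
    intro L hL
    by_contra h
    exact Cfsg.Agent.H51.component_ne_bot hL (le_bot_iff.mp (hR0 ▸ le_sSup ⟨hL, h⟩))
  have hFN' : FN = Cfsg.generalizedFittingSubgroup G := by
    rw [hFNdef, Cfsg.Agent.H51.generalizedFitting_map_subtype_eq hsn, inf_eq_left, hEF]
    exact sSup_le hcomp
  refine ⟨hF, hFN', hEF, fun K hK hne hmin => ?_⟩
  haveI := hK
  rcases hmin (K ⊓ N) inferInstance inf_le_left with h | h
  · exfalso
    refine hne (hcore hK (hcent (le_bot_iff.mp ?_)))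
    exact ((Subgroup.commutator_mono le_rfl (Subgroup.map_subtype_le _)).trans
      (Subgroup.commutator_le_inf K N)).trans h.le
  · exact inf_eq_left.mp h

end Cfsg.Agent.S3750
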