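import Cfsg.Statements.S3753
import Cfsg.Agent.H83.PrimitivePairs

set_option autoImplicit false
open Cfsg

namespace Cfsg.Agent.S3753

/-- Two distinct subgroups M₁, M₂ of G form a primitive pair when, for {i, j} = {1, 2}, every non-trivial normal subgroup A of M_i contained in M₁ ∩ M₂ satisfies N_{M_j}(A) = M₁ ∩ M₂; the pair has characteristic p when moreover C_{M_i}(O_p(M_i)) ≤ O_p(M_i) for both i and O_p(M₁)O_p(M₂) ≤ M₁ ∩ M₂. If the finite group G has a primitive pair (M₁, M₂) of characteristic p for some prime p, then M₁ or M₂ has non-abelian Sylow 2-subgroups. In particular no group of odd order has a primitive pair of characteristic p. -/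
theorem result {G : Type*} [Group G] [Finite G] {p : ℕ} [Fact p.Prime] (M₁ M₂ : Subgroup G) (hne : M₁ ≠ M₂) (hP : ∀ A : Subgroup G, A ≠ ⊥ → A ≤ M₁ ⊓ M₂ → (M₁ ≤ Subgroup.normalizer (A : Set G) → M₂ ⊓ Subgroup.normalizer (A : Set G) = M₁ ⊓ M₂) ∧ (M₂ ≤ Subgroup.normalizer (A : Set G) → M₁ ⊓ Subgroup.normalizer (A : Set G) = M₁ ⊓ M₂)) (hc₁ : Subgroup.centralizer (Cfsg.pCore p ↥M₁ : Set ↥M₁) ≤ Cfsg.pCore p ↥M₁) (hc₂ : Subgroup.centralizer (Cfsg.pCore p ↥M₂ : Set ↥M₂) ≤ Cfsg.pCore p ↥M₂) (hO : (Cfsg.pCore p ↥M₁).map M₁.subtype ⊔ (Cfsg.pCore p ↥M₂).map M₂.subtype ≤ M₁ ⊓ M₂) : (∃ S : Sylow 2 ↥M₁, ¬ IsMulCommutative (S : Subgroup ↥M₁)) ∨ (∃ S : Sylow 2 ↥M₂, ¬ IsMulCommutative (S : Subgroup ↥M₂)) := by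
  exact Cfsg.Agent.H83.exists_nonabelian_sylow_two M₁ M₂ hne hP hc₁ hc₂ hO

end Cfsg.Agent.S3753
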