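import Cfsg.Statements.S3754
import Cfsg.Agent.H83.TwoConjugates

set_option autoImplicit false
open Cfsg

namespace Cfsg.Agent.S3754

/-- Let M be a finite p-soluble group and A a p-subgroup of M with Φ(A) ≤ O_p(M) but A ≰ O_p(M). Then there is x ∈ O_{p,p'}(M) such that L = ⟨A, xAx⁻¹⟩ satisfies: x ∈ O^p(L) and O^p(L) ≤ O_{p,p'}(M); [O^p(L), A] = O^p(L); A ∩ O_p(L) has index p in A; and [A ∩ O_p(L), L] ≤ O_p(M). Here O^p(L) is the subgroup generated by the p'-elements of L and O_{p,p'}(M) the preimage of O_{p'}(M/O_p(M)). -/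
theorem result {M : Type*} [Group M] [Finite M] {p : ℕ} [Fact p.Prime] (hM : Cfsg.IsPSolvable p M) (A : Subgroup M) (hA : IsPGroup p A) (hΦ : (frattini ↥A).map A.subtype ≤ Cfsg.pCore p M) (hnot : ¬ A ≤ Cfsg.pCore p M) : ∃ x ∈ (Cfsg.pPrimeCore p (M ⧸ Cfsg.pCore p M)).comap (QuotientGroup.mk' (Cfsg.pCore p M)), x ∈ (Cfsg.pResidual p ↥(A ⊔ A.map (MulAut.conj x).toMonoidHom)).map (A ⊔ A.map (MulAut.conj x).toMonoidHom).subtype ∧ (Cfsg.pResidual p ↥(A ⊔ A.map (MulAut.conj x).toMonoidHom)).map (A ⊔ A.map (MulAut.conj x).toMonoidHom).subtype ≤ (Cfsg.pPrimeCore p (M ⧸ Cfsg.pCore p M)).comap (QuotientGroup.mk' (Cfsg.pCore p M)) ∧ ⁅(Cfsg.pResidual p ↥(A ⊔ A.map (MulAut.conj x).toMonoidHom)).map (A ⊔ A.map (MulAut.conj x).toMonoidHom).subtype, A⁆ = (Cfsg.pResidual p ↥(A ⊔ A.map (MulAut.conj x).toMonoidHom)).map (A ⊔ A.map (MulAut.conj x).toMonoidHom).subtype ∧ (A ⊓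 (Cfsg.pCore p ↥(A ⊔ A.map (MulAut.conj x).toMonoidHom)).map (A ⊔ A.map (MulAut.conj x).toMonoidHom).subtype).relIndex A = p ∧ ⁅A ⊓ (Cfsg.pCore p ↥(A ⊔ A.map (MulAut.conj x).toMonoidHom)).map (A ⊔ A.map (MulAut.conj x).toMonoidHom).subtype, A ⊔ A.map (MulAut.conj x).toMonoidHom⁆ ≤ Cfsg.pCore p M := by
  obtain ⟨x, hx, h⟩ := H83.exists_two_conjugates hM A hA hΦ hnot
  exact ⟨x, hx, h _ rfl⟩

end Cfsg.Agent.S3754
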