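import Cfsg.Statements.S3755
import Cfsg.Agent.H83.SolvableBound

set_option autoImplicit false
open Cfsg

namespace Cfsg.Agent.S3755

/-- Let M and V be subgroups of a finite group with V an elementary abelian 2-group, M normalizing V and acting faithfully on it (M ∩ C(V) = 1), and C_M(O_{2'}(M)) ≤ O_{2'}(M). If some elementary abelian 2-subgroup A of M satisfies |V : C_V(A)| < |A|², then M has a section isomorphic to the symmetric group of degree 3. -/
theorem result {X : Type*} [Group X] [Finite X] (M V : Subgroup X) (hV : Cfsg.IsElementaryAbelian 2 V) (hMV : M ≤ Subgroup.normalizer (V : Set X)) (hfaith : M ⊓ Subgroup.centralizer (V : Set X) = ⊥) (hcon : Subgroup.centralizer (Cfsg.pPrimeCore 2 ↥M : Set ↥M) ≤ Cfsg.pPrimeCore 2 ↥M) (A : Subgroup X) (hAM : A ≤ M) (hA : Cfsg.IsElementaryAbelian 2 A) (hsmall : (V ⊓ Subgroup.centralizer (A : Set X)).relIndex V < Nat.card A ^ 2) : Cfsg.Involves (Equiv.Perm (Fin 3)) ↥M := by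
  classical
  by_contra h3
  obtain ⟨hVc, hV2⟩ := hV
  obtain ⟨hAc, hA2⟩ := hA
  letI : CommGroup V := { (inferInstance : Group V) with mul_comm := hVc.is_comm.comm }
  let φ := Cfsg.Agent.H20.conjAut hMV
  have hVsq : ∀ v : V, v * v = 1 := fun v => Subtype.ext ((pow_two (v : X)).symm.trans (hV2 v v.2))
  let A' := A.subgroupOf M
  have hA'c : IsMulCommutative A' := by
    refine ⟨⟨fun a b => Subtype.ext (Subtype.ext ?_)⟩⟩
    have h := congrArg Subtype.val (hAc.is_comm.comm ⟨((a : ↥M) : X), a.2⟩ ⟨((b : ↥M) : X), b.2⟩)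
    exact h
  have hA'2 : ∀ a ∈ A', a * a = 1 := fun a ha =>
    Subtype.ext ((pow_two (a : X)).symm.trans (hA2 _ ha))
  have hodd : Odd (Nat.card (Cfsg.pPrimeCore 2 ↥M)) :=
    Nat.coprime_two_right.1 (Cfsg.Agent.H19.pPrimeCore_coprime 2)
  haveI := Cfsg.Agent.H19.pPrimeCore_normal 2 ↥M
  have hcard : Nat.card A' = Nat.card A :=
    Nat.card_congr (Subgroup.subgroupOfEquivOfLe hAM).toEquiv
  have hidx : (Cfsg.Agent.H83.fixedSub φ A').index =
      (V ⊓ Subgroup.centralizer (A : Set X)).relIndex V := by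
    have e : Cfsg.Agent.H83.fixedSub φ A' = (V ⊓ Subgroup.centralizer (A : Set X)).subgroupOf V := by
      ext v
      rw [Cfsg.Agent.H83.mem_fixedSub, Subgroup.mem_subgroupOf, Subgroup.mem_inf,
        Subgroup.mem_centralizer_iff]
      constructor
      · intro h
        refine ⟨v.2, fun a ha => ?_⟩
        have := congrArg Subtype.val (h ⟨a, hAM ha⟩ ha)
        rw [Cfsg.Agent.H20.coe_conjAut] at this
        exact mul_inv_eq_iff_eq_mul.1 this
      · intro h a ha
        refine Subtype.ext ?_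
        rw [Cfsg.Agent.H20.coe_conjAut, mul_inv_eq_iff_eq_mul]
        exact h.2 _ ha
    rw [e]
    rfl
  have hb := (Cfsg.Agent.H83.offender_bound φ hVsq (Cfsg.pPrimeCore 2 ↥M) hodd ?_ A' hA'c hA'2
    (le_top.trans_eq (Subgroup.normalizer_eq_top (H := Cfsg.pPrimeCore 2 ↥M)).symm) ?_ ?_).1
  · rw [hcard, hidx] at hb
    exact (not_lt.2 hb) hsmall
  · intro x _ hx
    refine Subtype.ext ?_
    have : (x : X) ∈ M ⊓ Subgroup.centralizer (V : Set X) := by
      refine ⟨x.2, ?_⟩
      show (x : X) ∈ Subgroup.centralizer (V : Set X)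
      rw [Subgroup.mem_centralizer_iff]
      intro v hv
      have := congrArg (fun f : MulAut V => ((f ⟨v, hv⟩ : V) : X)) hx
      simp only [φ, Cfsg.Agent.H20.coe_conjAut, MulAut.one_apply] at this
      exact (mul_inv_eq_iff_eq_mul.1 this).symm
    rw [hfaith, Subgroup.mem_bot] at this
    exact this
  · intro a ha hc
    have hmem : a ∈ Cfsg.pPrimeCore 2 ↥M :=
      hcon (Subgroup.mem_centralizer_iff.2 fun x hx => (hc x hx).symm)
    have h1 := Nat.dvd_gcd (orderOf_dvd_of_pow_eq_one (show a ^ 2 = 1 by rw [sq, hA'2 a ha]))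
      (Subgroup.orderOf_dvd_natCard _ hmem)
    rw [(Nat.coprime_two_left.2 hodd).gcd_eq_one, Nat.dvd_one, orderOf_eq_one_iff] at h1
    exact h1
  · intro x _ a ha hx hax
    exact Cfsg.Agent.H83.no_inverted_of_s3_free h3 hx (hA'2 a ha) hax


end Cfsg.Agent.S3755
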