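import Cfsg.Statements.S3756
import Cfsg.Agent.H83.S4FreeLocals
import Mathlib

set_option autoImplicit false
open Cfsg

namespace Cfsg.Agent.S3756

/-- Let G be a finite group of even order with O₂(G) = 1 such that every 2-local subgroup of G is solvable, of characteristic 2, and has no section isomorphic to the symmetric group of degree 4. Then every maximal 2-local subgroup of G is strongly embedded in G. -/
theorem result {G : Type*} [Group G] [Finite G] (heven : Even (Nat.card G)) (hO : Cfsg.pCore 2 G = ⊥) (hloc : ∀ M : Subgroup G, Cfsg.IsTwoLocal M → Group.IsSolvable M ∧ Cfsg.IsOfCharacteristicTwo ↥M ∧ ¬ Cfsg.Involves (Equiv.Perm (Fin 4)) ↥M) (M : Subgroup G) (hM : Cfsg.IsMaximalTwoLocal M) : Cfsg.IsStronglyEmbedded M := by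
  haveI : Fact (Nat.Prime 2) := ⟨Nat.prime_two⟩
  have hgood : ∀ L : Subgroup G, Cfsg.IsTwoLocal L → H83.Good L := fun L hL =>
    ⟨(hloc L hL).1, (hloc L hL).2.1,
      H83.not_involves_s3_of_char_two (hloc L hL).2.1 (hloc L hL).2.2⟩
  obtain ⟨⟨T, hT, hTne, hMT⟩, hmax⟩ := hM
  have hTM : T ≤ M := hMT ▸ Subgroup.le_normalizer
  obtain ⟨S, hTS⟩ := hT.exists_le_sylow
  have hSne : (S : Subgroup G) ≠ ⊥ := fun e => hTne (le_bot_iff.1 (e ▸ hTS))
  obtain ⟨N, hN2, hSN, hN⟩ := H83.exists_local_over_sylow hgood S hSne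
  have hM2 : Cfsg.IsTwoLocal M := ⟨T, hT, hTne, hMT⟩
  have hMN : N = M := hmax N hN2 (hN M hM2 T hT hTne hTM (hTS.trans hSN))
  subst hMN
  refine ⟨?_, ?_, ?_⟩
  · intro e
    have hn : T.Normal := Subgroup.normalizer_eq_top_iff.1 (hMT.symm.trans e)
    exact hTne (le_bot_iff.1 (hO ▸ H19.le_pCore hn hT))
  · obtain ⟨k, hk⟩ := IsPGroup.iff_card.1 hT
    rcases Nat.eq_zero_or_pos k with rfl | hk0
    · exact absurd (Subgroup.card_eq_one.1 (by rw [hk, pow_zero])) hTne
    · exact even_iff_two_dvd.2 ((hk ▸ dvd_pow_self 2 hk0.ne' : 2 ∣ Nat.card T).trans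
        (Subgroup.card_dvd_of_le hTM))
  intro g hg
  by_contra hodd
  rw [Nat.not_odd_iff_even, even_iff_two_dvd] at hodd
  obtain ⟨t, ht⟩ := exists_prime_orderOf_dvd_card' 2 hodd
  set R := Subgroup.zpowers (t : G) with hR
  have hcard : Nat.card R = 2 := by rw [hR, Nat.card_zpowers, orderOf_submonoid, ht]
  have hR2 : IsPGroup 2 R := IsPGroup.of_card (n := 1) (by rw [hcard, pow_one])
  have hRne : R ≠ ⊥ := fun e => by rw [e, Subgroup.card_bot] at hcard; omega
  have hle := hN (H83.conjSub g N) (H83.isTwoLocal_conjSub hM2 g) R hR2 hRne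
    (Subgroup.zpowers_le.2 t.2.2) (Subgroup.zpowers_le.2 t.2.1)
  have heq : H83.conjSub g N = N := Subgroup.eq_of_le_of_card_ge hle (H83.card_conjSub g N).ge
  have hgn : g ∈ Subgroup.normalizer (N : Set G) := Subgroup.mem_normalizer_iff_map_conj_eq.2 heq
  have hgQ : g ∈ Subgroup.normalizer (H83.oTwo N : Set G) :=
    H83.normalizer_le_map_char N _ (H19.pCore_characteristic 2 N) hgn
  have hQne : H83.oTwo N ≠ ⊥ := fun e => hTne (le_bot_iff.1 (e ▸ H83.le_oTwo hTM hMT.le hT))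
  have hQN := hmax _ ⟨H83.oTwo N, H83.isPGroup_oTwo N, hQne, rfl⟩ (H83.oTwo_normalized N)
  exact hg (hQN ▸ hgQ)

end Cfsg.Agent.S3756
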