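import Cfsg.Statements.S3760

set_option autoImplicit false
open Cfsg

namespace Cfsg.Agent.S3760

/-- Let the group G act transitively on a set X, let x ∈ X with stabilizer H = G_x, and let K ≤ H. Then N_G(K) acts transitively on the set of fixed points of K if and only if every G-conjugate of K contained in H is already an H-conjugate of K. -/
theorem result {G : Type*} [Group G] {X : Type*} [MulAction G X] (htrans : ∀ a b : X, ∃ g : G, g • a = b) (x : X) (K : Subgroup G) (hK : K ≤ MulAction.stabilizer G x) : (∀ a b : X, (∀ k ∈ K, k • a = a) → (∀ k ∈ K, k • b = b) → ∃ g ∈ Subgroup.normalizer (K : Set G), g • a = b) ↔ ∀ g : G, K.map (MulAut.conj g).toMonoidHom ≤ MulAction.stabilizer G x → ∃ h ∈ MulAction.stabilizer G x, K.map (MulAut.conj g).toMonoidHom = K.map (MulAut.conj h).toMonoidHom := by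
  constructor
  · intro ht g hg
    have h1 : ∀ k ∈ K, k • (g⁻¹ • x) = g⁻¹ • x := by
      intro k hk
      have hs : (g * k * g⁻¹) • x = x := hg (Subgroup.mem_map_of_mem _ hk)
      calc k • g⁻¹ • x = g⁻¹ • (g * k * g⁻¹) • x := by simp [smul_smul, mul_assoc]
        _ = g⁻¹ • x := by rw [hs]
    obtain ⟨n, hn, hnx⟩ := ht x (g⁻¹ • x) (fun k hk => hK hk) h1
    refine ⟨g * n, ?_, ?_⟩
    · rw [MulAction.mem_stabilizer_iff, mul_smul, hnx, smul_inv_smul]
    · have h2 := Subgroup.mem_normalizer_iff_map_conj_eq.1 hn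
      ext y
      constructor
      · rintro ⟨k, hk, rfl⟩
        refine ⟨n⁻¹ * k * n, ?_, ?_⟩
        · have := (Subgroup.mem_normalizer_iff.1 (Subgroup.inv_mem _ hn) k).1 hk
          simpa using this
        · simp [MulAut.conj_apply, mul_assoc]
      · rintro ⟨k, hk, rfl⟩
        refine ⟨n * k * n⁻¹, (Subgroup.mem_normalizer_iff.1 hn k).1 hk, ?_⟩
        simp [MulAut.conj_apply, mul_assoc]
  · intro hf a b ha hb
    have key : ∀ c : X, (∀ k ∈ K, k • c = c) → ∃ n ∈ Subgroup.normalizer (K : Set G), n • x = c := by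
      intro c hc
      obtain ⟨g, rfl⟩ := htrans x c
      obtain ⟨h, hh, heq⟩ := hf g⁻¹ (by
        rintro _ ⟨k, hk, rfl⟩
        have := hc k hk
        simp [MulAction.mem_stabilizer_iff, MulAut.conj_apply, mul_smul, this])
      refine ⟨g * h, ?_, ?_⟩
      · rw [Subgroup.mem_normalizer_iff]
        intro k
        constructor
        · intro hk
          have : h * k * h⁻¹ ∈ K.map (MulAut.conj g⁻¹).toMonoidHom :=
            heq ▸ Subgroup.mem_map_of_mem (MulAut.conj h).toMonoidHom hk
          obtain ⟨k', hk', e⟩ := this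
          have e' : g⁻¹ * k' * g = h * k * h⁻¹ := by simpa [MulAut.conj_apply] using e
          have : g * h * k * (g * h)⁻¹ = k' := by
            calc g * h * k * (g * h)⁻¹ = g * (h * k * h⁻¹) * g⁻¹ := by group
              _ = k' := by rw [← e']; group
          rw [this]; exact hk'
        · intro hk
          have : (MulAut.conj g⁻¹).toMonoidHom (g * h * k * (g * h)⁻¹) ∈ K.map (MulAut.conj h).toMonoidHom :=
            heq ▸ Subgroup.mem_map_of_mem (MulAut.conj g⁻¹).toMonoidHom hk
          obtain ⟨k', hk', e⟩ := this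
          have e' : h * k' * h⁻¹ = h * k * h⁻¹ := by
            simpa [MulAut.conj_apply, mul_assoc] using e
          have : k' = k := mul_left_cancel (mul_right_cancel e')
          exact this ▸ hk'
      · rw [mul_smul, MulAction.mem_stabilizer_iff.1 hh]
    obtain ⟨m, hm, rfl⟩ := key a ha
    obtain ⟨n, hn, rfl⟩ := key b hb
    exact ⟨n * m⁻¹, Subgroup.mul_mem _ hn (Subgroup.inv_mem _ hm), by simp [mul_smul]⟩


end Cfsg.Agent.S3760
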