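import Cfsg.Statements.S3761
import Cfsg.Agent.H83.CyclicSelfCentralizing

set_option autoImplicit false
open Cfsg

namespace Cfsg.Agent.S3761

/-- Let G be a finite non-abelian p-group with a cyclic normal subgroup U of order p^n such that C_G(U) = U. Then either p = 2 and G is dihedral, generalized quaternion or semidihedral of order 2^(n+1); or, writing U₁ for the subgroup generated by the p-th powers of elements of U and M = C_G(U₁), the subgroup U has index p in M and the subgroup Ω₁(M) generated by the elements of M of order dividing p is elementary abelian of order p² and characteristic in G. -/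
theorem result {G : Type*} [Group G] [Finite G] {p : ℕ} [Fact p.Prime] (hG : IsPGroup p G) (hna : ¬ IsMulCommutative G) (U : Subgroup G) [U.Normal] (hU : IsCyclic U) (n : ℕ) (hUn : Nat.card U = p ^ n) (hC : Subgroup.centralizer (U : Set G) = U) : (p = 2 ∧ Nat.card G = 2 ^ (n + 1) ∧ ((∃ m : ℕ, Nonempty (G ≃* DihedralGroup m)) ∨ (∃ m : ℕ, Nonempty (G ≃* QuaternionGroup m)) ∨ Cfsg.IsQuasiDihedral G)) ∨ (U.relIndex (Subgroup.centralizer (Cfsg.powerClosure p 1 U : Set G)) = p ∧ Cfsg.IsElementaryAbelian p (Cfsg.omegaOne p (Subgroup.centralizer (Cfsg.powerClosure p 1 U : Set G))) ∧ Nat.card ↥(Cfsg.omegaOne p (Subgroup.centralizer (Cfsg.powerClosure p 1 U : Set G))) = p ^ 2 ∧ (Cfsg.omegaOne p (Subgroup.centralizer (Cfsg.powerClosure p 1 U : Set G))).Characteristic) := by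
  obtain ⟨g, rfl⟩ := (Subgroup.isCyclic_iff_exists_zpowers_eq_top U).1 hU
  have ha : orderOf g = p ^ n := (Nat.card_zpowers g).symm.trans hUn
  have hpc : Cfsg.powerClosure p 1 (Subgroup.zpowers g) = Subgroup.zpowers (g ^ p) := by
    refine le_antisymm ((Subgroup.closure_le _).2 ?_) (Subgroup.zpowers_le.2 ?_)
    · rintro _ ⟨_, ⟨i, rfl⟩, rfl⟩
      refine ⟨i, ?_⟩
      change (g ^ p) ^ i = (g ^ i) ^ p ^ 1
      rw [pow_one, ← zpow_natCast, ← zpow_natCast, ← zpow_mul, ← zpow_mul, mul_comm]
    · exact Subgroup.subset_closure ⟨g, Subgroup.mem_zpowers g, by rw [pow_one]⟩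
  rw [hpc]
  exact Cfsg.Agent.H83.cyclic_self_centralizing hG hna g ‹_› hC n ha

end Cfsg.Agent.S3761
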