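import Cfsg.Statements.S3762
import Cfsg.Agent.H83.SymplecticType

set_option autoImplicit false
open Cfsg

namespace Cfsg.Agent.S3762

/-- Let G be a finite p-group of symplectic type: every characteristic abelian subgroup of G is cyclic. Then G = E ∗ R is a central product of subgroups E and R (they commute elementwise and generate G) where E is extraspecial or trivial, and R is cyclic, or p = 2 and R is dihedral, semidihedral or generalized quaternion of order at least 16. -/
theorem result {G : Type*} [Group G] [Finite G] {p : ℕ} [Fact p.Prime] (hG : IsPGroup p G) (hsymp : ∀ A : Subgroup G, A.Characteristic → IsMulCommutative A → IsCyclic A) : ∃ E R : Subgroup G, (∀ e ∈ E, ∀ r ∈ R, e * r = r * e) ∧ E ⊔ R = ⊤ ∧ (E = ⊥ ∨ Cfsg.IsExtraspecial p ↥E) ∧ (IsCyclic R ∨ (p = 2 ∧ 16 ≤ Nat.card R ∧ ((∃ m : ℕ, Nonempty (↥R ≃* DihedralGroup m)) ∨ (∃ m : ℕ, Nonempty (↥R ≃* QuaternionGroup m)) ∨ Cfsg.IsQuasiDihedral ↥R))) := by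
  exact Cfsg.Agent.H83.symplectic_type hG hsymp

end Cfsg.Agent.S3762
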