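import Cfsg.Statements.S3764
import Cfsg.Agent.H20.HallHigmanGroup

set_option autoImplicit false
open Cfsg

namespace Cfsg.Agent.S3764

/-- Let p, q, r be distinct primes and let X, Q, V be subgroups of a finite group with X of order r, Q an extraspecial q-group normalized by X with C_Q(X) = Z(Q), and V an elementary abelian p-group normalized by X and Q on which XQ acts faithfully ((X ⊔ Q) ∩ C(V) = 1). If C_V(X) = 1, then q = 2, r = 2^n + 1 for some n, and Q has order 2^(2n+1). -/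
theorem result {G : Type*} [Group G] [Finite G] {p q r : ℕ} (hp : p.Prime) (hq : q.Prime) (hr : r.Prime) (hpq : p ≠ q) (hpr : p ≠ r) (hqr : q ≠ r) (X Q V : Subgroup G) (hX : Nat.card X = r) (hQ : Cfsg.IsExtraspecial q ↥Q) (hXQ : X ≤ Subgroup.normalizer (Q : Set G)) (hCQ : Q ⊓ Subgroup.centralizer (X : Set G) = (Subgroup.center ↥Q).map Q.subtype) (hV : Cfsg.IsElementaryAbelian p V) (hXV : X ≤ Subgroup.normalizer (V : Set G)) (hQV : Q ≤ Subgroup.normalizer (V : Set G)) (hfaith : (X ⊔ Q) ⊓ Subgroup.centralizer (V : Set G) = ⊥) (hCV : V ⊓ Subgroup.centralizer (X : Set G) = ⊥) : q = 2 ∧ ∃ n : ℕ, r = 2 ^ n + 1 ∧ Nat.card Q = 2 ^ (2 * n + 1) := by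
  exact Cfsg.Agent.H20.HH.extraspecial_exception hp hq hr hpq hpr hqr hX hQ hXQ hCQ hV hXV hQV
    (le_bot_iff.mp ((inf_le_inf_right _ le_sup_right).trans hfaith.le)) hCV

end Cfsg.Agent.S3764
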