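import Cfsg.Statements.S3766
import Cfsg.Agent.H83.ChiefFitting
import Mathlib

set_option autoImplicit false
open Cfsg

namespace Cfsg.Agent.S3766

/-- Let G be a finite solvable group and N a normal subgroup of G. Call a pair V < U of normal subgroups of G a chief factor of G when no normal subgroup of G lies strictly between them; an element g centralizes the chief factor U/V when u g u⁻¹ g⁻¹ ∈ V for all u ∈ U. Then an element of G lies in the Fitting subgroup F(N) if and only if it lies in N and centralizes every chief factor of G; and also if and only if it lies in N and centralizes every chief factor U/V of G with U ≤ F(N). -/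
theorem result {G : Type*} [Group G] [Finite G] (hG : Group.IsSolvable G) (N : Subgroup G) [N.Normal] (g : G) : (g ∈ (Cfsg.fittingSubgroup ↥N).map N.subtype ↔ g ∈ N ∧ ∀ U V : Subgroup G, (U.Normal ∧ V.Normal ∧ V < U ∧ ∀ W : Subgroup G, W.Normal → V ≤ W → W ≤ U → W = V ∨ W = U) → ∀ u ∈ U, u * g * u⁻¹ * g⁻¹ ∈ V) ∧ (g ∈ (Cfsg.fittingSubgroup ↥N).map N.subtype ↔ g ∈ N ∧ ∀ U V : Subgroup G, (U.Normal ∧ V.Normal ∧ V < U ∧ ∀ W : Subgroup G, W.Normal → V ≤ W → W ≤ U → W = V ∨ W = U) → U ≤ (Cfsg.fittingSubgroup ↥N).map N.subtype → ∀ u ∈ U, u * g * u⁻¹ * g⁻¹ ∈ V) := by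
  haveI := hG
  have h1 : g ∈ (Cfsg.fittingSubgroup ↥N).map N.subtype → g ∈ N ∧ ∀ U V : Subgroup G,
      H83.IsCF U V → ∀ u ∈ U, u * g * u⁻¹ * g⁻¹ ∈ V := by
    intro hg
    haveI := H19.fitting_characteristic N
    haveI : ((Cfsg.fittingSubgroup ↥N).map N.subtype).Normal := ConjAct.normal_of_characteristic_of_normal
    have hnil : Group.IsNilpotent ((Cfsg.fittingSubgroup ↥N).map N.subtype : Subgroup G) := by
      haveI : Group.IsNilpotent (Cfsg.fittingSubgroup ↥N) := H19.fitting_isNilpotent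
      exact Group.nilpotent_of_mulEquiv
        ((Cfsg.fittingSubgroup ↥N).equivMapOfInjective _ N.subtype_injective)
    refine ⟨Subgroup.map_subtype_le _ hg, fun U V h u hu => ?_⟩
    rw [← commutatorElement_def]
    exact H83.commutator_le_of_nilpotent hnil h (Subgroup.commutator_mem_commutator hu hg)
  have h2 : (g ∈ N ∧ ∀ U V : Subgroup G, H83.IsCF U V →
      U ≤ (Cfsg.fittingSubgroup ↥N).map N.subtype → ∀ u ∈ U, u * g * u⁻¹ * g⁻¹ ∈ V) →
      g ∈ (Cfsg.fittingSubgroup ↥N).map N.subtype := fun h =>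
    H83.chiefCentralizer_le_fitting N ⟨h.1, fun U V hc hU u hu => by
      rw [commutatorElement_def]; exact h.2 U V hc hU u hu⟩
  exact ⟨⟨h1, fun h => h2 ⟨h.1, fun U V hc _ => h.2 U V hc⟩⟩,
    ⟨fun hg => ⟨(h1 hg).1, fun U V hc _ => (h1 hg).2 U V hc⟩, h2⟩⟩

end Cfsg.Agent.S3766
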