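import Cfsg.Statements.S3767
import Cfsg.Agent.H20.CyclicExtraspecial
import Cfsg.Agent.H24.PGroupBasic

set_option autoImplicit false
open Cfsg
open scoped commutatorElement

namespace Cfsg.Agent.S3767

/-- Let P be an extraspecial p-group of order p^(2n+1) and H a cyclic group of order h prime to p acting on P (inside a common finite group: H normalizes P) so that C_P(x) = Z(P) for every non-identity x ∈ H. Then h divides p^n + 1 or h divides p^n − 1. -/
theorem result {G : Type*} [Group G] [Finite G] {p : ℕ} [Fact p.Prime] (P H : Subgroup G) (hP : Cfsg.IsExtraspecial p ↥P) (n : ℕ) (hn : Nat.card P = p ^ (2 * n + 1)) (hH : IsCyclic H) (hcop : (Nat.card H).Coprime p) (hHP : H ≤ Subgroup.normalizer (P : Set G)) (hfix : ∀ x ∈ H, x ≠ 1 → P ⊓ Subgroup.centralizer {x} = (Subgroup.center ↥P).map P.subtype) : Nat.card H ∣ p ^ n + 1 ∨ Nat.card H ∣ p ^ n - 1 := by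
  obtain ⟨⟨hPp, hfr, hcomm⟩, hZc⟩ := hP
  set Z := (Subgroup.center ↥P).map P.subtype with hZdef
  have hZP : Z ≤ P := Subgroup.map_subtype_le _
  have hmem : ∀ g : G, g ∈ Z ↔ g ∈ P ∧ ∀ a ∈ P, a * g = g * a := by
    intro g
    constructor
    · rintro ⟨z, hz, rfl⟩
      exact ⟨z.2, fun a ha => congrArg Subtype.val (Subgroup.mem_center_iff.mp hz ⟨a, ha⟩)⟩
    · rintro ⟨hg, h⟩
      exact ⟨⟨g, hg⟩, Subgroup.mem_center_iff.mpr fun a => Subtype.ext (h a a.2), rfl⟩
  have hcardP : Nat.card P = p * p ^ (2 * n) := by rw [hn, pow_succ']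
  have hc : Cfsg.Agent.H20.CycExtra.Ctx p P Z H := by
    refine ⟨hZP, ?_, ?_, ?_, ?_, hPp, hHP, ?_, fun x hx hx1 => (hfix x hx hx1).le, ?_⟩
    · rw [Subgroup.card_map_of_injective P.subtype_injective, hZc]
    · exact fun z hz => Subgroup.mem_centralizer_iff.mpr ((hmem z).mp hz).2
    · rw [Subgroup.commutator_le]
      intro a ha b hb
      have : ⁅(⟨a, ha⟩ : P), (⟨b, hb⟩ : P)⁆ ∈ Subgroup.center P := by
        rw [← hcomm, commutator_def]
        exact Subgroup.commutator_mem_commutator (Subgroup.mem_top _) (Subgroup.mem_top _)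
      exact ⟨_, this, rfl⟩
    · intro x hx
      refine ⟨(⟨x, hx⟩ : P) ^ p, ?_, rfl⟩
      rw [SetLike.mem_coe, ← hfr]
      exact Cfsg.Agent.H24.pow_mem_frattini hPp _
    · rw [hn]
      exact hcop.pow_right _
    · intro y hy
      rcases eq_or_ne y 1 with rfl | hy1
      · exact one_mem _
      rw [Subgroup.mem_centralizer_iff]
      intro z hz
      have h := (hfix y hy hy1).ge hz
      exact Subgroup.mem_centralizer_singleton_iff.mp h.2
  obtain ⟨k, hk, hs⟩ := hc.sign hH _ P rfl hZP le_rfl hHP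
  have hR : P ⊓ Subgroup.centralizer (P : Set G) = Z := le_antisymm
    (fun g hg => (hmem g).mpr ⟨hg.1, fun a ha => Subgroup.mem_centralizer_iff.mp hg.2 a ha⟩)
    (le_inf hZP hc.central)
  rw [hR] at hk
  have hidx : Nat.card Z * Z.relIndex P = Nat.card P := by
    rw [Subgroup.relIndex, ← Nat.card_congr (Subgroup.subgroupOfEquivOfLe hZP).toEquiv]
    exact Subgroup.card_mul_index _
  rw [hc.card, hk, hcardP] at hidx
  have hp := (Fact.out : p.Prime)
  have hkn : k = n := by
    have := Nat.pow_right_injective hp.two_le (mul_left_cancel₀ hp.ne_zero hidx)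
    omega
  subst hkn
  rcases hs with hs | hs
  · right
    rw [← ZMod.natCast_eq_zero_iff, Nat.cast_sub (Nat.one_le_pow _ _ hp.pos)]
    push_cast
    rw [hs, sub_self]
  · left
    rw [← ZMod.natCast_eq_zero_iff]
    push_cast
    rw [hs, neg_add_cancel]

end Cfsg.Agent.S3767
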