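import Cfsg.Statements.S3768
import Cfsg.Agent.H21.FrobeniusTheorem
import Mathlib

set_option autoImplicit false
open Cfsg

namespace Cfsg.Agent.S3768

/-- Let G be a finite Frobenius group with Frobenius complement R and Frobenius kernel K (the identity together with the elements in no conjugate of R), and let N be a normal subgroup of G not containing K. Then G/N is a Frobenius group with Frobenius complement RN/N whose Frobenius kernel is the image of K. -/
theorem result {G : Type*} [Group G] [Finite G] (R : Subgroup G) (hR : Cfsg.IsFrobeniusComplement R) (N : Subgroup G) [N.Normal] (hKN : ¬ Cfsg.frobeniusKernel R ⊆ N) : Cfsg.IsFrobeniusComplement (R.map (QuotientGroup.mk' N)) ∧ Cfsg.frobeniusKernel (R.map (QuotientGroup.mk' N)) = QuotientGroup.mk' N '' Cfsg.frobeniusKernel R := by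
  classical
  obtain ⟨K, hK, hKn, hc⟩ := H21.exists_kernel hR
  rw [← hK] at hKN ⊢
  haveI := hKn
  have hfpf : ∀ r ∈ R, r ≠ 1 → K ⊓ Subgroup.centralizer {r} = ⊥ := fun r hr h1 =>
    H21.fpf_of_fc hR hc.disjoint hr h1
  have hfix : ∀ r ∈ R, r ≠ 1 → ∀ k ∈ K, r * k * r⁻¹ = k → k = 1 := fun r hr h1 k hk he =>
    Subgroup.mem_bot.1 ((hfpf r hr h1).le ⟨hk, Subgroup.mem_centralizer_singleton_iff.2
      (mul_inv_eq_iff_eq_mul.1 he).symm⟩)
  have hsurj : ∀ (M : Subgroup G), M ≤ K → (M : Subgroup G).Normal → ∀ r ∈ R, r ≠ 1 →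
      ∀ m ∈ M, ∃ n ∈ M, n * (r * n * r⁻¹)⁻¹ = m := by
    intro M hMK hMn r hr h1 m hm
    let f : M → M := fun n => ⟨n * (r * n * r⁻¹)⁻¹, M.mul_mem n.2 (M.inv_mem (hMn.conj_mem _ n.2 r))⟩
    have hf : Function.Injective f := by
      intro a b h
      have h' : (a : G) * (r * a * r⁻¹)⁻¹ = (b : G) * (r * b * r⁻¹)⁻¹ := congrArg Subtype.val h
      refine Subtype.ext (inv_mul_eq_one.1 (hfix r hr h1 _ (K.mul_mem (K.inv_mem (hMK b.2)) (hMK a.2)) ?_)).symm
      calc r * ((b : G)⁻¹ * a) * r⁻¹ = (r * b * r⁻¹)⁻¹ * (r * a * r⁻¹) := by group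
        _ = (b : G)⁻¹ * ((b : G) * (r * b * r⁻¹)⁻¹) * (r * a * r⁻¹) := by group
        _ = (b : G)⁻¹ * a := by rw [← h']; group
    obtain ⟨n, hn⟩ := Finite.surjective_of_injective hf ⟨m, hm⟩
    exact ⟨n, n.2, congrArg Subtype.val hn⟩
  have hNK : N ≤ K := by
    intro x hx
    by_contra hxK
    have hxk : x ∉ Cfsg.frobeniusKernel R := hK ▸ hxK
    rw [H21.mem_frobeniusKernel] at hxk
    push Not at hxk
    obtain ⟨hx1, g, hg⟩ := hxk
    have hr1 : g⁻¹ * x * g ≠ 1 := fun h => hx1 (by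
      calc x = g * (g⁻¹ * x * g) * g⁻¹ := by group
        _ = 1 := by rw [h]; group)
    have hrN : g⁻¹ * x * g ∈ N := by
      have := ‹N.Normal›.conj_mem x hx g⁻¹
      rwa [inv_inv] at this
    refine hKN fun k hk => ?_
    obtain ⟨n, hn, e⟩ := hsurj K le_rfl hKn _ hg hr1 k hk
    rw [← e]
    set r := g⁻¹ * x * g
    have : n * (r * n * r⁻¹)⁻¹ = (n * r * n⁻¹) * r⁻¹ := by group
    rw [this]
    exact N.mul_mem (‹N.Normal›.conj_mem r hrN n) (N.inv_mem hrN)
  set q := QuotientGroup.mk' N with hq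
  haveI : (K.map q).Normal := hKn.map q (QuotientGroup.mk'_surjective N)
  have hKq : K.map q ≠ ⊥ := fun h => hKN fun k hk => (QuotientGroup.eq_one_iff k).1
    (Subgroup.mem_bot.1 (h ▸ Subgroup.mem_map_of_mem q hk))
  have hRN : ∀ r ∈ R, r ∈ N → r = 1 := fun r hr hrN =>
    Subgroup.mem_bot.1 (hc.disjoint.le_bot ⟨hNK hrN, hr⟩)
  have hRq : R.map q ≠ ⊥ := fun h => hR.1 ((Subgroup.eq_bot_iff_forall R).2 fun r hr =>
    hRN r hr ((QuotientGroup.eq_one_iff r).1 (Subgroup.mem_bot.1 (h ▸ Subgroup.mem_map_of_mem q hr))))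
  have hdis : Disjoint (K.map q) (R.map q) := by
    rw [Subgroup.disjoint_def]
    rintro _ ⟨k, hk, rfl⟩ ⟨r, hr, e⟩
    have h1 : r⁻¹ * k ∈ K := hNK (QuotientGroup.eq.1 e)
    have hrK : r ∈ K := by
      have := K.mul_mem hk (K.inv_mem h1)
      simpa using this
    rw [← e, Subgroup.mem_bot.1 (hc.disjoint.le_bot ⟨hrK, hr⟩), map_one]
  have hcq : Subgroup.IsComplement' (K.map q) (R.map q) := by
    refine Subgroup.isComplement'_of_disjoint_and_mul_eq_univ hdis ?_
    rw [← Subgroup.normal_mul, ← Subgroup.map_sup, hc.sup_eq_top,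
      Subgroup.map_top_of_surjective q (QuotientGroup.mk'_surjective N)]
    rfl
  have hfc : Cfsg.IsFrobeniusComplement (R.map q) := by
    refine H21.fc_of_fpf hcq hKq hRq ?_
    rintro _ ⟨r, hr, rfl⟩ hr1
    rw [Subgroup.eq_bot_iff_forall]
    rintro _ ⟨⟨k, hk, rfl⟩, hcomm⟩
    have hr1' : r ≠ 1 := fun h => hr1 (by rw [h, map_one])
    have hm : k⁻¹ * (r * k * r⁻¹) ∈ N := by
      rw [← QuotientGroup.eq_one_iff, ← QuotientGroup.mk'_apply, ← hq, map_mul, map_mul, map_mul,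
        map_inv, map_inv, ← (Subgroup.mem_centralizer_singleton_iff.1 hcomm), mul_assoc (q k),
        mul_inv_cancel, mul_one, inv_mul_cancel]
    obtain ⟨n, hn, e⟩ := hsurj N hNK inferInstance r hr hr1' _ hm
    have hkn : k * n = 1 := by
      refine hfix r hr hr1' _ (K.mul_mem hk (hNK hn)) ?_
      calc r * (k * n) * r⁻¹ = k * (k⁻¹ * (r * k * r⁻¹)) * (r * n * r⁻¹) := by group
        _ = k * n := by rw [← e]; group
    show q k = 1
    rw [hq, QuotientGroup.mk'_apply, QuotientGroup.eq_one_iff, eq_inv_of_mul_eq_one_left hkn]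
    exact N.inv_mem hn
  refine ⟨hfc, ?_⟩
  rw [← Subgroup.coe_map]
  refine (H21.coe_eq_kernel hfc ?_ (by rw [hcq.index_eq_card])).symm
  intro x hx
  rw [H21.mem_frobeniusKernel]
  by_cases hx1 : x = 1
  · exact Or.inl hx1
  refine Or.inr fun g hg => hx1 ?_
  have h2 : g⁻¹ * x * g ∈ K.map q := by
    have := ‹(K.map q).Normal›.conj_mem x hx g⁻¹
    rwa [inv_inv] at this
  have h3 := Subgroup.disjoint_def.1 hdis h2 hg
  calc x = g * (g⁻¹ * x * g) * g⁻¹ := by group
    _ = 1 := by rw [h3]; group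

end Cfsg.Agent.S3768
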