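import Cfsg.Statements.S3770
import Cfsg.Agent.H83.FrobeniusCyclicFix

set_option autoImplicit false
open Cfsg
open scoped commutatorElement

namespace Cfsg.Agent.S3770

/-- Let G and V be subgroups of a finite group with G a Frobenius group with complement R of prime order and kernel K, G normalizing V, and V an elementary abelian ℓ-group for a prime ℓ not dividing the order of G. If C_V(R) has order ℓ, then the derived subgroup of K centralizes V. -/
theorem result {X : Type*} [Group X] [Finite X] (G : Subgroup X) (V : Subgroup X) {ℓ : ℕ} (hℓ : ℓ.Prime) (hV : Cfsg.IsElementaryAbelian ℓ V) (hℓG : ¬ ℓ ∣ Nat.card G) (hGV : G ≤ Subgroup.normalizer (V : Set X)) (R : Subgroup ↥G) (hR : Cfsg.IsFrobeniusComplement R) (hRp : (Nat.card R).Prime) (hCV : Nat.card ↥(V ⊓ Subgroup.centralizer ((R.map G.subtype : Subgroup X) : Set X)) = ℓ) : ⁅Subgroup.closure (Subtype.val '' Cfsg.frobeniusKernel R), Subgroup.closure (Subtype.val '' Cfsg.frobeniusKernel R)⁆ ≤ Subgroup.centralizer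 (V : Set X) := by
  obtain ⟨K, hK, hKn, hc, hnil⟩ := H21.exists_kernel_nilpotent hR
  haveI := hKn
  haveI : IsMulCommutative V := hV.1
  open scoped IsMulCommutative in
  let φ : G →* MulAut V := V.normalizerMonoidHom.comp (Subgroup.inclusion hGV)
  have hval : ∀ (g : G) (v : V), ((φ g v : V) : X) = (g : X) * v * (g : X)⁻¹ := fun g v => rfl
  set C := V ⊓ Subgroup.centralizer ((R.map G.subtype : Subgroup X) : Set X) with hC
  have hCmem : ∀ v : V, (v : X) ∈ C ↔ ∀ r ∈ R, φ r v = v := by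
    intro v
    constructor
    · intro hv r hr
      refine Subtype.ext ?_
      rw [hval, mul_inv_eq_iff_eq_mul]
      exact (Subgroup.mem_centralizer_iff.1 hv.2 _ (Subgroup.mem_map_of_mem G.subtype hr))
    · intro h
      refine ⟨v.2, Subgroup.mem_centralizer_iff.2 ?_⟩
      rintro _ ⟨r, hr, rfl⟩
      exact mul_inv_eq_iff_eq_mul.1 ((hval r v).symm.trans (congrArg Subtype.val (h r hr)))
  haveI := Fact.mk hℓ
  haveI : IsCyclic C := isCyclic_of_prime_card (hCV)
  obtain ⟨⟨w, hwC⟩, hw⟩ := IsCyclic.exists_generator (α := C)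
  have hfpf : ∀ r ∈ R, r ≠ 1 → ∀ l ∈ K, r * l * r⁻¹ = l → l = 1 := fun r hr h1 l hl he =>
    Subgroup.mem_bot.1 ((H21.fpf_of_fc hR hc.disjoint hr h1).le
      ⟨hl, Subgroup.mem_centralizer_singleton_iff.2 (mul_inv_eq_iff_eq_mul.1 he).symm⟩)
  have hcop : (Nat.card V).Coprime (Nat.card K) := by
    refine Nat.coprime_of_dvd' fun q hq hqV hqK => ?_
    haveI := Fact.mk hq
    obtain ⟨x, hx⟩ := exists_prime_orderOf_dvd_card' q hqV
    have h1 : x ^ ℓ = 1 := Subtype.ext (by simpa using hV.2 x x.2)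
    have h2 : q ∣ ℓ := hx ▸ orderOf_dvd_of_pow_eq_one h1
    exact absurd ((Nat.prime_dvd_prime_iff_eq hq hℓ).1 h2 ▸ hqK.trans K.card_subgroup_dvd_card) hℓG
  have hwV : w ∈ V := hwC.1
  have hcyc : ∀ x : V, (x : X) ∈ C → x ∈ Subgroup.zpowers (⟨w, hwV⟩ : V) := by
    intro x hx
    obtain ⟨i, hi⟩ := hw ⟨x, hx⟩
    exact ⟨i, Subtype.ext (by simpa using congrArg Subtype.val hi)⟩
  have hcomm := @Cfsg.Agent.H83.kernel_commutes G V _ _ (IsMulCommutative.instCommGroup) _ φ K R _ hnil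
    hfpf hcop ⟨w, hwV⟩ ((hCmem _).1 hwC) (fun x hx => hcyc x ((hCmem x).2 hx))
    (by
      intro x hx hx1
      obtain ⟨i, hi⟩ := hx
      have hxC : (x : X) ∈ C := by
        rw [← hi]
        simpa using C.zpow_mem hwC i
      have htop : Subgroup.zpowers (⟨x, hxC⟩ : C) = ⊤ :=
        zpowers_eq_top_of_prime_card hCV (fun h => hx1 (Subtype.ext (congrArg Subtype.val h :)))
      obtain ⟨j, hj⟩ := htop.ge (Subgroup.mem_top (⟨w, hwC⟩ : C))
      exact ⟨j, Subtype.ext (by simpa using congrArg Subtype.val hj)⟩)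
  have hcl : Subgroup.closure (Subtype.val '' Cfsg.frobeniusKernel R) = K.map G.subtype := by
    rw [← hK, ← Subgroup.closure_eq (K.map G.subtype)]
    rfl
  rw [hcl, ← Subgroup.map_commutator, Subgroup.map_le_iff_le_comap, Subgroup.commutator_le]
  intro a ha b hb
  rw [Subgroup.mem_comap, Subgroup.mem_centralizer_iff]
  intro v hv
  have h1 : φ ⁅a, b⁆ = 1 := by
    rw [commutatorElement_def, mul_assoc, ← mul_inv_rev, map_mul, map_inv, hcomm a ha b hb,
      mul_inv_cancel]
  have h2 := hval ⁅a, b⁆ ⟨v, hv⟩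
  rw [h1] at h2
  exact eq_mul_inv_iff_mul_eq.1 h2

end Cfsg.Agent.S3770
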