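import Cfsg.Statements.S3771
import Mathlib

set_option autoImplicit false
open Cfsg

namespace Cfsg.Agent.S3771

/-- Let p be a prime and R a finite p-group of p-rank at most 2 (no elementary abelian subgroup of order p³) in which every element has order dividing p. Then R has order at most p³. -/
theorem result {R : Type*} [Group R] [Finite R] {p : ℕ} [Fact p.Prime] (hR : IsPGroup p R) (hrank : Cfsg.PRankLE p 2 R) (hexp : ∀ x : R, x ^ p = 1) : Nat.card R ≤ p ^ 3 := by
  classical
  by_contra hlt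
  rw [not_le] at hlt
  have hp1 := (Fact.out : p.Prime).one_lt
  obtain ⟨m, hm⟩ := IsPGroup.iff_card.1 hR
  have hm4 : 4 ≤ m := by
    have : 3 < m := (Nat.pow_lt_pow_iff_right hp1).1 (hm ▸ hlt)
    omega
  haveI : Nontrivial R := by
    rw [← Finite.one_lt_card_iff_nontrivial, hm]
    exact Nat.one_lt_pow (by omega) hp1
  obtain ⟨z, hzZ, hz1⟩ := SetLike.exists_of_lt hR.bot_lt_center
  rw [Subgroup.mem_bot] at hz1
  have hord : ∀ x : R, x ≠ 1 → Nat.card (Subgroup.zpowers x) = p := fun x hx => by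
    rw [Nat.card_zpowers, orderOf_eq_prime (hexp x) hx]
  have hcomm : ∀ (A : Subgroup R) (u : R), IsMulCommutative A → (∀ a ∈ A, a * u = u * a) →
      IsMulCommutative ↥(A ⊔ Subgroup.zpowers u) := by
    intro A u hA hu
    have h : A ⊔ Subgroup.zpowers u = Subgroup.closure ((A : Set R) ∪ {u}) := by
      rw [Subgroup.closure_union, Subgroup.closure_eq, Subgroup.zpowers_eq_closure]
    refine h ▸ Subgroup.isMulCommutative_closure ?_
    rintro x (hx | rfl) y (hy | rfl)
    · exact congrArg Subtype.val (hA.is_comm.comm ⟨x, hx⟩ ⟨y, hy⟩)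
    · exact hu x hx
    · exact (hu y hy).symm
    · rfl
  have hbig : ∀ (A : Subgroup R) (u : R), u ∉ A → IsMulCommutative A → (∀ a ∈ A, a * u = u * a) →
      Nat.card A * p ≤ Nat.card ↥(A ⊔ Subgroup.zpowers u) := by
    intro A u hu hA hau
    obtain ⟨i, hi⟩ := IsPGroup.iff_card.1 (hR.to_subgroup A)
    obtain ⟨j, hj⟩ := IsPGroup.iff_card.1 (hR.to_subgroup (A ⊔ Subgroup.zpowers u))
    have hlt : Nat.card A < Nat.card ↥(A ⊔ Subgroup.zpowers u) := by
      refine lt_of_not_ge fun h => hu ?_
      have := Subgroup.eq_of_le_of_card_ge le_sup_left h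
      exact this ▸ (le_sup_right : Subgroup.zpowers u ≤ _) (Subgroup.mem_zpowers u)
    rw [hi, hj] at hlt ⊢
    rw [← pow_succ]
    exact Nat.pow_le_pow_right hp1.le ((Nat.pow_lt_pow_iff_right hp1).1 hlt)
  -- a normal abelian subgroup containing `z`, of order `p ^ 2`
  set Z := Subgroup.zpowers z
  haveI hZn : Z.Normal := ⟨fun n hn g => by
    have h := Subgroup.mem_center_iff.1 (Subgroup.zpowers_le.2 hzZ hn) g
    rw [h, mul_inv_cancel_right]; exact hn⟩
  have hQ : IsPGroup p (R ⧸ Z) := hR.to_quotient Z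
  haveI : Nontrivial (R ⧸ Z) := by
    rw [QuotientGroup.nontrivial_iff]
    intro h
    have h1 := hord z hz1
    rw [show Subgroup.zpowers z = ⊤ from h, Subgroup.card_top, hm] at h1
    exact absurd (Nat.pow_right_injective hp1 (h1.trans (pow_one p).symm)) (by omega)
  obtain ⟨wb, hwb, hwb1⟩ := SetLike.exists_of_lt hQ.bot_lt_center
  obtain ⟨w, rfl⟩ := QuotientGroup.mk_surjective wb
  have hwZ : w ∉ Z := fun h => hwb1 (by rw [Subgroup.mem_bot]; exact (QuotientGroup.eq_one_iff w).2 h)
  have hmove : ∀ r : R, r * w * r⁻¹ * w⁻¹ ∈ Z := by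
    intro r
    rw [← QuotientGroup.eq_one_iff]
    simp only [QuotientGroup.mk_mul, QuotientGroup.mk_inv]
    rw [Subgroup.mem_center_iff.1 hwb r]
    group
  -- the centralizer of `w` has index at most `p`
  let C := Subgroup.centralizer ({w} : Set R)
  have hC : C.index ≤ p := by
    rw [← hord z hz1]
    refine Nat.card_le_card_of_injective (fun q : R ⧸ C => (⟨_, hmove q.out⟩ : Z)) ?_
    intro a b h
    have h' : a.out * w * a.out⁻¹ = b.out * w * b.out⁻¹ := mul_right_cancel (congrArg Subtype.val h)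
    rw [← QuotientGroup.out_eq' a, ← QuotientGroup.out_eq' b, QuotientGroup.eq,
      Subgroup.mem_centralizer_singleton_iff]
    calc a.out⁻¹ * b.out * w = a.out⁻¹ * (b.out * w * b.out⁻¹) * b.out := by group
      _ = a.out⁻¹ * (a.out * w * a.out⁻¹) * b.out := by rw [h']
      _ = w * (a.out⁻¹ * b.out) := by group
  have hzw : ∀ a ∈ Z, a * w = w * a := fun a ha =>
    (Subgroup.mem_center_iff.1 (Subgroup.zpowers_le.2 hzZ ha) w).symm
  have hZc : IsMulCommutative Z := inferInstance
  let A := Z ⊔ Subgroup.zpowers w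
  have hA : IsMulCommutative A := hcomm Z w hZc hzw
  have hAcard : p ^ 2 ≤ Nat.card A := by
    have := hbig Z w hwZ hZc hzw
    rwa [hord z hz1, ← sq] at this
  have hAle : Nat.card A ≤ p ^ 2 := hrank A hA fun a _ => hexp a
  obtain ⟨u, huC, huA⟩ : ∃ u ∈ C, u ∉ A := by
    by_contra h
    push_neg at h
    have h1 : Nat.card C ≤ p ^ 2 := (Subgroup.card_le_of_le (show C ≤ A from h)).trans hAle
    have h2 := C.card_mul_index
    have h3 : Nat.card R ≤ p ^ 2 * p := h2 ▸ Nat.mul_le_mul h1 hC
    rw [← pow_succ] at h3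
    exact absurd hlt (not_lt.2 h3)
  have hAu : ∀ a ∈ A, a * u = u * a := by
    intro a ha
    have hle : A ≤ Subgroup.centralizer ({u} : Set R) := by
      refine sup_le ?_ (Subgroup.zpowers_le.2 ?_)
      · intro x hx
        rw [Subgroup.mem_centralizer_singleton_iff]
        exact (Subgroup.mem_center_iff.1 (Subgroup.zpowers_le.2 hzZ hx) u).symm
      · rw [Subgroup.mem_centralizer_singleton_iff]
        exact (Subgroup.mem_centralizer_singleton_iff.1 huC).symm
    exact Subgroup.mem_centralizer_singleton_iff.1 (hle ha)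
  have h1 := hbig A u huA hA hAu
  have h2 := hrank (A ⊔ Subgroup.zpowers u) (hcomm A u hA hAu) fun a _ => hexp a
  nlinarith [Nat.mul_le_mul_right p hAcard]


end Cfsg.Agent.S3771
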