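import Cfsg.Statements.S3772
import Cfsg.Agent.H83.InvolutionCount
import Mathlib

set_option autoImplicit false
open Cfsg

namespace Cfsg.Agent.S3772

/-- Let G be a finite 2-group whose Frattini subgroup Φ(G) has order 2, with |G : Φ(G)| = 2^d, and let j be the number of elements x of G with x² = 1. Then j = 2^d, or j = 2^d + 2^(d−r) or j = 2^d − 2^(d−r) for some positive integer r with 2r ≤ d. Moreover if d = 2r and j is 2^d + 2^r or 2^d − 2^r, then G is extraspecial. -/
theorem result {G : Type*} [Group G] [Finite G] (hG : IsPGroup 2 G) (hΦ : Nat.card (frattini G) = 2) (d : ℕ) (hd : (frattini G).index = 2 ^ d) : (Nat.card {x : G // x ^ 2 = 1} = 2 ^ d ∨ ∃ r : ℕ, 1 ≤ r ∧ 2 * r ≤ d ∧ (Nat.card {x : G // x ^ 2 = 1} = 2 ^ d + 2 ^ (d - r) ∨ Nat.card {x : G // x ^ 2 = 1} + 2 ^ (d - r) = 2 ^ d)) ∧ (∀ r : ℕ, d = 2 * r → (Nat.card {x : G // x ^ 2 = 1} = 2 ^ d + 2 ^ r ∨ Nat.card {x : G // x ^ 2 = 1} + 2 ^ r = 2 ^ d) → Cfsg.IsExtraspecial 2 G) := by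
  classical
  haveI : Fact (Nat.Prime 2) := ⟨Nat.prime_two⟩
  set j := Nat.card {x : G // x ^ 2 = 1} with hj
  have hcard : Nat.card G = 2 ^ (d + 1) := by
    rw [← (frattini G).card_mul_index, hΦ, hd, pow_succ, mul_comm]
  have hfr : ∀ N : Subgroup G, commutator G ≤ N → (∀ x : G, x ^ 2 ∈ N) → frattini G ≤ N := fun N =>
    H19.frattini_le_of_commutator_pow N
  obtain ⟨e, he⟩ := IsPGroup.iff_card.1 (hG.to_subgroup (Subgroup.center G))
  have he0 : 1 ≤ e := by
    by_contra h
    have h0 : e = 0 := by omega
    haveI : Nontrivial G := by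
      rw [← Finite.one_lt_card_iff_nontrivial, hcard]
      exact Nat.one_lt_two_pow (by omega)
    haveI := hG.center_nontrivial
    have := Finite.one_lt_card (α := Subgroup.center G)
    rw [he, h0] at this
    omega
  rcases H83.involution_count_sq hG hΦ with h0 | hS
  · have hjd : j = 2 ^ d := by
      rw [hcard, pow_succ] at h0
      push_cast at h0
      have : (j : ℤ) = ((2 ^ d : ℕ) : ℤ) := by push_cast; linarith
      exact_mod_cast this
    refine ⟨Or.inl hjd, fun r _ h => ?_⟩
    have : 0 < 2 ^ r := Nat.two_pow_pos r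
    omega
  set S := 2 * (j : ℤ) - Nat.card G with hSdef
  have hnat : S.natAbs ^ 2 = 2 ^ (d + 1 + e) := by
    have h1 : ((S.natAbs ^ 2 : ℕ) : ℤ) = ((2 ^ (d + 1 + e) : ℕ) : ℤ) := by
      push_cast
      rw [sq_abs, hS, hcard, he]
      push_cast
      ring
    exact_mod_cast h1
  obtain ⟨k, -, hk⟩ := (Nat.dvd_prime_pow Nat.prime_two).1 (hnat ▸ dvd_pow_self S.natAbs two_ne_zero)
  rw [hk, ← pow_mul] at hnat
  have hkk := Nat.pow_right_injective le_rfl hnat
  -- the centre is not everything and not of index two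
  have hned : e + 2 ≤ d + 1 := by
    have hdvd : 2 ^ e ∣ 2 ^ (d + 1) := he ▸ hcard ▸ Subgroup.card_subgroup_dvd_card _
    have hle : e ≤ d + 1 := (Nat.pow_dvd_pow_iff_le_right Nat.one_lt_two).1 hdvd
    by_contra hgt
    have hidx : (Subgroup.center G).index ∣ 2 := by
      have h1 := (Subgroup.center G).card_mul_index
      rw [he, hcard, show d + 1 = e + (d + 1 - e) by omega, pow_add] at h1
      rw [Nat.eq_of_mul_eq_mul_left (Nat.two_pow_pos e) h1]
      exact (pow_dvd_pow 2 (show d + 1 - e ≤ 1 by omega)).trans (by norm_num)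
    haveI : IsCyclic (G ⧸ Subgroup.center G) := by
      rcases (Nat.dvd_prime Nat.prime_two).1 hidx with h | h
      · haveI : Subsingleton (G ⧸ Subgroup.center G) :=
          (Nat.card_eq_one_iff_unique.1 (by rw [← Subgroup.index_eq_card, h])).1
        infer_instance
      · exact isCyclic_of_prime_card (p := 2) (by rw [← Subgroup.index_eq_card, h])
    have hcc : ∀ a b : G, a * b = b * a :=
      commutative_of_cyclic_center_quotient (QuotientGroup.mk' (Subgroup.center G))
        (QuotientGroup.ker_mk' _).le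
    have htop : Subgroup.center G = ⊤ := eq_top_iff.2 fun a _ => Subgroup.mem_center_iff.2 fun b => hcc b a
    have hee : e = d + 1 := by
      rw [htop, Subgroup.card_top, hcard] at he
      exact (Nat.pow_right_injective le_rfl he).symm
    -- `|S| = |G|` forces every element to be an involution
    have hk' : k = d + 1 := by omega
    have hj' : (j : ℤ) = Nat.card G ∨ j = 0 := by
      rw [hk', ← hcard] at hk
      rcases Int.natAbs_eq S with h | h <;> rw [hk] at h <;> omega
    rcases hj' with hj' | hj'
    · have hallj : ∀ x : G, x ^ 2 = 1 := by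
        by_contra hne
        push Not at hne
        obtain ⟨x, hx⟩ := hne
        have hlt : j < Nat.card G := Finite.card_subtype_lt (p := fun x : G => x ^ 2 = 1) hx
        omega
      have hle1 : frattini G ≤ ⊥ := hfr ⊥ (by
        rw [commutator_def, Subgroup.commutator_le]
        intro a _ b _
        rw [Subgroup.mem_bot, commutatorElement_def, hcc a b]; group) (fun x => by simp [hallj x])
      rw [le_bot_iff.1 hle1, Subgroup.card_bot] at hΦ
      omega
    · haveI : Nonempty {x : G // x ^ 2 = 1} := ⟨⟨1, one_pow 2⟩⟩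
      have : 0 < j := Nat.card_pos
      omega
  have hjk : j = 2 ^ d + 2 ^ (k - 1) ∨ j + 2 ^ (k - 1) = 2 ^ d := by
    have e2 : 2 ^ k = 2 * 2 ^ (k - 1) := by
      rw [← pow_succ']
      congr 1
      omega
    rw [e2] at hk
    have hG2 : Nat.card G = 2 * 2 ^ d := by rw [hcard, pow_succ']
    rcases Int.natAbs_eq S with h | h <;> rw [hk] at h <;> omega
  refine ⟨Or.inr ⟨d + 1 - k, by omega, by omega, ?_⟩, fun r hr hjr => ?_⟩
  · rw [show d - (d + 1 - k) = k - 1 by omega]
    exact hjk
  have hkr : 2 ^ r = 2 ^ (k - 1) := by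
    have := Nat.two_pow_pos r
    have := Nat.two_pow_pos (k - 1)
    omega
  have he1 : e = 1 := by
    have := Nat.pow_right_injective le_rfl hkr
    omega
  have hΦc : frattini G ≤ Subgroup.center G := by
    intro a ha
    refine Subgroup.mem_center_iff.2 fun g => ?_
    haveI : (frattini G).Characteristic := frattini_characteristic
    haveI : (frattini G).Normal := inferInstance
    obtain ⟨x, y, hxy, hu⟩ := Nat.card_eq_two_iff.1 hΦ
    have hall : ∀ t : frattini G, t = x ∨ t = y := fun t => by
      have : t ∈ ({x, y} : Set (frattini G)) := hu ▸ Set.mem_univ t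
      simpa using this
    by_cases ha1 : a = 1
    · rw [ha1, mul_one, one_mul]
    have hconj : g * a * g⁻¹ ∈ frattini G := ‹(frattini G).Normal›.conj_mem a ha g
    have hne : g * a * g⁻¹ ≠ 1 := fun h => ha1 (by
      calc a = g⁻¹ * (g * a * g⁻¹) * g := by group
        _ = 1 := by rw [h]; group)
    have key : (⟨g * a * g⁻¹, hconj⟩ : frattini G) = ⟨a, ha⟩ := by
      rcases hall ⟨g * a * g⁻¹, hconj⟩ with h1 | h1 <;> rcases hall ⟨a, ha⟩ with h2 | h2 <;>
        rcases hall 1 with h3 | h3 <;>
        first
          | exact h1.trans h2.symm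
          | exact absurd (congrArg Subtype.val (h1.trans h3.symm)) hne
          | exact absurd (congrArg Subtype.val (h2.trans h3.symm)) ha1
    exact mul_inv_eq_iff_eq_mul.1 (congrArg Subtype.val key)
  have hΦZ : frattini G = Subgroup.center G :=
    Subgroup.eq_of_le_of_card_ge hΦc (by rw [hΦ, he, he1, pow_one])
  refine ⟨⟨hG, hΦZ, ?_⟩, by rw [he, he1, pow_one]⟩
  refine le_antisymm ((H19.commutator_pow_mem_frattini hG).1.trans hΦc) ?_
  intro a ha
  by_contra hna
  -- otherwise the commutator subgroup is trivial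
  have hlt : commutator G < Subgroup.center G :=
    lt_of_le_of_ne ((H19.commutator_pow_mem_frattini hG).1.trans hΦc) fun h => hna (h ▸ ha)
  have hc1 : Nat.card (commutator G) = 1 := by
    have h1 : Nat.card (commutator G) < 2 := by
      have := lt_of_not_ge fun h => hlt.ne (Subgroup.eq_of_le_of_card_ge hlt.le h)
      rwa [he, he1, pow_one] at this
    have := Nat.card_pos (α := commutator G)
    omega
  have htop : Subgroup.center G = ⊤ := by
    refine eq_top_iff.2 fun x _ => Subgroup.mem_center_iff.2 fun y => ?_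
    have := Subgroup.commutator_mem_commutator (Subgroup.mem_top y) (Subgroup.mem_top x)
    rw [← commutator_def, Subgroup.card_eq_one.1 hc1, Subgroup.mem_bot, commutatorElement_def] at this
    exact (mul_inv_eq_iff_eq_mul.1 (mul_inv_eq_one.1 this))
  rw [htop, Subgroup.card_top, hcard, he1] at he
  have := Nat.pow_right_injective le_rfl he
  omega

end Cfsg.Agent.S3772
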