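import Cfsg.Statements.S3773
import Cfsg.Agent.H83.SquareBound
import Mathlib

set_option autoImplicit false
open Cfsg
open scoped commutatorElement

namespace Cfsg.Agent.S3773

/-- Let G be a finite 2-group of nilpotency class at most 2 and exponent dividing 4 in which the elements x with x² = 1 form a subgroup N. Then |G| ≤ |N|³, and |G| < |N|³ unless G is special. -/
theorem result {G : Type*} [Group G] [Finite G] (hG : IsPGroup 2 G) (hcl : (⊤ : Subgroup G).lowerCentralSeries 2 = ⊥) (hexp : ∀ x : G, x ^ 4 = 1) (hN : ∀ x y : G, x ^ 2 = 1 → y ^ 2 = 1 → (x * y) ^ 2 = 1) : Nat.card G ≤ Nat.card {x : G // x ^ 2 = 1} ^ 3 ∧ (¬ Cfsg.IsSpecial 2 G → Nat.card G < Nat.card {x : G // x ^ 2 = 1} ^ 3) := by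
  classical
  haveI : Fact (Nat.Prime 2) := ⟨Nat.prime_two⟩
  have hcomm : ∀ a b g : G, g * ⁅a, b⁆ = ⁅a, b⁆ * g := by
    intro a b g
    have h1 : ⁅⁅a, b⁆, g⁆ ∈ (⊤ : Subgroup G).lowerCentralSeries 2 := by
      rw [Subgroup.lowerCentralSeries_succ, Subgroup.lowerCentralSeries_succ]
      exact Subgroup.commutator_mem_commutator (Subgroup.commutator_mem_commutator (by simp) (by simp))
        (Subgroup.mem_top g)
    rw [hcl, Subgroup.mem_bot, commutatorElement_eq_one_iff_mul_comm] at h1
    exact h1.symm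
  have hmul : ∀ x y : G, x * y * (x * y) = ⁅y, x⁆ * (x * x * (y * y)) := by
    intro x y
    calc x * y * (x * y) = x * (⁅y, x⁆ * (x * y)) * y := by rw [commutatorElement_def]; group
      _ = ⁅y, x⁆ * x * (x * y) * y := by rw [← mul_assoc x, hcomm y x x]
      _ = ⁅y, x⁆ * (x * x * (y * y)) := by group
  have hsqc : ∀ x y : G, x * x * y = y * (x * x) := by
    intro x y
    have hc2 : ⁅y, x⁆ * ⁅y, x⁆ = 1 := by
      set c := ⁅y, x⁆ with hc
      have hcc : ∀ g, g * c = c * g := fun g => hcomm y x g
      have e0 : y * x * y⁻¹ = c * x := by rw [hc, commutatorElement_def]; group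
      have e1 : y * (x * x) * y⁻¹ = c * c * (x * x) := by
        calc y * (x * x) * y⁻¹ = (y * x * y⁻¹) * (y * x * y⁻¹) := by group
          _ = c * (x * c) * x := by rw [e0]; group
          _ = c * c * (x * x) := by rw [hcc x]; group
      have e2 : y * y * (x * x) = c * c * (c * c) * (x * x) * (y * y) := by
        calc y * y * (x * x) = y * (y * (x * x) * y⁻¹) * y := by group
          _ = (y * (c * c)) * (x * x) * y := by rw [e1]; group
          _ = c * c * (y * (x * x) * y⁻¹) * (y * y) := by
            rw [← mul_assoc y, hcc y, mul_assoc c y, hcc y]; group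
          _ = c * c * (c * c) * (x * x) * (y * y) := by rw [e1]; group
      have e3 : y * (x * x * (x * x)) * y⁻¹ = c * c * (c * c) * (x * x * (x * x)) := by
        calc y * (x * x * (x * x)) * y⁻¹ = (y * (x * x) * y⁻¹) * (y * (x * x) * y⁻¹) := by group
          _ = c * c * ((x * x) * (c * c)) * (x * x) := by rw [e1]; group
          _ = c * c * (c * c * (x * x)) * (x * x) := by
            rw [← mul_assoc (x * x) c c, hcc (x * x), mul_assoc c (x * x) c, hcc (x * x), ← mul_assoc c c]
          _ = c * c * (c * c) * (x * x * (x * x)) := by group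
      have h4 : ∀ g : G, g * g * (g * g) = 1 := fun g => by
        have := hexp g
        rwa [show (4 : ℕ) = 2 + 2 from rfl, pow_add, sq] at this
      rw [h4, mul_one, mul_inv_cancel, mul_one] at e3
      rw [← e3, one_mul] at e2
      have e4 := h4 (x * y)
      rw [hmul x y, ← hc] at e4
      calc c * c = c * c * ((x * x * (x * x)) * (y * y * (y * y))) := by rw [h4, h4, mul_one, mul_one]
        _ = c * c * ((x * x) * ((x * x) * (y * y)) * (y * y)) := by group
        _ = c * c * ((x * x) * (y * y * (x * x)) * (y * y)) := by rw [e2]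
        _ = c * (c * (x * x * (y * y))) * (x * x * (y * y)) := by group
        _ = c * ((x * x * (y * y)) * c) * (x * x * (y * y)) := by rw [hcc (x * x * (y * y))]
        _ = 1 := by rw [← e4]; group
    calc x * x * y = ⁅y, x⁆ * ⁅y, x⁆ * (x * x * y) := by rw [hc2, one_mul]
      _ = (⁅y, x⁆ * x) * ((⁅y, x⁆ * x) * y) := by
        rw [mul_assoc ⁅y, x⁆ x, mul_assoc ⁅y, x⁆ ⁅y, x⁆]
        congr 1
        rw [← mul_assoc x, ← mul_assoc x, hcomm y x x]
        group
      _ = y * (x * x) := by rw [commutatorElement_def]; group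
  set E := Subgroup.closure (Set.range fun x : G => x * x) with hE
  have hEc : E ≤ Subgroup.center G := (Subgroup.closure_le _).2 (by
    rintro _ ⟨x, rfl⟩
    exact Subgroup.mem_center_iff.2 fun g => (hsqc x g).symm)
  have hE2 : ∀ e ∈ E, e * e = 1 := by
    intro e he
    induction he using Subgroup.closure_induction with
    | mem u hu =>
      obtain ⟨x, rfl⟩ := hu
      have := hexp x
      rwa [show (4 : ℕ) = 2 + 2 from rfl, pow_add, sq] at this
    | one => exact one_mul 1
    | mul u v hu _ iu iv =>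
      calc u * v * (u * v) = u * (v * u) * v := by group
        _ = u * (u * v) * v := by rw [Subgroup.mem_center_iff.1 (hEc hu) v]
        _ = u * u * (v * v) := by group
        _ = 1 := by rw [iu, iv, one_mul]
    | inv u _ iu => rw [← mul_inv_rev, iu, inv_one]
  let D : Subgroup G :=
    { carrier := {x | x * x = 1}
      one_mem' := one_mul 1
      mul_mem' := fun {x y} hx hy => by
        have := hN x y (by rw [sq]; exact hx) (by rw [sq]; exact hy)
        rwa [sq] at this
      inv_mem' := fun {x} (hx : x * x = 1) => show x⁻¹ * x⁻¹ = 1 by rw [← mul_inv_rev, hx, inv_one] }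
  have hDcard : Nat.card D = Nat.card {x : G // x ^ 2 = 1} :=
    Nat.card_congr (Equiv.subtypeEquivRight fun x => by rw [sq]; exact Iff.rfl)
  have hsqE : ∀ x : G, x * x ∈ E := fun x => Subgroup.subset_closure ⟨x, rfl⟩
  have hmain := H83.card_mul_center_le hG E hEc hE2 hsqE D (fun x => Iff.rfl)
  have hED : E ≤ D := fun e he => hE2 e he
  have hEZ := Subgroup.card_le_of_le hEc
  have hEDc := Subgroup.card_le_of_le hED
  rw [← hDcard]
  set n := Nat.card D with hn
  set m := Nat.card E with hm
  set zc := Nat.card (Subgroup.center G) with hzc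
  have hmpos : 0 < m := Nat.card_pos
  have hnpos : 0 < n := Nat.card_pos
  have h1 : Nat.card G ≤ m * n ^ 2 := by
    refine Nat.le_of_mul_le_mul_right ?_ hmpos
    calc Nat.card G * m ≤ Nat.card G * zc := Nat.mul_le_mul_left _ hEZ
      _ ≤ (m * n) ^ 2 := hmain
      _ = m * n ^ 2 * m := by ring
  have h3 : m * n ^ 2 ≤ n ^ 3 := by
    calc m * n ^ 2 ≤ n * n ^ 2 := Nat.mul_le_mul_right _ hEDc
      _ = n ^ 3 := by ring
  refine ⟨h1.trans h3, fun hns => lt_of_le_of_ne (h1.trans h3) fun heq => hns ?_⟩
  have hmn : m = n := by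
    refine le_antisymm hEDc ?_
    rw [heq] at h1
    refine Nat.le_of_mul_le_mul_right ?_ (pow_pos hnpos 2)
    calc n * n ^ 2 = n ^ 3 := by ring
      _ ≤ m * n ^ 2 := h1
  have hDE : E = D := Subgroup.eq_of_le_of_card_ge hED hmn.ge
  have hZD : Subgroup.center G = E := by
    refine (Subgroup.eq_of_le_of_card_ge hEc ?_).symm
    rw [heq, hmn] at hmain
    refine Nat.le_of_mul_le_mul_left ?_ (pow_pos hnpos 3)
    calc n ^ 3 * zc ≤ (n * n) ^ 2 := hmain
      _ = n ^ 3 * n := by ring
      _ = n ^ 3 * m := by rw [hmn]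
  have hΦE : frattini G = E := by
    refine le_antisymm (H19.frattini_le_of_commutator_pow E ?_ fun x => by rw [sq]; exact hsqE x) ?_
    · haveI : E.Normal := ⟨fun y hy g => by
        rw [Subgroup.mem_center_iff.1 (hEc hy) g, mul_inv_cancel_right]; exact hy⟩
      rw [commutator_def, Subgroup.commutator_le]
      intro a _ b _
      have e : ⁅a, b⁆ = b * a * (b * a) * ((b * b) * (a * a))⁻¹ := by
        rw [hmul b a]; group
      rw [e]
      exact E.mul_mem (hsqE _) (E.inv_mem (E.mul_mem (hsqE b) (hsqE a)))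
    · refine (Subgroup.closure_le _).2 ?_
      rintro _ ⟨x, rfl⟩
      have := (H19.commutator_pow_mem_frattini hG).2 x
      rwa [sq] at this
  refine ⟨hG, hΦE.trans hZD.symm, le_antisymm ((H19.commutator_pow_mem_frattini hG).1.trans
    (hΦE.le.trans hZD.ge)) ?_⟩
  -- the derived subgroup
  set G' := commutator G with hG'
  haveI : G'.Normal := inferInstance
  have hG'E : G' ≤ E := (H19.commutator_pow_mem_frattini hG).1.trans hΦE.le
  let σ : G →* G ⧸ G' :=
    { toFun := fun x => ((x * x : G) : G ⧸ G')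
      map_one' := by simp
      map_mul' := fun x y => by
        have hc : ((⁅y, x⁆ : G) : G ⧸ G') = 1 := (QuotientGroup.eq_one_iff _).2 (by
          rw [hG', commutator_def]
          exact Subgroup.commutator_mem_commutator (Subgroup.mem_top y) (Subgroup.mem_top x))
        rw [hmul x y, QuotientGroup.mk_mul, hc, one_mul, QuotientGroup.mk_mul] }
  set K := σ.ker with hK
  have hKmem : ∀ x, x ∈ K ↔ x * x ∈ G' := fun x => by
    rw [hK, MonoidHom.mem_ker]
    exact QuotientGroup.eq_one_iff _
  have hKidx : K.index * Nat.card G' ≤ m := by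
    rw [hK, Subgroup.index_ker, hm]
    have hle : σ.range ≤ E.map (QuotientGroup.mk' G') := by
      rintro _ ⟨x, rfl⟩
      exact ⟨x * x, hsqE x, rfl⟩
    refine (Nat.mul_le_mul_right _ (Subgroup.card_le_of_le hle)).trans (le_of_eq ?_)
    rw [← Subgroup.relIndex_ker, QuotientGroup.ker_mk']
    have h4 := Subgroup.relIndex_mul_relIndex (⊥ : Subgroup G) G' E bot_le hG'E
    rw [Subgroup.relIndex_bot_left, Subgroup.relIndex_bot_left] at h4
    rw [← h4, mul_comm]
  have hDK : D ≤ K := fun x (hx : x * x = 1) => (hKmem x).2 (hx ▸ G'.one_mem)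
  have hG'K : G' ≤ K := hG'E.trans (hED.trans hDK)
  have hb := H83.card_mul_center_le (hG.to_subgroup K) (G'.subgroupOf K)
    (fun a ha => Subgroup.mem_center_iff.2 fun g => Subtype.ext
      (Subgroup.mem_center_iff.1 (hEc (hG'E ha)) g))
    (fun a ha => Subtype.ext (hE2 _ (hG'E ha)))
    (fun a => (hKmem a).1 a.2) (D.subgroupOf K)
    (fun a => ⟨fun h => Subtype.ext h, fun h => congrArg Subtype.val h⟩)
  rw [Nat.card_congr (Subgroup.subgroupOfEquivOfLe hG'K).toEquiv,
    Nat.card_congr (Subgroup.subgroupOfEquivOfLe hDK).toEquiv, ← hn] at hb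
  have hZK : n ≤ Nat.card (Subgroup.center K) := by
    refine le_trans (le_of_eq (hn.trans (Nat.card_congr (Subgroup.subgroupOfEquivOfLe hDK).toEquiv).symm))
      (Subgroup.card_le_of_le ?_)
    exact fun a ha => Subgroup.mem_center_iff.2 fun g => Subtype.ext
      (Subgroup.mem_center_iff.1 (hEc (hDE ▸ ha : (a : G) ∈ E)) g)
  intro x hx
  rw [hZD] at hx
  have hG'n : n ≤ Nat.card G' := by
    set q := Nat.card G' with hq
    have hKc : Nat.card K * K.index = n ^ 3 := K.card_mul_index.trans heq
    refine Nat.le_of_mul_le_mul_right ?_ (Nat.mul_pos (pow_pos hnpos 3) (Nat.card_pos : 0 < Nat.card G'))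
    calc n * (n ^ 3 * q) = Nat.card K * n * (K.index * q) := by rw [← hKc]; ring
      _ ≤ Nat.card K * Nat.card (Subgroup.center K) * (K.index * q) :=
        Nat.mul_le_mul_right _ (Nat.mul_le_mul_left _ hZK)
      _ ≤ (q * n) ^ 2 * m := Nat.mul_le_mul hb hKidx
      _ = q * (n ^ 3 * q) := by rw [hmn]; ring
  exact (Subgroup.eq_of_le_of_card_ge hG'E (hmn.le.trans hG'n)).ge hx

end Cfsg.Agent.S3773
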