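import Cfsg.Statements.S3775
import Cfsg.Agent.H20.AbelianAction

set_option autoImplicit false
open Cfsg

namespace Cfsg.Agent.S3775

/-- Let A be a finite abelian p-group and X a group of automorphisms of A of order prime to p. Call a subgroup of A invariant when every element of X maps it onto itself. Then the following are equivalent: (i) A is not the direct product of two nontrivial invariant subgroups; (ii) every invariant subgroup of A is one of the subgroups Ω_i(A) = {a : a^(p^i) = 1}; (iii) the subgroup Ω₁(A) of elements of order dividing p has no invariant subgroups other than 1 and itself. -/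
theorem result {A : Type*} [CommGroup A] [Finite A] {p : ℕ} [Fact p.Prime] (hA : IsPGroup p A) (X : Subgroup (MulAut A)) (hX : (Nat.card X).Coprime p) : ((¬ ∃ B C : Subgroup A, B ≠ ⊥ ∧ C ≠ ⊥ ∧ (∀ x ∈ X, B.map x.toMonoidHom = B) ∧ (∀ x ∈ X, C.map x.toMonoidHom = C) ∧ B ⊓ C = ⊥ ∧ B ⊔ C = ⊤) ↔ (∀ B : Subgroup A, (∀ x ∈ X, B.map x.toMonoidHom = B) → ∃ i : ℕ, ∀ a : A, a ∈ B ↔ a ^ p ^ i = 1)) ∧ ((∀ B : Subgroup A, (∀ x ∈ X, B.map x.toMonoidHom = B) → ∃ i : ℕ, ∀ a : A, a ∈ B ↔ a ^ p ^ i = 1) ↔ (∀ B : Subgroup A, (∀ x ∈ X, B.map x.toMonoidHom = B) → (∀ b ∈ B, b ^ p = 1) → B = ⊥ ∨ ∀ a : A, a ∈ B ↔ a ^ p = 1)) := by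
  classical
  obtain ⟨N, hN⟩ := IsPGroup.iff_card.mp hA
  have hX' : (Nat.card X).Coprime (Nat.card A) := hN ▸ hX.pow_right N
  have hinv : ∀ B : Subgroup A, (∀ x ∈ X, B.map x.toMonoidHom = B) ↔
      Cfsg.Agent.H20.AbAction.Invariant X B := by
    refine fun B => ⟨fun h x hx b hb => h x hx ▸ Subgroup.mem_map_of_mem _ hb, fun h x hx => ?_⟩
    refine Subgroup.eq_of_le_of_card_ge ?_ (le_of_eq ?_)
    · rintro _ ⟨b, hb, rfl⟩
      exact h x hx b hb
    · exact (Nat.card_congr (Subgroup.equivMapOfInjective B _ x.injective).toEquiv)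
  have hmem : ∀ (B : Subgroup A) (i : ℕ),
      (∀ a : A, a ∈ B ↔ a ^ p ^ i = 1) ↔ B = Cfsg.Agent.H20.AbAction.killed (p ^ i) A := fun B i =>
    ⟨fun h => SetLike.ext fun a => h a, fun h a => h ▸ Iff.rfl⟩
  have hk1 : ∀ B : Subgroup A,
      (∀ a : A, a ∈ B ↔ a ^ p = 1) ↔ B = Cfsg.Agent.H20.AbAction.killed p A := fun B =>
    ⟨fun h => SetLike.ext fun a => h a, fun h a => h ▸ Iff.rfl⟩
  simp only [hinv, hmem, hk1]
  have h31 : (∀ B, Cfsg.Agent.H20.AbAction.Invariant X B → (∀ b ∈ B, b ^ p = 1) →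
      B = ⊥ ∨ B = Cfsg.Agent.H20.AbAction.killed p A) →
      ∀ B, Cfsg.Agent.H20.AbAction.Invariant X B →
        ∃ i : ℕ, B = Cfsg.Agent.H20.AbAction.killed (p ^ i) A :=
    fun h => Cfsg.Agent.H20.AbAction.eq_killed_of_irreducible hA fun U hU hUp =>
      h U hU fun b hb => hUp hb
  have h12 : (¬ ∃ B C : Subgroup A, B ≠ ⊥ ∧ C ≠ ⊥ ∧ Cfsg.Agent.H20.AbAction.Invariant X B ∧
      Cfsg.Agent.H20.AbAction.Invariant X C ∧ B ⊓ C = ⊥ ∧ B ⊔ C = ⊤) →
      ∀ B, Cfsg.Agent.H20.AbAction.Invariant X B → (∀ b ∈ B, b ^ p = 1) →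
        B = ⊥ ∨ B = Cfsg.Agent.H20.AbAction.killed p A := by
    intro h B hB hBp
    by_contra hcon
    rw [not_or] at hcon
    exact h (Cfsg.Agent.H20.AbAction.exists_decomposition hA hX' hB (fun b hb => hBp b hb)
      hcon.1 hcon.2)
  refine ⟨⟨fun h => h31 (h12 h), ?_⟩, ⟨?_, h31⟩⟩
  · rintro h ⟨B, C, hB0, hC0, hB, hC, hBC, -⟩
    obtain ⟨i, rfl⟩ := h B hB
    obtain ⟨j, rfl⟩ := h C hC
    have hmono : ∀ k l : ℕ, k ≤ l → Cfsg.Agent.H20.AbAction.killed (p ^ k) A ≤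
        Cfsg.Agent.H20.AbAction.killed (p ^ l) A := by
      intro k l hkl a ha
      obtain ⟨d, rfl⟩ := Nat.exists_eq_add_of_le hkl
      rw [Cfsg.Agent.H20.AbAction.mem_killed] at ha ⊢
      rw [pow_add, pow_mul, ha, one_pow]
    rcases le_total i j with hij | hij
    · exact hB0 (inf_eq_left.mpr (hmono i j hij) ▸ hBC)
    · exact hC0 (inf_eq_right.mpr (hmono j i hij) ▸ hBC)
  · intro h B hB hBp
    obtain ⟨i, rfl⟩ := h B hB
    rcases Nat.eq_zero_or_pos i with rfl | hi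
    · left
      refine (Subgroup.eq_bot_iff_forall _).mpr fun a ha => ?_
      simpa [Cfsg.Agent.H20.AbAction.mem_killed] using ha
    · right
      refine le_antisymm (fun a ha => hBp a ha) fun a ha => ?_
      obtain ⟨d, rfl⟩ := Nat.exists_eq_add_of_le hi
      rw [Cfsg.Agent.H20.AbAction.mem_killed] at ha ⊢
      rw [pow_add, pow_one, pow_mul, ha, one_pow]

end Cfsg.Agent.S3775
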