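import Cfsg.Statements.S3778
import Cfsg.Agent.H83.BreadthClass

set_option autoImplicit false
open Cfsg

namespace Cfsg.Agent.S3778

/-- If G is a finite p-group in which every conjugacy class has at most p^b elements (every element has centralizer of index at most p^b), then G is abelian when b = 0, and when b ≥ 1 its nilpotency class c satisfies (c − 1)(p − 1) < bp, that is c < bp/(p − 1) + 1, and hence c ≤ 2b. -/
theorem result {G : Type*} [Group G] [Finite G] {p : ℕ} [Fact p.Prime] (hG : IsPGroup p G) (b : ℕ) (hb : ∀ x : G, (Subgroup.centralizer ({x} : Set G)).index ≤ p ^ b) : ∃ c : ℕ, (⊤ : Subgroup G).lowerCentralSeries c = ⊥ ∧ (b ≠ 0 → (c - 1) * (p - 1) < b * p ∧ c ≤ 2 * b) ∧ (b = 0 → c ≤ 1) := by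
  exact H83.class_breadth_bound hG b hb

end Cfsg.Agent.S3778
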