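import Mathlib
import Cfsg.Statements.S3784

set_option autoImplicit false
open Cfsg

namespace Cfsg.Agent.S3784

/-- A sum of `n` odd integers is odd iff `n` is odd. -/
theorem odd_sum_range {f : ℕ → ℤ} (hf : ∀ j, Odd (f j)) (n : ℕ) :
    Odd (∑ j ∈ Finset.range n, f j) ↔ Odd n := by
  induction n with
  | zero => simp
  | succ k ih =>
    rw [Finset.sum_range_succ, Int.odd_add', Nat.odd_add_one, ← ih, ← Int.not_odd_iff_even]
    simp [hf k]

/-- Let p, q be primes and a, b positive integers with p^a = q^b + 1. Then either p = 2, b = 1, a is prime and q = 2^a − 1; or q = 2, a = 1, b is a power of 2 and p = 2^b + 1; or p^a = 9 and q^b = 8. -/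
theorem result (p q a b : ℕ) (hp : p.Prime) (hq : q.Prime) (ha : 1 ≤ a) (hb : 1 ≤ b) (h : p ^ a = q ^ b + 1) : (p = 2 ∧ b = 1 ∧ a.Prime ∧ q + 1 = 2 ^ a) ∨ (q = 2 ∧ a = 1 ∧ (∃ m : ℕ, b = 2 ^ m) ∧ p = 2 ^ b + 1) ∨ (p ^ a = 9 ∧ q ^ b = 8) := by
  have hp2 := hp.two_le
  have hq2 := hq.two_le
  rcases hp.eq_two_or_odd' with rfl | hpo
  · left
    have hqo : Odd q := by
      rcases hq.eq_two_or_odd' with rfl | h
      · exfalso
        have h1 : Even (2 ^ a) := by simp [Nat.even_pow]; omega
        have h2 : Even (2 ^ b) := by simp [Nat.even_pow]; omega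
        rw [h, Nat.even_add_one] at h1
        exact h1 h2
      · exact h
    rcases Nat.even_or_odd b with hb2 | hbo
    · exfalso
      obtain ⟨c, rfl⟩ := hb2
      obtain ⟨e, he⟩ := hqo.pow (n := c)
      have hbig : 2 ≤ q ^ c := le_trans hq2 (Nat.le_self_pow (by omega) q)
      rcases Nat.lt_or_ge a 2 with h1 | h1
      · obtain rfl : a = 1 := by omega
        rw [pow_add] at h
        have := Nat.mul_le_mul hbig hbig
        omega
      · obtain ⟨f, rfl⟩ : ∃ f, a = f + 2 := ⟨a - 2, by omega⟩
        rw [pow_add, pow_add, he] at h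
        ring_nf at h
        omega
    · have hdvd : q + 1 ∣ q ^ b + 1 := by
        have := Odd.nat_add_dvd_pow_add_pow q 1 hbo
        simpa using this
      obtain ⟨i, hi, hqi⟩ := (Nat.dvd_prime_pow Nat.prime_two).1 (h ▸ hdvd)
      have hb1 : b = 1 := by
        -- compare the two factorizations in the integers
        have hs : ((∑ j ∈ Finset.range b, (-(q : ℤ)) ^ j)) * (-(q : ℤ) - 1) = (-(q : ℤ)) ^ b - 1 :=
          geom_sum_mul _ _
        have hodd : Odd (∑ j ∈ Finset.range b, (-(q : ℤ)) ^ j) := by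
          have hq' : Odd (q : ℤ) := by exact_mod_cast hqo
          exact (odd_sum_range (fun j => (Odd.neg hq').pow) b).2 hbo
        rw [hbo.neg_pow] at hs
        have hs' : (∑ j ∈ Finset.range b, (-(q : ℤ)) ^ j) * (2 : ℤ) ^ i = (2 : ℤ) ^ a := by
          have e1 : ((q : ℤ) + 1) = (2 : ℤ) ^ i := by exact_mod_cast hqi
          have e2 : (2 : ℤ) ^ a = (q : ℤ) ^ b + 1 := by exact_mod_cast h
          rw [← e1, e2]; linarith
        by_contra hb1
        have hlt : i < a := by
          rcases hi.lt_or_eq with h1 | h1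
          · exact h1
          · exfalso
            subst h1
            have : q ^ b = q ^ 1 := by rw [pow_one]; omega
            exact hb1 (Nat.pow_right_injective hq2 this)
        obtain ⟨k, rfl⟩ : ∃ k, a = i + (k + 1) := ⟨a - i - 1, by omega⟩
        rw [pow_add, mul_comm] at hs'
        have := mul_left_cancel₀ (pow_ne_zero i two_ne_zero) hs'
        rw [this, pow_succ] at hodd
        exact (Int.not_even_iff_odd.2 hodd) (even_two.mul_left _)
      subst hb1
      rw [pow_one] at h
      have hne : a ≠ 1 := by rintro rfl; omega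
      have hpr : (2 ^ a - 1).Prime := by rwa [h, Nat.add_sub_cancel]
      exact ⟨rfl, rfl, (Nat.prime_of_pow_sub_one_prime hne hpr).2, h.symm⟩
  · right
    have hq : q = 2 := by
      rcases hq.eq_two_or_odd' with h2 | h2
      · exact h2
      · exfalso
        have h1 : Odd (p ^ a) := hpo.pow
        have h3 : Odd (q ^ b) := h2.pow
        rw [h, Nat.odd_add_one] at h1
        exact h1 h3
    subst hq
    rcases Nat.even_or_odd a with hae | hao
    · right
      obtain ⟨c, rfl⟩ := hae
      have hx : 3 ≤ p ^ c := by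
        rcases hpo with ⟨k, hk⟩
        exact le_trans (by omega) (Nat.le_self_pow (show c ≠ 0 by omega) p)
      set x := p ^ c with hxdef
      rw [pow_add, ← hxdef] at h
      have h' : (x - 1) * (x + 1) = 2 ^ b := by
        obtain ⟨y, hy⟩ : ∃ y, x = y + 1 := ⟨x - 1, by omega⟩
        rw [hy] at h ⊢
        simp only [Nat.add_sub_cancel]
        nlinarith
      obtain ⟨i, hi, e1⟩ := (Nat.dvd_prime_pow Nat.prime_two).1 (Dvd.intro _ h')
      obtain ⟨j, hj, e2⟩ := (Nat.dvd_prime_pow Nat.prime_two).1 (Dvd.intro_left _ h')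
      have hi1 : 1 ≤ i := by
        by_contra h0; obtain rfl : i = 0 := by omega
        simp at e1; omega
      have hij : i < j := (Nat.pow_lt_pow_iff_right (show 1 < 2 by norm_num)).1 (by omega)
      have hd : 2 ^ (i + 1) ∣ 2 ^ j := pow_dvd_pow _ hij
      have hi2 : i = 1 := by
        by_contra h2
        have h4 : 4 ∣ 2 ^ i := (show (4:ℕ) = 2 ^ 2 by norm_num) ▸ pow_dvd_pow 2 (by omega : 2 ≤ i)
        have h5 : 4 ∣ 2 ^ j := h4.trans (pow_dvd_pow 2 hij.le)
        omega
      subst hi2
      have hx3 : x = 3 := by simp at e1; omega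
      rw [pow_add, ← hxdef, hx3]
      refine ⟨rfl, ?_⟩
      rw [hx3] at h; omega
    · left
      have hdvd : p - 1 ∣ p ^ a - 1 := by simpa using Nat.sub_dvd_pow_sub_pow p 1 a
      have hs : ((∑ j ∈ Finset.range a, (p : ℤ) ^ j)) * ((p : ℤ) - 1) = (p : ℤ) ^ a - 1 :=
        geom_sum_mul _ _
      have hodd : Odd (∑ j ∈ Finset.range a, (p : ℤ) ^ j) := by
        have hp' : Odd (p : ℤ) := by exact_mod_cast hpo
        exact (odd_sum_range (fun j => hp'.pow) a).2 hao
      rw [h, Nat.add_sub_cancel] at hdvd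
      obtain ⟨i, hi, hpi⟩ := (Nat.dvd_prime_pow Nat.prime_two).1 hdvd
      have ha1 : a = 1 := by
        have e1 : ((p : ℤ) - 1) = (2 : ℤ) ^ i := by
          have : ((p - 1 : ℕ) : ℤ) = (2 : ℤ) ^ i := by exact_mod_cast hpi
          rwa [Nat.cast_sub (by omega), Nat.cast_one] at this
        have e2 : (p : ℤ) ^ a = (2 : ℤ) ^ b + 1 := by exact_mod_cast h
        by_contra ha1
        have hlt : i < b := by
          rcases hi.lt_or_eq with h1 | h1
          · exact h1
          · exfalso
            subst h1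
            have : p ^ a = p ^ 1 := by rw [pow_one]; omega
            exact ha1 (Nat.pow_right_injective hp2 this)
        obtain ⟨k, rfl⟩ : ∃ k, b = i + (k + 1) := ⟨b - i - 1, by omega⟩
        rw [e1, e2, add_sub_cancel_right, pow_add, mul_comm] at hs
        have := mul_left_cancel₀ (pow_ne_zero i two_ne_zero) hs
        rw [this, pow_succ] at hodd
        exact (Int.not_even_iff_odd.2 hodd) (even_two.mul_left _)
      subst ha1
      rw [pow_one] at h
      exact ⟨rfl, rfl, Nat.pow_of_pow_add_prime (by norm_num) (by omega) (h ▸ hp), h⟩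


end Cfsg.Agent.S3784
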