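import Cfsg.Statements.S3785
import Cfsg.Agent.H51.PrimitivePair
import Cfsg.Agent.H53.OmegaFaithful

set_option autoImplicit false
open Cfsg
open scoped commutatorElement

namespace Cfsg.Agent.S3785

/-- Let G be a finite solvable group whose Fitting subgroup F(G) has odd order. If an element g of G commutes with every element of prime order of F(G), then g ∈ F(G). -/
theorem result {G : Type*} [Group G] [Finite G] (hG : Group.IsSolvable G) (hodd : Odd (Nat.card (Cfsg.fittingSubgroup G))) (g : G) (hg : ∀ x ∈ Cfsg.fittingSubgroup G, (orderOf x).Prime → g * x = x * g) : g ∈ Cfsg.fittingSubgroup G := by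
  haveI := hG
  haveI := Cfsg.Agent.H51.fittingSubgroup_isNilpotent G
  haveI hFn := Cfsg.Agent.H51.fittingSubgroup_normal G
  set F := Cfsg.fittingSubgroup G with hFdef
  set Ω : Set G := {x | x ∈ F ∧ (orderOf x).Prime} with hΩ
  have hΩn : ∀ a : G, ∀ x ∈ Ω, a * x * a⁻¹ ∈ Ω := fun a x hx =>
    ⟨hFn.conj_mem x hx.1 a, by rw [show a * x * a⁻¹ = MulAut.conj a x from rfl, MulEquiv.orderOf_eq]; exact hx.2⟩
  set N := Subgroup.centralizer Ω with hN
  haveI hNn : N.Normal := ⟨fun n hn a => by
    rw [hN, Subgroup.mem_centralizer_iff] at hn ⊢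
    intro x hx
    have h1 := hn _ (hΩn a⁻¹ x hx)
    rw [inv_inv] at h1
    calc x * (a * n * a⁻¹) = a * (a⁻¹ * x * a * n) * a⁻¹ := by group
      _ = a * (n * (a⁻¹ * x * a)) * a⁻¹ := by rw [h1]
      _ = a * n * a⁻¹ * x := by group⟩
  have hgN : g ∈ N := Subgroup.mem_centralizer_iff.mpr fun x hx => (hg x hx.1 hx.2).symm
  have hFC : Subgroup.centralizer (F : Set G) ≤ F :=
    (Cfsg.Agent.H51.centralizer_fitting_le_iff_layer_eq_bot G).mpr (by
      rw [← le_bot_iff]
      refine sSup_le fun K hK => ?_
      exact absurd (Group.isSolvable_of_isSolvable_injective K.subtype_injective)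
        (Cfsg.Agent.H51.quasisimple_not_isSolvable hK.2))
  -- elements of prime power order centralize the other primary parts
  have hprim : ∀ (q r : ℕ), q.Prime → r.Prime → q ≠ r → ∀ x ∈ N, IsPGroup q ↥(Subgroup.zpowers x) →
      x ∈ Subgroup.centralizer (Cfsg.pCore r G : Set G) := by
    intro q r hq hr hqr x hx hxq
    haveI := Fact.mk hr
    haveI := Fact.mk hq
    haveI := Cfsg.Agent.H51.pCore_normal r G
    by_cases hdvd : r ∣ Nat.card ↥(Cfsg.pCore r G)
    · have hr2 : r ≠ 2 := by
        intro h2
        have := hdvd.trans (Subgroup.card_dvd_of_le (Cfsg.Agent.H51.pCore_le_fittingSubgroup r G))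
        rw [h2] at this
        exact (Nat.not_even_iff_odd.mpr hodd) (even_iff_two_dvd.mpr this)
      obtain ⟨k, hk⟩ := IsPGroup.iff_card.mp hxq
      have h := Cfsg.Agent.H53.le_centralizer_of_fixes_order_p hr2 (Cfsg.pCore r G) (Subgroup.zpowers x)
        (Cfsg.Agent.H51.pCore_isPGroup r G) (by rw [Subgroup.normalizer_eq_top]; exact le_top)
        (by rw [hk]; exact ((Nat.coprime_primes hq hr).mpr hqr).pow_left k) ?_
      · exact h (Subgroup.mem_zpowers x)
      · intro y hy hyo
        rw [Subgroup.mem_centralizer_iff]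
        rintro z ⟨i, rfl⟩
        have hc : Commute x y := (Subgroup.mem_centralizer_iff.mp hx y
          ⟨Cfsg.Agent.H51.pCore_le_fittingSubgroup r G hy, by rw [hyo]; exact hr⟩).symm
        exact (hc.zpow_left i).eq
    · have hbot : Cfsg.pCore r G = ⊥ := by
        by_contra hne
        haveI : Nontrivial ↥(Cfsg.pCore r G) := (Subgroup.nontrivial_iff_ne_bot _).mpr hne
        obtain ⟨n, hn, hc⟩ := (Cfsg.Agent.H51.pCore_isPGroup r G).nontrivial_iff_card.mp this
        exact hdvd (hc ▸ dvd_pow_self r hn.ne')
      rw [hbot]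
      exact Subgroup.mem_centralizer_iff.mpr fun y hy => by simp [Subgroup.mem_bot.mp hy]
  -- the set of elements centralizing the parts for all primes other than `q`
  have hNF : N ≤ F := by
    have hcomm : ∀ (q r : ℕ), q.Prime → r.Prime → q ≠ r → ∀ x ∈ N, ∀ y ∈ N,
        IsPGroup q ↥(Subgroup.zpowers x) → IsPGroup r ↥(Subgroup.zpowers y) → ⁅x, y⁆ ∈ F := by
      intro q r hq hr hqr x hx y hy hxq hyr
      apply hFC
      rw [hFdef, Cfsg.Agent.H51.fittingSubgroup_eq_iSup_pCore]
      have hle : (⨆ s : (Nat.card G).primeFactors, Cfsg.pCore (s : ℕ) G) ≤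
          Subgroup.centralizer ({⁅x, y⁆} : Set G) := by
        refine iSup_le fun s u hu => Subgroup.mem_centralizer_singleton_iff.mpr ?_
        have hs := Nat.prime_of_mem_primeFactors s.2
        haveI := Cfsg.Agent.H51.pCore_normal (s : ℕ) G
        have key : ∀ a b : G, a ∈ Subgroup.centralizer (Cfsg.pCore (s : ℕ) G : Set G) →
            ⁅a, b⁆ ∈ Subgroup.centralizer (Cfsg.pCore (s : ℕ) G : Set G) := fun a b ha => by
          have := mul_mem ha ((inferInstance : (Subgroup.centralizer
            (Cfsg.pCore (s : ℕ) G : Set G)).Normal).conj_mem _ (inv_mem ha) b)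
          simpa [commutatorElement_def, mul_assoc] using this
        have hz : ⁅x, y⁆ ∈ Subgroup.centralizer (Cfsg.pCore (s : ℕ) G : Set G) := by
          by_cases hqs : q = (s : ℕ)
          · rw [← commutatorElement_inv]
            exact inv_mem (key y x (hprim r s hr hs (fun e => hqr (hqs.trans e.symm)) y hy hyr))
          · exact key x y (hprim q s hq hs hqs x hx hxq)
        exact Subgroup.mem_centralizer_iff.mp hz u hu
      exact Subgroup.mem_centralizer_iff.mpr fun u hu =>
        Subgroup.mem_centralizer_singleton_iff.mp (hle hu)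
    haveI hNnil : Group.IsNilpotent ↥N := by
      refine ((Group.isNilpotent_of_finite_tfae (G := ↥N)).out 0 3).mpr ?_
      intro q hq P
      haveI := hq
      set P' := (P : Subgroup ↥N).map N.subtype with hP'
      set A := P' ⊔ Cfsg.pCore q G with hA
      haveI := Cfsg.Agent.H51.pCore_normal q G
      have hAq : IsPGroup q ↥A :=
        (P.isPGroup'.map N.subtype).to_sup_of_normal_right (Cfsg.Agent.H51.pCore_isPGroup q G)
      set B := ⨆ s : {s : (Nat.card G).primeFactors // (s : ℕ) ≠ q}, Cfsg.pCore ((s : (Nat.card G).primeFactors) : ℕ) G with hB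
      have hBF : B ≤ F := iSup_le fun s => by
        haveI := Fact.mk (Nat.prime_of_mem_primeFactors s.1.2)
        exact Cfsg.Agent.H51.pCore_le_fittingSubgroup _ G
      have hAB : ∀ a ∈ A, ∀ b ∈ B, Commute a b := by
        have hle : A ≤ Subgroup.centralizer (B : Set G) := by
          rw [Subgroup.le_centralizer_iff]
          refine iSup_le fun s => ?_
          haveI hs := Fact.mk (Nat.prime_of_mem_primeFactors s.1.2)
          rw [Subgroup.le_centralizer_iff]
          refine sup_le ?_ ?_
          · rintro _ ⟨x, hx, rfl⟩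
            exact hprim q _ hq.out hs.out (Ne.symm s.2) x x.2
              ((P.isPGroup'.map N.subtype).to_le (Subgroup.zpowers_le.mpr ⟨x, hx, rfl⟩))
          · haveI := Cfsg.Agent.H51.pCore_normal ((s.1 : (Nat.card G).primeFactors) : ℕ) G
            exact fun a ha => Subgroup.mem_centralizer_iff.mpr fun b hb =>
              (Subgroup.commute_of_normal_of_disjoint _ _ inferInstance inferInstance
                (IsPGroup.disjoint_of_ne q _ (Ne.symm s.2) (H₁ := Cfsg.pCore q G) (H₂ := Cfsg.pCore ((s.1 : (Nat.card G).primeFactors) : ℕ) G)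
                  (Cfsg.Agent.H51.pCore_isPGroup q G) (Cfsg.Agent.H51.pCore_isPGroup _ G)) a b ha hb).symm.eq
        exact fun a ha b hb => (Subgroup.mem_centralizer_iff.mp (hle ha) b hb).symm
      have hW : Group.IsNilpotent ↥(A ⊔ B) := by
        let f : ↥A × ↥B →* G := A.subtype.noncommCoprod B.subtype fun a b => hAB a a.2 b b.2
        haveI : Group.IsNilpotent ↥A := hAq.isNilpotent
        haveI : Group.IsNilpotent ↥B := Group.nilpotent_of_mulEquiv
          (Subgroup.subgroupOfEquivOfLe hBF)
        have h1 : f.range = A ⊔ B := by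
          exact (MonoidHom.noncommCoprod_range _ _ _).trans (by rw [Subgroup.range_subtype, Subgroup.range_subtype])
        rw [← h1]
        exact Group.nilpotent_of_surjective f.rangeRestrict f.rangeRestrict_surjective
      set W := A ⊔ B with hWdef
      have hFW : F ≤ W := by
        rw [hFdef, Cfsg.Agent.H51.fittingSubgroup_eq_iSup_pCore]
        refine iSup_le fun s => ?_
        by_cases hsq : (s : ℕ) = q
        · rw [hsq]; exact le_trans le_sup_right le_sup_left
        · exact le_trans (le_iSup (fun s : {s : (Nat.card G).primeFactors // (s : ℕ) ≠ q} =>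
            Cfsg.pCore ((s : (Nat.card G).primeFactors) : ℕ) G) ⟨s, hsq⟩) le_sup_right
      have hPW : P' ≤ W := le_trans le_sup_left le_sup_left
      have hnorm : N ≤ Subgroup.normalizer (W : Set G) := by
        rw [← Subgroup.subgroupOf_eq_top]
        refine Cfsg.Agent.H51.eq_top_of_forall_sylow_le _ fun r hr _ => ?_
        haveI := Fact.mk hr
        by_cases hrq : r = q
        · subst hrq
          exact ⟨P, fun x hx => Subgroup.le_normalizer (hPW ⟨x, hx, rfl⟩)⟩
        obtain ⟨R⟩ : Nonempty (Sylow r ↥N) := inferInstance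
        refine ⟨R, fun y hy => Subgroup.mem_normalizer_iff_map_conj_eq.mpr ?_⟩
        refine Subgroup.eq_of_le_of_card_ge ?_ (le_of_eq ?_)
        · rw [Subgroup.map_le_iff_le_comap]
          refine sup_le (sup_le ?_ ?_) ?_
          · rintro _ ⟨x, hx, rfl⟩
            have hxq : IsPGroup q ↥(Subgroup.zpowers (x : G)) :=
              (P.isPGroup'.map N.subtype).to_le (Subgroup.zpowers_le.mpr ⟨x, hx, rfl⟩)
            have hyr : IsPGroup r ↥(Subgroup.zpowers (y : G)) :=
              (R.isPGroup'.map N.subtype).to_le (Subgroup.zpowers_le.mpr ⟨y, hy, rfl⟩)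
            have hzW := hFW (hcomm r q hr hq.out hrq y y.2 x x.2 hyr hxq)
            have := W.mul_mem hzW (hPW ⟨x, hx, rfl⟩)
            simpa [commutatorElement_def] using this
          · intro a ha
            exact (le_trans le_sup_right le_sup_left : Cfsg.pCore q G ≤ A ⊔ B) (show (y : G) * a * (y : G)⁻¹ ∈ Cfsg.pCore q G from
              (Cfsg.Agent.H51.pCore_normal q G).conj_mem a ha y)
          · intro a ha
            exact hFW (hFn.conj_mem a (hBF ha) y)
        · exact Nat.card_congr ((Subgroup.equivMapOfInjective _ _ (MulAut.conj (y : G)).injective).toEquiv)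
      haveI : (W.subgroupOf N).Normal := by
        constructor
        intro a ha b
        exact Subgroup.le_normalizer_iff.mp hnorm b b.2 a ha
      haveI : Group.IsNilpotent ↥(W.subgroupOf N) := by
        let f : ↥(W.subgroupOf N) →* ↥W :=
          { toFun := fun w => ⟨((w : ↥N) : G), w.2⟩
            map_one' := rfl
            map_mul' := fun _ _ => rfl }
        refine Subgroup.isNilpotent_of_ker_le_center f (((MonoidHom.ker_eq_bot_iff f).mpr ?_).le.trans bot_le)
        intro a b h
        exact Subtype.ext (Subtype.ext (congrArg Subtype.val h :))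
      have hP : (P : Subgroup ↥N) ≤ Cfsg.pCore q ↥N :=
        Cfsg.Agent.H51.pgroup_le_pCore_of_le_fitting P.isPGroup'
          (le_trans (fun x hx => hPW ⟨x, hx, rfl⟩)
            (Cfsg.Agent.H51.le_fittingSubgroup inferInstance inferInstance : W.subgroupOf N ≤ _))
      haveI := Cfsg.Agent.H51.pCore_normal q ↥N
      rw [le_antisymm hP (IsPGroup.le_sylow_of_normal (Cfsg.Agent.H51.pCore_isPGroup q ↥N) P)]
      infer_instance
    exact Cfsg.Agent.H51.le_fittingSubgroup hNn hNnil
  exact hNF hgN

end Cfsg.Agent.S3785
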