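import Cfsg.Statements.S3786
import Cfsg.Agent.H20.TwoE.Group

set_option autoImplicit false
open Cfsg

namespace Cfsg.Agent.S3786

/-- The Hall–Higman bound on p-length. Let p be an odd prime and G a finite p-soluble group whose Sylow p-subgroups have exponent dividing p^e. (a) If p is not of the form 2^k + 1, or if the Sylow 2-subgroups of G are abelian, then G has p-length at most e. (b) In every case G has p-length at most 2e. -/
theorem result {G : Type*} [Group G] [Finite G] {p : ℕ} [Fact p.Prime] (hp : p ≠ 2) (hG : Cfsg.IsPSolvable p G) (e : ℕ) (hexp : ∀ (P : Sylow p G), ∀ x ∈ (P : Subgroup G), x ^ p ^ e = 1) : (((¬ ∃ k : ℕ, p = 2 ^ k + 1) ∨ ∀ S : Sylow 2 G, IsMulCommutative (S : Subgroup G)) → Cfsg.PLengthLE p e G) ∧ Cfsg.PLengthLE p (2 * e) G := by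
  have hexc : ∀ n₀ q k : ℕ, q.Prime → q ≠ p → 1 ≤ k → 1 ≤ n₀ → p ^ n₀ - 1 = q ^ k →
      q = 2 ∧ ∃ j, p = 2 ^ j + 1 := by
    intro n₀ q k hq hqp hk hn h
    have hodd : Odd p := (Fact.out : p.Prime).odd_of_ne_two hp
    have heven : 2 ∣ q ^ k := h ▸ even_iff_two_dvd.mp (Nat.Odd.sub_odd hodd.pow odd_one)
    obtain rfl : q = 2 :=
      ((Nat.prime_dvd_prime_iff_eq Nat.prime_two hq).mp (Nat.prime_two.dvd_of_dvd_pow heven)).symm
    have hdvd : p - 1 ∣ 2 ^ k := h ▸ Nat.sub_one_dvd_pow_sub_one p n₀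
    obtain ⟨j, -, hj⟩ := (Nat.dvd_prime_pow Nat.prime_two).mp hdvd
    exact ⟨rfl, j, by have := (Fact.out : p.Prime).two_le; omega⟩
  have ha : ((¬ ∃ k : ℕ, p = 2 ^ k + 1) ∨ ∀ S : Sylow 2 G, IsMulCommutative (S : Subgroup G)) →
      Cfsg.PLengthLE p e G := by
    intro h
    refine Cfsg.Agent.H20.PExp.pLengthLE_of_exponent e hG hexp ?_
    intro n₀ q k hn _ hq hqp hk hpq S
    obtain ⟨rfl, hf⟩ := hexc n₀ q k hq hqp hk hn hpq
    exact (h.resolve_left (fun hnf => hnf hf)) S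
  refine ⟨ha, ?_⟩
  by_cases hf : ∃ k : ℕ, p = 2 ^ k + 1
  · obtain ⟨k, hk⟩ := hf
    exact Cfsg.Agent.H20.TwoE.pLengthLE_two_mul hk hp e hG hexp
  · exact Cfsg.Agent.H20.PLen.pLengthLE_mono (by omega) (ha (Or.inl hf))

end Cfsg.Agent.S3786
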