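import Cfsg.Statements.S3787
import Cfsg.Agent.H20.TwoE.Group

set_option autoImplicit false
open Cfsg
open scoped commutatorElement

namespace Cfsg.Agent.S3787

open Cfsg.Agent

universe u v

/-- A carrier in `Type` without algebraic instances. -/
structure Carrier (n : ℕ) : Type where
  /-- The index. -/
  idx : Fin n

instance (n : ℕ) : Finite (Carrier n) := Finite.of_surjective (fun i => (⟨i⟩ : Carrier n)) fun c => ⟨c.idx, rfl⟩

/-- Transport the hypothesis to groups in any universe. -/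
theorem no_section {G : Type u} [Group G] {S : Subgroup G} {p : ℕ}
    (hwr : ∀ (W : Type) [Group W] [Finite W], (∃ (B : Subgroup W) (t : W), B.Normal ∧ IsMulCommutative B ∧ (∀ b ∈ B, b ^ p = 1) ∧ Nat.card B = p ^ p ∧ orderOf t = p ∧ t ∉ B ∧ Nat.card W = p ^ (p + 1) ∧ Nat.card ↥(B ⊓ Subgroup.centralizer ({t} : Set W)) = p) → ¬ Cfsg.Involves W S)
    {W₀ : Type v} [Group W₀] [Finite W₀] (B : Subgroup W₀) (t : W₀) (hBn : B.Normal)
    (hBc : ∀ a ∈ B, ∀ b ∈ B, a * b = b * a) (hBe : ∀ b ∈ B, b ^ p = 1)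
    (hBcard : Nat.card B = p ^ p) (ht : orderOf t = p) (htB : t ∉ B)
    (hW : Nat.card W₀ = p ^ (p + 1))
    (hC : Nat.card ↥(B ⊓ Subgroup.centralizer ({t} : Set W₀)) = p)
    (K : Subgroup S) (θ : K →* W₀) (hθ : Function.Surjective θ) : False := by
  obtain ⟨n, ⟨e₀⟩⟩ := Finite.exists_equiv_fin W₀
  let e : W₀ ≃ Carrier n := e₀.trans ⟨Carrier.mk, Carrier.idx, fun _ => rfl, fun _ => rfl⟩
  letI : Group (Carrier n) := e.symm.group
  let μ : Carrier n ≃* W₀ := e.symm.mulEquiv
  haveI hBμ : (B.comap μ.toMonoidHom).Normal := hBn.comap _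
  have hcardmap : ∀ U : Subgroup W₀, Nat.card ↥(U.comap μ.toMonoidHom) = Nat.card U := fun U => by
    exact Nat.card_congr (μ.toEquiv.subtypeEquiv fun _ => Iff.rfl)
  refine hwr (Carrier n) ⟨B.comap μ.toMonoidHom, μ.symm t, hBμ, ⟨⟨fun a b => Subtype.ext (μ.injective ?_)⟩⟩,
    fun b hb => μ.injective ?_, (hcardmap B).trans hBcard, ?_, ?_, ?_, ?_⟩ ?_
  · show μ ((a : Carrier n) * b) = μ ((b : Carrier n) * a)
    rw [map_mul, map_mul]; exact hBc _ a.2 _ b.2
  · rw [map_pow, map_one]; exact hBe _ hb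
  · exact (orderOf_injective μ.symm.toMonoidHom μ.symm.injective t).trans ht
  · intro h
    apply htB
    have h' : μ (μ.symm t) ∈ B := h
    rwa [MulEquiv.apply_symm_apply] at h'
  · rw [Nat.card_congr μ.toEquiv, hW]
  · rw [← hC, ← hcardmap (B ⊓ Subgroup.centralizer ({t} : Set W₀))]
    congr! 2
    ext w
    simp only [Subgroup.mem_inf, Subgroup.mem_comap, Subgroup.mem_centralizer_singleton_iff,
      MulEquiv.coe_toMonoidHom]
    refine and_congr_right fun _ => ⟨fun h => ?_, fun h => μ.injective ?_⟩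
    · rw [← MulEquiv.apply_symm_apply μ t, ← map_mul, h, map_mul]
    · rw [map_mul, map_mul, MulEquiv.apply_symm_apply]; exact h
  · have hn : (θ.ker.map K.subtype).subgroupOf K = θ.ker :=
      Subgroup.comap_map_eq_self_of_injective K.subtype_injective θ.ker
    haveI : ((θ.ker.map K.subtype).subgroupOf K).Normal := by rw [hn]; exact θ.normal_ker
    exact ⟨K, θ.ker.map K.subtype, inferInstance, ⟨((QuotientGroup.quotientMulEquivOfEq hn).trans
      (QuotientGroup.quotientKerEquivOfSurjective θ hθ)).trans μ.symm⟩⟩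

set_option maxHeartbeats 1600000 in
/-- Let G be a finite p-soluble group, p an odd prime not of the form 2^k + 1, and suppose the wreath product C_p ≀ C_p (of order p^(p+1)) is not involved in a Sylow p-subgroup of G: no section of a Sylow p-subgroup is isomorphic to it. Then G has p-length at most 1. -/
theorem result {G : Type*} [Group G] [Finite G] {p : ℕ} [Fact p.Prime] (hp2 : p ≠ 2) (hnf : (¬ ∃ k : ℕ, p = 2 ^ k + 1)) (hG : Cfsg.IsPSolvable p G) (P : Sylow p G) (hwr : ∀ (W : Type) [Group W] [Finite W], (∃ (B : Subgroup W) (t : W), B.Normal ∧ IsMulCommutative B ∧ (∀ b ∈ B, b ^ p = 1) ∧ Nat.card B = p ^ p ∧ orderOf t = p ∧ t ∉ B ∧ Nat.card W = p ^ (p + 1) ∧ Nat.card ↥(B ⊓ Subgroup.centralizer ({t} : Set W)) = p) → ¬ Cfsg.Involves W ↥(P : Subgroup G)) : Cfsg.PLengthLE p 1 G := by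
  classical
  have hp : p.Prime := Fact.out
  haveI := H19.pPrimeCore_normal p G
  haveI := H19.pCore_normal p (G ⧸ Cfsg.pPrimeCore p G)
  by_contra hl
  let f := QuotientGroup.mk' (Cfsg.pPrimeCore p G)
  have hf : Function.Surjective f := QuotientGroup.mk'_surjective _
  let X := G ⧸ Cfsg.pPrimeCore p G
  let O := Cfsg.pCore p X
  let qO := QuotientGroup.mk' O
  have hqO : Function.Surjective qO := QuotientGroup.mk'_surjective _
  have hsolX := H84.isPSolvable_of_surjective f hf hG
  have hsolL := H84.isPSolvable_of_surjective qO hqO hsolX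
  have hndvd : p ∣ Nat.card (X ⧸ O) := by
    by_contra h
    exact hl (H20.TwoE.pLengthLE_succ (n := 0) (H20.PLen.pLengthLE_zero_of_coprime
      (Nat.coprime_comm.mp ((hp.coprime_iff_not_dvd).mpr h))))
  -- an element of order `p` in the image of `P`
  let PX := P.mapSurjective hf
  obtain ⟨g, x, hxP, rfl, hgord⟩ : ∃ (g : X ⧸ O) (x : X), x ∈ (PX : Subgroup X) ∧ qO x = g ∧
      orderOf g = p := by
    let T := PX.mapSurjective hqO
    have hT : (T : Subgroup (X ⧸ O)) ≠ ⊥ := T.ne_bot_of_dvd_card hndvd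
    have hdvd : p ∣ Nat.card (T : Subgroup (X ⧸ O)) := T.dvd_card_of_dvd_card hndvd
    obtain ⟨⟨g, hg⟩, hg'⟩ := exists_prime_orderOf_dvd_card' p hdvd
    obtain ⟨x, hx, hxg⟩ := hg
    exact ⟨g, x, hx, hxg, (Subgroup.orderOf_mk g _).symm.trans hg'⟩
  refine H20.TwoE.with_frattAct hsolX (H19.pPrimeCore_quotient_pPrimeCore p) (C := False)
    fun M _ _ _ φ hφ π hπ hφπ => ?_
  haveI : Module.Finite (ZMod p) (Additive M) := Module.Finite.of_finite
  set A := H20.HH.toEnd (p := p) φ (x : X ⧸ O) with hA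
  have hAp : A ^ p = 1 := by
    rw [hA, ← map_pow]
    convert map_one (H20.HH.toEnd (p := p) φ)
    have := pow_orderOf_eq_one (qO x)
    rwa [hgord] at this
  -- the norm is nonzero
  let k := AlgebraicClosure (ZMod p)
  haveI : CharP k p := charP_of_injective_algebraMap (algebraMap (ZMod p) k).injective p
  obtain ⟨u, hu⟩ : ∃ u, ∑ i ∈ Finset.range p, (A ^ i) u ≠ 0 := by
    by_contra hcon
    push Not at hcon
    have hnorm : ∑ i ∈ Finset.range p, A ^ i = 0 := LinearMap.ext fun v => by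
      rw [LinearMap.sum_apply]; exact hcon v
    let ρ := H20.TwoE.repU (p := p) φ
    have hinj : Function.Injective ρ := by
      rw [injective_iff_map_eq_one]
      intro l hl
      exact hφ l (H20.HH.eq_one_of_repK_eq_one φ
        (by rw [← H20.TwoE.coe_repU (p := p), show H20.TwoE.repU (p := p) φ l = 1 from hl]; rfl))
    have hs : ((ρ (x : X ⧸ O) : Module.End k (TensorProduct (ZMod p) k (Additive M))) - 1) ^ (p - 1) = 0 := by
      have h := congrArg (Module.End.baseChangeHom (ZMod p) k (Additive M)) hnorm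
      simp only [map_sum, map_pow, map_zero] at h
      have h2 := H20.TB.sub_one_pow_pred (k := k) p
        (ρ (x : X ⧸ O) : Module.End k (TensorProduct (ZMod p) k (Additive M))) 1
      rw [pow_one] at h2
      rw [h2, H20.TwoE.coe_repU]
      exact h
    rcases H20.TB.theoremB hsolL (H19.pCore_quotient_pCore p) ρ hinj (x : X ⧸ O) (n := 1)
        Nat.one_pos (by rw [pow_one]; exact hgord) hs with h | ⟨n₀, q, j, Q, h1, h2, hq, hqp, hj, h3, -⟩
    · rw [pow_one] at h; have := hp.two_le; omega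
    · obtain rfl : n₀ = 1 := by omega
      rw [pow_one] at h3
      have heven : 2 ∣ q ^ j := h3 ▸ even_iff_two_dvd.mp (Nat.Odd.sub_odd (hp.odd_of_ne_two hp2) odd_one)
      obtain rfl : q = 2 :=
        ((Nat.prime_dvd_prime_iff_eq Nat.prime_two hq).mp (Nat.prime_two.dvd_of_dvd_pow heven)).symm
      exact hnf ⟨j, by have := hp.two_le; omega⟩
  obtain ⟨f₀, hf₀⟩ : ∃ f₀ : Module.Dual (ZMod p) (Additive M),
      f₀ (∑ i ∈ Finset.range p, (A ^ i) u) ≠ 0 := by
    by_contra h
    push Not at h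
    exact hu ((Module.forall_dual_apply_eq_zero_iff (ZMod p) _).mp h)
  let Ψ : Additive M →ₗ[ZMod p] (Fin p → ZMod p) := LinearMap.pi fun i => f₀.comp (A ^ (i : ℕ))
  have hΨ : ∀ v (i : Fin p), Ψ v i = f₀ ((A ^ (i : ℕ)) v) := fun v i => rfl
  have hΨA : ∀ v, Ψ v = 0 → Ψ (A v) = 0 := by
    intro v hv
    funext i
    rw [hΨ, ← Module.End.mul_apply, ← pow_succ]
    by_cases hi : (i : ℕ) + 1 < p
    · exact congrFun hv ⟨(i : ℕ) + 1, hi⟩
    · have : (i : ℕ) + 1 = p := by have := i.2; omega
      rw [this, hAp, ← pow_zero A]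
      exact congrFun hv ⟨0, hp.pos⟩
  have hApow : (A - 1) ^ p = 0 := by
    have h := geom_sum_mul A p
    have h2 := H20.TB.sub_one_pow_pred (k := ZMod p) p A 1
    rw [pow_one] at h2
    rw [← h2, ← pow_succ, Nat.sub_add_cancel hp.one_le, hAp, sub_self] at h
    exact h
  have hNu : (((A - 1) ^ (p - 1)) u) = ∑ i ∈ Finset.range p, (A ^ i) u := by
    have h2 := H20.TB.sub_one_pow_pred (k := ZMod p) p A 1
    rw [pow_one] at h2
    rw [h2, LinearMap.sum_apply]
  have hindep : LinearIndependent (ZMod p) (fun j : Fin p => Ψ (((A - 1) ^ (j : ℕ)) u)) := by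
    rw [Fintype.linearIndependent_iff]
    intro c hc
    by_contra hne
    push Not at hne
    obtain ⟨i₀, hi₀⟩ := hne
    have hex : ∃ n : ℕ, ∃ h : n < p, c ⟨n, h⟩ ≠ 0 := ⟨i₀, i₀.2, hi₀⟩
    obtain ⟨hn, hcn⟩ := Nat.find_spec hex
    set n := Nat.find hex
    set v := ∑ j : Fin p, c j • ((A - 1) ^ (j : ℕ)) u
    have hv : Ψ v = 0 := by simp only [v, map_sum, map_smul]; exact hc
    have hit : ∀ r : ℕ, Ψ (((A - 1) ^ r) v) = 0 := by
      intro r
      induction r with
      | zero => exact hv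
      | succ r ih =>
        rw [pow_succ', Module.End.mul_apply, LinearMap.sub_apply, Module.End.one_apply, map_sub,
          hΨA _ ih, ih, sub_zero]
    have h := hit (p - 1 - n)
    rw [show ((A - 1) ^ (p - 1 - n)) v = c ⟨n, hn⟩ • ((A - 1) ^ (p - 1)) u from ?_, map_smul] at h
    · have h0 := congrFun ((smul_eq_zero.mp h).resolve_left hcn) ⟨0, hp.pos⟩
      rw [hΨ, hNu] at h0
      simp at h0
      exact hf₀ (by simpa using h0)
    · simp only [v, map_sum, map_smul, ← Module.End.mul_apply, ← pow_add]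
      rw [Finset.sum_eq_single ⟨n, hn⟩]
      · rw [show p - 1 - n + n = p - 1 by omega]
      · intro j _ hj
        rcases lt_or_gt_of_ne (fun h => hj (Fin.ext h) : (j : ℕ) ≠ n) with h | h
        · have := Nat.find_min hex h
          push Not at this
          rw [this j.2, zero_smul]
        · rw [pow_eq_zero_of_le (by omega) hApow, LinearMap.zero_apply, smul_zero]
      · simp
  have hsurj : Function.Surjective Ψ := by
    have hspan := hindep.span_eq_top_of_card_eq_finrank (by simp)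
    intro w
    have hw : w ∈ LinearMap.range Ψ := by
      have : Submodule.span (ZMod p) (Set.range fun j : Fin p => Ψ (((A - 1) ^ (j : ℕ)) u)) ≤
          LinearMap.range Ψ := Submodule.span_le.mpr (by rintro _ ⟨j, rfl⟩; exact ⟨_, rfl⟩)
      exact this (hspan ▸ Submodule.mem_top)
    exact hw
  let ψ : O →* Multiplicative (Fin p → ZMod p) := (AddMonoidHom.toMultiplicativeRight Ψ.toAddMonoidHom).comp π
  have hψ : ∀ a, Multiplicative.toAdd (ψ a) = Ψ (Additive.ofMul (π a)) := fun a => rfl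
  have hψs : Function.Surjective ψ := by
    intro w
    obtain ⟨v, hv⟩ := hsurj (Multiplicative.toAdd w)
    obtain ⟨a, ha⟩ := hπ (Additive.toMul v)
    exact ⟨a, Multiplicative.toAdd.injective (by rw [hψ, ha]; exact hv)⟩
  have hconj : ∀ a : O, Additive.ofMul (π (MulAut.conjNormal x a)) = A (Additive.ofMul (π a)) := by
    intro a
    rw [← hφπ]; rfl
  -- adjust the lift
  have hxpO : x ^ p ∈ O := by
    rw [← QuotientGroup.eq_one_iff, QuotientGroup.mk_pow]
    have := pow_orderOf_eq_one (qO x)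
    rwa [hgord] at this
  set m0 := Additive.ofMul (π ⟨x ^ p, hxpO⟩)
  have hm0 : ∀ i : ℕ, (A ^ i) m0 = m0 := by
    intro i
    induction i with
    | zero => simp
    | succ i ih =>
      rw [pow_succ', Module.End.mul_apply, ih, ← hconj]
      congr 2
      exact Subtype.ext (by rw [MulAut.conjNormal_apply, ← pow_succ', pow_succ, mul_inv_cancel_right])
  obtain ⟨a, ha⟩ := hψs (Multiplicative.ofAdd (fun i : Fin p => if (i : ℕ) = 0 then - f₀ m0 else 0))
  obtain ⟨w, hw, hw'⟩ := H20.TwoE.exists_sum φ π hφπ x p a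
  have hx'p : ∃ r : O, (r : X) = (x * a) ^ p ∧ ψ r = 1 := by
    refine ⟨w * ⟨x ^ p, hxpO⟩, ?_, ?_⟩
    · rw [Subgroup.coe_mul, hw]; simp [mul_assoc]
    · apply Multiplicative.toAdd.injective
      rw [hψ, map_mul, ofMul_mul, toAdd_one, map_add, hw', ← hA]
      have hN : ∑ i ∈ Finset.range p, (A ^ (i + 1)) (Additive.ofMul (π a)) =
          ∑ i ∈ Finset.range p, (A ^ i) (Additive.ofMul (π a)) := by
        have h1 := Finset.sum_range_succ' (fun i => (A ^ i) (Additive.ofMul (π a))) p
        rw [Finset.sum_range_succ, hAp, ← pow_zero A] at h1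
        exact (add_right_cancel h1).symm
      funext j
      rw [hN, Pi.add_apply, hΨ, hΨ, hm0, map_sum, map_sum]
      have hrot : ∑ i ∈ Finset.range p, f₀ ((A ^ (j : ℕ)) ((A ^ i) (Additive.ofMul (π a)))) =
          ∑ i ∈ Finset.range p, f₀ ((A ^ i) (Additive.ofMul (π a))) := by
        simp only [← map_sum]
        congr 1
        generalize (j : ℕ) = l
        induction l with
        | zero => simp
        | succ l ih =>
          rw [pow_succ', Module.End.mul_apply, ih]
          conv_rhs => rw [← hN]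
          rw [map_sum]
          exact Finset.sum_congr rfl fun i _ => by rw [pow_succ', Module.End.mul_apply]
      rw [hrot, ← Fin.sum_univ_eq_sum_range (fun i => f₀ ((A ^ i) (Additive.ofMul (π a)))) p,
        Finset.sum_eq_single (⟨0, hp.pos⟩ : Fin p)]
      · have := congrFun (congrArg Multiplicative.toAdd ha) ⟨0, hp.pos⟩
        rw [hψ, hΨ] at this
        simp only [toAdd_ofAdd, if_true] at this
        rw [this]; simp
      · intro i _ hi
        have := congrFun (congrArg Multiplicative.toAdd ha) i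
        rw [hψ, hΨ] at this
        simp only [toAdd_ofAdd, if_neg (fun h : (i : ℕ) = 0 => hi (Fin.ext h))] at this
        exact this
      · simp
  set x' := x * (a : X) with hx'
  have hx'O : ∀ b : O, Additive.ofMul (π (MulAut.conjNormal x' b)) = A (Additive.ofMul (π b)) := by
    intro b
    rw [← hφπ, hx']
    have : ((x * (a : X) : X) : X ⧸ O) = (x : X ⧸ O) := by
      rw [QuotientGroup.mk_mul, (QuotientGroup.eq_one_iff (a : X)).mpr a.2, mul_one]
    rw [this]; rfl
  let R : Subgroup X := ψ.ker.map O.subtype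
  let K : Subgroup X := O ⊔ Subgroup.zpowers x'
  have hRO : R ≤ O := Subgroup.map_subtype_le _
  have hKR : K ≤ Subgroup.normalizer (R : Set X) := by
    refine sup_le (Subgroup.le_normalizer_iff.mpr ?_) (Subgroup.zpowers_le.mpr (Subgroup.mem_normalizer_fintype ?_))
    · rintro c hc _ ⟨b, hb, rfl⟩
      exact ⟨⟨c, hc⟩ * b * (⟨c, hc⟩ : O)⁻¹, ψ.normal_ker.conj_mem b hb _, rfl⟩
    · rintro _ ⟨b, hb, rfl⟩
      refine ⟨MulAut.conjNormal x' b, ?_, MulAut.conjNormal_apply x' b⟩
      apply Multiplicative.toAdd.injective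
      rw [hψ, hx'O]
      exact hΨA _ (congrArg Multiplicative.toAdd hb)
  have hKP : K ≤ (PX : Subgroup X) :=
    sup_le (H19.pCore_le_sylow _) (Subgroup.zpowers_le.mpr (mul_mem hxP (H19.pCore_le_sylow _ a.2)))
  have hRK : R ≤ K := hRO.trans le_sup_left
  haveI : (R.subgroupOf K).Normal := Subgroup.normal_subgroupOf_of_le_normalizer hKR
  let q := QuotientGroup.mk' (R.subgroupOf K)
  have hq0 : ∀ (c : X) (hc : c ∈ K), q ⟨c, hc⟩ = 1 ↔ c ∈ R := fun c hc => by
    rw [QuotientGroup.mk'_apply, QuotientGroup.eq_one_iff, Subgroup.mem_subgroupOf]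
  have hqO' : ∀ (b : O), q ⟨b, Subgroup.mem_sup_left b.2⟩ = 1 ↔ ψ b = 1 := fun b => by
    rw [hq0]
    exact ⟨fun ⟨c, hc, hcb⟩ => (Subtype.ext hcb : c = b) ▸ hc, fun h => ⟨b, h, rfl⟩⟩
  let qb : O →* ↥K ⧸ R.subgroupOf K :=
    q.comp (Subgroup.inclusion (le_sup_left : O ≤ K))
  have hqb : ∀ b c : O, qb b = qb c ↔ ψ b = ψ c := by
    intro b c
    rw [← div_eq_one, ← map_div]
    exact (hqO' (b / c)).trans (by rw [map_div, div_eq_one])
  let t := q ⟨x', Subgroup.mem_sup_right (Subgroup.mem_zpowers x')⟩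
  have hxO : x' ∉ O := fun h => by
    have h1 : qO x = 1 := (QuotientGroup.eq_one_iff x).mpr ((Subgroup.mul_mem_cancel_right O a.2).mp h)
    rw [h1, orderOf_one] at hgord
    exact hp.ne_one hgord.symm
  have htB : t ∉ qb.range := by
    rintro ⟨b, hb⟩
    obtain ⟨r, hr, hr'⟩ := (QuotientGroup.mk'_eq_mk' _).mp hb
    exact hxO (by
      rw [← show (b : X) * (r : X) = x' from congrArg Subtype.val hr']
      exact mul_mem b.2 (hRO (Subgroup.mem_subgroupOf.mp hr)))
  have hBn : qb.range.Normal := by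
    have : qb.range = (O.subgroupOf K).map q := by
      rw [MonoidHom.range_comp, Subgroup.inclusion_range]
    rw [this]
    exact (Subgroup.Normal.subgroupOf inferInstance K).map _ (QuotientGroup.mk'_surjective _)
  have hBcard : Nat.card qb.range = p ^ p := by
    have hk : qb.ker = ψ.ker := by
      ext b
      rw [MonoidHom.mem_ker, MonoidHom.mem_ker, ← map_one qb, hqb, map_one]
    rw [← Subgroup.index_ker, hk, Subgroup.index_ker, MonoidHom.range_eq_top.mpr hψs,
      Subgroup.card_top, Nat.card_congr Multiplicative.toAdd, Nat.card_fun, Nat.card_fin, Nat.card_zmod]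
  have hWcard : Nat.card (↥K ⧸ R.subgroupOf K) = p ^ (p + 1) := by
    rw [← Subgroup.index_eq_card, ← Subgroup.relIndex]
    rw [← Subgroup.relIndex_mul_relIndex R O K hRO le_sup_left, pow_succ]
    congr 1
    · rw [← hBcard, ← Subgroup.index_ker, Subgroup.relIndex]
      congr 1
      ext b
      rw [MonoidHom.mem_ker, ← map_one qb, hqb, map_one, Subgroup.mem_subgroupOf]
      exact ⟨fun ⟨c, hc, hcb⟩ => (Subtype.ext hcb : c = b) ▸ hc, fun h => ⟨b, h, rfl⟩⟩
    · have : O.relIndex K = Nat.card (K.map qO) := by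
        rw [← Subgroup.relIndex_ker, QuotientGroup.ker_mk']
      rw [this, Subgroup.map_sup, (Subgroup.map_eq_bot_iff _).mpr (QuotientGroup.ker_mk' O).ge,
        bot_sup_eq, MonoidHom.map_zpowers, Nat.card_zpowers, map_mul,
        show qO (a : X) = 1 from (QuotientGroup.eq_one_iff _).mpr a.2, mul_one]
      exact hgord
  have htord : orderOf t = p := by
    refine orderOf_eq_prime ?_ fun h => htB ⟨1, by rw [map_one, h]⟩
    obtain ⟨r, hr, hr'⟩ := hx'p
    show q _ ^ p = 1
    rw [← map_pow, show (⟨x', Subgroup.mem_sup_right (Subgroup.mem_zpowers x')⟩ : K) ^ p =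
      ⟨r, Subgroup.mem_sup_left r.2⟩ from Subtype.ext hr.symm]
    exact (hqO' r).mpr hr'
  have hcen : ∀ b : O, t * qb b = qb b * t ↔ A (Additive.ofMul (π b)) - Additive.ofMul (π b) ∈ LinearMap.ker Ψ := by
    intro b
    have hc : qb (MulAut.conjNormal x' b) = t * qb b * t⁻¹ := by
      show q _ = q _ * q _ * (q _)⁻¹
      rw [← map_mul, ← map_inv, ← map_mul]
      exact congrArg q (Subtype.ext (MulAut.conjNormal_apply x' b))
    rw [← mul_inv_eq_iff_eq_mul, ← hc, hqb, LinearMap.mem_ker, map_sub, sub_eq_zero]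
    constructor
    · intro h
      have := congrArg Multiplicative.toAdd h
      rwa [hψ, hψ, hx'O] at this
    · intro h
      apply Multiplicative.toAdd.injective
      rwa [hψ, hψ, hx'O]
  have hC : Nat.card ↥(qb.range ⊓ Subgroup.centralizer ({t} : Set (↥K ⧸ R.subgroupOf K))) = p := by
    have hsel : ∀ c : ZMod p, ∃ b : O, ψ b = Multiplicative.ofAdd (fun _ => c) := fun c => hψs _
    choose sel hsel using hsel
    have hmem : ∀ c, qb (sel c) ∈ qb.range ⊓ Subgroup.centralizer ({t} : Set _) := by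
      intro c
      refine ⟨⟨_, rfl⟩, Subgroup.mem_centralizer_singleton_iff.mpr ((hcen _).mpr ?_).symm⟩
      rw [LinearMap.mem_ker, map_sub, sub_eq_zero]
      funext i
      have h1 : ∀ i, Ψ (Additive.ofMul (π (sel c))) i = c := fun i => by
        rw [← hψ, hsel]; rfl
      rw [h1, hΨ, ← Module.End.mul_apply, ← pow_succ]
      by_cases hi : (i : ℕ) + 1 < p
      · exact h1 ⟨(i : ℕ) + 1, hi⟩
      · have : (i : ℕ) + 1 = p := by have := i.2; omega
        rw [this, hAp, ← pow_zero A]
        exact h1 ⟨0, hp.pos⟩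
    refine (Nat.card_eq_of_bijective (fun c => (⟨qb (sel c), hmem c⟩ :
      ↥(qb.range ⊓ Subgroup.centralizer ({t} : Set _)))) ⟨?_, ?_⟩).symm.trans (Nat.card_zmod p)
    · intro c d h
      have := (hqb _ _).mp (congrArg Subtype.val h)
      rw [hsel, hsel] at this
      exact congrFun (Multiplicative.ofAdd.injective this) ⟨0, hp.pos⟩
    · rintro ⟨_, ⟨b, rfl⟩, hb⟩
      refine ⟨f₀ (Additive.ofMul (π b)), Subtype.ext ((hqb _ _).mpr ?_)⟩
      rw [hsel]
      have hker := (hcen b).mp (Subgroup.mem_centralizer_singleton_iff.mp hb).symm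
      rw [LinearMap.mem_ker, map_sub, sub_eq_zero] at hker
      apply Multiplicative.toAdd.injective
      rw [toAdd_ofAdd, hψ]
      funext i
      obtain ⟨i, hi⟩ := i
      induction i with
      | zero => simp [hΨ]
      | succ i ih =>
        rw [ih (by omega)]
        have h := congrFun hker ⟨i, by omega⟩
        rw [hΨ, hΨ, ← Module.End.mul_apply, ← pow_succ] at h
        exact h.symm
  -- pull back to the Sylow subgroup of `G`
  let K' : Subgroup (P : Subgroup G) := K.comap (f.comp (P : Subgroup G).subtype)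
  let θ : K' →* ↥K ⧸ R.subgroupOf K :=
    q.comp (((f.comp (P : Subgroup G).subtype).comp K'.subtype).codRestrict K fun c => c.2)
  refine no_section hwr qb.range t hBn ?_ ?_ hBcard htord htB hWcard hC K' θ ?_
  · rintro _ ⟨b, rfl⟩ _ ⟨c, rfl⟩
    rw [← map_mul, ← map_mul, hqb, map_mul, map_mul, mul_comm]
  · rintro _ ⟨b, rfl⟩
    rw [← map_pow, ← map_one qb, hqb, map_one, map_pow]
    apply Multiplicative.toAdd.injective
    rw [toAdd_pow, toAdd_one]
    funext i
    simp
  · intro w
    obtain ⟨⟨c, hc⟩, rfl⟩ := QuotientGroup.mk_surjective w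
    obtain ⟨y, hy, rfl⟩ := hKP hc
    exact ⟨⟨⟨y, hy⟩, hc⟩, rfl⟩

end Cfsg.Agent.S3787
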