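import Cfsg.Statements.S3788
import Cfsg.Agent.H20.TwoE.Group
import Cfsg.Agent.H23.ActionBound
import Cfsg.Agent.H83.Involves
import Cfsg.Agent.H28.BaerSuzuki

set_option autoImplicit false
open Cfsg
open scoped commutatorElement

namespace Cfsg.Agent.S3788

open Cfsg.Agent

universe u

/-- A Frattini argument: some `o * a` normalises the lifted cyclic `q`-group. -/
theorem exists_normalizing_lift {X : Type u} [Group X] [Finite X] (O : Subgroup X) [O.Normal]
    {q : ℕ} [Fact q.Prime] (hO : (Nat.card O).Coprime q) (C : Subgroup X) (hC : IsPGroup q C)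
    (a : X) (ha : ∀ c ∈ C, a * c * a⁻¹ ∈ O ⊔ C) :
    ∃ o ∈ O, ∀ c ∈ C, o * a * c * (o * a)⁻¹ ∈ C := by
  set H := O ⊔ C
  obtain ⟨i, hi⟩ := hC.exists_card_eq
  have hdisj : O ⊓ C = ⊥ := by
    refine Subgroup.inf_eq_bot_of_coprime ?_
    rw [hi]; exact hO.pow_right i
  have hHmap : H.map (QuotientGroup.mk' O) = C.map (QuotientGroup.mk' O) := by
    rw [Subgroup.map_sup, (Subgroup.map_eq_bot_iff _).mpr (QuotientGroup.ker_mk' O).ge, bot_sup_eq]
  have hindex : (C.subgroupOf H).index = Nat.card O := by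
    have h1 := Subgroup.relIndex_mul_relIndex ⊥ O H bot_le le_sup_left
    have h2 := Subgroup.relIndex_mul_relIndex ⊥ C H bot_le le_sup_right
    rw [Subgroup.relIndex_bot_left, Subgroup.relIndex_bot_left] at h1 h2
    have h3 : O.relIndex H = Nat.card C := by
      rw [← QuotientGroup.ker_mk' O, Subgroup.relIndex_ker, hHmap, ← Subgroup.relIndex_ker,
        QuotientGroup.ker_mk', ← Subgroup.inf_relIndex_right, hdisj, Subgroup.relIndex_bot_left]
    rw [h3] at h1
    have h4 : Nat.card C * C.relIndex H = Nat.card C * Nat.card O := by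
      rw [h2, ← h1, mul_comm]
    exact Nat.eq_of_mul_eq_mul_left Nat.card_pos h4
  have hind : ¬ q ∣ (C.subgroupOf H).index := by
    rw [hindex]
    exact ((Fact.out : q.Prime).coprime_iff_not_dvd).mp hO.symm
  let S := (hC.comap_of_injective H.subtype H.subtype_injective : IsPGroup q (C.subgroupOf H)).toSylow hind
  let C' := C.map (MulAut.conj a).toMonoidHom
  have hC'H : C' ≤ H := by
    rintro _ ⟨c, hc, rfl⟩
    exact ha c hc
  obtain ⟨S', hS'⟩ := ((hC.map (MulAut.conj a).toMonoidHom).comap_of_injective H.subtype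
    H.subtype_injective : IsPGroup q (C'.subgroupOf H)).exists_le_sylow
  obtain ⟨h, hh⟩ := MulAction.exists_smul_eq H S' S
  have hHC : ∀ c ∈ C, (h : X) * (a * c * a⁻¹) * (h : X)⁻¹ ∈ C := by
    intro c hc
    have h1 : (⟨a * c * a⁻¹, ha c hc⟩ : H) ∈ (S' : Subgroup H) :=
      hS' (show a * c * a⁻¹ ∈ C' from ⟨c, hc, rfl⟩)
    have h2 := (Subgroup.smul_mem_pointwise_smul_iff (a := MulAut.conj h)).mpr h1
    rw [← Sylow.pointwise_smul_def, show (MulAut.conj h • S' : Sylow q H) = h • S' from rfl, hh] at h2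
    exact h2
  obtain ⟨o, ho, c₀, hc₀, hoc⟩ : ∃ o ∈ O, ∃ c₀ ∈ C, o * c₀ = (h : X)⁻¹ := by
    have : (h : X)⁻¹ ∈ H := inv_mem h.2
    exact Subgroup.mem_sup_of_normal_left.mp this
  refine ⟨o⁻¹, inv_mem ho, fun c hc => ?_⟩
  have h3 := hHC c hc
  have : o⁻¹ * a * c * (o⁻¹ * a)⁻¹ = c₀ * ((h : X) * (a * c * a⁻¹) * (h : X)⁻¹) * c₀⁻¹ := by
    rw [show (h : X) = (o * c₀)⁻¹ by rw [hoc, inv_inv]]
    group
  rw [this]
  exact mul_mem (mul_mem hc₀ h3) (inv_mem hc₀)

/-- The action as additive endomorphisms. -/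
noncomputable def endHom {p : ℕ} [Fact p.Prime] {L M : Type u} [Group L] [CommGroup M]
    [Module (ZMod p) (Additive M)] (φ : L →* MulAut M) : L →* AddMonoid.End (Additive M) where
  toFun g := (H20.HH.toEnd (p := p) φ g).toAddMonoidHom
  map_one' := by rw [map_one]; rfl
  map_mul' a b := by rw [map_mul]; rfl

set_option maxHeartbeats 1600000 in
/-- Let G be a finite p-soluble group, P a Sylow p-subgroup of G and A a cyclic normal subgroup of P. If p is odd, or if no section of G is isomorphic to the symmetric group of degree 4, then A ≤ O_{p',p}(G). -/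
theorem result {G : Type*} [Group G] [Finite G] {p : ℕ} [Fact p.Prime] (hG : Cfsg.IsPSolvable p G) (P : Sylow p G) (A : Subgroup G) (hAP : A ≤ (P : Subgroup G)) (hAn : (P : Subgroup G) ≤ Subgroup.normalizer (A : Set G)) (hA : IsCyclic A) (h : p ≠ 2 ∨ ¬ Cfsg.Involves (Equiv.Perm (Fin 4)) G) : A ≤ Cfsg.pPrimePCore p G := by
  classical
  have hp : p.Prime := Fact.out
  haveI := H19.pPrimeCore_normal p G
  haveI := H19.pCore_normal p (G ⧸ Cfsg.pPrimeCore p G)
  let f := QuotientGroup.mk' (Cfsg.pPrimeCore p G)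
  have hf : Function.Surjective f := QuotientGroup.mk'_surjective _
  let X := G ⧸ Cfsg.pPrimeCore p G
  let O := Cfsg.pCore p X
  have hsolX := H84.isPSolvable_of_surjective f hf hG
  have hOp : IsPGroup p O := H19.pCore_isPGroup p
  let PX := P.mapSurjective hf
  obtain ⟨⟨a₀, ha₀⟩, hgen⟩ := hA.exists_generator
  suffices hmain : f a₀ ∈ O by
    intro b hb
    obtain ⟨i, hi⟩ := hgen ⟨b, hb⟩
    have : a₀ ^ i = b := congrArg Subtype.val hi
    show f b ∈ O
    rw [← this, map_zpow]
    exact zpow_mem hmain i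
  by_contra haO
  set a := f a₀ with ha
  have haP : a ∈ (PX : Subgroup X) := ⟨a₀, hAP ha₀, rfl⟩
  have hnorm : ∀ g ∈ (PX : Subgroup X), g * a * g⁻¹ ∈ Subgroup.zpowers a := by
    rintro _ ⟨g, hg, rfl⟩
    obtain ⟨i, hi⟩ := hgen ⟨_, (Subgroup.mem_normalizer_iff.mp (hAn hg) _).mp ha₀⟩
    refine ⟨i, ?_⟩
    have : a₀ ^ i = g * a₀ * g⁻¹ := congrArg Subtype.val hi
    show a ^ i = _
    rw [ha, ← map_zpow, this, map_mul, map_mul, map_inv]
  have hOP : O ≤ (PX : Subgroup X) := H19.pCore_le_sylow _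
  refine H20.TwoE.with_frattAct hsolX (H19.pPrimeCore_quotient_pPrimeCore p) (C := False)
    fun M _ _ _ φ hφ π hπ hφπ => ?_
  haveI : Module.Finite (ZMod p) (Additive M) := Module.Finite.of_finite
  set l : X ⧸ O := (a : X ⧸ O) with hl
  set T := H20.HH.toEnd (p := p) φ l with hT
  have hl1 : l ≠ 1 := fun h => haO ((QuotientGroup.eq_one_iff a).mp h)
  have hMp : ∀ v : Additive M, p • v = 0 := fun v => by
    rw [← Nat.cast_smul_eq_nsmul (ZMod p), ZMod.natCast_self, zero_smul]
  -- `[M, a]` comes from `O ∩ ⟨a⟩`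
  have hTa : ∀ w : O, T (Additive.ofMul (π w)) = Additive.ofMul (π (MulAut.conjNormal a w)) :=
    fun w => congrArg Additive.ofMul (hφπ a w)
  have hR : ∀ v, ∃ (w : O) (i : ℤ), (w : X) = a ^ i ∧ T v - v = Additive.ofMul (π w) := by
    intro v
    obtain ⟨v, rfl⟩ := Additive.ofMul.surjective v
    obtain ⟨u, rfl⟩ := hπ v
    obtain ⟨j, hj⟩ := hnorm _ (hOP u.2)
    refine ⟨MulAut.conjNormal a u / u, 1 - j, ?_, ?_⟩
    · have hj' : a ^ j = (u : X) * a * (u : X)⁻¹ := hj
      rw [div_eq_mul_inv, Subgroup.coe_mul, Subgroup.coe_inv, MulAut.conjNormal_apply, zpow_sub,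
        zpow_one, hj']
      group
    · rw [map_div, ofMul_div, hTa]
  have hfixR : ∀ v, T (T v - v) = T v - v := by
    intro v
    obtain ⟨w, i, hw, hv⟩ := hR v
    rw [hv, hTa]
    congr 2
    refine Subtype.ext ?_
    rw [MulAut.conjNormal_apply, hw]
    group
  have hTlin : ∀ (n : ℕ) v, (T ^ n) v = v + n • (T v - v) := by
    intro n v
    induction n with
    | zero => simp
    | succ n ih => rw [pow_succ', Module.End.mul_apply, ih, map_add, map_nsmul, hfixR, succ_nsmul]; abel
  have hlp : l ^ p = 1 := by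
    apply hφ
    refine MulEquiv.ext fun v => Additive.ofMul.injective ?_
    show H20.HH.toEnd (p := p) φ (l ^ p) (Additive.ofMul v) = Additive.ofMul v
    rw [map_pow, hTlin, hMp, add_zero]
  have hlord : orderOf l = p := orderOf_eq_prime hlp hl1
  have hdiv : ∀ i : ℤ, a ^ i ∈ O → (p : ℤ) ∣ i := by
    intro i hi
    rw [← hlord]
    exact orderOf_dvd_iff_zpow_eq_one.mpr ((QuotientGroup.eq_one_iff _).mpr hi)
  have hapO : a ^ p ∈ O := (QuotientGroup.eq_one_iff _).mp hlp
  set m₀ := Additive.ofMul (π ⟨a ^ p, hapO⟩) with hm₀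
  have hRm : ∀ v, T v - v ∈ AddSubgroup.zmultiples m₀ := by
    intro v
    obtain ⟨w, i, hw, hv⟩ := hR v
    obtain ⟨j, rfl⟩ := hdiv i (hw ▸ w.2)
    refine ⟨j, ?_⟩
    rw [hv, hm₀]
    show j • Additive.ofMul _ = _
    rw [← ofMul_zpow, ← map_zpow]
    congr 2
    exact Subtype.ext (by rw [Subgroup.coe_zpow, hw, zpow_mul, zpow_natCast])
  let ρ := endHom (p := p) φ
  have hρ : ∀ g v, ρ g v = H20.HH.toEnd (p := p) φ g v := fun g v => rfl
  have hinj : ∀ g, ρ g = 1 → g = 1 := by
    intro g hg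
    refine hφ g (MulEquiv.ext fun v => Additive.ofMul.injective ?_)
    exact congrArg (fun F : AddMonoid.End (Additive M) => F (Additive.ofMul v)) hg
  have hcard : Nat.card (AddMonoidHom.range ((ρ l - 1 : AddMonoid.End (Additive M)) :
      Additive M →+ Additive M)) ≤ p := by
    refine le_trans (Nat.le_of_dvd Nat.card_pos (AddSubgroup.card_dvd_of_le
      (show _ ≤ AddSubgroup.zmultiples m₀ from ?_))) ?_
    · rintro _ ⟨v, rfl⟩
      exact hRm v
    · rw [Nat.card_zmultiples]
      exact Nat.le_of_dvd hp.pos (addOrderOf_dvd_of_nsmul_eq_zero (hMp _))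
  haveI := H44.pPrimeCore_normal' (G := X ⧸ O) p
  set N := Cfsg.pPrimeCore p (X ⧸ O)
  have hsolL := H84.isPSolvable_of_surjective _ (QuotientGroup.mk'_surjective O) hsolX
  by_cases hp2 : p = 2
  · -- an element of order `3` inverted by `a`
    subst hp2
    apply h.resolve_left (not_not.mpr rfl)
    refine H83.involves_of_quotient (N := Cfsg.pPrimeCore 2 G) ?_
    obtain ⟨g, hg⟩ : ∃ g : X ⧸ O, ¬ IsPGroup 2 ↥(Subgroup.closure ({l, g * l * g⁻¹} : Set (X ⧸ O))) := by
      by_contra hcon
      push Not at hcon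
      obtain ⟨B, hBn, hBp, hlB⟩ := H28.baer_suzuki_element (p := 2) l hcon
      have := H19.le_pCore hBn hBp hlB
      rw [H19.pCore_quotient_pCore, Subgroup.mem_bot] at this
      exact hl1 this
    set b := g * l * g⁻¹ with hb
    set r := l * b with hr
    have hll : l * l = 1 := by rw [← sq]; exact hlp
    have hbb : b * b = 1 := by
      calc b * b = g * (l * l) * g⁻¹ := by rw [hb]; simp [mul_assoc]
        _ = 1 := by rw [hll, mul_one, mul_inv_cancel]
    have hlinv : l⁻¹ = l := inv_eq_of_mul_eq_one_right hll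
    have hbinv : b⁻¹ = b := inv_eq_of_mul_eq_one_right hbb
    have hlr : l * r * l⁻¹ = r⁻¹ := by
      calc l * r * l⁻¹ = (l * l) * b * l⁻¹ := by rw [hr]; simp only [mul_assoc]
        _ = b * l := by rw [hll, one_mul, hlinv]
        _ = r⁻¹ := (inv_eq_of_mul_eq_one_right (show l * b * (b * l) = 1 by
          rw [mul_assoc, ← mul_assoc b, hbb, one_mul, hll])).symm
    obtain ⟨e, n', hn', hn⟩ : ∃ e n' : ℕ, ¬ 2 ∣ n' ∧ orderOf r = 2 ^ e * n' :=
      ⟨_, _, Nat.not_dvd_ordCompl Nat.prime_two (orderOf_pos r).ne',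
        (Nat.ordProj_mul_ordCompl_eq_self _ 2).symm⟩
    set s := r ^ 2 ^ e
    have hsn : s ^ n' = 1 := by rw [← pow_mul, ← hn, pow_orderOf_eq_one]
    have hs1 : s ≠ 1 := by
      intro hs
      apply hg
      have hcl : Subgroup.closure ({l, b} : Set (X ⧸ O)) = Subgroup.zpowers r ⊔ Subgroup.zpowers l := by
        refine le_antisymm ((Subgroup.closure_le _).mpr ?_) (sup_le ?_ ?_)
        · rintro _ (rfl | rfl)
          · exact Subgroup.mem_sup_right (Subgroup.mem_zpowers _)
          · have : b = l * r := by rw [hr, ← mul_assoc, hll, one_mul]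
            rw [this]
            exact mul_mem (Subgroup.mem_sup_right (Subgroup.mem_zpowers _))
              (Subgroup.mem_sup_left (Subgroup.mem_zpowers _))
        · exact Subgroup.zpowers_le.mpr (mul_mem (Subgroup.subset_closure (by simp))
            (Subgroup.subset_closure (by simp)))
        · exact Subgroup.zpowers_le.mpr (Subgroup.subset_closure (by simp))
      rw [hcl]
      refine IsPGroup.to_sup_of_normal_left' ?_ ?_ ?_
      · exact IsPGroup.of_card (n := Classical.choose ((Nat.dvd_prime_pow Nat.prime_two).mp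
          (orderOf_dvd_of_pow_eq_one hs))) (by
          rw [Nat.card_zpowers]
          exact (Classical.choose_spec ((Nat.dvd_prime_pow Nat.prime_two).mp
            (orderOf_dvd_of_pow_eq_one hs))).2)
      · exact IsPGroup.of_card (n := 1) (by rw [Nat.card_zpowers, hlord, pow_one])
      · refine Subgroup.zpowers_le.mpr (Subgroup.mem_normalizer_fintype ?_)
        rintro _ ⟨i, rfl⟩
        refine ⟨-i, ?_⟩
        show r ^ (-i) = l * r ^ i * l⁻¹
        rw [← conj_zpow, hlr, inv_zpow, zpow_neg]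
    -- `s` moves at most a plane
    let R₂ : AddSubgroup (Additive M) := AddMonoidHom.range ((ρ l - 1 : AddMonoid.End (Additive M)) :
      Additive M →+ Additive M) ⊔ AddMonoidHom.range ((ρ b - 1 : AddMonoid.End (Additive M)) :
      Additive M →+ Additive M)
    have hmemR : ∀ g' ∈ Subgroup.closure ({l, b} : Set (X ⧸ O)), ∀ v, ρ g' v - v ∈ R₂ := by
      intro g' hg'
      induction hg' using Subgroup.closure_induction with
      | mem y hy =>
        intro v
        rcases hy with rfl | rfl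
        · exact AddSubgroup.mem_sup_left ⟨v, rfl⟩
        · exact AddSubgroup.mem_sup_right ⟨v, rfl⟩
      | one => intro v; simp [zero_mem]
      | mul y z _ _ hy hz =>
        intro v
        have : ρ (y * z) v - v = (ρ y (ρ z v) - ρ z v) + (ρ z v - v) := by rw [map_mul]; simp
        rw [this]
        exact add_mem (hy _) (hz _)
      | inv y _ hy =>
        intro v
        have h1 := hy (ρ y⁻¹ v)
        rw [show ρ y (ρ y⁻¹ v) = v by
          rw [← Function.comp_apply (f := ρ y), ← AddMonoid.End.coe_mul, ← map_mul, mul_inv_cancel,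
            map_one, AddMonoid.End.coe_one, id]] at h1
        have := neg_mem h1
        rwa [neg_sub] at this
    have hbcard : Nat.card (AddMonoidHom.range ((ρ b - 1 : AddMonoid.End (Additive M)) :
        Additive M →+ Additive M)) ≤ 2 := by
      refine le_trans ?_ hcard
      refine Nat.card_le_card_of_surjective
        (fun w : AddMonoidHom.range ((ρ l - 1 : AddMonoid.End (Additive M)) : Additive M →+ Additive M) =>
          (⟨ρ g (w : Additive M), ?_⟩ : AddMonoidHom.range ((ρ b - 1 : AddMonoid.End (Additive M)) :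
            Additive M →+ Additive M))) ?_
      · obtain ⟨v, hv⟩ := w.2
        refine ⟨ρ g v, ?_⟩
        show ρ b (ρ g v) - ρ g v = ρ g (w : Additive M)
        rw [← hv]
        show ρ b (ρ g v) - ρ g v = ρ g (ρ l v - v)
        rw [map_sub, ← Function.comp_apply (f := ρ b), ← AddMonoid.End.coe_mul,
          ← Function.comp_apply (f := ρ g) (g := ρ l), ← AddMonoid.End.coe_mul, ← map_mul, ← map_mul, hb,
          inv_mul_cancel_right]
      · rintro ⟨_, v, rfl⟩
        refine ⟨⟨_, ρ g⁻¹ v, rfl⟩, Subtype.ext ?_⟩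
        show ρ g (ρ l (ρ g⁻¹ v) - ρ g⁻¹ v) = ρ b v - v
        rw [map_sub, hb]
        simp only [map_mul, AddMonoid.End.coe_mul, Function.comp_apply]
        rw [← Function.comp_apply (f := ρ g) (g := ρ g⁻¹), ← AddMonoid.End.coe_mul, ← map_mul,
          mul_inv_cancel, map_one, AddMonoid.End.coe_one, id]
    have hR₂card : Nat.card R₂ ≤ 4 := by
      let F : (AddMonoidHom.range ((ρ l - 1 : AddMonoid.End (Additive M)) : Additive M →+ Additive M)) ×
          (AddMonoidHom.range ((ρ b - 1 : AddMonoid.End (Additive M)) : Additive M →+ Additive M)) → R₂ :=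
        fun w => ⟨(w.1 : Additive M) + w.2, add_mem (AddSubgroup.mem_sup_left w.1.2)
          (AddSubgroup.mem_sup_right w.2.2)⟩
      refine (Nat.card_le_card_of_surjective F ?_).trans ?_
      · rintro ⟨w, hw⟩
        obtain ⟨y, hy, z, hz, rfl⟩ := AddSubgroup.mem_sup.mp hw
        exact ⟨(⟨y, hy⟩, ⟨z, hz⟩), rfl⟩
      · rw [Nat.card_prod]
        exact (Nat.mul_le_mul hcard hbcard).trans (by norm_num)
    have hscl : s ∈ Subgroup.closure ({l, b} : Set (X ⧸ O)) :=
      pow_mem (mul_mem (Subgroup.subset_closure (by simp)) (Subgroup.subset_closure (by simp))) _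
    have hsR : ∀ w ∈ R₂, ρ s w ∈ R₂ := fun w hw => by
      have := add_mem (hmemR s hscl w) hw
      rwa [sub_add_cancel] at this
    have hsinj : Function.Injective (ρ s) := fun v v' hvv => by
      have h2 := congrArg (ρ s⁻¹) hvv
      rwa [← Function.comp_apply (f := ρ s⁻¹), ← AddMonoid.End.coe_mul, ← map_mul, inv_mul_cancel,
        map_one, AddMonoid.End.coe_one, id, ← Function.comp_apply (f := ρ s⁻¹),
        ← AddMonoid.End.coe_mul, ← map_mul, inv_mul_cancel, map_one, AddMonoid.End.coe_one, id] at h2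
    have hs6 : ∀ w ∈ R₂, ρ (s ^ 6) w = w := by
      let Z := {w : R₂ // (w : Additive M) ≠ 0}
      let σ : Equiv.Perm Z := Equiv.ofBijective
        (fun w => ⟨⟨ρ s (w.1 : Additive M), hsR _ w.1.2⟩, fun h0 => w.2 (hsinj (h0.trans (map_zero _).symm))⟩)
        (Finite.injective_iff_bijective.mp fun w w' hww =>
          Subtype.ext (Subtype.ext (hsinj (congrArg (fun z : Z => (z.1 : Additive M)) hww))))
      haveI : Fintype Z := Fintype.ofFinite _
      have hZ : Fintype.card Z ≤ 3 := by
        haveI : Fintype R₂ := Fintype.ofFinite _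
        have := Fintype.card_subtype_lt (p := fun w : R₂ => (w : Additive M) ≠ 0) (x := 0) (by simp)
        rw [Nat.card_eq_fintype_card] at hR₂card
        have h' : Fintype.card Z = Fintype.card {w : R₂ // (w : Additive M) ≠ 0} := Fintype.card_congr (Equiv.refl _)
        omega
      have hσ6 : σ ^ 6 = 1 := by
        have h1 : orderOf σ ∣ (Fintype.card Z).factorial := by
          rw [← Fintype.card_perm]; exact orderOf_dvd_card
        exact orderOf_dvd_iff_pow_eq_one.mp (h1.trans (Nat.factorial_dvd_factorial hZ))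
      have hσpow : ∀ (i : ℕ) (w : Z), (((σ ^ i) w).1 : Additive M) = ρ (s ^ i) (w.1 : Additive M) := by
        intro i
        induction i with
        | zero => intro w; simp
        | succ i ih =>
          intro w
          rw [pow_succ', Equiv.Perm.mul_apply, pow_succ', map_mul, AddMonoid.End.coe_mul,
            Function.comp_apply, ← ih]
          rfl
      intro w hw
      rcases eq_or_ne w 0 with rfl | hw0
      · exact map_zero _
      rw [← hσpow 6 ⟨⟨w, hw⟩, hw0⟩, hσ6]; rfl
    have hs12 : s ^ 12 = 1 := by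
      apply hinj
      refine AddMonoidHom.ext fun v => ?_
      have h1 := hmemR (s ^ 6) (pow_mem hscl 6) v
      have h2 := hs6 _ h1
      rw [map_sub] at h2
      show ρ (s ^ 12) v = v
      rw [show 12 = 6 + 6 from rfl, pow_add, map_mul, AddMonoid.End.coe_mul, Function.comp_apply]
      set d := ρ (s ^ 6) v - v
      have h3 : ρ (s ^ 6) (ρ (s ^ 6) v) = v + (d + d) := by
        rw [← sub_eq_zero] at h2 ⊢
        rw [← h2]; simp only [d]; abel
      rw [h3, ← two_nsmul, hMp, add_zero]
    have hs3 : orderOf s = 3 := by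
      have h1 : orderOf s ∣ 12 := orderOf_dvd_of_pow_eq_one hs12
      have h2 : orderOf s ∣ n' := orderOf_dvd_of_pow_eq_one hsn
      have h3 : ¬ 2 ∣ orderOf s := fun h => hn' (h.trans h2)
      have h4 : orderOf s ≠ 1 := fun h => hs1 (orderOf_eq_one_iff.mp h)
      have h5 := Nat.le_of_dvd (by norm_num) h1
      interval_cases (orderOf s) <;> omega
    have hls : l * s * l⁻¹ = s⁻¹ := by rw [← conj_pow, hlr, inv_pow]
    haveI : Fact (Nat.Prime 3) := ⟨Nat.prime_three⟩
    obtain ⟨i, hi⟩ := hOp.exists_card_eq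
    have hO3 : (Nat.card O).Coprime 3 := by rw [hi]; exact Nat.Coprime.pow_left i (by norm_num)
    -- lift
    obtain ⟨s₀, hs₀⟩ := QuotientGroup.mk_surjective s
    have hs₀O : s₀ ^ 3 ∈ O := by
      rw [← QuotientGroup.eq_one_iff, QuotientGroup.mk_pow, hs₀, ← hs3, pow_orderOf_eq_one]
    set c := s₀ ^ 2 ^ (2 * i) with hc
    have h4mod : (4 : ℕ) ^ i % 3 = 1 := by rw [Nat.pow_mod]; simp
    have hcs : (c : X ⧸ O) = s := by
      rw [hc, QuotientGroup.mk_pow, hs₀, ← pow_mod_orderOf, hs3, pow_mul,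
        show ((2 : ℕ) ^ 2) ^ i = 4 ^ i from rfl, h4mod, pow_one]
    have hc3 : c ^ 3 = 1 := by
      rw [hc, ← pow_mul, mul_comm, pow_mul]
      have h1 : (s₀ ^ 3) ^ 2 ^ i = 1 := by
        rw [← hi]
        exact congrArg Subtype.val (pow_card_eq_one' (x := (⟨s₀ ^ 3, hs₀O⟩ : O)))
      rw [two_mul i, pow_add, pow_mul, h1, one_pow]
    have hc1 : c ≠ 1 := fun h => hs1 (by rw [← hcs, h]; rfl)
    have hcC : IsPGroup 3 (Subgroup.zpowers c) :=
      IsPGroup.of_card (n := 1) (by rw [Nat.card_zpowers, orderOf_eq_prime hc3 hc1, pow_one])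
    obtain ⟨o, ho, hoC⟩ := exists_normalizing_lift O hO3 (Subgroup.zpowers c) hcC a (by
      rintro _ ⟨j, rfl⟩
      have h1 : (a * c ^ j * a⁻¹ * c ^ j : X) ∈ O := by
        rw [← QuotientGroup.eq_one_iff, QuotientGroup.mk_mul, QuotientGroup.mk_mul,
          QuotientGroup.mk_mul, QuotientGroup.mk_inv, QuotientGroup.mk_zpow, hcs, ← hl,
          ← conj_zpow, hls, inv_zpow, inv_mul_cancel]
      have : a * c ^ j * a⁻¹ = (a * c ^ j * a⁻¹ * c ^ j) * (c ^ j)⁻¹ := by group
      show a * c ^ j * a⁻¹ ∈ _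
      rw [this]
      exact mul_mem (Subgroup.mem_sup_left h1)
        (Subgroup.mem_sup_right (inv_mem (zpow_mem (Subgroup.mem_zpowers c) j))))
    have hinv : o * a * c * (o * a)⁻¹ = c⁻¹ := by
      refine eq_inv_of_mul_eq_one_left ?_
      have h1 : o * a * c * (o * a)⁻¹ * c ∈ Subgroup.zpowers c :=
        mul_mem (hoC c (Subgroup.mem_zpowers c)) (Subgroup.mem_zpowers c)
      have h2 : o * a * c * (o * a)⁻¹ * c ∈ O := by
        rw [← QuotientGroup.eq_one_iff]
        simp only [QuotientGroup.mk_mul, QuotientGroup.mk_inv, hcs,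
          (QuotientGroup.eq_one_iff o).mpr ho, one_mul, ← hl]
        rw [hls, inv_mul_cancel]
      have h3 : Disjoint O (Subgroup.zpowers c) := disjoint_iff.mpr (Subgroup.inf_eq_bot_of_coprime (by
        rw [Nat.card_zpowers, orderOf_eq_prime hc3 hc1]; exact hO3))
      exact Subgroup.mem_bot.mp (h3.le_bot ⟨h2, h1⟩)
    obtain ⟨e', he'⟩ : ∃ e' : ℕ, (o * a) ^ 2 ^ e' = 1 := by
      obtain ⟨j, hj⟩ := PX.2 ⟨o * a, mul_mem (hOP ho) haP⟩
      exact ⟨j, congrArg Subtype.val hj⟩
    exact H83.involves_s4_aux (H59.centralizer_pCore_le_of_isPSolvable hsolX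
      (H19.pPrimeCore_quotient_pPrimeCore 2)) hc3 hc1 hinv he'
  · -- `p` odd
    have hne : ¬ N ≤ Subgroup.centralizer ({l} : Set (X ⧸ O)) := by
      intro hN
      have hlN : l ∈ N := H44.centralizer_pPrimeCore_le hsolL (H19.pCore_quotient_pCore p) (by
        rw [Subgroup.mem_centralizer_iff]
        exact fun b hb => Subgroup.mem_centralizer_singleton_iff.mp (hN hb))
      exact hl1 (orderOf_eq_one_iff.mp (Nat.eq_one_of_dvd_coprimes
        (H19.pPrimeCore_coprime (G := X ⧸ O) p) (Subgroup.orderOf_dvd_natCard _ hlN)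
        (orderOf_dvd_of_pow_eq_one hlp)))
    obtain ⟨q, Q, F, hq, hqp, -, hlQ, hd, v, hv⟩ := H20.TB.exists_data (n := 1) (x := l) (N := N)
      (by rw [Subgroup.normalizer_eq_top]; trivial) (H19.pPrimeCore_coprime p)
      (by rw [pow_one]; exact hlp) (Subgroup.mem_zpowers l) hne
    haveI := Fact.mk hq
    set Y := Subgroup.zpowers l
    have hYQ : Y ≤ Subgroup.normalizer (Q : Set (X ⧸ O)) := Subgroup.zpowers_le.mpr hlQ
    set Q' := ⁅Q, Y⁆
    have hQ'Q : Q' ≤ Q := Subgroup.commutator_le.mpr fun d hd' y hy => by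
      rw [commutatorElement_def, mul_assoc, mul_assoc, ← mul_assoc y]
      exact mul_mem hd' ((Subgroup.mem_normalizer_iff.mp (hYQ hy) _).mp (inv_mem hd'))
    have hcopQ : (Nat.card Y).Coprime (Nat.card Q) := by
      obtain ⟨i, hi⟩ := hd.isQ.exists_card_eq
      rw [Nat.card_zpowers, hlord, hi]
      exact ((Nat.coprime_primes hp hq).mpr (Ne.symm hqp)).pow_right i
    have hsolvY : Group.IsSolvable Y ∨ Group.IsSolvable Q := Or.inl (H20.isSolvable_of_isMulCommutative _)
    by_cases hab : ∀ d ∈ Q', ∀ d' ∈ Q', d * d' = d' * d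
    · have hnormQ' : ∀ d ∈ Q', l * d * l⁻¹ ∈ Q' := by
        intro d hd'
        have hmap : Q'.map (MulAut.conj l).toMonoidHom ≤ Q' := by
          rw [Subgroup.map_commutator]
          refine Subgroup.commutator_mono ?_ ?_
          · rintro _ ⟨w, hw, rfl⟩
            exact (Subgroup.mem_normalizer_iff.mp hlQ _).mp hw
          · rintro _ ⟨w, hw, rfl⟩
            exact mul_mem (mul_mem (Subgroup.mem_zpowers l) hw) (inv_mem (Subgroup.mem_zpowers l))
        exact hmap ⟨d, hd', rfl⟩
      have hc : Q' ≤ Subgroup.centralizer ({l} : Set (X ⧸ O)) := by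
        intro d hd'
        have h1 := H23.map_conj_eq_of_rank_one hp2 hMp ρ Q'
          (IsMulCommutative.of_comm fun d d' => Subtype.ext (hab d d.2 d' d'.2))
          (fun d hd' => by
            obtain ⟨i, hi⟩ := hd.isQ ⟨d, hQ'Q hd'⟩
            exact ((Nat.coprime_primes hq hp).mpr hqp).pow_left i |>.coprime_dvd_left
              (orderOf_dvd_of_pow_eq_one (congrArg Subtype.val hi)))
          l hlp hnormQ' hcard hd'
        have h2 : l * d * l⁻¹ = d := by
          have h3 : ρ (l * d * l⁻¹ * d⁻¹) = 1 := by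
            rw [map_mul, h1, ← map_mul, mul_inv_cancel, map_one]
          exact mul_inv_eq_one.mp (hinj _ h3)
        rw [Subgroup.mem_centralizer_singleton_iff]
        exact (mul_inv_eq_iff_eq_mul.mp h2).symm
      have hbot : ⁅⁅Q, Y⁆, Y⁆ = ⊥ := by
        rw [Subgroup.commutator_eq_bot_iff_le_centralizer]
        intro d hd'
        rw [Subgroup.mem_centralizer_iff]
        rintro _ ⟨j, rfl⟩
        exact ((show Commute d l from Subgroup.mem_centralizer_singleton_iff.mp (hc hd')).zpow_right j).eq.symm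
      have hQc := H20.le_centralizer_of_commutator_commutator_eq_bot hYQ hcopQ hsolvY hbot
      apply hv
      refine Subtype.ext ?_
      rw [H20.TB.coe_cy]
      have h3 : (v : X ⧸ O) * l = l * v :=
        Subgroup.mem_centralizer_iff.mp (hQc (Subgroup.mem_zpowers l)) v v.2
      show (v : X ⧸ O) * (l * (v : X ⧸ O)⁻¹ * l⁻¹) = 1
      calc (v : X ⧸ O) * (l * (v : X ⧸ O)⁻¹ * l⁻¹) = (v : X ⧸ O) * l * (v : X ⧸ O)⁻¹ * l⁻¹ := by group
        _ = 1 := by rw [h3]; group
    push Not at hab
    obtain ⟨d₁, hd₁, d₂, hd₂, h12⟩ := hab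
    set c := d₁ * d₂ * d₁⁻¹ * d₂⁻¹ with hc
    have hcF : c ∈ F := hd.comm d₁ (hQ'Q hd₁) d₂ (hQ'Q hd₂)
    have hc1 : c ≠ 1 := by
      rw [hc, ← commutatorElement_def, Ne, commutatorElement_eq_one_iff_mul_comm]
      exact h12
    have hlc : Commute l c := (Subgroup.mem_centralizer_iff.mp hd.fixF c hcF).symm
    have hcQ : ∀ d ∈ Q, Commute c d := fun d hd' =>
      (Subgroup.mem_centralizer_iff.mp (hd.central hcF) d hd').symm
    -- `c` fixes no nonzero commutator with `l`
    obtain ⟨v₁, hv₁⟩ : ∃ v₁, ρ l v₁ - v₁ ≠ 0 := by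
      by_contra hcon
      push Not at hcon
      exact hl1 (hinj _ (AddMonoidHom.ext fun v => sub_eq_zero.mp (hcon v)))
    have hm₀0 : m₀ ≠ 0 := fun h0 => by
      obtain ⟨j, hj⟩ := hRm v₁
      have hj' : j • m₀ = T v₁ - v₁ := hj
      exact hv₁ (by rw [hρ, ← hT, ← hj', h0, zsmul_zero])
    have hcm₀ : ρ c m₀ ≠ m₀ := by
      intro hfix
      have hcR : ∀ w, ρ c (ρ l w - w) = ρ l w - w := by
        intro w
        obtain ⟨j, hj⟩ := hRm w
        have hj' : j • m₀ = ρ l w - w := hj
        rw [← hj', map_zsmul, hfix]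
      let S : Subgroup (X ⧸ O) :=
        { carrier := {g | ∀ w, ρ g (ρ c w - w) = ρ c w - w}
          one_mem' := fun w => by simp
          mul_mem' := fun {g g'} hg hg' w => by
            rw [map_mul, AddMonoid.End.coe_mul, Function.comp_apply, hg' w, hg w]
          inv_mem' := fun {g} hg w => by
            conv_lhs => rw [← hg w, ← Function.comp_apply (f := ρ g⁻¹), ← AddMonoid.End.coe_mul,
              ← map_mul, inv_mul_cancel, map_one, AddMonoid.End.coe_one, id] }
      have hlS : l ∈ S := by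
        intro w
        have h2 : ρ l (ρ c w) = ρ c (ρ l w) := by
          rw [← Function.comp_apply (f := ρ l), ← AddMonoid.End.coe_mul, ← map_mul, hlc.eq, map_mul,
            AddMonoid.End.coe_mul, Function.comp_apply]
        have h3 := hcR w
        rw [map_sub] at h3
        rw [map_sub, h2]
        exact sub_eq_sub_iff_sub_eq_sub.mp h3
      have hS : ∀ d ∈ Q, d * l * d⁻¹ ∈ S := by
        intro d hd' w
        have hcd : ∀ e ∈ Q, ∀ u, ρ e (ρ c u) = ρ c (ρ e u) := fun e he u => by
          rw [← Function.comp_apply (f := ρ e), ← AddMonoid.End.coe_mul, ← map_mul, ← (hcQ e he).eq,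
            map_mul, AddMonoid.End.coe_mul, Function.comp_apply]
        rw [map_mul, map_mul, AddMonoid.End.coe_mul, Function.comp_apply, AddMonoid.End.coe_mul,
          Function.comp_apply, map_sub (ρ d⁻¹), hcd _ (inv_mem hd'), hlS, map_sub, hcd _ hd',
          ← Function.comp_apply (f := ρ d), ← AddMonoid.End.coe_mul, ← map_mul, mul_inv_cancel,
          map_one, AddMonoid.End.coe_one, id]
      have hQ'S : Q' ≤ S := Subgroup.commutator_le.mpr fun d hd' y hy => by
        rw [commutatorElement_def]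
        refine mul_mem ?_ (inv_mem (Subgroup.zpowers_le.mpr hlS hy))
        obtain ⟨j, rfl⟩ := hy
        show d * l ^ j * d⁻¹ ∈ S
        rw [← conj_zpow]
        exact zpow_mem (hS d hd') j
      have hcS : c ∈ S := mul_mem (mul_mem (mul_mem (hQ'S hd₁) (hQ'S hd₂))
        (inv_mem (hQ'S hd₁))) (inv_mem (hQ'S hd₂))
      have hpow : ∀ (n : ℕ) w, ρ (c ^ n) w = w + n • (ρ c w - w) := by
        intro n w
        induction n with
        | zero => simp
        | succ n ih =>
          rw [pow_succ', map_mul, AddMonoid.End.coe_mul, Function.comp_apply, ih, map_add, map_nsmul,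
            hcS w, succ_nsmul]
          abel
      have hcp : c ^ p = 1 := hinj _ (AddMonoidHom.ext fun w => by
        show ρ (c ^ p) w = w
        rw [hpow, hMp, add_zero])
      obtain ⟨i, hi⟩ := hd.isQ ⟨c, hd.le hcF⟩
      exact hc1 (orderOf_eq_one_iff.mp (Nat.eq_one_of_dvd_coprimes
        (((Nat.coprime_primes hp hq).mpr (Ne.symm hqp)).pow_right i) (orderOf_dvd_of_pow_eq_one hcp)
        (orderOf_dvd_of_pow_eq_one (congrArg Subtype.val hi))))
    -- lift
    obtain ⟨c₀, hc₀⟩ := QuotientGroup.mk_surjective c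
    obtain ⟨j, hj⟩ := hd.isQ ⟨c, hd.le hcF⟩
    have hcq : c ^ q ^ j = 1 := congrArg Subtype.val hj
    obtain ⟨i, hi⟩ := hOp.exists_card_eq
    have hOq : (Nat.card O).Coprime q := by
      rw [hi]; exact ((Nat.coprime_primes hp hq).mpr (Ne.symm hqp)).pow_left i
    obtain ⟨t, -, ht⟩ := Nat.exists_mul_mod_eq_one_of_coprime
      (((Nat.coprime_primes hp hq).mpr (Ne.symm hqp)).pow i j) (by
        by_contra hle
        have hj0 : j = 0 := by
          by_contra hj0
          exact hle (Nat.one_lt_pow hj0 hq.one_lt)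
        rw [hj0, pow_zero, pow_one] at hcq
        exact hc1 hcq)
    set c' := c₀ ^ (p ^ i * t) with hc'
    have hc's : (c' : X ⧸ O) = c := by
      rw [hc', QuotientGroup.mk_pow, hc₀, pow_eq_pow_mod _ hcq, ht, pow_one]
    have hc'q : c' ^ q ^ j = 1 := by
      have h1 : c₀ ^ q ^ j ∈ O := by rw [← QuotientGroup.eq_one_iff, QuotientGroup.mk_pow, hc₀, hcq]
      have h2 : (c₀ ^ q ^ j) ^ p ^ i = 1 := by
        rw [← hi]
        exact congrArg Subtype.val (pow_card_eq_one' (x := (⟨_, h1⟩ : O)))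
      rw [hc', ← pow_mul, mul_comm (p ^ i * t), ← mul_assoc, pow_mul, pow_mul, h2, one_pow]
    have hC : IsPGroup q (Subgroup.zpowers c') := by
      obtain ⟨r, -, hr⟩ := (Nat.dvd_prime_pow hq).mp (orderOf_dvd_of_pow_eq_one hc'q)
      exact IsPGroup.of_card (n := r) (by rw [Nat.card_zpowers, hr])
    obtain ⟨o, ho, hoC⟩ := exists_normalizing_lift O hOq (Subgroup.zpowers c') hC a (by
      rintro _ ⟨n, rfl⟩
      have h1 : a * c' ^ n * a⁻¹ * (c' ^ n)⁻¹ ∈ O := by
        rw [← QuotientGroup.eq_one_iff, QuotientGroup.mk_mul, QuotientGroup.mk_mul,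
          QuotientGroup.mk_mul, QuotientGroup.mk_inv, QuotientGroup.mk_inv, QuotientGroup.mk_zpow, hc's,
          ← hl, (hlc.zpow_right n).eq, mul_inv_cancel_right, mul_inv_cancel]
      have : a * c' ^ n * a⁻¹ = (a * c' ^ n * a⁻¹ * (c' ^ n)⁻¹) * c' ^ n := by group
      show a * c' ^ n * a⁻¹ ∈ _
      rw [this]
      exact mul_mem (Subgroup.mem_sup_left h1)
        (Subgroup.mem_sup_right (zpow_mem (Subgroup.mem_zpowers c') n)))
    have hcomm : Commute (o * a) c' := by
      have h1 : o * a * c' * (o * a)⁻¹ * c'⁻¹ ∈ Subgroup.zpowers c' :=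
        mul_mem (hoC c' (Subgroup.mem_zpowers c')) (inv_mem (Subgroup.mem_zpowers c'))
      have h2 : o * a * c' * (o * a)⁻¹ * c'⁻¹ ∈ O := by
        rw [← QuotientGroup.eq_one_iff]
        simp only [QuotientGroup.mk_mul, QuotientGroup.mk_inv, hc's,
          (QuotientGroup.eq_one_iff o).mpr ho, one_mul, ← hl]
        rw [hlc.eq, mul_inv_cancel_right, mul_inv_cancel]
      have h3 : Disjoint O (Subgroup.zpowers c') := disjoint_iff.mpr (Subgroup.inf_eq_bot_of_coprime (by
        obtain ⟨r, hr⟩ := hC.exists_card_eq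
        rw [hr]; exact hOq.pow_right r))
      have h4 := Subgroup.mem_bot.mp (h3.le_bot ⟨h2, h1⟩)
      exact mul_inv_eq_iff_eq_mul.mp (mul_inv_eq_one.mp h4)
    -- the `p`-th power is fixed by `c`
    set u : O := (MulAut.conjNormal a⁻¹ ⟨o, ho⟩ : O) with hu
    have hau : a * (u : X) = o * a := by
      rw [hu, MulAut.conjNormal_apply, inv_inv]; simp [mul_assoc]
    obtain ⟨w, hw, hw'⟩ := H20.TwoE.exists_sum φ π hφπ a p u
    have hw0 : π w = 1 := by
      apply Additive.ofMul.injective
      rw [hw', ofMul_one]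
      have hterm : ∀ i : ℕ, (T ^ (i + 1)) (Additive.ofMul (π u)) =
          Additive.ofMul (π u) + (i + 1) • (T (Additive.ofMul (π u)) - Additive.ofMul (π u)) :=
        fun i => hTlin (i + 1) _
      rw [Finset.sum_congr rfl fun i _ => hterm i, Finset.sum_add_distrib, Finset.sum_const,
        Finset.card_range, hMp, zero_add, ← Finset.sum_smul]
      have hdvd : p ∣ ∑ i ∈ Finset.range p, (i + 1) := by
        have h1 : ∑ i ∈ Finset.range p, (i + 1) = (∑ i ∈ Finset.range p, i) + p := by
          rw [Finset.sum_add_distrib]; simp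
        rw [h1]
        refine Nat.dvd_add ?_ dvd_rfl
        have h2 := Finset.sum_range_id_mul_two p
        exact ((Nat.coprime_primes hp Nat.prime_two).mpr hp2).dvd_of_dvd_mul_right
          (h2 ▸ dvd_mul_right p (p - 1))
      obtain ⟨r, hr⟩ := hdvd
      rw [hr, mul_comm, mul_smul, hMp, smul_zero]
    have hap' : (o * a) ^ p = (w : X) * a ^ p := by
      rw [← hau, hw, inv_mul_cancel_right]
    have hmem : (o * a) ^ p ∈ O := hap' ▸ mul_mem w.2 hapO
    have hπeq : π ⟨(o * a) ^ p, hmem⟩ = π ⟨a ^ p, hapO⟩ := by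
      rw [show (⟨(o * a) ^ p, hmem⟩ : O) = w * ⟨a ^ p, hapO⟩ from Subtype.ext hap', map_mul, hw0,
        one_mul]
    apply hcm₀
    have h5 := hφπ c' ⟨(o * a) ^ p, hmem⟩
    have h6 : MulAut.conjNormal c' (⟨(o * a) ^ p, hmem⟩ : O) = ⟨(o * a) ^ p, hmem⟩ := by
      refine Subtype.ext ?_
      rw [MulAut.conjNormal_apply, ← (hcomm.pow_left p).eq, mul_inv_cancel_right]
    rw [h6, hc's, hπeq] at h5
    exact congrArg Additive.ofMul h5

end Cfsg.Agent.S3788
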