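import Cfsg.Statements.S3790
import Cfsg.Agent.H20.PLength

set_option autoImplicit false
open Cfsg

namespace Cfsg.Agent.S3790

section
open Cfsg.Agent.H20

universe u

theorem p_length_bound {r : ℕ} (p : ℕ) [Fact p.Prime] (q : Fin r → ℕ)
    (hq : ∀ i, (q i).Prime ∧ q i ≠ p) (l : Fin r → ℕ) (s : Finset (Fin r)) :
    ∀ {G : Type u} [Group G] [Finite G],
      (∀ t : ℕ, t.Prime → t ∣ Nat.card G → t ≠ p → ∃ i ∈ s, q i = t) →
      (∀ i, Cfsg.PLengthLE (q i) (l i) G) → Cfsg.PLengthLE p (s.prod fun i => 1 + l i) G := by
  classical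
  have hp : p.Prime := Fact.out
  induction s using Finset.induction_on with
  | empty =>
    intro G _ _ hcover _
    rw [Finset.prod_empty]
    refine PLen.pLengthLE_one_of_isPGroup ?_
    refine IsPGroup.of_card (n := (Nat.card G).primeFactorsList.length)
      (Nat.eq_prime_pow_of_unique_prime_dvd Nat.card_pos.ne' fun {d} hd hdvd => ?_)
    by_contra hne
    obtain ⟨i, hi, -⟩ := hcover d hd hdvd hne
    simp at hi
  | @insert i s hi ih =>
    intro G _ _ hcover hl
    rw [Finset.prod_insert hi]
    haveI := Fact.mk (hq i).1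
    set L0 := s.prod fun i => 1 + l i
    -- lengths along the upper `q`-series
    have hsub : ∀ (H : Subgroup G) (j : Fin r), Cfsg.PLengthLE (q j) (l j) H := fun H j => by
      haveI := Fact.mk (hq j).1
      exact PLen.pLengthLE_of_injective H.subtype H.subtype_injective (hl j)
    have hext : ∀ n a b, Cfsg.PLengthLE p a (PLen.U (q i) G n) →
        (∀ (X : Type u) [Group X] [Finite X],
          Nat.card X = (PLen.U (q i) G n).relIndex (PLen.U (q i) G (n + 1)) →
          (∀ j, Cfsg.PLengthLE (q j) (l j) X) → Cfsg.PLengthLE p b X) →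
        Cfsg.PLengthLE p (a + b) (PLen.U (q i) G (n + 1)) := by
      intro n a b ha hb
      set K := PLen.U (q i) G (n + 1)
      set N := (PLen.U (q i) G n).subgroupOf K with hN
      refine PLen.pLengthLE_extension N (QuotientGroup.mk' N) (QuotientGroup.mk'_surjective N)
        (QuotientGroup.ker_mk' N)
        (PLen.pLengthLE_of_injective ((Subgroup.subgroupOfEquivOfLe (PLen.le_succ n)).toMonoidHom)
          (MulEquiv.injective _) ha) (hb _ rfl fun j => ?_)
      haveI := Fact.mk (hq j).1
      exact PLen.pLengthLE_of_surjective _ (QuotientGroup.mk'_surjective N) (hsub K j)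
    have hmain : ∀ m, Cfsg.PLengthLE p ((m + 1) * L0) (PLen.U (q i) G (2 * m + 1)) := by
      have hodd : ∀ m a, Cfsg.PLengthLE p a (PLen.U (q i) G (2 * m)) →
          Cfsg.PLengthLE p (a + L0) (PLen.U (q i) G (2 * m + 1)) := fun m a ha => by
        refine hext _ a L0 ha fun X _ _ hX hlX => ih (fun t ht htX htp => ?_) hlX
        obtain ⟨j, hj, rfl⟩ := hcover t ht
          (htX.trans (hX ▸ (Subgroup.relIndex_dvd_card _ _).trans
            (Subgroup.card_subgroup_dvd_card _))) htp
        refine ⟨j, (Finset.mem_insert.mp hj).resolve_left fun h => ?_, rfl⟩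
        subst h
        have hcop := (PLen.step (p := q j) (G := G) (2 * m)).1 (even_two_mul m)
        rw [← hX] at hcop
        exact ht.ne_one (Nat.eq_one_of_dvd_coprimes hcop htX dvd_rfl)
      intro m
      induction m with
      | zero =>
        have h := hodd 0 0 (PLen.pLengthLE_zero_of_coprime (by
          show (Nat.card (⊥ : Subgroup G)).Coprime p
          simp))
        simpa using h
      | succ m ihm =>
        have h1 : Cfsg.PLengthLE p ((m + 1) * L0 + 0) (PLen.U (q i) G (2 * (m + 1))) :=
          hext (2 * m + 1) _ 0 ihm fun X _ _ hX _ => by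
            refine PLen.pLengthLE_zero_of_coprime ?_
            obtain ⟨k, hk⟩ := (PLen.step (p := q i) (G := G) (2 * m + 1)).2
              (Nat.not_even_bit1 m)
            rw [hX, hk]
            exact ((Nat.coprime_primes (hq i).1 hp).mpr (hq i).2).pow_left k
        have h2 := hodd (m + 1) _ h1
        rwa [show (m + 1 + 1) * L0 = (m + 1) * L0 + 0 + L0 by ring]
    have htop : PLen.U (q i) G (2 * l i + 1) = ⊤ := hl i
    have h := hmain (l i)
    rw [htop] at h
    rw [show (1 + l i) * L0 = (l i + 1) * L0 by ring]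
    exact PLen.pLengthLE_of_surjective (⊤ : Subgroup G).subtype (fun g => ⟨⟨g, trivial⟩, rfl⟩) h

end

/-- Let G be a finite solvable group and p a prime. Suppose p₁, …, p_r are distinct primes, all different from p, that include every prime dividing the order of G other than p, and that G has p_i-length at most l_i for each i. Then G has p-length at most the product of the numbers 1 + l_i. -/
theorem result {G : Type*} [Group G] [Finite G] (hG : Group.IsSolvable G) (p : ℕ) [Fact p.Prime] (r : ℕ) (q : Fin r → ℕ) (hq : ∀ i, (q i).Prime ∧ q i ≠ p) (hinj : Function.Injective q) (hcover : ∀ s : ℕ, s.Prime → s ∣ Nat.card G → s ≠ p → ∃ i, q i = s) (l : Fin r → ℕ) (hl : ∀ i, Cfsg.PLengthLE (q i) (l i) G) : Cfsg.PLengthLE p (Finset.univ.prod fun i => 1 + l i) G := by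
  exact p_length_bound p q hq l Finset.univ (fun t ht htG htp => by
    obtain ⟨i, hi⟩ := hcover t ht htG htp
    exact ⟨i, Finset.mem_univ i, hi⟩) hl

end Cfsg.Agent.S3790
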