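import Cfsg.Statements.S3791
import Cfsg.Agent.H20.PLength

set_option autoImplicit false
open Cfsg

namespace Cfsg.Agent.S3791

section
open Cfsg.Agent.H20

universe u

/-- `derivedSeries (a + b) ≤` the image of `derivedSeries b` of a subgroup containing
`derivedSeries a`. -/
theorem derived_add_le {G : Type*} [Group G] (K : Subgroup G) (a : ℕ)
    (h : derivedSeries G a ≤ K) : ∀ b, derivedSeries G (a + b) ≤ (derivedSeries K b).map K.subtype
  | 0 => by
    rw [add_zero, derivedSeries_zero, ← MonoidHom.range_eq_map, K.range_subtype]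
    exact h
  | b + 1 => by
    rw [show a + (b + 1) = (a + b) + 1 from rfl, derivedSeries_succ, derivedSeries_succ,
      Subgroup.map_commutator]
    exact Subgroup.commutator_mono (derived_add_le K a h b) (derived_add_le K a h b)

theorem derived_bound {r : ℕ} (q : Fin r → ℕ) (hq : ∀ i, (q i).Prime) (hinj : Function.Injective q)
    (d : Fin r → ℕ) : ∀ (m : ℕ) {G : Type u} [Group G] [Finite G], Nat.card G = m →
    Group.IsSolvable G → (∀ s : ℕ, s.Prime → s ∣ Nat.card G → ∃ i, q i = s) →
    (∀ i, ∀ S : Sylow (q i) G, derivedSeries (S : Subgroup G) (d i) = ⊥) →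
    ∀ l : Fin r → ℕ, (∀ i, Cfsg.PLengthLE (q i) (l i) G) →
    derivedSeries G (Finset.univ.sum fun i => d i * l i) = ⊥ := by
  intro m
  induction m using Nat.strong_induction_on with
  | _ m ih =>
  intro G _ _ hm hG hcover hd l hl
  rcases subsingleton_or_nontrivial G with hs | hnt
  · exact Subsingleton.elim _ _
  -- quotients inherit the hypotheses
  have hquot : ∀ (N : Subgroup G) [N.Normal], N ≠ ⊥ → ∀ l' : Fin r → ℕ,
      (∀ i, Cfsg.PLengthLE (q i) (l' i) (G ⧸ N)) →
      derivedSeries G (Finset.univ.sum fun i => d i * l' i) ≤ N := by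
    intro N _ hN l' hl'
    have hlt : Nat.card (G ⧸ N) < m := by
      rw [← hm, Subgroup.card_eq_card_quotient_mul_card_subgroup N]
      refine lt_mul_of_one_lt_right Nat.card_pos ?_
      exact Finite.one_lt_card_iff_nontrivial.mpr ((Subgroup.nontrivial_iff_ne_bot N).mpr hN)
    have h := ih _ hlt (G := G ⧸ N) rfl
      (haveI := hG; Group.isSolvable_of_surjective (QuotientGroup.mk'_surjective N))
      (fun s hs hdvd => hcover s hs (hdvd.trans (Subgroup.card_quotient_dvd_card N)))
      (fun i S => by
        haveI := Fact.mk (hq i)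
        obtain ⟨S', hS'⟩ := Sylow.mapSurjective_surjective (QuotientGroup.mk'_surjective N) (q i) S
        subst hS'
        let φ : (S' : Subgroup G) →* (S' : Subgroup G).map (QuotientGroup.mk' N) :=
          (QuotientGroup.mk' N).subgroupMap _
        have h := map_derivedSeries_eq ((QuotientGroup.mk' N).subgroupMap_surjective _) (d i)
          (f := φ)
        rw [hd i S', Subgroup.map_bot] at h
        exact h.symm)
      l' hl'
    rw [← map_derivedSeries_eq (QuotientGroup.mk'_surjective N), Subgroup.map_eq_bot_iff,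
      QuotientGroup.ker_mk'] at h
    exact h
  -- a prime with nontrivial core
  obtain ⟨i, hi⟩ : ∃ i, Cfsg.pCore (q i) G ≠ ⊥ := by
    by_contra hcon
    push Not at hcon
    obtain ⟨A, hAn, hA, hA0⟩ : ∃ A : Subgroup G, A.Normal ∧ IsMulCommutative A ∧ A ≠ ⊥ := by
      classical
      have hne : ∃ n, derivedSeries G n = ⊥ := (Group.isSolvable_def G).mp hG
      obtain ⟨j, hj⟩ : ∃ j, Nat.find hne = j + 1 := by
        refine Nat.exists_eq_add_one.mpr (Nat.pos_of_ne_zero fun h => ?_)
        have := Nat.find_spec hne
        rw [h, derivedSeries_zero] at this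
        exact top_ne_bot this
      refine ⟨derivedSeries G j, inferInstance, ?_, Nat.find_min hne (by omega)⟩
      rw [← Subgroup.commutator_self_eq_bot_iff, ← derivedSeries_succ, ← hj]
      exact Nat.find_spec hne
    obtain ⟨s, hs, hsA⟩ := Nat.exists_prime_and_dvd
      (fun h => hA0 (Subgroup.eq_bot_of_card_eq A h) : Nat.card A ≠ 1)
    obtain ⟨i, rfl⟩ := hcover s hs (hsA.trans (Subgroup.card_subgroup_dvd_card A))
    haveI := Fact.mk (hq i)
    obtain ⟨P⟩ : Nonempty (Sylow (q i) A) := inferInstance
    haveI : (P : Subgroup A).Normal := Subgroup.normal_of_isMulCommutative _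
    haveI := P.characteristic_of_normal inferInstance
    have hle : (P : Subgroup A).map A.subtype ≤ Cfsg.pCore (q i) G :=
      H19.le_pCore ConjAct.normal_of_characteristic_of_normal (P.2.map _)
    rw [hcon i, le_bot_iff, Subgroup.map_eq_bot_iff_of_injective _ A.subtype_injective] at hle
    exact P.ne_bot_of_dvd_card hsA hle
  haveI := Fact.mk (hq i)
  haveI := H19.pCore_normal (q i) G
  haveI := H19.pPrimeCore_normal (q i) G
  by_cases hc : Cfsg.pPrimeCore (q i) G = ⊥
  · -- the Fitting subgroup is `O_p(G)`
    set O := PLen.U (q i) G 2 with hO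
    have hU1 : PLen.U (q i) G 1 = ⊥ := H35.upperPSeries_one_eq.trans hc
    have hOp : O ≤ Cfsg.pCore (q i) G := by
      refine H19.le_pCore inferInstance ?_
      obtain ⟨k, hk⟩ := (PLen.step (p := q i) (G := G) 1).2 Nat.not_even_one
      rw [hU1, Subgroup.relIndex_bot_left] at hk
      exact IsPGroup.of_card hk
    have hpO : Cfsg.pCore (q i) G ≤ O := by
      obtain ⟨k, hk⟩ := (H19.pCore_isPGroup (G := G) (q i)).exists_card_eq
      refine PLen.le_U_succ_of_odd (n := 1) Nat.not_even_one inferInstance (k := k) ?_
      rw [hU1, Subgroup.relIndex_bot_left, hk]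
    have hO0 : O ≠ ⊥ := fun h => hi (le_bot_iff.mp (hpO.trans h.le))
    obtain ⟨l0, hl0⟩ : ∃ l0, l i = l0 + 1 := by
      refine Nat.exists_eq_add_one.mpr (Nat.pos_of_ne_zero fun h => ?_)
      have h1 : PLen.U (q i) G (2 * l i + 1) = ⊤ := hl i
      rw [h, hU1] at h1
      exact bot_ne_top h1
    set l' := Function.update l i l0 with hl'
    have hlq : ∀ j, Cfsg.PLengthLE (q j) (l' j) (G ⧸ O) := by
      intro j
      rcases eq_or_ne j i with rfl | hj
      · rw [hl', Function.update_self]
        have h1 : PLen.U (q j) G (2 * l j + 1) = ⊤ := hl j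
        rw [hl0, show 2 * (l0 + 1) + 1 = (2 * l0 + 1) + 2 by ring] at h1
        have h2 := H35.upperPSeries_add_two (p := q j) (QuotientGroup.mk' O)
          (QuotientGroup.mk'_surjective O) (QuotientGroup.ker_mk' O) (2 * l0 + 1)
        refine Subgroup.comap_injective (QuotientGroup.mk'_surjective O) ?_
        rw [Subgroup.comap_top]
        exact h2.symm.trans h1
      · haveI := Fact.mk (hq j)
        rw [hl', Function.update_of_ne hj]
        exact PLen.pLengthLE_of_surjective _ (QuotientGroup.mk'_surjective O) (hl j)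
    have h := hquot O hO0 l' hlq
    obtain ⟨S, hS⟩ := (H19.pCore_isPGroup (G := G) (q i)).to_le hOp |>.exists_le_sylow
    have h2 := derived_add_le (S : Subgroup G) _ (h.trans hS) (d i)
    rw [hd i S, Subgroup.map_bot, le_bot_iff] at h2
    convert h2 using 2
    have hsum : ∀ j ∈ Finset.univ.erase i, d j * l' j = d j * l j := fun j hj => by
      rw [hl', Function.update_of_ne (Finset.ne_of_mem_erase hj)]
    rw [← Finset.add_sum_erase _ _ (Finset.mem_univ i), ← Finset.add_sum_erase _ _ (Finset.mem_univ i),
      Finset.sum_congr rfl hsum, hl', Function.update_self, hl0, mul_add, mul_one]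
    ring
  · -- two coprime normal subgroups
    have h1 := hquot _ hi l fun j => by
      haveI := Fact.mk (hq j)
      exact PLen.pLengthLE_of_surjective _ (QuotientGroup.mk'_surjective _) (hl j)
    have h2 := hquot _ hc l fun j => by
      haveI := Fact.mk (hq j)
      exact PLen.pLengthLE_of_surjective _ (QuotientGroup.mk'_surjective _) (hl j)
    rw [eq_bot_iff, ← H19.inf_eq_bot_of_isPGroup_coprime (H19.pCore_isPGroup (G := G) (q i))
      (H19.pPrimeCore_coprime (G := G) (q i))]
    exact le_inf h1 h2

end

/-- The Hall–Higman bound on derived length: let G be a finite solvable group, let p₁, …, p_r be distinct primes that include every prime dividing the order of G, and suppose that for each i the Sylow p_i-subgroups of G have derived length at most d_i and G has p_i-length at most l_i. Then G has derived length at most Σ d_i l_i. -/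
theorem result {G : Type*} [Group G] [Finite G] (hG : Group.IsSolvable G) (r : ℕ) (q : Fin r → ℕ) (hq : ∀ i, (q i).Prime) (hinj : Function.Injective q) (hcover : ∀ s : ℕ, s.Prime → s ∣ Nat.card G → ∃ i, q i = s) (d l : Fin r → ℕ) (hd : ∀ i, ∀ P : Subgroup G, (haveI := Fact.mk (hq i); ∃ S : Sylow (q i) G, (S : Subgroup G) = P) → derivedSeries ↥P (d i) = ⊥) (hl : ∀ i, Cfsg.PLengthLE (q i) (l i) G) : derivedSeries G (Finset.univ.sum fun i => d i * l i) = ⊥ := by
  refine derived_bound q hq hinj d _ rfl hG hcover (fun i S => ?_) l hl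
  exact hd i _ ⟨S, rfl⟩

end Cfsg.Agent.S3791
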