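import Cfsg.Statements.S3796
import Mathlib
import Cfsg.Agent.H84.Ward
import Cfsg.Agent.H84.FittingTools

set_option autoImplicit false
open Cfsg

namespace Cfsg.Agent.S3796


open scoped commutatorElement

/-- The key step: a commutator of invariant `q`- and `r`-subgroups centralises `O_s(G)`. -/
theorem commutator_mem_centralizer {G : Type*} [Group G] [Finite G] {p q r s : ℕ} [Fact p.Prime]
    [Fact q.Prime] [Fact r.Prime] [Fact s.Prime] (A : Subgroup (MulAut G))
    (hA : Cfsg.IsElementaryAbelian p A) (hcard : Nat.card A = p ^ 2)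
    (hfpf : ∀ g : G, (∀ a ∈ A, a g = g) → g = 1) (hpq : p ≠ q) (hpr : p ≠ r) (hps : p ≠ s)
    (hqr : q ≠ r) (hqs : q ≠ s) (W Q R : Subgroup G) [W.Normal] (hW : IsPGroup s W)
    (hQ : IsPGroup q Q) (hR : IsPGroup r R)
    (hWA : ∀ a ∈ A, ∀ v ∈ W, (a : MulAut G) v ∈ W) (hQA : ∀ a ∈ A, ∀ v ∈ Q, (a : MulAut G) v ∈ Q)
    (hRA : ∀ a ∈ A, ∀ v ∈ R, (a : MulAut G) v ∈ R) (hRQ : R ≤ Subgroup.normalizer (Q : Set G))
    (u v : G) (hu : u ∈ R) (hv : v ∈ Q) : ⁅u, v⁆ ∈ Subgroup.centralizer (W : Set G) := by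
  let Γ := SemidirectProduct G A A.subtype
  haveI : Finite Γ := Finite.of_equiv _ (SemidirectProduct.equivProd (φ := A.subtype)).symm
  let i : G →* Γ := SemidirectProduct.inl
  let j : A →* Γ := SemidirectProduct.inr
  set Am : Subgroup Γ := j.range with hAm
  have hconj : ∀ (a : A) (g : G), j a * i g * (j a)⁻¹ = i ((a : MulAut G) g) := fun a g => by
    rw [← map_inv]
    exact (SemidirectProduct.inl_aut a g).symm
  haveI : IsMulCommutative Am := by
    refine ⟨⟨?_⟩⟩
    rintro ⟨_, a, rfl⟩ ⟨_, b, rfl⟩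
    haveI := hA.1
    exact Subtype.ext (by rw [Subgroup.coe_mul, Subgroup.coe_mul, ← map_mul, ← map_mul,
      IsMulCommutative.is_comm.comm a b])
  have hAcard : Nat.card Am = p ^ 2 := by
    rw [← hcard]
    exact (Nat.card_congr (MonoidHom.ofInjective SemidirectProduct.inr_injective).toEquiv).symm
  have hAexp : ∀ a ∈ Am, a ^ p = 1 := by
    rintro _ ⟨a, rfl⟩
    rw [← map_pow, show a ^ p = 1 from Subtype.ext (hA.2 a a.2), map_one]
  have hnorm : ∀ X : Subgroup G, (∀ a ∈ A, ∀ v ∈ X, (a : MulAut G) v ∈ X) →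
      Am ≤ Subgroup.normalizer ((X.map i : Subgroup Γ) : Set Γ) := by
    rintro X hX _ ⟨a, rfl⟩
    refine H84.mem_normalizer_of_forall ?_
    rintro _ ⟨x, hx, rfl⟩
    rw [hconj]
    exact ⟨_, hX a a.2 x hx, rfl⟩
  have hsub : ∀ X Y : Subgroup G, X ≤ Subgroup.normalizer (Y : Set G) →
      X.map i ≤ Subgroup.normalizer ((Y.map i : Subgroup Γ) : Set Γ) := by
    rintro X Y h _ ⟨x, hx, rfl⟩
    refine H84.mem_normalizer_of_forall ?_
    rintro _ ⟨y, hy, rfl⟩
    rw [← map_inv, ← map_mul, ← map_mul]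
    exact ⟨_, H84.conj_mem_of_mem_normalizer (h hx) hy, rfl⟩
  have hfix : ∀ X : Subgroup G, X.map i ⊓ Subgroup.centralizer (Am : Set Γ) = ⊥ := by
    intro X
    rw [eq_bot_iff]
    rintro _ ⟨⟨x, hx, rfl⟩, hc⟩
    have hx1 : x = 1 := by
      refine hfpf x fun a ha => ?_
      have h := Subgroup.mem_centralizer_iff.1 hc (j ⟨a, ha⟩) ⟨_, rfl⟩
      apply SemidirectProduct.inl_injective (φ := A.subtype)
      have h2 := hconj ⟨a, ha⟩ x
      rw [h, mul_inv_cancel_right] at h2
      exact h2.symm
    rw [Subgroup.mem_bot, hx1, map_one]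
  have hWn : ∀ X : Subgroup G, X ≤ Subgroup.normalizer (W : Set G) := fun X => by
    rw [Subgroup.normalizer_eq_top_iff.2 (inferInstance : W.Normal)]
    exact le_top
  have key := H84.ward_commutator hAcard hAexp (hQ.map i) (hR.map i) (hW.map i) hqr hqs hpq hpr hps
    (hnorm W hWA) (hnorm Q hQA) (hnorm R hRA) (hsub Q W (hWn Q)) (hsub R W (hWn R)) (hsub R Q hRQ)
    (hfix W) (hfix Q) (hfix R)
  rw [Subgroup.mem_centralizer_iff]
  intro w hw
  have h := Subgroup.mem_centralizer_iff.1
    (key (Subgroup.commutator_mem_commutator ⟨u, hu, rfl⟩ ⟨v, hv, rfl⟩)) (i w) ⟨w, hw, rfl⟩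
  apply SemidirectProduct.inl_injective (φ := A.subtype)
  rw [map_mul, map_mul, map_commutatorElement]
  exact h


/-- Ward's Theorem: let G be a finite solvable group and A an elementary abelian group of automorphisms of G of order p² (p a prime) with no non-identity common fixed point. Then G has Fitting height at most 2: G has Fitting height at most m when there is a chain of normal subgroups 1 = F₀ ≤ F₁ ≤ ⋯ ≤ F_m = G with each F_{i+1}/F_i nilpotent. -/
theorem result {G : Type*} [Group G] [Finite G] (hG : Group.IsSolvable G) {p : ℕ} (hp : p.Prime) (A : Subgroup (MulAut G)) (hA : Cfsg.IsElementaryAbelian p A) (hcard : Nat.card A = p ^ 2) (hfpf : ∀ g : G, (∀ a ∈ A, a g = g) → g = 1) : ∃ F : Fin (2 + 1) → Subgroup G, F 0 = ⊥ ∧ F (Fin.last 2) = ⊤ ∧ Monotone F ∧ (∀ i, (F i).Normal) ∧ ∀ i : Fin 2, ∃ k : ℕ, (F i.succ).lowerCentralSeries k ≤ F i.castSucc := by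
  classical
  haveI := hG
  haveI := Fact.mk hp
  have hAp : IsPGroup p A := IsPGroup.of_card hcard
  have hpG : ¬ p ∣ Nat.card G := by
    intro hdvd
    have h : Nat.card G ≡ 1 [MOD p] := H21.card_modEq_one hAp (fun v hv => hfpf v fun a ha => hv ⟨a, ha⟩)
    rw [Nat.ModEq, Nat.mod_eq_zero_of_dvd hdvd, Nat.mod_eq_of_lt hp.one_lt] at h
    exact zero_ne_one h
  set F := Cfsg.fittingSubgroup G with hF
  haveI := H19.fitting_normal G
  have hchar : ∀ (N : Subgroup G), N.Characteristic → ∀ (a : MulAut G), ∀ n ∈ N, a n ∈ N :=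
    fun N hN a n hn => Subgroup.characteristic_iff_map_le.1 hN a ⟨n, hn, rfl⟩
  haveI := H19.fitting_characteristic G
  have hsa : ∀ (a : MulAut G), ∃ s : MulAut (G ⧸ F), ∀ g : G, s (g : G ⧸ F) = ((a g : G) : G ⧸ F) :=
    fun a => ⟨QuotientGroup.congr F F a
      (Subgroup.characteristic_iff_map_eq.1 (H19.fitting_characteristic G) a), fun g => rfl⟩
  have hnil : Group.IsNilpotent (G ⧸ F) := by
    refine H84.isNilpotent_of_centralize_pCores ?_
    intro r q hr hq hrq
    haveI := Fact.mk hr
    haveI := Fact.mk hq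
    haveI := H19.pCore_normal q (G ⧸ F)
    set O := Cfsg.pCore q (G ⧸ F) with hO
    set L := O.comap (QuotientGroup.mk' F) with hL
    haveI : L.Normal := by rw [hL]; infer_instance
    have hLA : ∀ a ∈ A, ∀ k ∈ L, (a : MulAut G) k ∈ L := by
      intro a _ k hk
      obtain ⟨s, hs⟩ := hsa a
      rw [hL, Subgroup.mem_comap, QuotientGroup.mk'_apply] at hk ⊢
      rw [← hs]
      exact Subgroup.characteristic_iff_map_le.1 (H19.pCore_characteristic q (G ⧸ F)) s ⟨_, hk, rfl⟩
    have hdvdL : ∀ K : Subgroup G, ¬ p ∣ Nat.card K :=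
      fun K h => hpG (h.trans (Subgroup.card_subgroup_dvd_card K))
    obtain ⟨S, hS⟩ := H84.exists_invariant_sylow A hAp L hLA (hdvdL L) q
    set Q := (S : Subgroup L).map L.subtype with hQdef
    have hQL : Q ≤ L := Subgroup.map_subtype_le _
    -- `Q` covers `O`
    have hQO : ∀ x ∈ O, ∃ v ∈ Q, (v : G ⧸ F) = x := by
      intro x hx
      let f : L →* O := (QuotientGroup.mk' F).subgroupComap O
      have hf : Function.Surjective f := by
        rintro ⟨u, hu⟩
        obtain ⟨g, rfl⟩ := QuotientGroup.mk'_surjective F u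
        exact ⟨⟨g, hu⟩, rfl⟩
      have htop : (S : Subgroup L).map f = ⊤ := by
        have hnd : ¬ q ∣ ((S : Subgroup L).map f).index := fun h =>
          S.not_dvd_index (h.trans (Subgroup.index_map_dvd _ hf))
        obtain ⟨k, hk⟩ := (H19.pCore_isPGroup (G := G ⧸ F) q).index ((S : Subgroup L).map f)
        rw [← Subgroup.index_eq_one]
        rcases k with _ | k
        · simpa using hk
        · exact absurd (hk ▸ dvd_pow_self q (Nat.succ_ne_zero k)) hnd
      have hx' : (⟨x, hx⟩ : O) ∈ (S : Subgroup L).map f := by rw [htop]; trivial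
      obtain ⟨v, hv, hve⟩ := hx'
      exact ⟨v, ⟨v, hv, rfl⟩, congrArg Subtype.val hve⟩
    -- the normaliser of `Q` covers `G / F`
    set N := Subgroup.normalizer (Q : Set G) with hN
    have hfrat : L ⊔ N = ⊤ := by
      rw [sup_comm]
      exact Sylow.normalizer_sup_eq_top S
    let g : N →* G ⧸ F := (QuotientGroup.mk' F).comp N.subtype
    have hg : Function.Surjective g := by
      intro x
      have hrange : g.range = ⊤ := by
        have h1 : g.range = N.map (QuotientGroup.mk' F) := by
          rw [MonoidHom.range_comp, Subgroup.range_subtype]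
        have h2 : L.map (QuotientGroup.mk' F) ≤ N.map (QuotientGroup.mk' F) := by
          rintro _ ⟨l, hl, rfl⟩
          obtain ⟨v, hv, hve⟩ := hQO _ hl
          exact ⟨v, Subgroup.le_normalizer hv, hve⟩
        rw [h1, eq_top_iff, ← Subgroup.map_top_of_surjective _ (QuotientGroup.mk'_surjective F),
          ← hfrat, Subgroup.map_sup]
        exact sup_le h2 le_rfl
      exact MonoidHom.range_eq_top.1 hrange x
    have hNA : ∀ a ∈ A, ∀ k ∈ N, (a : MulAut G) k ∈ N := by
      intro a ha k hk
      refine H84.mem_normalizer_of_forall fun y hy => ?_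
      have hy' : (a : MulAut G).symm y ∈ Q := by
        have := hS a⁻¹ (inv_mem ha) y hy
        rwa [MulAut.inv_apply] at this
      have h := hS a ha _ (H84.conj_mem_of_mem_normalizer hk hy')
      rwa [map_mul, map_mul, map_inv, MulEquiv.apply_symm_apply] at h
    obtain ⟨T, hT⟩ := H84.exists_invariant_sylow A hAp N hNA (hdvdL N) r
    set R := (T : Subgroup N).map N.subtype with hRdef
    -- `R` centralises `O` modulo `F`
    have hRO : ∀ u ∈ R, ∀ x ∈ O, (u : G ⧸ F) * x = x * (u : G ⧸ F) := by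
      intro u hu x hx
      obtain ⟨v, hv, rfl⟩ := hQO x hx
      suffices h : ⁅u, v⁆ ∈ F by
        rw [← commutatorElement_eq_one_iff_mul_comm]
        have := (QuotientGroup.eq_one_iff (N := F) ⁅u, v⁆).2 h
        rwa [← QuotientGroup.mk'_apply, map_commutatorElement] at this
      by_cases hpr : p = r
      · have hu1 : u = 1 := by
          have h1 : IsPGroup r R := T.isPGroup'.map _
          obtain ⟨k, hk⟩ := IsPGroup.iff_orderOf.1 h1 ⟨u, hu⟩
          rw [Subgroup.orderOf_mk] at hk
          rw [← orderOf_eq_one_iff]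
          refine Nat.eq_one_of_dvd_coprimes ((hp.coprime_iff_not_dvd.2 hpG).pow_left k) ?_
            (orderOf_dvd_natCard u)
          rw [hk, hpr]
        rw [hu1, commutatorElement_one_left]
        exact one_mem F
      by_cases hpq : p = q
      · have hv1 : v = 1 := by
          have h1 : IsPGroup q Q := S.isPGroup'.map _
          obtain ⟨k, hk⟩ := IsPGroup.iff_orderOf.1 h1 ⟨v, hv⟩
          rw [Subgroup.orderOf_mk] at hk
          rw [← orderOf_eq_one_iff]
          refine Nat.eq_one_of_dvd_coprimes ((hp.coprime_iff_not_dvd.2 hpG).pow_left k) ?_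
            (orderOf_dvd_natCard v)
          rw [hk, hpq]
        rw [hv1, commutatorElement_one_right]
        exact one_mem F
      refine H84.mem_fitting_of_mem_comap_pCore q _ ?_ fun s hs hsq => ?_
      · have hvL : v ∈ L := hQL hv
        show ⁅u, v⁆ ∈ L
        rw [commutatorElement_def]
        exact mul_mem ((inferInstance : L.Normal).conj_mem v hvL u) (inv_mem hvL)
      · haveI := Fact.mk hs
        haveI := H19.pCore_normal s G
        by_cases hps : p = s
        · subst hps
          have : Cfsg.pCore p G = ⊥ := by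
            rw [← Subgroup.card_eq_one]
            obtain ⟨k, hk⟩ := IsPGroup.iff_card.1 (H19.pCore_isPGroup (G := G) p)
            rcases k with _ | k
            · simpa using hk
            · exact absurd (hk ▸ dvd_pow_self p (Nat.succ_ne_zero k)) (hdvdL _)
          rw [this, Subgroup.mem_centralizer_iff]
          intro w hw
          rw [SetLike.mem_coe, Subgroup.mem_bot] at hw
          rw [hw, one_mul, mul_one]
        exact commutator_mem_centralizer A hA hcard hfpf hpq hpr hps (Ne.symm hrq) (Ne.symm hsq) _ Q R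
          (H19.pCore_isPGroup s) (S.isPGroup'.map _) (T.isPGroup'.map _)
          (fun a _ => hchar _ (H19.pCore_characteristic s G) a) hS hT (Subgroup.map_subtype_le _)
          u v hu hv
    rintro x ⟨k, hk⟩
    -- `x` is conjugate into the image of `R`
    let P : Sylow r (G ⧸ F) := T.mapSurjective hg
    obtain ⟨P', hP'⟩ : ∃ P' : Sylow r (G ⧸ F), x ∈ (P' : Subgroup (G ⧸ F)) := by
      have hpg : IsPGroup r (Subgroup.zpowers x) :=
        IsPGroup.of_card (n := k) (by rw [Nat.card_zpowers, hk])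
      obtain ⟨P', hle⟩ := hpg.exists_le_sylow
      exact ⟨P', hle (Subgroup.mem_zpowers x)⟩
    obtain ⟨h, rfl⟩ := MulAction.exists_smul_eq (G ⧸ F) P P'
    rw [Sylow.coe_subgroup_smul] at hP'
    obtain ⟨y, hy, rfl⟩ := hP'
    obtain ⟨w, hw, rfl⟩ := hy
    rw [Subgroup.mem_centralizer_iff]
    intro z hz
    have hz' : h⁻¹ * z * h ∈ O := by
      have h' := (inferInstance : O.Normal).conj_mem z hz h⁻¹
      rwa [inv_inv] at h'
    have := hRO (w : G) ⟨w, hw, rfl⟩ _ hz'
    show z * (h * g w * h⁻¹) = h * g w * h⁻¹ * z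
    calc z * (h * g w * h⁻¹) = h * ((h⁻¹ * z * h) * g w) * h⁻¹ := by group
      _ = h * (g w * (h⁻¹ * z * h)) * h⁻¹ := by
          rw [show g w * (h⁻¹ * z * h) = (h⁻¹ * z * h) * g w from this]
      _ = h * g w * h⁻¹ * z := by group
  obtain ⟨k, hk⟩ := Subgroup.nilpotent_iff_lowerCentralSeries.1 hnil
  refine ⟨![⊥, F, ⊤], rfl, rfl, ?_, ?_, ?_⟩
  · rw [Fin.monotone_iff_le_succ]
    intro i
    fin_cases i
    · exact bot_le
    · exact le_top
  · intro i
    fin_cases i
    · exact Subgroup.normal_bot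
    · exact H19.fitting_normal G
    · exact (inferInstance : (⊤ : Subgroup G).Normal)
  · intro i
    fin_cases i
    · haveI := H19.fitting_isNilpotent (G := G)
      obtain ⟨n, hn⟩ := Subgroup.nilpotent_iff_lowerCentralSeries.1 (H19.fitting_isNilpotent (G := G))
      refine ⟨n, ?_⟩
      show F.lowerCentralSeries n ≤ ⊥
      rw [← Subgroup.top_subtype_lowerCentralSeries F n, hn, Subgroup.map_bot]
    · refine ⟨k, ?_⟩
      show (⊤ : Subgroup G).lowerCentralSeries k ≤ F
      have h : ((⊤ : Subgroup G).lowerCentralSeries k).map (QuotientGroup.mk' F) = ⊥ := by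
        rw [Subgroup.map_lowerCentralSeries, Subgroup.map_top_of_surjective _
          (QuotientGroup.mk'_surjective F), hk]
      rwa [Subgroup.map_eq_bot_iff, QuotientGroup.ker_mk'] at h

end Cfsg.Agent.S3796
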