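import Cfsg.Statements.S3798
import Mathlib
import Cfsg.Agent.H53.PConstrained
import Cfsg.Agent.H84.PSolvable
import Cfsg.Agent.H84.PGroupFix

set_option autoImplicit false
open Cfsg

namespace Cfsg.Agent.S3798


/-- The case `O_{p'}(X) = 1`. -/
theorem core_case {X : Type*} [Group X] [Finite X] {p : ℕ} [Fact p.Prime] (hp : p ≠ 2)
    (hX : Cfsg.IsPSolvable p X) (h1 : Cfsg.pPrimeCore p X = ⊥)
    (htrans : ∀ U V : Subgroup X, Nat.card U = p → Nat.card V = p →
      ∃ a : MulAut X, U.map a.toMonoidHom = V) :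
    (Cfsg.pCore p X).index.Coprime p := by
  have hpp : p.Prime := Fact.out
  haveI := H19.pCore_normal p X
  haveI := H19.pCore_characteristic p X
  by_contra hnc
  rw [Nat.coprime_comm, hpp.coprime_iff_not_dvd, not_not] at hnc
  obtain ⟨K, H, hKdef, hVH, hHne, hHp, hfr, hdvdN⟩ :=
    H84.exists_pPrime_complement_data hX hnc
  set V := Cfsg.pCore p X with hVdef
  have hVp : IsPGroup p V := H19.pCore_isPGroup p
  have hV0 : Nontrivial V := by
    rw [Subgroup.nontrivial_iff_ne_bot]
    have hXn : Nontrivial X := by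
      rw [← Finite.one_lt_card_iff_nontrivial]
      exact lt_of_lt_of_le hpp.one_lt
        (Nat.le_of_dvd Nat.card_pos (hnc.trans V.index_dvd_card))
    rcases H84.pCore_ne_bot_or_pPrimeCore_ne_bot hX with h | h
    · exact h
    · exact absurd h1 h
  -- the elements of order dividing `p` of the centre of `V`
  let E : Subgroup X :=
    { carrier := {v | v ∈ V ∧ v ∈ Subgroup.centralizer (V : Set X) ∧ v ^ p = 1}
      one_mem' := ⟨one_mem _, one_mem _, one_pow _⟩
      mul_mem' := by
        rintro x y ⟨hx, hxc, hxp⟩ ⟨hy, hyc, hyp⟩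
        refine ⟨mul_mem hx hy, mul_mem hxc hyc, ?_⟩
        rw [Commute.mul_pow (show Commute x y from (Subgroup.mem_centralizer_iff.1 hxc y hy).symm),
          hxp, hyp, one_mul]
      inv_mem' := by
        rintro x ⟨hx, hxc, hxp⟩
        exact ⟨inv_mem hx, inv_mem hxc, by rw [inv_pow, hxp, inv_one]⟩ }
  have hmapV : ∀ a : MulAut X, ∀ v, v ∈ V → a v ∈ V := by
    intro a v hv
    have := Subgroup.characteristic_iff_map_le.1 (H19.pCore_characteristic p X) a
    exact this ⟨v, hv, rfl⟩
  have hEinv : ∀ a : MulAut X, ∀ v, v ∈ E → a v ∈ E := by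
    rintro a v ⟨hv, hvc, hvp⟩
    refine ⟨hmapV a v hv, ?_, by rw [← map_pow, hvp, map_one]⟩
    rw [Subgroup.mem_centralizer_iff]
    intro w hw
    have h := Subgroup.mem_centralizer_iff.1 hvc _ (hmapV a.symm w hw)
    have h' := congrArg a h
    rwa [map_mul, map_mul, MulEquiv.apply_symm_apply] at h'
  -- every element of order `p` lies in `E`
  have hall : ∀ y : X, orderOf y = p → y ∈ E := by
    intro y hy
    have := hVp.center_nontrivial
    obtain ⟨⟨z, hzV⟩, hzc, hzo⟩ : ∃ z : V, z ∈ Subgroup.center V ∧ orderOf z = p := by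
      have hd : p ∣ Nat.card (Subgroup.center V) := by
        obtain ⟨n, hn⟩ := IsPGroup.iff_card.1 (hVp.to_subgroup (Subgroup.center V))
        rcases n with _ | n
        · rw [pow_zero] at hn
          exact absurd hn (Finite.one_lt_card_iff_nontrivial.2 this).ne'
        · rw [hn]; exact dvd_pow_self p (Nat.succ_ne_zero n)
      obtain ⟨c, hc⟩ := exists_prime_orderOf_dvd_card' p hd
      exact ⟨c.1, c.2, by rw [Subgroup.orderOf_coe, hc]⟩
    rw [Subgroup.orderOf_mk] at hzo
    have hzE : z ∈ E := by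
      refine ⟨hzV, ?_, by rw [← hzo]; exact pow_orderOf_eq_one z⟩
      rw [Subgroup.mem_centralizer_iff]
      intro w hw
      exact congrArg Subtype.val (Subgroup.mem_center_iff.1 hzc ⟨w, hw⟩)
    obtain ⟨a, ha⟩ := htrans (Subgroup.zpowers z) (Subgroup.zpowers y)
      (by rw [Nat.card_zpowers, hzo]) (by rw [Nat.card_zpowers, hy])
    have : y ∈ (Subgroup.zpowers z).map a.toMonoidHom := by
      rw [ha]; exact Subgroup.mem_zpowers y
    obtain ⟨w, hw, rfl⟩ := this
    exact hEinv a w ((Subgroup.zpowers_le.2 hzE) hw)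
  -- the fixed points of `K` in `E` are invariant under all automorphisms
  have hKinv : ∀ a : MulAut X, ∀ k, k ∈ K → a k ∈ K := by
    intro a k hk
    rw [hKdef, Subgroup.mem_comap] at hk ⊢
    let b : (X ⧸ V) ≃* (X ⧸ V) := QuotientGroup.congr V V a
      (Subgroup.characteristic_iff_map_eq.1 (H19.pCore_characteristic p X) a)
    have := Subgroup.characteristic_iff_map_le.1 (H19.pPrimeCore_characteristic p (X ⧸ V)) b
    exact this ⟨_, hk, rfl⟩
  obtain ⟨⟨x, hxN⟩, hxo⟩ := exists_prime_orderOf_dvd_card' p hdvdN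
  rw [Subgroup.orderOf_mk] at hxo
  have hxE := hall x hxo
  have hdisj : ∀ w, w ∈ V → w ∈ H → w = 1 := by
    intro w hw hw'
    have h : w ∈ V ⊓ H := ⟨hw, hw'⟩
    rwa [H19.inf_eq_bot_of_isPGroup_coprime hVp hHp, Subgroup.mem_bot] at h
  have hxH : ∀ h ∈ H, h * x = x * h := by
    intro h hh
    have h1 : x * h * x⁻¹ * h⁻¹ ∈ H :=
      mul_mem ((Subgroup.mem_normalizer_iff.1 hxN h).1 hh) (inv_mem hh)
    have h2 : x * h * x⁻¹ * h⁻¹ ∈ V := by
      have := mul_mem hxE.1 ((inferInstance : V.Normal).conj_mem _ (inv_mem hxE.1) h)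
      simpa [mul_assoc] using this
    have h3 := hdisj _ h2 h1
    rw [mul_inv_eq_one, mul_inv_eq_iff_eq_mul] at h3
    exact h3.symm
  have hxK : x ∈ Subgroup.centralizer (K : Set X) := by
    rw [Subgroup.mem_centralizer_iff]
    intro k hk
    have hle : K ≤ Subgroup.centralizer ({x} : Set X) := by
      rw [← hVH]
      refine sup_le ?_ ?_ <;> intro w hw <;> rw [Subgroup.mem_centralizer_singleton_iff]
      · exact Subgroup.mem_centralizer_iff.1 hxE.2.1 w hw
      · exact hxH w hw
    exact Subgroup.mem_centralizer_singleton_iff.1 (hle hk)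
  -- hence `H` centralises all elements of order `p`, so `V`
  have hfix : ∀ y : X, orderOf y = p → ∀ k ∈ K, k * y = y * k := by
    intro y hy k hk
    obtain ⟨a, ha⟩ := htrans (Subgroup.zpowers x) (Subgroup.zpowers y)
      (by rw [Nat.card_zpowers, hxo]) (by rw [Nat.card_zpowers, hy])
    have : y ∈ (Subgroup.zpowers x).map a.toMonoidHom := by
      rw [ha]; exact Subgroup.mem_zpowers y
    obtain ⟨w, hw, rfl⟩ := this
    have hwK : w ∈ Subgroup.centralizer (K : Set X) := (Subgroup.zpowers_le.2 hxK) hw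
    have h := congrArg a (Subgroup.mem_centralizer_iff.1 hwK _ (hKinv a.symm k hk))
    rw [map_mul, map_mul, MulEquiv.apply_symm_apply] at h
    exact h
  have hHK : H ≤ K := hVH ▸ le_sup_right
  have hHC : ∀ h ∈ H, h ∈ Subgroup.centralizer (V : Set X) := by
    intro h hh
    refine H84.mem_centralizer_of_fixes hVp ?_ ?_ ?_
    · rw [Subgroup.normalizer_eq_top_iff.2 (inferInstance : V.Normal)]
      exact Subgroup.mem_top h
    · exact hHp.coprime_dvd_left (Subgroup.orderOf_dvd_natCard H hh)
    · intro v hv hvp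
      rcases hvp with hvp | ⟨h2, -⟩
      · rcases (Nat.dvd_prime hpp).1 (orderOf_dvd_of_pow_eq_one hvp) with h' | h'
        · rw [orderOf_eq_one_iff.1 h']; simp
        · exact hfix v h' h (hHK hh)
      · exact absurd h2 hp
  have hHn : H.Normal := by
    rw [← Subgroup.normalizer_eq_top_iff, eq_top_iff, ← hfr]
    refine sup_le ?_ le_rfl
    rw [← hVH]
    refine sup_le ?_ Subgroup.le_normalizer
    intro v hv
    refine Subgroup.centralizer_le_normalizer _ ?_
    rw [Subgroup.mem_centralizer_iff]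
    intro h hh
    exact (Subgroup.mem_centralizer_iff.1 (hHC h hh) v hv).symm
  exact hHne (le_bot_iff.1 (h1 ▸ H19.le_pPrimeCore hHn hHp))


/-- The Gaschütz–Yen Theorem: let G be a finite p-soluble group, p an odd prime dividing its order, such that the automorphism group of G permutes the subgroups of G of order p transitively. Then G has p-length at most 1. -/
theorem result {G : Type*} [Group G] [Finite G] {p : ℕ} [Fact p.Prime] (hp : p ≠ 2) (hdvd : p ∣ Nat.card G) (hG : Cfsg.IsPSolvable p G) (htrans : ∀ U V : Subgroup G, Nat.card U = p → Nat.card V = p → ∃ a : MulAut G, U.map a.toMonoidHom = V) : Cfsg.PLengthLE p 1 G := by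
  haveI := H19.pPrimeCore_normal p G
  haveI := H19.pPrimeCore_characteristic p G
  have hpp : p.Prime := Fact.out
  rw [H53.pLengthLE_one_iff]
  unfold Cfsg.pPrimePCore
  rw [Subgroup.index_comap_of_surjective _ (QuotientGroup.mk'_surjective _)]
  set N := Cfsg.pPrimeCore p G with hN
  refine core_case hp (H84.isPSolvable_of_surjective _ (QuotientGroup.mk'_surjective N) hG)
    (H53.pPrimeCore_quotient_eq_bot p) ?_
  -- subgroups of order `p` of the quotient lift
  have lift : ∀ U : Subgroup (G ⧸ N), Nat.card U = p →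
      ∃ U' : Subgroup G, Nat.card U' = p ∧ U'.map (QuotientGroup.mk' N) = U := by
    intro U hU
    have hNU : N ≤ U.comap (QuotientGroup.mk' N) :=
      (QuotientGroup.ker_mk' N).symm.le.trans (Subgroup.ker_le_comap _ _)
    have hdvd' : p ∣ Nat.card (U.comap (QuotientGroup.mk' N)) := by
      refine dvd_trans ?_ (Subgroup.card_dvd_of_surjective
        ((QuotientGroup.mk' N).subgroupComap U) ?_)
      · rw [hU]
      · rintro ⟨u, hu⟩
        obtain ⟨g, rfl⟩ := QuotientGroup.mk'_surjective N u
        exact ⟨⟨g, hu⟩, rfl⟩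
    obtain ⟨⟨g, hg⟩, hgo⟩ := exists_prime_orderOf_dvd_card' p hdvd'
    rw [Subgroup.orderOf_mk] at hgo
    refine ⟨Subgroup.zpowers g, by rw [Nat.card_zpowers, hgo], ?_⟩
    rw [MonoidHom.map_zpowers]
    have hle : Subgroup.zpowers (QuotientGroup.mk' N g) ≤ U := Subgroup.zpowers_le.2 hg
    refine Subgroup.eq_of_le_of_card_ge hle ?_
    rw [hU, Nat.card_zpowers]
    have hne : QuotientGroup.mk' N g ≠ 1 := by
      intro h
      rw [QuotientGroup.mk'_apply, QuotientGroup.eq_one_iff] at h
      have := (H19.pPrimeCore_coprime (G := G) p).coprime_dvd_left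
        (Subgroup.orderOf_dvd_natCard _ h)
      rw [hgo, Nat.coprime_self] at this
      exact hpp.ne_one this
    have hdd : orderOf (QuotientGroup.mk' N g) ∣ p := hgo ▸ orderOf_map_dvd _ g
    rcases (Nat.dvd_prime hpp).1 hdd with h | h
    · exact absurd (orderOf_eq_one_iff.1 h) hne
    · exact h.ge
  intro U V hU hV
  obtain ⟨U', hU', rfl⟩ := lift U hU
  obtain ⟨V', hV', rfl⟩ := lift V hV
  obtain ⟨a, ha⟩ := htrans U' V' hU' hV'
  refine ⟨QuotientGroup.congr N N a
    (Subgroup.characteristic_iff_map_eq.1 (H19.pPrimeCore_characteristic p G) a), ?_⟩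
  rw [← ha, Subgroup.map_map, Subgroup.map_map]
  rfl

end Cfsg.Agent.S3798
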