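import Cfsg.Statements.S3799
import Mathlib
import Cfsg.Agent.H24.Extraspecial
import Cfsg.Agent.H58.ExtraspecialCongr

set_option autoImplicit false
open Cfsg
open scoped commutatorElement

namespace Cfsg.Agent.S3799

variable (p : ℕ) (n : ℕ)

/-- The Heisenberg matrix with parameters `a`, `b`, `c`. -/
def heisMat (a b : Fin n → ZMod p) (c : ZMod p) :
    Matrix (Unit ⊕ (Fin n ⊕ Unit)) (Unit ⊕ (Fin n ⊕ Unit)) (ZMod p) := fun i j =>
  match i, j with
  | .inl _, .inl _ => 1
  | .inl _, .inr (.inl t) => a t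
  | .inl _, .inr (.inr _) => c
  | .inr (.inl _), .inl _ => 0
  | .inr (.inl s), .inr (.inl t) => if s = t then 1 else 0
  | .inr (.inl s), .inr (.inr _) => b s
  | .inr (.inr _), .inl _ => 0
  | .inr (.inr _), .inr (.inl _) => 0
  | .inr (.inr _), .inr (.inr _) => 1

theorem heisMat_mul [Fact p.Prime] (a b a' b' : Fin n → ZMod p) (c c' : ZMod p) :
    heisMat p n a b c * heisMat p n a' b' c' =
      heisMat p n (a + a') (b + b') (c + c' + dotProduct a b') := by
  ext i j
  rcases i with _ | i | _ <;> rcases j with _ | j | _ <;>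
    simp [heisMat, Matrix.mul_apply, Fintype.sum_sum_type, dotProduct, Finset.sum_add_distrib] <;> ring

theorem heisMat_zero : heisMat p n 0 0 0 = 1 := by
  ext i j
  rcases i with _ | i | _ <;> rcases j with _ | j | _ <;> simp [heisMat, Matrix.one_apply]

theorem heisMat_inj {a b a' b' : Fin n → ZMod p} {c c' : ZMod p}
    (h : heisMat p n a b c = heisMat p n a' b' c') : a = a' ∧ b = b' ∧ c = c' :=
  ⟨funext fun t => congrFun (congrFun h (.inl ())) (.inr (.inl t)),
    funext fun t => congrFun (congrFun h (.inr (.inl t))) (.inr (.inr ())),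
    congrFun (congrFun h (.inl ())) (.inr (.inr ()))⟩

/-- The Heisenberg matrix as a unit. -/
def heisUnit [Fact p.Prime] (a b : Fin n → ZMod p) (c : ZMod p) :
    Matrix.GeneralLinearGroup (Unit ⊕ (Fin n ⊕ Unit)) (ZMod p) where
  val := heisMat p n a b c
  inv := heisMat p n (-a) (-b) (-c + dotProduct a b)
  val_inv := by
    rw [heisMat_mul, ← heisMat_zero p n]
    congr 1 <;> simp [dotProduct, Finset.sum_neg_distrib]
  inv_val := by
    rw [heisMat_mul, ← heisMat_zero p n]
    congr 1 <;> simp [dotProduct, Finset.sum_neg_distrib]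

theorem heisUnit_mul [Fact p.Prime] (a b a' b' : Fin n → ZMod p) (c c' : ZMod p) :
    heisUnit p n a b c * heisUnit p n a' b' c' =
      heisUnit p n (a + a') (b + b') (c + c' + dotProduct a b') :=
  Units.ext (heisMat_mul p n a b a' b' c c')

/-- The Heisenberg group. -/
def heis [Fact p.Prime] : Subgroup (Matrix.GeneralLinearGroup (Unit ⊕ (Fin n ⊕ Unit)) (ZMod p)) where
  carrier := {g | ∃ a b c, g = heisUnit p n a b c}
  one_mem' := ⟨0, 0, 0, Units.ext (heisMat_zero p n).symm⟩
  mul_mem' := by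
    rintro _ _ ⟨a, b, c, rfl⟩ ⟨a', b', c', rfl⟩
    exact ⟨_, _, _, heisUnit_mul p n a b a' b' c c'⟩
  inv_mem' := by
    rintro _ ⟨a, b, c, rfl⟩
    exact ⟨-a, -b, -c + dotProduct a b, Units.ext rfl⟩

theorem heis_card [Fact p.Prime] : Nat.card (heis p n) = p ^ n * p ^ n * p := by
  rw [← Nat.card_congr (Equiv.ofBijective
    (fun t : (Fin n → ZMod p) × (Fin n → ZMod p) × ZMod p =>
      (⟨heisUnit p n t.1 t.2.1 t.2.2, _, _, _, rfl⟩ : heis p n)) ⟨?_, ?_⟩)]
  · simp [Nat.card_prod, Nat.card_fun, mul_assoc]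
  · rintro ⟨a, b, c⟩ ⟨a', b', c'⟩ h
    obtain ⟨rfl, rfl, rfl⟩ := heisMat_inj p n (congrArg Units.val (congrArg Subtype.val h))
    rfl
  · rintro ⟨_, a, b, c, rfl⟩
    exact ⟨(a, b, c), rfl⟩

theorem heis_pow [Fact p.Prime] (hp : p ≠ 2) {x} (hx : x ∈ heis p n) : x ^ p = 1 := by
  obtain ⟨a, b, c, rfl⟩ := hx
  have key : ∀ k : ℕ, heisUnit p n a b c ^ k = heisUnit p n ((k : ZMod p) • a) ((k : ZMod p) • b)
      ((k : ZMod p) * c + (k.choose 2 : ZMod p) * dotProduct a b) := by
    intro k
    induction k with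
    | zero => simpa using Units.ext (heisMat_zero p n).symm
    | succ k ih =>
      rw [pow_succ, ih, heisUnit_mul]
      congr 1
      · simp [add_smul]
      · simp [add_smul]
      · rw [smul_dotProduct, Nat.choose_succ_succ, Nat.choose_one_right]
        push_cast
        simp only [smul_eq_mul]
        ring
  rw [key p, ZMod.natCast_self,
    (ZMod.natCast_eq_zero_iff _ p).2 ((Fact.out : p.Prime).dvd_choose_self two_ne_zero
      (lt_of_le_of_ne (Fact.out : p.Prime).two_le (Ne.symm hp)))]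
  simpa using Units.ext (heisMat_zero p n)

theorem heis_isExtraspecial [Fact p.Prime] (hp : p ≠ 2) (hn : 1 ≤ n) :
    Cfsg.IsExtraspecial p (heis p n) := by
  have hcomm : ∀ g h : heis p n, ∀ a b a' b' c c', (g : Matrix.GeneralLinearGroup _ (ZMod p)) =
      heisUnit p n a b c → (h : Matrix.GeneralLinearGroup _ (ZMod p)) = heisUnit p n a' b' c' →
      (g * h = h * g ↔ dotProduct a b' = dotProduct a' b) := by
    intro g h a b a' b' c c' hg hh
    constructor
    · intro he
      have he' := congrArg Units.val (congrArg Subtype.val he)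
      simp only [Subgroup.coe_mul, hg, hh, heisUnit_mul] at he'
      have := (heisMat_inj p n he').2.2
      linear_combination this
    · intro he
      refine Subtype.ext ?_
      rw [Subgroup.coe_mul, Subgroup.coe_mul, hg, hh, heisUnit_mul, heisUnit_mul, he]
      congr 1 <;> ring
  have hcen : ∀ g : heis p n, g ∈ Subgroup.center (heis p n) ↔
      ∃ c, (g : Matrix.GeneralLinearGroup _ (ZMod p)) = heisUnit p n 0 0 c := by
    intro g
    obtain ⟨a, b, c, hg⟩ := g.2
    constructor
    · intro hc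
      refine ⟨c, ?_⟩
      have ha : a = 0 := funext fun t => by
        have := (hcomm g ⟨heisUnit p n 0 (Pi.single t 1) 0, _, _, _, rfl⟩ a b 0 (Pi.single t 1) c 0 hg rfl).1
          (Subgroup.mem_center_iff.1 hc _).symm
        simpa using this
      have hb : b = 0 := funext fun t => by
        have := (hcomm g ⟨heisUnit p n (Pi.single t 1) 0 0, _, _, _, rfl⟩ a b (Pi.single t 1) 0 c 0 hg rfl).1
          (Subgroup.mem_center_iff.1 hc _).symm
        simpa using this.symm
      rw [hg, ha, hb]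
    · rintro ⟨c, hg⟩
      refine Subgroup.mem_center_iff.2 fun h => ?_
      obtain ⟨a', b', c', hh⟩ := h.2
      exact ((hcomm g h 0 0 a' b' c c' hg hh).2 (by simp)).symm
  refine Cfsg.Agent.H24.isExtraspecial_of (fun x => ⟨1, Subtype.ext (by
    simpa using heis_pow p n hp x.2)⟩) ?_ ?_ (fun g h => ?_) (fun x => ?_)
  · rw [← Nat.card_congr (Equiv.ofBijective
      (fun c : ZMod p => (⟨⟨heisUnit p n 0 0 c, _, _, _, rfl⟩, (hcen _).2 ⟨c, rfl⟩⟩ :
        Subgroup.center (heis p n))) ⟨?_, ?_⟩), Nat.card_zmod]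
    · intro c c' h
      exact (heisMat_inj p n (congrArg Units.val (congrArg Subtype.val (congrArg Subtype.val h)))).2.2
    · rintro ⟨g, hg⟩
      obtain ⟨c, hc⟩ := (hcen g).1 hg
      exact ⟨c, Subtype.ext (Subtype.ext hc.symm)⟩
  · intro htop
    let i : Fin n := ⟨0, hn⟩
    obtain ⟨c, hc⟩ := (hcen ⟨heisUnit p n (Pi.single i 1) 0 0, _, _, _, rfl⟩).1 (htop ▸ Subgroup.mem_top _)
    have := congrFun (heisMat_inj p n (congrArg Units.val hc)).1 i
    simp at this
  · let π : heis p n → (Fin n → ZMod p) × (Fin n → ZMod p) := fun g =>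
      (fun t => (g : Matrix.GeneralLinearGroup (Unit ⊕ (Fin n ⊕ Unit)) (ZMod p)).val (.inl ()) (.inr (.inl t)),
       fun t => (g : Matrix.GeneralLinearGroup (Unit ⊕ (Fin n ⊕ Unit)) (ZMod p)).val (.inr (.inl t)) (.inr (.inr ())))
    have hπ : ∀ g h, π (g * h) = π g + π h := by
      intro g h
      obtain ⟨a, b, c, hg⟩ := g.2
      obtain ⟨a', b', c', hh⟩ := h.2
      simp only [π, Subgroup.coe_mul, hg, hh, heisUnit_mul]
      rfl
    let f : heis p n →* Multiplicative ((Fin n → ZMod p) × (Fin n → ZMod p)) :=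
      MonoidHom.mk' (fun g => Multiplicative.ofAdd (π g)) fun g h => by rw [hπ]; rfl
    have h1 : π ⁅g, h⁆ = 0 := by
      have := map_commutatorElement f g h
      rw [show ⁅f g, f h⁆ = 1 from commutatorElement_eq_one_iff_mul_comm.2 (mul_comm _ _)] at this
      exact congrArg Multiplicative.toAdd this
    obtain ⟨a, b, c, hg⟩ := (⁅g, h⁆).2
    simp only [π, hg, Prod.mk_eq_zero] at h1
    exact (hcen _).2 ⟨c, by rw [hg, show a = 0 from h1.1, show b = 0 from h1.2]⟩
  · rw [show x ^ p = 1 from Subtype.ext (by simpa using heis_pow p n hp x.2)]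
    exact one_mem _

/-- For every odd prime p and every n ≥ 1 there is an extraspecial p-group of order p^(1+2n) and exponent p; concretely, the general linear group of degree n + 2 over the field with p elements contains such a subgroup. -/
theorem result (p : ℕ) [Fact p.Prime] (hp : p ≠ 2) (n : ℕ) (hn : 1 ≤ n) : ∃ E : Subgroup (Matrix.GeneralLinearGroup (Fin (n + 2)) (ZMod p)), Cfsg.IsExtraspecial p ↥E ∧ Nat.card E = p ^ (1 + 2 * n) ∧ ∀ x ∈ E, x ^ p = 1 := by
  classical
  have hp' := (Fact.out : p.Prime)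
  set ι := Unit ⊕ (Fin n ⊕ Unit)
  let e : ι ≃ Fin (n + 2) := Fintype.equivFinOfCardEq (by simp [ι]; omega)
  let φ : Matrix.GeneralLinearGroup ι (ZMod p) ≃* Matrix.GeneralLinearGroup (Fin (n + 2)) (ZMod p) :=
    Units.mapEquiv (Matrix.reindexAlgEquiv (ZMod p) (ZMod p) e).toMulEquiv
  refine ⟨(heis p n).map φ.toMonoidHom, ?_, ?_, ?_⟩
  · exact Cfsg.Agent.H58.isExtraspecial_congr (Subgroup.equivMapOfInjective (heis p n) φ.toMonoidHom φ.injective)
      (heis_isExtraspecial p n hp hn)
  · refine (Subgroup.card_map_of_injective (f := φ.toMonoidHom) φ.injective).trans ?_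
    rw [heis_card]
    ring
  · rintro _ ⟨x, hx, rfl⟩
    rw [← map_pow, heis_pow p n hp hx, map_one]

end Cfsg.Agent.S3799
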