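import Cfsg.Statements.S3800
import Mathlib
import Cfsg.Agent.H23.PPrimeQuotient

set_option autoImplicit false
open Cfsg

namespace Cfsg.Agent.S3800

/-- Let G be a finite group, N a normal subgroup of G whose order is prime to p, and P a p-subgroup of G. Then in G/N the normalizer of the image of P is the image of N_G(P), and the centralizer of the image of P is the image of C_G(P). -/
theorem result {G : Type*} [Group G] [Finite G] {p : ℕ} [Fact p.Prime] (N : Subgroup G) [N.Normal] (hN : (Nat.card N).Coprime p) (P : Subgroup G) (hP : IsPGroup p P) : Subgroup.normalizer ((P.map (QuotientGroup.mk' N)) : Set (G ⧸ N)) = (Subgroup.normalizer (P : Set G)).map (QuotientGroup.mk' N) ∧ Subgroup.centralizer ((P.map (QuotientGroup.mk' N)) : Set (G ⧸ N)) = (Subgroup.centralizer (P : Set G)).map (QuotientGroup.mk' N) := by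
  have h : ¬ p ∣ Nat.card N := fun h => (Fact.out : p.Prime).one_lt.ne'
    (Nat.eq_one_of_dvd_coprimes hN h dvd_rfl)
  exact ⟨Cfsg.Agent.H23.normalizer_map_mk N h hP, Cfsg.Agent.H23.centralizer_map_mk N h hP⟩

end Cfsg.Agent.S3800
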