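import Cfsg.Statements.S3952
import Cfsg.Agent.H82.Exponent

set_option autoImplicit false
open Cfsg

namespace Cfsg.Agent.S3952

/-- If `A` is the Schur multiplier of the finite group `Q`, then the square of the exponent of `A` divides the order of `Q`. -/
theorem result {Q : Type*} [Group Q] [Finite Q] {A : Type*} [CommGroup A] (hA : Cfsg.HasSchurMultiplier Q A) : Monoid.exponent A ^ 2 ∣ Nat.card Q := by
  exact Cfsg.Agent.H82.sq_exponent_dvd_card hA

end Cfsg.Agent.S3952
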