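import Cfsg.Statements.S3953
import Cfsg.Agent.H82.ResCor

set_option autoImplicit false
open Cfsg

namespace Cfsg.Agent.S3953

/-- A finite abelian group retracts onto each primary component. -/
theorem exists_projection {A : Type*} [CommGroup A] [Finite A] {p : ℕ} [Fact p.Prime] :
    ∃ q : A →* CommGroup.primaryComponent A p,
      ∀ x : CommGroup.primaryComponent A p, q x = x := by
  have hp : p.Prime := Fact.out
  have hn : Nat.card A ≠ 0 := Nat.card_pos.ne'
  let a := (Nat.card A).factorization p
  let m := Nat.card A / p ^ a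
  have hnm : p ^ a * m = Nat.card A := Nat.ordProj_mul_ordCompl_eq_self (Nat.card A) p
  have hmem : ∀ x : A, x ^ m ∈ CommGroup.primaryComponent A p := fun x =>
    (CommGroup.mem_primaryComponent).mpr ⟨a, by
      rw [← pow_mul, mul_comm, hnm, pow_card_eq_one']⟩
  have hK : IsPGroup p (CommGroup.primaryComponent A p) :=
    CommGroup.primaryComponent.isPGroup
  have hbij : Function.Bijective (fun x : CommGroup.primaryComponent A p => x ^ m) :=
    (hK.powEquiv (hp.coprime_iff_not_dvd.mpr (Nat.not_dvd_ordCompl hp hn))).bijective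
  let g : A →* CommGroup.primaryComponent A p :=
    (powMonoidHom m).codRestrict _ hmem
  let e := MulEquiv.ofBijective
    (powMonoidHom m : CommGroup.primaryComponent A p →* CommGroup.primaryComponent A p) hbij
  refine ⟨e.symm.toMonoidHom.comp g, fun x => ?_⟩
  exact e.symm_apply_eq.mpr rfl

/-- Let `P` be a Sylow `p`-subgroup of the finite group `G`, let `A` be the Schur multiplier of `G` and `B` that of `P`. Then the `p`-primary component of `A` is isomorphic to a direct factor of `B`: there are subgroups `C` and `D` of `B` meeting trivially and generating `B`, with `C` isomorphic to the `p`-primary component of `A`. -/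
theorem result {G : Type*} [Group G] [Finite G] (p : ℕ) [Fact p.Prime] (P : Sylow p G) {A B : Type*} [CommGroup A] [CommGroup B] (hA : Cfsg.HasSchurMultiplier G A) (hB : Cfsg.HasSchurMultiplier P B) : ∃ C D : Subgroup B, C ⊓ D = ⊥ ∧ C ⊔ D = ⊤ ∧ Nonempty (CommGroup.primaryComponent A p ≃* C) := by
  obtain ⟨res, cor, h⟩ := Cfsg.Agent.H82.HasSchurMultiplier.exists_res_cor hA hB
  have := Cfsg.Agent.H82.HasSchurMultiplier.finite hA
  let K := CommGroup.primaryComponent A p
  -- the primary component and the index power map on it
  have hKp : IsPGroup p K := CommGroup.primaryComponent.isPGroup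
  let f : K →* B := res.domRestrict K
  have hpow : Function.Bijective (fun x : K => x ^ (P : Subgroup G).index) :=
    (hKp.powEquiv ((Fact.out : p.Prime).coprime_iff_not_dvd.mpr P.not_dvd_index)).bijective
  have hinj : Function.Injective f := by
    intro x y hxy
    refine hpow.1 (Subtype.ext ?_)
    have := congrArg cor hxy
    simpa [f, h] using this
  obtain ⟨q, hq⟩ := exists_projection (A := A) (p := p)
  refine ⟨f.range, (q.comp cor).ker, ?_, ?_, ⟨MonoidHom.ofInjective hinj⟩⟩
  · rw [eq_bot_iff]
    rintro _ ⟨⟨x, rfl⟩, hx⟩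
    have h1 : q (cor (res (x : A))) = 1 := hx
    rw [h, map_pow, hq] at h1
    have h2 : x = 1 := hpow.1 (by simpa using h1)
    simp [h2]
  · rw [eq_top_iff]
    intro b _
    obtain ⟨x, hx⟩ := hpow.2 (q (cor b))
    have hmem : (f x)⁻¹ * b ∈ (q.comp cor).ker := by
      show q (cor ((res (x : A))⁻¹ * b)) = 1
      rw [map_mul, map_inv, h, map_mul, map_inv, map_pow, hq]
      exact inv_mul_eq_one.mpr hx
    have := Subgroup.mul_mem_sup (show f x ∈ f.range from ⟨x, rfl⟩) hmem
    rwa [mul_inv_cancel_left] at this

end Cfsg.Agent.S3953
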