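import Cfsg.Statements.S3958
import Cfsg.Agent.H82.Mult

set_option autoImplicit false
universe u v
open Cfsg

namespace Cfsg.Agent.S3958

/-- Let `σ : Γ →* Q` be a finite stem extension of the finite group `Q` with `Γ` of trivial Schur multiplier. Then `σ` is a Schur covering group of `Q`: for every finite stem extension `τ : Δ →* Q` with `Δ` in the same universe as `Q`, the kernel of `τ` is a homomorphic image of the kernel of `σ`. -/
theorem result {Q : Type u} [Group Q] [Finite Q] {Γ : Type v} [Group Γ] [Finite Γ] (σ : Γ →* Q) (hσ : Cfsg.IsStemExtension σ) (hΓ : Cfsg.HasCyclicSchurMultiplier Γ 1) (Δ : Type u) [Group Δ] [Finite Δ] (τ : Δ →* Q) (hτ : Cfsg.IsStemExtension τ) : ∃ π : σ.ker →* τ.ker, Function.Surjective π := by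
  -- the pullback of the two extensions
  let P : Subgroup (Γ × Δ) :=
    (σ.comp (MonoidHom.fst Γ Δ)).eqLocus (τ.comp (MonoidHom.snd Γ Δ))
  let p : P →* Γ := (MonoidHom.fst Γ Δ).comp P.subtype
  let d : P →* Δ := (MonoidHom.snd Γ Δ).comp P.subtype
  have hp : Function.Surjective p := fun g => by
    obtain ⟨x, hx⟩ := hτ.1 (σ g)
    exact ⟨⟨(g, x), hx.symm⟩, rfl⟩
  have hd : Function.Surjective d := fun x => by
    obtain ⟨g, hg⟩ := hσ.1 (τ x)
    exact ⟨⟨(g, x), hg⟩, rfl⟩
  have hpc : p.ker ≤ Subgroup.center P := by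
    intro a ha
    rw [Subgroup.mem_center_iff]
    intro b
    have h1 : a.1.1 = 1 := ha
    have h2 : a.1.2 ∈ τ.ker := by
      rw [MonoidHom.mem_ker]
      calc τ a.1.2 = σ a.1.1 := a.2.symm
        _ = 1 := by rw [h1, map_one]
    refine Subtype.ext (Prod.ext ?_ ?_)
    · simp [h1]
    · exact Subgroup.mem_center_iff.mp (hτ.2.1 h2) b.1.2
  have hbot := Cfsg.Agent.H82.ker_inf_commutator_eq_bot hΓ hp hpc
  let C := commutator P ⊓ (σ.comp p).ker
  let pC : C →* σ.ker := (p.comp C.subtype).codRestrict _ fun a => a.2.2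
  have hpC : Function.Bijective pC := by
    refine ⟨(injective_iff_map_eq_one pC).mpr fun a ha => ?_, fun g => ?_⟩
    · have h1 : (a : P) ∈ p.ker ⊓ commutator P := ⟨congrArg Subtype.val ha, a.2.1⟩
      rw [hbot, Subgroup.mem_bot] at h1
      exact Subtype.ext h1
    · have hg := hσ.2.2 g.2
      rw [← Cfsg.Agent.H82.map_commutator_of_surjective hp] at hg
      obtain ⟨a, ha, hag⟩ := hg
      refine ⟨⟨a, ha, ?_⟩, Subtype.ext hag⟩
      show σ (p a) = 1
      rw [hag]
      exact g.2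
  let dC : C →* τ.ker := (d.comp C.subtype).codRestrict _ fun a => by
    rw [MonoidHom.mem_ker]
    exact (a.1.2).symm.trans a.2.2
  refine ⟨dC.comp (MulEquiv.ofBijective pC hpC).symm.toMonoidHom,
    Function.Surjective.comp (g := dC) ?_ (MulEquiv.surjective _)⟩
  intro x
  have hx := hτ.2.2 x.2
  rw [← Cfsg.Agent.H82.map_commutator_of_surjective hd] at hx
  obtain ⟨a, ha, hax⟩ := hx
  refine ⟨⟨a, ha, ?_⟩, Subtype.ext hax⟩
  show σ a.1.1 = 1
  rw [show σ a.1.1 = τ a.1.2 from a.2, show a.1.2 = (x : Δ) from hax]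
  exact x.2

end Cfsg.Agent.S3958
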