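import Cfsg.Statements.S3961
import Cfsg.Agent.H82.Perfect

set_option autoImplicit false
universe u v
open Cfsg

namespace Cfsg.Agent.S3961

/-- Let `π : G →* Q` be a surjective homomorphism with central kernel from a finite perfect group `G` (a perfect cover of `Q`). Then `π` is universal, in the sense that every surjective homomorphism `ξ : X →* Q` with central kernel from a group `X` in the universe of `G` admits a homomorphism `η : G →* X` with `ξ ∘ η = π`, if and only if `G` has trivial Schur multiplier. -/
theorem result {G : Type u} {Q : Type v} [Group G] [Group Q] [Finite G] (hG : Group.IsPerfect G) (π : G →* Q) (hπ : Function.Surjective π) (hker : π.ker ≤ Subgroup.center G) : (∀ (X : Type u) [Group X] (ξ : X →* Q), Function.Surjective ξ → ξ.ker ≤ Subgroup.center X → ∃ η : G →* X, ξ.comp η = π) ↔ Cfsg.HasCyclicSchurMultiplier G 1 := by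
  exact ⟨fun h => Cfsg.Agent.H82.trivial_multiplier_of_universal hG π hπ hker h,
    fun h X _ ξ hξ hc => Cfsg.Agent.H82.exists_lift_of_trivial_multiplier hG h π ξ hξ hc⟩

end Cfsg.Agent.S3961
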