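import Cfsg.Statements.S3963
import Cfsg.Agent.H82.Metacyclic

set_option autoImplicit false
open Cfsg

namespace Cfsg.Agent.S3963

/-- The metacyclic multiplier formula evaluated at the dicyclic group. -/
theorem quaternion_multiplier (n : ℕ) [NeZero n] :
    Cfsg.HasCyclicSchurMultiplier (QuaternionGroup n) 1 := by
  obtain ⟨k, rfl⟩ := Nat.exists_eq_add_one_of_ne_zero (NeZero.ne n)
  have hgen : Subgroup.closure {QuaternionGroup.a (1 : ZMod (2 * (k + 1))), QuaternionGroup.xa 0} = ⊤ := by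
    rw [eq_top_iff]
    rintro (j | j) _
    · rw [← ZMod.natCast_rightInverse j, ← QuaternionGroup.a_one_pow]
      exact pow_mem (Subgroup.subset_closure (by simp)) _
    · have hj : QuaternionGroup.xa j =
          QuaternionGroup.xa 0 * QuaternionGroup.a (1 : ZMod (2 * (k + 1))) ^ j.val := by
        rw [QuaternionGroup.a_one_pow, QuaternionGroup.xa_mul_a, zero_add,
          ZMod.natCast_rightInverse j]
      rw [hj]
      exact mul_mem (Subgroup.subset_closure (by simp)) (pow_mem (Subgroup.subset_closure (by simp)) _)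
  have hg2 : Nat.gcd (2 * (k + 1)) (2 * k) = 2 := by
    rw [Nat.gcd_mul_left, Nat.coprime_self_add_left.mpr (Nat.coprime_one_left k)]
  have hT : 2 * (k + 1) * 1 / Nat.gcd (2 * (k + 1)) (2 * k + 1 - 1) = k + 1 := by
    rw [Nat.add_sub_cancel, hg2, mul_one, Nat.mul_div_cancel_left _ two_pos]
  have ha : ∀ j : ℤ, QuaternionGroup.a (1 : ZMod (2 * (k + 1))) ^ j =
      QuaternionGroup.a (j : ZMod (2 * (k + 1))) := by
    intro j
    cases j with
    | ofNat j => simp [QuaternionGroup.a_one_pow]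
    | negSucc j => rw [zpow_negSucc, QuaternionGroup.a_one_pow, Int.cast_negSucc]; rfl
  have h2 : QuaternionGroup.xa (0 : ZMod (2 * (k + 1))) ^ (2 : ℤ) =
      QuaternionGroup.a 1 ^ ((k + 1 : ℕ) : ℤ) := by
    rw [show (2 : ℤ) = ((2 : ℕ) : ℤ) from rfl, zpow_natCast, pow_two, QuaternionGroup.xa_mul_xa,
      zpow_natCast, QuaternionGroup.a_one_pow]
    simp
  have hsep : ∀ i q : ℤ, QuaternionGroup.a (1 : ZMod (2 * (k + 1))) ^ i *
      QuaternionGroup.xa (0 : ZMod (2 * (k + 1))) ^ q = 1 →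
        ∃ c : ℤ, q = ((2 : ℕ) : ℤ) * c ∧
          ((2 * (k + 1) : ℕ) : ℤ) ∣ i + ((k + 1 : ℕ) : ℤ) * c := by
    intro i q h
    rcases Int.even_or_odd q with ⟨c, hc⟩ | ⟨c, hc⟩
    · refine ⟨c, by omega, ?_⟩
      rw [hc, ← two_mul, zpow_mul, h2, ← zpow_mul, ← zpow_add, ha, QuaternionGroup.one_def] at h
      exact (ZMod.intCast_zmod_eq_zero_iff_dvd _ _).mp (QuaternionGroup.a.inj h)
    · rw [hc, zpow_add, zpow_mul, h2, zpow_one, ← zpow_mul, ← mul_assoc, ← zpow_add, ha,
        QuaternionGroup.a_mul_xa, QuaternionGroup.one_def] at h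
      cases h
  have hrn : (2 * k + 1) ^ 2 ≡ 1 [MOD 2 * (k + 1)] := by
    have h1 : 1 ≤ (2 * k + 1) ^ 2 := Nat.one_le_pow _ _ (by omega)
    refine ((Nat.modEq_iff_dvd' h1).mpr ⟨2 * k, ?_⟩).symm
    rw [Nat.sub_eq_iff_eq_add h1]
    ring
  have h := Cfsg.Agent.H82.hasCyclicSchurMultiplier_metacyclic
    (G := QuaternionGroup (k + 1)) (a := QuaternionGroup.a 1) (b := QuaternionGroup.xa 0)
    (m := 2 * (k + 1)) (n := 2) (r := 2 * k + 1) (l := 1) (by omega) (by omega) (by omega) hrn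
    (by rw [QuaternionGroup.a_one_pow, ZMod.natCast_self]; rfl)
    (by rw [hT, pow_two, QuaternionGroup.xa_mul_xa, QuaternionGroup.a_one_pow]; simp)
    (by
      rw [mul_inv_eq_iff_eq_mul, QuaternionGroup.a_one_pow, QuaternionGroup.xa_mul_a,
        QuaternionGroup.a_mul_xa]
      congr 1
      have h0 : ((2 * (k + 1) : ℕ) : ZMod (2 * (k + 1))) = 0 := ZMod.natCast_self _
      push_cast at h0 ⊢
      linear_combination h0)
    hgen (by rw [hT]; exact hsep)
  rwa [Nat.gcd_one_left] at h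

/-- For every `n ≥ 1` the dicyclic (generalized quaternion) group of order `4 n` has trivial Schur multiplier. -/
theorem result (n : ℕ) [NeZero n] : Cfsg.HasCyclicSchurMultiplier (QuaternionGroup n) 1 := by
  exact quaternion_multiplier n

end Cfsg.Agent.S3963
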