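import Cfsg.Statements.S3965
import Cfsg.Agent.H82.Dihedral

set_option autoImplicit false
open Cfsg

namespace Cfsg.Agent.S3965

/-- For even `n ≥ 2` the dihedral group of order `2 n` has Schur multiplier cyclic of order `2`. -/
theorem result (n : ℕ) [NeZero n] (hn : Even n) : Cfsg.HasCyclicSchurMultiplier (DihedralGroup n) 2 := by
  have h := Cfsg.Agent.H82.dihedral_multiplier n
  rwa [Nat.gcd_eq_right hn.two_dvd] at h

end Cfsg.Agent.S3965
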