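import Cfsg.Statements.S3966
import Mathlib


set_option autoImplicit false
open Cfsg

namespace Cfsg.Agent.S3966

open scoped commutatorElement in
/-- The natural map from the dicyclic group onto the dihedral group. -/
theorem toDihedral (n : ℕ) [NeZero n] (hn : Even n) :
    ∃ σ : QuaternionGroup n →* DihedralGroup n, Cfsg.IsStemExtension σ ∧ Nat.card σ.ker = 2 := by
  let c := ZMod.castHom (show n ∣ 2 * n from dvd_mul_left n 2) (ZMod n)
  let f : QuaternionGroup n → DihedralGroup n
    | .a i => .r (c i)
    | .xa i => .sr (c i)
  have hcn : c (n : ZMod (2 * n)) = 0 := by rw [map_natCast, ZMod.natCast_self]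
  let σ : QuaternionGroup n →* DihedralGroup n := MonoidHom.mk' f (by
    rintro (i | i) (j | j)
    · simp only [QuaternionGroup.a_mul_a, f, DihedralGroup.r_mul_r, map_add]
    · simp only [QuaternionGroup.a_mul_xa, f, DihedralGroup.r_mul_sr, map_sub]
    · simp only [QuaternionGroup.xa_mul_a, f, DihedralGroup.sr_mul_r, map_add]
    · simp only [QuaternionGroup.xa_mul_xa, f, DihedralGroup.sr_mul_sr, map_add, map_sub, hcn,
        zero_add])
  have hker : ∀ x ∈ σ.ker, x = 1 ∨ x = QuaternionGroup.a (n : ZMod (2 * n)) := by
    rintro (i | i) hx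
    · have hi : c i = 0 := by
        have h : DihedralGroup.r (c i) = DihedralGroup.r 0 := hx
        exact DihedralGroup.r.inj h
      obtain ⟨m, hm⟩ : n ∣ i.val := by
        rw [← ZMod.natCast_eq_zero_iff, ← map_natCast c, ZMod.natCast_rightInverse i]
        exact hi
      have hlt := i.val_lt
      rw [hm] at hlt
      have hm2 : m < 2 := by
        by_contra hcon
        push Not at hcon
        have := Nat.mul_le_mul_left n hcon
        omega
      interval_cases m
      · left
        rw [QuaternionGroup.one_def, ← ZMod.natCast_rightInverse i, hm]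
        simp
      · right
        rw [← ZMod.natCast_rightInverse i, hm, mul_one]
    · have h : DihedralGroup.sr (c i) = DihedralGroup.r 0 := hx
      cases h
  have hmem : QuaternionGroup.a (n : ZMod (2 * n)) ∈ σ.ker := by
    show DihedralGroup.r (c (n : ZMod (2 * n))) = 1
    rw [hcn, DihedralGroup.one_def]
  have hne : QuaternionGroup.a (n : ZMod (2 * n)) ≠ 1 := by
    rw [QuaternionGroup.one_def, Ne, QuaternionGroup.a.injEq, ZMod.natCast_eq_zero_iff]
    intro h
    have := Nat.le_of_dvd (NeZero.pos n) h
    have := NeZero.pos n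
    omega
  refine ⟨σ, ⟨?_, ?_, ?_⟩, ?_⟩
  · rintro (i | i)
    · obtain ⟨j, rfl⟩ := ZMod.castHom_surjective (show n ∣ 2 * n from dvd_mul_left n 2) i
      exact ⟨.a j, rfl⟩
    · obtain ⟨j, rfl⟩ := ZMod.castHom_surjective (show n ∣ 2 * n from dvd_mul_left n 2) i
      exact ⟨.xa j, rfl⟩
  · intro x hx
    rcases hker x hx with rfl | rfl
    · exact Subgroup.one_mem _
    · rw [Subgroup.mem_center_iff]
      have h2 : -(n : ZMod (2 * n)) = n := by
        have h0 : ((2 * n : ℕ) : ZMod (2 * n)) = 0 := ZMod.natCast_self _
        push_cast at h0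
        rw [neg_eq_iff_add_eq_zero, ← two_mul, h0]
      rintro (j | j)
      · simp only [QuaternionGroup.a_mul_a, add_comm]
      · simp only [QuaternionGroup.a_mul_xa, QuaternionGroup.xa_mul_a]
        rw [sub_eq_add_neg, h2]
  · intro x hx
    rcases hker x hx with rfl | rfl
    · exact Subgroup.one_mem _
    · obtain ⟨h, hh⟩ := hn
      have heq : QuaternionGroup.a (n : ZMod (2 * n)) =
          ⁅QuaternionGroup.a (h : ZMod (2 * n)), QuaternionGroup.xa 0⁆ := by
        rw [commutatorElement_def, eq_mul_inv_iff_mul_eq, eq_mul_inv_iff_mul_eq]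
        simp only [QuaternionGroup.a_mul_xa, QuaternionGroup.xa_mul_a, zero_add]
        congr 1
        subst hh
        push_cast
        ring
      rw [heq]
      exact Subgroup.commutator_mem_commutator (Subgroup.mem_top _) (Subgroup.mem_top _)
  · rw [Nat.card_eq_two_iff]
    refine ⟨1, ⟨_, hmem⟩, ?_, Set.eq_univ_of_forall fun x => ?_⟩
    · exact fun h => hne (congrArg Subtype.val h).symm
    · rcases hker x.1 x.2 with h | h
      · exact Or.inl (Subtype.ext h)
      · exact Or.inr (Subtype.ext h)

/-- For even `n ≥ 2` the dicyclic group of order `4 n` is a stem extension of the dihedral group of order `2 n` with kernel of order `2`: there is a surjective homomorphism `QuaternionGroup n →* DihedralGroup n` whose kernel is central, lies in the commutator subgroup and has two elements. Together with the order of the multiplier this exhibits the dicyclic group as a Schur covering group of the dihedral group. -/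
theorem result (n : ℕ) [NeZero n] (hn : Even n) : ∃ σ : QuaternionGroup n →* DihedralGroup n, Cfsg.IsStemExtension σ ∧ Nat.card σ.ker = 2 := by
  obtain ⟨σ, h1, h2⟩ := toDihedral n hn
  exact ⟨σ, h1, h2⟩

end Cfsg.Agent.S3966
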