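import Cfsg.Statements.S3967
import Cfsg.Agent.H82.Metacyclic

set_option autoImplicit false
open Cfsg

namespace Cfsg.Agent.S3967

/-- The metacyclic multiplier formula for the presented group itself: the separation of normal
forms comes from the model with trivial kernel. -/
theorem presented_multiplier (m n r l : ℕ) (hm : 0 < m) (hn : 0 < n) (hr : 0 < r)
    (hrn : r ^ n ≡ 1 [MOD m]) :
    Cfsg.HasCyclicSchurMultiplier (PresentedGroup ({FreeGroup.of true ^ m, (FreeGroup.of false) ^ n * (FreeGroup.of true ^ (m * l / Nat.gcd m (r - 1)))⁻¹, FreeGroup.of false * FreeGroup.of true * (FreeGroup.of false)⁻¹ * (FreeGroup.of true ^ r)⁻¹} : Set (FreeGroup Bool)))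
      (Nat.gcd l (Nat.gcd m (r - 1) * Nat.gcd m (∑ i ∈ Finset.range n, r ^ i) / m)) := by
  set T := m * l / Nat.gcd m (r - 1) with hTdef
  obtain ⟨k, g, e, s, hk, hg, hcop, hmeq, hreq, -, hT, -⟩ :=
    Cfsg.Agent.H82.exists_metacyclic_params m n r l hm hr hrn
  let P : Cfsg.Agent.H82.MCParam :=
    { m := m
      n := n
      d := 1
      r := (r : ℤ)
      t := (T : ℤ)
      u := 0
      v := 0
      hm := hm
      hn := hn
      hd := one_pos
      h1 := by simp
      h2 := by
        obtain ⟨w, hw⟩ := Nat.modEq_iff_dvd.mp hrn.symm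
        exact ⟨w, by push_cast at hw; exact hw, by simp⟩
      h3 := ⟨(e : ℤ) * l, by rw [hTdef, hT, hreq, hmeq]; push_cast; ring, by simp⟩ }
  set rels : Set (FreeGroup Bool) := {FreeGroup.of true ^ m,
    (FreeGroup.of false) ^ n * (FreeGroup.of true ^ T)⁻¹,
    FreeGroup.of false * FreeGroup.of true * (FreeGroup.of false)⁻¹ * (FreeGroup.of true ^ r)⁻¹}
  set a : PresentedGroup rels := PresentedGroup.of true
  set b : PresentedGroup rels := PresentedGroup.of false
  have rel : ∀ x ∈ rels, PresentedGroup.mk rels x = 1 := fun x hx =>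
    PresentedGroup.mk_eq_one_iff.mpr (Subgroup.subset_normalClosure hx)
  have ha : a ^ m = 1 := by
    have h := rel _ (Or.inl rfl)
    rwa [map_pow] at h
  have hb : b ^ n = a ^ T := by
    have h := rel _ (Or.inr (Or.inl rfl))
    rw [map_mul, map_inv, map_pow, map_pow, mul_inv_eq_one] at h
    exact h
  have hconj : b * a * b⁻¹ = a ^ r := by
    have h := rel _ (Or.inr (Or.inr rfl))
    rw [map_mul, map_mul, map_mul, map_inv, map_inv, map_pow, mul_inv_eq_one] at h
    exact h
  have hgen : Subgroup.closure {a, b} = ⊤ := by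
    rw [eq_top_iff, ← PresentedGroup.closure_range_of rels, Subgroup.closure_le]
    rintro _ ⟨x, rfl⟩
    cases x
    · exact Subgroup.subset_closure (by simp [b])
    · exact Subgroup.subset_closure (by simp [a])
  -- into the model
  have hA : ∀ j : ℕ, P.elt 1 0 0 ^ j = P.elt (j : ℤ) 0 0 := by
    intro j
    induction j with
    | zero => exact (P.elt_eq_one_iff.mpr ⟨0, 0, by simp, by simp, by simp⟩).symm
    | succ j ih =>
      rw [pow_succ', ih, P.elt_mul _ _ _ _ _ _ 0 (by simp)]
      push_cast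
      congr 1 <;> simp [add_comm]
  have hB : ∀ j : ℕ, P.elt 0 0 1 ^ j = P.elt 0 0 (j : ℤ) := by
    intro j
    induction j with
    | zero => exact (P.elt_eq_one_iff.mpr ⟨0, 0, by simp, by simp, by simp⟩).symm
    | succ j ih =>
      rw [pow_succ', ih, P.elt_mul _ _ _ _ _ _ 1 (by simp)]
      push_cast
      congr 1 <;> simp [add_comm]
  let f : Bool → P.Model := fun x => if x then P.elt 1 0 0 else P.elt 0 0 1
  have hf : ∀ x ∈ rels, FreeGroup.lift f x = 1 := by
    rintro x (rfl | rfl | rfl) <;>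
      simp only [map_mul, map_inv, map_pow, FreeGroup.lift_apply_of, f, if_true, Bool.false_eq_true,
        if_false]
    · rw [hA, P.elt_eq_one_iff]
      exact ⟨0, 1, by simp, by simp [P], by simp [P]⟩
    · rw [mul_inv_eq_one, hA, hB, ← inv_mul_eq_one]
      have hinv : (P.elt 0 0 (n : ℤ))⁻¹ = P.elt (-(T : ℤ)) 0 0 := by
        rw [inv_eq_iff_mul_eq_one, P.elt_mul _ _ _ _ _ _ n (by simp), P.elt_eq_one_iff]
        obtain ⟨w, hw⟩ := Nat.modEq_iff_dvd.mp hrn.symm
        push_cast at hw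
        refine ⟨-1, -(w * T), by simp [P], ?_, by simp [P]⟩
        simp only [P]
        linear_combination -(T : ℤ) * hw
      rw [hinv, P.elt_mul _ _ _ _ _ _ 0 (by simp), P.elt_eq_one_iff]
      exact ⟨0, 0, by simp, by simp, by simp [P]⟩
    · rw [mul_inv_eq_one, mul_inv_eq_iff_eq_mul, hA, P.elt_mul _ _ _ _ _ _ 1 (by simp),
        P.elt_mul _ _ _ _ _ _ 0 (by simp)]
      congr 1 <;> simp [P]
  let φ : PresentedGroup rels →* P.Model := PresentedGroup.toGroup hf
  obtain ⟨σ, hσ⟩ := P.exists_hom ha (by rw [zpow_natCast]; exact hb)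
    (by rw [zpow_natCast]; exact hconj)
  have hφσ : ∀ i q : ℤ, φ (a ^ i * b ^ q) = P.elt i 0 q := by
    intro i q
    have hAz : P.elt 1 0 0 ^ i = P.elt i 0 0 := by
      let j : P.Base →* P.Model := P.proj.comp SemidirectProduct.inl
      show (j (P.base 1 0)) ^ i = j (P.base i 0)
      rw [← map_zpow, Cfsg.Agent.H82.MCParam.base_zpow, mul_one, mul_zero]
    have hBz : P.elt 0 0 1 ^ q = P.elt 0 0 q := by
      let j : Multiplicative ℤ →* P.Model := P.proj.comp SemidirectProduct.inr
      have hj : ∀ x : ℤ, P.elt 0 0 x = j (Multiplicative.ofAdd x) := fun x => rfl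
      rw [hj, hj, ← map_zpow, ← ofAdd_zsmul, smul_eq_mul, mul_one]
    rw [map_mul, map_zpow, map_zpow, PresentedGroup.toGroup.of, PresentedGroup.toGroup.of]
    simp only [f, if_true, Bool.false_eq_true, if_false]
    rw [hAz, hBz, P.elt_mul _ _ _ _ _ _ 0 (by simp)]
    congr 1 <;> simp
  refine Cfsg.Agent.H82.hasCyclicSchurMultiplier_metacyclic hm hn hr hrn ha hb hconj hgen
    fun i q h => ?_
  have h1 := hφσ i q
  rw [h, map_one, eq_comm, P.elt_eq_one_iff] at h1
  obtain ⟨c, p, hq, hp, -⟩ := h1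
  refine ⟨-c, by rw [hq]; simp [P], ⟨p, ?_⟩⟩
  rw [← hp]
  show i + (T : ℤ) * -c = i - c * (T : ℤ)
  ring

/-- Let `m, n ≥ 1`, `r ≥ 1` with `r ^ n ≡ 1 (mod m)`, and `l` a natural number; put `d = gcd(m, r - 1)`, `t = m l / d` and `h = d · gcd(m, 1 + r + ⋯ + r^(n-1)) / m`. The group presented by generators `a, b` and relations `a ^ m = 1`, `b ^ n = a ^ t`, `b a b⁻¹ = a ^ r` (a metacyclic group of order `m n`) has Schur multiplier cyclic of order `gcd(l, h)`. -/
theorem result (m n r l : ℕ) (hm : 0 < m) (hn : 0 < n) (hr : 0 < r) (hrn : r ^ n ≡ 1 [MOD m]) : Cfsg.HasCyclicSchurMultiplier (PresentedGroup ({FreeGroup.of true ^ m, (FreeGroup.of false) ^ n * (FreeGroup.of true ^ (m * l / Nat.gcd m (r - 1)))⁻¹, FreeGroup.of false * FreeGroup.of true * (FreeGroup.of false)⁻¹ * (FreeGroup.of true ^ r)⁻¹} : Set (FreeGroup Bool))) (Nat.gcd l (Nat.gcd m (r - 1) * Nat.gcd m (∑ i ∈ Finset.range n, r ^ i) / m)) := by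
  exact presented_multiplier m n r l hm hn hr hrn

end Cfsg.Agent.S3967
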