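import Cfsg.Statements.S3968
import Cfsg.Agent.H25.CharValues
import Cfsg.Agent.H25.CharCoprime
import Mathlib

set_option autoImplicit false
open Cfsg

namespace Cfsg.Agent.S3968

open Cfsg.Agent Module in
/-- A faithful irreducible character of prime degree `p` with `p ^ 2` dividing the order forces
a nontrivial centre. -/
theorem center_ne_bot {G : Type*} [Group G] [Finite G] (p : ℕ) (hp : p.Prime)
    (χ : Cfsg.IrrCharacter G) (hdeg : χ.1 1 = p) (hfaith : ∀ g : G, χ.1 g = χ.1 1 → g = 1)
    (hdiv : p ^ 2 ∣ Nat.card G) : Subgroup.center G ≠ ⊥ := by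
  classical
  intro hbot
  have : Fact p.Prime := ⟨hp⟩
  obtain ⟨n, ρ, hirr, hρ⟩ := χ.2
  have : ρ.IsIrreducible := hirr
  have hfr : finrank ℂ (Fin n → ℂ) = p := by
    have h : (ρ.character 1 : ℂ) = p := by rw [hρ, hdeg]
    rw [Representation.char_one] at h
    exact_mod_cast h
  have hinj : Function.Injective ρ := fun a b h => by
    have h1 : ρ (a⁻¹ * b) = LinearMap.id := by
      rw [map_mul, ← h, ← map_mul, inv_mul_cancel, map_one]
      rfl
    have h2 := hfaith (a⁻¹ * b)
      (by rw [hdeg, ← hρ, (H25.char_eq_degree_iff ρ _).mpr h1, hfr])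
    exact inv_mul_eq_one.mp h2
  obtain ⟨P⟩ := (inferInstance : Nonempty (Sylow p G))
  -- a noncentral element of the centre of a Sylow subgroup has character value zero
  have hzero : ∀ z : G, z ∈ (P : Subgroup G) → (∀ x ∈ (P : Subgroup G), x * z = z * x) →
      z ≠ 1 → ρ.character z = 0 := by
    intro z _ hzc hz1
    have hle : (P : Subgroup G) ≤ Subgroup.centralizer ({z} : Set G) := fun x hx =>
      Subgroup.mem_centralizer_iff.mpr fun y hy => by
        rw [Set.mem_singleton_iff.mp hy, hzc x hx]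
    have hcop : Nat.Coprime (finrank ℂ (Fin n → ℂ))
        (Subgroup.centralizer ({z} : Set G)).index := by
      rw [hfr]
      exact hp.coprime_iff_not_dvd.mpr fun h =>
        P.not_dvd_index (h.trans (Subgroup.index_dvd_of_le hle))
    refine (H25.char_eq_zero_or_norm_eq_of_coprime ρ z hcop).resolve_right fun hnorm => hz1 ?_
    have hs := H25.apply_eq_smul_id_of_norm_eq ρ z hnorm
    have hmem : z ∈ Subgroup.center G := by
      rw [Subgroup.mem_center_iff]
      intro y
      apply hinj
      rw [map_mul, map_mul, hs]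
      simp [Module.End.mul_eq_comp]
    rwa [hbot, Subgroup.mem_bot] at hmem
  have hdP : p ^ 2 ∣ Nat.card (P : Subgroup G) := P.pow_dvd_card_of_pow_dvd_card hdiv
  have : Nontrivial (P : Subgroup G) := by
    rw [← Finite.one_lt_card_iff_nontrivial]
    exact lt_of_lt_of_le (by have := hp.two_le; exact lt_of_lt_of_le one_lt_two (this.trans
      (Nat.le_self_pow two_ne_zero p))) (Nat.le_of_dvd Nat.card_pos hdP)
  have := P.2.center_nontrivial
  obtain ⟨⟨z, hzc⟩, hz⟩ := exists_prime_orderOf_dvd_card' p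
    ((((P.2.to_subgroup (Subgroup.center (P : Subgroup G))).card_eq_or_dvd).resolve_left
      Finite.one_lt_card.ne') : p ∣ Nat.card (Subgroup.center (P : Subgroup G)))
  rw [Subgroup.orderOf_mk, ← Subgroup.orderOf_coe] at hz
  have hcommz : ∀ x ∈ (P : Subgroup G), x * (z : G) = (z : G) * x := fun x hx =>
    congrArg Subtype.val (Subgroup.mem_center_iff.mp hzc ⟨x, hx⟩)
  -- the powers of `z` give a basis of eigenvectors
  obtain ⟨ω, hω⟩ := HasEnoughRootsOfUnity.exists_primitiveRoot ℂ p
  have heig : ∀ i : Fin p, ∃ v : Fin n → ℂ, v ≠ 0 ∧ ρ (z : G) v = (ω ^ (i : ℕ)) • v := by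
    intro i
    set a : ℂ := ω ^ (i : ℕ)
    have ha : a ^ p = 1 := by rw [← pow_mul, mul_comm, pow_mul, hω.pow_eq_one, one_pow]
    have ha0 : a ≠ 0 := fun h => by simp [h, zero_pow hp.ne_zero] at ha
    let e : Module.End ℂ (Fin n → ℂ) := ∑ j ∈ Finset.range p, (a⁻¹) ^ j • ρ ((z : G) ^ j)
    have htr : LinearMap.trace ℂ _ e = (p : ℂ) := by
      show LinearMap.trace ℂ (Fin n → ℂ) (∑ j ∈ Finset.range p, (a⁻¹) ^ j • ρ ((z : G) ^ j)) = _
      rw [map_sum, Finset.sum_eq_single 0]
      · rw [pow_zero, one_smul, pow_zero, map_one, LinearMap.trace_one, hfr]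
      · intro j hj hj0
        rw [map_smul]
        have h0 : ρ.character ((z : G) ^ j) = 0 := by
          refine hzero _ (pow_mem z.2 j) (fun x hx => ?_) fun h => ?_
          · exact ((show Commute x (z : G) from hcommz x hx).pow_right j)
          · have h1 := Nat.le_of_dvd (Nat.pos_of_ne_zero hj0) (hz ▸ orderOf_dvd_of_pow_eq_one h)
            exact absurd (Finset.mem_range.mp hj) (not_lt.mpr h1)
        rw [show LinearMap.trace ℂ (Fin n → ℂ) (ρ ((z : G) ^ j)) = 0 from h0, smul_zero]
      · intro h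
        exact absurd (Finset.mem_range.mpr hp.pos) h
    have he : e ≠ 0 := fun h => by
      rw [h, map_zero] at htr
      exact Nat.cast_ne_zero.mpr hp.ne_zero htr.symm
    obtain ⟨w, hw⟩ : ∃ w, e w ≠ 0 := by
      by_contra hcon
      push Not at hcon
      exact he (LinearMap.ext hcon)
    refine ⟨e w, hw, ?_⟩
    have hshift : ∀ j ∈ Finset.range p,
        ρ (z : G) ((a⁻¹) ^ j • ρ ((z : G) ^ j) w) = a • ((a⁻¹) ^ (j + 1) • ρ ((z : G) ^ (j + 1)) w) := by
      intro j _
      rw [map_smul, smul_smul, pow_succ a⁻¹, mul_comm _ a⁻¹, ← mul_assoc, mul_inv_cancel₀ ha0,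
        one_mul, pow_succ' (z : G), map_mul, Module.End.mul_apply]
    show ρ (z : G) ((∑ j ∈ Finset.range p, (a⁻¹) ^ j • ρ ((z : G) ^ j)) w) =
      a • (∑ j ∈ Finset.range p, (a⁻¹) ^ j • ρ ((z : G) ^ j)) w
    simp only [LinearMap.sum_apply, LinearMap.smul_apply]
    rw [map_sum, Finset.sum_congr rfl hshift, ← Finset.smul_sum]
    congr 1
    have h1 := Finset.sum_range_succ' (fun j => (a⁻¹) ^ j • ρ ((z : G) ^ j) w) p
    have hpz : (z : G) ^ p = 1 := orderOf_dvd_iff_pow_eq_one.mp hz.dvd
    rw [Finset.sum_range_succ, inv_pow a p, ha, inv_one, hpz, pow_zero, pow_zero] at h1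
    exact (add_right_cancel h1).symm
  choose v hv hev using heig
  have hωinj : Function.Injective fun i : Fin p => ω ^ (i : ℕ) := fun i j h =>
    Fin.ext (hω.pow_inj i.2 j.2 h)
  have hli : LinearIndependent ℂ v := Module.End.eigenvectors_linearIndependent' (ρ (z : G))
    (fun i : Fin p => ω ^ (i : ℕ)) hωinj v
    fun i => ⟨Module.End.mem_eigenspace_iff.mpr (hev i), hv i⟩
  have : Nonempty (Fin p) := ⟨⟨0, hp.pos⟩⟩
  let b := basisOfLinearIndependentOfCardEqFinrank hli (by rw [Fintype.card_fin, hfr])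
  have hb : ∀ i, b i = v i := fun i => by
    simp only [b, coe_basisOfLinearIndependentOfCardEqFinrank]
  -- hence the Sylow subgroup acts diagonally
  have hdiag : ∀ x ∈ (P : Subgroup G), ∀ i, ∃ c : ℂ, ρ x (b i) = c • b i := by
    intro x hx i
    refine ⟨b.repr (ρ x (b i)) i, ?_⟩
    have hw : ρ (z : G) (ρ x (b i)) = (ω ^ (i : ℕ)) • ρ x (b i) := by
      rw [← Module.End.mul_apply, ← map_mul, ← hcommz x hx, map_mul, Module.End.mul_apply, hb,
        hev, map_smul]
    have hzb : ∀ y : Fin n → ℂ, ∀ j, b.repr (ρ (z : G) y) j = ω ^ (j : ℕ) * b.repr y j := by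
      intro y j
      conv_lhs => rw [← b.sum_repr y]
      simp only [map_sum, map_smul, Finsupp.coe_finset_sum, Finset.sum_apply]
      rw [Finset.sum_eq_single j]
      · rw [hb, hev, ← hb, map_smul, Finsupp.smul_apply, Finsupp.smul_apply, b.repr_self,
          Finsupp.single_eq_same, smul_eq_mul, smul_eq_mul, mul_one, mul_comm]
      · intro k _ hkj
        rw [hb, hev, ← hb, map_smul, Finsupp.smul_apply, Finsupp.smul_apply, b.repr_self,
          Finsupp.single_eq_of_ne hkj.symm, smul_zero, smul_zero]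
      · intro h
        exact absurd (Finset.mem_univ j) h
    refine b.repr.injective (Finsupp.ext fun j => ?_)
    rw [map_smul, Finsupp.smul_apply, b.repr_self]
    rcases eq_or_ne j i with rfl | hji
    · rw [Finsupp.single_eq_same, smul_eq_mul, mul_one]
    · rw [Finsupp.single_eq_of_ne hji, smul_zero]
      have h := hzb (ρ x (b i)) j
      rw [hw, map_smul, Finsupp.smul_apply, smul_eq_mul] at h
      by_contra hne
      exact hji (hωinj (mul_right_cancel₀ hne h).symm)
  have hab : ∀ x ∈ (P : Subgroup G), ∀ y ∈ (P : Subgroup G), x * y = y * x := by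
    intro x hx y hy
    refine hinj (b.ext fun i => ?_)
    obtain ⟨c, hc⟩ := hdiag x hx i
    obtain ⟨d, hd⟩ := hdiag y hy i
    rw [map_mul, map_mul, Module.End.mul_apply, Module.End.mul_apply, hd, map_smul, hc, map_smul,
      hd, smul_comm]
  -- so the average of the character over it is not an integer
  have : Fintype (P : Subgroup G) := Fintype.ofFinite _
  let σ : Representation ℂ (P : Subgroup G) (Fin n → ℂ) := ρ.comp (P : Subgroup G).subtype
  have hcard0 : (Fintype.card (P : Subgroup G) : ℂ) ≠ 0 := Nat.cast_ne_zero.mpr Fintype.card_ne_zero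
  have : Invertible (Fintype.card (P : Subgroup G) : ℂ) := invertibleOfNonzero hcard0
  have hav := (Representation.isProj_averageMap σ).trace
  have hsum : ∑ x : (P : Subgroup G), LinearMap.trace ℂ (Fin n → ℂ) (σ x) = (p : ℂ) := by
    rw [Finset.sum_eq_single (1 : (P : Subgroup G))]
    · rw [map_one, LinearMap.trace_one, hfr]
    · intro x _ hx
      exact hzero x x.2 (fun y hy => hab y hy x x.2) fun h => hx (Subtype.ext h)
    · intro h
      exact absurd (Finset.mem_univ _) h
  simp [GroupAlgebra.average, map_sum] at hav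
  rw [hsum] at hav
  field_simp at hav
  have hnat : p = Fintype.card (P : Subgroup G) * finrank ℂ σ.invariants := by
    exact_mod_cast hav
  have h2 : p ^ 2 ∣ p := hdP.trans (Nat.card_eq_fintype_card (α := (P : Subgroup G)) ▸ ⟨_, hnat⟩)
  have h3 := Nat.le_of_dvd hp.pos h2
  have h4 := hp.two_le
  nlinarith

/-- Let `p` be a prime and `G` a finite group with a faithful irreducible complex character of degree `p` (so `G` is an irreducible linear group in `p` variables). If `p ^ 2` divides the order of `G`, then the centre of `G` is nontrivial. -/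
theorem result {G : Type*} [Group G] [Finite G] (p : ℕ) (hp : p.Prime) (χ : Cfsg.IrrCharacter G) (hdeg : χ.1 1 = p) (hfaith : ∀ g : G, χ.1 g = χ.1 1 → g = 1) (hdiv : p ^ 2 ∣ Nat.card G) : Subgroup.center G ≠ ⊥ := by
  exact center_ne_bot p hp χ hdeg hfaith hdiv

end Cfsg.Agent.S3968
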