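import Cfsg.Statements.S3970
import Cfsg.Agent.H82.SmallRank

set_option autoImplicit false
open Cfsg

namespace Cfsg.Agent.S3970

/-- Let `G` be a finite group such that for every prime `p` dividing its order, other than the largest such prime, the Sylow `p`-subgroups are abelian and generated by at most two elements, and suppose `12` does not divide the order of `G`. Then `G` is solvable. In particular a group of cube-free order not divisible by `12` is solvable. -/
theorem result {G : Type*} [Group G] [Finite G] (h : ∀ p : ℕ, p.Prime → p ∣ Nat.card G → (∃ q : ℕ, q.Prime ∧ q ∣ Nat.card G ∧ p < q) → ∀ P : Sylow p G, IsMulCommutative (P : Subgroup G) ∧ Group.rank (P : Subgroup G) ≤ 2) (h12 : ¬ 12 ∣ Nat.card G) : Group.IsSolvable G := by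
  exact Cfsg.Agent.H82.isSolvable_of_small_abelian_sylow (Nat.card G) G rfl h h12

end Cfsg.Agent.S3970
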