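import Cfsg.Statements.S3971
import Cfsg.Agent.H82.SmallRank

set_option autoImplicit false
open Cfsg

namespace Cfsg.Agent.S3971

/-- Let `G` be a finite group of order `2 ^ a * n` with `n` odd and not divisible by `3`, and suppose `G` has an element of order `2 ^ (a - 1)` (so a Sylow `2`-subgroup has a cyclic subgroup of index at most `2`). Then `G` has a normal subgroup of order `n`. -/
theorem result {G : Type*} [Group G] [Finite G] (a n : ℕ) (hG : Nat.card G = 2 ^ a * n) (hn : Odd n) (h3 : ¬ 3 ∣ n) (hx : ∃ x : G, orderOf x = 2 ^ (a - 1)) : ∃ N : Subgroup G, N.Normal ∧ Nat.card N = n := by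
  obtain ⟨x, hx⟩ := hx
  have : Fact (Nat.Prime 2) := ⟨Nat.prime_two⟩
  have hn0 : n ≠ 0 := fun h => by simp [h] at hn
  obtain ⟨P, hP⟩ := (IsPGroup.of_card (G := Subgroup.zpowers x) (p := 2) (n := a - 1)
    (by rw [Nat.card_zpowers, hx])).exists_le_sylow
  have hPcard : Nat.card (P : Subgroup G) = 2 ^ a := by
    rw [P.card_eq_multiplicity, hG, Nat.factorization_mul (by positivity) hn0, Finsupp.add_apply,
      Nat.prime_two.factorization_pow, Finsupp.single_eq_same,
      Nat.factorization_eq_zero_of_not_dvd hn.not_two_dvd_nat, add_zero]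
  have h3' : ¬ 3 ∣ Nat.card G := fun h => by
    rw [hG] at h
    rcases Nat.prime_three.dvd_mul.mp h with h' | h'
    · have := Nat.prime_three.dvd_of_dvd_pow h'
      norm_num at this
    · exact h3 h'
  have hidx : (Subgroup.zpowers x).relIndex (P : Subgroup G) ≤ 2 := by
    have h1 := ((Subgroup.zpowers x).subgroupOf (P : Subgroup G)).card_mul_index
    rw [Nat.card_congr (Subgroup.subgroupOfEquivOfLe hP).toEquiv, Nat.card_zpowers, hx, hPcard] at h1
    change 2 ^ (a - 1) * (Subgroup.zpowers x).relIndex (P : Subgroup G) = 2 ^ a at h1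
    rcases a with _ | a
    · rw [Nat.zero_sub, pow_zero, one_mul] at h1; omega
    · rw [Nat.add_sub_cancel, pow_succ] at h1
      exact (Nat.eq_of_mul_eq_mul_left (by positivity) h1).le
  obtain ⟨P', N, hN, hc⟩ := Cfsg.Agent.H82.hasNormalPComplement_two_of_cyclic_index_two h3' P
    (hP (Subgroup.mem_zpowers x)) hidx
  refine ⟨N, hN, ?_⟩
  have h1 := hc.card_mul_card
  rw [P'.card_eq_multiplicity, ← P.card_eq_multiplicity, hPcard, hG, mul_comm] at h1
  exact Nat.eq_of_mul_eq_mul_left (by positivity) h1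

end Cfsg.Agent.S3971
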