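import Cfsg.Statements.S3973
import Cfsg.Agent.H82.Mult

set_option autoImplicit false
open Cfsg

namespace Cfsg.Agent.S3973

open scoped commutatorElement in
/-- The Hopf group of a presentation with `r` relators on `n` generators needs at most `r - n`
generators. -/
theorem rank_bound (n : ℕ) (rels : Finset (FreeGroup (Fin n)))
    [Finite (PresentedGroup (rels : Set (FreeGroup (Fin n))))] {A : Type*} [CommGroup A] [Finite A]
    (a : A ≃* Cfsg.Agent.H82.multSub (PresentedGroup.mk (rels : Set (FreeGroup (Fin n))))) :
    Group.rank A ≤ rels.card - n := by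
  classical
  let π := PresentedGroup.mk (rels : Set (FreeGroup (Fin n)))
  let K := (Cfsg.Agent.H82.covHom π).ker
  let _ : CommGroup K :=
    { (inferInstance : Group K) with
      mul_comm := fun x y => Subtype.ext
        (Subgroup.mem_center_iff.mp (Cfsg.Agent.H82.covHom_ker_le_center π y.2) x.1) }
  let q := QuotientGroup.mk' (Cfsg.Agent.H82.relCore π)
  have hrel : ∀ r : rels, q r ∈ K := fun r => PresentedGroup.mk_eq_one_iff.mpr
    (Subgroup.subset_normalClosure r.2)
  let k : rels → Additive K := fun r => Additive.ofMul ⟨q r, hrel r⟩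
  let l : (rels → ℤ) →ₗ[ℤ] Additive K := Fintype.linearCombination ℤ k
  -- the relators generate the kernel
  have hl : Function.Surjective l := by
    intro x
    let H : Subgroup K := (LinearMap.range l).toAddSubgroup.toSubgroup'
    have hN : (H.map K.subtype).Normal := ⟨fun m hm g => by
      obtain ⟨z, hz, rfl⟩ := hm
      exact ⟨z, hz, by
        show (z : Cfsg.Agent.H82.Cov π) = g * (z : Cfsg.Agent.H82.Cov π) * g⁻¹
        rw [Subgroup.mem_center_iff.mp (Cfsg.Agent.H82.covHom_ker_le_center π z.2) g,
          mul_inv_cancel_right]⟩⟩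
    have hle : π.ker ≤ (H.map K.subtype).comap q := by
      intro y hy
      refine Subgroup.normalClosure_le_normal ?_ (PresentedGroup.mk_eq_one_iff.mp hy)
      intro r hr
      refine ⟨⟨q r, hrel ⟨r, hr⟩⟩, ⟨Pi.single ⟨r, hr⟩ 1, ?_⟩, rfl⟩
      simp [l, k, Fintype.linearCombination_apply_single]
      rfl
    obtain ⟨y, hy⟩ := QuotientGroup.mk'_surjective _ (Additive.toMul x : K).1
    have h1 : π y = 1 := by
      have := (Additive.toMul x : K).2
      rw [← hy] at this
      exact this
    obtain ⟨z, hz, hzy⟩ := hle h1
    obtain ⟨w, hw⟩ := hz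
    refine ⟨w, hw.trans (congrArg Additive.ofMul (Subtype.ext ?_))⟩
    exact hzy.trans hy
  -- the map to the free abelian group
  let c : (rels → ℤ) →ₗ[ℤ] FreeAbelianGroup (Fin n) :=
    (MonoidHom.toAdditive ((Cfsg.Agent.H82.covAb π).comp K.subtype) :
      Additive K →+ FreeAbelianGroup (Fin n)).toIntLinearMap.comp l
  have : Module.Finite ℤ (FreeAbelianGroup (Fin n)) :=
    Module.Finite.of_basis (FreeAbelianGroup.basis (Fin n))
  have : Module.IsTorsionFree ℤ (FreeAbelianGroup (Fin n)) :=
    (FreeAbelianGroup.basis (Fin n)).isTorsionFree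
  have hrange : n ≤ Module.finrank ℤ (LinearMap.range c) := by
    let m : FreeAbelianGroup (Fin n) →ₗ[ℤ] LinearMap.range c :=
      LinearMap.codRestrict _
        ((Nat.card (PresentedGroup (rels : Set (FreeGroup (Fin n)))) : ℤ) •
          (LinearMap.id : FreeAbelianGroup (Fin n) →ₗ[ℤ] FreeAbelianGroup (Fin n))) fun v => by
        obtain ⟨x, hx⟩ := Cfsg.Agent.H82.covAb_surjective π (Additive.toMul v)
        have hmem : x ^ Nat.card (PresentedGroup (rels : Set (FreeGroup (Fin n)))) ∈ K := by
          rw [MonoidHom.mem_ker, map_pow]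
          exact pow_card_eq_one'
        obtain ⟨w, hw⟩ := hl (Additive.ofMul ⟨_, hmem⟩)
        refine ⟨w, ?_⟩
        show Additive.ofMul (Cfsg.Agent.H82.covAb π (Additive.toMul (l w) : K).1) = _
        rw [hw]
        show Additive.ofMul (Cfsg.Agent.H82.covAb π (x ^ _)) = _
        rw [map_pow, hx, LinearMap.smul_apply, LinearMap.id_apply, natCast_zsmul]
        rfl
    have hm : Function.Injective m := fun x y h => by
      have h' := congrArg Subtype.val h
      exact smul_right_injective (FreeAbelianGroup (Fin n))
        (Int.natCast_ne_zero.mpr Nat.card_pos.ne') h'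
    have := LinearMap.finrank_le_finrank_of_injective hm
    rwa [Module.finrank_eq_card_basis (FreeAbelianGroup.basis (Fin n)), Fintype.card_fin] at this
  have hdim : Module.finrank ℤ (LinearMap.ker c) + n ≤ rels.card := by
    have h1 := Submodule.finrank_quotient_add_finrank (LinearMap.ker c)
    rw [c.quotKerEquivRange.finrank_eq, Module.finrank_pi, Fintype.card_coe] at h1
    omega
  -- the kernel of `c` maps onto the multiplier
  let b := Module.finBasis ℤ (LinearMap.ker c)
  have hmem : ∀ v : LinearMap.ker c, (Additive.toMul (l v.1) : K).1 ∈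
      Cfsg.Agent.H82.multSub π := fun v => ⟨(Additive.toMul (l v.1) : K).2, by
        rw [← Cfsg.Agent.H82.covAb_ker]
        exact v.2⟩
  let P : LinearMap.ker c →+ Additive A := AddMonoidHom.mk'
    (fun v => Additive.ofMul (a.symm ⟨_, hmem v⟩)) fun v w => by
      rw [← ofMul_mul, ← map_mul]
      refine congrArg _ (congrArg _ (Subtype.ext ?_))
      show (Additive.toMul (l (v.1 + w.1)) : K).1 = _
      rw [map_add]
      rfl
  let s := Finset.univ.image fun i => Additive.toMul (P (b i))
  have hs : Subgroup.closure (s : Set A) = ⊤ := by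
    rw [eq_top_iff]
    intro x _
    obtain ⟨hK, hcomm⟩ := (a x).2
    obtain ⟨w, hw⟩ := hl (Additive.ofMul ⟨_, hK⟩)
    have hwc : w ∈ LinearMap.ker c := by
      show Additive.ofMul (Cfsg.Agent.H82.covAb π (Additive.toMul (l w) : K).1) = 0
      rw [hw]
      exact congrArg Additive.ofMul (Abelianization.commutator_subset_ker _ hcomm)
    have hx : Additive.toMul (P ⟨w, hwc⟩) = x := by
      show a.symm _ = x
      rw [MulEquiv.symm_apply_eq]
      refine Subtype.ext ?_
      show (Additive.toMul (l w) : K).1 = _
      rw [hw]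
      rfl
    rw [← hx, ← b.sum_repr ⟨w, hwc⟩, map_sum, toMul_sum]
    refine Subgroup.prod_mem _ fun i _ => ?_
    rw [map_zsmul, toMul_zsmul]
    exact Subgroup.zpow_mem _ (Subgroup.subset_closure (by simp [s])) _
  refine (Group.rank_le hs).trans ?_
  refine Finset.card_image_le.trans ?_
  rw [Finset.card_univ, Fintype.card_fin]
  omega

/-- If a finite group is presented by `n` generators and a finite set of `r` relators, then its Schur multiplier can be generated by `r - n` elements. In particular a finite group with a presentation having as many relators as generators has trivial Schur multiplier. -/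
theorem result (n : ℕ) (rels : Finset (FreeGroup (Fin n))) [Finite (PresentedGroup (rels : Set (FreeGroup (Fin n))))] {A : Type*} [CommGroup A] [Finite A] (hA : Cfsg.HasSchurMultiplier (PresentedGroup (rels : Set (FreeGroup (Fin n)))) A) : Group.rank A ≤ rels.card - n := by
  obtain ⟨a⟩ := (Cfsg.Agent.H82.hasSchurMultiplier_iff_pres
    (PresentedGroup.mk (rels : Set (FreeGroup (Fin n)))) (PresentedGroup.mk_surjective _) A).mp hA
  exact rank_bound n rels a

end Cfsg.Agent.S3973
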