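import Cfsg.Statements.S3978
import Cfsg.Agent.H82.ProjLift

set_option autoImplicit false
open Cfsg

namespace Cfsg.Agent.S3978

/-- A finite group `Q` has trivial Schur multiplier if and only if, for every `n`, every homomorphism from `Q` to the projective general linear group (the quotient of `GL n ℂ` by its centre) lifts to a homomorphism into `GL n ℂ`. -/
theorem result {Q : Type*} [Group Q] [Finite Q] : Cfsg.HasCyclicSchurMultiplier Q 1 ↔ ∀ (n : ℕ) (γ : Q →* (GL (Fin n) ℂ ⧸ Subgroup.center (GL (Fin n) ℂ))), ∃ ρ : Q →* GL (Fin n) ℂ, (QuotientGroup.mk' (Subgroup.center (GL (Fin n) ℂ))).comp ρ = γ := by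
  have hker : (MonoidHom.id Q).ker = ⊥ := (MonoidHom.ker_eq_bot_iff _).mpr Function.injective_id
  constructor
  · intro h n γ
    obtain ⟨a⟩ := (Cfsg.Agent.H82.hasSchurMultiplier_iff _).mp h
    obtain ⟨ρ, hρ⟩ := Cfsg.Agent.H82.exists_lift_to_cover
      (Cfsg.Agent.H82.isStemExtension_id (G := Q))
      (by rw [hker, Subgroup.card_bot, ← Nat.card_congr a.toEquiv]; exact (Nat.card_zmod 1).symm)
      n γ
    exact ⟨ρ, hρ⟩
  · intro h
    obtain ⟨i⟩ := Cfsg.Agent.H82.multiplier_of_lifts
      (Cfsg.Agent.H82.isStemExtension_id (G := Q)) (fun n γ => by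
        obtain ⟨ρ, hρ⟩ := h n γ
        exact ⟨ρ, hρ⟩)
    refine Cfsg.Agent.H82.HasSchurMultiplier.congr
      Cfsg.Agent.H82.hasSchurMultiplier_multiplier ?_
    have : Subsingleton (MonoidHom.id Q).ker := hker ▸ inferInstance
    exact i.trans (MulEquiv.ofBijective (1 : (MonoidHom.id Q).ker →* Multiplicative (ZMod 1))
      ⟨Function.injective_of_subsingleton _, fun y => ⟨1, Subsingleton.elim _ _⟩⟩)

end Cfsg.Agent.S3978
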