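import Cfsg.Statements.S3980
import Cfsg.Agent.H82.Product

set_option autoImplicit false
universe u v w
open Cfsg

namespace Cfsg.Agent.S3980

/-- Let `Q₁` and `Q₂` be finite groups whose commutator quotients have coprime orders, with Schur multipliers `A` and `B`. Then the Schur multiplier of `Q₁ × Q₂` is isomorphic to `A × B`. -/
theorem result {Q₁ : Type u} {Q₂ : Type v} [Group Q₁] [Group Q₂] [Finite Q₁] [Finite Q₂] {A B : Type w} [CommGroup A] [CommGroup B] (hA : Cfsg.HasSchurMultiplier Q₁ A) (hB : Cfsg.HasSchurMultiplier Q₂ B) (hcop : Nat.Coprime (Nat.card (Abelianization Q₁)) (Nat.card (Abelianization Q₂))) : Cfsg.HasSchurMultiplier (Q₁ × Q₂) (A × B) := by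
  have := Cfsg.Agent.H82.tensor_subsingleton_of_coprime hcop
  exact Cfsg.Agent.H82.HasSchurMultiplier.congr (Cfsg.Agent.H82.hasSchurMultiplier_prod hA hB)
    { toFun := fun p => (p.1, p.2.1)
      invFun := fun p => (p.1, p.2, 1)
      left_inv := fun p => Prod.ext rfl (Prod.ext rfl (Subsingleton.elim _ _))
      right_inv := fun p => rfl
      map_mul' := fun p q => rfl }

end Cfsg.Agent.S3980
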