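import Cfsg.Statements.S3992
import Cfsg.Agent.H86.CPGroup
import Cfsg.Agent.H32.Basic


set_option autoImplicit false
open Cfsg

namespace Cfsg.Agent.S3992

open scoped Pointwise

/-- A nontrivial subgroup that is not a prime power group contains elements of two prime orders. -/
theorem exists_two_orders {X : Type*} [Group X] [Finite X] (L : Subgroup X) (hL : L ≠ ⊥)
    (h : ∀ p : ℕ, p.Prime → ¬ IsPGroup p L) :
    ∃ (p q : ℕ) (a b : X), p.Prime ∧ q.Prime ∧ p ≠ q ∧ a ∈ L ∧ b ∈ L ∧ orderOf a = p ∧ orderOf b = q := by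
  have hne : Nat.card L ≠ 1 := fun h1 => hL (Subgroup.eq_bot_of_card_eq _ h1)
  obtain ⟨p, hp, hd⟩ := Nat.exists_prime_and_dvd hne
  haveI := Fact.mk hp
  obtain ⟨⟨a, ha⟩, hao⟩ := exists_prime_orderOf_dvd_card' (G := L) p hd
  rw [Subgroup.orderOf_mk] at hao
  have h2 : ∃ q : ℕ, q.Prime ∧ q ∣ Nat.card L ∧ q ≠ p := by
    by_contra hc
    push Not at hc
    exact h p hp (IsPGroup.of_card (Nat.eq_prime_pow_of_unique_prime_dvd Nat.card_pos.ne' (fun {q} hq hqd => hc q hq hqd)))
  obtain ⟨q, hq, hqd, hqp⟩ := h2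
  haveI := Fact.mk hq
  obtain ⟨⟨b, hb⟩, hbo⟩ := exists_prime_orderOf_dvd_card' (G := L) q hqd
  rw [Subgroup.orderOf_mk] at hbo
  exact ⟨p, q, a, b, hp, hq, hqp.symm, ha, hb, hao, hbo⟩

theorem radical_isPGroup {G : Type*} [Group G] [Finite G] (hns : ¬ Group.IsSolvable G) (h : H86.AllPrimePowerOrder G)
    (R : Subgroup G) [R.Normal] (hRs : Group.IsSolvable R) : ∃ p : ℕ, p.Prime ∧ IsPGroup p R := by
  by_cases hR : R = ⊥
  · exact ⟨2, Nat.prime_two, hR ▸ IsPGroup.of_bot⟩
  obtain ⟨V, p, hVn, hVR, hV1, hVc, hp, hVp, -⟩ := H19.exists_normal_elementary_le R hRs hR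
  haveI := Fact.mk hp
  haveI := H19.pCore_normal p G
  set P := Cfsg.pCore p G
  have hP : IsPGroup p P := H19.pCore_isPGroup (G := G) p
  have hP1 : P ≠ ⊥ := fun h0 => hV1 (eq_bot_iff.2 (h0 ▸ H19.le_pCore hVn hVp))
  refine ⟨p, hp, hP.to_le ?_⟩
  by_contra hle
  haveI : (R.map (QuotientGroup.mk' P)).Normal := Subgroup.Normal.map inferInstance _ (QuotientGroup.mk'_surjective P)
  have hs : Group.IsSolvable (R.map (QuotientGroup.mk' P)) :=
    haveI := hRs
    Group.isSolvable_of_surjective ((QuotientGroup.mk' P).subgroupMap_surjective R)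
  have hne : R.map (QuotientGroup.mk' P) ≠ ⊥ := fun h0 => hle (by
    intro x hx
    have h1 : QuotientGroup.mk' P x ∈ R.map (QuotientGroup.mk' P) := ⟨x, hx, rfl⟩
    rw [h0, Subgroup.mem_bot] at h1
    exact (QuotientGroup.eq_one_iff x).1 h1)
  obtain ⟨W, q, hWn, -, hW1, hWc, hq, hWq, hWe⟩ := H19.exists_normal_elementary_le _ hs hne
  haveI := hWn
  haveI := Fact.mk hq
  have hpq : q ≠ p := fun h0 => by
    subst h0
    exact hW1 (eq_bot_iff.2 ((H19.le_pCore hWn hWq).trans (H19.pCore_quotient_pCore q).le))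
  exact hns (h.layer_structure hpq P hP hP1 W hW1 hWc hWe).1

theorem unique_simple {X : Type*} [Group X] [Finite X] [Nontrivial X] (h : H86.AllPrimePowerOrder X)
    (hrad : ∀ N : Subgroup X, N.Normal → Group.IsSolvable N → N = ⊥) :
    ∃ M : Subgroup X, M.Normal ∧ IsSimpleGroup M ∧ ¬ IsMulCommutative M ∧
      ∀ N : Subgroup X, N.Normal → N ≠ ⊥ → M ≤ N := by
  obtain ⟨M, ⟨hMn, hM1, hMmin⟩, -⟩ := H32.exists_minNormal_le (⊤ : Subgroup X) inferInstance top_ne_bot
  haveI := hMn
  haveI hMnt : Nontrivial M := (Subgroup.nontrivial_iff_ne_bot M).2 hM1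
  have hnotp : ∀ L : Subgroup M, L.Normal → L ≠ ⊥ → ∀ p : ℕ, p.Prime → ¬ IsPGroup p L := by
    intro L hL hL1 p hp hLp
    haveI := Fact.mk hp
    haveI := H19.pCore_characteristic p M
    have hn : ((Cfsg.pCore p M).map M.subtype).Normal := ConjAct.normal_of_characteristic_of_normal
    have hp' : IsPGroup p ((Cfsg.pCore p M).map M.subtype) := (H19.pCore_isPGroup (G := M) p).map _
    have h0 := hrad _ hn (@IsNilpotent.to_isSolvable _ _ hp'.isNilpotent)
    rw [Subgroup.map_eq_bot_iff_of_injective _ M.subtype_injective] at h0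
    exact hL1 (eq_bot_iff.2 (h0 ▸ H19.le_pCore hL hLp))
  obtain ⟨L, ⟨hLn, hL1, hLmin⟩, -⟩ := H32.exists_minNormal_le (⊤ : Subgroup M) inferInstance top_ne_bot
  have hLtop : L = ⊤ := by
    by_contra hLt
    set L' := L.map M.subtype with hL'
    have hmove : ∃ g : X, ∃ l ∈ L', g * l * g⁻¹ ∉ L' := by
      by_contra hc
      push Not at hc
      rcases hMmin L' ⟨fun l hl g => hc g l hl⟩ (Subgroup.map_subtype_le L) with h0 | h0
      · rw [hL', Subgroup.map_eq_bot_iff_of_injective _ M.subtype_injective] at h0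
        exact hL1 h0
      · refine hLt (eq_top_iff.2 fun x _ => ?_)
        have hx : (x : X) ∈ L' := h0.symm ▸ x.2
        obtain ⟨y, hy, hyx⟩ := hx
        exact (Subtype.ext hyx : y = x) ▸ hy
    obtain ⟨g, l, hl, hgl⟩ := hmove
    let α : MulAut M := MulAut.conjNormal g
    set L₂ := L.map α.toMonoidHom
    have hL₂n : L₂.Normal := hLn.map _ α.surjective
    have hdis : L ⊓ L₂ = ⊥ := by
      refine (hLmin (L ⊓ L₂) inferInstance inf_le_left).resolve_right fun h0 => hgl ?_
      have hle : L ≤ L₂ := inf_eq_left.1 h0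
      have heq : L = L₂ := Subgroup.eq_of_le_of_card_ge hle (Subgroup.card_map_of_injective α.injective).le
      obtain ⟨l, hlL, rfl⟩ := hl
      have h1 : α l ∈ L := heq.symm ▸ ⟨l, hlL, rfl⟩
      exact ⟨α l, h1, by simp [α]⟩
    have hcomm : ∀ a ∈ L, ∀ b ∈ L₂, Commute a b := fun a ha b hb =>
      Subgroup.commute_of_normal_of_disjoint L L₂ hLn hL₂n (disjoint_iff.2 hdis) a b ha hb
    obtain ⟨p, q, a, b, hp, hq, hpq, ha, hb, hao, hbo⟩ := exists_two_orders L hL1 (hnotp L hLn hL1)
    refine h.not_commute hp hq hpq (a := (a : X)) (b := ((α b : M) : X)) (by rw [Subgroup.orderOf_coe, hao]) ?_ ?_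
    · rw [Subgroup.orderOf_coe]
      exact (orderOf_injective α.toMonoidHom α.injective b).trans hbo
    · exact (hcomm a ha (α b) ⟨b, hb, rfl⟩).map M.subtype
  have hsimple : IsSimpleGroup M :=
    { eq_bot_or_eq_top_of_normal := fun N hN => by
        rcases eq_or_ne N ⊥ with h0 | h0
        · exact Or.inl h0
        · refine Or.inr ?_
          have := hLmin N hN (hLtop ▸ le_top)
          exact hLtop ▸ this.resolve_left h0 }
  refine ⟨M, hMn, hsimple, fun hc => hM1 (hrad M hMn (Group.isSolvable_of_comm hc.is_comm.comm)), fun N hN hN1 => ?_⟩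
  haveI := hN
  rcases hMmin (M ⊓ N) inferInstance inf_le_left with h0 | h0
  · exfalso
    obtain ⟨p, q, a, b, hp, hq, hpq, ha, hb, hao, hbo⟩ := exists_two_orders M hM1 (fun p hp hMp =>
      hnotp ⊤ inferInstance top_ne_bot p hp (hMp.to_subgroup ⊤))
    obtain ⟨s, hs, hsd⟩ := Nat.exists_prime_and_dvd (n := Nat.card N) (fun h1 => hN1 (Subgroup.eq_bot_of_card_eq _ h1))
    haveI := Fact.mk hs
    obtain ⟨⟨c, hc⟩, hco⟩ := exists_prime_orderOf_dvd_card' (G := N) s hsd
    rw [Subgroup.orderOf_mk] at hco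
    have hcm : ∀ m ∈ M, Commute m c := fun m hm =>
      Subgroup.commute_of_normal_of_disjoint M N hMn hN (disjoint_iff.2 h0) m c hm hc
    by_cases hps : p = s
    · exact h.not_commute hq hs (fun h2 => hpq (hps.trans h2.symm)) hbo hco (hcm b hb)
    · exact h.not_commute hp hs hps hao hco (hcm a ha)
  · exact inf_eq_left.1 h0

/-- Let G be a finite non-solvable group in which every element has prime-power order, and let R be its largest solvable normal subgroup. Then R is a p-group for some prime p; G/R has a non-abelian simple normal subgroup contained in every nontrivial normal subgroup of G/R (its unique minimal normal subgroup); and the order of every solvable subgroup of G has at most two prime divisors. -/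
theorem result {G : Type*} [Group G] [Finite G] (hns : ¬ Group.IsSolvable G) (hpp : ∀ g : G, g ≠ 1 → IsPrimePow (orderOf g))
    (R : Subgroup G) [R.Normal] (hRs : Group.IsSolvable ↥R) (hRmax : ∀ N : Subgroup G, N.Normal → Group.IsSolvable ↥N → N ≤ R) :
    (∃ p : ℕ, p.Prime ∧ IsPGroup p ↥R) ∧
      (∃ M : Subgroup (G ⧸ R), M.Normal ∧ IsSimpleGroup ↥M ∧ ¬ IsMulCommutative ↥M ∧
        ∀ N : Subgroup (G ⧸ R), N.Normal → N ≠ ⊥ → M ≤ N) ∧
      ∀ H : Subgroup G, Group.IsSolvable ↥H → (Nat.card ↥H).primeFactors.card ≤ 2 := by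

  have hR1 : ∀ N : Subgroup (G ⧸ R), N.Normal → Group.IsSolvable N → N = ⊥ := by
    intro N hN hs
    set π := QuotientGroup.mk' R
    have hle : R ≤ N.comap π := fun x hx => by
      rw [Subgroup.mem_comap, show π x = 1 from (QuotientGroup.eq_one_iff x).2 hx]; exact N.one_mem
    have hsol : Group.IsSolvable (N.comap π) := by
      haveI := hRs
      haveI := hs
      let f : N.comap π →* N :=
        { toFun := fun x => ⟨π (x : G), x.2⟩
          map_one' := Subtype.ext (map_one π)
          map_mul' := fun a b => Subtype.ext (map_mul π (a : G) (b : G)) }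
      refine Group.isSolvable_of_ker_le_range (Subgroup.inclusion hle) f ?_
      intro x hx
      exact ⟨⟨x, (QuotientGroup.eq_one_iff (x : G)).1 (congrArg Subtype.val hx)⟩, rfl⟩
    have h1 := hRmax _ (hN.comap π) hsol
    rw [eq_bot_iff]
    intro y hy
    obtain ⟨x, rfl⟩ := QuotientGroup.mk'_surjective R y
    exact Subgroup.mem_bot.2 ((QuotientGroup.eq_one_iff x).2 (h1 hy))
  haveI : Nontrivial (G ⧸ R) := by
    rw [← not_subsingleton_iff_nontrivial]
    intro hs
    refine hns ?_
    haveI := hRs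
    haveI : Group.IsSolvable (G ⧸ R) := Group.isSolvable_of_comm fun a b => Subsingleton.elim _ _
    exact Group.isSolvable_of_ker_le_range R.subtype (QuotientGroup.mk' R) (by simp)
  refine ⟨radical_isPGroup hns hpp R hRs, unique_simple (H86.AllPrimePowerOrder.quotient hpp R) hR1, fun H hH => ?_⟩
  haveI := hH
  exact (H86.AllPrimePowerOrder.subgroup hpp H).card_primeFactors_le_two

end Cfsg.Agent.S3992
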