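import Cfsg.Statements.S3994
import Cfsg.Agent.H86.SolutionCount


set_option autoImplicit false
open Cfsg

namespace Cfsg.Agent.S3994

/-- Let G be a finite group and n a positive integer. The number of elements of G whose order is divisible by n is either 0 or divisible by the largest divisor of the order of G that is coprime to n. -/
theorem result {G : Type*} [Group G] [Finite G] (n : ℕ) (hn : 0 < n) :
    Nat.card {g : G // n ∣ orderOf g} = 0 ∨
      (Nat.card G / Nat.gcd (Nat.card G) (n ^ Nat.card G)) ∣ Nat.card {g : G // n ∣ orderOf g} := by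
  refine Or.inr ?_
  set c := Nat.card G with hc
  have hc0 : c ≠ 0 := Nat.card_pos.ne'
  set D := c / Nat.gcd c (n ^ c) with hD
  have hDc : D ∣ c := Nat.div_dvd_of_dvd (Nat.gcd_dvd_left _ _)
  have hnd : ∀ p ∈ n.primeFactors, p.Prime ∧ ¬ p ∣ D := by
    intro p hp
    have hp' := Nat.prime_of_mem_primeFactors hp
    refine ⟨hp', fun hpd => ?_⟩
    have h1 : p ^ c.factorization p ∣ Nat.gcd c (n ^ c) := Nat.dvd_gcd (Nat.ordProj_dvd c p)
      ((pow_dvd_pow_of_dvd (Nat.dvd_of_mem_primeFactors hp) _).trans
        (pow_dvd_pow n (Nat.factorization_lt p hc0).le))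
    have h2 : p ^ (c.factorization p + 1) ∣ c := by
      rw [pow_succ']
      have h3 := Nat.mul_dvd_mul hpd h1
      rwa [hD, Nat.div_mul_cancel (Nat.gcd_dvd_left _ _)] at h3
    exact Nat.pow_succ_factorization_not_dvd hc0 hp' h2
  have key := H86.dvd_card_pow_eq_one_orderOf (G := G) (fun p => n.factorization p) D n.primeFactors hnd c hDc dvd_rfl
  refine key.trans (dvd_of_eq (Nat.card_congr (Equiv.subtypeEquivRight fun x => ?_)))
  simp only [hc, pow_card_eq_one', true_and]
  constructor
  · intro h
    rw [← Nat.factorization_le_iff_dvd hn.ne' (orderOf_pos x).ne']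
    intro p
    by_cases hp : p ∈ n.primeFactors
    · exact (Nat.prime_of_mem_primeFactors hp).pow_dvd_iff_le_factorization (orderOf_pos x).ne' |>.1 (h p hp)
    · rw [Finsupp.notMem_support_iff.1 (by rwa [Nat.support_factorization])]
      exact Nat.zero_le _
  · intro h p hp
    exact (Nat.ordProj_dvd n p).trans h

end Cfsg.Agent.S3994
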