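import Cfsg.Statements.S3995
import Cfsg.Agent.H86.OrderCounts
import Cfsg.Agent.H86.SmallSpectrum
import Mathlib.GroupTheory.NoncommCoprod
import Mathlib.GroupTheory.Perm.Subgroup


set_option autoImplicit false
open Cfsg

namespace Cfsg.Agent.S3995

theorem value_of_three_le {G : Type*} [Group G] [Finite G] {n : ℕ}
    (h : ∀ g : G, H86.orderCount G (orderOf g) = 1 ∨ H86.orderCount G (orderOf g) = n)
    {g : G} (hg : 3 ≤ orderOf g) : H86.orderCount G (orderOf g) = n ∧ 2 ∣ n := by
  have h2 := (H86.even_totient_of_three_le hg).trans (H86.totient_dvd_orderCount (G := G) (orderOf g))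
  rcases h g with e | e
  · rw [e] at h2; norm_num at h2
  · exact ⟨e, e ▸ h2⟩

/-- Let G be a finite group such that the numbers of elements of each order that occurs in G (the numbers #{g : o(g) = m}, m ranging over the element orders of G) take exactly two values, 1 and some n ≠ 1. Then either G is a p-group of exponent p and order at least 3 for some prime p, or G is the quaternion group of order 8, or G is cyclic of order 4, or G ≅ Z₂ × P for a p-group P of exponent p with p an odd prime. -/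
theorem result {G : Type*} [Group G] [Finite G] (n : ℕ) (hn : n ≠ 1) (h : ((fun m : ℕ => Nat.card {g : G // orderOf g = m}) '' Set.range (orderOf : G → ℕ)) = {1, n}) :
    (∃ p : ℕ, p.Prime ∧ IsPGroup p G ∧ 3 ≤ Nat.card G ∧ Monoid.exponent G = p) ∨
      Nonempty (G ≃* QuaternionGroup 2) ∨ (IsCyclic G ∧ Nat.card G = 4) ∨
      (∃ (p : ℕ) (P : Type) (_ : Group P) (_ : Finite P), p.Prime ∧ p ≠ 2 ∧ IsPGroup p P ∧ Monoid.exponent P = p ∧
        Nonempty (G ≃* Multiplicative (ZMod 2) × P)) := by

  classical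
  have hval : ∀ g : G, H86.orderCount G (orderOf g) = 1 ∨ H86.orderCount G (orderOf g) = n := by
    intro g
    have h1 : H86.orderCount G (orderOf g) ∈ (fun m : ℕ => Nat.card {g : G // orderOf g = m}) '' Set.range (orderOf : G → ℕ) :=
      ⟨_, ⟨g, rfl⟩, rfl⟩
    rw [h] at h1; exact h1
  obtain ⟨_, ⟨g₀, rfl⟩, hg₀⟩ : n ∈ (fun m : ℕ => Nat.card {g : G // orderOf g = m}) '' Set.range (orderOf : G → ℕ) := by
    rw [h]; exact Or.inr rfl
  change H86.orderCount G (orderOf g₀) = n at hg₀
  have hn0 : n ≠ 0 := by rw [← hg₀]; exact H86.orderCount_pos.ne'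
  have h3 : ∀ {g : G}, 3 ≤ orderOf g → H86.orderCount G (orderOf g) = n ∧ 2 ∣ n := fun hg => value_of_three_le hval hg
  have hg₀1 : orderOf g₀ ≠ 1 := fun e => hn (by rw [← hg₀, e, H86.orderCount_one])
  have hcardG : orderOf g₀ ∣ Nat.card G := orderOf_dvd_natCard g₀
  -- no elements of order `p ^ 2`, `p` odd
  have hno_psq : ∀ p : ℕ, p.Prime → p ≠ 2 → ∀ g : G, orderOf g ≠ p ^ 2 := by
    intro p hp hp2 g hg
    have := Fact.mk hp
    have h3le : 3 ≤ p := by have := hp.two_le; omega
    obtain ⟨hv, -⟩ := h3 (g := g) (by rw [hg]; nlinarith)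
    obtain ⟨x, hx⟩ := H86.exists_orderOf_eq_of_dvd' (g := g) (n := p) (hg ▸ dvd_pow_self p two_ne_zero)
    obtain ⟨hvp, -⟩ := h3 (g := x) (by rw [hx]; omega)
    rw [hx] at hvp; rw [hg] at hv
    have h4 := H86.totient_dvd_orderCount (G := G) (p ^ 2)
    rw [hv, Nat.totient_prime_pow hp two_pos] at h4
    have h5 : p ∣ n := by
      refine dvd_trans ?_ h4
      rw [show 2 - 1 = 1 from rfl, pow_one]; exact dvd_mul_right p _
    have h6 := H86.prime_dvd_orderCount_add_one (G := G) hp (hx ▸ orderOf_dvd_natCard x)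
    rw [hvp] at h6
    exact H86.not_dvd_add_one hp h6 h5
  have hprime_val : ∀ p : ℕ, p.Prime → p ≠ 2 → p ∣ Nat.card G → H86.orderCount G p = n ∧ p ∣ n + 1 ∧ 2 ∣ n := by
    intro p hp hp2 hd
    have := Fact.mk hp
    obtain ⟨x, hx⟩ := exists_prime_orderOf_dvd_card' p hd
    obtain ⟨hv, he⟩ := h3 (g := x) (by rw [hx]; have := hp.two_le; omega)
    rw [hx] at hv
    refine ⟨hv, ?_, he⟩
    have h6 := H86.prime_dvd_orderCount_add_one (G := G) hp hd
    rwa [hv] at h6
  -- two odd primes do not both divide the order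
  have hone : ∀ p q : ℕ, p.Prime → q.Prime → p ≠ 2 → q ≠ 2 → p ∣ Nat.card G → q ∣ Nat.card G → p = q := by
    intro p q hp hq hp2 hq2 hpd hqd
    by_contra hpq
    have := Fact.mk hp
    have := Fact.mk hq
    obtain ⟨hvp, hp1, -⟩ := hprime_val p hp hp2 hpd
    obtain ⟨hvq, hq1, -⟩ := hprime_val q hq hq2 hqd
    by_cases hpqe : ∃ g : G, orderOf g = p * q
    · obtain ⟨g, hg⟩ := hpqe
      obtain ⟨hv, -⟩ := h3 (g := g) (by rw [hg]; have := hp.two_le; have := hq.two_le; nlinarith)
      rw [hg] at hv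
      have hs := H86.dvd_sum_orderCount (G := G) (Nat.mul_ne_zero hp.ne_zero hq.ne_zero) (hg ▸ orderOf_dvd_natCard g)
      have hdiv : (p * q).divisors = {1, p, q, p * q} := by
        rw [Nat.divisors_mul, hp.divisors, hq.divisors]
        ext x; simp [Finset.mem_mul, eq_comm]; tauto
      rw [hdiv, Finset.sum_insert, Finset.sum_insert, Finset.sum_pair, H86.orderCount_one, hvp, hvq, hv] at hs
      · have h7 : p ∣ 1 + (n + (n + n)) := (dvd_mul_right p q).trans hs
        have h8 : p ∣ 1 + (n + (n + n)) + 2 := by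
          rw [show 1 + (n + (n + n)) + 2 = 3 * (n + 1) by ring]; exact hp1.mul_left 3
        exact hp2 ((Nat.prime_dvd_prime_iff_eq hp Nat.prime_two).1 ((Nat.dvd_add_right h7).1 h8))
      · exact fun e => hp.ne_one (Nat.eq_of_mul_eq_mul_right hq.pos (by rw [← e, one_mul])).symm
      · simp only [Finset.mem_insert, Finset.mem_singleton, not_or]
        exact ⟨hpq, fun e => hq.ne_one (Nat.eq_of_mul_eq_mul_left hp.pos (by rw [← e, mul_one])).symm⟩
      · simp only [Finset.mem_insert, Finset.mem_singleton, not_or]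
        exact ⟨hp.ne_one.symm, hq.ne_one.symm, fun e => hp.ne_one (Nat.eq_one_of_mul_eq_one_right e.symm)⟩
    · obtain ⟨y, hy⟩ := exists_prime_orderOf_dvd_card' q hqd
      have h9 := H86.prime_dvd_orderCount (m := p) hy fun x hx hc => hpqe ⟨x * y, by
        rw [hc.symm.orderOf_mul_eq_mul_orderOf_of_coprime (by rw [hx, hy]; exact (Nat.coprime_primes hp hq).2 hpq), hx, hy]⟩
      rw [hvp] at h9
      exact H86.not_dvd_add_one hq hq1 h9
  by_cases h2G : 2 ∣ Nat.card G
  swap
  · -- odd order: a single prime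
    obtain ⟨p, hp, hpd⟩ := Nat.exists_prime_and_dvd hg₀1
    have := Fact.mk hp
    have hp2 : p ≠ 2 := fun e => h2G (e ▸ hpd.trans hcardG)
    have hP : IsPGroup p G := by
      rw [IsPGroup.iff_card]
      refine ⟨_, Nat.eq_prime_pow_of_unique_prime_dvd Nat.card_pos.ne' fun {q} hq hqd => ?_⟩
      exact hone q p hq hp (fun e => h2G (e ▸ hqd)) hp2 hqd (hpd.trans hcardG)
    have hexp : ∀ g : G, g ^ p = 1 := by
      intro g
      obtain ⟨k, hk⟩ := IsPGroup.iff_orderOf.1 hP g
      rw [← orderOf_dvd_iff_pow_eq_one, hk]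
      rcases k with - | - | k
      · simp
      · simp
      · exfalso
        obtain ⟨x, hx⟩ := H86.exists_orderOf_eq_of_dvd' (g := g) (n := p ^ 2) (by rw [hk]; exact pow_dvd_pow p (by omega))
        exact hno_psq p hp hp2 x hx
    refine Or.inl ⟨p, hp, hP, ?_, ?_⟩
    · have := Nat.le_of_dvd Nat.card_pos (hpd.trans hcardG)
      have := hp.two_le; omega
    · refine ((Nat.dvd_prime hp).1 (Monoid.exponent_dvd_of_forall_pow_eq_one hexp)).resolve_left fun e => hg₀1 ?_
      exact Nat.dvd_one.1 (e ▸ Monoid.order_dvd_exponent g₀)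
  have := Fact.mk Nat.prime_two
  obtain ⟨z, hz⟩ := exists_prime_orderOf_dvd_card' 2 h2G
  have hodd2 : ¬ 2 ∣ H86.orderCount G 2 := fun h' =>
    H86.not_dvd_add_one Nat.prime_two (H86.prime_dvd_orderCount_add_one (G := G) Nat.prime_two h2G) h'
  have hz' : H86.orderCount G 2 = 1 ∨ H86.orderCount G 2 = n := hz ▸ hval z
  rcases hz' with hz1 | hzn
  swap
  · -- all elements are involutions
    have hexp : ∀ g : G, g ^ 2 = 1 := by
      intro g
      have hle : orderOf g ≤ 2 := by
        by_contra hc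
        exact hodd2 (hzn ▸ (h3 (g := g) (by omega)).2)
      have := orderOf_pos g
      rw [← orderOf_dvd_iff_pow_eq_one]
      interval_cases hq : orderOf g <;> norm_num
    refine Or.inl ⟨2, Nat.prime_two, fun g => ⟨1, by rw [pow_one]; exact hexp g⟩, ?_, ?_⟩
    · have h6 := Nat.card_le_card_of_injective (α := {g : G // orderOf g = 2} ⊕ Unit) (β := G)
        (Sum.elim Subtype.val fun _ => 1) (by
          rintro (a | a) (b | b) e
          · exact congrArg Sum.inl (Subtype.ext e)
          · have := a.2; rw [show (a : G) = 1 from e, orderOf_one] at this; norm_num at this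
          · have := b.2; rw [show (b : G) = 1 from e.symm, orderOf_one] at this; norm_num at this
          · rfl)
      rw [Nat.card_sum, Nat.card_unique (α := Unit)] at h6
      change H86.orderCount G 2 + 1 ≤ Nat.card G at h6
      omega
    · refine ((Nat.dvd_prime Nat.prime_two).1 (Monoid.exponent_dvd_of_forall_pow_eq_one hexp)).resolve_left fun e => ?_
      have := Monoid.order_dvd_exponent z
      rw [hz, e] at this; norm_num at this
  -- a unique involution
  have hzu : ∀ t : G, orderOf t = 2 → t = z := by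
    intro t ht
    have hss : Subsingleton {g : G // orderOf g = 2} := (Nat.card_eq_one_iff_unique.1 hz1).1
    exact congrArg Subtype.val (hss.elim ⟨t, ht⟩ ⟨z, hz⟩)
  have hzz : z * z = 1 := by rw [← pow_two, ← hz, pow_orderOf_eq_one]
  have hzc : ∀ g : G, Commute g z := fun g =>
    mul_inv_eq_iff_eq_mul.1 (hzu _ (((MulAut.conj g).orderOf_eq z).trans hz))
  have huniq : ∀ x : G, x * x = 1 → x = 1 ∨ x = z := fun x hx => by
    by_cases hx1 : x = 1
    · exact Or.inl hx1
    · exact Or.inr (hzu x (orderOf_eq_prime (by rw [pow_two, hx]) hx1))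
  have hno8 : ∀ g : G, orderOf g ≠ 8 := by
    intro g hg
    obtain ⟨hv, -⟩ := h3 (g := g) (by omega)
    obtain ⟨x, hx⟩ := H86.exists_orderOf_eq_of_dvd' (g := g) (n := 4) (by rw [hg]; norm_num)
    obtain ⟨hv4, -⟩ := h3 (g := x) (by omega)
    rw [hx] at hv4; rw [hg] at hv
    have hs := H86.dvd_sum_orderCount (G := G) (m := 4) (by norm_num) (hx ▸ orderOf_dvd_natCard x)
    have ht := H86.totient_dvd_orderCount (G := G) 8
    rw [hv, show (8 : ℕ).totient = 4 by decide] at ht
    rw [show (4 : ℕ).divisors = {1, 2, 4} by decide, Finset.sum_insert (by decide), Finset.sum_pair (by decide),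
      H86.orderCount_one, hz1, hv4] at hs
    omega
  by_cases h4 : ∃ a : G, orderOf a = 4
  · obtain ⟨a, ha⟩ := h4
    obtain ⟨hv4, -⟩ := h3 (g := a) (by omega)
    rw [ha] at hv4
    have hs := H86.dvd_sum_orderCount (G := G) (m := 4) (by norm_num) (ha ▸ orderOf_dvd_natCard a)
    rw [show (4 : ℕ).divisors = {1, 2, 4} by decide, Finset.sum_insert (by decide), Finset.sum_pair (by decide),
      H86.orderCount_one, hz1, hv4] at hs
    have hP : IsPGroup 2 G := by
      rw [IsPGroup.iff_card]
      refine ⟨_, Nat.eq_prime_pow_of_unique_prime_dvd Nat.card_pos.ne' fun {q} hq hqd => ?_⟩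
      by_contra hq2
      have := Fact.mk hq
      obtain ⟨y, hy⟩ := exists_prime_orderOf_dvd_card' q hqd
      obtain ⟨hvq, hq1, -⟩ := hprime_val q hq hq2 hqd
      have h9 := H86.prime_dvd_orderCount (m := 4) hy fun x hx hc => by
        have hxy : orderOf (x * y) = 4 * q := by
          rw [hc.symm.orderOf_mul_eq_mul_orderOf_of_coprime ?_, hx, hy]
          rw [hx, hy, show (4 : ℕ) = 2 ^ 2 by norm_num]
          exact ((Nat.coprime_primes Nat.prime_two hq).2 (Ne.symm hq2)).pow_left 2
        obtain ⟨hv, -⟩ := h3 (g := x * y) (by rw [hxy]; have := hq.two_le; omega)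
        have ht := H86.totient_dvd_orderCount (G := G) (4 * q)
        rw [← hxy, hv, hxy, Nat.totient_mul (by
          rw [show (4 : ℕ) = 2 ^ 2 by norm_num]
          exact ((Nat.coprime_primes Nat.prime_two hq).2 (Ne.symm hq2)).pow_left 2),
          show (4 : ℕ).totient = 2 by decide] at ht
        obtain ⟨r, hr⟩ : 2 ∣ q.totient := H86.even_totient_of_three_le (by have := hq.two_le; omega)
        rw [hr, ← mul_assoc] at ht
        have := dvd_trans (dvd_mul_right (2 * 2) r) ht
        omega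
      rw [hv4] at h9
      exact H86.not_dvd_add_one hq hq1 h9
    have h4' : ∀ x : G, x ^ 4 = 1 := by
      intro x
      obtain ⟨k, hk⟩ := IsPGroup.iff_orderOf.1 hP x
      rw [← orderOf_dvd_iff_pow_eq_one, hk]
      by_cases hk2 : k ≤ 2
      · exact (pow_dvd_pow 2 hk2).trans (by norm_num)
      · exfalso
        obtain ⟨u, hu⟩ := H86.exists_orderOf_eq_of_dvd' (g := x) (n := 8)
          (by rw [hk, show (8 : ℕ) = 2 ^ 3 by norm_num]; exact pow_dvd_pow 2 (by omega))
        exact hno8 u hu
    rcases H86.cyclic_four_or_quaternion h4' huniq ha with h' | h'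
    · exact Or.inr (Or.inr (Or.inl h'))
    · exact Or.inr (Or.inl h')
  -- no element of order four
  push Not at h4
  obtain ⟨p, hp, hpd, hp2⟩ : ∃ p, p.Prime ∧ p ∣ Nat.card G ∧ p ≠ 2 := by
    by_contra hc
    push Not at hc
    have hP : IsPGroup 2 G := by
      rw [IsPGroup.iff_card]
      exact ⟨_, Nat.eq_prime_pow_of_unique_prime_dvd Nat.card_pos.ne' fun {q} hq hqd => hc q hq hqd⟩
    obtain ⟨k, hk⟩ := IsPGroup.iff_orderOf.1 hP g₀
    rcases k with - | - | k
    · exact hg₀1 (by rw [hk, pow_zero])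
    · rw [hk, zero_add, pow_one, hz1] at hg₀; exact hn hg₀.symm
    · obtain ⟨u, hu⟩ := H86.exists_orderOf_eq_of_dvd' (g := g₀) (n := 4)
        (by rw [hk, show (4 : ℕ) = 2 ^ 2 by norm_num]; exact pow_dvd_pow 2 (by omega))
      exact h4 u hu
  have := Fact.mk hp
  obtain ⟨P⟩ : Nonempty (Sylow p G) := inferInstance
  have hsplit : ∀ g : G, g ^ p = 1 ∨ ∃ u : G, u ^ p = 1 ∧ g = z * u := by
    intro g
    obtain ⟨y, w, hy, hw, hyw, ⟨k, hk⟩, hco⟩ :=
      H86.exists_pPart_mul_pPrimePart g (isOfFinOrder_of_finite g) Nat.prime_two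
    have hwp : w ^ p = 1 := by
      by_cases hw1 : w = 1
      · rw [hw1, one_pow]
      obtain ⟨j, hwo⟩ : ∃ j, orderOf w = p ^ j := ⟨_, Nat.eq_prime_pow_of_unique_prime_dvd (orderOf_pos w).ne' fun {q} hq hqd => by
        have hq2 : q ≠ 2 := fun e => Nat.not_coprime_of_dvd_of_dvd one_lt_two (e ▸ hqd) dvd_rfl hco
        exact hone q p hq hp hq2 hp2 (hqd.trans (orderOf_dvd_natCard w)) hpd⟩
      rw [← orderOf_dvd_iff_pow_eq_one, hwo]
      by_cases hle : j ≤ 1
      · exact (pow_dvd_pow p hle).trans (by rw [pow_one])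
      · exfalso
        obtain ⟨u, hu⟩ := H86.exists_orderOf_eq_of_dvd' (g := w) (n := p ^ 2)
          (by rw [hwo]; exact pow_dvd_pow p (by omega))
        exact hno_psq p hp hp2 u hu
    rcases k with - | - | k
    · rw [pow_zero, orderOf_eq_one_iff] at hk
      rw [hk, one_mul] at hyw
      exact Or.inl (hyw ▸ hwp)
    · rw [zero_add, pow_one] at hk
      exact Or.inr ⟨w, hwp, by rw [← hyw, hzu y hk]⟩
    · exfalso
      obtain ⟨u, hu⟩ := H86.exists_orderOf_eq_of_dvd' (g := y) (n := 4)
        (by rw [hk, show (4 : ℕ) = 2 ^ 2 by norm_num]; exact pow_dvd_pow 2 (by omega))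
      exact h4 u hu
  -- the elements with `u ^ p = 1` form the Sylow subgroup
  have hzp : z ^ p ≠ 1 := fun e => by
    have := orderOf_dvd_of_pow_eq_one e
    rw [hz] at this
    exact hp2 ((Nat.prime_dvd_prime_iff_eq Nat.prime_two hp).1 this).symm
  let ι : Multiplicative (ZMod 2) ≃* Subgroup.zpowers z :=
    mulEquivOfPrimeCardEq (p := 2) (by simp) (by rw [Nat.card_zpowers, hz])
  let f : Multiplicative (ZMod 2) × (P : Subgroup G) →* G :=
    MonoidHom.noncommCoprod ((Subgroup.zpowers z).subtype.comp ι.toMonoidHom) (P : Subgroup G).subtype fun a b => by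
      obtain ⟨k, hk⟩ := Subgroup.mem_zpowers_iff.1 (ι a).2
      show Commute ((ι a : Subgroup.zpowers z) : G) b
      rw [← hk]
      exact ((hzc _).zpow_right k).symm
  have hfi : Function.Injective f := by
    rw [injective_iff_map_eq_one]
    rintro ⟨a, b⟩ hab
    have h1 : ((ι a : Subgroup.zpowers z) : G) * b = 1 := hab
    have h2 : (b : G) ∈ Subgroup.zpowers z := by
      rw [← inv_eq_of_mul_eq_one_right h1]; exact inv_mem (ι a).2
    obtain ⟨k, hk⟩ := H86.exists_orderOf_eq_pow_of_mem P.2 b.2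
    have h3' : orderOf (b : G) ∣ 2 := hz ▸ orderOf_dvd_of_mem_zpowers h2
    have hb : (b : G) = 1 := by
      rw [← orderOf_eq_one_iff]
      exact Nat.eq_one_of_dvd_coprimes ((Nat.coprime_primes hp Nat.prime_two).2 hp2 |>.pow_left k) (dvd_of_eq hk) h3'
    rw [hb, mul_one] at h1
    exact Prod.ext (ι.injective ((Subtype.ext h1 : ι a = 1).trans (map_one ι).symm)) (Subtype.ext hb)
  have hPG : ∀ u : G, u ^ p = 1 → u ∈ (P : Subgroup G) := by
    -- a Sylow subgroup has index two
    have h2s : (P : Subgroup G).index ≤ 2 := by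
      have hco : ∀ q : ℕ, q.Prime → q ∣ (P : Subgroup G).index → q = 2 := fun q hq hqd => by
        by_contra hq2
        exact P.not_dvd_index (hone q p hq hp hq2 hp2 (hqd.trans (Subgroup.index_dvd_card _)) hpd ▸ hqd)
      obtain ⟨e, hidx⟩ : ∃ e, (P : Subgroup G).index = 2 ^ e := ⟨_, Nat.eq_prime_pow_of_unique_prime_dvd (Subgroup.index_ne_zero_of_finite (H := (P : Subgroup G)))
        fun {q} hq hqd => hco q hq hqd⟩
      by_contra hgt
      have he : 2 ≤ e := by
        by_contra hlt
        have : (2 : ℕ) ^ e ≤ 2 ^ 1 := Nat.pow_le_pow_right two_pos (by omega)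
        rw [← hidx] at this; omega
      obtain ⟨R, hR⟩ := Sylow.exists_subgroup_card_pow_prime 2 (n := 2) (G := G)
        ((pow_dvd_pow 2 he).trans (by rw [← hidx]; exact Subgroup.index_dvd_card _))
      have : Fintype R := Fintype.ofFinite R
      have h5 : ∀ r : R, r = 1 ∨ (r : G) = z := fun r => by
        have h4' : orderOf (r : G) ∣ 4 := (R.orderOf_dvd_natCard r.2).trans (dvd_of_eq (hR.trans (by norm_num)))
        rcases (Nat.dvd_prime_pow Nat.prime_two).1 (show orderOf (r : G) ∣ 2 ^ 2 from h4') with ⟨i, hi, hie⟩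
        interval_cases i
        · exact Or.inl (Subtype.ext (orderOf_eq_one_iff.1 hie))
        · exact Or.inr (hzu _ hie)
        · exact absurd hie (h4 _)
      have h6 : Nat.card R ≤ Nat.card (Subgroup.zpowers z) := Nat.card_le_card_of_injective
        (fun r : R => (⟨(r : G), by
          rcases h5 r with e | e
          · rw [e]; exact one_mem _
          · rw [e]; exact Subgroup.mem_zpowers z⟩ : Subgroup.zpowers z))
        fun a b hab => Subtype.ext (congrArg (fun t : Subgroup.zpowers z => (t : G)) hab)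
      rw [hR, Nat.card_zpowers, hz] at h6
      norm_num at h6
    intro u hu
    have hsq : u ^ 2 ∈ (P : Subgroup G) := by
      rcases Nat.lt_or_eq_of_le h2s with hlt | heq
      · have := Subgroup.index_ne_zero_of_finite (H := (P : Subgroup G))
        have : (P : Subgroup G) = ⊤ := Subgroup.index_eq_one.1 (by omega)
        rw [this]; exact Subgroup.mem_top _
      · exact Subgroup.sq_mem_of_index_two heq u
    obtain ⟨r, hr⟩ : ∃ r, p = 2 * r + 1 := hp.odd_of_ne_two hp2
    have : u = (u ^ 2) ^ (r + 1) := by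
      rw [← pow_mul, show 2 * (r + 1) = p + 1 by omega, pow_succ, hu, one_mul]
    rw [this]; exact pow_mem hsq _
  have hfs : Function.Surjective f := by
    intro g
    rcases hsplit g with hg | ⟨u, hu, rfl⟩
    · exact ⟨(1, ⟨g, hPG g hg⟩), by simp [f]⟩
    · refine ⟨(ι.symm ⟨z, Subgroup.mem_zpowers z⟩, ⟨u, hPG u hu⟩), ?_⟩
      simp [f]
  have hPexp : Monoid.exponent (P : Subgroup G) = p := by
    refine ((Nat.dvd_prime hp).1 (Monoid.exponent_dvd_of_forall_pow_eq_one fun b => ?_)).resolve_left fun e => ?_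
    · rcases hsplit (b : G) with hb | ⟨u, hu, hb⟩
      · exact Subtype.ext hb
      · exfalso
        have hzP : z ∈ (P : Subgroup G) := by
          have := mul_mem b.2 (inv_mem (hPG u hu))
          rwa [hb, mul_inv_cancel_right] at this
        obtain ⟨k, hk⟩ := H86.exists_orderOf_eq_pow_of_mem P.2 hzP
        rw [hz] at hk
        exact hp2 ((Nat.prime_dvd_prime_iff_eq Nat.prime_two hp).1 (Nat.prime_two.dvd_of_dvd_pow (dvd_of_eq hk))).symm
    · obtain ⟨x, hx⟩ := exists_prime_orderOf_dvd_card' p hpd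
      have h1 := Monoid.order_dvd_exponent (⟨x, hPG x (hx ▸ pow_orderOf_eq_one x)⟩ : (P : Subgroup G))
      rw [e, Subgroup.orderOf_mk, hx] at h1
      exact hp.ne_one (Nat.dvd_one.1 h1)
  let eF : (P : Subgroup G) ≃ Fin (Nat.card (P : Subgroup G)) := Finite.equivFin _
  let ρ : (P : Subgroup G) →* Equiv.Perm (Fin (Nat.card (P : Subgroup G))) :=
    eF.permCongrHom.toMonoidHom.comp (MulAction.toPermHom (P : Subgroup G) (P : Subgroup G))
  have hρ : Function.Injective ρ := eF.permCongrHom.injective.comp MulAction.toPerm_injective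
  let eP := MonoidHom.ofInjective hρ
  refine Or.inr (Or.inr (Or.inr ⟨p, ρ.range, inferInstance, inferInstance, hp, hp2,
    P.2.of_equiv eP, ?_, ⟨(MulEquiv.ofBijective f ⟨hfi, hfs⟩).symm.trans
      ((MulEquiv.refl _).prodCongr eP)⟩⟩))
  rw [← Monoid.exponent_eq_of_mulEquiv eP, hPexp]

end Cfsg.Agent.S3995
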