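import Cfsg.Statements.S3997


set_option autoImplicit false
open Cfsg

namespace Cfsg.Agent.S3997

/-- Let G and H be finite groups with the same order type: for every m they have the same number of elements of order m. If G is nilpotent then so is H. -/
theorem result {G H : Type*} [Group G] [Finite G] [Group H] [Finite H] (hT : (∀ m : ℕ, Nat.card {g : G // orderOf g = m} = Nat.card {h : H // orderOf h = m})) (hG : Group.IsNilpotent G) :
    Group.IsNilpotent H := by
  classical
  have := Fintype.ofFinite G
  have := Fintype.ofFinite H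
  have e : ∀ m : ℕ, {g : G // orderOf g = m} ≃ {h : H // orderOf h = m} := fun m =>
    (Finite.card_eq.1 (hT m)).some
  let E : G ≃ H := Equiv.ofFiberEquiv e
  have hE : ∀ g, orderOf (E g) = orderOf g := Equiv.ofFiberEquiv_map e
  have hcard : Nat.card G = Nat.card H := Nat.card_congr E
  have qH := (Group.isNilpotent_of_finite_tfae (G := H)).out 0 3
  rw [qH]
  intro p hp Q
  have qG := (Group.isNilpotent_of_finite_tfae (G := G)).out 0 3
  rw [qG] at hG
  have hGn := hG p hp
  obtain ⟨P⟩ : Nonempty (Sylow p G) := inferInstance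
  have := hGn P
  have key : ∀ h : H, (∃ k, orderOf h = p ^ k) → h ∈ (Q : Subgroup H) := by
    let S : Set H := {h | ∃ k, orderOf h = p ^ k}
    have h1 : ((Q : Subgroup H) : Set H) ⊆ S := fun h hh => by
      obtain ⟨k, hk⟩ := IsPGroup.iff_orderOf.1 Q.2 ⟨h, hh⟩
      exact ⟨k, by rwa [Subgroup.orderOf_mk] at hk⟩
    have h2 : S.ncard ≤ ((Q : Subgroup H) : Set H).ncard := by
      have : E.symm '' S ⊆ ((P : Subgroup G) : Set G) := by
        rintro g ⟨h, ⟨k, hk⟩, rfl⟩
        have ho : orderOf (E.symm h) = p ^ k := by rw [← hE (E.symm h), Equiv.apply_symm_apply]; exact hk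
        have hz : IsPGroup p (Subgroup.zpowers (E.symm h)) := IsPGroup.of_card (n := k) (by rw [Nat.card_zpowers, ho])
        obtain ⟨P', hP'⟩ := hz.exists_le_sylow
        have hsub := Sylow.unique_of_normal P inferInstance
        rw [show P = P' from Subsingleton.elim _ _]
        exact hP' (Subgroup.mem_zpowers _)
      have h3 := Set.ncard_le_ncard this (Set.toFinite _)
      rw [Set.ncard_image_of_injective _ E.symm.injective] at h3
      calc S.ncard ≤ ((P : Subgroup G) : Set G).ncard := h3
        _ = ((Q : Subgroup H) : Set H).ncard := by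
          rw [← Nat.card_coe_set_eq, ← Nat.card_coe_set_eq]
          show Nat.card (P : Subgroup G) = Nat.card (Q : Subgroup H)
          rw [P.card_eq_multiplicity, Q.card_eq_multiplicity, hcard]
    have h4 := Set.eq_of_subset_of_ncard_le h1 h2 (Set.toFinite _)
    intro h hh
    exact (h4.symm ▸ hh : h ∈ ((Q : Subgroup H) : Set H))
  exact ⟨fun x hx g => key _ (by
    obtain ⟨k, hk⟩ := IsPGroup.iff_orderOf.1 Q.2 ⟨x, hx⟩
    refine ⟨k, ?_⟩
    rw [Subgroup.orderOf_mk] at hk
    rw [← hk]
    exact orderOf_injective (MulAut.conj g).toMonoidHom (MulAut.conj g).injective x)⟩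

end Cfsg.Agent.S3997
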