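import Cfsg.Statements.S3998
import Cfsg.Agent.H86.OrderType
import Cfsg.Agent.H32.Supersolvable
import Cfsg.Agent.H32.SupersolvableStructure


set_option autoImplicit false
open Cfsg

namespace Cfsg.Agent.S3998

universe u v

theorem aux : ∀ (n : ℕ) (G : Type u) [Group G] [Finite G] (H : Type v) [Group H] [Finite H],
    Nat.card G ≤ n → (∀ m : ℕ, Nat.card {g : G // orderOf g = m} = Nat.card {h : H // orderOf h = m}) →
    Cfsg.IsSupersolvable G → Group.IsSolvable H := by
  intro n
  induction n with
  | zero => intro G _ _ H _ _ hn; exact absurd (Nat.card_pos (α := G)) (by omega)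
  | succ n ih =>
    intro G _ _ H _ _ hn hT hG
    have hcard := H86.card_eq_of_sameType hT
    rcases subsingleton_or_nontrivial H with hs | hnt
    · exact Group.isSolvable_of_comm fun a b => Subsingleton.elim _ _
    have h2 : 1 < Nat.card G := hcard ▸ Finite.one_lt_card
    obtain ⟨p, hpmem, hmax⟩ := (Nat.card G).primeFactors.exists_max_image id
      ⟨_, Nat.minFac_prime (by omega) |>.mem_primeFactors (Nat.minFac_dvd _) (by omega)⟩
    obtain ⟨hp, hpd, -⟩ := Nat.mem_primeFactors.1 hpmem
    simp only [id] at hmax
    haveI : Fact p.Prime := ⟨hp⟩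
    obtain ⟨P⟩ : Nonempty (Sylow p G) := inferInstance
    obtain ⟨Q⟩ : Nonempty (Sylow p H) := inferInstance
    have hPn := H32.normal_sylow_largest hG (fun q hq hd => hmax q (hq.mem_primeFactors hd (by omega))) P
    have hQn := H86.sylow_normal_of_sameType hT P hPn Q
    have hPQ : Nat.card (P : Subgroup G) = Nat.card (Q : Subgroup H) := by
      rw [P.card_eq_multiplicity, Q.card_eq_multiplicity, hcard]
    have hT' := H86.sameType_quotient (P : Subgroup G) (Q : Subgroup H) P.card_coprime_index Q.card_coprime_index hPQ hT
    have hlt : Nat.card (G ⧸ (P : Subgroup G)) ≤ n := by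
      rw [← Subgroup.index_eq_card]
      have h3 := (P : Subgroup G).card_mul_index
      have h4 : p ≤ Nat.card (P : Subgroup G) := Nat.le_of_dvd Nat.card_pos (P.dvd_card_of_dvd_card hpd)
      have h5 := hp.two_le
      have h6 : 0 < (P : Subgroup G).index := Nat.pos_of_ne_zero Subgroup.index_ne_zero_of_finite
      nlinarith
    haveI := ih (G ⧸ (P : Subgroup G)) (H ⧸ (Q : Subgroup H)) hlt hT' (H32.isSupersolvable_quotient _ hG)
    haveI : Group.IsSolvable (Q : Subgroup H) := by
      exact @IsNilpotent.to_isSolvable _ _ Q.2.isNilpotent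
    exact Group.isSolvable_of_ker_le_range (Q : Subgroup H).subtype (QuotientGroup.mk' (Q : Subgroup H)) (by simp)

/-- Let G and H be finite groups with the same order type (for every m the same number of elements of order m). If G is supersolvable then H is solvable. -/
theorem result {G H : Type*} [Group G] [Finite G] [Group H] [Finite H] (hT : (∀ m : ℕ, Nat.card {g : G // orderOf g = m} = Nat.card {h : H // orderOf h = m})) (hG : Cfsg.IsSupersolvable G) :
    Group.IsSolvable H := by

  exact aux _ G H le_rfl hT hG

end Cfsg.Agent.S3998
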