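import Cfsg.Statements.S3999
import Cfsg.Agent.H86.ComplementOrderType
import Cfsg.Agent.H86.Irrational
import Cfsg.Agent.H21.FrobeniusStructure
import Cfsg.Agent.H21.Complement
import Cfsg.Agent.H32.Basic


set_option autoImplicit false
open Cfsg

namespace Cfsg.Agent.S3999

open scoped Pointwise

/-- A join of normal Sylow subgroups over a set of primes has order the product of their orders. -/
theorem card_sup_sylow {G : Type*} [Group G] [Finite G] (s : Finset ℕ) (hs : ∀ p ∈ s, p.Prime)
    (h : ∀ p ∈ s, ∀ [Fact p.Prime] (Q : Sylow p G), (Q : Subgroup G).Normal) :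
    ∃ M : Subgroup G, M.Normal ∧ Nat.card M = ∏ p ∈ s, p ^ (Nat.card G).factorization p := by
  classical
  induction s using Finset.induction_on with
  | empty => exact ⟨⊥, inferInstance, by simp⟩
  | @insert p s hp ih =>
    obtain ⟨M, hM, hcard⟩ := ih (fun q hq => hs q (Finset.mem_insert_of_mem hq))
      (fun q hq => h q (Finset.mem_insert_of_mem hq))
    haveI : Fact p.Prime := ⟨hs p (Finset.mem_insert_self p s)⟩
    obtain ⟨Q⟩ : Nonempty (Sylow p G) := inferInstance
    haveI := h p (Finset.mem_insert_self p s) Q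
    have hcop : (Nat.card (Q : Subgroup G)).Coprime (Nat.card M) := by
      rw [hcard, Q.card_eq_multiplicity]
      refine Nat.Coprime.prod_right fun q hq => Nat.coprime_pow_primes _ _ Fact.out (hs q (Finset.mem_insert_of_mem hq)) ?_
      rintro rfl; exact hp hq
    refine ⟨(Q : Subgroup G) ⊔ M, inferInstance, ?_⟩
    have h1 := H32.card_sup_mul_card_inf (Q : Subgroup G) M
    rw [Subgroup.inf_eq_bot_of_coprime hcop, Subgroup.card_bot, mul_one] at h1
    rw [h1, Finset.prod_insert hp, hcard, Q.card_eq_multiplicity]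

/-- Orders of elements split between kernel and complement. -/
def Split (G : Type*) [Group G] (n : ℕ) : Prop :=
  ∀ g : G, orderOf g ∣ n ∨ (orderOf g).Coprime n

theorem split_of_frobenius {G : Type*} [Group G] [Finite G] {C : Subgroup G} (hC : Cfsg.IsFrobeniusComplement C)
    {K : Subgroup G} (hK : (K : Set G) = Cfsg.frobeniusKernel C) (hKn : K.Normal) (hc : K.IsComplement' C) :
    Split G (Nat.card K) := by
  intro g
  have hcard : Nat.card K = C.index := hc.index_eq_card.symm
  by_cases hg : g ∈ K
  · exact Or.inl (Subgroup.orderOf_dvd_natCard K hg)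
  · refine Or.inr ?_
    have hg' : g ∉ Cfsg.frobeniusKernel C := hK ▸ hg
    rw [H21.mem_frobeniusKernel] at hg'
    push Not at hg'
    obtain ⟨a, ha⟩ := hg'.2
    rw [hcard, show orderOf g = orderOf (a⁻¹ * g * a) from by
      have := orderOf_injective (MulAut.conj a⁻¹).toMonoidHom (MulAut.conj a⁻¹).injective g
      rw [← this]; simp]
    exact (H21.coprime_card_index hC).coprime_dvd_left (Subgroup.orderOf_dvd_natCard C ha)

theorem noRankTwo_of_frobenius {G : Type*} [Group G] [Finite G] {C : Subgroup G} (hC : Cfsg.IsFrobeniusComplement C)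
    {K : Subgroup G} (hKn : K.Normal) (hc : K.IsComplement' C) : H86.NoRankTwo C := by
  intro q hq a b ha hb hab
  haveI : Fact q.Prime := ⟨hq⟩
  haveI : Nontrivial K := by
    rw [Subgroup.nontrivial_iff_ne_bot]
    rintro rfl
    exact hC.2.1 (Subgroup.isComplement'_bot_left.1 hc)
  let E := Subgroup.zpowers a ⊔ Subgroup.zpowers b
  have hz : ∀ x : C, orderOf x = q → IsPGroup q ↥(Subgroup.zpowers x) := fun x hx =>
    IsPGroup.of_card (n := 1) (by rw [Nat.card_zpowers, hx, pow_one])
  have hn : Subgroup.zpowers b ≤ Subgroup.normalizer ((Subgroup.zpowers a : Subgroup C) : Set C) := by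
    refine Subgroup.zpowers_le.2 (H86.mem_normalizer_zpowers ?_)
    rw [← hab.eq, mul_inv_cancel_right]; exact Subgroup.mem_zpowers a
  have hE : IsPGroup q E := (hz a ha).to_sup_of_normal_left' (hz b hb) hn
  let ψ : E →* MulAut K := (MulAut.conjNormal.comp C.subtype).comp E.subtype
  have hfpf : ∀ e : E, e ≠ 1 → ∀ k : K, ψ e k = k → k = 1 := by
    intro e he k hk
    have h1 : ((e : C) : G) * k * ((e : C) : G)⁻¹ = k := congrArg Subtype.val hk
    have h2 := H21.fpf_of_fc hC hc.disjoint (e : C).2 (fun h => he (Subtype.ext (Subtype.ext h)))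
    have h3 : (k : G) ∈ K ⊓ Subgroup.centralizer {((e : C) : G)} :=
      ⟨k.2, Subgroup.mem_centralizer_singleton_iff.2 (mul_inv_eq_iff_eq_mul.1 h1).symm⟩
    rw [h2, Subgroup.mem_bot] at h3
    exact Subtype.ext h3
  have h4 := H21.unique_subgroup_of_fpf hE ψ hfpf ((Subgroup.zpowers a).subgroupOf E) ((Subgroup.zpowers b).subgroupOf E)
    (by rw [Nat.card_congr (Subgroup.subgroupOfEquivOfLe le_sup_left).toEquiv, Nat.card_zpowers, ha])
    (by rw [Nat.card_congr (Subgroup.subgroupOfEquivOfLe le_sup_right).toEquiv, Nat.card_zpowers, hb])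
  have h5 : (⟨a, Subgroup.mem_sup_left (Subgroup.mem_zpowers a)⟩ : E) ∈ (Subgroup.zpowers a).subgroupOf E :=
    Subgroup.mem_zpowers a
  rw [h4] at h5
  exact h5

/-- Solvability transfers between two Frobenius groups with the same order type. -/
theorem solvable_transfer {F G : Type*} [Group F] [Finite F] [Group G] [Finite G]
    (hT : ∀ m : ℕ, Nat.card {g : F // orderOf g = m} = Nat.card {h : G // orderOf h = m})
    {C : Subgroup F} (hC : Cfsg.IsFrobeniusComplement C) {K : Subgroup F} [K.Normal] (hc : K.IsComplement' C)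
    {C' : Subgroup G} (hC' : Cfsg.IsFrobeniusComplement C') {M : Subgroup G} [M.Normal] (hc' : M.IsComplement' C')
    (hM : Group.IsNilpotent M) (hcard : Nat.card K = Nat.card M) (hs : Group.IsSolvable F) : Group.IsSolvable G := by
  have hcopK : (Nat.card K).Coprime K.index := by
    rw [hc.symm.index_eq_card, ← hc.index_eq_card]; exact (H21.coprime_card_index hC).symm
  have hcopM : (Nat.card M).Coprime M.index := by
    rw [hc'.symm.index_eq_card, ← hc'.index_eq_card]; exact (H21.coprime_card_index hC').symm
  have hT' := H86.sameType_quotient K M hcopK hcopM hcard hT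
  have hX : H86.NoRankTwo (F ⧸ K) := by
    refine (noRankTwo_of_frobenius hC inferInstance hc).of_injective hc.symm.QuotientMulEquiv.toMonoidHom
      hc.symm.QuotientMulEquiv.injective
  haveI := hs
  haveI := H86.isSolvable_of_sameType_noRankTwo (Nat.card (F ⧸ K)) (F ⧸ K) (G ⧸ M) le_rfl hT' hX inferInstance
  haveI : Group.IsSolvable M := @IsNilpotent.to_isSolvable _ _ hM
  exact Group.isSolvable_of_ker_le_range M.subtype (QuotientGroup.mk' M) (by simp)

/-- Let F be a finite Frobenius group (it has a Frobenius complement) and G a finite group with the same order type as F (for every m the same number of elements of order m). Then G is a Frobenius group; moreover G is solvable if and only if F is. -/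
theorem result {F G : Type*} [Group F] [Finite F] [Group G] [Finite G] (hF : (∃ C : Subgroup F, Cfsg.IsFrobeniusComplement C)) (hT : (∀ m : ℕ, Nat.card {g : F // orderOf g = m} = Nat.card {h : G // orderOf h = m})) :
    (∃ C : Subgroup G, Cfsg.IsFrobeniusComplement C) ∧ (Group.IsSolvable G ↔ Group.IsSolvable F) := by

  obtain ⟨C, hC⟩ := hF
  obtain ⟨K, hK, hKn, hc, hKnil⟩ := H21.exists_kernel_nilpotent hC
  haveI := hKn
  have hcard := H86.card_eq_of_sameType hT
  obtain ⟨E, hE⟩ := H86.exists_equiv_of_sameType hT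
  set n := Nat.card K with hn
  have hindK : K.index = Nat.card C := hc.symm.index_eq_card
  have hCi : C.index = n := hc.index_eq_card
  have hcopK : n.Coprime K.index := by rw [hindK, ← hCi]; exact (H21.coprime_card_index hC).symm
  have hnF : n * K.index = Nat.card F := K.card_mul_index
  -- Sylow subgroups for primes of `n` are normal in `G`
  have hnorm : ∀ p ∈ n.primeFactors, ∀ [Fact p.Prime] (Q : Sylow p G), (Q : Subgroup G).Normal := by
    intro p hp _ Q
    obtain ⟨P₀⟩ : Nonempty (Sylow p K) := inferInstance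
    have q := (Group.isNilpotent_of_finite_tfae (G := K)).out 0 3
    have hP₀ := q.1 hKnil p inferInstance P₀
    haveI : (P₀ : Subgroup K).Characteristic := Sylow.characteristic_of_normal _ hP₀
    have hnd : ¬ p ∣ ((P₀ : Subgroup K).map K.subtype).index := by
      rw [Subgroup.index_map_subtype]
      intro hd
      rcases (Nat.Prime.dvd_mul Fact.out).1 hd with h1 | h1
      · exact P₀.not_dvd_index h1
      · exact (Fact.out : p.Prime).ne_one (Nat.eq_one_of_dvd_coprimes hcopK (Nat.dvd_of_mem_primeFactors hp) h1)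
    exact H86.sylow_normal_of_sameType hT ((P₀.2.map K.subtype).toSylow hnd)
      (ConjAct.normal_of_characteristic_of_normal (H := K) (K := (P₀ : Subgroup K))) Q
  obtain ⟨M, hMn, hMcard⟩ := card_sup_sylow n.primeFactors (fun p hp => Nat.prime_of_mem_primeFactors hp) hnorm
  haveI := hMn
  have hMn' : Nat.card M = n := by
    rw [hMcard]
    refine Eq.trans (Finset.prod_congr rfl fun p hp => ?_) (Nat.prod_primeFactors_pow_factorization (n := n) Nat.card_pos.ne').symm
    have h1 : ¬ p ∣ K.index := fun h => (Nat.prime_of_mem_primeFactors hp).ne_one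
      (Nat.eq_one_of_dvd_coprimes hcopK (Nat.dvd_of_mem_primeFactors hp) h)
    rw [← hcard, ← hnF, Nat.factorization_mul Nat.card_pos.ne' Subgroup.index_ne_zero_of_finite,
      Finsupp.add_apply, Nat.factorization_eq_zero_of_not_dvd h1, add_zero]
  have hMi : M.index = K.index := by
    refine Nat.eq_of_mul_eq_mul_left (Nat.card_pos (α := K)) ?_
    rw [← hn, hnF, hcard, ← hMn', M.card_mul_index]
  have hcopM : (Nat.card M).Coprime M.index := by rw [hMn', hMi]; exact hcopK
  obtain ⟨C', hC'⟩ := Subgroup.exists_right_complement'_of_coprime (N := M) hcopM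
  have hC'card : Nat.card C' = K.index := by rw [← hMi, hC'.symm.index_eq_card]
  have hM1 : M ≠ ⊥ := by
    rintro rfl
    rw [Subgroup.card_bot] at hMn'
    have := H21.card_lt_index hC
    rw [hCi, ← hMn'] at this
    have h1 := Nat.card_pos (α := C)
    omega
  have hC'1 : C' ≠ ⊥ := by
    rintro rfl
    rw [Subgroup.card_bot, hindK] at hC'card
    exact hC.1 (Subgroup.eq_bot_of_card_eq _ hC'card.symm)
  have hsplit : Split G n := fun g => by
    have h := split_of_frobenius hC hK hKn hc (E.symm g)
    rwa [← hE (E.symm g), Equiv.apply_symm_apply] at h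
  have hfpf : ∀ h ∈ C', h ≠ 1 → M ⊓ Subgroup.centralizer {h} = ⊥ := by
    intro h hh h1
    rw [Subgroup.eq_bot_iff_forall]
    rintro m ⟨hm, hmc⟩
    have hcomm : Commute m h := Subgroup.mem_centralizer_singleton_iff.1 hmc
    have hd1 : orderOf m ∣ n := hMn' ▸ Subgroup.orderOf_dvd_natCard M hm
    have hd2 : orderOf h ∣ K.index := hC'card ▸ Subgroup.orderOf_dvd_natCard C' hh
    have hcop : (orderOf m).Coprime (orderOf h) := (hcopK.coprime_dvd_left hd1).coprime_dvd_right hd2
    have ho := hcomm.orderOf_mul_eq_mul_orderOf_of_coprime hcop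
    rcases hsplit (m * h) with h2 | h2
    · refine absurd (orderOf_eq_one_iff.1 (Nat.eq_one_of_dvd_coprimes hcopK ((Dvd.intro_left _ ho.symm).trans h2) hd2)) h1
    · exact orderOf_eq_one_iff.1 (Nat.eq_one_of_dvd_coprimes h2 (Dvd.intro _ ho.symm) hd1)
  have hC'f := H21.fc_of_fpf hC' hM1 hC'1 hfpf
  obtain ⟨M', hM', -, -, hM'nil⟩ := H21.exists_kernel_nilpotent hC'f
  have hMnil : Group.IsNilpotent M := by
    have : M' = M := SetLike.coe_injective (hM'.trans (H21.coe_eq_kernel_of_isComplement' hC'f hC').symm)
    exact this ▸ hM'nil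
  refine ⟨⟨C', hC'f⟩, ?_, ?_⟩
  · exact solvable_transfer (fun m => (hT m).symm) hC'f hC' hC hc hKnil hMn'
  · exact solvable_transfer hT hC hc hC'f hC' hMnil hMn'.symm

end Cfsg.Agent.S3999
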