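import Cfsg.Statements.S4002
import Cfsg.Agent.H19.Hall
import Cfsg.Agent.H86.CPGroup
import Mathlib.NumberTheory.Bertrand
import Mathlib.Data.Nat.Factorization.PrimePow


set_option autoImplicit false
open Cfsg

namespace Cfsg.Agent.S4002

/-- Three primes up to `n` whose pairwise products exceed `n`. -/
theorem three_primes (n : ℕ) (hn : 7 ≤ n) : ∃ p q r : ℕ, p.Prime ∧ q.Prime ∧ r.Prime ∧
    p < q ∧ q < r ∧ r ≤ n ∧ n < p * q := by
  by_cases h15 : n < 15
  · exact ⟨3, 5, 7, by norm_num, by norm_num, by norm_num, by norm_num, by norm_num, hn, by omega⟩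
  by_cases h32 : n < 32
  · exact ⟨5, 7, 11, by norm_num, by norm_num, by norm_num, by norm_num, by norm_num, by omega, by omega⟩
  obtain ⟨p, hp, hp1, hp2⟩ := Nat.exists_prime_lt_and_le_two_mul (n / 8) (by omega)
  obtain ⟨q, hq, hq1, hq2⟩ := Nat.exists_prime_lt_and_le_two_mul (2 * (n / 8)) (by omega)
  obtain ⟨r, hr, hr1, hr2⟩ := Nat.exists_prime_lt_and_le_two_mul (4 * (n / 8)) (by omega)
  refine ⟨p, q, r, hp, hq, hr, by omega, by omega, by omega, ?_⟩
  have h1 : (n / 8 + 1) * (2 * (n / 8) + 1) ≤ p * q := Nat.mul_le_mul (by omega) (by omega)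
  have h2 : n ≤ 8 * (n / 8) + 7 := by omega
  have h3 : 4 ≤ n / 8 := by omega
  nlinarith

/-- If the set of element orders of a finite group G is {1, 2, …, n} with n ≥ 7, then G is not solvable. -/
theorem result {G : Type*} [Group G] [Finite G] (n : ℕ) (hn : 7 ≤ n) (h : Set.range (orderOf : G → ℕ) = {k : ℕ | 1 ≤ k ∧ k ≤ n}) : ¬ Group.IsSolvable G := by

  intro hsolv
  obtain ⟨p, q, r, hp, hq, hr, hpq, hqr, hrn, hprod⟩ := three_primes n hn
  have hdvd : ∀ s : ℕ, s.Prime → s ≤ n → s ∣ Nat.card G := by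
    intro s hs hsn
    have h1 : s ∈ Set.range (orderOf : G → ℕ) := by rw [h]; exact ⟨hs.one_le, hsn⟩
    obtain ⟨g, hg⟩ := h1
    exact hg ▸ orderOf_dvd_natCard g
  set a := p ^ (Nat.card G).factorization p with ha
  set b := q ^ (Nat.card G).factorization q with hb
  set c := r ^ (Nat.card G).factorization r with hc
  have hab : a.Coprime b := Nat.coprime_pow_primes _ _ hp hq hpq.ne
  have habc : (a * b).Coprime c := Nat.Coprime.mul_left (Nat.coprime_pow_primes _ _ hp hr (by omega))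
    (Nat.coprime_pow_primes _ _ hq hr hqr.ne)
  obtain ⟨k, hk⟩ : a * b * c ∣ Nat.card G := habc.mul_dvd_of_dvd_of_dvd
    (hab.mul_dvd_of_dvd_of_dvd (Nat.ordProj_dvd _ _) (Nat.ordProj_dvd _ _)) (Nat.ordProj_dvd _ _)
  have hnd : ∀ s : ℕ, s.Prime → s ^ (Nat.card G).factorization s ∣ a * b * c → ¬ s ∣ k := by
    intro s hs hd hsk
    apply Nat.pow_succ_factorization_not_dvd (n := Nat.card G) Nat.card_pos.ne' hs
    rw [pow_succ]
    calc s ^ (Nat.card G).factorization s * s ∣ (a * b * c) * k := Nat.mul_dvd_mul hd hsk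
      _ = Nat.card G := hk.symm
  have hcop : (a * b * c).Coprime k := by
    refine Nat.Coprime.mul_left (Nat.Coprime.mul_left ?_ ?_) ?_ <;> apply Nat.Coprime.pow_left
    · exact hp.coprime_iff_not_dvd.2 (hnd p hp ((dvd_mul_right a b).trans (dvd_mul_right _ c)))
    · exact hq.coprime_iff_not_dvd.2 (hnd q hq ((dvd_mul_left b a).trans (dvd_mul_right _ c)))
    · exact hr.coprime_iff_not_dvd.2 (hnd r hr (dvd_mul_left c _))
  obtain ⟨H, hH⟩ := H19.hall_exists hk hcop
  have hcp : H86.AllPrimePowerOrder H := by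
    intro g hg
    have hle : orderOf g ≤ n := by
      have h1 : orderOf (g : G) ∈ Set.range (orderOf : G → ℕ) := ⟨_, rfl⟩
      rw [h, Subgroup.orderOf_coe] at h1
      exact h1.2
    have hpos := orderOf_pos g
    have hne : orderOf g ≠ 1 := by rwa [Ne, orderOf_eq_one_iff]
    have hfac : ∀ s, s.Prime → s ∣ orderOf g → s = p ∨ s = q ∨ s = r := by
      intro s hs hd
      have h1 : s ∣ a * b * c := hH ▸ hd.trans (orderOf_dvd_natCard g)
      rcases hs.dvd_mul.1 h1 with h1 | h1
      · rcases hs.dvd_mul.1 h1 with h1 | h1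
        · exact Or.inl ((Nat.prime_dvd_prime_iff_eq hs hp).1 (hs.dvd_of_dvd_pow h1))
        · exact Or.inr (Or.inl ((Nat.prime_dvd_prime_iff_eq hs hq).1 (hs.dvd_of_dvd_pow h1)))
      · exact Or.inr (Or.inr ((Nat.prime_dvd_prime_iff_eq hs hr).1 (hs.dvd_of_dvd_pow h1)))
    obtain ⟨s, hs, hsd⟩ := Nat.exists_prime_and_dvd hne
    rw [isPrimePow_iff_unique_prime_dvd]
    refine ⟨s, ⟨hs, hsd⟩, fun t ⟨ht, htd⟩ => ?_⟩
    by_contra hts
    have h2 : t * s ≤ n :=
      le_trans (Nat.le_of_dvd hpos (((Nat.coprime_primes ht hs).2 hts).mul_dvd_of_dvd_of_dvd htd hsd)) hle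
    have h3 : p * q ≤ t * s := by
      rcases hfac t ht htd with rfl | rfl | rfl <;> rcases hfac s hs hsd with rfl | rfl | rfl <;>
        first | exact absurd rfl hts | exact Nat.mul_le_mul (by omega) (by omega) |
          exact (Nat.mul_le_mul (by omega) (by omega)).trans_eq (Nat.mul_comm _ _)
    omega
  have hmem : ∀ s : ℕ, s.Prime → s ≤ n → s ^ (Nat.card G).factorization s ∣ a * b * c →
      s ∈ (Nat.card H).primeFactors := by
    intro s hs hsn hd
    refine Nat.mem_primeFactors.2 ⟨hs, ?_, Nat.card_pos.ne'⟩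
    rw [hH]
    exact (dvd_pow_self s (hs.factorization_pos_of_dvd Nat.card_pos.ne' (hdvd s hs hsn)).ne').trans hd
  have h4 := hcp.card_primeFactors_le_two
  have h5 : ({p, q, r} : Finset ℕ) ⊆ (Nat.card H).primeFactors := by
    intro s hs
    simp only [Finset.mem_insert, Finset.mem_singleton] at hs
    rcases hs with rfl | rfl | rfl
    · exact hmem _ hp (by omega) ((dvd_mul_right a b).trans (dvd_mul_right _ c))
    · exact hmem _ hq (by omega) ((dvd_mul_left b a).trans (dvd_mul_right _ c))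
    · exact hmem _ hr hrn (dvd_mul_left c _)
  have h6 := Finset.card_le_card h5
  rw [Finset.card_eq_three.2 ⟨p, q, r, hpq.ne, by omega, hqr.ne, rfl⟩] at h6
  omega

end Cfsg.Agent.S4002
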