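import Cfsg.Statements.S4004
import Cfsg.Agent.H86.ThreeCounts


set_option autoImplicit false
open Cfsg

namespace Cfsg.Agent.S4004

/-- Let G be a finite group of odd order in which the numbers of elements of each order that occurs (the numbers #{g : o(g) = m}, m ranging over the element orders of G) take exactly three different values. Then the order of G has at most two prime divisors; and if it has exactly two, then every Sylow subgroup of G for a prime dividing its order has prime exponent, G is a Frobenius group, and some Frobenius complement of G has prime order. -/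
theorem result {G : Type*} [Group G] [Finite G] (hodd : Odd (Nat.card G)) (h : (((fun m : ℕ => Nat.card {g : G // orderOf g = m}) '' Set.range (orderOf : G → ℕ))).ncard = 3) :
    (Nat.card G).primeFactors.card ≤ 2 ∧
      ((Nat.card G).primeFactors.card = 2 →
        (∀ (p : ℕ) [Fact p.Prime] (P : Sylow p G), p ∣ Nat.card G → Monoid.exponent ↥(P : Subgroup G) = p) ∧
        ∃ C : Subgroup G, Cfsg.IsFrobeniusComplement C ∧ (Nat.card ↥C).Prime) := by
  classical
  set S : Set ℕ := (fun m : ℕ => Nat.card {g : G // orderOf g = m}) '' Set.range (orderOf : G → ℕ) with hS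
  have h1 : 1 ∈ S := ⟨1, ⟨1, orderOf_one⟩, H86.orderCount_one (G := G)⟩
  have h2 : (S \ {1}).ncard = 2 := by
    rw [Set.ncard_diff (Set.singleton_subset_iff.2 h1) (Set.finite_singleton 1), h, Set.ncard_singleton]
  obtain ⟨a, b, hab, hSab⟩ := Set.ncard_eq_two.1 h2
  have htv : H86.TwoValued G a b := by
    refine ⟨hab, fun g hg => ?_⟩
    have hmem : H86.orderCount G (orderOf g) ∈ S \ {1} := by
      refine ⟨⟨_, ⟨g, rfl⟩, rfl⟩, ?_⟩
      have h3 : 3 ≤ orderOf g := by
        have h0 := orderOf_pos g
        have h1' : orderOf g ≠ 1 := fun e => hg (orderOf_eq_one_iff.1 e)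
        have h2' : orderOf g ≠ 2 := fun e =>
          Nat.not_even_iff_odd.2 hodd (even_iff_two_dvd.2 (e ▸ orderOf_dvd_natCard g))
        omega
      intro e
      have he : H86.orderCount G (orderOf g) = 1 := e
      have := (H86.even_totient_of_three_le h3).trans (H86.totient_dvd_orderCount (G := G) (orderOf g))
      rw [he] at this
      norm_num at this
    rw [hSab] at hmem
    exact hmem
  refine ⟨H86.card_primeFactors_le_two hodd htv, fun h2p => ?_⟩
  obtain ⟨p, q, hpq, hπ⟩ := Finset.card_eq_two.1 h2p
  have hp : p.Prime := Nat.prime_of_mem_primeFactors (n := Nat.card G) (by rw [hπ]; simp)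
  have hq : q.Prime := Nat.prime_of_mem_primeFactors (n := Nat.card G) (by rw [hπ]; simp)
  have hpd : p ∣ Nat.card G := Nat.dvd_of_mem_primeFactors (n := Nat.card G) (by rw [hπ]; simp)
  have hqd : q ∣ Nat.card G := Nat.dvd_of_mem_primeFactors (n := Nat.card G) (by rw [hπ]; simp)
  have hp' := htv.value hp.ne_one fun h0 => H86.not_dvd_orderCount_prime hp hpd (h0 ▸ dvd_zero p)
  have hq' := htv.value hq.ne_one fun h0 => H86.not_dvd_orderCount_prime hq hqd (h0 ▸ dvd_zero q)
  refine H86.two_primes_structure hodd hp hq hpq hπ ?_
  rcases hp' with e | e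
  · rcases hq' with e' | e'
    · exact absurd e' (H86.orderCount_prime_ne hodd htv hp hq hpd hqd hpq e)
    · rw [e, e']; exact htv
  · rcases hq' with e' | e'
    · rw [e, e']; exact htv.symm
    · exact absurd e' (H86.orderCount_prime_ne hodd htv.symm hp hq hpd hqd hpq e)

end Cfsg.Agent.S4004
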