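import Cfsg.Statements.S4005
import Cfsg.Agent.H86.SmallSpectrum


set_option autoImplicit false
open Cfsg

namespace Cfsg.Agent.S4005

/-- A finite group whose set of element orders is exactly {1, 2, 3} has either a normal elementary abelian 3-subgroup of index 2 or a normal elementary abelian 2-subgroup of index 3. -/
theorem result {G : Type*} [Group G] [Finite G] (h : Set.range (orderOf : G → ℕ) = {k : ℕ | 1 ≤ k ∧ k ≤ 3}) :
    (∃ N : Subgroup G, N.Normal ∧ Cfsg.IsElementaryAbelian 3 N ∧ N.index = 2) ∨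
      (∃ N : Subgroup G, N.Normal ∧ Cfsg.IsElementaryAbelian 2 N ∧ N.index = 3) := by
  have hle : H86.OrderLeFour G := fun g => by
    have h1 : orderOf g ∈ Set.range (orderOf : G → ℕ) := ⟨g, rfl⟩
    rw [h] at h1; exact h1.2.trans (by norm_num)
  have hle3 : ∀ g : G, orderOf g ≤ 3 := fun g => by
    have h1 : orderOf g ∈ Set.range (orderOf : G → ℕ) := ⟨g, rfl⟩
    rw [h] at h1; exact h1.2
  obtain ⟨t, ht⟩ : 2 ∈ Set.range (orderOf : G → ℕ) := by rw [h]; exact ⟨by norm_num, by norm_num⟩
  obtain ⟨x, hx⟩ : 3 ∈ Set.range (orderOf : G → ℕ) := by rw [h]; exact ⟨by norm_num, by norm_num⟩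
  have hsq : ∀ g : G, g ^ 4 = 1 → g * g = 1 := by
    intro g hg
    have h1 : orderOf g ∣ 4 := orderOf_dvd_of_pow_eq_one hg
    have h2 := hle3 g
    rw [← pow_two, ← orderOf_dvd_iff_pow_eq_one]
    have := orderOf_pos g
    interval_cases hq : orderOf g <;> omega
  have := hle.isSolvable
  have hnt : (⊤ : Subgroup G) ≠ ⊥ := fun e => by
    have e' : x = 1 := Subgroup.mem_bot.1 (e ▸ Subgroup.mem_top x)
    rw [e', orderOf_one] at hx; norm_num at hx
  obtain ⟨V, p, hVn, -, hV1, hVc, hp, hVp, -⟩ :=
    H19.exists_normal_elementary_le (⊤ : Subgroup G) inferInstance hnt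
  have := Fact.mk hp
  obtain ⟨v, hv, hvo⟩ := H86.AllPrimePowerOrder.exists_orderOf_eq hVp hV1
  rcases hle.prime_eq hp (hvo ▸ orderOf_dvd_natCard v) with rfl | rfl
  · obtain ⟨O, hOn, hO, hcase⟩ := hle.two_case hVp hV1 hx
    have hel : ∀ u ∈ O, u * u = 1 := fun u hu => hsq u (hle.pow_four_of_mem hO hu)
    rcases hcase with hi | ⟨-, -, s, hss, hsx, hsO⟩
    · refine Or.inr ⟨O, hOn, ⟨⟨⟨fun a b => Subtype.ext ?_⟩⟩, fun u hu => by rw [pow_two]; exact hel u hu⟩, hi⟩
      have e := hel _ (mul_mem a.2 b.2)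
      show (a : G) * b = b * a
      rw [← inv_eq_of_mul_eq_one_right e, mul_inv_rev, inv_eq_of_mul_eq_one_right (hel _ a.2),
        inv_eq_of_mul_eq_one_right (hel _ b.2)]
    · exfalso
      have hV4 : ∀ u ∈ V, u * u = 1 := fun u hu => hsq u (hle.pow_four_of_mem hVp hu)
      have hsV : s ∉ V := by
        intro hm
        have e1 : x * x ∈ V := by
          have e2 : x * s * x⁻¹ * s⁻¹ = x * x := by
            calc x * s * x⁻¹ * s⁻¹ = x * (s * x * s⁻¹)⁻¹ := by group
              _ = x * x := by rw [hsx, inv_inv]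
          rw [← e2]; exact mul_mem (hVn.conj_mem s hm x) (inv_mem hm)
        have e3 := hle.pow_four_of_mem hVp e1
        have e4 : orderOf x ∣ 8 := orderOf_dvd_of_pow_eq_one (by rw [← e3, ← pow_two, ← pow_mul])
        rw [hx] at e4; norm_num at e4
      have hcomm : ∀ u ∈ V, Commute s u := by
        intro u hu
        have hse : 2 ∣ orderOf (s * u) := by
          have e1 : QuotientGroup.mk' V (s * u) = QuotientGroup.mk' V s := QuotientGroup.mk_mul_of_mem s hu
          have e2 : orderOf (QuotientGroup.mk' V s) = 2 :=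
            orderOf_eq_prime (by rw [← map_pow, pow_two, hss, map_one]) fun e => hsV ((QuotientGroup.eq_one_iff s).1 e)
          rw [← e2, ← e1]; exact orderOf_map_dvd _ _
        have e3 := hsq _ (hle.pow_four_of_even hse)
        show s * u = u * s
        rw [← inv_eq_of_mul_eq_one_right e3, mul_inv_rev, inv_eq_of_mul_eq_one_right hss,
          inv_eq_of_mul_eq_one_right (hV4 u hu)]
      obtain ⟨w, hw, hwo⟩ := H86.AllPrimePowerOrder.exists_orderOf_eq hVp hV1
      have e4 := hsx
      have e5 : Commute x w := by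
        have c1 := hcomm _ (hVn.conj_mem w hw x)
        have c0 := hcomm w hw
        have e6 : x⁻¹ * w * x = x * w * x⁻¹ := by
          have ex : x⁻¹ = s * x * s⁻¹ := e4.symm
          calc x⁻¹ * w * x = (s * x * s⁻¹) * w * (s * x * s⁻¹)⁻¹ := by rw [← ex, inv_inv]
            _ = s * x * (s⁻¹ * w * s) * x⁻¹ * s⁻¹ := by group
            _ = s * (x * w * x⁻¹) * s⁻¹ := by rw [mul_assoc s⁻¹, ← c0.eq]; group
            _ = x * w * x⁻¹ := by rw [c1.eq]; group
        show x * w = w * x
        have ex3 : x * x * x = 1 := by rw [← pow_two, ← pow_succ]; exact orderOf_dvd_iff_pow_eq_one.1 (dvd_of_eq hx)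
        calc x * w = (x * x * x) * x * w := by rw [ex3, one_mul]
          _ = x * x * (x * (x * w * x⁻¹)) * x := by group
          _ = x * x * (x * (x⁻¹ * w * x)) * x := by rw [e6]
          _ = x * x * w * x * x := by group
          _ = _ := by
            calc x * x * w * x * x = x * (x * w * x⁻¹) * (x * x * x) * x⁻¹ * x := by group
              _ = x * (x⁻¹ * w * x) := by rw [e6, ex3]; group
              _ = w * x := by group
      exact hle.allPrimePower.not_commute Nat.prime_three Nat.prime_two (by norm_num) hx hwo e5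
  · obtain ⟨N, hNn, hNel, htne, hN3, hq4, huniq⟩ := hle.three_case hVp hV1 hVc ht
    refine Or.inl ⟨N, hNn, hNel, ?_⟩
    have hall : ∀ y : G ⧸ N, y = 1 ∨ y = QuotientGroup.mk t := by
      intro y
      obtain ⟨g, rfl⟩ := QuotientGroup.mk'_surjective N y
      refine huniq _ ?_
      rcases hle.cases_four g with e | e | e | e
      · rw [orderOf_eq_one_iff] at e; rw [e, map_one, one_mul]
      · rw [← map_mul, ← pow_two, ← e, pow_orderOf_eq_one, map_one]
      · have e3 : QuotientGroup.mk' N g ^ 3 = 1 := by rw [← map_pow, ← e, pow_orderOf_eq_one, map_one]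
        have e4 := hq4 (QuotientGroup.mk' N g)
        have e5 : QuotientGroup.mk' N g = 1 := by
          calc QuotientGroup.mk' N g = QuotientGroup.mk' N g ^ 4 * (QuotientGroup.mk' N g ^ 3)⁻¹ := by group
            _ = 1 := by rw [e4, e3]; group
        rw [e5, one_mul]
      · have := hle3 g; omega
    rw [Subgroup.index_eq_card]
    refine Nat.card_eq_two_iff.2 ⟨1, QuotientGroup.mk t, fun e => htne e.symm, ?_⟩
    refine Set.eq_univ_of_forall fun y => ?_
    rcases hall y with e | e <;> simp [e]

end Cfsg.Agent.S4005
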