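import Cfsg.Statements.S4006
import Cfsg.Agent.H86.SmallSpectrum
import Mathlib.GroupTheory.Perm.Basic
import Mathlib.GroupTheory.GroupAction.Quotient


set_option autoImplicit false
open Cfsg

namespace Cfsg.Agent.S4006

/-- A finite group whose set of element orders is exactly {1, 2, 3, 4} has a normal subgroup N such that either N is a 2-group of exponent 4 and nilpotency class at most 2 with G/N of order 3, or N is an elementary abelian 2-group with G/N isomorphic to the symmetric group of degree 3, or N is an elementary abelian 3-group with G/N cyclic of order 4 or quaternion of order 8. -/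
theorem result {G : Type*} [Group G] [Finite G] (h : Set.range (orderOf : G → ℕ) = {k : ℕ | 1 ≤ k ∧ k ≤ 4}) :
    ∃ (N : Subgroup G) (_ : N.Normal),
      (IsPGroup 2 ↥N ∧ Monoid.exponent ↥N = 4 ∧ Group.nilpotencyClass ↥N ≤ 2 ∧ N.index = 3) ∨
      (Cfsg.IsElementaryAbelian 2 N ∧ Nonempty (G ⧸ N ≃* Equiv.Perm (Fin 3))) ∨
      (Cfsg.IsElementaryAbelian 3 N ∧ ((IsCyclic (G ⧸ N) ∧ N.index = 4) ∨ Nonempty (G ⧸ N ≃* QuaternionGroup 2))) := by
  have hle : H86.OrderLeFour G := fun g => by
    have h1 : orderOf g ∈ Set.range (orderOf : G → ℕ) := ⟨g, rfl⟩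
    rw [h] at h1; exact h1.2
  obtain ⟨t, ht⟩ : 2 ∈ Set.range (orderOf : G → ℕ) := by rw [h]; exact ⟨by norm_num, by norm_num⟩
  obtain ⟨x, hx⟩ : 3 ∈ Set.range (orderOf : G → ℕ) := by rw [h]; exact ⟨by norm_num, by norm_num⟩
  obtain ⟨g, hg⟩ : 4 ∈ Set.range (orderOf : G → ℕ) := by rw [h]; exact ⟨by norm_num, by norm_num⟩
  have := hle.isSolvable
  have hnt : (⊤ : Subgroup G) ≠ ⊥ := fun e => by
    have e' : x = 1 := Subgroup.mem_bot.1 (e ▸ Subgroup.mem_top x)
    rw [e', orderOf_one] at hx; norm_num at hx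
  obtain ⟨V, p, hVn, -, hV1, hVc, hp, hVp, -⟩ :=
    H19.exists_normal_elementary_le (⊤ : Subgroup G) inferInstance hnt
  have := Fact.mk hp
  obtain ⟨v, hv, hvo⟩ := H86.AllPrimePowerOrder.exists_orderOf_eq hVp hV1
  rcases hle.prime_eq hp (hvo ▸ orderOf_dvd_natCard v) with rfl | rfl
  · obtain ⟨O, hOn, hO, hcase⟩ := hle.two_case hVp hV1 hx
    refine ⟨O, hOn, ?_⟩
    rcases hcase with hi | ⟨hi, hel, s, hss, hsx, hsO⟩
    · refine Or.inl ⟨hO, ?_, hle.class_le_two hO hx, hi⟩
      have hgO : g ∈ O := by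
        rw [← QuotientGroup.eq_one_iff]
        have e3 : (QuotientGroup.mk g : G ⧸ O) ^ 3 = 1 := by
          rw [← hi, Subgroup.index_eq_card]; exact pow_card_eq_one'
        have e4 : (QuotientGroup.mk g : G ⧸ O) ^ 4 = 1 := by
          rw [← QuotientGroup.mk_pow, ← hg, pow_orderOf_eq_one]; rfl
        calc (QuotientGroup.mk g : G ⧸ O) = (QuotientGroup.mk g : G ⧸ O) ^ 4 * ((QuotientGroup.mk g : G ⧸ O) ^ 3)⁻¹ := by group
          _ = 1 := by rw [e4, e3]; group
      refine Nat.dvd_antisymm (Monoid.exponent_dvd_of_forall_pow_eq_one fun u => Subtype.ext ?_) ?_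
      · exact hle.pow_four_of_mem hO u.2
      · calc 4 = orderOf (⟨g, hgO⟩ : O) := by rw [Subgroup.orderOf_mk, hg]
          _ ∣ _ := Monoid.order_dvd_exponent _
    · refine Or.inr (Or.inl ⟨⟨⟨⟨fun a b => Subtype.ext ?_⟩⟩, fun u hu => by rw [pow_two]; exact hel u hu⟩, ?_⟩)
      · show (a : G) * b = b * a
        have e := hel _ (mul_mem a.2 b.2)
        rw [← inv_eq_of_mul_eq_one_right e, mul_inv_rev, inv_eq_of_mul_eq_one_right (hel _ a.2),
          inv_eq_of_mul_eq_one_right (hel _ b.2)]
      classical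
      set T := Subgroup.zpowers (QuotientGroup.mk s : G ⧸ O)
      have hs2 : orderOf (QuotientGroup.mk s : G ⧸ O) = 2 :=
        orderOf_eq_prime (hp := ⟨Nat.prime_two⟩) (by rw [← QuotientGroup.mk_pow, pow_two, hss]; rfl)
          fun e => hsO ((QuotientGroup.eq_one_iff s).1 e)
      have hTi : T.index = 3 := by
        have e := T.card_mul_index
        rw [Nat.card_zpowers, hs2, ← Subgroup.index_eq_card, hi] at e
        omega
      let φ : (G ⧸ O) →* Equiv.Perm ((G ⧸ O) ⧸ T) := MulAction.toPermHom _ _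
      have hinj : Function.Injective φ := by
        rw [← MonoidHom.ker_eq_bot_iff, show φ.ker = T.normalCore from (Subgroup.normalCore_eq_ker T).symm]
        refine (Subgroup.eq_bot_iff_forall _).2 fun y hy => ?_
        have hyT : y ∈ T := T.normalCore_le hy
        obtain ⟨k, rfl⟩ := Subgroup.mem_zpowers_iff.1 hyT
        rw [← zpow_mod_orderOf, hs2] at hy ⊢
        rcases Int.emod_two_eq k with e | e <;> push_cast at hy ⊢ <;> rw [e] at hy ⊢
        · exact zpow_zero _
        · exfalso
          rw [zpow_one] at hy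
          have hxq := T.normalCore_le ((inferInstance : T.normalCore.Normal).conj_mem _ hy (QuotientGroup.mk x))
          obtain ⟨j, hj⟩ := Subgroup.mem_zpowers_iff.1 hxq
          rw [← zpow_mod_orderOf, hs2] at hj
          push_cast at hj
          have hxo : orderOf (QuotientGroup.mk' O x) = 3 := by
            refine orderOf_eq_prime (hp := ⟨Nat.prime_three⟩) (by rw [← map_pow, ← hx, pow_orderOf_eq_one, map_one]) fun e9 => ?_
            have : orderOf x ∣ 4 := orderOf_dvd_of_pow_eq_one (hle.pow_four_of_mem hO ((QuotientGroup.eq_one_iff x).1 e9))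
            rw [hx] at this; norm_num at this
          rcases Int.emod_two_eq j with e' | e' <;> rw [e'] at hj
          · rw [zpow_zero] at hj
            apply hsO
            rw [← QuotientGroup.eq_one_iff]
            simpa using hj.symm
          · rw [zpow_one] at hj
            have hc : Commute (QuotientGroup.mk' O x) (QuotientGroup.mk' O s) := mul_inv_eq_iff_eq_mul.1 hj.symm
            exact (hle.quotient O).allPrimePower.not_commute Nat.prime_three Nat.prime_two (by norm_num) hxo hs2 hc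
      have hbij : Function.Bijective φ := by
        refine hinj.bijective_of_nat_card_le (le_of_eq ?_)
        rw [Nat.card_perm, ← Subgroup.index_eq_card, hTi, ← Subgroup.index_eq_card, hi]; rfl
      exact ⟨(MulEquiv.ofBijective φ hbij).trans
        (Equiv.permCongrHom (Finite.equivFinOfCardEq ((Subgroup.index_eq_card T).symm.trans hTi)))⟩
  · obtain ⟨N, hNn, hNel, htne, hN3, hq4, huniq⟩ := hle.three_case hVp hV1 hVc ht
    have hgo : orderOf (QuotientGroup.mk g : G ⧸ N) = 4 := by
      refine Nat.dvd_antisymm (hg ▸ orderOf_map_dvd (QuotientGroup.mk' N) g) ?_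
      by_contra hc
      have e2 : (QuotientGroup.mk g : G ⧸ N) ^ 2 = 1 := by
        rw [← orderOf_dvd_iff_pow_eq_one]
        have h1 : orderOf (QuotientGroup.mk g : G ⧸ N) ∣ 4 := hg ▸ orderOf_map_dvd (QuotientGroup.mk' N) g
        have h2 := Nat.le_of_dvd (by norm_num) h1
        have h3 := orderOf_pos (QuotientGroup.mk g : G ⧸ N)
        interval_cases hq : orderOf (QuotientGroup.mk g : G ⧸ N) <;> omega
      rw [← QuotientGroup.mk_pow, QuotientGroup.eq_one_iff] at e2
      have e3 := hle.pow_three_of_mem hN3 e2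
      have e4 : g ^ 4 = 1 := by rw [← hg, pow_orderOf_eq_one]
      have e5 : g ^ 2 = 1 := by
        calc g ^ 2 = (g ^ 2) ^ 3 * (g ^ 4)⁻¹ := by group
          _ = 1 := by rw [e3, e4]; group
      have := orderOf_dvd_of_pow_eq_one e5
      rw [hg] at this; norm_num at this
    refine ⟨N, hNn, Or.inr (Or.inr ⟨hNel, ?_⟩)⟩
    rcases H86.cyclic_four_or_quaternion hq4 huniq hgo with ⟨hc, h4⟩ | hQ
    · exact Or.inl ⟨hc, by rw [Subgroup.index_eq_card]; exact h4⟩
    · exact Or.inr hQ

end Cfsg.Agent.S4006
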