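import Cfsg.Statements.S4198
import Cfsg.Agent.H88.SymClasses

set_option autoImplicit false
open Cfsg

namespace Cfsg.Agent.S4198

/-- For n ≥ 5 the alternating group of degree n has strictly fewer conjugacy classes than the symmetric group of degree n, and the symmetric group of degree n (whose classes correspond to the partitions of n) has at most 2^(n−2) conjugacy classes. -/
theorem result (n : ℕ) (hn : 5 ≤ n) : Nat.card (ConjClasses (alternatingGroup (Fin n))) < Nat.card (ConjClasses (Equiv.Perm (Fin n))) ∧ Nat.card (ConjClasses (Equiv.Perm (Fin n))) ≤ 2 ^ (n - 2) := by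
  refine ⟨H88.card_conjClasses_alternating_lt n hn, (H88.card_conjClasses_perm_le n).trans ?_⟩
  rw [Fintype.card_fin]
  exact H88.card_partition_le_two_pow n hn

end Cfsg.Agent.S4198
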