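import Cfsg.Statements.S4203
import Cfsg.Agent.H88.MaximalIndexSq

set_option autoImplicit false
open Cfsg

namespace Cfsg.Agent.S4203

/-- A finite group in which every maximal subgroup has index a prime or the square of a prime is solvable. -/
theorem result {G : Type*} [Group G] [Finite G] (h : ∀ M : Subgroup G, IsCoatom M → ∃ p : ℕ, p.Prime ∧ (M.index = p ∨ M.index = p ^ 2)) : Group.IsSolvable G := by
  exact H88.isSolvable_of_maximal_index_sq _ G rfl h

end Cfsg.Agent.S4203
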