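import Cfsg.Statements.S4205
-- no helpers

set_option autoImplicit false
open Cfsg

namespace Cfsg.Agent.S4205

/-- In a finite group whose upper central series reaches the whole group at step `c` (nilpotent of class at most `c`), starting from any subgroup and taking normalizers `c` times reaches the whole group. -/
theorem result {G : Type*} [Group G] [Finite G] (c : ℕ) (hG : Subgroup.upperCentralSeries G c = ⊤) (H : Subgroup G) : (fun K : Subgroup G => Subgroup.normalizer (K : Set G))^[c] H = ⊤ := by
  have key : ∀ (i : ℕ) (K : Subgroup G), Subgroup.upperCentralSeries G i ≤
      (fun K : Subgroup G => Subgroup.normalizer (K : Set G))^[i] K := by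
    intro i
    induction i with
    | zero => intro K; simp
    | succ i ih =>
      intro K
      rw [Function.iterate_succ_apply']
      set M := (fun K : Subgroup G => Subgroup.normalizer (K : Set G))^[i] K
      intro z hz
      rw [Subgroup.mem_upperCentralSeries_succ_iff] at hz
      refine Subgroup.mem_normalizer_iff.2 fun y => ?_
      have hy : z * y * z⁻¹ * y⁻¹ ∈ M := ih K (hz y)
      constructor
      · intro h
        simpa using M.mul_mem hy h
      · intro h
        have := M.mul_mem (M.inv_mem hy) h
        rwa [show (z * y * z⁻¹ * y⁻¹)⁻¹ * (z * y * z⁻¹) = y by group] at this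
  exact top_unique (hG ▸ key c H)

end Cfsg.Agent.S4205
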