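import Cfsg.Statements.S4216
import Cfsg.Agent.H89.FocalTame

set_option autoImplicit false
open Cfsg

namespace Cfsg.Agent.S4216

open scoped commutatorElement Pointwise

/-- Grün's first Theorem: if `P` is a Sylow `p`-subgroup of the finite group `G`, then `P ∩ G'` is the subgroup generated by `P ∩ N_G(P)'` together with the subgroups `P ∩ z P' z⁻¹` for all `z ∈ G`, where `'` denotes the derived subgroup and `N_G(P)` the normalizer of `P`. -/
theorem result {G : Type*} [Group G] [Finite G] {p : ℕ} [Fact p.Prime] (P : Sylow p G) : (P : Subgroup G) ⊓ commutator G = ((P : Subgroup G) ⊓ ⁅Subgroup.normalizer ((P : Subgroup G) : Set G), Subgroup.normalizer ((P : Subgroup G) : Set G)⁆) ⊔ ⨆ z : G, (P : Subgroup G) ⊓ (⁅(P : Subgroup G), (P : Subgroup G)⁆).map (MulAut.conj z).toMonoidHom := by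
  set N := Subgroup.normalizer ((P : Subgroup G) : Set G)
  apply le_antisymm
  · rw [inf_comm]
    rw [Subgroup.commutator_inf_eq_focalSubgroup, Subgroup.focalSubgroup_def, Subgroup.closure_le]
    rintro _ ⟨hz, x, hx, u, rfl⟩
    have h := H89.fusion_diff_mem P
      (((P : Subgroup G) ⊓ ⁅N, N⁆) ⊔ ⨆ z : G, (P : Subgroup G) ⊓ (⁅(P : Subgroup G), (P : Subgroup G)⁆).map (MulAut.conj z).toMonoidHom)
      ?_ ?_ (A := Subgroup.zpowers x⁻¹) (g := u⁻¹)
      (Subgroup.zpowers_le.mpr ((P : Subgroup G).inv_mem hx)) ?_ x⁻¹ (Subgroup.mem_zpowers _)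
    · simpa [commutatorElement_def, mul_assoc] using h
    · refine le_sup_of_le_left (le_inf ?_ (Subgroup.commutator_mono Subgroup.le_normalizer le_rfl))
      exact Subgroup.commutator_le.mpr fun a ha b hb => by
        have h1 : b * a⁻¹ * b⁻¹ ∈ (P : Subgroup G) :=
          (Subgroup.mem_normalizer_iff.mp hb a⁻¹).mp ((P : Subgroup G).inv_mem ha)
        simpa [commutatorElement_def, mul_assoc] using (P : Subgroup G).mul_mem ha h1
    · intro Q _ y hy ⟨k, hk⟩
      set H := (P : Subgroup G) ⊓ (Q : Subgroup G)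
      have hyN : Subgroup.zpowers y ≤ Subgroup.normalizer (H : Set G) := Subgroup.zpowers_le.mpr hy
      have hHp : IsPGroup p H := P.isPGroup'.to_le inf_le_left
      have hyp : IsPGroup p (Subgroup.zpowers y) :=
        IsPGroup.of_card (n := k) (by rw [Nat.card_zpowers, hk])
      have hjoin : IsPGroup p (H ⊔ Subgroup.zpowers y : Subgroup G) :=
        hHp.to_sup_of_normal_left' hyp hyN
      obtain ⟨S, hS⟩ := hjoin.exists_le_sylow
      obtain ⟨z, hz⟩ := MulAction.exists_smul_eq G P S
      refine le_sup_of_le_right (le_iSup_of_le z (le_inf ?_ ?_))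
      · refine Subgroup.commutator_le.mpr fun a ha b hb => ?_
        have h1 := (Subgroup.mem_normalizer_iff.mp (hyN hb) a⁻¹).mp (H.inv_mem ha)
        have := H.mul_mem ha h1
        have h2 : ⁅a, b⁆ ∈ H := by simpa [commutatorElement_def, mul_assoc] using this
        exact h2.1
      · rw [Subgroup.map_commutator]
        have hS' : (S : Subgroup G) = (P : Subgroup G).map (MulAut.conj z).toMonoidHom := by
          rw [← hz]; rfl
        rw [← hS']
        exact Subgroup.commutator_mono (le_sup_left.trans hS) (le_sup_right.trans hS)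
    · rw [H23.rconj, MonoidHom.map_zpowers, Subgroup.zpowers_le]
      have e : u * x⁻¹ * u⁻¹ = x⁻¹ * ⁅x, u⁆ := by rw [commutatorElement_def]; group
      simpa [e] using (P : Subgroup G).mul_mem ((P : Subgroup G).inv_mem hx) hz
  · refine sup_le (inf_le_inf_left _ (Subgroup.commutator_mono le_top le_top)) (iSup_le fun z => ?_)
    refine inf_le_inf_left _ ?_
    rw [Subgroup.map_commutator]
    exact Subgroup.commutator_mono le_top le_top

end Cfsg.Agent.S4216
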