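import Cfsg.Statements.S4217
import Cfsg.Agent.H89.GaschutzLocal

set_option autoImplicit false
open Cfsg

namespace Cfsg.Agent.S4217

open scoped Pointwise

/-- Let `A` be an abelian normal subgroup of the finite group `G`. Then `A` has a complement in `G` if and only if, for every prime `p` dividing the index of `A`, there are a Sylow `p`-subgroup `S` of `G/A` and a subgroup `K` of `G` with `K ∩ A = 1` and `KA` equal to the preimage of `S` (that is, `A` has a complement in the preimage of a Sylow `p`-subgroup of `G/A`). -/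
theorem result {G : Type*} [Group G] [Finite G] (A : Subgroup G) [A.Normal] (hA : IsMulCommutative A) : (∃ K : Subgroup G, K.IsComplement' A) ↔ ∀ p : ℕ, p.Prime → p ∣ A.index → ∃ (S : Sylow p (G ⧸ A)) (K : Subgroup G), K ⊓ A = ⊥ ∧ K ⊔ A = (S : Subgroup (G ⧸ A)).comap (QuotientGroup.mk' A) := by
  haveI := hA
  constructor
  · rintro ⟨K, hK⟩ p hp hpd
    haveI : Fact p.Prime := ⟨hp⟩
    obtain ⟨S⟩ := (inferInstance : Nonempty (Sylow p (G ⧸ A)))
    set U := (S : Subgroup (G ⧸ A)).comap (QuotientGroup.mk' A)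
    have hAU : A ≤ U := by
      have := Subgroup.comap_mono (f := QuotientGroup.mk' A) (bot_le : ⊥ ≤ (S : Subgroup (G ⧸ A)))
      rwa [MonoidHom.comap_bot, QuotientGroup.ker_mk'] at this
    refine ⟨S, K ⊓ U, eq_bot_iff.mpr ?_, le_antisymm (sup_le inf_le_right hAU) fun u hu => ?_⟩
    · exact (inf_le_inf_right _ inf_le_left).trans (disjoint_iff.mp hK.disjoint).le
    · obtain ⟨k, hk, a, ha, rfl⟩ := Set.mem_mul.mp
        ((hK.mul_eq).symm ▸ Set.mem_univ u : u ∈ (K : Set G) * (A : Set G))
      refine Subgroup.mul_mem_sup ⟨hk, ?_⟩ ha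
      simpa using U.mul_mem hu (U.inv_mem (hAU ha))
  · intro h
    obtain ⟨H, hH⟩ := H89.exists_complement_of_local (K := A) fun p hp hpd => by
      haveI : Fact p.Prime := ⟨hp⟩
      obtain ⟨S, K, hint, hsup⟩ := h p hp hpd
      refine ⟨K ⊔ A, K, le_sup_right, ?_, hint, sup_comm _ _⟩
      · rw [hsup, Subgroup.index_comap_of_surjective _ (QuotientGroup.mk'_surjective A)]
        exact S.not_dvd_index
    exact ⟨H, hH.symm⟩

end Cfsg.Agent.S4217
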