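import Cfsg.Statements.S4218
import Cfsg.Agent.H89.UpperPFrattini

set_option autoImplicit false
open Cfsg

namespace Cfsg.Agent.S4218

/-- Let `G` be a finite `p`-solvable group, `N₀ = O_{p'}(G)`, `P₁ = O_{p',p}(G)`, and let `F ≤ P₁` be the preimage of the Frattini subgroup of `P₁/N₀`. Then an element `g` of `G` induces the identity on `P₁/F` by conjugation (that is, `g x g⁻¹ x⁻¹ ∈ F` for all `x ∈ P₁`) if and only if `g ∈ P₁`: the group `G/P₁` acts faithfully on `P₁/F`. -/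
theorem result {G : Type*} [Group G] [Finite G] {p : ℕ} [Fact p.Prime] (hG : Cfsg.IsPSolvable p G) (g : G) : (∀ x ∈ Cfsg.pPrimePCore p G, g * x * g⁻¹ * x⁻¹ ∈ ((frattini (↥(Cfsg.pPrimePCore p G) ⧸ (Cfsg.pPrimeCore p G).subgroupOf (Cfsg.pPrimePCore p G))).comap (QuotientGroup.mk' ((Cfsg.pPrimeCore p G).subgroupOf (Cfsg.pPrimePCore p G)))).map (Cfsg.pPrimePCore p G).subtype) ↔ g ∈ Cfsg.pPrimePCore p G := by
  haveI : (Cfsg.pPrimeCore p G).Normal := Cfsg.Agent.H19.pPrimeCore_normal p G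
  exact Cfsg.Agent.H89.faithful_on_frattini_quotient hG g

end Cfsg.Agent.S4218
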