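import Cfsg.Statements.S4219

set_option autoImplicit false
open Cfsg

namespace Cfsg.Agent.S4219

open scoped Pointwise

/-- Let a finite group `G` act `t`-fold transitively on a finite set, let `H` be the stabilizer of `t` distinct points and `P` a Sylow `p`-subgroup of `H`. Then the normalizer of `P` in `G` is `t`-fold transitive on the fixed points of `P`: any `t` distinct fixed points of `P` can be carried to any other `t` distinct fixed points of `P` by an element normalizing `P`. -/
theorem result {G : Type*} [Group G] [Finite G] {α : Type*} [Fintype α] [MulAction G α] {t : ℕ} (hG : MulAction.IsMultiplyPretransitive G α t) (x : Fin t ↪ α) {p : ℕ} [Fact p.Prime] (P : Sylow p (MulAction.stabilizer G x)) (a b : Fin t ↪ α) (ha : ∀ i, a i ∈ MulAction.fixedPoints ((P : Subgroup (MulAction.stabilizer G x)).map (MulAction.stabilizer G x).subtype) α) (hb : ∀ i, b i ∈ MulAction.fixedPoints ((P : Subgroup (MulAction.stabilizer G x)).map (MulAction.stabilizer G x).subtype) α) : ∃ g ∈ Subgroup.normalizer ((((P : Subgroup (MulAction.stabilizer G x)).map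 (MulAction.stabilizer G x).subtype) : Subgroup G) : Set G), g • a = b := by
  obtain ⟨g, hg⟩ := hG.exists_smul_eq a b
  set Pm := (P : Subgroup (MulAction.stabilizer G x)).map (MulAction.stabilizer G x).subtype
  have hPmb : Pm ≤ MulAction.stabilizer G b := fun z hz => by
    rw [MulAction.mem_stabilizer_iff]
    ext i
    exact hb i ⟨z, hz⟩
  have hPma : Pm ≤ MulAction.stabilizer G a := fun z hz => by
    rw [MulAction.mem_stabilizer_iff]
    ext i
    exact ha i ⟨z, hz⟩
  have hgP : MulAut.conj g • Pm ≤ MulAction.stabilizer G b := by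
    rw [← hg, MulAction.stabilizer_smul_eq_stabilizer_map_conj]
    exact Subgroup.pointwise_smul_le_pointwise_smul_iff.mpr hPma
  obtain ⟨h0, hh0⟩ := hG.exists_smul_eq x b
  have hcard : Nat.card (MulAction.stabilizer G b) = Nat.card (MulAction.stabilizer G x) := by
    rw [← hh0, MulAction.stabilizer_smul_eq_stabilizer_map_conj]
    exact Subgroup.card_map_of_injective (MulAut.conj h0).injective
  have hPcard : Nat.card Pm = p ^ (Nat.card (MulAction.stabilizer G b)).factorization p := by
    rw [hcard, Subgroup.card_map_of_injective (Subgroup.subtype_injective _)]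
    exact P.card_eq_multiplicity
  let S1 : Sylow p (MulAction.stabilizer G b) := Sylow.ofCard (Pm.subgroupOf _)
    ((Nat.card_congr (Subgroup.subgroupOfEquivOfLe hPmb).toEquiv).trans hPcard)
  let S2 : Sylow p (MulAction.stabilizer G b) := Sylow.ofCard ((MulAut.conj g • Pm).subgroupOf _)
    (((Nat.card_congr (Subgroup.subgroupOfEquivOfLe hgP).toEquiv).trans
      (Subgroup.card_map_of_injective (MulAut.conj g).injective)).trans hPcard)
  obtain ⟨h, hh⟩ := MulAction.exists_smul_eq (MulAction.stabilizer G b) S2 S1
  refine ⟨(h : G) * g, ?_, ?_⟩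
  · have h2 := congrArg (fun S : Sylow p (MulAction.stabilizer G b) =>
      (S : Subgroup (MulAction.stabilizer G b)).map (MulAction.stabilizer G b).subtype) hh
    simp only [S1, Sylow.coe_subgroup_smul, Sylow.coe_ofCard, Subgroup.map_subgroupOf_eq_of_le hPmb] at h2
    have h3 : ∀ (K : Subgroup G) (hK : K ≤ MulAction.stabilizer G b),
        (MulAut.conj h • K.subgroupOf (MulAction.stabilizer G b)).map (MulAction.stabilizer G b).subtype
          = MulAut.conj (h : G) • K := by
      intro K hK
      conv_rhs => rw [← Subgroup.map_subgroupOf_eq_of_le hK]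
      ext z
      constructor
      · rintro ⟨w, ⟨k, hk, rfl⟩, rfl⟩
        exact ⟨(k : G), ⟨k, hk, rfl⟩, rfl⟩
      · rintro ⟨w, ⟨k, hk, rfl⟩, rfl⟩
        exact ⟨MulAut.conj h k, ⟨k, hk, rfl⟩, rfl⟩
    simp only [S2, Sylow.coe_ofCard, h3 _ hgP, smul_smul, ← map_mul] at h2
    exact Subgroup.mem_normalizer_iff_map_conj_eq.mpr h2
  · rw [mul_smul, hg]
    exact h.2

end Cfsg.Agent.S4219
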