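import Cfsg.Statements.S4222

set_option autoImplicit false
open Cfsg

namespace Cfsg.Agent.S4222

/-- If a normal subgroup `N` of a finite group is complete (its centre is trivial and every automorphism of `N` is inner), then the group is the internal direct product of `N` and the centralizer of `N`: the centralizer is a complement to `N`. -/
theorem result {T : Type*} [Group T] [Finite T] (N : Subgroup T) [N.Normal] (hz : Subgroup.center ↥N = ⊥) (ha : Function.Surjective (MulAut.conj : ↥N →* MulAut ↥N)) : (Subgroup.centralizer (N : Set T)).IsComplement' N := by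
  apply Subgroup.isComplement'_of_disjoint_and_mul_eq_univ
  · rw [disjoint_iff, eq_bot_iff]
    rintro x ⟨hx, hxN⟩
    rw [Subgroup.mem_bot]
    have : (⟨x, hxN⟩ : N) ∈ Subgroup.center N := Subgroup.mem_center_iff.mpr fun n =>
      Subtype.ext (Subgroup.mem_centralizer_iff.mp hx n n.2)
    rw [hz, Subgroup.mem_bot] at this
    exact congrArg Subtype.val this
  · refine Set.eq_univ_of_forall fun t => ?_
    obtain ⟨n, hn⟩ := ha (MulAut.conjNormal t)
    refine Set.mem_mul.mpr ⟨t * (n : T)⁻¹, ?_, n, n.2, by group⟩
    rw [SetLike.mem_coe, Subgroup.mem_centralizer_iff]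
    intro h hh
    have := congrArg (fun f : MulAut N => ((f ((MulAut.conjNormal t).symm ⟨h, hh⟩)) : T)) hn
    simp only [MulAut.conj_apply, MulEquiv.apply_symm_apply, Subgroup.coe_mul, InvMemClass.coe_inv,
      MulAut.conjNormal_symm_apply] at this
    calc h * (t * (n : T)⁻¹)
        = t * ((t⁻¹ * h * t) * (n : T)⁻¹) := by group
      _ = t * ((n : T)⁻¹ * h) := by
          nth_rewrite 2 [← this]
          group
      _ = t * (n : T)⁻¹ * h := by group

end Cfsg.Agent.S4222
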