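import Cfsg.Statements.S4223
import Cfsg.Agent.H89.KrullSchmidt

set_option autoImplicit false
open Cfsg

namespace Cfsg.Agent.S4223

/-- If a finite group is isomorphic both to a direct product of `m` directly indecomposable nontrivial groups and to a direct product of `n` such groups (a group is directly indecomposable when it is not the internal direct product of two nontrivial normal subgroups), then `m = n` and the factors are isomorphic in pairs after a suitable matching. -/
theorem result {m n : ℕ} {A : Fin m → Type*} {B : Fin n → Type*} [∀ i, Group (A i)] [∀ j, Group (B j)] [∀ i, Finite (A i)] [∀ j, Finite (B j)] (hA : ∀ i, Nontrivial (A i) ∧ ∀ H K : Subgroup (A i), H.Normal → K.Normal → H ⊓ K = ⊥ → H ⊔ K = ⊤ → H = ⊥ ∨ K = ⊥) (hB : ∀ j, Nontrivial (B j) ∧ ∀ H K : Subgroup (B j), H.Normal → K.Normal → H ⊓ K = ⊥ → H ⊔ K = ⊤ → H = ⊥ ∨ K = ⊥) (e : ((i : Fin m) → A i) ≃* ((j : Fin n) → B j)) : ∃ σ : Fin m ≃ Fin n, ∀ i, Nonempty (A i ≃* B (σ i)) := by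
  exact Cfsg.Agent.H89.krull_schmidt hA hB e

end Cfsg.Agent.S4223
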