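import Cfsg.Statements.S4274
import Cfsg.Agent.H80.J1Order.Main

set_option autoImplicit false
open Cfsg

namespace Cfsg.Agent.S4274

/-- A finite group of order 175560 = 2³·3·5·7·11·19 is either simple or has a normal Sylow 19-subgroup. -/
theorem result {G : Type*} [Group G] [Finite G] (hG : Nat.card G = 175560) : IsSimpleGroup G ∨ ∀ P : Sylow 19 G, (P : Subgroup G).Normal := by
  refine (em (IsSimpleGroup G)).imp_right fun hs P => ?_
  have : Fact (Nat.Prime 19) := ⟨by norm_num⟩
  have h1 := H80.J1Order.card_sylow_eq_one_of_not_simple (m := 9240) dvd_rfl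
    (by rw [hG]) hs (fun m' hm' H _ _ hH hd =>
      H80.J1Order.card_sylow_eq_one m' H hH hd hm'.ne)
  have : Subsingleton (Sylow 19 G) := (Nat.card_eq_one_iff_unique.mp h1).1
  exact Sylow.normal_of_subsingleton P

end Cfsg.Agent.S4274
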