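import Cfsg.Statements.S4275
import Cfsg.Agent.H90.TwistedDesign

set_option autoImplicit false
open Cfsg

namespace Cfsg.Agent.S4275

/-- A permutation intertwining an automorphism induces it by conjugation inside the normalizer. -/
theorem perm_spec {Ω : Type*} (G : Subgroup (Equiv.Perm Ω)) (α : G ≃* G) (σ : Equiv.Perm Ω)
    (hσ : ∀ g : G, ∀ x : Ω, α g • σ x = σ (g • x)) :
    σ ∈ Subgroup.normalizer (G : Set (Equiv.Perm Ω)) ∧
      ∀ g : G, ((α g : G) : Equiv.Perm Ω) = σ * (g : Equiv.Perm Ω) * σ⁻¹ := by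
  have h : ∀ g : G, ((α g : G) : Equiv.Perm Ω) = σ * (g : Equiv.Perm Ω) * σ⁻¹ := by
    intro g
    ext x
    have := hσ g (σ⁻¹ x)
    simpa [Subgroup.smul_def, Equiv.Perm.smul_def] using this
  refine ⟨Subgroup.mem_normalizer_iff.2 fun x => ⟨fun hx => ?_, fun hx => ?_⟩, h⟩
  · have := (α ⟨x, hx⟩).2
    rwa [h] at this
  · have e := h (α.symm ⟨_, hx⟩)
    rw [MulEquiv.apply_symm_apply] at e
    have : x = ((α.symm ⟨_, hx⟩ : G) : Equiv.Perm Ω) := by
      simpa using e
    rw [this]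
    exact Subtype.coe_prop _


/-- Let G be a transitive group of permutations of a finite set Ω, let o ∈ Ω, and let α be an automorphism of G. Then α is induced by conjugation by a permutation of Ω normalizing G if and only if the image under α of the stabilizer of o fixes some point of Ω. -/
theorem result {Ω : Type*} [Fintype Ω] (G : Subgroup (Equiv.Perm Ω)) (htr : MulAction.IsPretransitive G Ω) (o : Ω) (α : G ≃* G) : (∃ σ : Equiv.Perm Ω, σ ∈ Subgroup.normalizer (G : Set (Equiv.Perm Ω)) ∧ ∀ g : G, ((α g : G) : Equiv.Perm Ω) = σ * (g : Equiv.Perm Ω) * σ⁻¹) ↔ ∃ ω : Ω, ∀ g ∈ (MulAction.stabilizer G o).map α.toMonoidHom, g • ω = ω := by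
  haveI := htr
  haveI : Finite G := inferInstance
  constructor
  · rintro ⟨σ, _, hσ⟩
    refine ⟨σ o, ?_⟩
    rintro _ ⟨g, hg, rfl⟩
    have hg' : (g : Equiv.Perm Ω) o = o := hg
    simp [Subgroup.smul_def, hσ, hg']
  · rintro ⟨ω, hω⟩
    obtain ⟨σ, hσ⟩ := Cfsg.Agent.H90.exists_perm_of_fixed o ω α
      (fun g hg => hω _ ⟨g, hg, rfl⟩)
    exact ⟨σ, perm_spec G α σ hσ⟩


end Cfsg.Agent.S4275
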