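import Cfsg.Statements.S4276
import Cfsg.Agent.H90.TwistedDesign
import Cfsg.Agent.S4275

set_option autoImplicit false
open Cfsg

namespace Cfsg.Agent.S4276

/-- Let G be a doubly transitive group of permutations of a finite set Ω of size n, let o ∈ Ω, and let α be an automorphism of G of odd order. Suppose that the image under α of the stabilizer of o has an orbit on Ω whose length k is coprime to n. Then α is induced by conjugation by a permutation of Ω normalizing G, and k = 1 or k = n − 1. -/
theorem result {Ω : Type*} [Fintype Ω] (G : Subgroup (Equiv.Perm Ω)) (h2 : MulAction.IsMultiplyPretransitive G Ω 2) (o : Ω) (α : MulAut G) (hα : Odd (orderOf α)) (ω : Ω) (hk : (Nat.card (MulAction.orbit ((MulAction.stabilizer G o).map α.toMonoidHom) ω)).Coprime (Fintype.card Ω)) : (∃ σ : Equiv.Perm Ω, σ ∈ Subgroup.normalizer (G : Set (Equiv.Perm Ω)) ∧ ∀ g : G, ((α g : G) : Equiv.Perm Ω) = σ * (g : Equiv.Perm Ω) * σ⁻¹) ∧ (Nat.card (MulAction.orbit ((MulAction.stabilizer G o).map α.toMonoidHom) ω) = 1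 ∨ Nat.card (MulAction.orbit ((MulAction.stabilizer G o).map α.toMonoidHom) ω) = Fintype.card Ω - 1) := by
  classical
  haveI : MulAction.IsPretransitive G Ω := MulAction.isPretransitive_of_is_two_pretransitive
  set A := (MulAction.stabilizer G o).map α.toMonoidHom with hA
  set O : Finset Ω := (MulAction.orbit A ω).toFinset with hOdef
  have hcard : O.card = Nat.card (MulAction.orbit A ω) := by
    rw [hOdef, Nat.card_eq_card_toFinset]
  rw [← hcard] at hk ⊢
  have hinv : ∀ g : G, g • o = o → ∀ y ∈ O, α g • y ∈ O := by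
    intro g hg y hy
    rw [hOdef, Set.mem_toFinset] at hy ⊢
    exact MulAction.mem_orbit_of_mem_orbit (⟨α g, g, hg, rfl⟩ : A) hy
  have hk' := Cfsg.Agent.H90.card_invariant_eq_one_or_sub_one h2 o α (orderOf α) hα
    (pow_orderOf_eq_one α) O ⟨ω, by simp [hOdef]⟩ hinv hk
  refine ⟨?_, hk'⟩
  suffices ∃ z : Ω, ∀ g : G, g • o = o → α g • z = z by
    obtain ⟨z, hz⟩ := this
    obtain ⟨σ, hσ⟩ := Cfsg.Agent.H90.exists_perm_of_fixed o z α hz
    exact ⟨σ, Cfsg.Agent.S4275.perm_spec G α σ hσ⟩
  rcases hk' with h | h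
  · obtain ⟨z, hz⟩ := Finset.card_eq_one.1 h
    refine ⟨z, fun g hg => ?_⟩
    have := hinv g hg z (by simp [hz])
    simpa [hz] using this
  · have h1 : Oᶜ.card = 1 := by
      have hpos : 0 < Fintype.card Ω := Fintype.card_pos_iff.2 ⟨o⟩
      rw [Finset.card_compl, h]; omega
    obtain ⟨z, hz⟩ := Finset.card_eq_one.1 h1
    refine ⟨z, fun g hg => ?_⟩
    have hz' : z ∉ O := by
      have : z ∈ Oᶜ := by rw [hz]; simp
      simpa using this
    have : α g • z ∈ Oᶜ := by
      rw [Finset.mem_compl]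
      intro hm
      have h3 := hinv g⁻¹ (by rw [inv_smul_eq_iff, hg]) _ hm
      rw [map_inv, inv_smul_smul] at h3
      exact hz' h3
    rwa [hz, Finset.mem_singleton] at this


end Cfsg.Agent.S4276
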