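import Cfsg.Statements.S4277
import Cfsg.Agent.H90.PrimeIndexAut
import Cfsg.Agent.S0675

set_option autoImplicit false
open Cfsg

namespace Cfsg.Agent.S4277

/-- A case of the Schreier conjecture: if a finite simple group G has a subgroup of prime index, then the outer automorphism group of G is solvable. -/
theorem result {G : Type*} [Group G] [Finite G] [IsSimpleGroup G] (H : Subgroup G) (hH : H.index.Prime) : Group.IsSolvable (Cfsg.Out G) := by
  classical
  haveI hpf : Fact H.index.Prime := ⟨hH⟩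
  by_cases hab : ∀ a b : G, a * b = b * a
  · -- abelian case
    let _ : CommGroup G := { (inferInstance : Group G) with mul_comm := hab }
    have hc : ∀ φ ψ : MulAut G, φ * ψ = ψ * φ := by
      intro φ ψ
      haveI : IsCyclic G := inferInstance
      obtain ⟨c, hc⟩ := IsCyclic.exists_generator (α := G)
      ext x
      obtain ⟨i, rfl⟩ := Subgroup.mem_zpowers_iff.1 (hc x)
      obtain ⟨a, ha⟩ := Subgroup.mem_zpowers_iff.1 (hc (φ c))
      obtain ⟨b, hb⟩ := Subgroup.mem_zpowers_iff.1 (hc (ψ c))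
      simp only [MulAut.mul_apply, map_zpow, ← ha, ← hb]
      rw [← zpow_mul c b, ← zpow_mul c a, mul_comm]
    haveI : Group.IsSolvable (MulAut G) := Group.isSolvable_of_comm hc
    exact Group.isSolvable_of_surjective (QuotientGroup.mk'_surjective (Cfsg.Inn G))
  -- the action on the cosets
  let _ : Fintype (G ⧸ H) := Fintype.ofFinite _
  set p := H.index with hp
  have hΩ : Fintype.card (G ⧸ H) = p := by rw [← Nat.card_eq_fintype_card]; rfl
  let π := MulAction.toPermHom G (G ⧸ H)
  have hker : π.ker = ⊥ := by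
    refine (IsSimpleGroup.eq_bot_or_eq_top_of_normal _ (MonoidHom.normal_ker π)).resolve_right ?_
    intro htop
    apply hH.ne_one
    rw [Subgroup.index_eq_one, eq_top_iff]
    intro g _
    have h1 : π g = 1 := MonoidHom.mem_ker.1 (by rw [htop]; exact Subgroup.mem_top g)
    have h2 : (g : G ⧸ H) = ((1 : G) : G ⧸ H) := by
      have h3 := Equiv.congr_fun h1 ((1 : G) : G ⧸ H)
      simpa [π, MulAction.Quotient.smul_mk] using h3
    simpa using QuotientGroup.eq.1 h2
  have hinj : Function.Injective π := (MonoidHom.ker_eq_bot_iff π).1 hker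
  haveI : FaithfulSMul G (G ⧸ H) := ⟨fun {g₁ g₂} h => hinj (Equiv.ext h)⟩
  have hp2 : ¬ p ^ 2 ∣ Nat.card G := by
    intro hd
    have h1 : Nat.card G ∣ p.factorial := by
      rw [← hΩ, ← Fintype.card_perm, ← Nat.card_eq_fintype_card]
      exact Subgroup.card_dvd_of_injective π hinj
    obtain ⟨m, hm⟩ := Nat.exists_eq_succ_of_ne_zero hH.ne_zero
    have h2 := hd.trans h1
    rw [hm, Nat.factorial_succ, sq, ← Nat.succ_eq_add_one] at h2
    have h3 := Nat.dvd_of_mul_dvd_mul_left (Nat.succ_pos m) h2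
    have h4 : m.succ ≤ m := (Nat.Prime.dvd_factorial (hm ▸ hH)).1 h3
    omega
  haveI : MulAction.IsPretransitive π.range (G ⧸ H) := ⟨fun x y => by
    obtain ⟨g, hg⟩ := MulAction.exists_smul_eq G x y
    exact ⟨⟨π g, g, rfl⟩, hg⟩⟩
  have h2t : MulAction.IsMultiplyPretransitive G (G ⧸ H) 2 := by
    rcases Cfsg.Agent.S0675.result (α := G ⧸ H) (hΩ ▸ hH) π.range with hs | h2
    · exfalso
      apply hab
      rw [IsSimpleGroup.comm_iff_isSolvable]
      exact Group.isSolvable_of_isSolvable_injective (MonoidHom.ofInjective hinj).injective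
    · rw [MulAction.is_two_pretransitive_iff] at h2 ⊢
      intro a b c d h h'
      obtain ⟨⟨_, g, rfl⟩, h1, h2'⟩ := h2 h h'
      exact ⟨g, h1, h2'⟩
  set o : G ⧸ H := ((1 : G) : G ⧸ H) with ho
  set N0 := Cfsg.Agent.H90.inducedAut (G := G) (G ⧸ H)
  have hodd : ∀ α : MulAut G, Odd (orderOf α) → α ∈ N0 := by
    intro α hα
    let A := (MulAction.stabilizer G o).map α.toMonoidHom
    set O := (MulAction.orbit A o).toFinset with hO
    have hinv : ∀ g : G, g • o = o → ∀ y ∈ O, α g • y ∈ O := by
      intro g hg y hy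
      rw [hO, Set.mem_toFinset] at hy ⊢
      exact MulAction.mem_orbit_of_mem_orbit (⟨α g, g, hg, rfl⟩ : A) hy
    have hcop : O.card.Coprime (Fintype.card (G ⧸ H)) := by
      rw [hΩ, Nat.coprime_comm, hH.coprime_iff_not_dvd]
      intro hd
      apply hp2
      have h1 : O.card ∣ Nat.card A := by
        rw [hO, ← Nat.card_eq_card_toFinset, Nat.card_coe_set_eq, ← MulAction.index_stabilizer]
        exact Subgroup.index_dvd_card _
      have h2 : Nat.card A = Nat.card (MulAction.stabilizer G o) :=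
        Subgroup.card_map_of_injective α.injective
      have h3 := MulAction.index_stabilizer_of_transitive G o
      rw [Nat.card_eq_fintype_card, hΩ] at h3
      rw [← (MulAction.stabilizer G o).card_mul_index, h3, sq]
      exact Nat.mul_dvd_mul_right (h2 ▸ hd.trans h1) p
    suffices ∃ z : G ⧸ H, ∀ g : G, g • o = o → α g • z = z by
      obtain ⟨z, hz⟩ := this
      exact Cfsg.Agent.H90.exists_perm_of_fixed o z α hz
    rcases Cfsg.Agent.H90.card_invariant_eq_one_or_sub_one h2t o α (orderOf α) hα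
      (pow_orderOf_eq_one α) O ⟨o, by simp [hO]⟩ hinv hcop with h | h
    · obtain ⟨z, hz⟩ := Finset.card_eq_one.1 h
      refine ⟨z, fun g hg => ?_⟩
      have := hinv g hg z (by simp [hz])
      simpa [hz] using this
    · obtain ⟨z, hz⟩ := Finset.card_eq_one.1 (show Oᶜ.card = 1 by
        rw [Finset.card_compl, h, hΩ]; have := hH.two_le; omega)
      refine ⟨z, fun g hg => ?_⟩
      have hz' : z ∉ O := by
        have : z ∈ Oᶜ := by rw [hz]; simp
        simpa using this
      have : α g • z ∈ Oᶜ := by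
        rw [Finset.mem_compl]
        intro hm
        have h3 := hinv g⁻¹ (by rw [inv_smul_eq_iff, hg]) _ hm
        rw [map_inv, inv_smul_smul] at h3
        exact hz' h3
      rwa [hz, Finset.mem_singleton] at this
  -- a normal subgroup inside `N0` with 2-group quotient
  have hne : ∃ _ : Finite (MulAut G), True := ⟨Finite.of_injective (fun φ => (φ : G → G))
    DFunLike.coe_injective, trivial⟩
  obtain ⟨hfin, -⟩ := hne
  set M := N0.normalCore
  have hM : M ≤ N0 := Subgroup.normalCore_le N0
  have hInn : Cfsg.Inn G ≤ M := by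
    refine Subgroup.normal_le_normalCore.2 ?_
    rintro _ ⟨g, rfl⟩
    exact Cfsg.Agent.H90.conj_mem_inducedAut _ g
  have hoddM : ∀ α : MulAut G, Odd (orderOf α) → α ∈ M := fun α hα b =>
    hodd _ (by rwa [show b * α * b⁻¹ = MulAut.conj b α from rfl, MulEquiv.orderOf_eq])
  haveI : Fact (Nat.Prime 2) := ⟨Nat.prime_two⟩
  have h2group : IsPGroup 2 (MulAut G ⧸ M) := by
    intro q
    obtain ⟨φ, rfl⟩ := QuotientGroup.mk_surjective q
    obtain ⟨k, m, hm, hkm⟩ := Nat.exists_eq_two_pow_mul_odd (orderOf_pos φ).ne'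
    refine ⟨k, ?_⟩
    rw [← QuotientGroup.mk_pow, QuotientGroup.eq_one_iff]
    apply hoddM
    rw [orderOf_pow, hkm, Nat.gcd_eq_right (Dvd.intro m rfl), Nat.mul_div_cancel_left m (by positivity)]
    exact hm
  haveI : Group.IsNilpotent (MulAut G ⧸ M) := h2group.isNilpotent
  let f : Cfsg.Out G →* MulAut G ⧸ M := QuotientGroup.map _ _ (MonoidHom.id _) hInn
  let j : ↥M →* Cfsg.Out G := (QuotientGroup.mk' (Cfsg.Inn G)).comp M.subtype
  haveI : Group.IsSolvable j.range := Group.isSolvable_of_comm fun a b => by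
    obtain ⟨_, x, rfl⟩ := a
    obtain ⟨_, y, rfl⟩ := b
    have := Cfsg.Agent.H90.commutator_inducedAut_mem (G ⧸ H) hΩ hp2 (hM x.2) (hM y.2)
    rw [← QuotientGroup.eq_one_iff] at this
    refine Subtype.ext ?_
    change ((x : MulAut G) : Cfsg.Out G) * (y : MulAut G) = (y : MulAut G) * (x : MulAut G)
    simpa [mul_inv_eq_one, mul_inv_eq_iff_eq_mul] using this
  refine Group.isSolvable_of_ker_le_range j.range.subtype f fun q hq => ?_
  obtain ⟨φ, rfl⟩ := QuotientGroup.mk_surjective q
  have hq' : (φ : MulAut G ⧸ M) = 1 := hq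
  exact ⟨⟨_, ⟨φ, (QuotientGroup.eq_one_iff φ).1 hq'⟩, rfl⟩, rfl⟩


end Cfsg.Agent.S4277
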