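import Cfsg.Statements.S4278
import Cfsg.Agent.H93.G2InvolutionApps

set_option autoImplicit false
open Cfsg

namespace Cfsg.Agent.S4278

/-- In the Chevalley group of type G₂ over a finite field of odd order, any two involutions are conjugate. -/
theorem result {F : Type*} [Field F] [Fintype F] (hF : Odd (Fintype.card F)) (s t : ↥(Cfsg.Lie.chevG2.group F)) (hs : orderOf s = 2) (ht : orderOf t = 2) : IsConj s t := by
  obtain ⟨χ, hidx, -, -, -, hconj⟩ := H93.G2Inv.exists_chi (F := F) hF
  have key : ∀ u : ↥(Cfsg.Lie.chevG2.group F), orderOf u = 2 →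
      IsConj (χ (H93.G2Quat.negPair F)) u := fun u hu =>
    H93.G2Inv.isConj_of_odd_index hidx (by rintro _ ⟨w, rfl⟩ h h1; exact hconj w h h1) hu
  exact (key s hs).symm.trans (key t ht)

end Cfsg.Agent.S4278
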