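import Cfsg.Statements.S4279
import Cfsg.Agent.H93.G2InvolutionApps

set_option autoImplicit false
open Cfsg

namespace Cfsg.Agent.S4279

open H93.G2Inv H93.G2Quat

/-- In the Chevalley group G of type G₂ over a finite field F of odd order q, the centralizer of an involution t has order q²(q² − 1)² and contains two elementwise commuting subgroups, each isomorphic to SL(2, F), which meet exactly in the subgroup generated by t and whose join has index 2 in the centralizer. -/
theorem result {F : Type*} [Field F] [Fintype F] (hF : Odd (Fintype.card F)) (t : ↥(Cfsg.Lie.chevG2.group F)) (ht : orderOf t = 2) : Nat.card (Subgroup.centralizer ({t} : Set ↥(Cfsg.Lie.chevG2.group F))) = Fintype.card F ^ 2 * (Fintype.card F ^ 2 - 1) ^ 2 ∧ ∃ L₁ L₂ : Subgroup ↥(Cfsg.Lie.chevG2.group F), Nonempty (L₁ ≃* Matrix.SpecialLinearGroup (Fin 2) F) ∧ Nonempty (L₂ ≃* Matrix.SpecialLinearGroup (Fin 2) F) ∧ (∀ x ∈ L₁, ∀ y ∈ L₂, x * y = y * x) ∧ L₁ ⊓ L₂ = Subgroup.zpowers t ∧ L₁ ⊔ L₂ ≤ Subgroup.centralizer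 ({t} : Set ↥(Cfsg.Lie.chevG2.group F)) ∧ (L₁ ⊔ L₂).relIndex (Subgroup.centralizer ({t} : Set ↥(Cfsg.Lie.chevG2.group F))) = 2 := by
  obtain ⟨χ, hker, hneg, hcent, hcard⟩ := exists_chi_at hF t ht
  set f := χ.comp (slPair F) with hf
  have hk : ∀ x, f x = 1 ↔ x = 1 ∨ x = (mOne F, mOne F) := fun x => by
    rw [← phi_slPair_eq_one, ← MonoidHom.mem_ker (f := phi F), ← hker]
    rfl
  have h2 : (2 : F) ≠ 0 := H6.two_ne_of_odd rfl hF
  have hm1 : mOne F ≠ 1 := fun h => h2 (by
    have := congrArg (fun A : Matrix.SpecialLinearGroup (Fin 2) F => A.1 0 0) h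
    simp [mOne] at this
    linear_combination -this)
  have hm2 : mOne F * mOne F = 1 := Subtype.ext (by show (-1 : Matrix (Fin 2) (Fin 2) F) * -1 = 1; rw [neg_mul_neg, one_mul])
  have hft : f (1, mOne F) = t := by
    rw [hf, MonoidHom.comp_apply, slPair_mOne, hneg]
  have hfm : f (mOne F, 1) = t := by
    rw [← hft]
    refine mul_right_cancel (b := f (1, mOne F)) ?_
    rw [← map_mul, ← map_mul, Prod.mk_mul_mk, Prod.mk_mul_mk, mul_one, one_mul, hm2, one_mul,
      (hk _).2 (Or.inr rfl)]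
    exact (map_one f).symm
  set f1 := f.comp (MonoidHom.inl (Matrix.SpecialLinearGroup (Fin 2) F) (Matrix.SpecialLinearGroup (Fin 2) F))
  set f2 := f.comp (MonoidHom.inr (Matrix.SpecialLinearGroup (Fin 2) F) (Matrix.SpecialLinearGroup (Fin 2) F))
  have hf1 : Function.Injective f1 := (injective_iff_map_eq_one f1).2 fun a ha => by
    rcases (hk (a, 1)).1 ha with h | h
    · exact (congrArg Prod.fst h :)
    · exact absurd (congrArg Prod.snd h :).symm hm1
  have hf2 : Function.Injective f2 := (injective_iff_map_eq_one f2).2 fun a ha => by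
    rcases (hk (1, a)).1 ha with h | h
    · exact (congrArg Prod.snd h :)
    · exact absurd (congrArg Prod.fst h :).symm hm1
  have hsup : f1.range ⊔ f2.range = f.range := by
    refine le_antisymm (sup_le ?_ ?_) ?_
    · rintro _ ⟨a, rfl⟩; exact ⟨(a, 1), rfl⟩
    · rintro _ ⟨a, rfl⟩; exact ⟨(1, a), rfl⟩
    · rintro _ ⟨⟨a, b⟩, rfl⟩
      rw [show ((a, b) : _ × _) = (a, 1) * (1, b) by simp, map_mul]
      exact mul_mem (Subgroup.mem_sup_left ⟨a, rfl⟩) (Subgroup.mem_sup_right ⟨b, rfl⟩)
  have hfC : f.range ≤ Subgroup.centralizer {t} := by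
    rw [hcent, hf, MonoidHom.range_comp]
    exact Subgroup.map_le_range _ _
  refine ⟨by rw [hcent, hcard], f1.range, f2.range, ⟨(MonoidHom.ofInjective hf1).symm⟩,
    ⟨(MonoidHom.ofInjective hf2).symm⟩, ?_, ?_, hsup ▸ hfC, ?_⟩
  · rintro _ ⟨a, rfl⟩ _ ⟨b, rfl⟩
    show f (a, 1) * f (1, b) = f (1, b) * f (a, 1)
    rw [← map_mul, ← map_mul]
    simp
  · refine le_antisymm ?_ ?_
    · rintro x ⟨⟨a, rfl⟩, ⟨b, hb⟩⟩
      have h1 : f (a, b⁻¹) = 1 := by
        rw [show ((a, b⁻¹) : _ × _) = (1, b)⁻¹ * (a, 1) by simp, map_mul, map_inv,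
          show f (1, b) = f (a, 1) from hb, inv_mul_cancel]
      rcases (hk _).1 h1 with h | h
      · have : a = 1 := (congrArg Prod.fst h :)
        rw [this, map_one]
        exact one_mem _
      · have : a = mOne F := (congrArg Prod.fst h :)
        rw [this, show f1 (mOne F) = t from hfm]
        exact Subgroup.mem_zpowers t
    · rw [Subgroup.zpowers_le]
      exact ⟨⟨mOne F, hfm⟩, ⟨mOne F, hft⟩⟩
  · rw [hsup]
    have hkc : Nat.card f.ker = 2 := by
      have : (f.ker : Set _) = {1, (mOne F, mOne F)} := by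
        ext x
        exact (MonoidHom.mem_ker (f := f)).trans (hk x)
      rw [← SetLike.coe_sort_coe, this, Nat.card_coe_set_eq, Set.ncard_pair]
      intro h
      exact hm1 (congrArg Prod.fst h :).symm
    have hq : 1 < Fintype.card F := Fintype.one_lt_card
    have hfc := Subgroup.card_eq_card_quotient_mul_card_subgroup f.ker
    rw [Nat.card_congr (QuotientGroup.quotientKerEquivRange f).toEquiv, hkc, Nat.card_prod,
      card_sl_mul] at hfc
    have hrel := Subgroup.relIndex_mul_relIndex (⊥ : Subgroup _) f.range (Subgroup.centralizer {t}) bot_le hfC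
    rw [Subgroup.relIndex_bot_left, Subgroup.relIndex_bot_left, hcent, hcard] at hrel
    rw [hcent]
    refine Nat.eq_of_mul_eq_mul_left (show 0 < Nat.card f.range from Nat.card_pos) ?_
    rw [hrel, ← hfc]
    ring

end Cfsg.Agent.S4279
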