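import Cfsg.Statements.S4280
import Cfsg.Agent.H90.Invol.ClassesF4

set_option autoImplicit false
open Cfsg

namespace Cfsg.Agent.S4280

/-- In the Chevalley group of type F₄ over a finite field of odd order q there are exactly two conjugacy classes of involutions; the centralizer of an involution in one class has order q¹⁶(q² − 1)(q⁴ − 1)(q⁶ − 1)(q⁸ − 1), and in the other class q¹⁰(q² − 1)²(q⁴ − 1)(q⁶ − 1). -/
theorem result {F : Type*} [Field F] [Fintype F] (hF : Odd (Fintype.card F)) : ∃ s t : ↥(Cfsg.Lie.chevF4.group F), orderOf s = 2 ∧ orderOf t = 2 ∧ ¬ IsConj s t ∧ (∀ u : ↥(Cfsg.Lie.chevF4.group F), orderOf u = 2 → IsConj u s ∨ IsConj u t) ∧ Nat.card (Subgroup.centralizer ({s} : Set ↥(Cfsg.Lie.chevF4.group F))) = Fintype.card F ^ 16 * (Fintype.card F ^ 2 - 1) * (Fintype.card F ^ 4 - 1) * (Fintype.card F ^ 6 - 1) * (Fintype.card F ^ 8 - 1) ∧ Nat.card (Subgroup.centralizer ({t} : Set ↥(Cfsg.Lie.chevF4.group F))) = Fintype.card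 F ^ 10 * (Fintype.card F ^ 2 - 1) ^ 2 * (Fintype.card F ^ 4 - 1) * (Fintype.card F ^ 6 - 1) := by
  obtain ⟨s, t, hs, ht, hne, hall, hcs, hct⟩ := Cfsg.Agent.H90.Invol.classes_F4 hF
  refine ⟨s, t, hs, ht, hne, hall, ?_, ?_⟩
  · rw [hcs]; simp [mul_assoc, mul_comm, mul_left_comm]
  · rw [hct]; simp [pow_two, mul_assoc, mul_comm, mul_left_comm]

end Cfsg.Agent.S4280
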