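import Cfsg.Statements.S4282
import Cfsg.Agent.H20.CriticalCase

set_option autoImplicit false
open Cfsg

namespace Cfsg.Agent.S4282

/-- A critical case behind the Hall–Higman theorem. Let p ≠ q be primes and G a finite group generated by a normal q-subgroup Q and a cyclic p-subgroup generated by x, such that the centralizer of every non-identity element of that cyclic subgroup is its product with the centre of G. Let K be an algebraically closed field of characteristic p and ρ a faithful representation of G on a nonzero finite-dimensional K-space whose restriction to Q is irreducible. If s is the least exponent with (ρ(x) − 1)^s = 0, then |⟨x⟩| − 1 ≤ s ≤ |⟨x⟩|; and if s = |⟨x⟩| − 1 then |⟨x⟩| − 1 is a power of q and Q is non-abelian. -/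
theorem result {G : Type*} [Group G] [Finite G] (p q : ℕ) [Fact p.Prime] [Fact q.Prime] (hpq : p ≠ q) (Q : Subgroup G) [Q.Normal] (hQ : IsPGroup q Q) (x : G) (hx : IsPGroup p (Subgroup.zpowers x)) (hgen : Q ⊔ Subgroup.zpowers x = ⊤) (hC : ∀ y ∈ Subgroup.zpowers x, y ≠ 1 → Subgroup.centralizer ({y} : Set G) = Subgroup.zpowers x ⊔ Subgroup.center G) {K : Type*} [Field K] [IsAlgClosed K] [CharP K p] {V : Type*} [AddCommGroup V] [Module K V] [FiniteDimensional K V] [Nontrivial V] (ρ : Representation K G V) (hfaith : Function.Injective ρ) (hirr : ∀ W : Submodule K V, (∀ g ∈ Q, Submodule.map (ρ g) W ≤ W) → W = ⊥ ∨ W = ⊤) (s : ℕ) (hs : (ρ x - 1) ^ s = 0) (hmin : ∀ k < s, (ρ x - 1) ^ k ≠ 0) : Nat.card (Subgroup.zpowers x) - 1 ≤ s ∧ s ≤ Nat.card (Subgroup.zpowers x) ∧ (s = Nat.card (Subgroup.zpowers x) - 1 → (∃ b : ℕ, Nat.card (Subgroup.zpowers x) - 1 = q ^ b) ∧ ¬ IsMulCommutative Q) := by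
  obtain ⟨h1, h2, h3⟩ := H20.Critical.critical hpq ρ hfaith Q hQ
    (fun W hW => hirr W fun g hg => by
      rintro _ ⟨w, hw, rfl⟩
      exact hW ⟨g, hg⟩ w hw) x hx hC s hs hmin
  rw [Nat.card_zpowers]
  exact ⟨h1, h2, h3⟩

end Cfsg.Agent.S4282
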