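import Cfsg.Statements.S4283
import Cfsg.Agent.H21.FrobeniusBasic

set_option autoImplicit false
open Cfsg

open Pointwise

namespace Cfsg.Agent.S4283

/-- Let G be a finite group with centre Z and let K, H be abelian subgroups of G containing Z such that G/Z is a Frobenius group with complement H/Z and kernel K/Z. Then the conjugacy class sizes of G are exactly 1, [G : K] and [G : H], and these two indices are coprime. (This is the converse half of the characterization of finite groups whose conjugacy class sizes are exactly 1, m and n with m and n coprime.) -/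
theorem result {G : Type*} [Group G] [Finite G] (K H : Subgroup G) (hZK : Subgroup.center G ≤ K) (hZH : Subgroup.center G ≤ H) (hK : IsMulCommutative K) (hH : IsMulCommutative H) (hFrob : Cfsg.IsFrobeniusComplement (H.map (QuotientGroup.mk' (Subgroup.center G)))) (hker : Cfsg.frobeniusKernel (H.map (QuotientGroup.mk' (Subgroup.center G))) = (K.map (QuotientGroup.mk' (Subgroup.center G)) : Set (G ⧸ Subgroup.center G))) : Set.range (fun x : G => (Subgroup.centralizer ({x} : Set G)).index) = ({1, K.index, H.index} : Set ℕ) ∧ K.index.Coprime H.index := by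
  set Z := Subgroup.center G
  set q := QuotientGroup.mk' Z with hq
  set Kb := K.map q with hKb
  set Hb := H.map q with hHb
  have hqs : Function.Surjective q := QuotientGroup.mk'_surjective Z
  have hKc : Kb.comap q = K := by
    rw [hKb, Subgroup.comap_map_eq, hq, QuotientGroup.ker_mk', sup_eq_left.2 hZK]
  have hHc : Hb.comap q = H := by
    rw [hHb, Subgroup.comap_map_eq, hq, QuotientGroup.ker_mk', sup_eq_left.2 hZH]
  have hKi : K.index = Nat.card Hb ∧ H.index = Hb.index := by
    refine ⟨?_, by rw [← hHc, Subgroup.index_comap_of_surjective _ hqs]⟩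
    rw [← hKc, Subgroup.index_comap_of_surjective _ hqs]
    have h1 : Nat.card Kb = Hb.index := by
      rw [← Cfsg.Agent.H21.kernel_card hFrob]
      exact (Nat.card_congr (Equiv.setCongr hker)).symm
    have h2 := Kb.card_mul_index
    rw [h1, ← Hb.card_mul_index, mul_comm (Nat.card Hb)] at h2
    exact Nat.eq_of_mul_eq_mul_left (Nat.pos_of_ne_zero Subgroup.index_ne_zero_of_finite) h2
  refine ⟨?_, by rw [hKi.1, hKi.2]; exact Cfsg.Agent.H21.coprime_card_index hFrob⟩
  have hcomm : ∀ {A : Subgroup G}, IsMulCommutative A → ∀ {x : G}, x ∈ A →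
      A ≤ Subgroup.centralizer {x} := by
    intro A hA x hx y hy
    rw [Subgroup.mem_centralizer_singleton_iff]
    exact congrArg Subtype.val (hA.is_comm.comm (⟨y, hy⟩ : A) ⟨x, hx⟩)
  have hcl : ∀ g x : G, (Subgroup.centralizer ({g * x * g⁻¹} : Set G)).index =
      (Subgroup.centralizer ({x} : Set G)).index := by
    intro g x
    rw [← Subgroup.index_comap_of_surjective (Subgroup.centralizer ({g * x * g⁻¹} : Set G))
      (f := (MulAut.conj g).toMonoidHom) (MulAut.conj g).surjective]
    congr 1
    ext y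
    simp only [Subgroup.mem_comap, Subgroup.mem_centralizer_singleton_iff, MulEquiv.coe_toMonoidHom,
      ← MulAut.conj_apply, ← map_mul, EmbeddingLike.apply_eq_iff_eq]
  have hcK : ∀ x ∈ K, x ∉ Z → Subgroup.centralizer ({x} : Set G) = K := by
    refine fun x hx hxZ => le_antisymm (fun y hy => ?_) (hcomm hK hx)
    rw [← hKc, Subgroup.mem_comap]
    have hxk : q x ∈ Cfsg.frobeniusKernel Hb := hker ▸ ⟨x, hx, rfl⟩
    have hx1 : q x ≠ 1 := fun h => hxZ ((QuotientGroup.eq_one_iff x).1 h)
    change q y ∈ (Kb : Set (G ⧸ Z))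
    rw [← hker, Cfsg.Agent.H21.mem_frobeniusKernel]
    by_cases hy1 : q y = 1
    · exact Or.inl hy1
    refine Or.inr fun g hg => hx1 (Cfsg.Agent.H21.eq_one_of_mem_kernel
      (H := MulAut.conj g • Hb) ?_ (Cfsg.Agent.H21.fc_mem_of_commute
        (Cfsg.Agent.H21.fc_conj hFrob g) (Cfsg.Agent.H21.mem_conj_smul.2 hg) hy1 ?_))
    · rw [Cfsg.Agent.H21.mem_frobeniusKernel] at hxk ⊢
      refine hxk.imp id fun h g' hg' => h (g' * g) ?_
      rw [Cfsg.Agent.H21.mem_conj_smul] at hg'
      simpa [mul_assoc] using hg'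
    · rw [← map_mul, ← map_mul, Subgroup.mem_centralizer_singleton_iff.1 hy]
  have hcH : ∀ x ∈ H, x ∉ Z → Subgroup.centralizer ({x} : Set G) = H := by
    refine fun x hx hxZ => le_antisymm (fun y hy => ?_) (hcomm hH hx)
    rw [← hHc, Subgroup.mem_comap]
    refine Cfsg.Agent.H21.fc_mem_of_commute hFrob ⟨x, hx, rfl⟩
      (fun h => hxZ ((QuotientGroup.eq_one_iff x).1 h)) ?_
    rw [← map_mul, ← map_mul, Subgroup.mem_centralizer_singleton_iff.1 hy]
  ext n
  constructor
  · rintro ⟨x, rfl⟩
    simp only [Set.mem_insert_iff, Set.mem_singleton_iff]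
    by_cases hxZ : x ∈ Z
    · left
      rw [Subgroup.index_eq_one, eq_top_iff]
      intro y _
      rw [Subgroup.mem_centralizer_singleton_iff]
      exact Subgroup.mem_center_iff.1 hxZ y
    right
    by_cases hxK : q x ∈ Cfsg.frobeniusKernel Hb
    · left
      rw [hcK x ?_ hxZ]
      rw [hker] at hxK
      rw [← hKc]; exact hxK
    · right
      rw [Cfsg.Agent.H21.mem_frobeniusKernel, not_or] at hxK
      obtain ⟨g, hg⟩ := not_forall_not.1 hxK.2
      obtain ⟨g, rfl⟩ := hqs g
      have hxH : g⁻¹ * x * g ∈ H := by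
        rw [← hHc, Subgroup.mem_comap, map_mul, map_mul, map_inv]; exact hg
      have := hcl g (g⁻¹ * x * g)
      rw [show g * (g⁻¹ * x * g) * g⁻¹ = x by group] at this
      rw [this, hcH _ hxH fun h => hxZ (by
        have h' := (Subgroup.center G).mul_mem h (Subgroup.one_mem _)
        simpa [mul_assoc] using (Subgroup.Normal.conj_mem inferInstance _ h g))]
  · simp only [Set.mem_insert_iff, Set.mem_singleton_iff]
    rintro (rfl | rfl | rfl)
    · exact ⟨1, by simp⟩
    · obtain ⟨y, hy, hy1⟩ : ∃ y ∈ Kb, y ≠ 1 := by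
        by_contra hcon
        simp only [not_exists, not_and, ne_eq, not_not] at hcon
        have : Kb = ⊥ := (Subgroup.eq_bot_iff_forall _).2 hcon
        apply hFrob.2.1
        rw [← Subgroup.index_eq_one, ← Cfsg.Agent.H21.kernel_card hFrob,
          Nat.card_congr (Equiv.setCongr hker)]
        change Nat.card Kb = 1
        rw [this, Subgroup.card_bot]
      obtain ⟨x, hx, rfl⟩ := hy
      exact ⟨x, congrArg Subgroup.index (hcK x hx fun h => hy1 ((QuotientGroup.eq_one_iff x).2 h))⟩
    · obtain ⟨⟨y, hy⟩, hy1⟩ := Subgroup.ne_bot_iff_exists_ne_one.1 hFrob.1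
      obtain ⟨x, hx, rfl⟩ := hy
      exact ⟨x, congrArg Subgroup.index (hcH x hx fun h => hy1 (Subtype.ext ((QuotientGroup.eq_one_iff x).2 h)))⟩


end Cfsg.Agent.S4283
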