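import Cfsg.Statements.S4284
import Cfsg.Agent.H89.ClassSizesOneMMnStructure

set_option autoImplicit false
open Cfsg

namespace Cfsg.Agent.S4284

/-- Let G be a finite group with no nontrivial abelian direct factor whose conjugacy class sizes are exactly 1, m and m·n with m, n > 1 coprime. Then m is a prime p dividing n − 1; the elements whose class has size 1 or p form an abelian normal subgroup of index p; G has a normal p-complement; and the commutator subgroup of a Sylow p-subgroup of G has order p. -/
theorem result {G : Type*} [Group G] [Finite G] (hnodf : ∀ A B : Subgroup G, A.Normal → B.Normal → A ⊓ B = ⊥ → A ⊔ B = ⊤ → IsMulCommutative A → A = ⊥) (m n : ℕ) (hm : 1 < m) (hn : 1 < n) (hcop : m.Coprime n) (h : Set.range (fun x : G => (Subgroup.centralizer ({x} : Set G)).index) = ({1, m, m * n} : Set ℕ)) : m.Prime ∧ m ∣ n - 1 ∧ (∃ M : Subgroup G, M.Normal ∧ (M : Set G) = {x : G | (Subgroup.centralizer ({x} : Set G)).index = 1 ∨ (Subgroup.centralizer ({x} : Set G)).index = m} ∧ M.index = m ∧ IsMulCommutative M) ∧ (∃ N : Subgroup G, N.Normal ∧ (Nat.card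 N).Coprime m ∧ ∃ a : ℕ, N.index = m ^ a) ∧ ∀ P : Sylow m G, Nat.card (commutator (P : Subgroup G)) = m := by
  have hsz : ∀ x : G, (Subgroup.centralizer ({x} : Set G)).index ∈ ({1, m, m * n} : Set ℕ) :=
    fun x => h ▸ Set.mem_range_self x
  have hex : ∀ k ∈ ({1, m, m * n} : Set ℕ), ∃ x : G, (Subgroup.centralizer ({x} : Set G)).index = k :=
    fun k hk => Set.mem_range.mp (h.ge hk)
  exact H89.OneMMn.structure_theorem
    { one_lt_m := hm
      one_lt_n := hn
      coprime := hcop
      sizes := fun x => by simpa using hsz x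
      exists_m := hex m (by simp)
      exists_mn := hex (m * n) (by simp) }

end Cfsg.Agent.S4284
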