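import Cfsg.Statements.S4292
import Cfsg.Agent.H90.FrobeniusLift

set_option autoImplicit false
open Cfsg
open scoped IsMulCommutative

namespace Cfsg.Agent.S4292

/-- Let A and B be nontrivial finite groups. Then the direct product A × B occurs as a Frobenius complement if and only if A and B both occur as Frobenius complements and the orders of A and B are coprime. -/
theorem result {A B : Type*} [Group A] [Finite A] [Nontrivial A] [Group B] [Finite B] [Nontrivial B] :
    (∃ (L : Type) (_ : Group L) (_ : Finite L) (H : Subgroup L), Cfsg.IsFrobeniusComplement H ∧ Nonempty ((A × B) ≃* H)) ↔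
    ((∃ (L : Type) (_ : Group L) (_ : Finite L) (H : Subgroup L), Cfsg.IsFrobeniusComplement H ∧ Nonempty (A ≃* H)) ∧
     (∃ (L : Type) (_ : Group L) (_ : Finite L) (H : Subgroup L), Cfsg.IsFrobeniusComplement H ∧ Nonempty (B ≃* H)) ∧
     (Nat.card A).Coprime (Nat.card B)) := by
  have action : ∀ {L : Type} [Group L] [Finite L] {H : Subgroup L},
      Cfsg.IsFrobeniusComplement H → ∃ (K : Subgroup L) (ψ : H →* MulAut K),
        Nontrivial K ∧ ∀ e : H, e ≠ 1 → ∀ x : K, ψ e x = x → x = 1 := by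
    intro L _ _ H hH
    obtain ⟨N, hN, hn, hc⟩ := Cfsg.Agent.H21.exists_kernel hH
    refine ⟨N, Cfsg.Agent.H21.conjHom (Cfsg.Agent.H21.le_normalizer_of_normal N H), ?_,
      Cfsg.Agent.H21.conjHom_fpf _ fun a ha h1 => Cfsg.Agent.H21.fpf_of_fc hH hc.disjoint ha h1⟩
    refine (Subgroup.nontrivial_iff_ne_bot N).mpr fun e => hH.2.1 ?_
    have := hc.sup_eq_top
    rwa [e, bot_sup_eq] at this
  constructor
  · rintro ⟨L, _, _, H, hH, ⟨e⟩⟩
    obtain ⟨K, ψ, _, hψ⟩ := action hH
    haveI : Group.IsNilpotent K := by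
      haveI : Nontrivial H := (Subgroup.nontrivial_iff_ne_bot H).mpr hH.1
      exact Cfsg.Agent.H21.isNilpotent_of_fpf_group ψ hψ
    obtain ⟨L1, i1, i2, C1, hC1, e1, -⟩ := Cfsg.Agent.H90.exists_fc_of_fpf
      (ψ.comp (e.toMonoidHom.comp (MonoidHom.inl A B))) fun a ha => hψ _ fun h => ha
        (congrArg Prod.fst (e.injective (h.trans (map_one e).symm)) :)
    obtain ⟨L2, j1, j2, C2, hC2, e2, -⟩ := Cfsg.Agent.H90.exists_fc_of_fpf
      (ψ.comp (e.toMonoidHom.comp (MonoidHom.inr A B))) fun b hb => hψ _ fun h => hb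
        (congrArg Prod.snd (e.injective (h.trans (map_one e).symm)) :)
    refine ⟨⟨L1, i1, i2, C1, hC1, e1⟩, ⟨L2, j1, j2, C2, hC2, e2⟩, ?_⟩
    refine Nat.coprime_of_dvd fun p hp hpA hpB => ?_
    haveI := Fact.mk hp
    obtain ⟨a, ha⟩ := exists_prime_orderOf_dvd_card' (G := A) p hpA
    obtain ⟨b, hb⟩ := exists_prime_orderOf_dvd_card' (G := B) p hpB
    obtain ⟨hC, χ, hχ⟩ := Cfsg.Agent.H21.center_fpf ψ hψ
    have hab : Commute ((a, 1) : A × B) (1, b) := Prod.ext (by simp) (by simp)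
    have hmem := Cfsg.Agent.H21.mem_zpowers_of_commute (V := Subgroup.center K)
      (χ.comp e.toMonoidHom) (fun x hx => hχ _ fun h => hx (e.injective (h.trans (map_one e).symm)))
      (p := p) (a := (a, 1)) (b := (1, b)) (by rw [Prod.orderOf_mk, orderOf_one]; simpa using ha)
      (by rw [Prod.orderOf_mk, orderOf_one]; simpa using hb) hab
    obtain ⟨i, hi⟩ := Subgroup.mem_zpowers_iff.mp hmem
    have := congrArg Prod.fst hi
    rw [Prod.pow_fst, one_zpow] at this
    simp only at this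
    rw [← this, orderOf_one] at ha
    exact hp.ne_one ha.symm
  · rintro ⟨⟨L1, _, _, H1, hH1, ⟨e1⟩⟩, ⟨L2, _, _, H2, hH2, ⟨e2⟩⟩, hco⟩
    obtain ⟨K1, ψ1, _, hψ1⟩ := action hH1
    obtain ⟨K2, ψ2, _, hψ2⟩ := action hH2
    obtain ⟨r1, hr1, hr1A, h1⟩ := Cfsg.Agent.H90.exists_isMatFPF_of_fpf (ψ1.comp e1.toMonoidHom)
      fun a ha => hψ1 _ fun h => ha (e1.injective (h.trans (map_one e1).symm))
    obtain ⟨r2, hr2, hr2B, h2⟩ := Cfsg.Agent.H90.exists_isMatFPF_of_fpf (ψ2.comp e2.toMonoidHom)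
      fun a ha => hψ2 _ fun h => ha (e2.injective (h.trans (map_one e2).symm))
    obtain ⟨s, hsle, hs⟩ := Nat.exists_infinite_primes (Nat.card A + Nat.card B + 1)
    haveI := Fact.mk hr1
    haveI := Fact.mk hr2
    haveI := Fact.mk hs
    exact Cfsg.Agent.H90.exists_fc_of_isMatFPF (Cfsg.Agent.H90.isMatFPF_prod hco
      (Cfsg.Agent.H90.isMatFPF_change hr1A h1 s fun hd => by
        have := Nat.le_of_dvd Nat.card_pos hd; omega)
      (Cfsg.Agent.H90.isMatFPF_change hr2B h2 s fun hd => by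
        have := Nat.le_of_dvd Nat.card_pos hd; omega))

end Cfsg.Agent.S4292
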