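import Cfsg.Statements.S4293
import Cfsg.Agent.H90.FrobeniusModule

set_option autoImplicit false
open Cfsg

namespace Cfsg.Agent.S4293

/-- A nontrivial finite subgroup of the multiplicative group of a division ring occurs as a Frobenius complement of some finite Frobenius group. -/
theorem result {D : Type*} [DivisionRing D] (H : Subgroup Dˣ) [Finite H] (hH : H ≠ ⊥) :
    ∃ (L : Type) (_ : Group L) (_ : Finite L) (C : Subgroup L), Cfsg.IsFrobeniusComplement C ∧ Nonempty (H ≃* C) := by
  haveI : Nontrivial H := (Subgroup.nontrivial_iff_ne_bot H).2 hH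
  let f : H →* D := (Units.coeHom D).comp H.subtype
  have hf : Function.Injective f := Units.val_injective.comp Subtype.val_injective
  have hf1 : ∀ a : H, a ≠ 1 → f a - 1 ≠ 0 := fun a ha h =>
    ha (hf (by rw [map_one]; exact sub_eq_zero.1 h))
  have hsum : ∀ (p : ℕ) (a : H), p.Prime → orderOf a = p → ∑ i ∈ Finset.range p, f a ^ i = 0 := by
    intro p a hp ha
    have h1 := geom_sum_mul (f a) p
    rw [← map_pow, ← ha, pow_orderOf_eq_one, map_one, sub_self, mul_eq_zero] at h1
    rw [← ha]
    exact h1.resolve_right (hf1 a (fun h => by rw [h, orderOf_one] at ha; exact hp.ne_one ha.symm))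
  obtain ⟨q, hq⟩ := CharP.exists D
  rcases CharP.char_is_prime_or_zero D q with hqp | rfl
  · -- positive characteristic
    haveI : Fact q.Prime := ⟨hqp⟩
    let _ : Algebra (ZMod q) D := ZMod.algebra D q
    let M : Submodule (ZMod q) D := Submodule.span (ZMod q) (Set.range f)
    haveI : Module.Finite (ZMod q) M := Module.Finite.span_of_finite _ (Set.finite_range f)
    haveI : Finite M := Module.finite_of_finite (ZMod q)
    haveI : Nontrivial M := ⟨⟨⟨1, Submodule.subset_span ⟨1, map_one f⟩⟩, 0, fun h =>
      one_ne_zero (congrArg Subtype.val h)⟩⟩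
    have hmul : ∀ a : H, ∀ x ∈ M, f a * x ∈ M := by
      intro a x hx
      induction hx using Submodule.span_induction with
      | mem x hx =>
        obtain ⟨b, rfl⟩ := hx
        exact Submodule.subset_span ⟨a * b, map_mul f a b⟩
      | zero => simp
      | add x y _ _ hx hy => rw [mul_add]; exact M.add_mem hx hy
      | smul c x _ hx => rw [mul_smul_comm]; exact M.smul_mem c hx
    let E : H → AddAut M := fun a =>
      { toFun := fun x => ⟨f a * x, hmul a x x.2⟩
        invFun := fun x => ⟨f a⁻¹ * x, hmul a⁻¹ x x.2⟩
        left_inv := fun x => Subtype.ext (by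
          change f a⁻¹ * (f a * (x : D)) = x
          rw [← mul_assoc, ← map_mul, inv_mul_cancel, map_one, one_mul])
        right_inv := fun x => Subtype.ext (by
          change f a * (f a⁻¹ * (x : D)) = x
          rw [← mul_assoc, ← map_mul, mul_inv_cancel, map_one, one_mul])
        map_add' := fun x y => Subtype.ext (mul_add _ _ _) }
    let φ : H →* MulAut (Multiplicative M) :=
      { toFun := fun a => AddEquiv.toMultiplicative (E a)
        map_one' := by ext x; simp [E]
        map_mul' := fun a b => by ext x; simp [E, mul_assoc] }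
    obtain ⟨L, i1, i2, C, hC, he, -⟩ := Cfsg.Agent.H90.exists_fc_of_fpf φ (by
      intro a ha x hx
      have h1 : f a * ((Multiplicative.toAdd x : M) : D) = (Multiplicative.toAdd x : M) :=
        congrArg Subtype.val (congrArg Multiplicative.toAdd hx)
      have h2 : (f a - 1) * ((Multiplicative.toAdd x : M) : D) = 0 := by
        rw [sub_mul, one_mul, h1, sub_self]
      exact toAdd_eq_zero.1 (Subtype.ext ((mul_eq_zero.1 h2).resolve_left (hf1 a ha))))
    exact ⟨L, i1, i2, C, hC, he⟩
  · -- characteristic zero
    haveI : CharZero D := CharP.charP_to_charZero D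
    obtain ⟨r, hle, hr⟩ := Nat.exists_infinite_primes (Nat.card H + 1)
    haveI : Fact r.Prime := ⟨hr⟩
    exact Cfsg.Agent.H90.exists_fc_of_isMatFPF
      (Cfsg.Agent.H90.isMatFPF_of_torsionFree f hsum r
        (fun hd => by have := Nat.le_of_dvd Nat.card_pos hd; omega))


end Cfsg.Agent.S4293
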