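import Cfsg.Statements.S4296
import Cfsg.Agent.H90.Anticommuting
import Cfsg.Agent.H21.Complement
import Cfsg.Agent.S0035
import Cfsg.Agent.S0040

set_option autoImplicit false
open Cfsg

namespace Cfsg.Agent.S4296

/-- Let H be a Frobenius complement in a finite group, and suppose some Sylow subgroup of H is not cyclic. Then the number of elements of the Frobenius kernel (the identity together with the elements lying in no conjugate of H) is an odd perfect square. -/
theorem result {L : Type*} [Group L] [Finite L] (H : Subgroup L) (hF : Cfsg.IsFrobeniusComplement H)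
    (hZ : ∃ (p : ℕ) (_ : Fact p.Prime) (P : Sylow p H), ¬ IsCyclic P) :
    Odd (Nat.card (Cfsg.frobeniusKernel H)) ∧ IsSquare (Nat.card (Cfsg.frobeniusKernel H)) := by
  obtain ⟨N, hNk, hN, hc⟩ := Cfsg.Agent.S0035.result H hF
  haveI := hN
  have hKb : N ≠ ⊥ := by
    intro h
    apply hF.2.1
    have := hc.sup_eq_top
    rwa [h, bot_sup_eq] at this
  have hfpf : ∀ h ∈ H, h ≠ 1 → N ⊓ Subgroup.centralizer {h} = ⊥ := fun h hh h1 =>
    Cfsg.Agent.H21.fpf_of_fc hF hc.disjoint hh h1
  obtain ⟨p, hp, P, hP⟩ := hZ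
  haveI := hp
  obtain ⟨n, ⟨e⟩⟩ := (Cfsg.Agent.S0040.result N H hc hKb hfpf p P).resolve_left hP
  rw [← hNk]
  cases n with
  | zero =>
    exfalso
    haveI : IsCyclic (QuaternionGroup (2 ^ 0)) := by
      rw [pow_zero]; exact QuaternionGroup.quaternionGroup_one_isCyclic
    exact hP (isCyclic_of_surjective _ e.symm.surjective)
  | succ m =>
    haveI : NeZero (2 ^ (m + 1)) := ⟨by positivity⟩
    haveI : Nontrivial N := (Subgroup.nontrivial_iff_ne_bot N).2 hKb
    have hle := Cfsg.Agent.H21.le_normalizer_of_normal N H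
    have hψ := Cfsg.Agent.H21.conjHom_fpf hle hfpf
    set ψ := Cfsg.Agent.H21.conjHom hle
    let x : H := ((e.symm (.a ((2 ^ m : ℕ) : ZMod (2 * 2 ^ (m + 1))))) : P)
    let y : H := ((e.symm (.xa 0)) : P)
    have hxo : orderOf x = 4 := by
      change orderOf ((e.symm _ : P) : H) = 4
      have hlt : 2 ^ m < 2 * 2 ^ (m + 1) := by rw [pow_succ]; have := Nat.two_pow_pos m; omega
      rw [Subgroup.orderOf_coe, MulEquiv.orderOf_eq, QuaternionGroup.orderOf_a,
        ZMod.val_natCast, Nat.mod_eq_of_lt hlt,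
        Nat.gcd_eq_right ⟨4, by ring⟩]
      exact Nat.div_eq_of_eq_mul_left (Nat.two_pow_pos m) (by ring)
    have heven : 2 ∣ Nat.card H :=
      dvd_trans (by rw [hxo]; norm_num) (orderOf_dvd_natCard x)
    obtain ⟨habel, s, hs, -, huniq, hinv⟩ := Cfsg.Agent.H21.even_fpf ψ hψ heven
    have hx2 : x * x = s := by
      apply huniq
      rw [← sq, orderOf_pow' x two_ne_zero, hxo]; rfl
    have hyx : y * x = x⁻¹ * y := by
      have h' : (e.symm (.xa 0)) * (e.symm (.a ((2 ^ m : ℕ) : ZMod (2 * 2 ^ (m + 1))))) =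
          (e.symm (.a ((2 ^ m : ℕ) : ZMod (2 * 2 ^ (m + 1)))))⁻¹ * e.symm (.xa 0) := by
        rw [← map_inv, ← map_mul, ← map_mul]
        congr 1
        change QuaternionGroup.xa _ = QuaternionGroup.xa _
        congr 1
        ring
      exact congrArg Subtype.val h'
    let _ : CommGroup N := { (inferInstance : Group N) with mul_comm := habel.is_comm.comm }
    have hodd : Odd (Nat.card N) := Nat.odd_iff.2 (Nat.two_dvd_ne_zero.1
      (Cfsg.Agent.H21.not_dvd_card_of_fpf ψ hs (hψ s (fun h => by rw [h, orderOf_one] at hs; omega))))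
    refine ⟨hodd, ?_⟩
    have := Cfsg.Agent.H90.isSquare_card_of_anticommuting (V := Additive N)
      (MonoidHom.toAdditive (ψ x).toMonoidHom) (MonoidHom.toAdditive (ψ y).toMonoidHom)
      (ψ y).injective hodd
      (fun v => by
        change Additive.ofMul (ψ x (ψ x v.toMul)) = Additive.ofMul (v.toMul)⁻¹
        rw [← MulAut.mul_apply, ← map_mul, hx2, hinv])
      (fun v => by
        change Additive.ofMul (ψ y (ψ x v.toMul)) = Additive.ofMul (ψ x (ψ y v.toMul))⁻¹
        congr 1
        rw [← MulAut.mul_apply, ← map_mul, hyx, map_mul, MulAut.mul_apply]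
        have hxi : x⁻¹ = s * x := by
          rw [← hx2, eq_comm, ← mul_eq_one_iff_eq_inv]
          have : x ^ 4 = 1 := hxo ▸ pow_orderOf_eq_one x
          calc x * x * x * x = x ^ 4 := by simp only [pow_succ, pow_zero, one_mul, mul_assoc]
            _ = 1 := this
        rw [hxi, map_mul, MulAut.mul_apply, hinv])
    exact this


end Cfsg.Agent.S4296
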