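import Cfsg.Statements.S4295
import Cfsg.Agent.S4296
import Cfsg.Agent.H90.FrobeniusSL2

set_option autoImplicit false
open Cfsg

namespace Cfsg.Agent.S4295

/-- The quaternion group of order `8` acts fixed-point-freely on `(ZMod p)²` for odd `p`. -/
theorem exists_fpf_prime (p : ℕ) [Fact p.Prime] (hp : p ≠ 2) :
    ∃ φ : QuaternionGroup 2 →* MulAut (Multiplicative (Fin 2 → ZMod p)),
      ∀ a : QuaternionGroup 2, a ≠ 1 → ∀ x, φ a x = x → x = 1 := by
  have h2 : (2 : ZMod p) ≠ 0 := by
    intro h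
    have : p ∣ 2 := (ZMod.natCast_eq_zero_iff 2 p).1 (by exact_mod_cast h)
    exact hp ((Nat.prime_dvd_prime_iff_eq Fact.out Nat.prime_two).1 this)
  obtain ⟨a, b, hab⟩ := ZMod.sq_add_sq p (-1 : ZMod p)
  let A : Matrix.SpecialLinearGroup (Fin 2) (ZMod p) :=
    ⟨!![0, 1; -1, 0], by rw [Matrix.det_fin_two_of]; ring⟩
  let B : Matrix.SpecialLinearGroup (Fin 2) (ZMod p) :=
    ⟨!![a, b; b, -a], by rw [Matrix.det_fin_two_of]; linear_combination -hab⟩
  have hA2 : (A ^ 2).1 = !![-1, 0; 0, -1] := by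
    rw [sq]
    change !![(0 : ZMod p), 1; -1, 0] * !![0, 1; -1, 0] = _
    rw [Matrix.mul_fin_two]
    simp only [mul_zero, zero_mul, add_zero, zero_add, one_mul, mul_one]
  have hne : (-1 : ZMod p) ≠ 1 := fun h => h2 (by linear_combination -h)
  have hA : orderOf A = 2 * 2 := by
    refine orderOf_eq_prime_pow (p := 2) (n := 1) ?_ ?_
    · rw [pow_one]
      intro h
      have := congrFun (congrFun (congrArg Subtype.val h) 0) 0
      rw [hA2] at this
      exact hne this
    · rw [show (2 ^ (1 + 1)) = 2 * 2 from rfl, pow_mul]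
      refine Subtype.ext ?_
      rw [sq (A ^ 2)]
      change (A ^ 2).1 * (A ^ 2).1 = 1
      rw [hA2, Matrix.mul_fin_two, Matrix.one_fin_two]
      simp only [mul_zero, zero_mul, add_zero, zero_add, neg_mul_neg, one_mul]
  have hB : B * B = A ^ 2 := by
    apply Subtype.ext
    change !![a, b; b, -a] * !![a, b; b, -a] = (A ^ 2).1
    rw [hA2, Matrix.mul_fin_two]
    ext i j
    fin_cases i <;> fin_cases j <;> simp <;> first | linear_combination hab | ring
  have hBA : B * A * B⁻¹ = A⁻¹ := by
    rw [mul_inv_eq_iff_eq_mul]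
    apply Subtype.ext
    change !![a, b; b, -a] * !![(0 : ZMod p), 1; -1, 0] = (A⁻¹).1 * !![a, b; b, -a]
    rw [Matrix.SpecialLinearGroup.coe_inv, Matrix.adjugate_fin_two, Matrix.mul_fin_two]
    change _ = !![(0 : ZMod p), -1; -(-1), 0] * !![a, b; b, -a]
    rw [Matrix.mul_fin_two]
    ext i j
    fin_cases i <;> fin_cases j <;> simp <;> ring
  have hBn : B ∉ Subgroup.zpowers A := by
    intro h
    have hc : Commute B A := by
      obtain ⟨i, hi⟩ := Subgroup.mem_zpowers_iff.1 h
      rw [← hi]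
      exact (Commute.refl A).zpow_left i
    rw [hc.eq, mul_inv_cancel_right, eq_inv_iff_mul_eq_one, ← sq] at hBA
    have := congrFun (congrFun (congrArg Subtype.val hBA) 0) 0
    rw [hA2] at this
    exact hne this
  refine Cfsg.Agent.H90.exists_mulAut_of_matrix _
    (Cfsg.Agent.H90.isUnit_sub_one_of_SL2 _ (Cfsg.Agent.H49.quatHom_injective hA hB hBA hBn) ?_)
  intro q hq hqd h0
  rw [ZMod.natCast_eq_zero_iff] at h0
  have hpq := (Nat.prime_dvd_prime_iff_eq Fact.out hq).1 h0
  rw [Nat.card_eq_fintype_card, QuaternionGroup.card, show 4 * 2 = 2 ^ 3 from rfl] at hqd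
  exact hp (hpq.trans ((Nat.prime_dvd_prime_iff_eq hq Nat.prime_two).1 (hq.dvd_of_dvd_pow hqd)))

/-- The quaternion group of order `8` acts fixed-point-freely on a group of order `k²`, `k` odd. -/
theorem exists_fpf {k : ℕ} (hodd : Odd k) (hk : 1 < k) :
    ∃ (V : Type) (_ : Group V) (_ : Finite V) (_ : Nontrivial V), Nat.card V = k * k ∧
      ∃ φ : QuaternionGroup 2 →* MulAut V, ∀ a : QuaternionGroup 2, a ≠ 1 → ∀ x, φ a x = x → x = 1 := by
  induction k using induction_on_primes with
  | zero => simp at hk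
  | one => omega
  | prime_mul p n hp ih =>
    haveI : Fact p.Prime := ⟨hp⟩
    have hp2 : p ≠ 2 := by
      rintro rfl
      exact Nat.not_even_iff_odd.2 hodd (even_two_mul n)
    obtain ⟨φ, hφ⟩ := exists_fpf_prime p hp2
    have hcard : Nat.card (Multiplicative (Fin 2 → ZMod p)) = p * p := by
      rw [Nat.card_congr Multiplicative.toAdd, Nat.card_fun, Nat.card_zmod, Nat.card_fin, sq]
    rcases Nat.lt_or_ge 1 n with hn | hn
    · obtain ⟨W, i1, i2, i3, hW, ψ, hψ⟩ := ih (Nat.Odd.of_mul_right hodd) hn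
      refine ⟨Multiplicative (Fin 2 → ZMod p) × W, inferInstance, inferInstance, inferInstance,
        by rw [Nat.card_prod, hcard, hW]; ring,
        { toFun := fun a => MulEquiv.prodCongr (φ a) (ψ a)
          map_one' := by rw [map_one, map_one]; exact MulEquiv.ext fun _ => rfl
          map_mul' := fun a b => by rw [map_mul, map_mul]; exact MulEquiv.ext fun _ => rfl }, ?_⟩
      rintro a ha ⟨x, y⟩ h
      exact Prod.ext (hφ a ha x (congrArg Prod.fst h)) (hψ a ha y (congrArg Prod.snd h))
    · obtain rfl : n = 1 := by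
        rcases n with _ | _ | n <;> simp_all
      exact ⟨_, inferInstance, inferInstance, inferInstance, by rw [hcard, mul_one], φ, hφ⟩


/-- For a natural number m the following are equivalent: (a) some finite group has a Frobenius complement isomorphic to the quaternion group of order 8 whose Frobenius kernel (the identity together with the elements lying in no conjugate of the complement) has exactly m elements; (b) m is an odd perfect square greater than 1. -/
theorem result (m : ℕ) :
    (∃ (L : Type) (_ : Group L) (_ : Finite L) (H : Subgroup L), Cfsg.IsFrobeniusComplement H ∧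
        Nonempty (H ≃* QuaternionGroup 2) ∧ Nat.card (Cfsg.frobeniusKernel H) = m) ↔
    (Odd m ∧ IsSquare m ∧ 1 < m) := by
  constructor
  · rintro ⟨L, i1, i2, H, hH, ⟨e⟩, rfl⟩
    haveI : Fact (Nat.Prime 2) := ⟨Nat.prime_two⟩
    have hP : IsPGroup 2 H := IsPGroup.of_card (n := 3) (by
      rw [Nat.card_congr e.toEquiv, Nat.card_eq_fintype_card, QuaternionGroup.card]; norm_num)
    obtain ⟨P⟩ := Sylow.nonempty (p := 2) (G := H)
    have hncyc : ¬ IsCyclic P := by
      intro hc
      have htop : (P : Subgroup H) = ⊤ :=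
        (P.is_maximal' (hP.to_subgroup ⊤) le_top).symm
      haveI := hc
      haveI : IsCyclic (⊤ : Subgroup H) := htop ▸ hc
      haveI : IsCyclic H := isCyclic_of_surjective _ Subgroup.topEquiv.surjective
      haveI : IsCyclic (QuaternionGroup 2) := isCyclic_of_surjective _ e.surjective
      have hne : (QuaternionGroup.a 1 : QuaternionGroup 2) * .xa 0 ≠ .xa 0 * .a 1 := by decide +revert
      let _ := IsCyclic.commGroup (α := QuaternionGroup 2)
      exact hne (mul_comm _ _)
    obtain ⟨h1, h2⟩ := Cfsg.Agent.S4296.result H hH ⟨2, inferInstance, P, hncyc⟩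
    refine ⟨h1, h2, ?_⟩
    rw [Cfsg.Agent.H21.kernel_card hH]
    have h0 : H.index ≠ 0 := Subgroup.index_ne_zero_of_finite
    have : H.index ≠ 1 := fun h => hH.2.1 (Subgroup.index_eq_one.1 h)
    omega
  · rintro ⟨hodd, ⟨k, rfl⟩, hlt⟩
    have hk : 1 < k := by nlinarith
    obtain ⟨V, i1, i2, i3, hVc, φ, hφ⟩ :=
      exists_fpf (Nat.Odd.of_mul_left hodd) hk
    haveI : Nontrivial (QuaternionGroup 2) := ⟨⟨1, .xa 0, by decide⟩⟩
    obtain ⟨L, j1, j2, C, hC, ⟨e⟩, hcard⟩ := Cfsg.Agent.H90.exists_fc_of_fpf φ hφ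
    exact ⟨L, j1, j2, C, hC, ⟨e.symm⟩, hcard.trans hVc⟩


end Cfsg.Agent.S4295
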