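import Cfsg.Statements.S4297
import Cfsg.Agent.H90.FrobeniusSL2

set_option autoImplicit false
open Cfsg

namespace Cfsg.Agent.S4297

/-- For every n ≥ 2 the dicyclic group of order 4n (generated by an element a of order 2n and an element x with x² = aⁿ and x a x⁻¹ = a⁻¹) occurs as a Frobenius complement of some finite Frobenius group. -/
theorem result (n : ℕ) (hn : 2 ≤ n) :
    ∃ (L : Type) (_ : Group L) (_ : Finite L) (H : Subgroup L), Cfsg.IsFrobeniusComplement H ∧ Nonempty (H ≃* QuaternionGroup n) := by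
  obtain ⟨p, hp, h⟩ := Cfsg.Agent.H90.exists_isMatFPF_quaternion n (by omega)
  haveI : Fact p.Prime := ⟨hp⟩
  haveI : NeZero n := ⟨by omega⟩
  obtain ⟨L, i1, i2, C, hC, ⟨e⟩⟩ := Cfsg.Agent.H90.exists_fc_of_isMatFPF h
  exact ⟨L, i1, i2, C, hC, ⟨e.symm⟩⟩


end Cfsg.Agent.S4297
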