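import Cfsg.Statements.S4299
import Cfsg.Agent.H90.FrobeniusModule

set_option autoImplicit false
open Cfsg

namespace Cfsg.Agent.S4299

/-- Every nontrivial finite cyclic group occurs as a Frobenius complement of some finite Frobenius group. -/
theorem result {C : Type*} [Group C] [Finite C] [IsCyclic C] [Nontrivial C] :
    ∃ (L : Type) (_ : Group L) (_ : Finite L) (H : Subgroup L), Cfsg.IsFrobeniusComplement H ∧ Nonempty (C ≃* H) := by
  obtain ⟨n, hn⟩ : ∃ n, Nat.card C = n := ⟨_, rfl⟩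
  have h2 : 1 < n := hn ▸ Finite.one_lt_card
  obtain ⟨p, hp, hpn, hmod⟩ := Nat.exists_prime_gt_modEq_one n (show n ≠ 0 by omega)
  haveI : Fact p.Prime := ⟨hp⟩
  have hdvd : n ∣ Nat.card (ZMod p)ˣ := by
    rw [Nat.card_eq_fintype_card, ZMod.card_units p]
    exact (Nat.modEq_iff_dvd' hp.one_le).1 hmod.symm
  obtain ⟨z, hz⟩ := IsCyclic.exists_ofOrder_eq_natCard (α := (ZMod p)ˣ)
  have hζ : orderOf (z ^ (Nat.card (ZMod p)ˣ / n)) = n := by
    rw [← hz]; exact orderOf_pow_orderOf_div (orderOf_pos z).ne' (hz ▸ hdvd)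
  have e : C ≃* Subgroup.zpowers (z ^ (Nat.card (ZMod p)ˣ / n)) :=
    mulEquivOfCyclicCardEq (by rw [Nat.card_zpowers, hζ, hn])
  let φ : C →* MulAut (Multiplicative (ZMod p)) :=
    { toFun := fun c =>
        AddEquiv.toMultiplicative (DistribMulAction.toAddEquiv (ZMod p) ((e c : (ZMod p)ˣ)))
      map_one' := by ext x; simp
      map_mul' := fun a b => by ext x; simp [mul_smul] }
  obtain ⟨L, i1, i2, H, hH, he, -⟩ := Cfsg.Agent.H90.exists_fc_of_fpf φ (by
    intro c hc x hx
    have h1 : ((e c : (ZMod p)ˣ) : ZMod p) * Multiplicative.toAdd x = Multiplicative.toAdd x :=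
      congrArg Multiplicative.toAdd hx
    have h2 : ((e c : (ZMod p)ˣ) : ZMod p) ≠ 1 := fun h => hc
      (e.injective (Subtype.ext (by rw [map_one]; exact Units.ext (by simpa using h))))
    exact toAdd_eq_zero.1 (eq_zero_of_mul_eq_self_left h2 h1))
  exact ⟨L, i1, i2, H, hH, he⟩


end Cfsg.Agent.S4299
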