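import Cfsg.Statements.S4300


set_option autoImplicit false
open Cfsg

namespace Cfsg.Agent.S4300

/-- Let G act faithfully and primitively on a set X, and suppose the stabilizer of some point is a simple group. Then either G is simple, or G has a normal subgroup, neither trivial nor the whole group, that acts regularly on X (transitively with trivial point stabilizers). -/
theorem result {G : Type*} [Group G] {X : Type*} [MulAction G X] [FaithfulSMul G X]
    (hprim : MulAction.IsPreprimitive G X) (x : X) (hsimple : IsSimpleGroup (MulAction.stabilizer G x)) :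
    IsSimpleGroup G ∨ ∃ N : Subgroup G, N.Normal ∧ N ≠ ⊥ ∧ N ≠ ⊤ ∧
      MulAction.IsPretransitive N X ∧ ∀ y : X, MulAction.stabilizer N y = ⊥ := by
  haveI := hprim
  by_cases hs : IsSimpleGroup G
  · exact Or.inl hs
  right
  haveI : Nontrivial (MulAction.stabilizer G x) := hsimple.toNontrivial
  haveI : Nontrivial G := (MulAction.stabilizer G x).subtype_injective.nontrivial
  obtain ⟨N, hN, hNb, hNt⟩ : ∃ N : Subgroup G, N.Normal ∧ N ≠ ⊥ ∧ N ≠ ⊤ := by
    by_contra hcon
    simp only [not_exists, not_and] at hcon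
    exact hs ⟨fun H hH => (em (H = ⊥)).imp_right fun hb => not_not.1 (hcon H hH hb)⟩
  haveI := hN
  have hfix : MulAction.fixedPoints N X ≠ Set.univ := by
    intro h
    obtain ⟨g, hg, hg1⟩ := (Subgroup.ne_bot_iff_exists_ne_one.1 hNb).elim
      (fun g hg => (⟨g.1, g.2, fun h1 => hg (Subtype.ext h1)⟩ : ∃ g, g ∈ N ∧ g ≠ 1))
    refine hg1 (eq_of_smul_eq_smul fun y : X => ?_)
    rw [one_smul]
    have hy : y ∈ MulAction.fixedPoints N X := h ▸ Set.mem_univ y
    exact hy ⟨g, hg⟩
  have htr : MulAction.IsPretransitive N X :=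
    MulAction.IsQuasiPreprimitive.isPretransitive_of_normal hfix
  refine ⟨N, hN, hNb, hNt, htr, fun y => ?_⟩
  have hx : MulAction.stabilizer N x = ⊥ := by
    rcases hsimple.eq_bot_or_eq_top_of_normal (N.subgroupOf (MulAction.stabilizer G x))
      inferInstance with h | h
    · rw [Subgroup.eq_bot_iff_forall] at h ⊢
      rintro ⟨n, hn⟩ hnx
      exact Subtype.ext (congrArg Subtype.val (h ⟨n, hnx⟩ hn) :)
    · exfalso
      refine hNt (eq_top_iff.2 fun g _ => ?_)
      obtain ⟨n, hn⟩ := MulAction.exists_smul_eq N (g • x) x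
      have h1 : (n : G) * g ∈ MulAction.stabilizer G x := by
        rw [MulAction.mem_stabilizer_iff, mul_smul]; exact hn
      have h2 : (n : G) * g ∈ N := Subgroup.subgroupOf_eq_top.1 h h1
      simpa using N.mul_mem (N.inv_mem n.2) h2
  obtain ⟨n, rfl⟩ := MulAction.exists_smul_eq N x y
  rw [MulAction.stabilizer_smul_eq_stabilizer_map_conj, hx, Subgroup.map_bot]


end Cfsg.Agent.S4300
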