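import Cfsg.Statements.S4301


set_option autoImplicit false
open Cfsg

namespace Cfsg.Agent.S4301

/-- One-point extension of a multiply transitive group. Let X be a set and G a group of permutations of Option X (the set X with one extra point ∗ = none) all of whose elements fix ∗, such that G is k-transitive on the points of X for some k ≥ 2, X having at least k points. Suppose a permutation h of Option X and an element g of G satisfy: h interchanges ∗ with a point x of X and fixes a point y of X; g interchanges x and y; (g h)³ and h² lie in G; and for every f in G fixing x, the product h f h lies in G and fixes x. Then an element of the group generated by G and h fixes ∗ exactly when it lies in G, and that group acts (k+1)-transitively on Option X. -/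
theorem result {X : Type*} (G : Subgroup (Equiv.Perm (Option X))) (hfix : ∀ f ∈ G, f none = none)
    (k : ℕ) (hk : 2 ≤ k) (hkX : Nonempty (Fin k ↪ X))
    (htrans : ∀ a b : Fin k ↪ X, ∃ f ∈ G, ∀ i, f (some (a i)) = some (b i))
    (h g : Equiv.Perm (Option X)) (hg : g ∈ G) (x y : X)
    (h1 : h none = some x) (h2 : h (some x) = none) (h3 : h (some y) = some y)
    (h4 : g (some x) = some y) (h5 : g (some y) = some x)
    (h6 : (g * h) ^ 3 ∈ G) (h7 : h ^ 2 ∈ G)
    (h8 : ∀ f ∈ G, f (some x) = some x → h * f * h ∈ G ∧ (h * f * h) (some x) = some x) :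
    (∀ f ∈ Subgroup.closure ((G : Set (Equiv.Perm (Option X))) ∪ {h}), f none = none ↔ f ∈ G) ∧
      MulAction.IsMultiplyPretransitive (Subgroup.closure ((G : Set (Equiv.Perm (Option X))) ∪ {h})) (Option X) (k + 1) := by
  set K := Subgroup.closure ((G : Set (Equiv.Perm (Option X))) ∪ {h}) with hK
  have hxy : x ≠ y := by
    intro e
    rw [← e, h2] at h3
    exact Option.some_ne_none x h3.symm
  have hk0 : 0 < k := by omega
  -- transitivity on one and on two points
  have ext2 : ∀ z w : X, z ≠ w → ∃ a : Fin k ↪ X, a ⟨0, hk0⟩ = z ∧ a ⟨1, by omega⟩ = w := by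
    classical
    intro z w hzw
    obtain ⟨a⟩ := hkX
    set e1 := Equiv.swap (a ⟨0, hk0⟩) z
    refine ⟨a.trans (e1.trans (Equiv.swap (e1 (a ⟨1, by omega⟩)) w)).toEmbedding, ?_, ?_⟩
    · have hk1 : 1 < k := by omega
      have he : e1 (a ⟨1, hk1⟩) ≠ z := by
        intro e
        rw [← Equiv.swap_apply_left (a ⟨0, hk0⟩) z] at e
        have := a.injective (e1.injective e)
        simp at this
      simp [e1, Equiv.swap_apply_left, Equiv.swap_apply_of_ne_of_ne he.symm hzw]
    · simp [e1]
  have tr2 : ∀ z : X, z ≠ x → ∃ f ∈ G, f (some x) = some x ∧ f (some y) = some z := by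
    intro z hz
    obtain ⟨a, ha0, ha1⟩ := ext2 x y hxy
    obtain ⟨b, hb0, hb1⟩ := ext2 x z (Ne.symm hz)
    obtain ⟨f, hf, hfab⟩ := htrans a b
    exact ⟨f, hf, by simpa [ha0, hb0] using hfab ⟨0, hk0⟩,
      by simpa [ha1, hb1] using hfab ⟨1, by omega⟩⟩
  -- `h G h ⊆ G ∪ G h G`
  let S : Set (Equiv.Perm (Option X)) := {f | f ∈ G ∨ ∃ a ∈ G, ∃ b ∈ G, f = a * h * b}
  have hhinv : h⁻¹ = (h ^ 2)⁻¹ * h := by group
  have hghS : ∀ a ∈ G, ∀ b ∈ G, ∀ f ∈ S, a * f * b ∈ S := by
    rintro a ha b hb f (hf | ⟨c, hc, d, hd, rfl⟩)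
    · exact Or.inl (G.mul_mem (G.mul_mem ha hf) hb)
    · exact Or.inr ⟨a * c, G.mul_mem ha hc, d * b, G.mul_mem hd hb, by group⟩
  have hhgh : h * g * h ∈ S := by
    refine Or.inr ⟨g⁻¹ * (g * h) ^ 3 * (h ^ 2)⁻¹, ?_, g⁻¹, G.inv_mem hg, ?_⟩
    · exact G.mul_mem (G.mul_mem (G.inv_mem hg) h6) (G.inv_mem h7)
    · simp only [pow_succ, pow_zero, one_mul]
      group
  have hhfh : ∀ f ∈ G, h * f * h ∈ S := by
    intro f hf
    obtain ⟨z, hz⟩ : ∃ z, f (some x) = some z := by
      cases hfx : f (some x) with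
      | some z => exact ⟨z, rfl⟩
      | none =>
        rw [← hfix f hf] at hfx
        exact absurd (f.injective hfx) (Option.some_ne_none x)
    by_cases hzx : z = x
    · exact Or.inl (h8 f hf (hzx ▸ hz)).1
    obtain ⟨a, ha, hax, hay⟩ := tr2 z hzx
    set b := (a * g)⁻¹ * f with hb
    have hbG : b ∈ G := G.mul_mem (G.inv_mem (G.mul_mem ha hg)) hf
    have hbx : b (some x) = some x := by
      rw [hb, Equiv.Perm.mul_apply, hz, Equiv.Perm.inv_eq_iff_eq, Equiv.Perm.mul_apply, h4, hay]
    have e : h * f * h = (h * a * h * (h ^ 2)⁻¹) * (h * g * h) * ((h ^ 2)⁻¹ * (h * b * h)) := by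
      rw [hb]; group
    rw [e]
    exact hghS _ (G.mul_mem (h8 a ha hax).1 (G.inv_mem h7)) _
      (G.mul_mem (G.inv_mem h7) (h8 b hbG hbx).1) _ hhgh
  have hsub : ∀ f ∈ K, f ∈ S := by
    intro f hf
    induction hf using Subgroup.closure_induction with
    | mem f hf =>
      rcases hf with hf | hf
      · exact Or.inl hf
      · exact Or.inr ⟨1, G.one_mem, 1, G.one_mem, by simpa using hf⟩
    | one => exact Or.inl G.one_mem
    | mul f f' _ _ hf hf' =>
      rcases hf with hf | ⟨a, ha, b, hb, rfl⟩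
      · simpa using hghS f hf 1 G.one_mem _ hf'
      · rcases hf' with hf' | ⟨c, hc, d, hd, rfl⟩
        · exact Or.inr ⟨a, ha, b * f', G.mul_mem hb hf', by group⟩
        · have e : a * h * b * (c * h * d) = a * (h * (b * c) * h) * d := by group
          rw [e]
          exact hghS a ha d hd _ (hhfh _ (G.mul_mem hb hc))
    | inv f _ hf =>
      rcases hf with hf | ⟨a, ha, b, hb, rfl⟩
      · exact Or.inl (G.inv_mem hf)
      · exact Or.inr ⟨b⁻¹ * (h ^ 2)⁻¹, G.mul_mem (G.inv_mem hb) (G.inv_mem h7), a⁻¹, G.inv_mem ha,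
          by group⟩
  have hmain : ∀ f ∈ K, f none = none ↔ f ∈ G := by
    intro f hf
    refine ⟨fun hfn => ?_, hfix f⟩
    rcases hsub f hf with h' | ⟨a, ha, b, hb, rfl⟩
    · exact h'
    · exfalso
      rw [Equiv.Perm.mul_apply, Equiv.Perm.mul_apply, hfix b hb, h1] at hfn
      exact Option.some_ne_none x (a.injective (hfn.trans (hfix a ha).symm))
  refine ⟨hmain, ?_⟩
  have hGK : ∀ f ∈ G, f ∈ K := fun f hf => Subgroup.subset_closure (Or.inl hf)
  have hhK : h ∈ K := Subgroup.subset_closure (Or.inr rfl)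
  haveI : MulAction.IsPretransitive K (Option X) := by
    rw [MulAction.isPretransitive_iff_orbit_eq_univ (none : Option X)]
    refine Set.eq_univ_of_forall fun o => ?_
    cases o with
    | none => exact MulAction.mem_orbit_self _
    | some z =>
      by_cases hz : z = x
      · exact ⟨⟨h, hhK⟩, by simpa [hz, Subgroup.smul_def] using h1⟩
      · obtain ⟨a, ha0, -⟩ := ext2 x y hxy
        obtain ⟨b, hb0, -⟩ := ext2 z x hz
        obtain ⟨f, hf, hfab⟩ := htrans a b
        refine ⟨⟨f * h, K.mul_mem (hGK f hf) hhK⟩, ?_⟩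
        have := hfab ⟨0, hk0⟩
        rw [ha0, hb0] at this
        simp [Subgroup.smul_def, h1, this]
  rw [SubMulAction.ofStabilizer.isMultiplyPretransitive (a := (none : Option X)),
    MulAction.isMultiplyPretransitive_iff]
  intro a b
  have lift : ∀ c : Fin k ↪ SubMulAction.ofStabilizer K (none : Option X),
      ∃ c' : Fin k ↪ X, ∀ i, some (c' i) = (c i : Option X) := by
    intro c
    have hc : ∀ i, ∃ z : X, some z = (c i : Option X) := fun i => by
      cases e : (c i : Option X) with
      | some z => exact ⟨z, rfl⟩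
      | none => exact absurd e (c i).2
    choose c' hc' using hc
    exact ⟨⟨c', fun i j e => c.injective (Subtype.ext (by rw [← hc', ← hc', e]))⟩, hc'⟩
  obtain ⟨a', ha'⟩ := lift a
  obtain ⟨b', hb'⟩ := lift b
  obtain ⟨f, hf, hfab⟩ := htrans a' b'
  refine ⟨⟨⟨f, hGK f hf⟩, hfix f hf⟩, Function.Embedding.ext fun i => Subtype.ext ?_⟩
  change f (a i : Option X) = (b i : Option X)
  rw [← ha', ← hb', hfab]


end Cfsg.Agent.S4301
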