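import Cfsg.Statements.S4302
import Cfsg.Agent.H34.AbelianAction
import Cfsg.Agent.H34.StableClosure
import Cfsg.Agent.H72.ThompsonA
import Cfsg.Agent.H94.NormalSubgroupSystem
import Cfsg.Agent.H19.Fitting
import Cfsg.Agent.H20.Abelian
import Cfsg.Agent.H25.SolvablePSolvable
import Cfsg.Agent.H72.ThompsonAFaithful

set_option autoImplicit false
open Cfsg
open scoped Pointwise commutatorElement

namespace Cfsg.Agent.S4302

/-- Let `X` be a finite solvable group whose Fitting subgroup is a 2-group (equivalently `F(X) = O₂(X)`), `T` a Sylow 2-subgroup of `X`, `J(T)` the subgroup generated by the abelian subgroups of `T` of largest order, `C` the largest normal subgroup of `X` centralizing the centre `Z(T)`, and `Y` the normal closure of `J(T)` in `X`. Then `X = C · Y · N_X(J(T))`, and either `Y ≤ C`, or `CY/C` is isomorphic to a direct product of at least one copy of the symmetric group of degree 3. -/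
theorem result {X : Type*} [Group X] [Finite X]
    [Group.IsSolvable X] (hF : Cfsg.fittingSubgroup X = Cfsg.pCore 2 X) (T : Sylow 2 X) :
    ((Subgroup.centralizer (((T : Subgroup X) ⊓ Subgroup.centralizer ((T : Subgroup X) : Set X) : Subgroup X) : Set X)).normalCore
        ⊔ Subgroup.normalClosure (Cfsg.thompsonSubgroupAOf (T : Subgroup X) : Set X)
        ⊔ Subgroup.normalizer (Cfsg.thompsonSubgroupAOf (T : Subgroup X) : Set X) = ⊤) ∧
    (Subgroup.normalClosure (Cfsg.thompsonSubgroupAOf (T : Subgroup X) : Set X)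
        ≤ (Subgroup.centralizer (((T : Subgroup X) ⊓ Subgroup.centralizer ((T : Subgroup X) : Set X) : Subgroup X) : Set X)).normalCore
      ∨ ∃ n : ℕ, 1 ≤ n ∧
        Nonempty (↥(Subgroup.normalClosure (Cfsg.thompsonSubgroupAOf (T : Subgroup X) : Set X)) ⧸
            ((Subgroup.centralizer (((T : Subgroup X) ⊓ Subgroup.centralizer ((T : Subgroup X) : Set X) : Subgroup X) : Set X)).normalCore).subgroupOf
              (Subgroup.normalClosure (Cfsg.thompsonSubgroupAOf (T : Subgroup X) : Set X))
          ≃* (Fin n → Equiv.Perm (Fin 3)))) := by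
  classical
  haveI : Fact (Nat.Prime 2) := ⟨Nat.prime_two⟩
  set S : Subgroup X := (T : Subgroup X)
  set Z := S ⊓ Subgroup.centralizer (S : Set X)
  set C := (Subgroup.centralizer (Z : Set X)).normalCore
  set J := thompsonSubgroupAOf S
  set Y := Subgroup.normalClosure (J : Set X)
  haveI : C.Normal := Subgroup.normalCore_normal _
  haveI : Y.Normal := Subgroup.normalClosure_normal
  have hJS : J ≤ S := H72.thompsonSubgroupAOf_le S
  refine ⟨?_, ?_⟩
  · -- the Frattini argument
    obtain ⟨P, hP⟩ := H94.exists_sylow_inf_normal T Y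
    have hPm : (P : Subgroup Y).map Y.subtype = S ⊓ Y := by
      rw [hP, Subgroup.subgroupOf_map_subtype, inf_assoc, inf_idem]
    have hJY : J ≤ S ⊓ Y := le_inf hJS Subgroup.subset_normalClosure
    have hsame : thompsonSubgroupAOf (S ⊓ Y) = J := by
      simp only [J]
      rw [H72.thompsonSubgroupAOf_eq, H72.thompsonSubgroupAOf_eq]
      congr 1
      ext A
      obtain ⟨A₀, hA₀⟩ := H72.exists_isMaxAb S
      have hA₀' : A₀ ≤ S ⊓ Y := hA₀.le_thompson.trans hJY
      constructor
      · intro hA
        exact ⟨hA.1.trans inf_le_left, hA.2.1, fun B hB hBc =>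
          (hA₀.2.2 B hB hBc).trans (hA.2.2 A₀ hA₀' hA₀.2.1)⟩
      · intro hA
        exact ⟨hA.le_thompson.trans hJY, hA.2.1, fun B hB hBc => hA.2.2 B (hB.trans inf_le_left) hBc⟩
    have h1 : Subgroup.normalizer (((P : Subgroup Y).map Y.subtype : Subgroup X) : Set X) ⊔ Y = ⊤ :=
      Sylow.normalizer_sup_eq_top P
    rw [hPm] at h1
    refine top_unique (h1 ▸ sup_le ?_ (le_sup_right.trans le_sup_left))
    exact ((H72.normalizer_le_normalizer_thompsonSubgroupAOf (S ⊓ Y)).trans (by rw [hsame])).trans le_sup_right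
  · by_cases hYC : Y ≤ C
    · exact Or.inl hYC
    refine Or.inr ?_
    -- the abelian normal subgroup `⟨Z(T)^X⟩`
    set O := pCore 2 X
    haveI : O.Normal := H19.pCore_normal 2 X
    have hOc : Subgroup.centralizer (O : Set X) ≤ O := by
      have := H19.centralizer_fitting_le (G := X)
      rwa [hF] at this
    have hOS : O ≤ S := H19.pCore_le_sylow T
    set V₁ := Subgroup.normalClosure (Z : Set X)
    haveI : V₁.Normal := Subgroup.normalClosure_normal
    have hZC : Z ≤ Subgroup.centralizer (O : Set X) :=
      inf_le_right.trans (Subgroup.centralizer_le hOS)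
    have hV₁ : V₁ ≤ O ⊓ Subgroup.centralizer (O : Set X) :=
      Subgroup.normalClosure_le_normal (SetLike.coe_subset_coe.2 (le_inf (hZC.trans hOc) hZC))
    have hV₁S : V₁ ≤ S := (hV₁.trans inf_le_left).trans hOS
    haveI : IsMulCommutative V₁ := Subgroup.le_centralizer_iff_isMulCommutative.1
      ((hV₁.trans inf_le_right).trans (Subgroup.centralizer_le (hV₁.trans inf_le_left)))
    have hC : C = Subgroup.centralizer (V₁ : Set X) := by
      refine le_antisymm (Subgroup.le_centralizer_iff.1 (Subgroup.normalClosure_le_normal ?_))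
        (Subgroup.normal_le_normalCore.2 (Subgroup.centralizer_le Subgroup.subset_normalClosure))
      exact SetLike.coe_subset_coe.2 (Subgroup.le_centralizer_iff.1 (Subgroup.normalCore_le _))
    have hsmall : ∀ D : Subgroup X, D.Normal → IsPGroup 2 ↥(D.map (QuotientGroup.mk' C)) → D ≤ C := by
      intro D hD hDp
      haveI := hD
      refine Subgroup.normal_le_normalCore.2 ?_
      have hle : D.map (QuotientGroup.mk' C) ≤ S.map (QuotientGroup.mk' C) := by
        have h1 := (H19.le_pCore (hD.map _ (QuotientGroup.mk'_surjective C)) hDp).trans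
          (H19.pCore_le_sylow (T.mapSurjective (QuotientGroup.mk'_surjective C)))
        rwa [Sylow.coe_mapSurjective] at h1
      rw [Subgroup.map_le_iff_le_comap, Subgroup.comap_map_eq, QuotientGroup.ker_mk'] at hle
      exact hle.trans (sup_le (Subgroup.le_centralizer_iff.1 inf_le_right) (Subgroup.normalCore_le _))
    -- replace it by its elements of order two
    set W := omegaOne 2 V₁
    haveI : W.Normal := H34.omegaOne_normal inferInstance
    have hWV : W ≤ V₁ := H34.omegaOne_le _
    have hWe : IsElementaryAbelian 2 W := H34.omegaOne_isElementaryAbelian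
    have hV₁p : IsPGroup 2 V₁ := T.isPGroup'.to_le hV₁S
    have hCW : Subgroup.centralizer (W : Set X) = C := by
      refine le_antisymm (hsmall _ inferInstance ?_) (hC ▸ Subgroup.centralizer_le hWV)
      rintro ⟨_, x, hx, rfl⟩
      refine ⟨(orderOf x).factorization 2, Subtype.ext ?_⟩
      show (QuotientGroup.mk' C x) ^ 2 ^ (orderOf x).factorization 2 = 1
      rw [← map_pow, QuotientGroup.mk'_apply, QuotientGroup.eq_one_iff, hC]
      set d := x ^ 2 ^ (orderOf x).factorization 2
      obtain ⟨k, hk⟩ := IsPGroup.iff_card.1 hV₁p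
      refine H20.le_centralizer_of_fixes_prime_order ?_ ?_ ?_ (Subgroup.mem_zpowers d)
      · rw [Subgroup.normalizer_eq_top]; exact le_top
      · rw [Nat.card_zpowers, hk,
          orderOf_pow_of_dvd (pow_ne_zero _ two_ne_zero) (Nat.ordProj_dvd _ _)]
        exact ((Nat.coprime_ordCompl Nat.prime_two (orderOf_pos x).ne').symm).pow_right k
      · intro v hv hprime a ha
        have hv2 : orderOf v = 2 := by
          have : orderOf v ∣ 2 ^ k := hk ▸ V₁.orderOf_dvd_natCard hv
          exact (Nat.prime_dvd_prime_iff_eq hprime Nat.prime_two).1 (hprime.dvd_of_dvd_pow this)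
        have hvW : v ∈ W := H34.mem_omegaOne hv (hv2 ▸ pow_orderOf_eq_one v)
        have haC : a ∈ Subgroup.centralizer (W : Set X) :=
          (Subgroup.zpowers_le.2 (pow_mem hx _)) ha
        exact (Subgroup.mem_centralizer_iff.1 haC v hvW).symm
    -- the conjugates of the abelian subgroups of largest order
    set 𝒜 : Set (Subgroup X) := {A | ∃ g : X, ∃ A₀, H72.IsMaxAb S A₀ ∧ A = MulAut.conj g • A₀}
    have hY : Y = sSup 𝒜 := by
      haveI : (sSup 𝒜).Normal := ⟨fun n hn g => by
        have hle : sSup 𝒜 ≤ (sSup 𝒜).comap (MulAut.conj g).toMonoidHom := by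
          refine sSup_le ?_
          rintro _ ⟨h, A₀, hA₀, rfl⟩
          refine Subgroup.map_le_iff_le_comap.1 ?_
          refine le_sSup ⟨g * h, A₀, hA₀, ?_⟩
          rw [map_mul, mul_smul]
          rfl
        exact hle hn⟩
      refine le_antisymm (Subgroup.normalClosure_le_normal (SetLike.coe_subset_coe.2 ?_)) (sSup_le ?_)
      · simp only [J]
        rw [H72.thompsonSubgroupAOf_eq]
        exact sSup_le fun A hA => le_sSup ⟨1, A, hA, by rw [map_one, one_smul]⟩
      · rintro _ ⟨g, A₀, hA₀, rfl⟩ _ ⟨a, ha, rfl⟩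
        exact Subgroup.normalClosure_normal.conj_mem a (Subgroup.subset_normalClosure (hA₀.le_thompson ha)) g
    have hgood : ∀ A ∈ 𝒜, A.map (H34.holHom W) ∈ H34.goodOffenders W := by
      rintro _ ⟨g, A₀, hA₀, rfl⟩
      set φ := (MulAut.conj g).toMonoidHom
      have hinj : Function.Injective φ := (MulAut.conj g).injective
      have hWg : W.map φ = W :=
        H20.conj_smul_eq_of_mem_normalizer (by rw [Subgroup.normalizer_eq_top]; exact Subgroup.mem_top g)
      refine H34.map_mem_goodOffenders ((T.isPGroup'.to_le hA₀.1).map φ) ?_ fun B hB => ?_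
      · rintro _ ⟨a, ha, rfl⟩ _ ⟨b, hb, rfl⟩
        exact (hA₀.2.1 a ha b hb).map _
      · have hoff : ∀ B : Subgroup X, H34.offNum W (B.map φ) = H34.offNum W B := by
          intro B
          unfold H34.offNum
          rw [Subgroup.card_map_of_injective hinj]
          congr 1
          conv_lhs => rw [← hWg]
          rw [← H34.map_centralizer, ← Subgroup.map_inf _ _ _ hinj, Subgroup.card_map_of_injective hinj]
        have hB' : (B.comap φ).map φ = B :=
          Subgroup.map_comap_eq_self_of_surjective (MulAut.conj g).surjective B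
        change _ ≤ H34.offNum W (A₀.map φ)
        rw [← hB', hoff, hoff]
        refine hA₀.offNum_le (hWV.trans hV₁S) (fun v hv w hw => ?_) _ fun x hx => ?_
        · exact setLike_mul_comm (s := V₁) (hWV hv) (hWV hw)
        · obtain ⟨y, hy, hyx⟩ := hB hx
          exact hinj hyx ▸ hy
    have hO' : ∀ D : Subgroup X, D.Normal →
        IsPGroup 2 ↥(D.map (QuotientGroup.mk' (Subgroup.centralizer (W : Set X)))) →
        D ≤ Subgroup.centralizer (W : Set X) := by
      intro D hD hDp
      rw [hCW]
      refine hsmall D hD ?_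
      rintro ⟨_, x, hx, rfl⟩
      obtain ⟨k, hk⟩ := hDp ⟨_, x, hx, rfl⟩
      have h1 : (QuotientGroup.mk' (Subgroup.centralizer (W : Set X)) x) ^ 2 ^ k = 1 :=
        congrArg Subtype.val hk
      rw [← map_pow, QuotientGroup.mk'_apply, QuotientGroup.eq_one_iff, hCW] at h1
      refine ⟨k, Subtype.ext ?_⟩
      show (QuotientGroup.mk' C x) ^ 2 ^ k = 1
      rw [← map_pow, QuotientGroup.mk'_apply, QuotientGroup.eq_one_iff]
      exact h1
    obtain ⟨n, hn, ⟨e⟩⟩ := H34.exists_equiv_perm_three_of_good (H25.isPSolvable_of_isSolvable Nat.prime_two _ X rfl inferInstance)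
      hWe hO' Y 𝒜 hY hgood (by rwa [hCW])
    exact ⟨n, hn, ⟨(QuotientGroup.quotientMulEquivOfEq (by rw [hCW])).trans e⟩⟩

end Cfsg.Agent.S4302
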