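import Cfsg.Statements.S4306
import Cfsg.Agent.H90.PQ.Main

set_option autoImplicit false
open Cfsg

namespace Cfsg.Agent.S4306

/-- Let `A` be a non-abelian group of order `pq` with `p, q` distinct primes, acting by automorphisms on a finite solvable group `G` of order prime to `pq`, so that only the identity of `G` is fixed by all of `A`. Then `G` has Fitting height at most 2: there is a normal nilpotent subgroup `F` of `G` with `G/F` nilpotent. -/
theorem result {G A : Type*} [Group G] [Finite G]
    [Group.IsSolvable G] [Group A] [Finite A] [MulDistribMulAction A G] (p q : ℕ) (hp : p.Prime) (hq : q.Prime) (hpq : p ≠ q)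
    (hA : Nat.card A = p * q) (hAna : ¬ IsMulCommutative A) (hcop : (Nat.card G).Coprime (p * q))
    (hfpf : ∀ g : G, (∀ a : A, a • g = g) → g = 1) :
    ∃ F : Subgroup G, ∃ hF : F.Normal, Group.IsNilpotent ↥F ∧ Group.IsNilpotent (G ⧸ F) := by
  have key : ∀ a b : ℕ, a.Prime → b.Prime → a < b → Nat.card A = a * b →
      (Nat.card G).Coprime (a * b) →
      ∃ F : Subgroup G, ∃ hF : F.Normal, Group.IsNilpotent ↥F ∧ Group.IsNilpotent (G ⧸ F) := by
    intro a b ha hb hab hcard hco
    haveI := Fact.mk hb
    obtain ⟨x, hx⟩ := exists_prime_orderOf_dvd_card' (G := A) b (hcard ▸ dvd_mul_left b a)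
    have hQ : Nat.card (Subgroup.zpowers x) = b := by rw [Nat.card_zpowers, hx]
    have hidx : (Subgroup.zpowers x).index = a := by
      have h := (Subgroup.zpowers x).card_mul_index
      rw [hQ, hcard, mul_comm a b] at h
      exact Nat.eq_of_mul_eq_mul_left hb.pos h
    haveI : (Subgroup.zpowers x).Normal := by
      refine Subgroup.normal_of_index_eq_minFac_card ?_
      rw [hidx, hcard]
      refine le_antisymm ?_ (Nat.minFac_le_of_dvd ha.two_le (dvd_mul_right a b))
      have hne : a * b ≠ 1 := fun e => ha.ne_one (Nat.eq_one_of_mul_eq_one_right e)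
      rcases (Nat.minFac_prime hne).dvd_mul.mp (Nat.minFac_dvd (a * b)) with h | h
      · exact ((Nat.prime_dvd_prime_iff_eq (Nat.minFac_prime hne) ha).mp h).ge
      · exact hab.le.trans ((Nat.prime_dvd_prime_iff_eq (Nat.minFac_prime hne) hb).mp h).ge
    obtain ⟨F, hF, -, h1, h2⟩ := Cfsg.Agent.H90.PQ.exists_nilpotent_series (Subgroup.zpowers x)
      ha hb hab.ne hcard hQ (fun h => hAna ⟨⟨h⟩⟩) _ G (MulDistribMulAction.toMulAut A G) rfl hco
      hfpf
    exact ⟨F, hF, h1, h2⟩
  rcases hpq.lt_or_gt with h | h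
  · exact key p q hp hq h hA hcop
  · exact key q p hq hp h (by rw [hA, mul_comm]) (by rwa [mul_comm])

end Cfsg.Agent.S4306
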