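import Cfsg.Statements.S4309


set_option autoImplicit false
open Cfsg

namespace Cfsg.Agent.S4309

/-- Let `π` be a set of primes, `G` a finite group with a Hall `π`-subgroup `H` (every prime divisor of the order of `H` lies in `π` and no prime of `π` divides its index), and `A` a normal subgroup of `G`. Then `H ∩ A` is a Hall `π`-subgroup of `A` and the image of `H` in `G/A` is a Hall `π`-subgroup of `G/A`. -/
theorem result {G : Type*} [Group G] [Finite G] (π : Set ℕ)
    (H A : Subgroup G) [A.Normal] (hH : Cfsg.IsPiHall π H) :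
    Cfsg.IsPiHall π ((H ⊓ A).subgroupOf A) ∧ Cfsg.IsPiHall π (H.map (QuotientGroup.mk' A)) := by
  have hd : H.relIndex A ∣ H.index := by
    obtain ⟨c, hc⟩ := Subgroup.relIndex_dvd_index_of_normal A H
    have h1 := Subgroup.relIndex_mul_index (inf_le_right : H ⊓ A ≤ A)
    have h2 := Subgroup.relIndex_mul_index (inf_le_left : H ⊓ A ≤ H)
    rw [Subgroup.inf_relIndex_right] at h1
    rw [Subgroup.inf_relIndex_left, ← h1, hc] at h2
    refine ⟨c, ?_⟩
    have hpos : 0 < A.relIndex H := Nat.pos_of_ne_zero Subgroup.index_ne_zero_of_finite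
    apply Nat.eq_of_mul_eq_mul_left hpos
    linarith
  refine ⟨⟨fun p hp hd' => ?_, fun p hp hπ hd' => ?_⟩, ⟨fun p hp hd' => ?_, fun p hp hπ hd' => ?_⟩⟩
  · rw [Nat.card_congr (Subgroup.subgroupOfEquivOfLe (inf_le_right : H ⊓ A ≤ A)).toEquiv] at hd'
    exact hH.1 p hp (hd'.trans (Subgroup.card_dvd_of_le inf_le_left))
  · apply hH.2 p hp hπ
    rw [← Subgroup.relIndex, Subgroup.inf_relIndex_right] at hd'
    exact hd'.trans hd
  · exact hH.1 p hp (hd'.trans (H.card_map_dvd _))
  · exact hH.2 p hp hπ (hd'.trans (H.index_map_dvd (QuotientGroup.mk'_surjective A)))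


end Cfsg.Agent.S4309
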