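import Cfsg.Statements.S4314
import Mathlib

set_option autoImplicit false
open Cfsg

namespace Cfsg.Agent.S4314

/-- Let `G` be a finite group every conjugacy class of which has size 1 or a prime. Then either `G` is nilpotent of class at most 2, or `G/Z(G)` is a non-abelian group of order `pq` for distinct primes `p, q` (a Frobenius group of order `pq`). -/
theorem result {G : Type*} [Group G] [Finite G]
    (h : ∀ x : G, (Subgroup.centralizer ({x} : Set G)).index = 1 ∨ ((Subgroup.centralizer ({x} : Set G)).index).Prime) :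
    Subgroup.upperCentralSeries G 2 = ⊤ ∨
      ∃ p q : ℕ, p.Prime ∧ q.Prime ∧ p ≠ q ∧ Nat.card (G ⧸ Subgroup.center G) = p * q ∧ ¬ IsMulCommutative (G ⧸ Subgroup.center G) := by
  classical
  set cl := fun x : G => (Subgroup.centralizer ({x} : Set G)).index with hcl
  by_cases hn : ∀ x : G, (Subgroup.centralizer ({x} : Set G)).Normal
  · -- all centralisers are normal
    left
    have hcen : ∀ a b : G, a * b * a⁻¹ * b⁻¹ ∈ Subgroup.center G := by
      intro a b
      rw [Subgroup.mem_center_iff]
      intro x
      set C := Subgroup.centralizer ({x} : Set G) with hC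
      haveI := hn x
      have hcomm : ∀ u v : G ⧸ C, u * v = v * u := by
        rcases h x with e | e
        · haveI : Subsingleton (G ⧸ C) :=
            (Nat.card_eq_one_iff_unique.mp (show Nat.card (G ⧸ C) = 1 from e)).1
          exact fun u v => Subsingleton.elim _ _
        · haveI := Fact.mk e
          haveI : IsCyclic (G ⧸ C) := isCyclic_of_prime_card (p := C.index) rfl
          obtain ⟨g, hg⟩ := IsCyclic.exists_generator (α := G ⧸ C)
          intro u v
          obtain ⟨i, rfl⟩ := Subgroup.mem_zpowers_iff.mp (hg u)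
          obtain ⟨j, rfl⟩ := Subgroup.mem_zpowers_iff.mp (hg v)
          exact ((Commute.refl g).zpow_zpow i j).eq
      have hm : a * b * a⁻¹ * b⁻¹ ∈ C := by
        rw [← QuotientGroup.eq_one_iff, QuotientGroup.mk_mul, QuotientGroup.mk_mul,
          QuotientGroup.mk_mul, QuotientGroup.mk_inv, QuotientGroup.mk_inv,
          hcomm (QuotientGroup.mk a) (QuotientGroup.mk b), mul_inv_cancel_right, mul_inv_cancel]
      exact Subgroup.mem_centralizer_iff.mp hm x rfl
    refine (Subgroup.eq_top_iff' _).mpr fun a => ?_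
    rw [Subgroup.mem_upperCentralSeries_succ_iff]
    intro b
    rw [Subgroup.upperCentralSeries_one]
    simpa [commutatorElement_def] using hcen a b
  right
  simp only [not_forall] at hn
  obtain ⟨x, hx⟩ := hn
  set H := Subgroup.centralizer ({x} : Set G) with hH
  have hHp : H.index.Prime := (h x).resolve_left fun e => hx (by
    rw [show H = ⊤ from Subgroup.index_eq_one.mp e]; infer_instance)
  set p := H.index with hpdef
  haveI := Fact.mk hHp
  set f := MulAction.toPermHom G (G ⧸ H) with hf
  set K := f.ker with hK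
  have hKH : K ≤ H := fun k hk => by
    have h1 := Equiv.ext_iff.mp (MonoidHom.mem_ker.mp hk) (QuotientGroup.mk 1 : G ⧸ H)
    change k • (QuotientGroup.mk 1 : G ⧸ H) = QuotientGroup.mk 1 at h1
    rw [MulAction.Quotient.smul_mk, smul_eq_mul, mul_one, QuotientGroup.eq, mul_one] at h1
    exact inv_mem_iff.mp h1
  have hpX : Nat.card (G ⧸ H) = p := rfl
  have hKidx : K.index = Nat.card f.range := Subgroup.index_ker f
  have hpR : p ∣ Nat.card f.range := hKidx ▸ Subgroup.index_dvd_of_le hKH
  obtain ⟨⟨_, u, rfl⟩, hu⟩ := exists_prime_orderOf_dvd_card' (G := f.range) p hpR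
  rw [← Subgroup.orderOf_coe] at hu
  change orderOf (f u) = p at hu
  -- the element of order `p` is transitive
  have htrans : ∀ a b : G ⧸ H, ∃ i : ℤ, (f u ^ i) a = b := by
    obtain ⟨c, hc⟩ : ∃ c, f u c ≠ c := by
      by_contra hcon
      simp only [not_exists, not_not] at hcon
      rw [show f u = 1 from Equiv.ext hcon, orderOf_one] at hu
      exact hHp.ne_one hu.symm
    set O := MulAction.orbit (Subgroup.zpowers (f u)) c
    have hOd : Nat.card O ∣ p := by
      rw [Nat.card_congr (MulAction.orbitEquivQuotientStabilizer (Subgroup.zpowers (f u)) c)]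
      refine (Subgroup.card_quotient_dvd_card _).trans ?_
      rw [Nat.card_zpowers, hu]
    have hO : O = Set.univ := by
      refine Set.eq_univ_of_forall fun z => ?_
      rcases (Nat.dvd_prime hHp).mp hOd with e | e
      · have := (Nat.card_eq_one_iff_unique.mp e).1
        exact absurd (congrArg Subtype.val (Subsingleton.elim
          (⟨f u c, ⟨⟨f u, Subgroup.mem_zpowers _⟩, rfl⟩⟩ : O) ⟨c, MulAction.mem_orbit_self c⟩)) hc
      · by_contra hz
        have hlt : O.ncard < (Set.univ : Set (G ⧸ H)).ncard :=
          Set.ncard_lt_ncard (Set.ssubset_univ_iff.mpr fun he => hz (he ▸ Set.mem_univ z))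
            Set.finite_univ
        rw [Set.ncard_univ, ← Nat.card_coe_set_eq, e, hpX] at hlt
        exact lt_irrefl _ hlt
    intro a b
    obtain ⟨⟨_, i, rfl⟩, hi⟩ : a ∈ O := hO ▸ Set.mem_univ a
    obtain ⟨⟨_, j, rfl⟩, hj⟩ : b ∈ O := hO ▸ Set.mem_univ b
    refine ⟨j - i, ?_⟩
    change (f u ^ i) c = a at hi
    change (f u ^ j) c = b at hj
    rw [← hi, ← hj, ← Equiv.Perm.mul_apply, ← zpow_add, sub_add_cancel]
  -- centralisers in the image
  set D : G → Subgroup G := fun w => (Subgroup.centralizer ({f w} : Set _)).comap f with hD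
  have hmemD : ∀ w g, g ∈ D w ↔ f w * f g = f g * f w := fun w g => by
    simp [D, Subgroup.mem_comap, Subgroup.mem_centralizer_iff]
  have hKD : ∀ w, K ≤ D w := fun w k hk => by
    rw [hmemD, MonoidHom.mem_ker.mp hk, one_mul, mul_one]
  have hCD : ∀ w, Subgroup.centralizer ({w} : Set G) ≤ D w := fun w g hg => by
    rw [hmemD, ← map_mul, ← map_mul, Subgroup.mem_centralizer_iff.mp hg w rfl]
  have hD1 : ∀ w, (D w).index = 1 ∨ ((D w).index.Prime ∧ Subgroup.centralizer ({w} : Set G) = D w) := by
    intro w
    have hd := Subgroup.index_dvd_of_le (hCD w)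
    rcases h w with e | e
    · exact Or.inl (Nat.dvd_one.mp (e ▸ hd))
    · rcases (Nat.dvd_prime e).mp hd with e' | e'
      · exact Or.inl e'
      · refine Or.inr ⟨e'.symm ▸ e, le_antisymm (hCD w) ?_⟩
        refine Subgroup.relIndex_eq_one.mp ?_
        have hm := Subgroup.relIndex_mul_index (hCD w)
        rw [e'] at hm
        exact (Nat.mul_eq_right e.ne_zero).mp hm
  set b : G ⧸ H := QuotientGroup.mk 1
  have hDu : K.relIndex (D u) = p := by
    apply le_antisymm
    · rw [← hpX]
      refine Nat.card_le_card_of_injective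
        (fun g : D u ⧸ K.subgroupOf (D u) => f (g.out : D u) b) fun g g' hgg => ?_
      simp only at hgg
      rw [← g.out_eq', ← g'.out_eq', QuotientGroup.eq, Subgroup.mem_subgroupOf]
      refine MonoidHom.mem_ker.mpr (Equiv.ext fun z => ?_)
      obtain ⟨i, rfl⟩ := htrans b z
      have hc : ∀ g : D u, f g * f u ^ i = f u ^ i * f g := fun g =>
        ((show Commute (f u) (f g) from (hmemD u g).mp g.2).zpow_left i).eq.symm
      rw [Equiv.Perm.one_apply, ← Equiv.Perm.mul_apply, Subgroup.coe_mul, map_mul, Subgroup.coe_inv,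
        map_inv, mul_assoc, hc, Equiv.Perm.mul_apply, Equiv.Perm.mul_apply, Equiv.Perm.inv_eq_iff_eq,
        ← Equiv.Perm.mul_apply (f _) (f u ^ i), hc, Equiv.Perm.mul_apply, hgg]
    · have hmem : u ∈ D u := (hmemD u u).mpr rfl
      rw [← hu]
      haveI : (K.subgroupOf (D u)).Normal := inferInstance
      refine Nat.le_of_dvd Nat.card_pos ?_
      let e : D u →* Equiv.Perm (G ⧸ H) := f.comp (D u).subtype
      have h1 : orderOf (f u) = orderOf (e.rangeRestrict ⟨u, hmem⟩) := by
        rw [← Subgroup.orderOf_coe]; rfl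
      have h2 : Nat.card e.range = K.relIndex (D u) := by
        rw [← Subgroup.index_ker]; rfl
      rw [h1]
      exact (orderOf_dvd_natCard _).trans h2.dvd
  have hKmul : p * (D u).index = K.index := by rw [← hDu]; exact Subgroup.relIndex_mul_index (hKD u)
  have hr : (D u).index.Prime := by
    refine ((hD1 u).resolve_left fun e => hx ?_).1
    rw [e, mul_one] at hKmul
    have hKeq : K = H := by
      refine le_antisymm hKH (Subgroup.relIndex_eq_one.mp ?_)
      have := Subgroup.relIndex_mul_index hKH
      rw [← hKmul] at this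
      exact (Nat.mul_eq_right hHp.ne_zero).mp this
    rw [← hKeq]; infer_instance
  set r := (D u).index
  have hrp : p ≠ r := by
    intro e
    have h1 : K.index ∣ p.factorial := by
      rw [hKidx, ← hpX, ← Nat.card_perm]
      exact Subgroup.card_subgroup_dvd_card _
    rw [← hKmul, ← e] at h1
    obtain ⟨c, hc⟩ := h1
    obtain ⟨m, hm⟩ : ∃ m, p = m + 1 := ⟨p - 1, by have := hHp.one_le; omega⟩
    rw [hm, Nat.factorial_succ, ← hm, mul_assoc, Nat.mul_right_inj hHp.ne_zero] at hc
    exact absurd (hHp.dvd_factorial.mp ⟨c, hc⟩) (by omega)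
  have hZK : Subgroup.center G = K := by
    have hout : ∀ w, w ∉ K → ¬ (D w).index = 1 := by
      intro w hw e
      rw [Subgroup.index_eq_one] at e
      have hwu : u ∈ D w := e ▸ Subgroup.mem_top u
      have hwD : w ∈ D u := (hmemD u w).mpr ((hmemD w u).mp hwu).symm
      haveI : (K.subgroupOf (D u)).Normal := inferInstance
      have hcard : Nat.card (D u ⧸ K.subgroupOf (D u)) = p := hDu
      have hne : (QuotientGroup.mk (⟨w, hwD⟩ : D u) : D u ⧸ K.subgroupOf (D u)) ≠ 1 := fun e' =>
        hw (Subgroup.mem_subgroupOf.mp ((QuotientGroup.eq_one_iff _).mp e'))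
      obtain ⟨i, hi⟩ := Subgroup.mem_zpowers_iff.mp (mem_zpowers_of_prime_card hcard hne :
        (QuotientGroup.mk (⟨u, (hmemD u u).mpr rfl⟩ : D u) : D u ⧸ K.subgroupOf (D u)) ∈ _)
      rw [← QuotientGroup.mk_zpow, QuotientGroup.eq, Subgroup.mem_subgroupOf] at hi
      have hfu : f u = f w ^ i := by
        have := MonoidHom.mem_ker.mp hi
        simp only [Subgroup.coe_mul, Subgroup.coe_inv, SubgroupClass.coe_zpow, map_mul, map_inv,
          map_zpow, inv_mul_eq_one] at this
        exact this.symm
      refine hr.ne_one (Subgroup.index_eq_one.mpr ((Subgroup.eq_top_iff' _).mpr fun g => ?_))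
      rw [hmemD, hfu]
      exact ((show Commute (f w) (f g) from (hmemD w g).mp (e ▸ Subgroup.mem_top g)).zpow_left i).eq
    refine le_antisymm (fun z hz => ?_) (fun k hk => ?_)
    · by_contra hzK
      refine hout z hzK (Subgroup.index_eq_one.mpr ((Subgroup.eq_top_iff' _).mpr fun g => ?_))
      rw [hmemD, ← map_mul, ← map_mul, Subgroup.mem_center_iff.mp hz g]
    · rw [Subgroup.mem_center_iff]
      have hnt : ∀ g, g ∉ K → g * k = k * g := fun g hg => by
        have := ((hD1 g).resolve_left (hout g hg)).2.ge (hKD g hk)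
        exact Subgroup.mem_centralizer_iff.mp this g rfl
      intro g
      by_cases hg : g ∈ K
      · have huK : u ∉ K := fun e => by
          rw [MonoidHom.mem_ker.mp e, orderOf_one] at hu
          exact hHp.ne_one hu.symm
        have h1 := hnt _ huK
        have h2 := hnt (g * u) fun e => huK (by simpa using K.mul_mem (K.inv_mem hg) e)
        rw [mul_assoc, h1, ← mul_assoc, ← mul_assoc] at h2
        exact mul_right_cancel h2
      · exact hnt g hg
  refine ⟨p, r, hHp, hr, hrp, ?_, fun hab => hr.ne_one (Subgroup.index_eq_one.mpr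
    ((Subgroup.eq_top_iff' _).mpr fun g => ?_))⟩
  · change (Subgroup.center G).index = p * r
    rw [hZK, hKmul]
  · have he := hab.1.1 (QuotientGroup.mk u : G ⧸ Subgroup.center G) (QuotientGroup.mk g)
    rw [← QuotientGroup.mk_mul, ← QuotientGroup.mk_mul, QuotientGroup.eq, hZK, MonoidHom.mem_ker,
      map_mul, map_inv, inv_mul_eq_one, map_mul, map_mul] at he
    exact (hmemD u g).mpr he

end Cfsg.Agent.S4314
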