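import Cfsg.Statements.S4316
import Cfsg.Agent.H62.DerivedBound.Main

set_option autoImplicit false
universe u
open Cfsg

namespace Cfsg.Agent.S4316

/-- There is a function `f` of two natural-number arguments with the following property. Let `q` be a prime and `A` an elementary abelian group of order `q³` acting by automorphisms on a finite group `G` of order prime to `q`, and suppose that for every non-identity `a ∈ A` the derived subgroup of the fixed-point subgroup `C_G(a)` has order at most `m`. Then the derived subgroup of `G` has order at most `f(q, m)`. -/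
theorem result :
    ∃ f : ℕ → ℕ → ℕ, ∀ (q m : ℕ) (A G : Type u) [Group A] [Finite A] [Group G] [Finite G] [MulDistribMulAction A G],
      q.Prime → Nat.card A = q ^ 3 → (∀ a b : A, a * b = b * a) → (∀ a : A, a ^ q = 1) → ¬ q ∣ Nat.card G →
      (∀ a : A, a ≠ 1 → Nat.card ↥(commutator ↥(FixedPoints.subgroup (Subgroup.zpowers a) G)) ≤ m) →
      Nat.card ↥(commutator G) ≤ f q m := by
  refine ⟨fun q m => Cfsg.Agent.H62.DB.finalBound q m, ?_⟩
  intro q m A G _ _ _ _ _ hq hA hcomm he hcop hm
  have hmem : ∀ (a : A) (x : G), x ∈ FixedPoints.subgroup (Subgroup.zpowers a) G ↔ a • x = x := by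
    intro a x
    constructor
    · exact fun h => h ⟨a, Subgroup.mem_zpowers a⟩
    · rintro h ⟨b, hb⟩
      have : Subgroup.zpowers a ≤ MulAction.stabilizer A x :=
        Subgroup.zpowers_le.mpr h
      exact this hb
  refine Cfsg.Agent.H62.DB.derived_card_le hq hA hcomm he G (MulDistribMulAction.toMulAut A G) ?_
    (fun a => FixedPoints.subgroup (Subgroup.zpowers a) G) (fun a x => hmem a x) fun a ha => ?_
  · rw [hA]
    exact Nat.Coprime.pow_left 3 (hq.coprime_iff_not_dvd.mpr hcop)
  · refine le_trans (le_of_eq ?_) (hm a ha)
    rw [← Subgroup.map_subtype_commutator]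
    exact Subgroup.card_subtype _ _

end Cfsg.Agent.S4316
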