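import Cfsg.Statements.S4321
import Cfsg.Agent.H90.SingularClass.Link
open Cfsg.Agent.H90.SingularClass

set_option autoImplicit false
open Cfsg

namespace Cfsg.Agent.S4321

/-- Let `G` be a finite group and `p` a prime not dividing the order of the centre of `G`. Consider the primes dividing the size of some conjugacy class of a `p`-singular element (an element of order divisible by `p`), two of them adjacent when their product divides such a class size. Then any two distinct such primes are joined by a path with at most 3 edges (the graph is connected of diameter at most 3). -/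
theorem result {G : Type*} [Group G] [Finite G] (p : ℕ) [Fact p.Prime]
    (hZ : ¬ p ∣ Nat.card ↥(Subgroup.center G)) (r s : ℕ) (hr : (r.Prime ∧ ∃ x : G, p ∣ orderOf x ∧ r ∣ (Subgroup.centralizer ({x} : Set G)).index)) (hs : (s.Prime ∧ ∃ x : G, p ∣ orderOf x ∧ s ∣ (Subgroup.centralizer ({x} : Set G)).index)) (hrs : r ≠ s) :
    (∃ x : G, p ∣ orderOf x ∧ r * s ∣ (Subgroup.centralizer ({x} : Set G)).index) ∨ (∃ t : ℕ, (t.Prime ∧ ∃ x : G, p ∣ orderOf x ∧ t ∣ (Subgroup.centralizer ({x} : Set G)).index) ∧ t ≠ r ∧ t ≠ s ∧ (∃ x : G, p ∣ orderOf x ∧ r * t ∣ (Subgroup.centralizer ({x} : Set G)).index) ∧ (∃ x : G, p ∣ orderOf x ∧ t * s ∣ (Subgroup.centralizer ({x} : Set G)).index)) ∨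
      (∃ t u : ℕ, (t.Prime ∧ ∃ x : G, p ∣ orderOf x ∧ t ∣ (Subgroup.centralizer ({x} : Set G)).index) ∧ (u.Prime ∧ ∃ x : G, p ∣ orderOf x ∧ u ∣ (Subgroup.centralizer ({x} : Set G)).index) ∧ t ≠ r ∧ u ≠ s ∧ t ≠ u ∧ (∃ x : G, p ∣ orderOf x ∧ r * t ∣ (Subgroup.centralizer ({x} : Set G)).index) ∧ (∃ x : G, p ∣ orderOf x ∧ t * u ∣ (Subgroup.centralizer ({x} : Set G)).index) ∧ (∃ x : G, p ∣ orderOf x ∧ u * s ∣ (Subgroup.centralizer ({x} : Set G)).index)) := by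
  obtain ⟨hrp, y1, hy1, hr1⟩ := hr
  obtain ⟨hsp, y2, hy2, hs2⟩ := hs
  have hfact := (Fact.out : p.Prime)
  let R : ℕ → ℕ → Prop := fun a b =>
    ∃ x : G, p ∣ orderOf x ∧ a * b ∣ (Subgroup.centralizer ({x} : Set G)).index
  let V : ℕ → Prop := fun a =>
    a.Prime ∧ ∃ x : G, p ∣ orderOf x ∧ a ∣ (Subgroup.centralizer ({x} : Set G)).index
  change R r s ∨ (∃ t, V t ∧ t ≠ r ∧ t ≠ s ∧ R r t ∧ R t s) ∨
    (∃ t u, V t ∧ V u ∧ t ≠ r ∧ u ≠ s ∧ t ≠ u ∧ R r t ∧ R t u ∧ R u s)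
  have hadj : ∀ (x : G) (a b : ℕ), p ∣ orderOf x → a.Prime → b.Prime → a ≠ b → a ∣ cs x → b ∣ cs x →
      R a b := fun x a b hx ha hb hab h1 h2 =>
    ⟨x, hx, ((Nat.coprime_primes ha hb).mpr hab).mul_dvd_of_dvd_of_dvd h1 h2⟩
  obtain ⟨w, hw, t, u, ht, hu, ht1, htw, huw, hu2⟩ : ∃ w : G, p ∣ orderOf w ∧ ∃ t u : ℕ, t.Prime ∧
      u.Prime ∧ t ∣ cs y1 ∧ t ∣ cs w ∧ u ∣ cs w ∧ u ∣ cs y2 := by
    have hmk : ∀ y : G, p ∣ orderOf y → ∃ x : G, orderOf x = p ∧ cs x ∣ cs y :=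
      fun y hy => ⟨y ^ (orderOf y / p), orderOf_pow_orderOf_div (orderOf_pos y).ne' hy, cs_pow_dvd _ _⟩
    obtain ⟨x1, hx1, hd1⟩ := hmk y1 hy1
    obtain ⟨x2, hx2, hd2⟩ := hmk y2 hy2
    have hnc : ∀ x : G, orderOf x = p → x ∉ Subgroup.center G := fun x hx hc => hZ (by
      rw [← hx, show orderOf x = orderOf (⟨x, hc⟩ : Subgroup.center G) from
        Subgroup.orderOf_coe (⟨x, hc⟩ : Subgroup.center G)]
      exact orderOf_dvd_natCard _)
    by_cases hmeet : (cs x1).Coprime (cs x2)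
    swap
    · obtain ⟨q, hq, hq1, hq2⟩ := Nat.Prime.not_coprime_iff_dvd.mp hmeet
      exact ⟨x1, dvd_of_eq hx1.symm, q, q, hq, hq, hq1.trans hd1, hq1, hq1, hq2.trans hd2⟩
    -- conjugate so that the two elements commute
    obtain ⟨g, hg⟩ : ∃ g : G, Commute x1 (g * x2 * g⁻¹) := by
      have hpg : ∀ x : G, orderOf x = p → IsPGroup p (Subgroup.zpowers x) := fun x hx =>
        IsPGroup.of_card (n := 1) (by rw [Nat.card_zpowers, hx, pow_one])
      have key : ∀ a b : G, orderOf a = p → ¬ p ∣ cs b → ∃ g, Commute a (g * b * g⁻¹) := by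
        intro a b ha hb
        obtain ⟨P, -, hP⟩ := exists_sylow_le (H := Subgroup.centralizer ({b} : Set G)) hb
          (Q := (⊥ : Subgroup G)) IsPGroup.of_bot bot_le
        obtain ⟨Q, hQ⟩ := (hpg a ha).exists_le_sylow
        obtain ⟨g, hg⟩ := MulAction.exists_smul_eq G Q P
        refine ⟨g⁻¹, ?_⟩
        have h1 : g * a * g⁻¹ ∈ (P : Subgroup G) := by
          rw [← hg, Sylow.coe_subgroup_smul]
          exact ⟨a, hQ (Subgroup.mem_zpowers a), rfl⟩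
        have h2 := (Commute.conj_iff g⁻¹).mpr (mem_cent.mp (hP h1))
        rwa [show g⁻¹ * (g * a * g⁻¹) * g⁻¹⁻¹ = a by group] at h2
      by_cases hp2 : p ∣ cs x2
      · have hp1 : ¬ p ∣ cs x1 := fun h => hfact.ne_one (Nat.eq_one_of_dvd_coprimes hmeet h hp2)
        obtain ⟨g, hg⟩ := key x2 x1 hx2 hp1
        refine ⟨g⁻¹, ?_⟩
        have h2 := (Commute.conj_iff g⁻¹).mpr hg.symm
        rwa [show g⁻¹ * (g * x1 * g⁻¹) * g⁻¹⁻¹ = x1 by group] at h2
      · exact key x1 x2 hx1 hp2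
    set z := g * x2 * g⁻¹ with hz
    have hzo : orderOf z = p := by
      rw [hz, ← MulAut.conj_apply, MulEquiv.orderOf_eq]; exact hx2
    have hcz : cs z = cs x2 := cs_conj g x2
    obtain ⟨w, hw, hwx, hwz⟩ : ∃ w : G, p ∣ orderOf w ∧ ¬ (cs w).Coprime (cs x1) ∧
        ¬ (cs w).Coprime (cs z) := by
      have hcop : (cs x1).Coprime (cs z) := hcz ▸ hmeet
      by_cases h1 : (cs (x1 * z)).Coprime (cs z)
      · exact link_of_shift hx1 hzo hg (hnc z hzo) hcop h1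
      by_cases h2 : (cs (x1 * z)).Coprime (cs x1)
      · obtain ⟨w, hw, ha, hb⟩ := link_of_shift hzo hx1 hg.symm (hnc x1 hx1) hcop.symm (hg.eq ▸ h2)
        exact ⟨w, hw, hb, ha⟩
      refine ⟨x1 * z, ?_, h2, h1⟩
      have hpow : (x1 * z) ^ p = 1 := by
        rw [hg.mul_pow]
        nth_rw 1 [← hx1]
        rw [pow_orderOf_eq_one, ← hzo, pow_orderOf_eq_one, one_mul]
      rw [orderOf_eq_prime hpow fun e => ?_]
      have hcs : cs x1 ∣ cs z := cs_dvd_of_commute_imp fun a ha => by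
        rw [eq_inv_of_mul_eq_one_left e]; exact ha.inv_right
      exact cs_ne_one (hnc x1 hx1) (Nat.eq_one_of_dvd_coprimes hcop dvd_rfl hcs)
    obtain ⟨t, ht, htw, ht1⟩ := Nat.Prime.not_coprime_iff_dvd.mp hwx
    obtain ⟨u, hu, huw, hu2⟩ := Nat.Prime.not_coprime_iff_dvd.mp hwz
    exact ⟨w, hw, t, u, ht, hu, ht1.trans hd1, htw, huw, (hcz ▸ hu2).trans hd2⟩
  by_cases hru : u = r
  · exact Or.inl (hadj y2 r s hy2 hrp hsp hrs (hru ▸ hu2) hs2)
  by_cases hts : t = s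
  · exact Or.inl (hadj y1 r s hy1 hrp hsp hrs hr1 (hts ▸ ht1))
  have hVt : V t := ⟨ht, w, hw, htw⟩
  have hVu : V u := ⟨hu, w, hw, huw⟩
  by_cases htr : t = r
  · by_cases hus : u = s
    · exact Or.inl (hadj w r s hw hrp hsp hrs (htr ▸ htw) (hus ▸ huw))
    exact Or.inr (Or.inl ⟨u, hVu, hru, hus, hadj w r u hw hrp hu (Ne.symm hru) (htr ▸ htw) huw,
      hadj y2 u s hy2 hu hsp hus hu2 hs2⟩)
  by_cases hus : u = s
  · exact Or.inr (Or.inl ⟨t, hVt, htr, hts, hadj y1 r t hy1 hrp ht (Ne.symm htr) hr1 ht1,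
      hadj w t s hw ht hsp hts htw (hus ▸ huw)⟩)
  by_cases htu : t = u
  · exact Or.inr (Or.inl ⟨t, hVt, htr, hts, hadj y1 r t hy1 hrp ht (Ne.symm htr) hr1 ht1,
      hadj y2 t s hy2 ht hsp hts (htu ▸ hu2) hs2⟩)
  exact Or.inr (Or.inr ⟨t, u, hVt, hVu, htr, hus, htu,
    hadj y1 r t hy1 hrp ht (Ne.symm htr) hr1 ht1, hadj w t u hw ht hu htu htw huw,
    hadj y2 u s hy2 hu hsp hus hu2 hs2⟩)

end Cfsg.Agent.S4321
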