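import Cfsg.Statements.S4323
import Cfsg.Agent.H77.CentralizerSquare.Reduction
import Mathlib.GroupTheory.SemidirectProduct

set_option autoImplicit false
open Cfsg

namespace Cfsg.Agent.S4323

/-- Let `q` be a prime and `A` a non-cyclic group of order `q²` acting by automorphisms on a finite group `G` of order prime to `q`, such that the fixed-point subgroup `C_G(a)` is abelian for every non-identity `a ∈ A`. Then `G` is solvable. -/
theorem result {A G : Type*} [Group A] [Finite A]
    [Group G] [Finite G] [MulDistribMulAction A G] (q : ℕ) (hq : q.Prime) (hA : Nat.card A = q ^ 2) (hnc : ¬ IsCyclic A)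
    (hcop : ¬ q ∣ Nat.card G) (h : ∀ a : A, a ≠ 1 → IsMulCommutative ↥(FixedPoints.subgroup (Subgroup.zpowers a) G)) :
    Group.IsSolvable G := by
  let φ : A →* MulAut G := MulDistribMulAction.toMulAut A G
  let Γ := G ⋊[φ] A
  haveI : Finite Γ := Finite.of_equiv _ SemidirectProduct.equivProd.symm
  let iG : G →* Γ := SemidirectProduct.inl
  let iA : A →* Γ := SemidirectProduct.inr
  have hGi : Function.Injective iG := SemidirectProduct.inl_injective
  have hAi : Function.Injective iA := SemidirectProduct.inr_injective
  have hcardA : Nat.card iA.range = q ^ 2 :=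
    (Nat.card_congr (MonoidHom.ofInjective hAi).toEquiv).symm.trans hA
  haveI := Fact.mk hq
  have hH : H77.CentSq.Hyp q iA.range iG.range := by
    refine
      { prime := hq
        comm := IsMulCommutative.of_comm (IsPGroup.commutative_of_card_eq_prime_sq hcardA)
        card := hcardA
        notCyclic := fun hc => hnc ((MonoidHom.ofInjective hAi).isCyclic.mpr hc)
        norm := ?_
        cop := ?_
        abelian := ?_ }
    · rw [Subgroup.le_normalizer_iff]
      rintro _ ⟨a, rfl⟩ _ ⟨g, rfl⟩
      refine ⟨φ a g, ?_⟩
      show SemidirectProduct.inl (φ a g) = _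
      rw [SemidirectProduct.inl_aut, map_inv]
    · rw [hcardA, ← Nat.card_congr (MonoidHom.ofInjective hGi).toEquiv]
      exact Nat.Coprime.pow_left 2 (hq.coprime_iff_not_dvd.mpr hcop)
    · rintro _ ⟨a, rfl⟩ ha1 x hx y hy
      have ha : a ≠ 1 := fun e => ha1 (by rw [e, map_one])
      have key : ∀ z ∈ H77.CentSq.cen iG.range (iA a),
          ∃ g : FixedPoints.subgroup (Subgroup.zpowers a) G, iG g = z := by
        intro z hz
        obtain ⟨⟨g, rfl⟩, hfix⟩ := H77.CentSq.mem_cen.mp hz
        have hg : a • g = g := hGi (show SemidirectProduct.inl (φ a g) = iG g by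
          rw [SemidirectProduct.inl_aut, map_inv]
          exact mul_inv_eq_iff_eq_mul.mpr hfix)
        exact ⟨⟨g, fun b => Subgroup.zpowers_le.mpr (show a ∈ MulAction.stabilizer A g from hg) b.2⟩, rfl⟩
      obtain ⟨u, rfl⟩ := key x hx
      obtain ⟨v, rfl⟩ := key y hy
      haveI := h a ha
      rw [← map_mul, ← map_mul]
      exact congrArg iG (congrArg Subtype.val (mul_comm' u v))
  haveI := hH.isSolvable
  exact Group.isSolvable_of_surjective (f := (MonoidHom.ofInjective hGi).symm.toMonoidHom)
    (MonoidHom.ofInjective hGi).symm.surjective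

end Cfsg.Agent.S4323
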