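import Cfsg.Statements.S4421

set_option autoImplicit false
open Cfsg

namespace Cfsg.Agent.S4421

/-- A factorization of a normalizer from two-step control of fusion. Let `G` be a finite group and `A ≤ S ≤ H` subgroups of `G` such that: (i) `S` controls the `G`-fusion of `A` in the sense that every `G`-conjugate of `A` lying in `S` is an `S`-conjugate of `A`; (ii) `H` controls the `G`-fusion of `S` in the same sense; (iii) every conjugate of `S` by an element of the normalizer of `A` lies in `H`. Then `N_G(A) = N_H(A) · (N_G(S) ∩ N_G(A))`: every element of the normalizer of `A` is a product of an element of `H` normalizing `A` and an element normalizing both `S` and `A`. -/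
theorem result {G : Type*} [Group G] [Finite G] (A S H : Subgroup G)
    (hAS : A ≤ S) (hSH : S ≤ H)
    (h1 : ∀ g : G, A.map (MulAut.conj g).toMonoidHom ≤ S → ∃ s ∈ S, A.map (MulAut.conj g).toMonoidHom = A.map (MulAut.conj s).toMonoidHom)
    (h2 : ∀ g : G, S.map (MulAut.conj g).toMonoidHom ≤ H → ∃ y ∈ H, S.map (MulAut.conj g).toMonoidHom = S.map (MulAut.conj y).toMonoidHom)
    (h3 : ∀ x ∈ Subgroup.normalizer (A : Set G), S.map (MulAut.conj x).toMonoidHom ≤ H) :
    ∀ x ∈ Subgroup.normalizer (A : Set G), ∃ y ∈ H ⊓ Subgroup.normalizer (A : Set G),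
      ∃ z ∈ Subgroup.normalizer (S : Set G) ⊓ Subgroup.normalizer (A : Set G), x = y * z := by
  intro x hx
  have hmap : ∀ (g : G) (K : Subgroup G) (a : G), a ∈ K.map (MulAut.conj g).toMonoidHom ↔ g⁻¹ * a * g ∈ K := by
    intro g K a
    constructor
    · rintro ⟨k, hk, rfl⟩
      simpa [mul_assoc] using hk
    · exact fun h => ⟨_, h, by simp [mul_assoc]⟩
  obtain ⟨y0, hy0, hy⟩ := h2 x (h3 x hx)
  have hz0 : ∀ a, a ∈ S ↔ (y0⁻¹ * x) * a * (y0⁻¹ * x)⁻¹ ∈ S := by
    intro a
    have := SetLike.ext_iff.1 hy (x * a * x⁻¹)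
    rw [hmap, hmap] at this
    simp only [mul_assoc, inv_mul_cancel_left, mul_inv_rev, inv_inv, inv_mul_cancel, mul_one] at this ⊢
    exact this
  have hxA := Subgroup.mem_normalizer_iff.1 hx
  have hle : A.map (MulAut.conj y0⁻¹).toMonoidHom ≤ S := by
    intro a ha
    rw [hmap, inv_inv] at ha
    have h := (hz0 (x⁻¹ * (y0 * a * y0⁻¹) * x)).1 (hAS ((hxA _).2 (by simpa [mul_assoc] using ha)))
    simpa [mul_assoc] using h
  obtain ⟨s, hs, hse⟩ := h1 _ hle
  have hys : y0 * s ∈ Subgroup.normalizer (A : Set G) := by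
    rw [Subgroup.mem_normalizer_iff]
    intro a
    have h := SetLike.ext_iff.1 hse (s * a * s⁻¹)
    rw [hmap, hmap, inv_inv] at h
    simp only [mul_assoc, inv_mul_cancel_left, mul_inv_rev, inv_mul_cancel, mul_one] at h ⊢
    exact h.symm
  refine ⟨y0 * s, ⟨mul_mem hy0 (hSH hs), hys⟩, (y0 * s)⁻¹ * x,
    ⟨?_, (Subgroup.normalizer (A : Set G)).mul_mem ((Subgroup.normalizer (A : Set G)).inv_mem hys) hx⟩, by group⟩
  have e : (y0 * s)⁻¹ * x = s⁻¹ * (y0⁻¹ * x) := by group
  rw [e]
  exact (Subgroup.normalizer (S : Set G)).mul_mem (Subgroup.le_normalizer (S.inv_mem hs)) (Subgroup.mem_normalizer_iff.2 hz0)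

end Cfsg.Agent.S4421
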