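import Cfsg.Statements.S4422

set_option autoImplicit false
open Cfsg

namespace Cfsg.Agent.S4422

/-- Primitive divisors of `q^e - 1` are congruent to 1 modulo `e`. Let `q ≥ 2` and `e ≥ 1` be natural numbers and let `m` be a divisor of `q^e - 1` that is coprime to `q^i - 1` for every `1 ≤ i < e` (so `m` divides the primitive part of `q^e - 1`, the largest such divisor). Then `m ≡ 1 (mod e)`. -/
theorem result (q e m : ℕ) (hq : 2 ≤ q) (he : 1 ≤ e)
    (hm : m ∣ q ^ e - 1) (hcop : ∀ i : ℕ, 1 ≤ i → i < e → Nat.Coprime m (q ^ i - 1)) :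
    m % e = 1 % e := by
  rcases eq_or_lt_of_le he with rfl | he1
  · simp [Nat.mod_one]
  have key : ∀ d : ℕ, d ∣ m → d % e = 1 % e := by
    intro d
    induction d using Nat.recOnMul with
    | zero =>
      intro h
      rw [Nat.zero_dvd] at h; subst h
      rw [Nat.zero_dvd] at hm
      have : q ^ 1 < q ^ e := Nat.pow_lt_pow_right (by omega) he1
      rw [pow_one] at this; omega
    | one => intro _; rfl
    | prime p hp =>
      intro hpm
      haveI : Fact p.Prime := ⟨hp⟩
      have hdvd : ∀ i, p ∣ q ^ i - 1 ↔ (q : ZMod p) ^ i = 1 := by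
        intro i
        rw [← ZMod.natCast_eq_zero_iff (q ^ i - 1) p, Nat.cast_sub (Nat.one_le_pow _ _ (by omega)),
          sub_eq_zero]
        simp
      have h1 : (q : ZMod p) ^ e = 1 := (hdvd e).1 (hpm.trans hm)
      have ho : orderOf (q : ZMod p) = e := by
        rw [orderOf_eq_iff (by omega)]
        refine ⟨h1, fun i hi hi0 hc => ?_⟩
        exact Nat.Prime.not_coprime_iff_dvd.2 ⟨p, hp, hpm, (hdvd i).2 hc⟩ (hcop i hi0 hi)
      have hne : (q : ZMod p) ≠ 0 := by
        intro h0; rw [h0, zero_pow (by omega)] at h1; exact zero_ne_one h1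
      have h2 : e ∣ p - 1 := ho ▸ orderOf_dvd_of_pow_eq_one (ZMod.pow_card_sub_one_eq_one hne)
      exact ((Nat.modEq_iff_dvd' hp.one_le).2 h2).symm
    | mul a b iha ihb =>
      intro h
      rw [Nat.mul_mod, iha (dvd_trans (dvd_mul_right a b) h), ihb (dvd_trans (dvd_mul_left b a) h),
        ← Nat.mul_mod]
  exact key m dvd_rfl

end Cfsg.Agent.S4422
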