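import Cfsg.Statements.S4423
import Cfsg.Agent.H91.Small.PrimitivePart

set_option autoImplicit false
open Cfsg

namespace Cfsg.Agent.S4423

/-- Size of the primitive part of `q^e - 1`. For a prime power `q` and `e ≥ 3`, call a divisor of `q^e - 1` primitive when it is coprime to `q^i - 1` for every `1 ≤ i < e`; the primitive part is the largest primitive divisor. Apart from thirteen exceptional pairs, the primitive part is at least `3e + 1`: there is a primitive divisor `m ≥ 3e + 1` unless `(q, e)` is `(2, 6)` (where every primitive divisor is 1), one of `(2,4), (2,10), (2,12), (2,18), (3,4), (3,6), (5,6)` (where the primitive part is exactly `e + 1`), or one of `(2,3), (2,8), (2,20), (4,3), (4,6)` (where it is exactly `2e + 1`). The statement asserts the existence of a primitive divisor `m ≥ 3e + 1` outside the thirteen pairs, and that every primitive divisor is at most `2e + 1` for the thirteen pairs. -/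
theorem result (q e : ℕ) (hq : IsPrimePow q) (he : 3 ≤ e) :
    ((q, e) ∉ [(2, 6), (2, 4), (2, 10), (2, 12), (2, 18), (3, 4), (3, 6), (5, 6), (2, 3), (2, 8), (2, 20), (4, 3), (4, 6)] →
      ∃ m : ℕ, m ∣ q ^ e - 1 ∧ (∀ i : ℕ, 1 ≤ i → i < e → Nat.Coprime m (q ^ i - 1)) ∧ 3 * e + 1 ≤ m) ∧
    ((q, e) ∈ [(2, 6), (2, 4), (2, 10), (2, 12), (2, 18), (3, 4), (3, 6), (5, 6), (2, 3), (2, 8), (2, 20), (4, 3), (4, 6)] →
      ∀ m : ℕ, m ∣ q ^ e - 1 → (∀ i : ℕ, 1 ≤ i → i < e → Nat.Coprime m (q ^ i - 1)) → m ≤ 2 * e + 1) := by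
  have hq2 : 2 ≤ q := hq.two_le
  refine ⟨fun hne => ?_, fun hmem m hm hcop => ?_⟩
  · simp only [List.mem_cons, List.not_mem_nil, or_false, Prod.mk.injEq] at hne
    by_cases hS : e ∈ ([3, 4, 5, 6, 7, 8, 9, 10, 12, 14, 15, 16, 18, 20, 22, 24, 30] : List ℕ)
    · simp only [List.mem_cons, List.not_mem_nil, or_false] at hS
      rcases hS with rfl | rfl | rfl | rfl | rfl | rfl | rfl | rfl | rfl | rfl | rfl | rfl | rfl | rfl | rfl | rfl | rfl
      · exact H91.PrimitivePart.primitive_3 q hq2 (fun h => hne (by subst h; norm_num)) (fun h => hne (by subst h; norm_num))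
      · exact H91.PrimitivePart.primitive_4 q hq2 (fun h => hne (by subst h; norm_num)) (fun h => hne (by subst h; norm_num))
      · exact H91.PrimitivePart.primitive_5 q hq2
      · exact H91.PrimitivePart.primitive_6 q hq2 (fun h => hne (by subst h; norm_num)) (fun h => hne (by subst h; norm_num)) (fun h => hne (by subst h; norm_num)) (fun h => hne (by subst h; norm_num))
      · exact H91.PrimitivePart.primitive_7 q hq2
      · exact H91.PrimitivePart.primitive_8 q hq2 (fun h => hne (by subst h; norm_num))
      · exact H91.PrimitivePart.primitive_9 q hq2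
      · exact H91.PrimitivePart.primitive_10 q hq2 (fun h => hne (by subst h; norm_num))
      · exact H91.PrimitivePart.primitive_12 q hq2 (fun h => hne (by subst h; norm_num))
      · exact H91.PrimitivePart.primitive_14 q hq2
      · exact H91.PrimitivePart.primitive_15 q hq2
      · exact H91.PrimitivePart.primitive_16 q hq2
      · exact H91.PrimitivePart.primitive_18 q hq2 (fun h => hne (by subst h; norm_num))
      · exact H91.PrimitivePart.primitive_20 q hq2 (fun h => hne (by subst h; norm_num))
      · exact H91.PrimitivePart.primitive_22 q hq2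
      · exact H91.PrimitivePart.primitive_24 q hq2
      · exact H91.PrimitivePart.primitive_30 q hq2
    · refine H91.PrimitivePart.primitive_of_le he hq2 (H91.PrimitivePart.check_mono 2 hq2 ?_)
      rcases Nat.lt_or_ge e 171 with h | h
      · exact (H91.PrimitivePart.small_check e h he).resolve_left hS
      · exact H91.PrimitivePart.big_check h
  · simp only [List.mem_cons, List.not_mem_nil, or_false, Prod.mk.injEq] at hmem
    rcases hmem with ⟨rfl, rfl⟩ | ⟨rfl, rfl⟩ | ⟨rfl, rfl⟩ | ⟨rfl, rfl⟩ | ⟨rfl, rfl⟩ | ⟨rfl, rfl⟩ | ⟨rfl, rfl⟩ | ⟨rfl, rfl⟩ | ⟨rfl, rfl⟩ | ⟨rfl, rfl⟩ | ⟨rfl, rfl⟩ | ⟨rfl, rfl⟩ | ⟨rfl, rfl⟩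
    · exact H91.PrimitivePart.bound_of_dvd 1 (by decide +kernel) (by norm_num) hm hcop
    · exact H91.PrimitivePart.bound_of_dvd 5 (by decide +kernel) (by norm_num) hm hcop
    · exact H91.PrimitivePart.bound_of_dvd 11 (by decide +kernel) (by norm_num) hm hcop
    · exact H91.PrimitivePart.bound_of_dvd 13 (by decide +kernel) (by norm_num) hm hcop
    · exact H91.PrimitivePart.bound_of_dvd 19 (by decide +kernel) (by norm_num) hm hcop
    · exact H91.PrimitivePart.bound_of_dvd 5 (by decide +kernel) (by norm_num) hm hcop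
    · exact H91.PrimitivePart.bound_of_dvd 7 (by decide +kernel) (by norm_num) hm hcop
    · exact H91.PrimitivePart.bound_of_dvd 7 (by decide +kernel) (by norm_num) hm hcop
    · exact H91.PrimitivePart.bound_of_dvd 7 (by decide +kernel) (by norm_num) hm hcop
    · exact H91.PrimitivePart.bound_of_dvd 17 (by decide +kernel) (by norm_num) hm hcop
    · exact H91.PrimitivePart.bound_of_dvd 41 (by decide +kernel) (by norm_num) hm hcop
    · exact H91.PrimitivePart.bound_of_dvd 7 (by decide +kernel) (by norm_num) hm hcop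
    · exact H91.PrimitivePart.bound_of_dvd 13 (by decide +kernel) (by norm_num) hm hcop

end Cfsg.Agent.S4423
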