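import Cfsg.Statements.S4425
import Cfsg.Agent.H42.RegularPart

set_option autoImplicit false
open Cfsg

namespace Cfsg.Agent.S4425

/-- Let χ be an irreducible character of the finite group G, p a prime, p^a the p-part of the order of G and p^b the p-part of the degree χ(1). Let χ̃ be the class function equal to p^a · χ on p-regular elements and zero on p-singular elements. Then p^(−b) · χ̃ is a generalized character of G, while p^(−(b+1)) · χ̃ is not. -/
theorem result {G : Type*} [Group G] [Finite G] (p : ℕ) [Fact p.Prime] (χ : Cfsg.IrrCharacter G) : Cfsg.IsGeneralizedCharacter G (fun x : G => if p ∣ orderOf x then (0 : ℂ) else ((p ^ ((Nat.card G).factorization p - (Cfsg.charDegree (χ : G → ℂ)).factorization p) : ℕ) : ℂ) * (χ : G → ℂ) x) ∧ ¬ Cfsg.IsGeneralizedCharacter G (fun x : G => if p ∣ orderOf x then (0 : ℂ) else ((p ^ (Nat.card G).factorization p : ℕ) : ℂ) / ((p ^ ((Cfsg.charDegree (χ : G → ℂ)).factorization p + 1) : ℕ) : ℂ) * (χ : G → ℂ) x) := by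
  set a := (Nat.card G).factorization p with ha
  set d := Cfsg.charDegree (χ : G → ℂ) with hd
  set v := d.factorization p with hv
  refine ⟨?_, fun h => ?_⟩
  · have h := H42.isGeneralized_pow_sub_regRes p χ
    convert h using 2 with x
    simp only [Pi.smul_apply, smul_eq_mul, H42.regRes, ← ha, ← hd, ← hv]
    split_ifs <;> simp
  · have hi := H42.isIntegral_degree_div_of_generalized p h fun x hx => if_pos hx
    simp only [orderOf_one, Nat.dvd_one, (Fact.out : p.Prime).ne_one, if_false] at hi
    rw [H42.irr_one_eq, ← ha, ← hd] at hi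
    have hp0 : (p : ℂ) ≠ 0 := Nat.cast_ne_zero.2 (Fact.out : p.Prime).ne_zero
    have hdu : ((p : ℂ) ^ v * ((d / p ^ v : ℕ) : ℂ)) = (d : ℂ) := by
      exact_mod_cast Nat.ordProj_mul_ordCompl_eq_self d p
    have hi' : IsIntegral ℤ (((d / p ^ v : ℕ) : ℂ) / (p : ℂ)) := by
      convert hi using 1
      rw [← hdu]
      push_cast
      field_simp
      ring
    exact Nat.not_dvd_ordCompl (Fact.out : p.Prime) (H42.charDegree_pos χ).ne'
      (H42.nat_dvd_of_isIntegral_div (Fact.out : p.Prime).ne_zero hi')

end Cfsg.Agent.S4425
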