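import Cfsg.Statements.S4426
import Cfsg.Agent.H42.Bounds
-- import your own Cfsg.Agent.* helpers here

set_option autoImplicit false
open Cfsg

namespace Cfsg.Agent.S4426

/-- Let χ be an irreducible character in the p-block B of the finite group G (relative to a maximal ideal M of the algebraic integers containing p), let p^a be the p-part of the order of G, and let χ̃ be the class function equal to p^a · χ on p-regular elements and zero elsewhere. For ξ ∈ B the inner product [χ̃, ξ] is an integer. The following are equivalent: (a) χ has height zero in B; (b) for some ξ ∈ B the integer [χ̃, ξ] is nonzero and the exact power of p dividing it equals the exact power of p dividing ξ(1); (c) the same holds for every ξ ∈ B. -/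
theorem result {G : Type*} [Group G] [Fintype G] (p : ℕ) [Fact p.Prime] (M : Ideal Cfsg.AlgInt) (hM : Cfsg.IsPModular p M) (B : Set (Cfsg.IrrCharacter G)) (hB : Cfsg.IsPBlock M B) (χ : Cfsg.IrrCharacter G) (hχ : χ ∈ B) : (Cfsg.blockHeight p B (χ : G → ℂ) = 0 ↔ ∃ ξ ∈ B, ∃ n : ℤ, Cfsg.classInner (fun x : G => if p ∣ orderOf x then (0 : ℂ) else ((p ^ (Nat.card G).factorization p : ℕ) : ℂ) * (χ : G → ℂ) x) (ξ : G → ℂ) = (n : ℂ) ∧ n ≠ 0 ∧ padicValInt p n = (Cfsg.charDegree (ξ : G → ℂ)).factorization p) ∧ (Cfsg.blockHeight p B (χ : G → ℂ) = 0 ↔ ∀ ξ ∈ B, ∃ n : ℤ, Cfsg.classInner (fun x : G => if p ∣ orderOf x then (0 : ℂ) else ((p ^ (Nat.card G).factorization p : ℕ) : ℂ) * (χ : G → ℂ) x) (ξ : G → ℂ) = (n : ℂ) ∧ n ≠ 0 ∧ padicValInt p n = (Cfsg.charDegree (ξ : G → ℂ)).factorization p) := by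
  classical
  have := hM.2.1
  set f : G → ℂ := fun x : G => if p ∣ orderOf x then (0 : ℂ) else
    ((p ^ (Nat.card G).factorization p : ℕ) : ℂ) * (χ : G → ℂ) x with hf
  have hfi : ∀ ξ : Cfsg.IrrCharacter G,
      Cfsg.classInner f (ξ : G → ℂ) = (Cfsg.Agent.H42.regInt p χ ξ : ℂ) := by
    intro ξ
    rw [Cfsg.Agent.H42.regInt_spec, ← Cfsg.Agent.H26.classInner_smul_left]
    congr 1
    funext x
    simp only [hf, Pi.smul_apply, smul_eq_mul, Cfsg.Agent.H42.regRes]
    split_ifs <;> simp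
  have key : ∀ ξ : Cfsg.IrrCharacter G,
      (∃ n : ℤ, Cfsg.classInner f (ξ : G → ℂ) = (n : ℂ) ∧ n ≠ 0 ∧
        padicValInt p n = (Cfsg.charDegree (ξ : G → ℂ)).factorization p) ↔
      ¬ (p : ℤ) ^ ((Cfsg.charDegree (ξ : G → ℂ)).factorization p + 1) ∣
        Cfsg.Agent.H42.regInt p χ ξ := by
    intro ξ
    have hdvd := Cfsg.Agent.H42.pow_dvd_regInt_right p χ ξ
    rw [padicValInt_dvd_iff] at hdvd
    constructor
    · rintro ⟨n, hn, hn0, hv⟩ h
      rw [hfi, Int.cast_inj] at hn
      rw [hn, padicValInt_dvd_iff] at h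
      rcases h with h | h
      · exact hn0 h
      · omega
    · intro h
      rw [padicValInt_dvd_iff] at h
      refine ⟨_, hfi ξ, fun h0 => h (Or.inl h0), ?_⟩
      rcases hdvd with h0 | hle
      · exact absurd (Or.inl h0) h
      · by_contra hne
        exact h (Or.inr (by omega))
  simp only [key]
  refine ⟨Cfsg.Agent.H42.blockHeight_eq_zero_iff_exists hM hB hχ,
    fun h0 ξ hξ => Cfsg.Agent.H42.not_pow_succ_dvd_regInt hM hB hχ h0 hξ, fun h => ?_⟩
  exact (Cfsg.Agent.H42.blockHeight_eq_zero_iff_exists hM hB hχ).2 ⟨χ, hχ, h χ hχ⟩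

end Cfsg.Agent.S4426
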