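import Cfsg.Statements.S4428
import Cfsg.Agent.H42.BlockConv
import Cfsg.Agent.H42.InducedSum
import Cfsg.Agent.H42.Bounds
-- import your own Cfsg.Agent.* helpers here

set_option autoImplicit false
open Cfsg

namespace Cfsg.Agent.S4428

/-- Let χ be an irreducible character of height zero in the p-block B of the finite group G (relative to a maximal ideal M of the algebraic integers containing p). Let x be a p-element of G with centralizer C, and let b be a block of C that induces B. Form the class function ϑ(c) = χ(x c) on C and its b-part (the sum over ψ ∈ b of the inner product of ϑ with ψ, times ψ). Then the b-part of ϑ does not vanish identically on the p-regular elements of C. (Compare the second main Theorem, which gives vanishing when b does not induce B.) -/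
theorem result {G : Type*} [Group G] [Finite G] (p : ℕ) [Fact p.Prime] (M : Ideal Cfsg.AlgInt) (hM : Cfsg.IsPModular p M) (B : Set (Cfsg.IrrCharacter G)) (hB : Cfsg.IsPBlock M B) (χ : Cfsg.IrrCharacter G) (hχ : χ ∈ B) (h0 : Cfsg.blockHeight p B (χ : G → ℂ) = 0) (x : G) (hx : ∃ k : ℕ, orderOf x = p ^ k) (b : Set (Cfsg.IrrCharacter (Subgroup.centralizer ({x} : Set G)))) (hb : Cfsg.IsInducedBlock M (Subgroup.centralizer ({x} : Set G)) b B) : ∃ y : Subgroup.centralizer ({x} : Set G), ¬ p ∣ orderOf y ∧ Cfsg.blockPart b (fun c : Subgroup.centralizer ({x} : Set G) => (χ : G → ℂ) (x * (c : G))) y ≠ 0 := by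
  classical
  have := hM.2.1
  have := Fintype.ofFinite G
  have hp : p.Prime := Fact.out
  have := Fintype.ofFinite (Subgroup.centralizer ({x} : Set G))
  obtain ⟨hbC, hBG, -⟩ := id hb
  by_contra hall
  push Not at hall
  let u : (Subgroup.centralizer ({x} : Set G)) := ⟨x, Subgroup.mem_centralizer_singleton_iff.2 rfl⟩
  have hu : u ∈ Subgroup.center (Subgroup.centralizer ({x} : Set G)) := Subgroup.mem_center_iff.2 fun c =>
    Subtype.ext (Subgroup.mem_centralizer_singleton_iff.1 c.2)
  obtain ⟨j, hj⟩ := hx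
  have huo : orderOf u = p ^ j := by rw [← Subgroup.orderOf_coe]; exact hj
  let χC : (Subgroup.centralizer ({x} : Set G)) → ℂ := fun c => (χ : G → ℂ) c
  have hχC : Cfsg.IsCharacter (Subgroup.centralizer ({x} : Set G)) χC :=
    Cfsg.Agent.H26.isCharacter_comp (Cfsg.Agent.H26.irr_isCharacter χ) (Subgroup.centralizer ({x} : Set G)).subtype
  have hχCc := Cfsg.Agent.H26.isClassFunction_of_isCharacter hχC
  -- the block part of the restriction is small at regular elements
  have hsmall : ∀ y : (Subgroup.centralizer ({x} : Set G)), ¬ p ∣ orderOf y →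
      Cfsg.MemLocalIdeal M (Cfsg.blockPart b χC y) := by
    intro y hy
    have h : Cfsg.MemLocalIdeal M
        (Cfsg.blockPart b (fun c : (Subgroup.centralizer ({x} : Set G)) => (χ : G → ℂ) (x * (c : G))) y - Cfsg.blockPart b χC y) :=
      Cfsg.Agent.H42.memLocalIdeal_blockPart_translate_sub hM hbC hχC hu huo hy
    rw [hall y hy, zero_sub] at h
    obtain ⟨h1, h2⟩ := Cfsg.Agent.H41.memLocalIdeal_iff_res.1 h
    refine Cfsg.Agent.H41.memLocalIdeal_iff_res.2 ⟨by simpa using neg_mem h1, ?_⟩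
    have h3 : Cfsg.Agent.H41.res M (-⟨_, h1⟩) = 0 := by rw [map_neg, h2, neg_zero]
    rw [← h3]
    exact congrArg _ (Subtype.ext (by simp))
  obtain ⟨ψ, hψ⟩ := Cfsg.Agent.H41.IsPBlock.nonempty hbC
  -- the block part is orthogonal to the difference
  set T := ∑ c : (Subgroup.centralizer ({x} : Set G)), Cfsg.Agent.H42.regRes p (Cfsg.blockPart b χC) c *
    (starRingEnd ℂ) ((ψ : (Subgroup.centralizer ({x} : Set G)) → ℂ) c) with hT
  have hexp : ∀ c, Cfsg.blockPart b χC c = ∑ η ∈ Cfsg.Agent.H42.blockFinset b,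
      Cfsg.classInner χC η.1 * (η : (Subgroup.centralizer ({x} : Set G)) → ℂ) c := by
    intro c
    simp only [Cfsg.blockPart]
    rw [Cfsg.Agent.H42.finsum_mem_block]
    refine Finset.sum_congr rfl fun η _ => ?_
    congr 2
    exact Subsingleton.elim _ _
  have hTeq : T = ∑ c : (Subgroup.centralizer ({x} : Set G)), Cfsg.Agent.H42.regRes p χC c *
      (starRingEnd ℂ) ((ψ : (Subgroup.centralizer ({x} : Set G)) → ℂ) c) := by
    have hzero : ∀ η : Cfsg.IrrCharacter (Subgroup.centralizer ({x} : Set G)), η ∉ b →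
        ∑ c : (Subgroup.centralizer ({x} : Set G)), Cfsg.Agent.H42.regRes p η.1 c * (starRingEnd ℂ) ((ψ : (Subgroup.centralizer ({x} : Set G)) → ℂ) c) = 0 := by
      intro η hη
      have h := Cfsg.Agent.H42.classInner_regRes_eq_zero hM hbC (χ := ψ) (ξ := η) hψ hη
      rw [Cfsg.Agent.H42.classInner_regRes_comm] at h
      have h' := congrArg (starRingEnd ℂ) h
      rw [Complex.conj_conj, map_zero, Cfsg.classInner, mul_eq_zero] at h'
      exact h'.resolve_left (inv_ne_zero (Nat.cast_ne_zero.2 Nat.card_pos.ne'))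
    have hfull : ∀ c, χC c = ∑ η : Cfsg.IrrCharacter (Subgroup.centralizer ({x} : Set G)),
        Cfsg.classInner χC η.1 * (η : (Subgroup.centralizer ({x} : Set G)) → ℂ) c := by
      intro c
      conv_lhs => rw [Cfsg.Agent.H26.class_function_expansion χC hχCc]
      simp [Finset.sum_apply]
    have hlin : ∀ (s : Finset (Cfsg.IrrCharacter (Subgroup.centralizer ({x} : Set G)))) (c : (Subgroup.centralizer ({x} : Set G))), Cfsg.Agent.H42.regRes p
        (fun c => ∑ η ∈ s, Cfsg.classInner χC η.1 * (η : (Subgroup.centralizer ({x} : Set G)) → ℂ) c) c =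
        ∑ η ∈ s, Cfsg.classInner χC η.1 * Cfsg.Agent.H42.regRes p η.1 c := by
      intro s c
      by_cases hc : p ∣ orderOf c
      · simp [Cfsg.Agent.H42.regRes_of_singular hc]
      · simp [Cfsg.Agent.H42.regRes_of_regular hc]
    rw [hT, funext hexp]
    conv_rhs => rw [funext hfull]
    simp only [hlin, Finset.sum_mul]
    rw [Finset.sum_comm]
    conv_rhs => rw [Finset.sum_comm]
    refine Finset.sum_subset (Finset.subset_univ _) fun η _ hη => ?_
    simp only [mul_assoc, ← Finset.mul_sum,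
      hzero η (fun h => hη (Cfsg.Agent.H42.mem_blockFinset.2 h)), mul_zero]
  have hTsmall : Cfsg.MemLocalIdeal M (T / (ψ : (Subgroup.centralizer ({x} : Set G)) → ℂ) 1) := by
    have : Finite (ConjClasses (Subgroup.centralizer ({x} : Set G))) := Quotient.finite _
    have := Fintype.ofFinite (ConjClasses (Subgroup.centralizer ({x} : Set G)))
    let f : (Subgroup.centralizer ({x} : Set G)) → ℂ := fun c => Cfsg.Agent.H42.regRes p (Cfsg.blockPart b χC) c⁻¹
    have hPc : Cfsg.IsClassFunction (Subgroup.centralizer ({x} : Set G)) (Cfsg.blockPart b χC) := fun c z => by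
      simp only [hexp, Cfsg.Agent.H26.irr_conj]
    have hf : Cfsg.IsClassFunction (Subgroup.centralizer ({x} : Set G)) f := fun c z => by
      simp only [f]
      rw [show (z * c * z⁻¹)⁻¹ = z * c⁻¹ * z⁻¹ by group,
        Cfsg.Agent.H42.regRes_isClassFunction hPc]
    have hT2 : T = ∑ c, f c * (ψ : (Subgroup.centralizer ({x} : Set G)) → ℂ) c := by
      rw [hT]
      refine Fintype.sum_equiv (Equiv.inv (Subgroup.centralizer ({x} : Set G))) _ _ fun c => ?_
      simp [f, Cfsg.Agent.H26.irr_inv]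
    rw [hT2, Cfsg.Agent.H42.sum_eq_sum_centralChar hf]
    refine Cfsg.Agent.H40.memLocalIdeal_sum _ _ fun D _ => ?_
    rw [mul_comm]
    refine Cfsg.Agent.H40.memLocalIdeal_mul_left (Cfsg.Agent.H41.isIntegral_mem_localRing
      (Cfsg.Agent.H41.isIntegral_centralChar ψ _)) ?_
    by_cases hc : p ∣ orderOf (Quotient.out D)⁻¹
    · simp only [f, Cfsg.Agent.H42.regRes_of_singular hc]
      exact Cfsg.Agent.H41.memLocalIdeal_iff_res.2 ⟨zero_mem _, map_zero _⟩
    · simp only [f, Cfsg.Agent.H42.regRes_of_regular hc]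
      exact hsmall _ hc
  -- compare with the height zero criterion
  let f : G → ℂ := fun z => Cfsg.Agent.H42.regRes p χ.1 z⁻¹
  have hf : Cfsg.IsClassFunction G f := fun z w => by
    simp only [f]
    rw [show (w * z * w⁻¹)⁻¹ = w * z⁻¹ * w⁻¹ by group, Cfsg.Agent.H42.regRes_isClassFunction
      (Cfsg.Agent.H26.irr_isClassFunction χ)]
  have hint : ∀ z, Cfsg.MemLocalRing M (f z) := fun z => by
    simp only [f, Cfsg.Agent.H42.regRes]
    split_ifs
    · exact Cfsg.Agent.H41.mem_localRing.1 (Cfsg.Agent.H41.localRing M).zero_mem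
    · exact Cfsg.Agent.H40.irr_mem_localRing χ _
  have hcong := Cfsg.Agent.H42.memLocalIdeal_induced_sum_sub hb hψ hχ hf hint
  have hloc : (∑ c : (Subgroup.centralizer ({x} : Set G)), f c * (ψ : (Subgroup.centralizer ({x} : Set G)) → ℂ) c) = T := by
    rw [hTeq]
    refine Fintype.sum_equiv (Equiv.inv (Subgroup.centralizer ({x} : Set G))) _ _ fun c => ?_
    simp [f, χC, Cfsg.Agent.H26.irr_inv, Cfsg.Agent.H42.regRes]
  rw [hloc] at hcong
  set w := Nat.card G / p ^ (Nat.card G).factorization p with hw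
  have hgG : ((p : ℂ) ^ (Nat.card G).factorization p * (w : ℂ)) = (Nat.card G : ℂ) := by
    exact_mod_cast Nat.ordProj_mul_ordCompl_eq_self (Nat.card G) p
  have hrhs : (∑ z, f z * (χ : G → ℂ) z) = (w : ℂ) * (Cfsg.Agent.H42.regInt p χ χ : ℂ) := by
    rw [Cfsg.Agent.H42.regInt_spec, Cfsg.classInner, Nat.cast_pow, ← mul_assoc,
      mul_comm (w : ℂ), hgG, ← mul_assoc,
      mul_inv_cancel₀ (Nat.cast_ne_zero.2 Nat.card_pos.ne'), one_mul]
    refine Fintype.sum_equiv (Equiv.inv G) _ _ fun z => ?_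
    simp [f, Cfsg.Agent.H26.irr_inv]
  rw [hrhs, mul_div_assoc, Cfsg.Agent.H42.irr_one_eq χ] at hcong
  have hmain : Cfsg.MemLocalIdeal M ((w : ℂ) * ((Cfsg.Agent.H42.regInt p χ χ : ℂ) /
      (Cfsg.charDegree (χ : G → ℂ) : ℂ))) := by
    obtain ⟨a1, b1⟩ := Cfsg.Agent.H41.memLocalIdeal_iff_res.1 hTsmall
    obtain ⟨a2, b2⟩ := Cfsg.Agent.H41.memLocalIdeal_iff_res.1 hcong
    refine Cfsg.Agent.H41.memLocalIdeal_iff_res.2 ⟨by simpa using sub_mem a1 a2, ?_⟩
    have h3 := congrArg₂ (· - ·) b1 b2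
    simp only [← map_sub, sub_zero] at h3
    rw [← h3]
    exact congrArg _ (Subtype.ext (by push_cast; ring))
  have hwp : ¬ p ∣ w := Nat.not_dvd_ordCompl hp Nat.card_pos.ne'
  have h1 := Cfsg.Agent.H40.memLocalIdeal_mul_left
    (Cfsg.Agent.H41.IsPModular.inv_natCast_mem hM hwp) hmain
  rw [inv_mul_cancel_left₀ (Nat.cast_ne_zero.2 (fun e => hwp (e ▸ dvd_zero p)) : (w : ℂ) ≠ 0)] at h1
  exact Cfsg.Agent.H42.not_pow_succ_dvd_regInt hM hBG hχ h0 hχ
    (Cfsg.Agent.H42.pow_succ_dvd_of_memLocalIdeal_div hM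
      (Cfsg.Agent.H42.charDegree_pos χ).ne' (Cfsg.Agent.H42.pow_dvd_regInt_left p χ χ) h1)

end Cfsg.Agent.S4428
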