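import Cfsg.Statements.S4429
import Cfsg.Agent.H30.Order7920Main

set_option autoImplicit false
open Cfsg

namespace Cfsg.Agent.S4429

/-- Let G be a simple group of order 7920. Then G has exactly ten irreducible complex characters, and their degrees, listed with multiplicity, are 1, 10, 10, 10, 11, 16, 16, 44, 45, 55: for every natural number n, the number of irreducible characters of degree n is 1 if n ∈ {1, 11, 44, 45, 55}, 3 if n = 10, 2 if n = 16, and 0 otherwise. -/
theorem result {G : Type*} [Group G] [Finite G] [IsSimpleGroup G] (hG : Nat.card G = 7920) : Nat.card (Cfsg.IrrCharacter G) = 10 ∧ ∀ n : ℕ, Nat.card {χ : Cfsg.IrrCharacter G // Cfsg.charDegree (χ : G → ℂ) = n} = (if n = 1 ∨ n = 11 ∨ n = 44 ∨ n = 45 ∨ n = 55 then 1 else if n = 10 then 3 else if n = 16 then 2 else 0) := by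
  classical
  let _ : Fintype G := Fintype.ofFinite G
  obtain ⟨d, hd, hcount⟩ := Cfsg.Agent.H30.Order7920.degree_pattern hG
  have hdeg : ∀ χ : Cfsg.IrrCharacter G, Cfsg.charDegree (χ : G → ℂ) = d χ := fun χ => by
    show ⌊(χ.1 1).re⌋₊ = d χ
    rw [hd, Complex.natCast_re, Nat.floor_natCast]
  refine ⟨?_, fun n => ?_⟩
  · have hmaps : ∀ χ ∈ (Finset.univ : Finset (Cfsg.IrrCharacter G)),
        d χ ∈ ({1, 10, 11, 16, 44, 45, 55} : Finset ℕ) := fun χ _ => by
      by_contra hn
      simp only [Finset.mem_insert, Finset.mem_singleton, not_or] at hn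
      obtain ⟨h1, h2, h3, h4, h5, h6, h7⟩ := hn
      have h8 := hcount (d χ)
      rw [if_neg (by omega), if_neg h2, if_neg h4, Finset.card_eq_zero,
        Finset.filter_eq_empty_iff] at h8
      exact h8 (Finset.mem_univ χ) rfl
    rw [Nat.card_eq_fintype_card, ← Finset.card_univ, Finset.card_eq_sum_card_fiberwise hmaps,
      Finset.sum_congr rfl fun m _ => hcount m]
    rfl
  · rw [← hcount n, Nat.card_eq_fintype_card, Fintype.card_subtype]
    simp only [hdeg]

end Cfsg.Agent.S4429
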