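import Cfsg.Statements.S4430
import Cfsg.Agent.H42.InducedSum
import Cfsg.Agent.H25.IndRep
-- import your own Cfsg.Agent.* helpers here

set_option autoImplicit false
open Cfsg

namespace Cfsg.Agent.S4430

/-- Let H be a subgroup of the finite group G, b a block of H whose induced block B₀ in G is defined (relative to a maximal ideal M of the algebraic integers containing p), and ξ ∈ b. For a block B of G let n_B be the value at 1 of the B-part of the induced character ξ^G (a natural number: the sum over χ ∈ B of the multiplicity of χ in ξ^G times χ(1)). Then for B = B₀ the exact power of p dividing n_B equals the exact power of p dividing ξ^G(1), while for every other block B either n_B = 0 or n_B is divisible by a strictly higher power of p than ξ^G(1). -/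
theorem result {G : Type*} [Group G] [Fintype G] (p : ℕ) [Fact p.Prime] (M : Ideal Cfsg.AlgInt) (hM : Cfsg.IsPModular p M) (H : Subgroup G) [Fintype H] (b : Set (Cfsg.IrrCharacter H)) (B₀ : Set (Cfsg.IrrCharacter G)) (hind : Cfsg.IsInducedBlock M H b B₀) (ξ : Cfsg.IrrCharacter H) (hξ : ξ ∈ b) : (∃ n : ℕ, Cfsg.blockPart B₀ (Cfsg.indFun H (ξ : H → ℂ)) 1 = (n : ℂ) ∧ n ≠ 0 ∧ n.factorization p = (Cfsg.charDegree (Cfsg.indFun H (ξ : H → ℂ))).factorization p) ∧ ∀ B : Set (Cfsg.IrrCharacter G), Cfsg.IsPBlock M B → B ≠ B₀ → ∃ n : ℕ, Cfsg.blockPart B (Cfsg.indFun H (ξ : H → ℂ)) 1 = (n : ℂ) ∧ (n = 0 ∨ (Cfsg.charDegree (Cfsg.indFun H (ξ : H → ℂ))).factorization p < n.factorization p) := by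
  classical
  have := hM.2.1
  obtain ⟨η₀, hη₀⟩ := Cfsg.Agent.H41.IsPBlock.nonempty hind.2.1
  set θ := Cfsg.indFun H (ξ : H → ℂ) with hθ
  have hθc : Cfsg.IsCharacter G θ :=
    Cfsg.Agent.H25.isCharacter_indFun H (Cfsg.Agent.H26.irr_isCharacter ξ)
  set D := Cfsg.charDegree θ with hD
  have hθ1 : θ 1 = (D : ℂ) := Cfsg.Agent.H42.char_one_eq hθc
  have hD0 : D ≠ 0 := by
    intro h0
    have h := hθ1
    rw [h0, hθ, Cfsg.Agent.H25.indFun_one, Nat.cast_zero, mul_eq_zero] at h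
    rcases h with h | h
    · exact Subgroup.index_ne_zero_of_finite (by exact_mod_cast h)
    · exact Cfsg.Agent.H26.irr_one_ne_zero ξ h
  choose m hm using fun χ : Cfsg.IrrCharacter G =>
    Cfsg.Agent.H26.exists_nat_classInner_irr hθc χ
  have hnat : ∀ B : Set (Cfsg.IrrCharacter G), Cfsg.blockPart B θ 1 =
      ((∑ χ ∈ Finset.univ.filter (· ∈ B), m χ * Cfsg.charDegree (χ : G → ℂ) : ℕ) : ℂ) := by
    intro B
    simp only [Cfsg.blockPart]
    rw [finsum_mem_eq_finite_toFinset_sum _ (Set.toFinite _)]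
    push_cast
    refine Finset.sum_congr (by ext; simp) fun χ _ => ?_
    rw [Cfsg.Agent.H42.irr_one_eq, ← hm]
    congr 2
    exact Subsingleton.elim _ _
  have key : ∀ B : Set (Cfsg.IrrCharacter G), Cfsg.IsPBlock M B →
      ∃ z : ℂ, Cfsg.blockPart B θ 1 = (D : ℂ) * z ∧
        Cfsg.MemLocalIdeal M (z - if η₀ ∈ B then 1 else 0) := by
    intro B hB
    refine ⟨(∑ h : H, Cfsg.blockCoeff B h * (ξ : H → ℂ) h) / (ξ : H → ℂ) 1, ?_, ?_⟩
    · have hcl : Cfsg.IsClassFunction G fun x => (starRingEnd ℂ) (Cfsg.blockCoeff B x) :=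
        fun x y => congrArg _ (Cfsg.Agent.H40.blockCoeff_conj B x y)
      have h := Cfsg.Agent.H25.classInner_indFun_left H (ξ : H → ℂ) _ hcl
      simp only [Cfsg.classInner, Complex.conj_conj] at h
      rw [← hθ] at h
      rw [Cfsg.Agent.H42.blockPart_one_eq_sum, ← hθ1, hθ, Cfsg.Agent.H25.indFun_one, ← hθ]
      have hG : (Nat.card G : ℂ) ≠ 0 := Nat.cast_ne_zero.2 Nat.card_pos.ne'
      rw [inv_mul_eq_iff_eq_mul₀ hG] at h
      rw [h, ← H.card_mul_index, Nat.cast_mul]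
      have hH : (Nat.card H : ℂ) ≠ 0 := Nat.cast_ne_zero.2 Nat.card_pos.ne'
      have h1 : (ξ : H → ℂ) 1 ≠ 0 := Cfsg.Agent.H26.irr_one_ne_zero ξ
      simp only [mul_comm (Cfsg.blockCoeff B _)]
      field_simp
    · have h := Cfsg.Agent.H42.memLocalIdeal_induced_sum_sub hind hξ hη₀
        (f := Cfsg.blockCoeff B) (fun x y => Cfsg.Agent.H40.blockCoeff_conj B x y)
        (fun x => Cfsg.Agent.H41.mem_localRing.1 (Cfsg.Agent.H41.blockCoeff_mem hB x))
      have h' := Cfsg.Agent.H40.sum_blockCoeff_mul_irr B η₀ 1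
      simp only [mul_one] at h'
      rw [h'] at h
      convert h using 2
      split_ifs
      · exact (div_self (Cfsg.Agent.H26.irr_one_ne_zero η₀)).symm
      · exact (zero_div _).symm
  refine ⟨?_, fun B hB hne => ?_⟩
  · obtain ⟨z, hz, hzM⟩ := key B₀ hind.2.1
    rw [if_pos hη₀] at hzM
    obtain ⟨h1, h2⟩ := Cfsg.Agent.H41.memLocalIdeal_iff_res.1 hzM
    have hzR : z ∈ Cfsg.Agent.H41.localRing M := by simpa using add_mem h1 (one_mem _)
    have hz1 : ¬ Cfsg.MemLocalIdeal M z := by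
      intro hzI
      obtain ⟨h3, h4⟩ := Cfsg.Agent.H41.memLocalIdeal_iff_res.1 hzI
      have h5 := congrArg₂ (· - ·) h4 h2
      simp only [← map_sub, sub_self] at h5
      refine one_ne_zero (α := Cfsg.Agent.H41.ResField M) ?_
      rw [← map_one (Cfsg.Agent.H41.res M), ← h5]
      exact congrArg _ (Subtype.ext (by push_cast; ring))
    rw [hnat] at hz
    refine ⟨_, hnat B₀, ?_⟩
    have hn0 : (∑ χ ∈ Finset.univ.filter (· ∈ B₀), m χ * Cfsg.charDegree (χ : G → ℂ)) ≠ 0 := by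
      intro h0
      rw [h0, Nat.cast_zero, eq_comm, mul_eq_zero, Nat.cast_eq_zero] at hz
      rcases hz with hz | hz
      · exact hD0 hz
      · exact hz1 (hz ▸ Cfsg.Agent.H41.memLocalIdeal_iff_res.2 ⟨zero_mem _, map_zero _⟩)
    obtain ⟨hle, hiff⟩ := Cfsg.Agent.H40.factorization_le_of_div_mem hM hn0 hD0 hzR hz
    exact ⟨hn0, le_antisymm (not_lt.1 fun hlt => hz1 (hiff.2 hlt)) hle⟩
  · obtain ⟨z, hz, hzM⟩ := key B hB
    rw [if_neg (fun h => hne (Cfsg.Agent.H41.block_eq_of_mem_of_mem hB hind.2.1 h hη₀)),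
      sub_zero] at hzM
    rw [hnat] at hz
    refine ⟨_, hnat B, or_iff_not_imp_left.2 fun hn0 => ?_⟩
    exact (Cfsg.Agent.H40.factorization_le_of_div_mem hM hn0 hD0
      (Cfsg.Agent.H41.memLocalRing_of_memLocalIdeal hzM) hz).2.1 hzM

end Cfsg.Agent.S4430
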