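import Cfsg.Statements.S4431
import Cfsg.Agent.H42.InducedSum
import Cfsg.Agent.H42.Heights
-- import your own Cfsg.Agent.* helpers here

set_option autoImplicit false
open Cfsg

namespace Cfsg.Agent.S4431

/-- Let H be a subgroup of the finite group G and b a block of H whose induced block B₀ in G is defined (relative to a maximal ideal M of the algebraic integers containing p). Let χ be an irreducible character of G, ψ ∈ b, and let η be the class function on H equal to p^a · χ on the p-regular elements of H and zero elsewhere, p^a being the p-part of the order of H. Then (a) if χ ∉ B₀, the number [η, ψ]/ψ(1) lies in the local ideal at M; (b) if χ ∈ B₀ has height zero, it does not. -/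
theorem result {G : Type*} [Group G] [Fintype G] (p : ℕ) [Fact p.Prime] (M : Ideal Cfsg.AlgInt) (hM : Cfsg.IsPModular p M) (H : Subgroup G) [Fintype H] (b : Set (Cfsg.IrrCharacter H)) (B₀ : Set (Cfsg.IrrCharacter G)) (hind : Cfsg.IsInducedBlock M H b B₀) (χ : Cfsg.IrrCharacter G) (ψ : Cfsg.IrrCharacter H) (hψ : ψ ∈ b) : (χ ∉ B₀ → Cfsg.MemLocalIdeal M (Cfsg.classInner (fun h : H => if p ∣ orderOf h then (0 : ℂ) else ((p ^ (Nat.card H).factorization p : ℕ) : ℂ) * (χ : G → ℂ) h) (ψ : H → ℂ) / (ψ : H → ℂ) 1)) ∧ (χ ∈ B₀ → Cfsg.blockHeight p B₀ (χ : G → ℂ) = 0 → ¬ Cfsg.MemLocalIdeal M (Cfsg.classInner (fun h : H => if p ∣ orderOf h then (0 : ℂ) else ((p ^ (Nat.card H).factorization p : ℕ) : ℂ) * (χ : G → ℂ) h) (ψ : H → ℂ) / (ψ : H → ℂ) 1)) := by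
  classical
  have := hM.2.1
  have hp : p.Prime := Fact.out
  obtain ⟨η₀, hη₀⟩ := Cfsg.Agent.H41.IsPBlock.nonempty hind.2.1
  set aH := (Nat.card H).factorization p with haH
  set a := (Nat.card G).factorization p with ha
  set wH := Nat.card H / p ^ aH with hwH
  set w := Nat.card G / p ^ a with hw
  have hgH : ((p : ℂ) ^ aH * (wH : ℂ)) = (Nat.card H : ℂ) := by
    exact_mod_cast Nat.ordProj_mul_ordCompl_eq_self (Nat.card H) p
  have hgG : ((p : ℂ) ^ a * (w : ℂ)) = (Nat.card G : ℂ) := by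
    exact_mod_cast Nat.ordProj_mul_ordCompl_eq_self (Nat.card G) p
  let f : G → ℂ := fun x => Cfsg.Agent.H42.regRes p χ.1 x⁻¹
  have hf : Cfsg.IsClassFunction G f := fun x y => by
    simp only [f]
    rw [show (y * x * y⁻¹)⁻¹ = y * x⁻¹ * y⁻¹ by group, Cfsg.Agent.H42.regRes_isClassFunction
      (Cfsg.Agent.H26.irr_isClassFunction χ)]
  have hint : ∀ x, Cfsg.MemLocalRing M (f x) := fun x => by
    simp only [f, Cfsg.Agent.H42.regRes]
    split_ifs
    · exact Cfsg.Agent.H41.mem_localRing.1 (Cfsg.Agent.H41.localRing M).zero_mem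
    · exact Cfsg.Agent.H40.irr_mem_localRing χ _
  set E := Cfsg.classInner (fun h : H => if p ∣ orderOf h then (0 : ℂ) else
    ((p ^ aH : ℕ) : ℂ) * (χ : G → ℂ) h) (ψ : H → ℂ) / (ψ : H → ℂ) 1 with hE
  have hlhs : (∑ h : H, f h * (ψ : H → ℂ) h) / (ψ : H → ℂ) 1 = (wH : ℂ) * E := by
    have hwH0 : (wH : ℂ) ≠ 0 := fun h0 => (Nat.cast_ne_zero.2
      (Nat.card_pos (α := H)).ne' : (Nat.card H : ℂ) ≠ 0) (by rw [← hgH, h0, mul_zero])
    rw [hE, Cfsg.classInner, mul_div_assoc', ← hgH, ← mul_assoc, mul_inv, mul_comm ((p : ℂ) ^ aH)⁻¹,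
      ← mul_assoc, mul_inv_cancel₀ hwH0, one_mul, Finset.mul_sum]
    congr 1
    refine Fintype.sum_equiv (Equiv.inv H) _ _ fun h => ?_
    simp only [f, Equiv.inv_apply, orderOf_inv, InvMemClass.coe_inv,
      Cfsg.Agent.H42.regRes, Subgroup.orderOf_coe, Cfsg.Agent.H26.irr_inv, Complex.conj_conj]
    split_ifs
    · simp
    · rw [Nat.cast_pow, mul_assoc ((p : ℂ) ^ aH), inv_mul_cancel_left₀
        (pow_ne_zero _ (Nat.cast_ne_zero.2 hp.ne_zero))]
  have hrhs : ∀ η : Cfsg.IrrCharacter G, (∑ x, f x * (η : G → ℂ) x) / (η : G → ℂ) 1 =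
      (w : ℂ) * ((Cfsg.Agent.H42.regInt p χ η : ℂ) / (Cfsg.charDegree (η : G → ℂ) : ℂ)) := by
    intro η
    rw [Cfsg.Agent.H42.regInt_spec, ← ha, Cfsg.classInner, ← Cfsg.Agent.H42.irr_one_eq,
      mul_div_assoc', Nat.cast_pow, ← mul_assoc, mul_comm (w : ℂ), hgG, ← mul_assoc,
      mul_inv_cancel₀ (Nat.cast_ne_zero.2 Nat.card_pos.ne'), one_mul]
    congr 1
    refine Fintype.sum_equiv (Equiv.inv G) _ _ fun x => ?_
    simp only [f, Equiv.inv_apply, Cfsg.Agent.H26.irr_inv, Complex.conj_conj]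
  have hwu : ∀ {n : ℕ}, ¬ p ∣ n → ∀ {z : ℂ},
      Cfsg.MemLocalIdeal M ((n : ℂ) * z) → Cfsg.MemLocalIdeal M z := by
    intro n hn z hz
    have h0 : (n : ℂ) ≠ 0 := Nat.cast_ne_zero.2 fun e => hn (e ▸ dvd_zero p)
    have := Cfsg.Agent.H40.memLocalIdeal_mul_left
      (Cfsg.Agent.H41.IsPModular.inv_natCast_mem hM hn) hz
    rwa [inv_mul_cancel_left₀ h0] at this
  have hwHp : ¬ p ∣ wH := Nat.not_dvd_ordCompl hp Nat.card_pos.ne'
  have hwp : ¬ p ∣ w := Nat.not_dvd_ordCompl hp Nat.card_pos.ne'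
  have hcong := fun η (hη : η ∈ B₀) =>
    Cfsg.Agent.H42.memLocalIdeal_induced_sum_sub hind hψ hη hf hint
  constructor
  · intro hχ
    refine hwu hwHp ?_
    have h := hcong η₀ hη₀
    have hz : Cfsg.Agent.H42.regInt p χ η₀ = 0 := by
      refine Cfsg.Agent.H42.regInt_eq_zero_of_notMem hM (Cfsg.Agent.H41.isPBlock_blockOf χ)
        (Cfsg.Agent.H41.mem_blockOf_self χ) fun hmem => hχ ?_
      exact (Cfsg.Agent.H41.mem_iff_of_sameBlock hind.2.1 hmem).2 hη₀
    rw [hrhs, hz, Int.cast_zero, zero_div, mul_zero, sub_zero, hlhs] at h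
    exact h
  · intro hχ h0 hmem
    have h := hcong χ hχ
    rw [hlhs, hrhs] at h
    have h1 := Cfsg.Agent.H40.memLocalIdeal_mul_left
      (natCast_mem (Cfsg.Agent.H41.localRing M) wH) hmem
    have h2 := Cfsg.Agent.H42.pow_succ_dvd_of_memLocalIdeal_div hM
      (Cfsg.Agent.H42.charDegree_pos χ).ne' (Cfsg.Agent.H42.pow_dvd_regInt_left p χ χ) (hwu hwp ?_)
    · exact Cfsg.Agent.H42.not_pow_succ_dvd_regInt hM hind.2.1 hχ h0 hχ h2
    · obtain ⟨m1, e1⟩ := Cfsg.Agent.H41.memLocalIdeal_iff_res.1 h1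
      obtain ⟨m2, e2⟩ := Cfsg.Agent.H41.memLocalIdeal_iff_res.1 h
      refine Cfsg.Agent.H41.memLocalIdeal_iff_res.2
        ⟨by simpa using (Cfsg.Agent.H41.localRing M).sub_mem m1 m2, ?_⟩
      have := congrArg₂ (· - ·) e1 e2
      simp only [← map_sub, sub_zero] at this
      rw [← this]
      exact congrArg _ (Subtype.ext (by push_cast; ring))

end Cfsg.Agent.S4431
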