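import Cfsg.Statements.S4437
import Cfsg.Agent.H26.InertialDefect

set_option autoImplicit false
open Cfsg

namespace Cfsg.Agent.S4437

/-- Let P be a p-subgroup of the finite group G, H = P·C_G(P), and b a block of H (relative to a maximal ideal M of the algebraic integers containing p) having P as a defect group; let B be the block of G induced by b. Let T be the stabilizer of b in N_G(P): the elements g of N_G(P) such that the g-conjugate of every member of b is again a member of b. Then B has defect group P if and only if p does not divide the index of H in T. -/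
theorem result {G : Type*} [Group G] [Fintype G] (p : ℕ) [Fact p.Prime] (M : Ideal Cfsg.AlgInt) (hM : Cfsg.IsPModular p M) (P : Subgroup G) (hP : IsPGroup p P) (H : Subgroup G) [Fintype H] (hH : H = P ⊔ Subgroup.centralizer (P : Set G)) (b : Set (Cfsg.IrrCharacter H)) (hb : Cfsg.IsPBlock M b) (hbP : Cfsg.IsDefectGroup p M b (P.subgroupOf H)) (B : Set (Cfsg.IrrCharacter G)) (hind : Cfsg.IsInducedBlock M H b B) (T : Subgroup G) (hT : ∀ g : G, g ∈ T ↔ (g ∈ Subgroup.normalizer (P : Set G) ∧ ∀ θ ∈ b, ∀ θ' : Cfsg.IrrCharacter H, (∀ h h' : H, (h' : G) = g * h * g⁻¹ → (θ' : H → ℂ) h' = (θ : H → ℂ) h) → θ' ∈ b)) : Cfsg.IsDefectGroup p M B P ↔ ¬ p ∣ H.relIndex T := by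
  classical
  have : M.IsMaximal := hM.2.1
  have hle : P ≤ H := hH ▸ le_sup_left
  have hC : Subgroup.centralizer (P : Set G) ≤ H := hH ▸ le_sup_right
  have hHN : H ≤ Subgroup.normalizer (P : Set G) :=
    hH ▸ sup_le Subgroup.le_normalizer (Subgroup.centralizer_le_normalizer _)
  have hNH : Subgroup.normalizer (P : Set G) ≤ Subgroup.normalizer (H : Set G) := by
    intro n hn
    apply Cfsg.Agent.H23.mem_normalizer_of_rconj
    have h1 : Cfsg.Agent.H23.rconj n P = P := Cfsg.Agent.H23.rconj_eq_self hn
    have h2 : Cfsg.Agent.H23.rconj n (Subgroup.centralizer (P : Set G)) =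
        Subgroup.centralizer (P : Set G) := by
      ext x
      have h3 := Cfsg.Agent.H40.conj_mem_centralizer_iff (x := x) hn
      rw [Cfsg.Agent.H23.mem_rconj]
      exact h3
    rw [hH, show Cfsg.Agent.H23.rconj n (P ⊔ Subgroup.centralizer (P : Set G)) =
      Cfsg.Agent.H23.rconj n P ⊔ Cfsg.Agent.H23.rconj n (Subgroup.centralizer (P : Set G))
      from Subgroup.map_sup _ _ _, h1, h2]
  have S : Cfsg.Agent.H26.InertialSetup p M P H T b := by
    refine ⟨hM, hP, hle, hC, hHN, hNH, hb, hbP, fun t ht => ((hT t).1 ht).1, fun n => ?_⟩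
    rw [hT]
    constructor
    · rintro ⟨-, h⟩ θ hθ
      refine h θ hθ _ fun x y hxy => ?_
      rw [Cfsg.Agent.H43.irrCongr_apply]
      refine congrArg _ (Subtype.ext ?_)
      rw [Cfsg.Agent.H26.coe_conjHom, hxy]
      simp [mul_assoc]
    · intro h
      refine ⟨n.2, fun θ hθ θ' he => ?_⟩
      have : θ' = Cfsg.Agent.H43.irrCongr (Cfsg.Agent.H26.conjHom hNH n⁻¹) θ := by
        refine Subtype.ext (funext fun y => ?_)
        rw [Cfsg.Agent.H43.irrCongr_apply]
        refine he _ y ?_
        rw [Cfsg.Agent.H26.coe_conjHom]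
        simp [mul_assoc]
      exact this ▸ h θ hθ
  exact ⟨S.not_dvd_of_isDefectGroup hind, S.isDefectGroup_of_not_dvd hind⟩

end Cfsg.Agent.S4437
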