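import Cfsg.Statements.S4440
import Cfsg.Agent.H41.DegreeWeighted
import Cfsg.Agent.H40.BlockSets
-- import your own Cfsg.Agent.* helpers here

set_option autoImplicit false
open Cfsg

namespace Cfsg.Agent.S4440

/-- Let G be a finite p-solvable group and fix a maximal ideal M of the algebraic integers containing p. Let U be a set of irreducible characters of G such that the class function Σ_{χ ∈ U} χ(1)·χ vanishes at every p-singular element of G. Then U is a union of p-blocks: if χ ∈ U and ψ lies in the same block as χ, then ψ ∈ U. -/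
theorem result {G : Type*} [Group G] [Finite G] (p : ℕ) [Fact p.Prime] (M : Ideal Cfsg.AlgInt) (hM : Cfsg.IsPModular p M) (hsolv : Cfsg.IsPSolvable p G) (U : Set (Cfsg.IrrCharacter G)) (hU : ∀ x : G, p ∣ orderOf x → ∑ᶠ χ ∈ U, (χ : G → ℂ) 1 * (χ : G → ℂ) x = 0) (χ : Cfsg.IrrCharacter G) (hχ : χ ∈ U) (ψ : Cfsg.IrrCharacter G) (hψ : Cfsg.SameBlock M (χ : G → ℂ) (ψ : G → ℂ)) : ψ ∈ U := by
  classical
  haveI := Fintype.ofFinite G
  haveI := hM.2.1
  haveI := Cfsg.Agent.H41.finite_irrCharacter (G := G)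
  haveI := Fintype.ofFinite (Cfsg.IrrCharacter G)
  refine Cfsg.Agent.H40.mem_of_sameBlock_of_coeff_mem (fun g => ?_) hχ hψ
  have h := Cfsg.Agent.H41.DegWeighted.coeff_mem hM (Nat.card G) rfl hsolv
    (Cfsg.Agent.H41.blockIdem U : MonoidAlgebra ℂ G)
    (fun y => ((Subalgebra.mem_center_iff.1 (Cfsg.Agent.H41.blockIdem U).2 y)).symm)
    (congrArg Subtype.val (show Cfsg.Agent.H41.blockIdem U * Cfsg.Agent.H41.blockIdem U =
        Cfsg.Agent.H41.blockIdem U from Cfsg.Agent.H41.center_ext_omega fun φ => by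
      rw [map_mul, Cfsg.Agent.H41.omega_blockIdem]
      split <;> simp))
    (Cfsg.Agent.H40.ext_coeff fun x => by
      rw [Cfsg.Agent.H41.GRing.coeff_adj, Cfsg.Agent.H41.coeff_blockIdem,
        Cfsg.Agent.H41.coeff_blockIdem, Cfsg.Agent.H41.blockCoeff_eq_sum,
        Cfsg.Agent.H41.blockCoeff_eq_sum, map_mul, map_sum, map_inv₀, Complex.conj_natCast]
      congr 1
      refine Finset.sum_congr rfl fun φ _ => ?_
      rw [map_mul, Cfsg.Agent.H26.irr_inv, Complex.conj_conj, Cfsg.Agent.H42.irr_one_eq,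
        Complex.conj_natCast])
    (fun x hx => by
      rw [Cfsg.Agent.H41.coeff_blockIdem, Cfsg.blockCoeff]
      have h0 := hU x⁻¹ (by rwa [orderOf_inv])
      simp only [Cfsg.Agent.H26.irr_inv] at h0
      rw [h0, mul_zero]) g
  rwa [Cfsg.Agent.H41.coeff_blockIdem] at h

end Cfsg.Agent.S4440
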