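import Cfsg.Statements.S4442
import Cfsg.Agent.H56.PrimeDefectCount

set_option autoImplicit false
open Cfsg

namespace Cfsg.Agent.S4442

/-- Blocks of defect one. Let p be an odd prime and G a finite group whose Sylow p-subgroup P has order p; let C = C_G(P) and N = N_G(P), and fix a maximal ideal M of the algebraic integers containing p. Let B be a block of G with defect group P, b a block of C inducing B, and θ the member of b having P in its kernel (there is exactly one). Let T be the stabilizer of θ in N (the elements g ∈ N with θ(g c g⁻¹) = θ(c) for all c ∈ C) and e the index of C in T. Then e divides p − 1 and B contains exactly e + (p − 1)/e irreducible characters. Moreover B is the disjoint union of a set X of e characters and a set Y of (p − 1)/e characters such that, with f the index of C in N: every χ ∈ X has χ(1) ≡ ±(f/e)·θ(1) (mod p), there is one sign ε with ψ(1) ≡ ε f θ(1) (mod p) for all ψ ∈ Y, and all members of Y agree on the p-regular elements of G.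 -/
theorem result {G : Type*} [Group G] [Finite G] (p : ℕ) [Fact p.Prime] (M : Ideal Cfsg.AlgInt) (hM : Cfsg.IsPModular p M) (hodd : p ≠ 2) (P : Sylow p G) (hP : Nat.card P = p) (B : Set (Cfsg.IrrCharacter G)) (hB : Cfsg.IsPBlock M B) (hBP : Cfsg.IsDefectGroup p M B P) (b : Set (Cfsg.IrrCharacter (Subgroup.centralizer ((P : Subgroup G) : Set G)))) (hind : Cfsg.IsInducedBlock M (Subgroup.centralizer ((P : Subgroup G) : Set G)) b B) (θ : Cfsg.IrrCharacter (Subgroup.centralizer ((P : Subgroup G) : Set G))) (hθ : θ ∈ b) (hθP : ∀ x : Subgroup.centralizer ((P : Subgroup G) : Set G), (x : G) ∈ (P : Subgroup G) → (θ : Subgroup.centralizer ((P : Subgroup G) : Set G) → ℂ) x = (θ : Subgroup.centralizer ((P : Subgroup G) : Set G) → ℂ) 1) (T : Subgroup G) (hT : ∀ g : G, g ∈ T ↔ (g ∈ Subgroup.normalizer ((P : Subgroup G) : Set G) ∧ ∀ c c' : Subgroup.centralizer ((P : Subgroup G) : Set G), (c' : G) = g * c * g⁻¹ → (θ : Subgroup.centralizer ((P : Subgroup G) : Set G) → ℂ) c' = (θ : Subgroup.centralizer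 ((P : Subgroup G) : Set G) → ℂ) c)) (e f : ℕ) (he : (Subgroup.centralizer ((P : Subgroup G) : Set G)).relIndex T = e) (hf : (Subgroup.centralizer ((P : Subgroup G) : Set G)).relIndex (Subgroup.normalizer ((P : Subgroup G) : Set G)) = f) : e ∣ p - 1 ∧ Nat.card B = e + (p - 1) / e ∧ ∃ X Y : Set (Cfsg.IrrCharacter G), B = X ∪ Y ∧ Disjoint X Y ∧ Nat.card X = e ∧ Nat.card Y = (p - 1) / e ∧ (∀ χ ∈ X, (Cfsg.charDegree (χ : G → ℂ) : ℤ) ≡ ((f / e * Cfsg.charDegree (θ : Subgroup.centralizer ((P : Subgroup G) : Set G) → ℂ) : ℕ) : ℤ) [ZMOD p] ∨ (Cfsg.charDegree (χ : G → ℂ) : ℤ) ≡ -((f / e * Cfsg.charDegree (θ : Subgroup.centralizer ((P : Subgroup G) : Set G) → ℂ) : ℕ) : ℤ) [ZMOD p]) ∧ (∃ ε : ℤ, (ε = 1 ∨ ε = -1) ∧ ∀ ψ ∈ Y, (Cfsg.charDegree (ψ : G → ℂ) : ℤ) ≡ ε * ((f * Cfsg.charDegree (θ : Subgroup.centralizer ((P : Subgroup G) : Set G) → ℂ) : ℕ) : ℤ) [ZMOD p]) ∧ ∀ ψ ∈ Y, ∀ ψ' ∈ Y, ∀ g : G, ¬ p ∣ orderOf g → (ψ : G → ℂ) g = (ψ' : G → ℂ) g := by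
  have hfac : (Nat.card G).factorization p = 1 := by
    have h := P.card_eq_multiplicity
    rw [hP] at h
    exact Nat.pow_right_injective (Fact.out : p.Prime).two_le (h.symm.trans (pow_one p).symm)
  have hdiv : p ∣ Nat.card G := hP ▸ (P : Subgroup G).card_subgroup_dvd_card
  have hsq : ¬ p ^ 2 ∣ Nat.card G := fun h => by
    have := ((Fact.out : p.Prime).pow_dvd_iff_le_factorization Nat.card_pos.ne').1 h
    omega
  obtain ⟨S, hS⟩ := H43.D1.exists_setup hdiv hsq hP
  have hC : Subgroup.centralizer ((P : Subgroup G) : Set G) = Subgroup.centralizer ({S.x} : Set G) := by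
    rw [← hS]
    show Subgroup.centralizer ((Subgroup.zpowers S.x : Subgroup G) : Set G) = _
    rw [Subgroup.zpowers_eq_closure, Subgroup.centralizer_closure]
  have hN : S.N = Subgroup.normalizer ((P : Subgroup G) : Set G) := by rw [S.N_eq_normalizer, hS]
  haveI : M.IsMaximal := hM.2.1
  subst he hf
  rw [← hN] at hT ⊢
  rw [H41.eq_blockOf_of_mem hind.1 hθ] at hind
  exact H56.PrimeDefect.count hM S hC θ (fun x hx => hθP x (hS.le hx)) hind hT

end Cfsg.Agent.S4442
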