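import Cfsg.Statements.S4443
import Cfsg.Agent.H45.BlockRank

set_option autoImplicit false
open Cfsg

namespace Cfsg.Agent.S4443

/-- Let D be a normal p-subgroup of the finite group G, of order p^d, let p^a be the p-part of the order of G, and fix a Sylow p-subgroup S and a maximal ideal M of the algebraic integers containing p. Index by a finite type ι (via an injective map K) exactly the conjugacy classes of p-regular elements x of G for which D is a Sylow p-subgroup of C_G(x). For classes K_i, K_j let ω(i, j) be the number of pairs (y, z) ∈ K_i × K_j with z y⁻¹ ∈ S; this number is divisible by p^(a−d). Then the number of p-blocks of G having D as a defect group equals the rank over ℤ/pℤ of the matrix with (i, j) entry ω(i, j)/p^(a−d) reduced modulo p. -/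
theorem result {G : Type*} [Group G] [Finite G] (p : ℕ) [Fact p.Prime] (M : Ideal Cfsg.AlgInt) (hM : Cfsg.IsPModular p M) (D : Subgroup G) [D.Normal] (hD : IsPGroup p D) (S : Sylow p G) {ι : Type*} [Fintype ι] [DecidableEq ι] (K : ι → ConjClasses G) (hKinj : Function.Injective K) (hK : ∀ C : ConjClasses G, (∃ i, K i = C) ↔ ∃ x ∈ C.carrier, ¬ p ∣ orderOf x ∧ ∃ Q : Sylow p (Subgroup.centralizer ({x} : Set G)), (Q : Subgroup (Subgroup.centralizer ({x} : Set G))).map (Subgroup.centralizer ({x} : Set G)).subtype = D) : Nat.card {B : Set (Cfsg.IrrCharacter G) // Cfsg.IsPBlock M B ∧ Cfsg.IsDefectGroup p M B D} = (Matrix.of fun i j : ι => ((Nat.card {yz : G × G // yz.1 ∈ (K i).carrier ∧ yz.2 ∈ (K j).carrier ∧ yz.2 * yz.1⁻¹ ∈ (S : Subgroup G)} / p ^ ((Nat.card G).factorization p - (Nat.card D).factorization p) : ℕ) : ZMod p)).rank := by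
  classical
  haveI := Fintype.ofFinite G
  have hx : ∀ i, ConjClasses.mk (K i).out = K i := fun i => Quotient.out_eq _
  have hiff : ∀ g : G, H45.ExactDef p D g ↔ (¬ p ∣ orderOf g ∧ ∃ Q : Sylow p (Subgroup.centralizer ({g} : Set G)),
      (Q : Subgroup (Subgroup.centralizer ({g} : Set G))).map (Subgroup.centralizer ({g} : Set G)).subtype = D) :=
    fun g => and_congr_right fun _ => H40.isSylowIn_iff_exists
  have hxD : ∀ i, H45.ExactDef p D (K i).out := fun i => by
    obtain ⟨x, hxmem, hx'⟩ := (hK (K i)).1 ⟨i, rfl⟩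
    refine ((hiff x).2 hx').of_isConj (ConjClasses.mk_eq_mk_iff_isConj.1 ?_)
    rw [ConjClasses.mem_carrier_iff_mk_eq.1 hxmem, hx]
  have hxall : ∀ g : G, H45.ExactDef p D g → ∃ i, IsConj (K i).out g := fun g hg => by
    obtain ⟨i, hi⟩ := (hK (ConjClasses.mk g)).2 ⟨g, ConjClasses.mem_carrier_mk, (hiff g).1 hg⟩
    exact ⟨i, ConjClasses.mk_eq_mk_iff_isConj.1 (by rw [hx, hi])⟩
  have hcarr : ∀ i (y : G), y ∈ (K i).carrier ↔ IsConj (K i).out y := fun i y => by
    rw [ConjClasses.mem_carrier_iff_mk_eq, ← ConjClasses.mk_eq_mk_iff_isConj, hx, eq_comm]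
  have h := H45.card_blocks_eq_rank (M := M) hM hD S (fun i => (K i).out)
    (fun i j hij => hKinj (by rw [← hx i, ← hx j]; exact hij)) hxD hxall
  refine h.trans (congrArg Matrix.rank ?_)
  ext i j
  symm
  rw [Matrix.of_apply, Matrix.of_apply, Nat.card_congr (Equiv.subtypeEquivRight fun yz => by
    rw [hcarr, hcarr])]

end Cfsg.Agent.S4443
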