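import Cfsg.Statements.S4444
import Cfsg.Agent.H43.SubgroupAction

set_option autoImplicit false
open Cfsg

namespace Cfsg.Agent.S4444

/-- The Glauberman correspondence for a p-group of operators. Inside a finite group Γ let S normalise G with the orders of G and S coprime, S a p-group, and let C = G ⊓ C(S) be the fixed points. Call an irreducible character χ of G S-invariant when χ(s g s⁻¹) = χ(g) for s ∈ S, g ∈ G. Then: (i) for every S-invariant χ there is exactly one irreducible character β of C whose multiplicity [χ_C, β] in the restriction of χ is not divisible by p; (ii) that multiplicity is ≡ 1 or ≡ −1 (mod p); (iii) distinct S-invariant χ give distinct β; (iv) every irreducible character of C arises in this way. So χ ↦ β is a bijection from the S-invariant irreducible characters of G onto the irreducible characters of C. -/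
theorem result {Γ : Type*} [Group Γ] [Fintype Γ] (G S : Subgroup Γ) [Fintype G] (hnorm : ∀ s ∈ S, ∀ g ∈ G, s * g * s⁻¹ ∈ G) (hcop : (Nat.card G).Coprime (Nat.card S)) (p : ℕ) (hp : p.Prime) (hS : IsPGroup p S) (C : Subgroup Γ) [Fintype C] (hC : C = G ⊓ Subgroup.centralizer (S : Set Γ)) (hCG : C ≤ G) : (∀ χ : Cfsg.IrrCharacter G, (∀ s ∈ S, ∀ g g' : G, (g' : Γ) = s * g * s⁻¹ → (χ : G → ℂ) g' = (χ : G → ℂ) g) → ∃! β : Cfsg.IrrCharacter C, ∃ m : ℕ, Cfsg.classInner (fun c : C => (χ : G → ℂ) ⟨c, hCG c.2⟩) (β : C → ℂ) = (m : ℂ) ∧ ¬ p ∣ m) ∧ (∀ χ : Cfsg.IrrCharacter G, (∀ s ∈ S, ∀ g g' : G, (g' : Γ) = s * g * s⁻¹ → (χ : G → ℂ) g' = (χ : G → ℂ) g) → ∀ β : Cfsg.IrrCharacter C, ∀ m : ℕ, Cfsg.classInner (fun c : C => (χ : G → ℂ) ⟨c, hCG c.2⟩) (β : C → ℂ) = (m : ℂ) → ¬ p ∣ m → ((m : ℤ) ≡ 1 [ZMOD p] ∨ (m : ℤ) ≡ -1 [ZMOD p])) ∧ (∀ χ χ' : Cfsg.IrrCharacter G, (∀ s ∈ S, ∀ g g' : G, (g' : Γ) = s * g * s⁻¹ → (χ : G → ℂ) g'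 = (χ : G → ℂ) g) → (∀ s ∈ S, ∀ g g' : G, (g' : Γ) = s * g * s⁻¹ → (χ' : G → ℂ) g' = (χ' : G → ℂ) g) → ∀ β : Cfsg.IrrCharacter C, ∀ m m' : ℕ, Cfsg.classInner (fun c : C => (χ : G → ℂ) ⟨c, hCG c.2⟩) (β : C → ℂ) = (m : ℂ) → ¬ p ∣ m → Cfsg.classInner (fun c : C => (χ' : G → ℂ) ⟨c, hCG c.2⟩) (β : C → ℂ) = (m' : ℂ) → ¬ p ∣ m' → χ = χ') ∧ (∀ β : Cfsg.IrrCharacter C, ∃ χ : Cfsg.IrrCharacter G, (∀ s ∈ S, ∀ g g' : G, (g' : Γ) = s * g * s⁻¹ → (χ : G → ℂ) g' = (χ : G → ℂ) g) ∧ ∃ m : ℕ, Cfsg.classInner (fun c : C => (χ : G → ℂ) ⟨c, hCG c.2⟩) (β : C → ℂ) = (m : ℂ) ∧ ¬ p ∣ m) := by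
  classical
  by_cases hdvd : p ∣ Nat.card G
  · -- then `S` is trivial and `C = G`
    have : Fact p.Prime := ⟨hp⟩
    have hS1 : S = ⊥ := by
      obtain ⟨k, hk⟩ := IsPGroup.iff_card.mp hS
      rcases Nat.eq_zero_or_pos k with rfl | hk0
      · exact Subgroup.card_eq_one.mp (by rw [hk, pow_zero])
      · exfalso
        exact Nat.not_coprime_of_dvd_of_dvd hp.one_lt hdvd
          (hk ▸ dvd_pow_self p hk0.ne') hcop
    have hCeq : C = G := by
      rw [hC, inf_eq_left]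
      intro g _
      rw [Subgroup.mem_centralizer_iff]
      intro s hs
      rw [hS1, Subgroup.coe_bot, Set.mem_singleton_iff] at hs
      rw [hs, one_mul, mul_one]
    let e : C ≃* G := MulEquiv.subgroupCongr hCeq
    have hinner : ∀ (χ : Cfsg.IrrCharacter G) (β : Cfsg.IrrCharacter C),
        Cfsg.classInner (fun c : C => (χ : G → ℂ) ⟨c, hCG c.2⟩) (β : C → ℂ) =
          if H43.irrCongr e χ = β then 1 else 0 := by
      intro χ β
      exact H26.classInner_irr (H43.irrCongr e χ) β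
    have hone : ∀ (χ : Cfsg.IrrCharacter G) (β : Cfsg.IrrCharacter C) (m : ℕ),
        Cfsg.classInner (fun c : C => (χ : G → ℂ) ⟨c, hCG c.2⟩) (β : C → ℂ) = (m : ℂ) → ¬ p ∣ m →
          H43.irrCongr e χ = β ∧ m = 1 := by
      intro χ β m hm hpm
      rw [hinner] at hm
      by_cases h : H43.irrCongr e χ = β
      · rw [if_pos h] at hm
        exact ⟨h, by exact_mod_cast hm.symm⟩
      · rw [if_neg h] at hm
        exact absurd ((by exact_mod_cast hm.symm : m = 0) ▸ dvd_zero p) hpm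
    refine ⟨fun χ _ => ?_, fun χ _ β m hm hpm => ?_, fun χ χ' _ _ β m m' hm hpm hm' hpm' => ?_,
      fun β => ?_⟩
    · refine ⟨H43.irrCongr e χ, ⟨1, by rw [hinner, if_pos rfl, Nat.cast_one], hp.not_dvd_one⟩, ?_⟩
      rintro b ⟨m, hm, hpm⟩
      exact (hone χ b m hm hpm).1.symm
    · left
      rw [(hone χ β m hm hpm).2]
      rfl
    · exact (H43.irrCongrEquiv e).injective
        ((hone χ β m hm hpm).1.trans (hone χ' β m' hm' hpm').1.symm)
    · obtain ⟨χ, hχ⟩ := (H43.irrCongrEquiv e).surjective β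
      have hχ' : H43.irrCongr e χ = β := hχ
      refine ⟨χ, ?_, 1, by rw [hinner, if_pos hχ', Nat.cast_one], hp.not_dvd_one⟩
      intro s hs g g' hg
      rw [hS1, Subgroup.mem_bot] at hs
      subst hs
      rw [show g' = g from Subtype.ext (by simpa using hg)]
  have hd := H43.glaubermanData_of_subgroup G S hnorm hp hS hdvd C hC hCG
  have hmult : ∀ (χ : Cfsg.IrrCharacter G) (β : Cfsg.IrrCharacter C),
      Cfsg.classInner (fun c : C => (χ : G → ℂ) ⟨c, hCG c.2⟩) (β : C → ℂ) =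
        (H43.resMult (Subgroup.inclusion hCG) χ β : ℂ) := by
    intro χ β
    exact H43.classInner_eq_mult (H43.isCharacter_res (ι := Subgroup.inclusion hCG) χ) β
  have hinv : ∀ χ : Cfsg.IrrCharacter G,
      (∀ s ∈ S, ∀ g g' : G, (g' : Γ) = s * g * s⁻¹ → (χ : G → ℂ) g' = (χ : G → ℂ) g) →
      H43.InvFun (H43.conjHom G S hnorm) χ.1 :=
    fun χ h => (H43.invFun_conjHom_iff G S hnorm _).mpr h
  have heq : ∀ (χ : Cfsg.IrrCharacter G) (β : Cfsg.IrrCharacter C) (m : ℕ),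
      Cfsg.classInner (fun c : C => (χ : G → ℂ) ⟨c, hCG c.2⟩) (β : C → ℂ) = (m : ℂ) →
      H43.resMult (Subgroup.inclusion hCG) χ β = m := fun χ β m h => by
    rw [hmult] at h; exact_mod_cast h
  refine ⟨fun χ h => ?_, fun χ h β m hm hpm => ?_, fun χ χ' h h' β m m' hm hpm hm' hpm' => ?_,
    fun β => ?_⟩
  · obtain ⟨β, hβ, hu⟩ := hd.existsUnique χ (hinv χ h)
    refine ⟨β, ⟨_, hmult χ β, hβ⟩, fun b hb => ?_⟩
    obtain ⟨m, hm, hpm⟩ := hb
    exact hu b (fun hdiv => hpm (heq χ b m hm ▸ hdiv))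
  · rw [← heq χ β m hm] at hpm ⊢
    exact hd.mult_pm_one χ (hinv χ h) β hpm
  · by_contra hne
    rcases hd.disjoint (hinv χ h) (hinv χ' h') hne β with hd' | hd'
    · exact hpm (heq χ β m hm ▸ hd')
    · exact hpm' (heq χ' β m' hm' ▸ hd')
  · obtain ⟨χ, hχ, hpn⟩ := hd.exists_of_res β
    exact ⟨χ, (H43.invFun_conjHom_iff G S hnorm _).mp hχ, _, hmult χ β, hpn⟩

end Cfsg.Agent.S4444
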