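import Cfsg.Statements.S4446
import Cfsg.Agent.H43.CyclicCorr

set_option autoImplicit false
open Cfsg

namespace Cfsg.Agent.S4446

/-- Let the finite group Γ be generated by a normal subgroup G and a cyclic subgroup S of coprime orders, C = G ⊓ C(S), and let χ be an S-invariant irreducible character of G with canonical extension χ̂ to Γ (the extension whose determinantal order is coprime to the order of S). Then there are exactly one irreducible character β of C and one sign ε such that χ̂(c s) = ε β(c) for every c ∈ C and every generator s of S; this β is a constituent of the restriction of χ to C; distinct S-invariant χ give distinct β; and every irreducible character of C arises in this way. -/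
theorem result {Γ : Type*} [Group Γ] [Fintype Γ] (G S : Subgroup Γ) [Fintype G] (hnorm : ∀ s ∈ S, ∀ g ∈ G, s * g * s⁻¹ ∈ G) (hcop : (Nat.card G).Coprime (Nat.card S)) (htop : G ⊔ S = ⊤) (hcyc : IsCyclic S) (C : Subgroup Γ) [Fintype C] (hC : C = G ⊓ Subgroup.centralizer (S : Set Γ)) (hCG : C ≤ G) : (∀ (χ : Cfsg.IrrCharacter G) (χh : Cfsg.IrrCharacter Γ), (∀ s ∈ S, ∀ g g' : G, (g' : Γ) = s * g * s⁻¹ → (χ : G → ℂ) g' = (χ : G → ℂ) g) → (∀ g : G, (χh : Γ → ℂ) g = (χ : G → ℂ) g) → (Cfsg.detOrder (χh : Γ → ℂ)).Coprime (Nat.card S) → (∃! βε : Cfsg.IrrCharacter C × ℤ, (βε.2 = 1 ∨ βε.2 = -1) ∧ ∀ c : C, ∀ s : Γ, Subgroup.zpowers s = S → (χh : Γ → ℂ) ((c : Γ) * s) = (βε.2 : ℂ) * (βε.1 : C → ℂ) c) ∧ ∀ β : Cfsg.IrrCharacter C, ∀ ε : ℤ, (ε = 1 ∨ ε = -1) → (∀ c : C, ∀ s : Γ, Subgroup.zpowers s = S → (χh : Γ → ℂ) ((c : Γ) * s) = (ε : ℂ) * (β : C → ℂ) c) → Cfsg.classInner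 (fun c : C => (χ : G → ℂ) ⟨c, hCG c.2⟩) (β : C → ℂ) ≠ 0) ∧ (∀ (χ χ' : Cfsg.IrrCharacter G) (χh χh' : Cfsg.IrrCharacter Γ), (∀ s ∈ S, ∀ g g' : G, (g' : Γ) = s * g * s⁻¹ → (χ : G → ℂ) g' = (χ : G → ℂ) g) → (∀ s ∈ S, ∀ g g' : G, (g' : Γ) = s * g * s⁻¹ → (χ' : G → ℂ) g' = (χ' : G → ℂ) g) → (∀ g : G, (χh : Γ → ℂ) g = (χ : G → ℂ) g) → (∀ g : G, (χh' : Γ → ℂ) g = (χ' : G → ℂ) g) → (Cfsg.detOrder (χh : Γ → ℂ)).Coprime (Nat.card S) → (Cfsg.detOrder (χh' : Γ → ℂ)).Coprime (Nat.card S) → ∀ β : Cfsg.IrrCharacter C, ∀ ε ε' : ℤ, (ε = 1 ∨ ε = -1) → (ε' = 1 ∨ ε' = -1) → (∀ c : C, ∀ s : Γ, Subgroup.zpowers s = S → (χh : Γ → ℂ) ((c : Γ) * s) = (ε : ℂ) * (β : C → ℂ) c) → (∀ c : C, ∀ s : Γ, Subgroup.zpowers s = S → (χh' : Γ → ℂ) ((c : Γ) * s) = (ε' : ℂ) * (β : C → ℂ) c) → χ = χ') ∧ (∀ β : Cfsg.IrrCharacter C, ∃ (χ : Cfsg.IrrCharacter G) (χh : Cfsg.IrrCharacter Γ) (ε :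 ℤ), (∀ s ∈ S, ∀ g g' : G, (g' : Γ) = s * g * s⁻¹ → (χ : G → ℂ) g' = (χ : G → ℂ) g) ∧ (∀ g : G, (χh : Γ → ℂ) g = (χ : G → ℂ) g) ∧ (Cfsg.detOrder (χh : Γ → ℂ)).Coprime (Nat.card S) ∧ (ε = 1 ∨ ε = -1) ∧ ∀ c : C, ∀ s : Γ, Subgroup.zpowers s = S → (χh : Γ → ℂ) ((c : Γ) * s) = (ε : ℂ) * (β : C → ℂ) c) := by
  classical
  have h : H43.CycData G S C := ⟨hnorm, hcop, htop, hcyc, hC, hCG⟩
  refine ⟨fun χ χh _ hext hdet => ⟨?_, ?_⟩, ?_, ?_⟩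
  · obtain ⟨β, ε, hε, hv⟩ := h.exists_sign (χ := χ) (χh := χh) ⟨hext, hdet⟩
    refine ⟨(β, ε), ⟨hε, hv⟩, ?_⟩
    rintro ⟨β', ε'⟩ ⟨hε', hv'⟩
    obtain ⟨s, hs⟩ := h.exists_gen
    have h1 := H43.CycData.coef_of_value (χh := χh) (fun c => hv c s hs) β'
    have h2 := H43.CycData.coef_of_value (χh := χh) (fun c => hv' c s hs) β'
    rw [if_pos rfl] at h2
    rw [h2] at h1
    simp only at h1 hε'
    by_cases hb : β = β'
    · subst hb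
      rw [if_pos rfl, Int.cast_inj] at h1
      rw [h1]
    · rw [if_neg hb, Int.cast_eq_zero] at h1
      omega
  · intro β ε hε hv
    obtain ⟨s, hs⟩ := h.exists_gen
    rw [H43.classInner_eq_mult (φ := fun c : C => χ.1 ⟨c, hCG c.2⟩)
      (H26.isCharacter_comp (H26.irr_isCharacter χ) (Subgroup.inclusion hCG)), Nat.cast_ne_zero]
    exact h.mult_ne_zero_of_value (χ := χ) (χh := χh) ⟨hext, hdet⟩
      (by rcases hε with rfl | rfl <;> decide) (hs ▸ Subgroup.mem_zpowers s) (fun c => hv c s hs)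
  · intro χ χ' χh χh' _ _ he he' hd hd' β ε ε' hε hε' hv hv'
    exact h.corr_injective (χh := χh) (χh' := χh') ⟨he, hd⟩ ⟨he', hd'⟩ hε hε' hv hv'
  · intro β
    obtain ⟨χ, χh, ε, hχ, ⟨he, hd⟩, hε, hv⟩ := h.corr_surjective β
    exact ⟨χ, χh, ε, hχ, he, hd, hε, hv⟩

end Cfsg.Agent.S4446
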