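import Cfsg.Statements.S4447
import Cfsg.Agent.H43.SubConj
import Cfsg.Agent.H43.GlaubermanLemma

set_option autoImplicit false
open Cfsg

namespace Cfsg.Agent.S4447

/-- Inside a finite group Γ let S normalise G and also normalise a normal subgroup N of G, with the order of S coprime to the index of N in G and S or G/N solvable. Then for every S-invariant irreducible character χ of G, the restriction of χ to N has an S-invariant irreducible constituent. -/
theorem result {Γ : Type*} [Group Γ] [Fintype Γ] (G S N : Subgroup Γ) [Fintype G] [Fintype N] (hnorm : ∀ s ∈ S, ∀ g ∈ G, s * g * s⁻¹ ∈ G) (hNG : N ≤ G) [hNn : (N.subgroupOf G).Normal] (hNS : ∀ s ∈ S, ∀ n ∈ N, s * n * s⁻¹ ∈ N) (hcop : (N.relIndex G).Coprime (Nat.card S)) (hsolv : Group.IsSolvable S ∨ Group.IsSolvable (G ⧸ N.subgroupOf G)) (χ : Cfsg.IrrCharacter G) (hinv : (∀ s ∈ S, ∀ g g' : G, (g' : Γ) = s * g * s⁻¹ → (χ : G → ℂ) g' = (χ : G → ℂ) g)) : ∃ θ : Cfsg.IrrCharacter N, Cfsg.classInner (fun n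 : N => (χ : G → ℂ) ⟨n, hNG n.2⟩) (θ : N → ℂ) ≠ 0 ∧ (∀ s ∈ S, ∀ g g' : N, (g' : Γ) = s * g * s⁻¹ → (θ : N → ℂ) g' = (θ : N → ℂ) g) := by
  classical
  haveI : Fintype (N.subgroupOf G) := Fintype.ofFinite _
  set φ : N → ℂ := fun n : N => (χ : G → ℂ) ⟨n, hNG n.2⟩
  have hφ : Cfsg.IsCharacter N φ :=
    H26.isCharacter_comp (H26.irr_isCharacter χ) (Subgroup.inclusion hNG)
  have hGN : G ≤ Subgroup.normalizer (N : Set Γ) :=
    Subgroup.le_normalizer_of_normal_subgroupOf hNG
  have hSN : S ≤ Subgroup.normalizer (N : Set Γ) := H43.le_normalizer_of_conj_mem hNS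
  obtain ⟨θ, hθ⟩ : ∃ θ : Cfsg.IrrCharacter N, H43.mult φ θ ≠ 0 := by
    by_contra h
    push Not at h
    have h1 := H43.apply_one_eq_sum_mult hφ
    simp only [h, Nat.cast_zero, zero_mul, Finset.sum_const_zero] at h1
    exact H26.irr_one_ne_zero χ h1
  -- invariance of `φ` under `G` and `S`, hence transitivity of `G` on the constituents
  have hφinv : ∀ x : Subgroup.normalizer (N : Set Γ), (x : Γ) ∈ S →
      ∀ n, φ (N.normalizerMonoidHom x n) = φ n := fun x hx n => hinv x hx _ _ rfl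
  have hmult : ∀ x : Subgroup.normalizer (N : Set Γ), (x : Γ) ∈ S → ∀ η : Cfsg.IrrCharacter N,
      H43.mult φ (H43.subConj N x η) = H43.mult φ η := fun x hx η => by
    unfold H43.mult
    congr 2
    rw [← H43.classInner_congr (N.normalizerMonoidHom x) φ η.1,
      show (fun h => φ (N.normalizerMonoidHom x h)) = φ from funext (hφinv x hx)]
    rfl
  set e : N.subgroupOf G ≃* N := Subgroup.subgroupOfEquivOfLe hNG
  have htrans : ∀ η η' : Cfsg.IrrCharacter N, H43.mult φ η ≠ 0 → H43.mult φ η' ≠ 0 →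
      ∃ g : G, H43.subConj N ⟨g, hGN g.2⟩ η = η' := by
    intro η η' h h'
    have key : ∀ ζ : Cfsg.IrrCharacter N,
        H43.restrMult (N.subgroupOf G) χ (H43.irrCongr e ζ) = H43.mult φ ζ := fun ζ => by
      unfold H43.restrMult H43.mult
      congr 2
      exact H43.classInner_congr e φ ζ.1
    obtain ⟨g, hg⟩ := H43.exists_irrConj_of_restrMult_ne_zero (N.subgroupOf G) χ
      ((key η).symm ▸ h) ((key η').symm ▸ h')
    refine ⟨g, Subtype.ext (funext fun n => ?_)⟩
    have h1 := congrFun (congrArg Subtype.val hg) (e.symm n)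
    rw [H43.irrConj_apply, H43.irrCongr_apply, H43.irrCongr_apply, e.apply_symm_apply] at h1
    rw [← h1]
    exact congrArg η.1 (Subtype.ext rfl)
  set L : Subgroup Γ := G ⊔ S
  haveI : (G.subgroupOf L).Normal := (Subgroup.normal_subgroupOf_iff_le_normalizer le_sup_left).mpr
    (sup_le Subgroup.le_normalizer (H43.le_normalizer_of_conj_mem hnorm))
  haveI : (N.subgroupOf L).Normal :=
    (Subgroup.normal_subgroupOf_iff_le_normalizer (hNG.trans le_sup_left)).mpr (sup_le hGN hSN)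
  set X : Subgroup L := (H43.conjStab N θ.1).subgroupOf L
  have hGX : G.subgroupOf L ⊔ X = ⊤ := by
    rw [eq_top_iff, ← Subgroup.subgroupOf_self L, Subgroup.subgroupOf_sup le_sup_left le_sup_right]
    refine sup_le le_sup_left fun s hs => ?_
    have hs' : (s : Γ) ∈ S := hs
    obtain ⟨g, hg⟩ := htrans θ (H43.subConj N ⟨(s : Γ), hSN hs'⟩ θ) hθ
      (by rw [hmult ⟨(s : Γ), hSN hs'⟩ hs']; exact hθ)
    have hgL : (g : Γ) ∈ L := Subgroup.mem_sup_left g.2
    rw [show s = (s * (⟨g, hgL⟩ : L)⁻¹) * ⟨g, hgL⟩ from (inv_mul_cancel_right _ _).symm]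
    refine mul_mem (Subgroup.mem_sup_right ?_) (Subgroup.mem_sup_left g.2)
    refine (H43.mem_conjStab_iff_subConj (mul_mem (hSN hs) (inv_mem (hGN g.2)))).mpr ?_
    rw [show (⟨_, mul_mem (hSN hs) (inv_mem (hGN g.2))⟩ : Subgroup.normalizer (N : Set Γ)) =
      ⟨(s : Γ), hSN hs⟩ * (⟨g, hGN g.2⟩)⁻¹ from rfl, ← H43.subConj_subConj, ← hg,
      H43.subConj_subConj, mul_inv_cancel]
    exact Subtype.ext (funext fun n => congrArg θ.1 (by rw [map_one]; rfl))
  obtain ⟨g, hg, h⟩ := H43.exists_conj_le_section (G.subgroupOf L) (S.subgroupOf L)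
    (N.subgroupOf L) X
    (by rw [← Subgroup.subgroupOf_sup le_sup_left le_sup_right, Subgroup.subgroupOf_self])
    (Subgroup.subgroupOf_mono _ hNG)
    (fun n hn => H43.le_conjStab_self N θ hn)
    (by
      rw [Subgroup.relIndex_subgroupOf le_sup_right, Subgroup.relIndex_subgroupOf le_sup_left]
      exact (hcop.coprime_dvd_right (Subgroup.relIndex_dvd_card N S)).symm)
    (hsolv.imp (fun hs => by
      haveI : Group.IsSolvable S := hs
      exact Group.isSolvable_of_surjective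
        (f := (Subgroup.subgroupOfEquivOfLe (le_sup_right : S ≤ L)).symm.toMonoidHom)
        (MulEquiv.surjective _))
      (fun hs => by
        haveI : Group.IsSolvable (G ⧸ N.subgroupOf G) := hs
        refine Group.isSolvable_of_surjective
          (f := QuotientGroup.map (N.subgroupOf G) ((N.subgroupOf L).subgroupOf (G.subgroupOf L))
            (Subgroup.subgroupOfEquivOfLe (le_sup_left : G ≤ L)).symm.toMonoidHom
            fun n hn => hn) ?_
        exact QuotientGroup.map_surjective_of_surjective _ _ _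
          (QuotientGroup.mk_surjective.comp (MulEquiv.surjective _)) _))
    hGX
  refine ⟨H43.subConj N ⟨(g : Γ), hGN hg⟩ θ, ?_, ?_⟩
  · rw [H43.classInner_eq_mult hφ, Nat.cast_ne_zero]
    have hgφ : ∀ n, φ (N.normalizerMonoidHom ⟨(g : Γ), hGN hg⟩ n) = φ n := fun n => by
      show χ.1 _ = χ.1 _
      rw [show (⟨((N.normalizerMonoidHom ⟨(g : Γ), hGN hg⟩ n : N) : Γ), hNG (Subtype.prop _)⟩ : G)
        = ⟨(g : Γ), hg⟩ * ⟨n, hNG n.2⟩ * (⟨(g : Γ), hg⟩)⁻¹ from Subtype.ext rfl, H26.irr_conj]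
    unfold H43.mult at hθ ⊢
    rw [← H43.classInner_congr (N.normalizerMonoidHom ⟨(g : Γ), hGN hg⟩) φ θ.1,
      show (fun h => φ (N.normalizerMonoidHom ⟨(g : Γ), hGN hg⟩ h)) = φ from funext hgφ] at hθ
    exact hθ
  · refine H43.conjInv_of_le_conjStab fun s hs => ?_
    obtain ⟨hx, h'⟩ := h ⟨s, Subgroup.mem_sup_right hs⟩ hs
    refine (H43.mem_conjStab_iff_subConj (hSN hs)).mpr ?_
    rw [H43.subConj_subConj]
    refine Subtype.ext (funext fun n => ?_)
    rw [H43.subConj_apply, H43.subConj_apply, ← h' (N.normalizerMonoidHom ⟨(g : Γ), hGN hg⟩ n)]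
    refine congrArg θ.1 (Subtype.ext ?_)
    simp [H43.normalizerMonoidHom_coe, mul_assoc]

end Cfsg.Agent.S4447
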