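import Cfsg.Statements.S4449
import Cfsg.Agent.H43.GlaubermanSolvable
import Cfsg.Agent.H43.SubgroupAction

set_option autoImplicit false
open Cfsg

namespace Cfsg.Agent.S4449

/-- Inside a finite group Γ let the solvable subgroup S normalise G with the orders of G and S coprime, and let N be a normal subgroup of G normalised by S. Then for every S-invariant irreducible character ϑ of N, the induced character ϑ^G has an S-invariant irreducible constituent. -/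
theorem result {Γ : Type*} [Group Γ] [Fintype Γ] (G S N : Subgroup Γ) [Fintype G] [Fintype N] (hnorm : ∀ s ∈ S, ∀ g ∈ G, s * g * s⁻¹ ∈ G) (hNG : N ≤ G) (hNnormal : ∀ g ∈ G, ∀ n ∈ N, g * n * g⁻¹ ∈ N) (hNS : ∀ s ∈ S, ∀ n ∈ N, s * n * s⁻¹ ∈ N) (hcop : (Nat.card G).Coprime (Nat.card S)) (hsolv : Group.IsSolvable S) (θ : Cfsg.IrrCharacter N) (hinv : (∀ s ∈ S, ∀ g g' : N, (g' : Γ) = s * g * s⁻¹ → (θ : N → ℂ) g' = (θ : N → ℂ) g)) : ∃ χ : Cfsg.IrrCharacter G, Cfsg.classInner (fun n : N => (χ : G → ℂ) ⟨n, hNG n.2⟩) (θ : N → ℂ) ≠ 0 ∧ (∀ s ∈ S, ∀ g g' : G, (g' : Γ) = s * g * s⁻¹ → (χ : G → ℂ) g' = (χ : G → ℂ) g) := by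
  classical
  haveI : (N.subgroupOf G).Normal := ⟨fun n hn g => hNnormal g g.2 n hn⟩
  haveI : Fintype (N.subgroupOf G) := Fintype.ofFinite _
  let e : N.subgroupOf G ≃* N := Subgroup.subgroupOfEquivOfLe hNG
  have hN' : ∀ s, ∀ g ∈ N.subgroupOf G, H43.conjHom G S hnorm s g ∈ N.subgroupOf G :=
    fun s g hg => hNS s s.2 g hg
  obtain ⟨χ, hχ, hne⟩ := H43.exists_invFun_above _ rfl hsolv hcop (H43.conjHom G S hnorm)
    (N.subgroupOf G) hN' (H43.irrCongr e θ) (fun s n => hinv s s.2 (e n) _ rfl)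
  refine ⟨χ, fun h0 => hne ?_, (H43.invFun_conjHom_iff G S hnorm _).mp hχ⟩
  refine H43.mult_eq_of_classInner ?_
  rw [Nat.cast_zero, ← h0]
  exact H43.classInner_congr e (fun n : N => (χ : G → ℂ) ⟨n, hNG n.2⟩) θ.1

end Cfsg.Agent.S4449
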