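import Cfsg.Statements.S4450
import Cfsg.Agent.H43.InterGroup
import Cfsg.Agent.H43.InvariantAbove
import Cfsg.Agent.H20.SchurZassenhaus

set_option autoImplicit false
open Cfsg

namespace Cfsg.Agent.S4450

/-- Let N ≤ G be normal subgroups of the finite group Γ with the index of G in Γ coprime to the index of N in G, and Γ/G or G/N solvable. Then for every irreducible character ϑ of N invariant under conjugation by Γ, the induced character ϑ^G has an irreducible constituent invariant under conjugation by Γ. -/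
theorem result {Γ : Type*} [Group Γ] [Fintype Γ] (G N : Subgroup Γ) [hG : G.Normal] [hN : N.Normal] [Fintype G] [Fintype N] (hNG : N ≤ G) (hcop : (G.index).Coprime (N.relIndex G)) (hsolv : Group.IsSolvable (Γ ⧸ G) ∨ Group.IsSolvable (G ⧸ N.subgroupOf G)) (θ : Cfsg.IrrCharacter N) (hinv : ∀ (x : Γ) (n : N), (θ : N → ℂ) ⟨x * n * x⁻¹, hN.conj_mem n n.2 x⟩ = (θ : N → ℂ) n) : ∃ χ : Cfsg.IrrCharacter G, Cfsg.classInner (fun n : N => (χ : G → ℂ) ⟨n, hNG n.2⟩) (θ : N → ℂ) ≠ 0 ∧ ∀ (x : Γ) (g : G), (χ : G → ℂ) ⟨x * g * x⁻¹, hG.conj_mem g g.2 x⟩ = (χ : G → ℂ) g := by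
  classical
  suffices ∃ χ : Cfsg.IrrCharacter G, H43.mult (fun n : N => χ.1 ⟨n, hNG n.2⟩) θ ≠ 0 ∧
      ∀ (x : Γ) (g : G), χ.1 (MulAut.conjNormal x g) = χ.1 g by
    obtain ⟨χ, hm, hχ⟩ := this
    refine ⟨χ, ?_, fun x g => hχ x g⟩
    rw [H43.classInner_eq_mult (φ := fun n : N => χ.1 ⟨n, hNG n.2⟩)
      (H26.isCharacter_comp (H26.irr_isCharacter χ) (Subgroup.inclusion hNG)), Nat.cast_ne_zero]
    exact hm
  rcases hsolv with hs | hs
  · exact H43.exists_invariant_above_solvable_quotient G hNG hcop hs θ fun x m => hinv x m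
  · set π := QuotientGroup.mk' N
    have hπ : Function.Surjective π := QuotientGroup.mk'_surjective N
    haveI : (G.map π).Normal := Subgroup.Normal.map hG π hπ
    haveI : ((G.map π).subgroupOf ⊤).Normal := inferInstance
    have hidx : (G.map π).relIndex ⊤ = G.index := by
      rw [Subgroup.relIndex_top_right]
      exact Subgroup.index_map_eq _ hπ (by rw [QuotientGroup.ker_mk']; exact hNG)
    have hcard : Nat.card (G.map π) = N.relIndex G := by
      rw [← Subgroup.relIndex_ker, QuotientGroup.ker_mk']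
    obtain ⟨T₀, -, hT, hTcard⟩ := H20.exists_complement_of_coprime (N := G.map π) (S := ⊤) le_top
      (by rw [Subgroup.normalizer_eq_top]) (by rw [hidx, hcard]; exact hcop.symm)
    set T : Subgroup Γ := T₀.comap π with hTdef
    have hTrel : N.relIndex T = G.index := by
      rw [show N.relIndex T = π.ker.relIndex T by rw [QuotientGroup.ker_mk'],
        Subgroup.relIndex_ker, hTdef, Subgroup.map_comap_eq_self_of_surjective hπ, hTcard, hidx]
    have hnorm : ∀ (H : Subgroup Γ) [H.Normal] (K : Subgroup Γ),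
        K ≤ Subgroup.normalizer (H : Set Γ) := fun H _ K => by
      rw [Subgroup.normalizer_eq_top]; exact le_top
    obtain ⟨χ, hχ, hm⟩ := H43.exists_conjInv_above _ G T N rfl (hnorm G T) (hnorm N T) (hnorm N G)
      hNG (by rw [hTrel]; exact hcop) (H43.exists_series_of_isSolvable G N hNG hs) θ
      (fun s _ g g' e => by
        rw [show g' = (⟨s * g * s⁻¹, hN.conj_mem g g.2 s⟩ : N) from Subtype.ext e]
        exact hinv s g)
    refine ⟨χ, hm, fun x g => ?_⟩
    have hle : G ⊔ T ≤ H43.conjStab G χ.1 :=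
      sup_le (H43.le_conjStab_self G χ) (H43.le_conjStab_of_conjInv (hnorm G T) hχ)
    have htop : G ⊔ T = ⊤ := by
      have h1 := congrArg (Subgroup.comap π) hT
      rw [Subgroup.comap_top] at h1
      rw [← h1, hTdef, ← Subgroup.comap_sup_eq _ _ _ hπ, Subgroup.comap_map_eq, QuotientGroup.ker_mk',
        sup_eq_left.mpr hNG]
    rw [htop] at hle
    obtain ⟨hx, h⟩ := hle (Subgroup.mem_top x)
    exact h g

end Cfsg.Agent.S4450
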