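import Cfsg.Statements.S4451
import Cfsg.Agent.H43.CyclicCorr
import Cfsg.Agent.H43.CyclicPattern
import Cfsg.Agent.H43.CoprimeRestrict

set_option autoImplicit false
open Cfsg
open scoped ComplexConjugate

namespace Cfsg.Agent.S4451

variable {Γ : Type*} [Group Γ] [Fintype Γ]

/-- The coefficient of `β` along `S` has natural Fourier coefficients. -/
theorem coef_fourier {S C : Subgroup Γ} [Fintype C] [Fintype S]
    (hcomm : ∀ c ∈ C, ∀ x ∈ S, Commute c x) (hS : ∀ x ∈ S, ∀ y ∈ S, Commute x y)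
    (χh : Cfsg.IrrCharacter Γ) (β : Cfsg.IrrCharacter C) (lam : S →* ℂˣ) :
    ∃ k : ℕ, ∑ x : S, H43.CycData.coef C χh β (x : Γ) * conj (lam x : ℂ) =
      (Nat.card S : ℂ) * k := by
  classical
  haveI : Fintype (C ⊔ S : Subgroup Γ) := Fintype.ofFinite _
  set j := Subgroup.inclusion (le_sup_left : C ≤ C ⊔ S)
  set i := Subgroup.inclusion (le_sup_right : S ≤ C ⊔ S)
  have hD : Cfsg.IsCharacter (C ⊔ S : Subgroup Γ) (fun d => χh.1 d) :=
    H26.isCharacter_comp (H26.irr_isCharacter χh) (C ⊔ S).subtype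
  have hcent : ∀ (d : (C ⊔ S : Subgroup Γ)) (x : S), Commute (d : Γ) (x : Γ) := by
    intro d x
    have hle : C ⊔ S ≤ Subgroup.centralizer ({(x : Γ)} : Set Γ) := sup_le
      (fun c hc => Subgroup.mem_centralizer_singleton_iff.mpr (hcomm c hc x x.2).eq)
      (fun y hy => Subgroup.mem_centralizer_singleton_iff.mpr (hS y hy x x.2).eq)
    exact Subgroup.mem_centralizer_singleton_iff.mp (hle d.2)
  have hη : ∀ η : Cfsg.IrrCharacter (C ⊔ S : Subgroup Γ), ∃ w : S →* ℂˣ, ∀ (c : C) (x : S),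
      η.1 (j c * i x) = (w x : ℂ) * η.1 (j c) := by
    intro η
    obtain ⟨n, ρ, hρ, e⟩ := η.2
    haveI := H25.nontrivial_of_isIrreducible ρ
    have hd : (Module.finrank ℂ (Fin n → ℂ) : ℂ) ≠ 0 :=
      Nat.cast_ne_zero.mpr Module.finrank_pos.ne'
    have hsc : ∀ x : S, ρ (i x) = (LinearMap.trace ℂ (Fin n → ℂ) (ρ (i x)) /
        (Module.finrank ℂ (Fin n → ℂ) : ℂ)) • LinearMap.id := fun x =>
      H25.eq_smul_id_of_comm ρ (ρ (i x)) fun y => by
        rw [← Module.End.mul_eq_comp, ← Module.End.mul_eq_comp, ← map_mul, ← map_mul]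
        exact congrArg ρ (Subtype.ext (hcent y x).eq.symm)
    let w : S →* ℂ :=
      { toFun := fun x => LinearMap.trace ℂ (Fin n → ℂ) (ρ (i x)) /
          (Module.finrank ℂ (Fin n → ℂ) : ℂ)
        map_one' := by
          rw [map_one, map_one, LinearMap.trace_one, div_self hd]
        map_mul' := fun x y => by
          rw [map_mul i, map_mul ρ]
          conv_lhs => rw [hsc x]
          rw [smul_mul_assoc, map_smul, smul_eq_mul, ← Module.End.one_eq_id, one_mul,
            mul_div_assoc] }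
    refine ⟨w.toHomUnits, fun c x => ?_⟩
    rw [← e]
    show LinearMap.trace ℂ _ (ρ _) = w x * LinearMap.trace ℂ _ (ρ _)
    rw [map_mul ρ, hsc x, mul_smul_comm, map_smul, smul_eq_mul, ← Module.End.one_eq_id, mul_one]
    rfl
  choose w hw using hη
  refine ⟨∑ η : Cfsg.IrrCharacter (C ⊔ S : Subgroup Γ),
    if w η = lam then H43.mult (fun d : (C ⊔ S : Subgroup Γ) => χh.1 d) η *
      H43.mult (fun c : C => η.1 (j c)) β else 0, ?_⟩
  have hcoef : ∀ x : S, H43.CycData.coef C χh β (x : Γ) =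
      ∑ η : Cfsg.IrrCharacter (C ⊔ S : Subgroup Γ),
        ((H43.mult (fun d : (C ⊔ S : Subgroup Γ) => χh.1 d) η *
          H43.mult (fun c : C => η.1 (j c)) β : ℕ) : ℂ) * (w η x : ℂ) := by
    intro x
    rw [H43.CycData.coef, show (fun c : C => χh.1 ((c : Γ) * (x : Γ))) =
      ∑ η : Cfsg.IrrCharacter (C ⊔ S : Subgroup Γ),
        ((H43.mult (fun d : (C ⊔ S : Subgroup Γ) => χh.1 d) η : ℂ) * (w η x : ℂ)) •
          (fun c : C => η.1 (j c)) from funext fun c => by
      rw [Finset.sum_apply]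
      have h1 := congrFun (H43.eq_sum_mult hD) (j c * i x)
      rw [Finset.sum_apply] at h1
      refine h1.trans (Finset.sum_congr rfl fun η _ => ?_)
      rw [Pi.smul_apply, Pi.smul_apply, smul_eq_mul, smul_eq_mul, hw, mul_assoc],
      H26.classInner_sum_left]
    refine Finset.sum_congr rfl fun η _ => ?_
    rw [H26.classInner_smul_left, H43.classInner_eq_mult (φ := fun c : C => η.1 (j c))
      (H26.isCharacter_comp (H26.irr_isCharacter η) j), Nat.cast_mul]
    ring
  simp_rw [hcoef, Finset.sum_mul]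
  rw [Finset.sum_comm, Nat.cast_sum, Finset.mul_sum]
  refine Finset.sum_congr rfl fun η _ => ?_
  simp_rw [mul_assoc, ← Finset.mul_sum]
  by_cases h : w η = lam
  · rw [if_pos h, h, Finset.sum_congr rfl fun x _ => H43.hom_mul_conj lam x, Finset.sum_const,
      Finset.card_univ, ← Nat.card_eq_fintype_card, nsmul_eq_mul, mul_one, mul_comm]
  · rw [if_neg h, Nat.cast_zero, mul_zero]
    haveI : IsMulCommutative S := ⟨⟨fun a b => Subtype.ext (hS a a.2 b b.2).eq⟩⟩
    have hne : w η * lam⁻¹ ≠ 1 := fun e => h (MonoidHom.ext fun x => by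
      have := DFunLike.congr_fun e x
      rwa [MonoidHom.mul_apply, MonoidHom.inv_apply, MonoidHom.one_apply, mul_inv_eq_one] at this)
    have h1 := H27.sum_apply_linear hne
    rw [Finset.sum_congr rfl fun x _ => show (w η x : ℂ) * conj (lam x : ℂ) =
      (((w η * lam⁻¹) x : ℂˣ) : ℂ) by
        rw [MonoidHom.mul_apply, MonoidHom.inv_apply, Units.val_mul]
        congr 1
        have h2 : (lam x : ℂ) * (((lam x)⁻¹ : ℂˣ) : ℂ) = 1 := by rw [Units.mul_inv]
        exact mul_left_cancel₀ (Units.ne_zero _) ((H43.hom_mul_conj lam x).trans h2.symm),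
      h1, mul_zero]

/-- Let the finite group Γ be generated by a normal subgroup G and a cyclic subgroup S of coprime orders such that every non-identity element of S has the same centraliser C = G ⊓ C(S) in G. Let χ be an S-invariant irreducible character of G, χ̂ its canonical extension to Γ (determinantal order coprime to the order of S), and β the irreducible character of C with χ̂(c s) = ε₀ β(c) for c ∈ C and generators s of S (ε₀ = ±1). Then there are a sign ε = ±1, which may differ from ε₀, and a linear character μ of S with μ² = 1, such that: (a) χ̂(c x) = ε β(c) μ(x) for all c ∈ C and all x ∈ S other than 1; (b) the restriction of χ to C equals |S|·ϑ + ε β for some character ϑ of C or ϑ = 0; (c) |S| divides χ(1) − ε β(1). -/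
theorem result {Γ : Type*} [Group Γ] [Fintype Γ] (G S : Subgroup Γ) [Fintype G] (hnorm : ∀ s ∈ S, ∀ g ∈ G, s * g * s⁻¹ ∈ G) (hcop : (Nat.card G).Coprime (Nat.card S)) (htop : G ⊔ S = ⊤) (hcyc : IsCyclic S) (C : Subgroup Γ) [Fintype C] (hC : C = G ⊓ Subgroup.centralizer (S : Set Γ)) (hCG : C ≤ G) (hfpf : ∀ x ∈ S, x ≠ 1 → G ⊓ Subgroup.centralizer ({x} : Set Γ) = C) (χ : Cfsg.IrrCharacter G) (hinv : (∀ s ∈ S, ∀ g g' : G, (g' : Γ) = s * g * s⁻¹ → (χ : G → ℂ) g' = (χ : G → ℂ) g)) (χh : Cfsg.IrrCharacter Γ) (hext : (∀ g : G, (χh : Γ → ℂ) g = (χ : G → ℂ) g)) (hdet : (Cfsg.detOrder (χh : Γ → ℂ)).Coprime (Nat.card S)) (β : Cfsg.IrrCharacter C) (ε₀ : ℤ) (hε₀ : ε₀ = 1 ∨ ε₀ = -1) (hβ : ∀ c : C, ∀ s : Γ, Subgroup.zpowers s = S → (χh : Γ → ℂ) ((c : Γ) * s) = (ε₀ : ℂ) * (β : C → ℂ) c) : ∃ ε : ℤ, (ε = 1 ∨ ε = -1) ∧ (∃ μ : S → ℂ, Cfsg.IsCharacter S μ ∧ μ 1 = 1 ∧ (∀ x : S, μ x * μ x = 1) ∧ ∀ c : C, ∀ x : S, x ≠ 1 → (χh : Γ → ℂ) ((c : Γ) * x) = (ε : ℂ) * (β : C → ℂ) c *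 μ x) ∧ (∃ ϑ : C → ℂ, Cfsg.IsCharacter C ϑ ∧ (fun c : C => (χ : G → ℂ) ⟨c, hCG c.2⟩) = fun c => (Nat.card S : ℂ) * ϑ c + (ε : ℂ) * (β : C → ℂ) c) ∧ (Nat.card S : ℤ) ∣ (Cfsg.charDegree (χ : G → ℂ) : ℤ) - ε * (Cfsg.charDegree (β : C → ℂ) : ℤ) := by
  classical
  haveI : Fintype S := Fintype.ofFinite _
  have h : H43.CycData G S C := ⟨hnorm, hcop, htop, hcyc, hC, hCG⟩
  haveI := h.normal
  haveI := hcyc
  haveI : IsMulCommutative S := ⟨⟨fun a b => (IsCyclic.commGroup (α := S)).mul_comm a b⟩⟩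
  have hres : Cfsg.IsCharacter C fun c : C => χ.1 ⟨c, hCG c.2⟩ :=
    H26.isCharacter_comp (H26.irr_isCharacter χ) (Subgroup.inclusion hCG)
  have hcard : (Fintype.card S : ℤ) = (Nat.card S : ℤ) := by rw [Nat.card_eq_fintype_card]
  -- the trivial case
  rcases subsingleton_or_nontrivial S with hS1 | hS1
  · have hone : Subgroup.zpowers (1 : Γ) = S := by
      rw [Subgroup.zpowers_one_eq_bot, eq_comm, Subgroup.eq_bot_iff_forall]
      exact fun x hx => congrArg Subtype.val (Subsingleton.elim (⟨x, hx⟩ : S) 1)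
    have hval : ∀ c : C, χ.1 ⟨c, hCG c.2⟩ = (ε₀ : ℂ) * β.1 c := fun c => by
      rw [← hext, ← hβ c 1 hone, mul_one]
    refine ⟨ε₀, hε₀, ⟨fun _ => 1, (H26.oneIrr S).2 |> fun h => H26.irr_isCharacter ⟨_, h⟩, rfl,
      fun _ => one_mul 1, fun c x hx => absurd (Subsingleton.elim x 1) hx⟩,
      ⟨0, H26.isCharacter_zero C, funext fun c => by rw [hval, Pi.zero_apply, mul_zero, zero_add]⟩,
      by rw [Nat.card_unique]; exact one_dvd _⟩
  -- the correspondents of all nontrivial elements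
  have hloc : ∀ x : S, x ≠ 1 → ∃ (γ : Cfsg.IrrCharacter C) (e : ℤ), (e = 1 ∨ e = -1) ∧
      ∀ c : C, χh.1 ((c : Γ) * (x : Γ)) = (e : ℂ) * γ.1 c := by
    intro x hx
    have hx' : (x : Γ) ≠ 1 := fun e => hx (Subtype.ext e)
    set X : Subgroup Γ := Subgroup.zpowers (x : Γ)
    have hXS : X ≤ S := Subgroup.zpowers_le.mpr x.2
    set L : Subgroup Γ := G ⊔ X
    haveI : Fintype L := Fintype.ofFinite _
    haveI : Fintype (G.subgroupOf L) := Fintype.ofFinite _
    haveI : Fintype (C.subgroupOf L) := Fintype.ofFinite _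
    set eG : G.subgroupOf L ≃* G := Subgroup.subgroupOfEquivOfLe le_sup_left
    set eC : C.subgroupOf L ≃* C := Subgroup.subgroupOfEquivOfLe (hCG.trans le_sup_left)
    have eX : X.subgroupOf L ≃* X := Subgroup.subgroupOfEquivOfLe le_sup_right
    have hd : H43.CycData (G.subgroupOf L) (X.subgroupOf L) (C.subgroupOf L) := by
      refine ⟨fun s hs g hg => hnorm s (hXS hs) g hg, ?_, ?_, ?_, ?_,
        Subgroup.subgroupOf_mono _ hCG⟩
      · rw [Nat.card_congr eG.toEquiv, Nat.card_congr eX.toEquiv]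
        exact hcop.coprime_dvd_right (Subgroup.card_dvd_of_le hXS)
      · rw [← Subgroup.subgroupOf_sup le_sup_left le_sup_right, Subgroup.subgroupOf_self]
      · exact eX.isCyclic.mpr inferInstance
      · ext g
        rw [Subgroup.mem_inf, Subgroup.mem_subgroupOf, Subgroup.mem_subgroupOf, ← hfpf x x.2 hx',
          Subgroup.mem_inf, Subgroup.mem_centralizer_singleton_iff, Subgroup.mem_centralizer_iff]
        refine and_congr_right fun _ => ⟨fun hg s hs => ?_, fun hg => ?_⟩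
        · obtain ⟨k, hk⟩ := Subgroup.mem_zpowers_iff.mp (hs : (s : Γ) ∈ X)
          refine Subtype.ext ?_
          show (s : Γ) * (g : Γ) = (g : Γ) * (s : Γ)
          rw [← show (x : Γ) ^ k = (s : Γ) from hk]
          exact ((show Commute (x : Γ) (g : Γ) from hg.symm).zpow_left k).eq
        · exact (congrArg Subtype.val (hg ⟨(x : Γ),
            Subgroup.mem_sup_right (Subgroup.mem_zpowers _)⟩ (Subgroup.mem_zpowers (x : Γ)))).symm
    haveI := hd.normal
    set χ' : Cfsg.IrrCharacter (G.subgroupOf L) := H43.irrCongr eG χ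
    obtain ⟨ψ, hψ⟩ : ∃ ψ : Cfsg.IrrCharacter L, ∀ l : L, ψ.1 l = χh.1 l := by
      have hchar : Cfsg.IsCharacter L (fun l : L => χh.1 l) :=
        H26.isCharacter_comp (H26.irr_isCharacter χh) L.subtype
      obtain ⟨n, ρ, hρ⟩ := hchar
      haveI : ρ.IsIrreducible := by
        obtain ⟨n', σ, hσ, hσc⟩ := χ'.2
        refine (H26.isIrreducible_iff_forall ρ).2 ⟨?_, fun U hU => ?_⟩
        · have h1 := congrFun hρ 1
          rw [ρ.char_one] at h1
          have h2 : χh.1 ((1 : L) : Γ) ≠ 0 := H26.irr_one_ne_zero χh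
          rw [← h1, Nat.cast_ne_zero] at h2
          exact Module.nontrivial_of_finrank_pos (Nat.pos_of_ne_zero h2)
        · let τ : Representation ℂ (G.subgroupOf L) (Fin n → ℂ) := ρ.comp (G.subgroupOf L).subtype
          have hτ : τ.character = σ.character := by
            rw [hσc]
            funext g
            show ρ.character (g : L) = χ.1 (eG g)
            rw [hρ, ← hext (eG g)]
            rfl
          obtain ⟨f, hf⟩ := H39.exists_equiv_of_char_eq_irreducible σ τ hτ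
          refine (((H26.isIrreducible_iff_forall σ).1 inferInstance).2 (U.comap f.toLinearMap)
            fun g v hv => ?_).imp (fun hb => ?_) (fun ht => ?_)
          · show f (σ g v) ∈ U
            rw [hf]
            exact hU _ _ hv
          · rw [eq_bot_iff]
            intro u hu
            have : f.symm u ∈ U.comap f.toLinearMap := by simpa using hu
            rw [hb, Submodule.mem_bot] at this
            simpa using congrArg f this
          · rw [eq_top_iff]
            intro u _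
            have : f.symm u ∈ U.comap f.toLinearMap := ht ▸ Submodule.mem_top
            simpa using this
      exact ⟨⟨ρ.character, H26.isIrrCharacter_char ρ⟩, fun l => congrFun hρ l⟩
    have hψext : H43.CycData.IsExt (G.subgroupOf L) (X.subgroupOf L) χ' ψ := by
      refine ⟨fun g => ?_, ?_⟩
      · rw [hψ, H43.irrCongr_apply, ← hext]; rfl
      · rw [Nat.card_congr eX.toEquiv]
        exact (hdet.coprime_dvd_left (H43.detOrder_restrict_dvd L χh ψ fun l => (hψ l).symm))
          |>.coprime_dvd_right (Subgroup.card_dvd_of_le hXS)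
    obtain ⟨γ, e, he, hv⟩ := hd.exists_sign hψext
    refine ⟨H43.irrCongr eC.symm γ, e, he, fun c => ?_⟩
    have hxL : (x : Γ) ∈ L := Subgroup.mem_sup_right (Subgroup.mem_zpowers _)
    have hz : Subgroup.zpowers (⟨x, hxL⟩ : L) = X.subgroupOf L := by
      ext y
      rw [Subgroup.mem_subgroupOf, Subgroup.mem_zpowers_iff, Subgroup.mem_zpowers_iff]
      exact exists_congr fun k => by rw [Subtype.ext_iff, Subgroup.coe_zpow]
    have h1 := hv (eC.symm c) ⟨x, hxL⟩ hz
    rw [hψ] at h1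
    exact h1
  choose γ e he hγ using hloc
  let b : Cfsg.IrrCharacter C → S → ℤ := fun δ x =>
    if hx : x = 1 then 0 else if γ x hx = δ then e x hx else 0
  have hbval : ∀ δ x, b δ x = 0 ∨ b δ x = 1 ∨ b δ x = -1 := fun δ x => by
    simp only [b]
    split_ifs with h1 h2
    · exact Or.inl rfl
    · exact Or.inr (he x h1)
    · exact Or.inl rfl
  have hb : ∀ δ (x : S), x ≠ 1 → H43.CycData.coef C χh δ (x : Γ) = (b δ x : ℂ) := fun δ x hx => by
    simp only [b, dif_neg hx]
    rw [H43.CycData.coef_of_value (hγ x hx) δ]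
    split_ifs with h1
    · rfl
    · rw [Int.cast_zero]
  set m0 : Cfsg.IrrCharacter C → ℕ := fun δ => H43.mult (fun c : C => χ.1 ⟨c, hCG c.2⟩) δ
  have hm0 : ∀ δ, H43.CycData.coef C χh δ ((1 : S) : Γ) = (m0 δ : ℂ) := fun δ => by
    rw [H43.CycData.coef, ← H43.classInner_eq_mult hres]
    congr 1
    funext c
    rw [Subgroup.coe_one, mul_one, ← hext]
  have hint : ∀ δ (lam : S →* ℂˣ), ∃ k : ℤ,
      ((m0 δ : ℤ) : ℂ) + ∑ x, (b δ x : ℂ) * conj (lam x : ℂ) =
        ((Fintype.card S : ℤ) : ℂ) * (k : ℂ) := by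
    intro δ lam
    obtain ⟨k, hk⟩ := coef_fourier (S := S) (C := C) (fun c hc x hx => h.mem_centralizer hc hx)
      (fun x hx y hy => congrArg Subtype.val (mul_comm' (⟨x, hx⟩ : S) ⟨y, hy⟩)) χh δ lam
    refine ⟨k, ?_⟩
    rw [hcard, Int.cast_natCast, Int.cast_natCast, Int.cast_natCast, ← hk,
      ← Finset.add_sum_erase Finset.univ _ (Finset.mem_univ (1 : S)),
      ← Finset.add_sum_erase Finset.univ (fun x : S => H43.CycData.coef C χh δ (x : Γ) * conj (lam x : ℂ))
        (Finset.mem_univ (1 : S)), hm0, map_one, Units.val_one, map_one, mul_one,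
      show b δ 1 = 0 from dif_pos rfl, Int.cast_zero, mul_one, zero_add]
    congr 1
    exact Finset.sum_congr rfl fun x hx => by rw [hb δ x (Finset.ne_of_mem_erase hx)]
  have hpat := fun δ => H43.pattern (b δ) (dif_pos rfl) (hbval δ) (m0 δ) (hint δ)
  -- the correspondent of a generator is `β`, hence of every element
  obtain ⟨s, hs⟩ := h.exists_gen
  have hsS : s ∈ S := hs ▸ Subgroup.mem_zpowers s
  have hs1 : (⟨s, hsS⟩ : S) ≠ 1 := fun e' => by
    have : s = 1 := congrArg Subtype.val e'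
    rw [this, Subgroup.zpowers_one_eq_bot] at hs
    exact not_subsingleton S (hs ▸ inferInstance)
  have hbs : b β ⟨s, hsS⟩ ≠ 0 := fun h0 => by
    have h1 := hb β ⟨s, hsS⟩ hs1
    rw [h0, H43.CycData.coef_of_value (fun c => hβ c s hs) β, if_pos rfl, Int.cast_zero,
      Int.cast_eq_zero] at h1
    omega
  obtain ⟨μ, ε, hε, hμ, hdiv⟩ := (hpat β).resolve_left fun hz => hbs (hz _)
  have hεc : (ε : ℂ) ≠ 0 := Int.cast_ne_zero.mpr (by omega)
  have hγβ : ∀ x hx, γ x hx = β := by
    intro x hx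
    by_contra hne
    have h1 := hμ x hx
    simp only [b, dif_neg hx, if_neg hne, Int.cast_zero] at h1
    exact mul_ne_zero hεc (Units.ne_zero _) h1.symm
  have hother : ∀ δ, δ ≠ β → (Fintype.card S : ℤ) ∣ (m0 δ : ℤ) := fun δ hδ => by
    obtain ⟨k, hk⟩ := hint δ 1
    refine ⟨k, Int.cast_injective (α := ℂ) ?_⟩
    rw [Int.cast_mul, ← hk, Finset.sum_eq_zero, add_zero]
    intro x _
    have hz : b δ x = 0 := by
      by_cases hx : x = 1
      · simp only [b, dif_pos hx]
      · simp only [b, dif_neg hx, hγβ x hx, if_neg (Ne.symm hδ)]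
    rw [hz, Int.cast_zero, zero_mul]
  have hμsq : ∀ x : S, (μ x : ℂ) * (μ x : ℂ) = 1 := fun x => by
    by_cases hx : x = 1
    · rw [hx, map_one, Units.val_one, one_mul]
    · have h1 := hμ x hx
      simp only [b, dif_neg hx, hγβ x hx, if_true] at h1
      have h2 : (e x hx : ℂ) * (e x hx : ℂ) = 1 := by
        rcases he x hx with h' | h' <;> rw [h'] <;> simp
      have h3 : (ε : ℂ) * (ε : ℂ) = 1 := by rcases hε with h' | h' <;> rw [h'] <;> simp
      calc (μ x : ℂ) * (μ x : ℂ) = ((ε : ℂ) * (ε : ℂ)) * ((μ x : ℂ) * (μ x : ℂ)) := by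
            rw [h3, one_mul]
        _ = ((ε : ℂ) * (μ x : ℂ)) * ((ε : ℂ) * (μ x : ℂ)) := by ring
        _ = 1 := by rw [← h1, h2]
  -- multiplicities
  set m : ℕ := Nat.card S with hmdef
  have hm2 : 2 ≤ m := Finite.one_lt_card
  have hk : ∀ δ, ∃ k : ℕ, (m0 δ : ℤ) = (m : ℤ) * k + (if δ = β then ε else 0) := fun δ => by
    obtain ⟨q, hq⟩ : (m : ℤ) ∣ (m0 δ : ℤ) - (if δ = β then ε else 0) := by
      rw [← hcard]
      split_ifs with hδ
      · subst hδ; exact hdiv
      · rw [sub_zero]; exact hother δ hδ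
    have hq0 : 0 ≤ q := by
      by_contra hneg
      have h1 : q ≤ -1 := by omega
      have h2 : (2 : ℤ) ≤ m := by exact_mod_cast hm2
      have h3 : (0 : ℤ) ≤ (m0 δ : ℤ) := Int.natCast_nonneg _
      have h4 : (if δ = β then ε else 0) ≤ 1 := by
        split_ifs <;> rcases hε with h' | h' <;> omega
      nlinarith
    obtain ⟨k, rfl⟩ := Int.eq_ofNat_of_zero_le hq0
    exact ⟨k, by rw [← hq]; ring⟩
  choose k hk using hk
  have hexp : ∀ c : C, χ.1 ⟨c, hCG c.2⟩ =
      (m : ℂ) * (∑ δ : Cfsg.IrrCharacter C, (k δ : ℂ) • δ.1) c + (ε : ℂ) * β.1 c := fun c => by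
    have h1 := congrFun (H43.eq_sum_mult hres) c
    rw [Finset.sum_apply] at h1
    rw [h1, Finset.sum_apply, Finset.mul_sum]
    have h2 : ∀ δ : Cfsg.IrrCharacter C, ((m0 δ : ℂ) • δ.1) c =
        (m : ℂ) * ((k δ : ℂ) • δ.1) c + (if δ = β then (ε : ℂ) * β.1 c else 0) := fun δ => by
      have h3 := congrArg (fun z : ℤ => (z : ℂ)) (hk δ)
      simp only [Int.cast_natCast, Int.cast_add, Int.cast_mul] at h3
      rw [Pi.smul_apply, Pi.smul_apply, smul_eq_mul, smul_eq_mul, h3]
      split_ifs with hδ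
      · subst hδ; ring
      · rw [Int.cast_zero]; ring
    rw [Finset.sum_congr rfl fun δ _ => h2 δ, Finset.sum_add_distrib,
      Finset.sum_ite_eq' Finset.univ β, if_pos (Finset.mem_univ _)]
  refine ⟨ε, hε, ⟨fun x => (μ x : ℂ), H26.irr_isCharacter ⟨_, H26.isIrrCharacter_hom μ⟩, by simp,
    hμsq, fun c x hx => ?_⟩, ⟨_, H26.isCharacter_sum _ _ fun δ _ =>
      H26.isCharacter_nsmul (H26.irr_isCharacter δ) (k δ), funext hexp⟩, ?_⟩
  · have h1 := hμ x hx
    simp only [b, dif_neg hx, hγβ x hx, if_true] at h1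
    rw [hγ x hx c, hγβ x hx, h1]
    ring
  · refine ⟨∑ δ : Cfsg.IrrCharacter C, (k δ : ℤ) * (Cfsg.charDegree δ.1 : ℤ), ?_⟩
    apply Int.cast_injective (α := ℂ)
    have h1 := hexp 1
    rw [show (⟨((1 : C) : Γ), hCG (1 : C).2⟩ : G) = 1 from rfl, H43.irr_charDegree_spec,
      H43.irr_charDegree_spec] at h1
    push_cast
    rw [h1, Finset.sum_apply,
      Finset.sum_congr rfl fun δ _ => show ((k δ : ℂ) • δ.1) 1 =
        (k δ : ℂ) * (Cfsg.charDegree δ.1 : ℂ) by
          rw [Pi.smul_apply, smul_eq_mul, H43.irr_charDegree_spec]]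
    ring

end Cfsg.Agent.S4451
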