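import Cfsg.Statements.S4452
import Cfsg.Agent.H43.InvCount

set_option autoImplicit false
open Cfsg

namespace Cfsg.Agent.S4452

/-- Let the finite group G be the product of a normal subgroup K and a solvable subgroup H of coprime orders, and let N = N_G(H). Then the number of irreducible characters of G of degree coprime to the order of H equals the number of irreducible characters of N of degree coprime to the order of H. (The two sets are in fact in a canonical bijection; only the equality of their sizes is stated here.) -/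
theorem result {G : Type*} [Group G] [Finite G] (K H : Subgroup G) [K.Normal] (hKH : K ⊔ H = ⊤) (hcop : (Nat.card K).Coprime (Nat.card H)) (hsolv : Group.IsSolvable H) : Nat.card {χ : Cfsg.IrrCharacter G // (Cfsg.charDegree (χ : G → ℂ)).Coprime (Nat.card H)} = Nat.card {η : Cfsg.IrrCharacter (Subgroup.normalizer (H : Set G)) // (Cfsg.charDegree (η : Subgroup.normalizer (H : Set G) → ℂ)).Coprime (Nat.card H)} := by
  classical
  set N : Subgroup G := Subgroup.normalizer (H : Set G) with hN
  have hHN : H ≤ N := Subgroup.le_normalizer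
  set K' : Subgroup N := K.subgroupOf N with hK'
  set H' : Subgroup N := H.subgroupOf N with hH'
  haveI : K'.Normal := inferInstance
  have eH : H' ≃* H := Subgroup.subgroupOfEquivOfLe hHN
  have hcH : Nat.card H' = Nat.card H := Nat.card_congr eH.toEquiv
  have hcop' : (Nat.card K').Coprime (Nat.card H') := by
    rw [hcH]
    refine hcop.coprime_dvd_left ?_
    rw [hK', ← Subgroup.inf_subgroupOf_right,
      Nat.card_congr (Subgroup.subgroupOfEquivOfLe (inf_le_right : K ⊓ N ≤ N)).toEquiv]
    exact Subgroup.card_dvd_of_le inf_le_left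
  have hsup : K' ⊔ H' = ⊤ := by
    rw [eq_top_iff]
    intro x _
    have hx : (x : G) ∈ K ⊔ H := by rw [hKH]; trivial
    rw [← SetLike.mem_coe, Subgroup.normal_mul] at hx
    obtain ⟨k, hk, h, hh, e⟩ := hx
    simp only at e
    have hkN : k ∈ N := by
      rw [show k = (x : G) * h⁻¹ by rw [← e, mul_inv_cancel_right]]
      exact N.mul_mem x.2 (N.inv_mem (hHN hh))
    rw [show x = (⟨k, hkN⟩ : N) * ⟨h, hHN hh⟩ from Subtype.ext e.symm]
    exact Subgroup.mul_mem_sup hk hh
  rw [H43.card_coprimeDegree K H hKH hcop,
    H43.card_invFun_eq_card_fixed _ (G := K) (S := H) rfl hsolv hcop _, ← hcH,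
    H43.card_coprimeDegree K' H' hsup hcop']
  congr 1
  · rw [Nat.card_congr (Equiv.subtypeUnivEquiv (p := fun θ : Cfsg.IrrCharacter K' =>
      H43.InvFun ((MulAut.conjNormal (H := K')).comp H'.subtype) θ.1) ?_)]
    · let e : K' ≃* H43.fixedSub ((MulAut.conjNormal (H := K)).comp H.subtype) ⊤ :=
        { toFun := fun c => ⟨⟨((c : N) : G), c.2⟩, fun t _ => Subtype.ext (by
            show (t : G) * ((c : N) : G) * (t : G)⁻¹ = ((c : N) : G)
            have h1 : ((c : N) : G) * (t : G) * ((c : N) : G)⁻¹ ∈ H :=
              (Subgroup.mem_normalizer_iff.mp (c : N).2 t).mp t.2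
            have h2 : (t : G) * ((c : N) : G) * (t : G)⁻¹ * ((c : N) : G)⁻¹ ∈ K ⊓ H := by
              refine ⟨K.mul_mem (Subgroup.Normal.conj_mem (H := K) inferInstance ((c : N) : G) c.2 _)
                (K.inv_mem c.2), ?_⟩
              rw [show (t : G) * ((c : N) : G) * (t : G)⁻¹ * ((c : N) : G)⁻¹ =
                (t : G) * (((c : N) : G) * (t : G) * ((c : N) : G)⁻¹)⁻¹ by group]
              exact H.mul_mem t.2 (H.inv_mem h1)
            rw [(Subgroup.disjoint_of_coprime_natCard hcop).eq_bot, Subgroup.mem_bot] at h2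
            exact mul_inv_eq_one.mp h2)⟩
          invFun := fun c => ⟨⟨((c : K) : G), by
            refine Subgroup.centralizer_le_normalizer _ ?_
            refine Subgroup.mem_centralizer_iff.mpr fun t ht => ?_
            have h := congrArg Subtype.val (c.2 ⟨t, ht⟩ trivial)
            exact mul_inv_eq_iff_eq_mul.mp h⟩, (c : K).2⟩
          left_inv := fun _ => rfl
          right_inv := fun _ => rfl
          map_mul' := fun _ _ => rfl }
      exact Nat.card_congr (H43.irrCongrEquiv e)
    · intro θ s n
      have h1 : (MulAut.conjNormal (H := K')).comp H'.subtype s n = n := by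
        refine Subtype.ext (Subtype.ext ?_)
        show ((s : N) : G) * ((n : N) : G) * ((s : N) : G)⁻¹ = ((n : N) : G)
        have h1 : ((n : N) : G) * ((s : N) : G) * ((n : N) : G)⁻¹ ∈ H :=
          (Subgroup.mem_normalizer_iff.mp (n : N).2 _).mp s.2
        have h2 : ((s : N) : G) * ((n : N) : G) * ((s : N) : G)⁻¹ * ((n : N) : G)⁻¹ ∈ K ⊓ H := by
          refine ⟨K.mul_mem (Subgroup.Normal.conj_mem (H := K) inferInstance ((n : N) : G) n.2 _) (K.inv_mem n.2), ?_⟩
          rw [show ((s : N) : G) * ((n : N) : G) * ((s : N) : G)⁻¹ * ((n : N) : G)⁻¹ =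
            ((s : N) : G) * (((n : N) : G) * ((s : N) : G) * ((n : N) : G)⁻¹)⁻¹ by group]
          exact H.mul_mem s.2 (H.inv_mem h1)
        rw [(Subgroup.disjoint_of_coprime_natCard hcop).eq_bot, Subgroup.mem_bot] at h2
        exact mul_inv_eq_one.mp h2
      rw [h1]
  · exact (Nat.card_congr (MulEquiv.monoidHomCongrLeftEquiv eH)).symm

end Cfsg.Agent.S4452
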