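import Cfsg.Statements.S4453
import Cfsg.Agent.H44.Parity.Ambient
import Cfsg.Agent.S4447

set_option autoImplicit false
open Cfsg

namespace Cfsg.Agent.S4453

/-- Inside a finite group Γ let S normalise the solvable subgroup G of odd order with the orders of G and S coprime, let C = G ⊓ C(S), and let L ≤ K be S-invariant normal subgroups of G with K/L abelian, G = KC and H = LC (so C ≤ H ≤ G). Then for each S-invariant irreducible character χ of G there is exactly one S-invariant irreducible character ψ of H whose multiplicity in the restriction of χ to H is odd, and χ ↦ ψ is a bijection from the S-invariant irreducible characters of G onto those of H (distinct χ give distinct ψ, and every S-invariant ψ arises). -/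
theorem result {Γ : Type*} [Group Γ] [Fintype Γ] (G S : Subgroup Γ) [Fintype G] (hnorm : ∀ s ∈ S, ∀ g ∈ G, s * g * s⁻¹ ∈ G) (hcop : (Nat.card G).Coprime (Nat.card S)) (hGsolv : Group.IsSolvable G) (hodd : Odd (Nat.card G)) (C : Subgroup Γ) [Fintype C] (hC : C = G ⊓ Subgroup.centralizer (S : Set Γ)) (hCG : C ≤ G) (K L H : Subgroup Γ) [Fintype H] (hLK : L ≤ K) (hKG : K ≤ G) (hKn : ∀ g ∈ G, ∀ k ∈ K, g * k * g⁻¹ ∈ K) (hLn : ∀ g ∈ G, ∀ l ∈ L, g * l * g⁻¹ ∈ L) (hKS : ∀ s ∈ S, ∀ k ∈ K, s * k * s⁻¹ ∈ K) (hLS : ∀ s ∈ S, ∀ l ∈ L, s * l * s⁻¹ ∈ L) (hab : ∀ a ∈ K, ∀ b ∈ K, a * b * a⁻¹ * b⁻¹ ∈ L) (hGKC : K ⊔ C = G) (hH : H = L ⊔ C) (hHG : H ≤ G) : (∀ χ : Cfsg.IrrCharacter G, (∀ s ∈ S, ∀ g g' : G, (g' : Γ) = s * g * s⁻¹ → (χ : G → ℂ) g' = (χ : G → ℂ) g) → ∃! ψ : Cfsg.IrrCharacter H, (∀ s ∈ S, ∀ g g' : H, (g' : Γ) = s * g * s⁻¹ → (ψ : H → ℂ) g' = (ψ : H → ℂ) g) ∧ ∃ m : ℕ, Cfsg.classInner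 (fun h : H => (χ : G → ℂ) ⟨h, hHG h.2⟩) (ψ : H → ℂ) = (m : ℂ) ∧ Odd m) ∧ (∀ χ χ' : Cfsg.IrrCharacter G, (∀ s ∈ S, ∀ g g' : G, (g' : Γ) = s * g * s⁻¹ → (χ : G → ℂ) g' = (χ : G → ℂ) g) → (∀ s ∈ S, ∀ g g' : G, (g' : Γ) = s * g * s⁻¹ → (χ' : G → ℂ) g' = (χ' : G → ℂ) g) → ∀ ψ : Cfsg.IrrCharacter H, (∀ s ∈ S, ∀ g g' : H, (g' : Γ) = s * g * s⁻¹ → (ψ : H → ℂ) g' = (ψ : H → ℂ) g) → ∀ m m' : ℕ, Cfsg.classInner (fun h : H => (χ : G → ℂ) ⟨h, hHG h.2⟩) (ψ : H → ℂ) = (m : ℂ) → Odd m → Cfsg.classInner (fun h : H => (χ' : G → ℂ) ⟨h, hHG h.2⟩) (ψ : H → ℂ) = (m' : ℂ) → Odd m' → χ = χ') ∧ (∀ ψ : Cfsg.IrrCharacter H, (∀ s ∈ S, ∀ g g' : H, (g' : Γ) = s * g * s⁻¹ → (ψ : H → ℂ) g' = (ψ : H → ℂ) g) → ∃ χ : Cfsg.IrrCharacter G, (∀ s ∈ S, ∀ g g' : G, (g' : Γ) = s * g * s⁻¹ → (χ : G → ℂ) g' = (χ : G → ℂ) g) ∧ ∃ m : ℕ, Cfsg.classInner (fun h : H => (χ : G → ℂ) ⟨h, hHG h.2⟩) (ψ : H → ℂ) = (m : ℂ) ∧ Odd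 m) := by
  classical
  obtain ⟨st, hstH, hact⟩ := H44.Parity.exists_setup G S C K L H hnorm hcop hGsolv hodd hC hLK hKG hKn hLn
    hKS hLS hab hGKC hH
  have hLG : L ≤ G := hLK.trans hKG
  have hLH : L ≤ H := hH ▸ le_sup_left
  haveI hLn' : (L.subgroupOf G).Normal := ⟨fun l hl g => hLn g g.2 l hl⟩
  haveI hLnH : (L.subgroupOf H).Normal := ⟨fun l hl g => hLn g (hHG g.2) l hl⟩
  letI : Fintype L := Fintype.ofFinite _
  letI : Fintype (L.subgroupOf G) := Fintype.ofFinite _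
  letI : Fintype st.H := Fintype.ofFinite _
  let e : st.H ≃* H := (MulEquiv.subgroupCongr hstH).trans (Subgroup.subgroupOfEquivOfLe hHG)
  have he : ∀ x : st.H, ((e x : H) : Γ) = ((x : G) : Γ) := fun _ => rfl
  let eL := Subgroup.subgroupOfEquivOfLe hLG
  let PG : (G → ℂ) → Prop := fun f => ∀ s ∈ S, ∀ g g' : G, (g' : Γ) = s * g * s⁻¹ → f g' = f g
  let PH : (H → ℂ) → Prop := fun f => ∀ s ∈ S, ∀ g g' : H, (g' : Γ) = s * g * s⁻¹ → f g' = f g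
  have hPG : ∀ f, PG f ↔ H44.Parity.InvS st f := by
    intro f
    refine ⟨fun h s g => h s s.2 g _ (by rw [hact]; rfl), fun h s hs g g' e' => ?_⟩
    rw [← h ⟨s, hs⟩ g]
    refine congrArg f (Subtype.ext ?_)
    rw [hact, e']; rfl
  have hHS : ∀ s ∈ S, ∀ h ∈ H, s * h * s⁻¹ ∈ H := by
    intro s hs h hh
    have hx : (⟨h, hHG hh⟩ : G) ∈ st.H := by rw [hstH]; exact hh
    have h2 := H44.Parity.act_mem_H ⟨s, hs⟩ hx
    rw [hact, hstH] at h2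
    exact h2
  have hPH : ∀ f : H → ℂ, PH f ↔ H44.Parity.InvSH st (fun x => f (e x)) := by
    intro f
    refine ⟨fun h s x x' e' => h s s.2 (e x) (e x') ?_, fun h s hs g g' e' => ?_⟩
    · rw [he, he, e', hact]; rfl
    · have h2 := h ⟨s, hs⟩ (e.symm g) (e.symm g') (Subtype.ext (by
        rw [hact, ← he (e.symm g'), MulEquiv.apply_symm_apply, e', H44.Parity.conjAct_val,
          ← he (e.symm g), MulEquiv.apply_symm_apply]))
      simpa only [MulEquiv.apply_symm_apply] using h2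
  have hmult : ∀ (χ : Cfsg.IrrCharacter G) (ψ : Cfsg.IrrCharacter H),
      (∃ m : ℕ, Cfsg.classInner (fun h : H => (χ : G → ℂ) ⟨h, hHG h.2⟩) (ψ : H → ℂ) = (m : ℂ) ∧
        Odd m) ↔ H44.Parity.OddIn st χ.1 (H43.irrCongr e ψ) := by
    intro χ ψ
    have hv : Cfsg.classInner (fun h : st.H => χ.1 h) (H43.irrCongr e ψ).1 =
        Cfsg.classInner (fun h : H => (χ : G → ℂ) ⟨h, hHG h.2⟩) (ψ : H → ℂ) := by
      rw [← H43.classInner_congr e (fun h : H => (χ : G → ℂ) ⟨h, hHG h.2⟩) (ψ : H → ℂ)]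
      rfl
    constructor
    · rintro ⟨m, hm, hmo⟩
      rw [H44.Parity.OddIn, H43.mult_eq_of_classInner (hv.trans hm)]
      exact hmo
    · intro ho
      obtain ⟨m, hm⟩ := H26.exists_nat_classInner_irr
        (H26.isCharacter_comp (H26.irr_isCharacter χ) st.H.subtype) (H43.irrCongr e ψ)
      have hm' : Cfsg.classInner (fun h : st.H => χ.1 h) (H43.irrCongr e ψ).1 = (m : ℂ) := hm
      rw [H44.Parity.OddIn, H43.mult_eq_of_classInner hm'] at ho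
      exact ⟨m, hv.symm.trans hm', ho⟩
  have hsolvL : ∀ (A : Subgroup Γ) [(L.subgroupOf A).Normal], A ≤ G →
      Group.IsSolvable (A ⧸ L.subgroupOf A) := by
    intro A _ hA
    haveI : Group.IsSolvable A := solvable_of_solvable_injective (Subgroup.inclusion_injective hA)
    exact solvable_of_surjective (QuotientGroup.mk'_surjective _)
  have hcopA : ∀ A : Subgroup Γ, A ≤ G → (L.relIndex A).Coprime (Nat.card S) := fun A hA =>
    Nat.Coprime.coprime_dvd_left ((L.subgroupOf A).index_dvd_card.trans (Subgroup.card_dvd_of_le hA)) hcop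
  have hcons : ∀ θ : Cfsg.IrrCharacter L,
      (∀ s ∈ S, ∀ g g' : L, (g' : Γ) = s * g * s⁻¹ → (θ : L → ℂ) g' = (θ : L → ℂ) g) →
      ∀ (s : S) (l l' : L.subgroupOf G), (l' : G) = st.act s l →
        (H43.irrCongr eL θ).1 l' = (H43.irrCongr eL θ).1 l := by
    intro θ hθ s l l' e'
    refine hθ s s.2 (eL l) (eL l') ?_
    show ((l' : G) : Γ) = _
    rw [e', hact]; rfl
  obtain ⟨h1, h2, h3⟩ := H44.Parity.main st
    (fun χ hinv => by
      obtain ⟨θ, hne, hθ⟩ := S4447.result G S L hnorm hLG hLS (hcopA G le_rfl)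
        (Or.inr (hsolvL G le_rfl)) χ ((hPG _).mpr hinv)
      refine ⟨H43.irrCongr eL θ, hcons θ hθ, ?_⟩
      rw [← H43.classInner_congr eL] at hne
      exact hne)
    (fun ψ hinv => by
      let ψ₀ : Cfsg.IrrCharacter H := H43.irrCongr e.symm ψ
      have hψ₀ : PH ψ₀.1 := (hPH _).mpr (by
        intro s x x' e'
        show ψ.1 (e.symm (e x')) = ψ.1 (e.symm (e x))
        rw [MulEquiv.symm_apply_apply, MulEquiv.symm_apply_apply]
        exact hinv s x x' e')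
      obtain ⟨θ, hne, hθ⟩ := S4447.result H S L hHS hLH hLS (hcopA H hHG)
        (Or.inr (hsolvL H hHG)) ψ₀ hψ₀
      refine ⟨H43.irrCongr eL θ, hcons θ hθ, ?_⟩
      rw [← H43.classInner_congr eL] at hne
      exact hne)
  have hsymm : ∀ ψ : Cfsg.IrrCharacter st.H, H43.irrCongr e (H43.irrCongr e.symm ψ) = ψ := fun ψ =>
    Subtype.ext (funext fun t => by simp [H43.irrCongr_apply])
  refine ⟨fun χ hχ => ?_, fun χ χ' hχ hχ' ψ hψ m m' hm hmo hm' hmo' => ?_, fun ψ hψ => ?_⟩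
  · obtain ⟨ψ, ⟨hinv, ho⟩, huniq⟩ := h1 χ ((hPG _).mp hχ)
    refine ⟨H43.irrCongr e.symm ψ, ⟨(hPH _).mpr ?_, (hmult _ _).mpr (by rw [hsymm]; exact ho)⟩,
      fun ψ₂ h => ?_⟩
    · intro s x x' e'
      show ψ.1 (e.symm (e x')) = ψ.1 (e.symm (e x))
      rw [MulEquiv.symm_apply_apply, MulEquiv.symm_apply_apply]
      exact hinv s x x' e'
    · rw [← huniq (H43.irrCongr e ψ₂) ⟨(hPH _).mp h.1, (hmult _ _).mp h.2⟩]
      exact (H43.irrCongr_symm_apply e ψ₂).symm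
  · exact h2 χ χ' ((hPG _).mp hχ) ((hPG _).mp hχ') (H43.irrCongr e ψ) ((hPH _).mp hψ)
      ((hmult _ _).mp ⟨m, hm, hmo⟩) ((hmult _ _).mp ⟨m', hm', hmo'⟩)
  · obtain ⟨χ, hinv, ho⟩ := h3 (H43.irrCongr e ψ) ((hPH _).mp hψ)
    exact ⟨χ, (hPG _).mpr hinv, (hmult _ _).mpr ho⟩

end Cfsg.Agent.S4453
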