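import Cfsg.Statements.S4455
import Cfsg.Agent.H43.PPrimeDegree
import Cfsg.Agent.H43.CoprimeRestrict

set_option autoImplicit false
open Cfsg

namespace Cfsg.Agent.S4455

/-- Fix a prime p and a finite group G. Let s be the sum of χ(1)² over the irreducible characters χ of G whose degree is not divisible by p and whose determinantal order o(χ) is not divisible by p. Then the order of O^p(G), the subgroup generated by the elements of order prime to p, is congruent to s modulo p. -/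
theorem result {G : Type*} [Group G] [Finite G] (p : ℕ) (hp : p.Prime) : (Nat.card (Cfsg.pResidual p G) : ℤ) ≡ (∑ᶠ χ ∈ {χ : Cfsg.IrrCharacter G | ¬ p ∣ Cfsg.charDegree (χ : G → ℂ) ∧ ¬ p ∣ Cfsg.detOrder (χ : G → ℂ)}, (Cfsg.charDegree (χ : G → ℂ) : ℤ) ^ 2) [ZMOD p] := by
  classical
  haveI := Fintype.ofFinite G
  haveI : Fact p.Prime := ⟨hp⟩
  set U := Cfsg.pResidual p G with hU
  haveI : U.Normal := H22.pResidual_normal
  haveI : Fintype U := Fintype.ofFinite _
  obtain ⟨P⟩ := Sylow.nonempty (p := p) (G := G)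
  set φ : (P : Subgroup G) →* MulAut U := (MulAut.conjNormal).comp (P : Subgroup G).subtype
  obtain ⟨k, hk⟩ := H22.exists_index_pResidual_eq (G := G) (p := p)
  have hcop : ∀ n, ¬ p ∣ n → Nat.Coprime n U.index := fun n hn => by
    rw [hU, hk]
    exact Nat.Coprime.pow_right k (hp.coprime_iff_not_dvd.mpr hn).symm
  have hex : ∀ χ : Cfsg.IrrCharacter G, ¬ p ∣ Cfsg.charDegree χ.1 →
      ∃ θ : Cfsg.IrrCharacter U, ∀ n : U, χ.1 n = θ.1 n :=
    fun χ h => H43.exists_irr_restrict U χ (hcop _ h)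
  choose F hF using hex
  have hdeg : ∀ χ h, Cfsg.charDegree (F χ h).1 = Cfsg.charDegree χ.1 := fun χ h => by
    simp only [Cfsg.charDegree]
    rw [← hF χ h 1, Subgroup.coe_one]
  have hsum : (∑ᶠ χ ∈ {χ : Cfsg.IrrCharacter G | ¬ p ∣ Cfsg.charDegree (χ : G → ℂ) ∧
      ¬ p ∣ Cfsg.detOrder (χ : G → ℂ)}, (Cfsg.charDegree (χ : G → ℂ) : ℤ) ^ 2) =
      ((∑ θ : Cfsg.IrrCharacter U with H43.InvFun φ θ.1 ∧ ¬ p ∣ Cfsg.charDegree θ.1,
        Cfsg.charDegree θ.1 ^ 2 : ℕ) : ℤ) := by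
    rw [finsum_mem_eq_toFinset_sum, Nat.cast_sum]
    refine Finset.sum_bij (fun χ h => F χ (Set.mem_toFinset.mp h).1) ?_ ?_ ?_ ?_
    · intro χ h
      simp only [Finset.mem_filter, Finset.mem_univ, true_and]
      refine ⟨fun s n => ?_, by rw [hdeg]; exact (Set.mem_toFinset.mp h).1⟩
      rw [← hF _ _, ← hF _ _]
      show χ.1 ((s : G) * n * (s : G)⁻¹) = χ.1 n
      rw [H26.irr_conj]
    · intro χ h χ' h' e
      have h1 := Set.mem_toFinset.mp h
      have h2 := Set.mem_toFinset.mp h'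
      exact (H43.coprime_ext_unique (F χ h1.1) χ χ'
        (by rw [hdeg]; exact (hcop _ h1.1).symm) (hF χ h1.1)
        (fun n => by rw [show F χ h1.1 = F χ' h2.1 from e]; exact hF χ' h2.1 n)
        (hcop _ h1.2).symm (hcop _ h2.2).symm).symm
    · intro θ hθ
      simp only [Finset.mem_filter, Finset.mem_univ, true_and] at hθ
      have ho : ¬ p ∣ Cfsg.detOrder θ.1 :=
        H43.not_dvd_detOrder H22.pResidual_pResidual_eq_top θ
      have hinv : ∀ x : G, H43.irrConj U x θ = θ :=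
        H43.irrConj_eq_self_of_sup_eq_top U θ (P : Subgroup G) (H22.pResidual_sup_sylow P)
          fun s hs => Subtype.ext (funext fun n => hθ.1 ⟨s, hs⟩ n)
      obtain ⟨χ, hχ, ho'⟩ := H43.exists_coprime_ext θ hinv
        (hcop _ (hp.not_dvd_mul ho hθ.2)).symm
      have hd : Cfsg.charDegree χ.1 = Cfsg.charDegree θ.1 := by
        simp only [Cfsg.charDegree]
        rw [← hχ 1, Subgroup.coe_one]
      have hmem : χ ∈ ({χ : Cfsg.IrrCharacter G | ¬ p ∣ Cfsg.charDegree (χ : G → ℂ) ∧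
          ¬ p ∣ Cfsg.detOrder (χ : G → ℂ)} : Set _).toFinset :=
        Set.mem_toFinset.mpr ⟨by rw [hd]; exact hθ.2, by rw [ho']; exact ho⟩
      exact ⟨χ, hmem, Subtype.ext (funext fun n => by rw [← hF χ _ n, hχ])⟩
    · intro χ h
      rw [hdeg, Nat.cast_pow]
  rw [hsum]
  refine H43.IntCong.int_modEq hp.ne_zero ?_
  rw [Int.cast_natCast, Int.cast_natCast]
  exact H43.sum_invFun_sq_cong φ P.2

end Cfsg.Agent.S4455
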