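import Cfsg.Statements.S4470
import Cfsg.Agent.H25.Jordan
import Cfsg.Agent.H25.Faithful

set_option autoImplicit false
open Cfsg

namespace Cfsg.Agent.S4470

/-- Let the finite group G have a faithful character of degree n. Then G has an abelian normal subgroup A such that every abelian subgroup H of G satisfies [H : H ⊓ A] ≤ 12^n. -/
theorem result {G : Type*} [Group G] [Finite G] (χ : G → ℂ) (hχ : Cfsg.IsCharacter G χ) (hfaith : ∀ g : G, χ g = χ 1 → g = 1) (n : ℕ) (hn : Cfsg.charDegree χ = n) : ∃ A : Subgroup G, A.Normal ∧ (∀ x ∈ A, ∀ y ∈ A, x * y = y * x) ∧ ∀ H : Subgroup G, (∀ x ∈ H, ∀ y ∈ H, x * y = y * x) → (A.subgroupOf H).index ≤ 12 ^ n := by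
  obtain ⟨ρ, -, hinj⟩ := Cfsg.Agent.H25.exists_faithful_rep hχ hfaith hn
  exact Cfsg.Agent.H25.exists_abelian_normal_uniform_bound ρ hinj

end Cfsg.Agent.S4470
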