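import Cfsg.Statements.S4471
import Cfsg.Agent.H27.SmallDegreeTwoP
-- import your own Cfsg.Agent.* helpers here

set_option autoImplicit false
open Cfsg

namespace Cfsg.Agent.S4471

/-- Let p ≥ 7 be a prime and let the finite group G have a faithful irreducible character of degree n with n < 2p and n ≠ p. If the Sylow p-subgroups of G are non-abelian then p² does not divide the index of O_p(G) in G; consequently, in every case G/O_p(G) has abelian Sylow p-subgroups. -/
theorem result {G : Type*} [Group G] [Finite G] (χ : Cfsg.IrrCharacter G) (hfaith : ∀ g : G, (χ : G → ℂ) g = (χ : G → ℂ) 1 → g = 1) (n : ℕ) (hn : Cfsg.charDegree (χ : G → ℂ) = n) (p : ℕ) (hp : p.Prime) (h7 : 7 ≤ p) (hn2 : n < 2 * p) (hnp : n ≠ p) : ((∃ P : Sylow p G, ∃ x ∈ (P : Subgroup G), ∃ y ∈ (P : Subgroup G), x * y ≠ y * x) → ¬ p ^ 2 ∣ (Cfsg.pCore p G).index) ∧ ∀ Q : Sylow p (G ⧸ Cfsg.pCore p G), ∀ x ∈ (Q : Subgroup (G ⧸ Cfsg.pCore p G)), ∀ y ∈ (Q : Subgroup (G ⧸ Cfsg.pCore p G)), x * y = y * x :=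 by
  classical
  haveI : Fact p.Prime := ⟨hp⟩
  letI : Fintype G := Fintype.ofFinite G
  have key : (∃ P : Sylow p G, ∃ x ∈ (P : Subgroup G), ∃ y ∈ (P : Subgroup G), x * y ≠ y * x) →
      ¬ p ^ 2 ∣ (Cfsg.pCore p G).index := by
    rintro ⟨P, x, hx, y, hy, hxy⟩
    letI : Fintype (P : Subgroup G) := Fintype.ofFinite _
    set ψ : ↥(P : Subgroup G) → ℂ := fun g => (χ : G → ℂ) g with hψdef
    have hψ : Cfsg.IsCharacter (P : Subgroup G) ψ :=
      H26.isCharacter_comp (H26.irr_isCharacter χ) (P : Subgroup G).subtype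
    have hdψ : Cfsg.charDegree ψ = n := by rw [← hn]; rfl
    obtain ⟨z, ω, hz1, hzo, hω, hω1, hpn, hval⟩ := H27.TwoP.exists_two_valued P.2 hψ
      (fun g hg => Subtype.ext (hfaith g hg))
      ⟨⟨x, hx⟩, ⟨y, hy⟩, fun h => hxy (congrArg Subtype.val h)⟩ (hdψ ▸ hn2)
    rw [hdψ] at hpn hval
    obtain ⟨ρ, hρ, hinj⟩ := H25.exists_faithful_rep (H26.irr_isCharacter χ) hfaith hn
    have hzoG : orderOf (z : G) = p := by rw [Subgroup.orderOf_coe, hzo]
    have hcom : ∀ g : G, Commute (z : G) (g * z * g⁻¹) :=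
      H27.TwoP.commute_conj_of_two_valued ρ hinj hp h7 hzoG hω hω1 hpn fun j => by
        rw [hρ, ← hval j]
        show (χ : G → ℂ) _ = (χ : G → ℂ) _
        rw [SubmonoidClass.coe_pow]
    set A := Subgroup.normalClosure ({(z : G)} : Set G) with hA
    have hset : ∀ a ∈ Group.conjugatesOfSet ({(z : G)} : Set G),
        ∀ b ∈ Group.conjugatesOfSet ({(z : G)} : Set G), Commute a b := by
      intro a ha b hb
      simp only [Group.mem_conjugatesOfSet_iff, Set.mem_singleton_iff, exists_eq_left,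
        isConj_iff] at ha hb
      obtain ⟨c, rfl⟩ := ha
      obtain ⟨d, rfl⟩ := hb
      have h := (hcom (c⁻¹ * d)).map (MulAut.conj c).toMonoidHom
      simpa [MulAut.conj_apply, mul_assoc] using h
    have h1 : A ≤ Subgroup.centralizer (Group.conjugatesOfSet ({(z : G)} : Set G)) :=
      (Subgroup.closure_le _).mpr fun a ha => Subgroup.mem_centralizer_iff.mpr
        fun b hb => (hset b hb a ha).eq
    have hAab : ∀ a ∈ A, ∀ b ∈ A, a * b = b * a := by
      intro a ha b hb
      have h2 : A ≤ Subgroup.centralizer ({b} : Set G) := (Subgroup.closure_le _).mpr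
        fun c hc => Subgroup.mem_centralizer_iff.mpr fun d hd => by
          rw [Set.mem_singleton_iff] at hd
          rw [hd]
          exact (Subgroup.mem_centralizer_iff.mp (h1 hb) c hc).symm
      exact (Subgroup.mem_centralizer_iff.mp (h2 ha) b rfl).symm
    refine H27.TwoP.not_sq_dvd_index χ hfaith (hn ▸ hn2) P ⟨x, hx, y, hy, hxy⟩ A hAab
      ⟨(z : G), Subgroup.subset_normalClosure rfl, fun hnorm => ?_⟩
    -- the value at `z` is not of full norm
    have hv := hval 1
    rw [pow_one, pow_one] at hv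
    change (χ : G → ℂ) (z : G) = _ at hv
    rw [hn, hv] at hnorm
    have hωn : ‖ω‖ = 1 := Complex.norm_eq_one_of_pow_eq_one hω hp.ne_zero
    have hω2 : ω.re * ω.re + ω.im * ω.im = 1 := by
      rw [← Complex.normSq_apply, Complex.normSq_eq_norm_sq, hωn, one_pow]
    have hsq := congrArg (· ^ 2) hnorm
    simp only [← Complex.normSq_eq_norm_sq, Complex.normSq_apply, Complex.add_re, Complex.add_im,
      Complex.mul_re, Complex.mul_im, Complex.natCast_re, Complex.natCast_im, zero_mul, sub_zero,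
      add_zero] at hsq
    rw [Nat.cast_sub hpn] at hsq
    have hppos : (0 : ℝ) < p := Nat.cast_pos.mpr hp.pos
    have hlt : (0 : ℝ) < (n : ℝ) - p := by
      rw [sub_pos, Nat.cast_lt]; omega
    have h3 : ((p : ℝ) * ((n : ℝ) - p)) * (ω.re - 1) = 0 := by
      linear_combination (1 / 2 : ℝ) * hsq - ((p : ℝ) * p / 2) * hω2
    have hre : ω.re = 1 :=
      sub_eq_zero.mp ((mul_eq_zero.mp h3).resolve_left (mul_pos hppos hlt).ne')
    refine hω1 (Complex.ext hre ?_)
    rw [hre] at hω2
    show ω.im = 0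
    nlinarith
  refine ⟨key, ?_⟩
  haveI : (Cfsg.pCore p G).Normal := H19.pCore_normal p G
  intro Q x hx y hy
  by_cases hex : ∃ P : Sylow p G, ∃ a ∈ (P : Subgroup G), ∃ b ∈ (P : Subgroup G), a * b ≠ b * a
  · -- the Sylow subgroup of the quotient has order at most `p`
    obtain ⟨k, hk⟩ := Q.2.exists_card_eq
    have hk1 : k ≤ 1 := by
      by_contra h
      refine key hex ?_
      rw [Subgroup.index_eq_card]
      exact (pow_dvd_pow p (show 2 ≤ k by omega)).trans (hk ▸ Subgroup.card_subgroup_dvd_card _)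
    have hc : IsCyclic (Q : Subgroup (G ⧸ Cfsg.pCore p G)) := by
      rcases Nat.le_one_iff_eq_zero_or_eq_one.mp hk1 with rfl | rfl
      · rw [pow_zero] at hk
        haveI := (Nat.card_eq_one_iff_unique.mp hk).1
        exact isCyclic_of_subsingleton
      · rw [pow_one] at hk
        exact isCyclic_of_prime_card hk
    haveI := hc.isMulCommutative
    exact congrArg Subtype.val (mul_comm' (⟨x, hx⟩ : (Q : Subgroup (G ⧸ Cfsg.pCore p G))) ⟨y, hy⟩)
  · push Not at hex
    obtain ⟨P⟩ : Nonempty (Sylow p G) := inferInstance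
    obtain ⟨g, hg⟩ := MulAction.exists_smul_eq (G ⧸ Cfsg.pCore p G)
      (P.mapSurjective (QuotientGroup.mk'_surjective (Cfsg.pCore p G))) Q
    obtain ⟨g₀, rfl⟩ := QuotientGroup.mk'_surjective (Cfsg.pCore p G) g
    rw [← hg] at hx hy
    rw [Sylow.coe_subgroup_smul, Sylow.coe_mapSurjective,
      Subgroup.mem_pointwise_smul_iff_inv_smul_mem] at hx hy
    obtain ⟨a, ha, hax⟩ := hx
    obtain ⟨b, hb, hby⟩ := hy
    have h := congrArg (fun u : G => QuotientGroup.mk' (Cfsg.pCore p G) (g₀ * u * g₀⁻¹))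
      (hex P a ha b hb)
    simp only [map_mul, map_inv] at h
    rw [MulAut.smul_def, MulAut.inv_apply, MulEquiv.eq_symm_apply, MulAut.conj_apply] at hax hby
    rw [← hax, ← hby]
    simpa [mul_assoc] using h

end Cfsg.Agent.S4471
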