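import Cfsg.Statements.S4473
import Cfsg.Agent.H43.DegreeTwoPrimitive

set_option maxHeartbeats 800000

set_option autoImplicit false
open Cfsg

namespace Cfsg.Agent.S4473

/-- Let the finite group G have a faithful irreducible character χ of degree 2 that is primitive: χ is not induced from a character of any proper subgroup. Then the centre of G has index 12, 24 or 60. -/
theorem result {G : Type*} [Group G] [Fintype G] (χ : Cfsg.IrrCharacter G) (hfaith : ∀ g : G, (χ : G → ℂ) g = (χ : G → ℂ) 1 → g = 1) (h2 : Cfsg.charDegree (χ : G → ℂ) = 2) (hprim : ∀ H : Subgroup G, H ≠ ⊤ → ∀ θ : H → ℂ, Cfsg.IsCharacter H θ → (χ : G → ℂ) ≠ Cfsg.indFun H θ) : (Subgroup.center G).index = 12 ∨ (Subgroup.center G).index = 24 ∨ (Subgroup.center G).index = 60 := by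
  obtain ⟨⟨m, ρ, hρ, e⟩⟩ : Nonempty (Cfsg.IsIrrCharacter G (χ : G → ℂ)) := ⟨χ.2⟩
  have hm : m = 2 := by
    rw [← e, Cfsg.charDegree, ρ.char_one, Complex.natCast_re, Nat.floor_natCast,
      Module.finrank_fin_fun] at h2
    exact h2
  subst hm
  refine H43.index_center_of_primitive_two ρ ?_ (fun H hH θ hθ => by rw [e]; exact hprim H hH θ hθ)
  intro a b hab
  have h1 : (χ : G → ℂ) (a⁻¹ * b) = (χ : G → ℂ) 1 := by
    rw [← e, Representation.character, Representation.character, map_mul, ← hab, ← map_mul,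
      inv_mul_cancel]
  exact inv_mul_eq_one.mp (hfaith _ h1)

end Cfsg.Agent.S4473
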