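import Cfsg.Statements.S4476
import Cfsg.Agent.H26.CharInvolutions

set_option autoImplicit false
open Cfsg

namespace Cfsg.Agent.S4476

/-- Let G be a finite group of even order g with exactly t involutions, and put α = (g − 1)/t (a rational number). Then (a) some non-identity element x of G has at most α² conjugates; and (b) some non-principal real-valued irreducible character of G has degree at most α. -/
theorem result {G : Type*} [Group G] [Fintype G] (heven : Even (Nat.card G)) (t : ℕ) (ht : Nat.card {x : G // orderOf x = 2} = t) : (∃ x : G, x ≠ 1 ∧ ((Subgroup.centralizer ({x} : Set G)).index : ℚ) ≤ (((Nat.card G : ℚ) - 1) / t) ^ 2) ∧ ∃ χ : Cfsg.IrrCharacter G, (χ : G → ℂ) ≠ (fun _ => 1) ∧ (∀ g : G, ((χ : G → ℂ) g).im = 0) ∧ (Cfsg.charDegree (χ : G → ℂ) : ℚ) ≤ ((Nat.card G : ℚ) - 1) / t := by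
  exact Cfsg.Agent.H26.exists_small_centralizer_index_and_real_degree heven t ht

end Cfsg.Agent.S4476
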