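import Cfsg.Statements.S4478
import Cfsg.Agent.H42.Arith
import Cfsg.Agent.H27.DefectZero
import Cfsg.Agent.H26.CharFS
-- import your own Cfsg.Agent.* helpers here

set_option autoImplicit false
open Cfsg

namespace Cfsg.Agent.S4478

/-- Let G be a finite group of even order and χ an irreducible character of G whose degree x is divisible by the full power of 2 dividing the order of G and, for every odd prime p such that G has an element of order 2p, by the full power of p dividing the order of G. Then all involutions of G are conjugate, the centralizer of every involution has order exactly x with x coprime to its index, and the Frobenius–Schur indicator of χ equals 1. -/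
theorem result {G : Type*} [Group G] [Fintype G] (heven : Even (Nat.card G)) (χ : Cfsg.IrrCharacter G) (h2 : 2 ^ (Nat.card G).factorization 2 ∣ Cfsg.charDegree (χ : G → ℂ)) (hp : ∀ p : ℕ, p.Prime → p ≠ 2 → (∃ g : G, orderOf g = 2 * p) → p ^ (Nat.card G).factorization p ∣ Cfsg.charDegree (χ : G → ℂ)) : (∀ s t : G, orderOf s = 2 → orderOf t = 2 → IsConj s t) ∧ (∀ s : G, orderOf s = 2 → Nat.card (Subgroup.centralizer ({s} : Set G)) = Cfsg.charDegree (χ : G → ℂ) ∧ (Nat.card (Subgroup.centralizer ({s} : Set G))).Coprime (Subgroup.centralizer ({s} : Set G)).index) ∧ (Nat.card G : ℂ)⁻¹ * ∑ g : G, (χ : G → ℂ) (g * g) = 1 := by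
  classical
  set x := Cfsg.charDegree (χ : G → ℂ) with hx
  have hxpos : 0 < x := Cfsg.Agent.H42.charDegree_pos χ
  have hx1 : χ.1 1 = (x : ℂ) := Cfsg.Agent.H42.irr_one_eq χ
  have hcard : Nat.card G ≠ 0 := Nat.card_pos.ne'
  -- `χ` vanishes at elements of order divisible by one of the full primes
  have hvan : ∀ r : ℕ, r.Prime → (r = 2 ∨ ∃ g : G, orderOf g = 2 * r) → ∀ g : G, r ∣ orderOf g →
      χ.1 g = 0 := by
    intro r hr hcase g hg
    refine Cfsg.Agent.H27.char_eq_zero_of_defect_zero χ hr
      ((hr.pow_dvd_iff_le_factorization hcard).2 le_rfl)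
      (fun h => by have := (hr.pow_dvd_iff_le_factorization hcard).1 h; omega) hx1 ?_ g hg
    by_cases h : r = 2
    · subst h; exact h2
    · exact hp r hr h (hcase.resolve_left h)
  obtain ⟨t₀, ht₀⟩ := exists_prime_orderOf_dvd_card' 2 heven.two_dvd (G := G)
  have hx2 : 2 ∣ x := by
    refine dvd_trans (dvd_pow_self 2 ?_) h2
    exact (Nat.Prime.factorization_pos_of_dvd Nat.prime_two hcard heven.two_dvd).ne'
  have hne : χ ≠ Cfsg.Agent.H26.oneIrr G := by
    intro h
    have : (x : ℂ) = 1 := by rw [← hx1, h, Cfsg.Agent.H26.oneIrr_val]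
    have : x = 1 := by exact_mod_cast this
    omega
  set T := Finset.univ.filter (fun g : G => orderOf g = 2) with hT
  have hTne : T.Nonempty := ⟨t₀, Finset.mem_filter.2 ⟨Finset.mem_univ _, ht₀⟩⟩
  have hsum0 : ∑ g : G, χ.1 g = 0 := by
    have h := Cfsg.Agent.H26.classInner_irr χ (Cfsg.Agent.H26.oneIrr G)
    rw [if_neg hne, Cfsg.classInner] at h
    simp only [Cfsg.Agent.H26.oneIrr_val, map_one, mul_one, mul_eq_zero, inv_eq_zero,
      Nat.cast_eq_zero, hcard, false_or] at h
    exact h
  have hsq : ∑ g : G, χ.1 (g * g) = (T.card : ℂ) * x := by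
    rw [← Finset.sum_filter_add_sum_filter_not Finset.univ (fun g : G => 2 ∣ orderOf g)]
    have hodd : ∑ g ∈ Finset.univ.filter (fun g : G => ¬ 2 ∣ orderOf g), χ.1 (g * g) = 0 := by
      rw [← hsum0, ← Finset.sum_filter_add_sum_filter_not Finset.univ
        (fun g : G => 2 ∣ orderOf g) (fun g => χ.1 g),
        Finset.sum_eq_zero (fun g hg =>
          hvan 2 Nat.prime_two (Or.inl rfl) g (Finset.mem_filter.1 hg).2), zero_add]
      have hco : ∀ g ∈ Finset.univ.filter (fun g : G => ¬ 2 ∣ orderOf g),
          orderOf (g * g) = orderOf g ∧ g ^ ((orderOf g + 1) / 2) * g ^ ((orderOf g + 1) / 2) = g := by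
        intro g hg
        have h := (Finset.mem_filter.1 hg).2
        refine ⟨?_, ?_⟩
        · rw [← sq]
          exact Nat.Coprime.orderOf_pow ((Nat.Prime.coprime_iff_not_dvd Nat.prime_two).2 h).symm
        · rw [← pow_add, show (orderOf g + 1) / 2 + (orderOf g + 1) / 2 = orderOf g + 1 by omega,
            pow_succ, pow_orderOf_eq_one, one_mul]
      refine Finset.sum_bij' (fun g _ => g * g) (fun g _ => g ^ ((orderOf g + 1) / 2))
        (fun g hg => ?_) (fun g hg => ?_) (fun g hg => ?_) (fun g hg => ?_) (fun g _ => rfl)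
      · simpa [(hco g hg).1] using (Finset.mem_filter.1 hg).2
      · have h := (Finset.mem_filter.1 hg).2
        refine Finset.mem_filter.2 ⟨Finset.mem_univ _, fun h' => h ?_⟩
        exact h'.trans (orderOf_pow_dvd _)
      · rw [(hco g hg).1, ← sq, ← pow_mul]
        have h := (Finset.mem_filter.1 hg).2
        rw [show 2 * ((orderOf g + 1) / 2) = orderOf g + 1 by omega, pow_succ, pow_orderOf_eq_one,
          one_mul]
      · exact (hco g hg).2
    rw [hodd, add_zero, ← nsmul_eq_mul, ← Finset.sum_const,
      ← Finset.sum_subset (s₁ := T) (fun g hg => Finset.mem_filter.2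
        ⟨Finset.mem_univ _, (Finset.mem_filter.1 hg).2 ▸ dvd_rfl⟩) ?_]
    · refine Finset.sum_congr rfl fun g hg => ?_
      rw [← sq, ← (Finset.mem_filter.1 hg).2, pow_orderOf_eq_one, hx1]
    · intro g hg hgT
      obtain ⟨m, hm⟩ := (Finset.mem_filter.1 hg).2
      have hm1 : m ≠ 1 := fun h => hgT (Finset.mem_filter.2 ⟨Finset.mem_univ _, by omega⟩)
      have hm0 : 0 < m := by
        rcases Nat.eq_zero_or_pos m with h | h
        · exact absurd (hm.trans (by omega)) (orderOf_pos g).ne'
        · exact h
      have hgg : orderOf (g * g) = m := by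
        rw [← sq, orderOf_pow' g two_ne_zero, hm,
          Nat.gcd_eq_right (dvd_mul_right 2 m), Nat.mul_div_cancel_left _ two_pos]
      obtain ⟨r, hr, hrm⟩ := Nat.exists_prime_and_dvd hm1
      refine hvan r hr ?_ _ (hgg ▸ hrm)
      by_cases h : r = 2
      · exact Or.inl h
      · obtain ⟨c, hc⟩ := hrm
        refine Or.inr ⟨g ^ c, ?_⟩
        have hcne : c ≠ 0 := by rintro rfl; omega
        rw [orderOf_pow' g hcne, hm, hc,
          Nat.gcd_eq_right (Dvd.intro_left (2 * r) (by ring)),
          show 2 * (r * c) = 2 * r * c by ring, Nat.mul_div_cancel _ (Nat.pos_of_ne_zero hcne)]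
  -- the indicator is one
  have hν : (Nat.card G : ℂ)⁻¹ * ∑ g : G, χ.1 (g * g) = 1 := by
    have hval : Cfsg.Agent.H26.fsIndicator χ.1 = ((((Nat.card G : ℝ)⁻¹ * (T.card * x) : ℝ)) : ℂ) := by
      rw [Cfsg.Agent.H26.fsIndicator, hsq]; push_cast; ring
    have hposT : (0 : ℝ) < (Nat.card G : ℝ)⁻¹ * (T.card * x) := by
      have := hTne.card_pos
      positivity
    rcases (Cfsg.Agent.H26.fsIndicator_trichotomy χ).1 with h | h | h
    · rw [hval] at h; exact absurd (Complex.ofReal_eq_zero.1 h) hposT.ne'
    · exact h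
    · rw [hval] at h
      have : (Nat.card G : ℝ)⁻¹ * (T.card * x) = -1 := by exact_mod_cast h
      linarith
  have htx : T.card * x = Nat.card G := by
    rw [hsq] at hν
    field_simp at hν
    exact_mod_cast hν
  have hkey : ∀ s : G, orderOf s = 2 →
      (Finset.univ.filter fun g : G => ConjClasses.mk g = ConjClasses.mk s) = T ∧
      Nat.card (Subgroup.centralizer ({s} : Set G)) = x := by
    intro s hs
    set c := Nat.card (Subgroup.centralizer ({s} : Set G)) with hc
    have hcpos : c ≠ 0 := Nat.card_pos.ne'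
    have hcx : c ∣ x := by
      rw [← Nat.factorization_le_iff_dvd hcpos hxpos.ne']
      intro r
      by_cases hr : r.Prime
      swap
      · simp [Nat.factorization_eq_zero_of_not_prime _ hr]
      by_cases hrc : r ∣ c
      swap
      · simp [Nat.factorization_eq_zero_of_not_dvd hrc]
      refine ((Nat.factorization_le_iff_dvd hcpos hcard).2 (Subgroup.card_subgroup_dvd_card _) r).trans
        ((hr.pow_dvd_iff_le_factorization hxpos.ne').1 ?_)
      by_cases h : r = 2
      · subst h; exact h2
      · have := Fact.mk hr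
        obtain ⟨z, hz⟩ := exists_prime_orderOf_dvd_card' r hrc
        have hcom : Commute s (z : G) := ((Subgroup.mem_centralizer_singleton_iff).1 z.2).symm
        refine hp r hr h ⟨s * z, ?_⟩
        have hz' : orderOf (z : G) = r := by rw [Subgroup.orderOf_coe, hz]
        rw [hcom.orderOf_mul_eq_mul_orderOf_of_coprime, hs, hz']
        rw [hs, hz']
        exact (Nat.coprime_primes Nat.prime_two hr).2 (Ne.symm h)
    have hmul := Cfsg.Agent.H26.card_class_mul_card_centralizer s
    rw [← hc, ← htx] at hmul
    set S := Finset.univ.filter fun g : G => ConjClasses.mk g = ConjClasses.mk s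
    have hST : S ⊆ T := fun g hg => by
      obtain ⟨u, hu⟩ := isConj_iff.1 (ConjClasses.mk_eq_mk_iff_isConj.1 (Finset.mem_filter.1 hg).2)
      refine Finset.mem_filter.2 ⟨Finset.mem_univ _, ?_⟩
      rw [← hs, ← hu]
      exact ((MulAut.conj u).orderOf_eq g).symm
    have hle : T.card ≤ S.card := by
      have h1 : S.card * c ≤ S.card * x := Nat.mul_le_mul_left _ (Nat.le_of_dvd hxpos hcx)
      rw [hmul] at h1
      exact Nat.le_of_mul_le_mul_right h1 hxpos
    refine ⟨Finset.eq_of_subset_of_card_le hST hle, ?_⟩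
    rw [Finset.eq_of_subset_of_card_le hST hle] at hmul
    exact Nat.eq_of_mul_eq_mul_left hTne.card_pos hmul
  refine ⟨fun s t hs ht => ?_, fun s hs => ⟨(hkey s hs).2, ?_⟩, hν⟩
  · have : t ∈ T := Finset.mem_filter.2 ⟨Finset.mem_univ _, ht⟩
    rw [← (hkey s hs).1, Finset.mem_filter] at this
    exact (ConjClasses.mk_eq_mk_iff_isConj.1 this.2).symm
  · set C := Subgroup.centralizer ({s} : Set G) with hC
    refine Nat.coprime_of_dvd fun r hr hrC hri => ?_
    have hfull : r ^ (Nat.card G).factorization r ∣ x := by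
      by_cases h : r = 2
      · subst h; exact h2
      · have := Fact.mk hr
        obtain ⟨z, hz⟩ := exists_prime_orderOf_dvd_card' r hrC
        have hcom : Commute s (z : G) := ((Subgroup.mem_centralizer_singleton_iff).1 z.2).symm
        refine hp r hr h ⟨s * z, ?_⟩
        have hz' : orderOf (z : G) = r := by rw [Subgroup.orderOf_coe, hz]
        rw [hcom.orderOf_mul_eq_mul_orderOf_of_coprime, hs, hz']
        rw [hs, hz']
        exact (Nat.coprime_primes Nat.prime_two hr).2 (Ne.symm h)
    rw [← (hkey s hs).2, ← hC] at hfull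
    have h3 : r ^ (Nat.card G).factorization r * r ∣ Nat.card G := by
      exact (mul_dvd_mul hfull hri).trans (dvd_of_eq C.card_mul_index)
    rw [← pow_succ] at h3
    have := (hr.pow_dvd_iff_le_factorization hcard).1 h3
    omega

end Cfsg.Agent.S4478
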