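import Cfsg.Statements.S4480
import Cfsg.Agent.H56.KleinFour
import Cfsg.Agent.H43.RealTwoBlock

set_option autoImplicit false
open Cfsg

namespace Cfsg.Agent.S4480

/-- Same setting as the Klein-four order formula: G of order 4·g₀ (g₀ odd) with no normal 2-complement, P a Sylow 2-subgroup, J an involution of P, M over 2, principal 2-block {1, χ₁, χ₂, χ₃} with χ_i(J) = ε_i = ±1. Suppose ε₁ε₂ε₃ = −1 and ε₃ = −1, and put q = x₃ = χ₃(1). Then there is a natural number m with 4·c(J) = m·c(P)·(q + 1), and the order of G equals (m³·c(P)/4)·(q³ − q)/2, that is 8·#G = m³·c(P)·(q³ − q). -/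
theorem result {G : Type*} [Group G] [Finite G] (M : Ideal Cfsg.AlgInt) (hM : Cfsg.IsPModular 2 M) (g₀ : ℕ) (hg₀ : Odd g₀) (hG : Nat.card G = 4 * g₀) (hnc : ¬ ∃ N : Subgroup G, N.Normal ∧ Nat.card N = g₀) (P : Sylow 2 G) (J : G) (hJ : J ∈ (P : Subgroup G)) (hJ2 : orderOf J = 2) (χ₁ χ₂ χ₃ : Cfsg.IrrCharacter G) (ε₁ ε₂ ε₃ : ℤ) (hB : Cfsg.principalBlock M G = {χ : Cfsg.IrrCharacter G | (χ : G → ℂ) = (fun _ => 1) ∨ χ = χ₁ ∨ χ = χ₂ ∨ χ = χ₃}) (hdist : (χ₁ : G → ℂ) ≠ (fun _ => 1) ∧ (χ₂ : G → ℂ) ≠ (fun _ => 1) ∧ (χ₃ : G → ℂ) ≠ (fun _ => 1) ∧ χ₁ ≠ χ₂ ∧ χ₁ ≠ χ₃ ∧ χ₂ ≠ χ₃) (hε : (ε₁ = 1 ∨ ε₁ = -1) ∧ (ε₂ = 1 ∨ ε₂ = -1) ∧ (ε₃ = 1 ∨ ε₃ = -1)) (hval : (χ₁ : G → ℂ) J = ε₁ ∧ (χ₂ : G → ℂ) J = ε₂ ∧ (χ₃ : G → ℂ) J = ε₃) (hprod : ε₁ * ε₂ * ε₃ = -1) (hε₃ : ε₃ = -1) : ∃ m : ℕ, 4 * Nat.card (Subgroup.centralizer ({J} : Set G)) = m * Nat.card (Subgroup.centralizer ((P :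 Subgroup G) : Set G)) * (Cfsg.charDegree (χ₃ : G → ℂ) + 1) ∧ 8 * Nat.card G = m ^ 3 * Nat.card (Subgroup.centralizer ((P : Subgroup G) : Set G)) * (Cfsg.charDegree (χ₃ : G → ℂ) ^ 3 - Cfsg.charDegree (χ₃ : G → ℂ)) := by
  classical
  haveI := Fintype.ofFinite G
  obtain ⟨h1, h2⟩ := Cfsg.Agent.H56.klein_order_eq M hM hg₀ hG hnc P J hJ hJ2 χ₁ χ₂ χ₃ ε₁ ε₂ ε₃
    hB hdist hε hval
  have hpos : ∀ χ : Cfsg.IrrCharacter G, 0 < Cfsg.charDegree χ.1 :=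
    Cfsg.Agent.H43.irr_charDegree_pos
  rw [Cfsg.Agent.H43.irr_charDegree_spec, Cfsg.Agent.H43.irr_charDegree_spec,
    Cfsg.Agent.H43.irr_charDegree_spec] at h1 h2
  obtain ⟨e1, e2⟩ : ε₁ = 1 ∧ ε₂ = 1 := by
    subst hε₃
    rcases hε.1 with rfl | rfl <;> rcases hε.2.1 with rfl | rfl
    · exact ⟨rfl, rfl⟩
    · norm_num at hprod
    · norm_num at hprod
    · exfalso
      push_cast at h1
      have : ((Cfsg.charDegree χ₁.1 : ℂ) + Cfsg.charDegree χ₂.1 + Cfsg.charDegree χ₃.1) =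
          ((1 : ℕ) : ℂ) := by push_cast; linear_combination -h1
      have h := hpos χ₁; have h' := hpos χ₂; have h'' := hpos χ₃
      norm_cast at this
      omega
  have hx := Cfsg.Agent.H56.klein_degree_eq M hM hg₀ hG hnc P J hJ hJ2 χ₁ χ₂ χ₃ ε₁ ε₂ ε₃ hB hdist
    e1 e2 hε₃ hval
  subst e1 e2 hε₃
  set x := Cfsg.charDegree χ₁.1 with hx'
  set q := Cfsg.charDegree χ₃.1 with hq'
  set cJ := Nat.card (Subgroup.centralizer ({J} : Set G)) with hcJ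
  set cP := Nat.card (Subgroup.centralizer ((P : Subgroup G) : Set G)) with hcP
  set t := (Subgroup.centralizer ({J} : Set G)).index with ht
  rw [← hx] at h1 h2
  push_cast at h1 h2
  have hqx : q = 2 * x + 1 := by
    have : (q : ℂ) = ((2 * x + 1 : ℕ) : ℂ) := by push_cast; linear_combination -h1
    exact_mod_cast this
  have hx0 : 0 < x := hpos χ₁
  have hcard : t * cJ = Nat.card G := Subgroup.index_mul_card _
  have hx1 : (x : ℂ) ≠ 0 := Nat.cast_ne_zero.2 hx0.ne'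
  have hq1 : (q : ℂ) ≠ 0 := Nat.cast_ne_zero.2 (by omega)
  have hp : (cP : ℂ) ≠ 0 := Nat.cast_ne_zero.2 Nat.card_pos.ne'
  have key : Nat.card G * (q + 1) ^ 2 * cP ^ 2 = 16 * cJ ^ 3 * x * q := by
    field_simp at h2
    have : ((Nat.card G * (q + 1) ^ 2 * cP ^ 2 : ℕ) : ℂ) = ((16 * cJ ^ 3 * x * q : ℕ) : ℂ) := by
      push_cast
      rw [hqx] at h2 ⊢
      push_cast at h2 ⊢
      linear_combination 2 * h2
    exact_mod_cast this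
  have hdvd : ∀ χ : Cfsg.IrrCharacter G, (∃ e : ℤ, (e = 1 ∨ e = -1) ∧ χ.1 J = e) →
      Cfsg.charDegree χ.1 ∣ t := by
    rintro χ ⟨e, he, hv⟩
    have hint := Cfsg.Agent.H43.isIntegral_centralChar χ J
    have hd := hpos χ
    have hval' : Cfsg.centralChar χ.1 J =
        algebraMap ℚ ℂ ((t : ℚ) * e / Cfsg.charDegree χ.1) := by
      rw [Cfsg.centralChar, hv, Cfsg.Agent.H43.irr_charDegree_spec, eq_ratCast]
      push_cast
      rfl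
    rw [hval'] at hint
    obtain ⟨z, hz⟩ := IsIntegrallyClosed.isIntegral_iff.1
      ((isIntegral_algebraMap_iff (algebraMap ℚ ℂ).injective).1 hint)
    rw [eq_intCast, eq_div_iff (Nat.cast_ne_zero.2 hd.ne')] at hz
    have hz' : z * (Cfsg.charDegree χ.1 : ℤ) = (t : ℤ) * e := by exact_mod_cast hz
    refine Int.natCast_dvd_natCast.1 ⟨z * e, ?_⟩
    rcases he with rfl | rfl <;> linarith
  obtain ⟨s, hs⟩ : q * x ∣ t := by
    refine Nat.Coprime.mul_dvd_of_dvd_of_dvd ?_ (hdvd χ₃ ⟨-1, Or.inr rfl, hval.2.2⟩)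
      (hdvd χ₁ ⟨1, Or.inl rfl, hval.1⟩)
    rw [hqx, add_comm, mul_comm 2 x]
    exact (Nat.coprime_add_mul_left_left 1 x 2).2 (Nat.coprime_one_left x)
  have hcJ0 : 0 < cJ := Nat.card_pos
  have hsq : (cP * (q + 1)) ^ 2 ∣ (4 * cJ) ^ 2 := by
    refine ⟨s, Nat.eq_of_mul_eq_mul_left (Nat.mul_pos hcJ0 (Nat.mul_pos hx0 (by omega : 0 < q))) ?_⟩
    rw [← hcard, hs] at key
    calc cJ * (x * q) * (4 * cJ) ^ 2 = 16 * cJ ^ 3 * x * q := by ring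
      _ = q * x * s * cJ * (q + 1) ^ 2 * cP ^ 2 := key.symm
      _ = cJ * (x * q) * ((cP * (q + 1)) ^ 2 * s) := by ring
  obtain ⟨m, hm⟩ := (Nat.pow_dvd_pow_iff two_ne_zero).1 hsq
  refine ⟨m, by rw [hm]; ring, ?_⟩
  have hq3 : q ≤ q ^ 3 := Nat.le_self_pow three_ne_zero q
  have hfin : (8 * Nat.card G : ℤ) * (cP ^ 2 * (q + 1) ^ 3) =
      (m : ℤ) ^ 3 * cP * ((q : ℤ) ^ 3 - q) * (cP ^ 2 * (q + 1) ^ 3) := by
    have hk : (Nat.card G : ℤ) * ((q : ℤ) + 1) ^ 2 * cP ^ 2 = 16 * cJ ^ 3 * x * q := by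
      exact_mod_cast key
    have hm' : 4 * (cJ : ℤ) = cP * ((q : ℤ) + 1) * m := by exact_mod_cast hm
    have hq'' : (q : ℤ) = 2 * x + 1 := by exact_mod_cast hqx
    calc (8 * Nat.card G : ℤ) * (cP ^ 2 * (q + 1) ^ 3)
        = 8 * (q + 1) * ((Nat.card G : ℤ) * ((q : ℤ) + 1) ^ 2 * cP ^ 2) := by ring
      _ = (q + 1) * q * (q - 1) * (4 * (cJ : ℤ)) ^ 3 := by rw [hk, hq'']; ring
      _ = _ := by rw [hm']; ring
  have hne : ((cP : ℤ) ^ 2 * ((q : ℤ) + 1) ^ 3) ≠ 0 := by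
    have : 0 < cP := Nat.card_pos
    positivity
  have := mul_right_cancel₀ hne hfin
  have h' : ((8 * Nat.card G : ℕ) : ℤ) = ((m ^ 3 * cP * (q ^ 3 - q) : ℕ) : ℤ) := by
    push_cast [Nat.cast_sub hq3]
    exact this
  exact_mod_cast h'

end Cfsg.Agent.S4480
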