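import Cfsg.Statements.S4483
import Cfsg.Agent.H43.RealOddCount

set_option autoImplicit false
open Cfsg

namespace Cfsg.Agent.S4483

/-- Let G be a finite group of order 2^n·g₀ with g₀ odd, and M a maximal ideal of the algebraic integers containing 2. Every real-valued irreducible character of G of odd degree lies in the principal 2-block; consequently G has at most 2^(2n) real-valued irreducible characters of odd degree. -/
theorem result {G : Type*} [Group G] [Finite G] (M : Ideal Cfsg.AlgInt) (hM : Cfsg.IsPModular 2 M) : (∀ χ : Cfsg.IrrCharacter G, (∀ g : G, ((χ : G → ℂ) g).im = 0) → Odd (Cfsg.charDegree (χ : G → ℂ)) → χ ∈ Cfsg.principalBlock M G) ∧ Nat.card {χ : Cfsg.IrrCharacter G // (∀ g : G, ((χ : G → ℂ) g).im = 0) ∧ Odd (Cfsg.charDegree (χ : G → ℂ))} ≤ 2 ^ (2 * (Nat.card G).factorization 2) := by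
  haveI := Fintype.ofFinite G
  refine ⟨fun χ hre hodd => H43.mem_principalBlock_of_conj_congr hM χ hodd fun g => ?_,
    H43.card_real_odd_degree_le hM⟩
  have h : H43.irrAlgInt χ g⁻¹ = H43.irrAlgInt χ g := by
    apply Subtype.ext
    show χ.1 g⁻¹ = χ.1 g
    rw [H26.irr_inv]
    exact Complex.conj_eq_iff_im.mpr (hre g)
  rw [h, sub_self]
  exact M.zero_mem

end Cfsg.Agent.S4483
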