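import Cfsg.Statements.S4488
import Cfsg.Agent.H43.SchurSum

set_option autoImplicit false
set_option maxHeartbeats 800000
open Cfsg

namespace Cfsg.Agent.S4488

/-- Let the finite group G have a faithful p-rational character χ of degree n (all values of χ lie in the field generated over ℚ by a root of unity of order prime to p), and let p^a be the order of a Sylow p-subgroup of G. Then a ≤ Σ_{i ≥ 0} ⌊n / ((p − 1)·p^i)⌋ (a finite sum; the terms vanish once (p − 1)p^i > n). -/
theorem result {G : Type*} [Group G] [Finite G] (p : ℕ) (hp : p.Prime) (χ : G → ℂ) (hχ : Cfsg.IsCharacter G χ) (hfaith : ∀ g : G, χ g = χ 1 → g = 1) (hrat : (∃ r : ℕ, 0 < r ∧ ¬ p ∣ r ∧ ∀ g : G, χ g ∈ IntermediateField.adjoin ℚ ({Complex.exp (2 * Real.pi * Complex.I / r)} : Set ℂ))) (n : ℕ) (hn : Cfsg.charDegree χ = n) : (Nat.card G).factorization p ≤ ∑ i ∈ Finset.range (n + 1), n / ((p - 1) * p ^ i) := by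
  classical
  have : Fact p.Prime := ⟨hp⟩
  rcases Nat.eq_zero_or_pos ((Nat.card G).factorization p) with h0 | hL
  · rw [h0]; exact Nat.zero_le _
  set L := (Nat.card G).factorization p
  obtain ⟨P⟩ : Nonempty (Sylow p G) := inferInstance
  have hP : Nat.card (P : Subgroup G) = p ^ L := P.card_eq_multiplicity
  have : NeZero (p ^ L) := ⟨(pow_pos hp.pos L).ne'⟩
  let _ : Fintype (P : Subgroup G) := Fintype.ofFinite _
  have hN : ∀ g : (P : Subgroup G), g ^ p ^ L = 1 := fun g => by rw [← hP]; exact pow_card_eq_one'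
  set ψ : ↥(P : Subgroup G) → ℂ := fun g => χ g with hψdef
  have hψ : Cfsg.IsCharacter (P : Subgroup G) ψ := H26.isCharacter_comp hχ (P : Subgroup G).subtype
  obtain ⟨r, hr, hpr, hval⟩ := hrat
  have hfix : ∀ k, k ∈ H43.powFix hN ψ := by
    intro k g
    set kv := (k : ZMod (p ^ L)).val with hkv
    have hco : (p ^ L).Coprime r := ((hp.coprime_iff_not_dvd).mpr hpr).pow_left L
    obtain ⟨j, hj1, hj2⟩ := Nat.chineseRemainder hco kv 1
    have hjc : j.Coprime (p ^ L * r) := by
      refine Nat.Coprime.mul_right ?_ ?_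
      · rw [Nat.coprime_iff_gcd_eq_one, hj1.gcd_eq, ← Nat.coprime_iff_gcd_eq_one]
        exact ZMod.val_coe_unit_coprime k
      · rw [Nat.coprime_iff_gcd_eq_one, hj2.gcd_eq, Nat.gcd_one_left]
    obtain ⟨σ, hσ⟩ := H45.exists_ringAut_pow (Nat.mul_pos (pow_pos hp.pos L) hr).ne' hjc
    have hζ : σ (Complex.exp (2 * Real.pi * Complex.I / r)) =
        Complex.exp (2 * Real.pi * Complex.I / r) := by
      have hz := Complex.isPrimitiveRoot_exp r hr.ne'
      rw [hσ _ (by rw [Nat.mul_comm, pow_mul, hz.pow_eq_one, one_pow]),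
        pow_eq_pow_mod j hz.pow_eq_one, hj2, ← pow_eq_pow_mod 1 hz.pow_eq_one, pow_one]
    have hfixσ : σ (ψ g) = ψ g := by
      have h := hval (g : G)
      show σ (χ g) = χ g
      generalize χ g = z at h ⊢
      induction h using IntermediateField.adjoin_induction with
      | mem x hx => rw [Set.mem_singleton_iff.mp hx]; exact hζ
      | algebraMap q => rw [eq_ratCast]; exact map_ratCast σ q
      | add x y _ _ hx hy => rw [map_add, hx, hy]
      | inv x _ hx => rw [map_inv₀, hx]
      | mul x y _ _ hx hy => rw [map_mul, hx, hy]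
    rw [H45.ringAut_char hψ σ (fun z hz => hσ z (by
      rw [← hP, pow_mul, hz, one_pow])) g] at hfixσ
    have hpow : g ^ kv = g ^ j := by
      rw [pow_eq_pow_mod kv (hN g), pow_eq_pow_mod j (hN g), hj1]
    rw [hpow]
    exact hfixσ
  have hfaith' : ∀ g, ψ g = ψ 1 → g = 1 := fun g hg => Subtype.ext (hfaith g hg)
  have hdeg : Cfsg.charDegree ψ = n := by rw [← hn]; rfl
  have h := H43.le_schurB_of_powFix hL hP hN hψ hfix hfaith'
  rw [hdeg] at h
  exact h

end Cfsg.Agent.S4488
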