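import Cfsg.Statements.S4489
import Cfsg.Agent.H43.ValueField

set_option autoImplicit false
set_option maxHeartbeats 800000
open Cfsg

namespace Cfsg.Agent.S4489

/-- Let P be a finite p-group of order p^a with a > 0, and χ a faithful irreducible character of P of degree f whose field of values ℚ(χ) has degree (p − 1)·p^t over ℚ. Then a ≤ (f − 1)/(p − 1) + (t + 1)·f; in integer form, (p − 1)·a ≤ (f − 1) + (p − 1)(t + 1)·f. -/
theorem result {P : Type*} [Group P] [Finite P] (p a : ℕ) (hp : p.Prime) (ha : 0 < a) (hP : Nat.card P = p ^ a) (χ : Cfsg.IrrCharacter P) (hfaith : ∀ g : P, (χ : P → ℂ) g = (χ : P → ℂ) 1 → g = 1) (f t : ℕ) (hf : Cfsg.charDegree (χ : P → ℂ) = f) (hfield : Module.finrank ℚ (IntermediateField.adjoin ℚ (Set.range (χ : P → ℂ))) = (p - 1) * p ^ t) : (p - 1) * a ≤ (f - 1) + (p - 1) * (t + 1) * f := by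
  classical
  have : Fact p.Prime := ⟨hp⟩
  have : NeZero (p ^ a) := ⟨(pow_pos hp.pos a).ne'⟩
  let _ : Fintype P := Fintype.ofFinite P
  have hN : ∀ g : P, g ^ p ^ a = 1 := fun g => by rw [← hP]; exact pow_card_eq_one'
  have hker : H43.charKer χ = ⊥ :=
    (Subgroup.eq_bot_iff_forall _).mpr fun g hg => hfaith g hg
  have hne : H43.charKer χ ≠ ⊤ := by
    intro h
    rw [hker] at h
    have h2 := Subgroup.card_top (G := P)
    rw [← h, Subgroup.card_bot, hP] at h2
    exact (Nat.one_lt_pow ha.ne' hp.one_lt).ne h2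
  obtain ⟨a', t', h1, h2, h3⟩ :=
    H43.schur_bound (L := a) ha (Nat.card P) P le_rfl (IsPGroup.of_card hP) hN χ hne
  rw [hker, Subgroup.index_bot, hP] at h1
  obtain rfl : a = a' := Nat.pow_right_injective hp.two_le h1
  rw [H43.finrank_adjoin_range_eq_index hP hN (H26.irr_isCharacter χ), h2] at hfield
  obtain rfl : t' = t := Nat.pow_right_injective hp.two_le
    (Nat.eq_of_mul_eq_mul_left (by have := hp.two_le; omega) hfield)
  rw [hf] at h3
  omega

end Cfsg.Agent.S4489
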