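import Cfsg.Statements.S4490
import Cfsg.Agent.H42.RealBlock
-- import your own Cfsg.Agent.* helpers here

set_option autoImplicit false
open Cfsg

namespace Cfsg.Agent.S4490

/-- Let G be a finite group and M a maximal ideal of the algebraic integers containing 2. Every 2-block B of G whose defect groups are the Sylow 2-subgroups of G (a block of full defect) and which is not the principal block is different from its complex-conjugate block, the block formed by the complex conjugates of the members of B. -/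
theorem result {G : Type*} [Group G] [Finite G] (M : Ideal Cfsg.AlgInt) (hM : Cfsg.IsPModular 2 M) (B : Set (Cfsg.IrrCharacter G)) (hB : Cfsg.IsPBlock M B) (P : Sylow 2 G) (hfull : Cfsg.IsDefectGroup 2 M B (P : Subgroup G)) (hnp : B ≠ Cfsg.principalBlock M G) : {ψ : Cfsg.IrrCharacter G | ∃ χ ∈ B, (ψ : G → ℂ) = fun g => (starRingEnd ℂ) ((χ : G → ℂ) g)} ≠ B := by
  classical
  have := hM.2.1
  have : Fact (Nat.Prime 2) := ⟨Nat.prime_two⟩
  intro hset
  refine hnp (Cfsg.Agent.H42.eq_principalBlock_of_full_defect hM hB ?_ fun g _ => ?_)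
  · refine Nat.pow_right_injective le_rfl ?_
    show 2 ^ _ = 2 ^ _
    rw [← Cfsg.Agent.H40.card_defectGroup hM hB hfull, P.card_eq_multiplicity]
  · have hconj : ∀ χ : Cfsg.IrrCharacter G, χ ∈ B → ∃ ψ ∈ B,
        ∀ x : G, (ψ : G → ℂ) x = (starRingEnd ℂ) ((χ : G → ℂ) x) := by
      intro χ hχ
      rw [← hset] at hχ
      obtain ⟨φ, hφ, e⟩ := hχ
      exact ⟨φ, hφ, fun x => by rw [e, Complex.conj_conj]⟩
    choose! σ hσB hσ using hconj
    refine Cfsg.Agent.H42.blockCoeff_inv_of_stable σ hσB (fun χ hχ χ' hχ' e => ?_)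
      (fun χ hχ => by rw [hσ χ hχ, Cfsg.Agent.H42.irr_one_eq, Complex.conj_natCast]) fun χ hχ => ?_
    · refine Subtype.ext (funext fun y => ?_)
      have h := hσ χ hχ y
      rw [e, hσ χ' hχ' y] at h
      exact ((starRingEnd ℂ).injective h).symm
    · rw [hσ χ hχ g, Cfsg.Agent.H26.irr_inv]

end Cfsg.Agent.S4490
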