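import Cfsg.Statements.S4491
import Cfsg.Agent.H42.BlockSpan
-- import your own Cfsg.Agent.* helpers here

set_option autoImplicit false
open Cfsg

namespace Cfsg.Agent.S4491

/-- Let B be a p-block of defect d of the finite group G (relative to a maximal ideal M of the algebraic integers containing p), and let p^a be the p-part of the order of G. Then the exact power of p dividing the sum of the squares of the degrees of the irreducible characters in B is p^(2a − d). -/
theorem result {G : Type*} [Group G] [Finite G] (p : ℕ) [Fact p.Prime] (M : Ideal Cfsg.AlgInt) (hM : Cfsg.IsPModular p M) (B : Set (Cfsg.IrrCharacter G)) (hB : Cfsg.IsPBlock M B) : (∑ᶠ χ ∈ B, Cfsg.charDegree (χ : G → ℂ) ^ 2).factorization p = 2 * (Nat.card G).factorization p - Cfsg.blockDefect p B := by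
  classical
  rw [Cfsg.Agent.H42.finsum_mem_block]
  exact Cfsg.Agent.H42.factorization_sum_sq_degree hM hB

end Cfsg.Agent.S4491
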