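import Cfsg.Statements.S4713
import Cfsg.Agent.H44.ItoMichler

set_option autoImplicit false
open Cfsg

namespace Cfsg.Agent.S4713

/-- Let p be a prime and G a finite p-solvable group. Then G has a normal abelian Sylow p-subgroup if and only if the degree of every irreducible character of G is prime to p. -/
theorem result {G : Type*} [Group G] [Finite G] (p : ℕ) [Fact p.Prime] (hsolv : Cfsg.IsPSolvable p G) (P : Sylow p G) : ((P : Subgroup G).Normal ∧ IsMulCommutative P) ↔ ∀ χ : Cfsg.IrrCharacter G, ¬ p ∣ Cfsg.charDegree (χ : G → ℂ) := by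
  constructor
  · rintro ⟨hn, hc⟩ χ hd
    obtain ⟨n, ρ, hρ, e⟩ := χ.2
    have hdeg : Cfsg.charDegree (χ : G → ℂ) = n := by simp [Cfsg.charDegree, ← e]
    haveI := hρ
    haveI := hn
    have h := Cfsg.Agent.S0169.result ρ (P : Subgroup G)
      (fun a ha b hb => by
        have := hc.is_comm.comm (⟨a, ha⟩ : (P : Subgroup G)) ⟨b, hb⟩
        exact congrArg Subtype.val this)
    rw [Module.finrank_fin_fun] at h
    rw [hdeg] at hd
    exact P.not_dvd_index (hd.trans h)
  · intro h
    exact H44.normal_sylow_of_not_dvd_degrees (Nat.card G) G rfl hsolv h P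

end Cfsg.Agent.S4713
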