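import Cfsg.Statements.S4493
import Cfsg.Agent.S4713
import Cfsg.Agent.H25.SolvablePSolvable

set_option autoImplicit false
open Cfsg

namespace Cfsg.Agent.S4493

/-- Let G be a finite solvable group and p a prime. Then G has a normal abelian Sylow p-subgroup if and only if no irreducible character degree of G is divisible by p. -/
theorem result {G : Type*} [Group G] [Finite G] (hsolv : Group.IsSolvable G) (p : ℕ) (hp : p.Prime) : (∃ P : Subgroup G, P.Normal ∧ (∀ x ∈ P, ∀ y ∈ P, x * y = y * x) ∧ IsPGroup p P ∧ ¬ p ∣ P.index) ↔ ∀ χ : Cfsg.IrrCharacter G, ¬ p ∣ Cfsg.charDegree (χ : G → ℂ) := by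
  haveI : Fact p.Prime := ⟨hp⟩
  have hps := H25.isPSolvable_of_isSolvable hp _ G rfl hsolv
  constructor
  · rintro ⟨P, hn, hc, hP, hidx⟩
    exact (S4713.result p hps (hP.toSylow hidx)).mp
      ⟨hn, ⟨⟨fun a b => Subtype.ext (hc a a.2 b b.2)⟩⟩⟩
  · intro h
    obtain ⟨P⟩ : Nonempty (Sylow p G) := inferInstance
    obtain ⟨hn, hc⟩ := (S4713.result p hps P).mpr h
    exact ⟨P, hn, fun x hx y hy => congrArg Subtype.val (hc.is_comm.comm ⟨x, hx⟩ ⟨y, hy⟩),
      P.isPGroup', P.not_dvd_index⟩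

end Cfsg.Agent.S4493
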