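import Cfsg.Statements.S4495
import Cfsg.Agent.H43.SelfCentralizingDerived

set_option maxHeartbeats 800000

set_option autoImplicit false
open Cfsg

namespace Cfsg.Agent.S4495

/-- Let the finite group G contain an element x of prime order p with C_G(x) = ⟨x⟩, and let t be the number of conjugacy classes of elements of order p. If t ≠ p − 1 then the commutator subgroup has index at most (p − 1)/t; if t = p − 1 it has index exactly p. -/
theorem result {G : Type*} [Group G] [Finite G] (p : ℕ) (hp : p.Prime) (x : G) (hx : orderOf x = p) (hC : Subgroup.centralizer ({x} : Set G) = Subgroup.zpowers x) (t : ℕ) (ht : Nat.card {C : ConjClasses G // ∃ g ∈ C.carrier, orderOf g = p} = t) : (t ≠ p - 1 → (commutator G).index * t ≤ p - 1) ∧ (t = p - 1 → (commutator G).index = p) := by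
  have : Fact p.Prime := ⟨hp⟩
  have h := H43.card_classes_mul_relIndex hx hC
  rw [ht] at h
  have h2 := hp.two_le
  refine ⟨fun hne => ?_, fun heq => ?_⟩
  · have he : (Subgroup.zpowers x).relIndex
        (Subgroup.normalizer ((Subgroup.zpowers x : Subgroup G) : Set G)) ≠ 1 := by
      intro he; rw [he, mul_one] at h; exact hne h
    have hd := H43.index_commutator_dvd hx hC (H43.mem_commutator_of_relIndex_ne_one hx hC he)
    rw [← h, mul_comm t]
    refine Nat.mul_le_mul_right t (Nat.le_of_dvd (Nat.pos_of_ne_zero fun h0 => ?_) hd)
    rw [h0, mul_zero] at h; omega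
  · have he : (Subgroup.zpowers x).relIndex
        (Subgroup.normalizer ((Subgroup.zpowers x : Subgroup G) : Set G)) = 1 := by
      rw [heq] at h
      exact mul_left_cancel₀ (by omega : p - 1 ≠ 0) (by rw [h, mul_one])
    exact (H43.commutator_of_relIndex_eq_one hx hC he).2.1

end Cfsg.Agent.S4495
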