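import Cfsg.Statements.S4497
import Cfsg.Agent.H43.SelfCentralizingDerived
import Cfsg.Agent.H19.Cores

set_option maxHeartbeats 800000

set_option autoImplicit false
open Cfsg

namespace Cfsg.Agent.S4497

/-- Let the finite group G contain an element x of prime order p with C_G(x) = ⟨x⟩, let t be the number of conjugacy classes of elements of order p, and let S* = O_{p′}(G) be the largest normal subgroup of order prime to p. Then S* ≤ G′; if t ≠ p − 1 the quotient G′/S* is simple (in particular non-trivial); if t = p − 1 then G′ = S*. -/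
theorem result {G : Type*} [Group G] [Finite G] (p : ℕ) (hp : p.Prime) (x : G) (hx : orderOf x = p) (hC : Subgroup.centralizer ({x} : Set G) = Subgroup.zpowers x) (t : ℕ) (ht : Nat.card {C : ConjClasses G // ∃ g ∈ C.carrier, orderOf g = p} = t) : Cfsg.pPrimeCore p G ≤ commutator G ∧ (t ≠ p - 1 → ∀ h : ((Cfsg.pPrimeCore p G).subgroupOf (commutator G)).Normal, IsSimpleGroup (↥(commutator G) ⧸ (Cfsg.pPrimeCore p G).subgroupOf (commutator G))) ∧ (t = p - 1 → commutator G = Cfsg.pPrimeCore p G) := by
  have : Fact p.Prime := ⟨hp⟩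
  have h := H43.card_classes_mul_relIndex hx hC
  rw [ht] at h
  have h2 := hp.two_le
  have hS : (Cfsg.pPrimeCore p G).Normal := H19.pPrimeCore_normal p G
  have hSp : ¬ p ∣ Nat.card (Cfsg.pPrimeCore p G) :=
    (hp.coprime_iff_not_dvd).mp (H19.pPrimeCore_coprime p).symm
  have hxS : x ∉ Cfsg.pPrimeCore p G := fun hm =>
    hSp (hx ▸ (Cfsg.pPrimeCore p G).orderOf_dvd_natCard hm)
  have hle := H43.le_commutator_of_notMem hx hC _ hxS
  refine ⟨hle, fun hne hnorm => ?_, fun heq => ?_⟩
  · have he : (Subgroup.zpowers x).relIndex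
        (Subgroup.normalizer ((Subgroup.zpowers x : Subgroup G) : Set G)) ≠ 1 := by
      intro he; rw [he, mul_one] at h; exact hne h
    have hxG := H43.mem_commutator_of_relIndex_ne_one hx hC he
    obtain ⟨P, hP⟩ := H43.exists_sylow_eq_zpowers hx hC
    set K := (Cfsg.pPrimeCore p G).subgroupOf (commutator G)
    have hnt : Nontrivial (↥(commutator G) ⧸ K) := by
      refine ⟨QuotientGroup.mk ⟨x, hxG⟩, 1, fun h1 => hxS ?_⟩
      exact Subgroup.mem_subgroupOf.mp ((QuotientGroup.eq_one_iff _).mp h1)
    refine { eq_bot_or_eq_top_of_normal := fun H hH => ?_ }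
    set L := H.comap (QuotientGroup.mk' K) with hL
    have hLn : L.Normal := hH.comap _
    have hHL : H = L.map (QuotientGroup.mk' K) :=
      (Subgroup.map_comap_eq_self_of_surjective (QuotientGroup.mk'_surjective K) H).symm
    rw [hHL]
    by_cases hd : p ∣ Nat.card L
    · right
      suffices htop : L = ⊤ by
        rw [htop, Subgroup.map_top_of_surjective _ (QuotientGroup.mk'_surjective K)]
      have hidx : ¬ p ∣ L.index := by
        intro hi
        have hpp : p * p ∣ Nat.card G :=
          (mul_dvd_mul hd hi).trans ((Subgroup.card_mul_index L).dvd.trans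
            (Subgroup.card_subgroup_dvd_card _))
        apply P.not_dvd_index
        rw [← Subgroup.card_mul_index (P : Subgroup G), H43.card_sylow_eq hx hC P] at hpp
        exact Nat.dvd_of_mul_dvd_mul_left hp.pos hpp
      have hall : ∀ (y : G) (hy : y ∈ commutator G), orderOf y = p →
          (⟨y, hy⟩ : ↥(commutator G)) ∈ L := by
        intro y hy hyo
        rw [← QuotientGroup.eq_one_iff, ← orderOf_eq_one_iff]
        have h1 : orderOf (QuotientGroup.mk ⟨y, hy⟩ : ↥(commutator G) ⧸ L) ∣ p := by
          refine (orderOf_map_dvd (QuotientGroup.mk' L) _).trans ?_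
          rw [Subgroup.orderOf_mk, hyo]
        rcases (Nat.dvd_prime hp).mp h1 with h3 | h3
        · exact h3
        · exact absurd (h3 ▸ (Subgroup.index_eq_card L ▸ orderOf_dvd_natCard _)) hidx
      have hcl : Subgroup.normalClosure {x} ≤ L.map (commutator G).subtype := by
        rw [Subgroup.normalClosure, Subgroup.closure_le]
        intro y hy
        obtain ⟨a, ha, hc⟩ := Group.mem_conjugatesOfSet_iff.mp hy
        rw [Set.mem_singleton_iff] at ha
        subst ha
        obtain ⟨g, rfl⟩ := isConj_iff.mp hc
        have hy' : g * a * g⁻¹ ∈ commutator G :=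
          (inferInstance : (commutator G).Normal).conj_mem a hxG g
        exact ⟨⟨_, hy'⟩, hall _ hy' (by
          rw [show g * a * g⁻¹ = MulAut.conj g a from rfl, MulEquiv.orderOf_eq, hx]), rfl⟩
      have hG := (H43.commutator_le_of_mem hx hC (Subgroup.normalClosure {x})
        (Subgroup.subset_normalClosure rfl)).trans hcl
      rw [eq_top_iff]
      intro g _
      obtain ⟨g', hg', hgg⟩ := hG g.2
      exact (Subtype.ext hgg : g' = g) ▸ hg'
    · left
      rw [eq_bot_iff, Subgroup.map_le_iff_le_comap, MonoidHom.comap_bot, QuotientGroup.ker_mk']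
      have h1 : L ≤ Cfsg.pPrimeCore p ↥(commutator G) :=
        H19.le_pPrimeCore hLn ((hp.coprime_iff_not_dvd).mpr hd).symm
      have := H19.pPrimeCore_characteristic p ↥(commutator G)
      have h3 : (Cfsg.pPrimeCore p ↥(commutator G)).map (commutator G).subtype ≤
          Cfsg.pPrimeCore p G := by
        refine H19.le_pPrimeCore ConjAct.normal_of_characteristic_of_normal ?_
        rw [Subgroup.card_map_of_injective Subtype.val_injective]
        exact H19.pPrimeCore_coprime p
      intro l hl
      exact Subgroup.mem_subgroupOf.mpr (h3 ⟨l, h1 hl, rfl⟩)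
  · have he : (Subgroup.zpowers x).relIndex
        (Subgroup.normalizer ((Subgroup.zpowers x : Subgroup G) : Set G)) = 1 := by
      rw [heq] at h
      exact mul_left_cancel₀ (by omega : p - 1 ≠ 0) (by rw [h, mul_one])
    refine le_antisymm (H19.le_pPrimeCore inferInstance ?_) hle
    exact ((hp.coprime_iff_not_dvd).mpr (H43.commutator_of_relIndex_eq_one hx hC he).2.2.2).symm

end Cfsg.Agent.S4497
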