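import Cfsg.Statements.S4731
import Cfsg.Agent.H42.Heights
import Cfsg.Agent.H26.CharLinear
-- import your own Cfsg.Agent.* helpers here

set_option autoImplicit false
open Cfsg

namespace Cfsg.Agent.S4731

/-- Let p ≠ q be primes, M_p and M_q maximal ideals of the algebraic integers containing p and q respectively, and G a finite group with no element of order pq; let q^b be the q-part of the order of G. For a p-block B_p (relative to M_p), a q-block B_q (relative to M_q) and a p-singular element y, the sum of χ(1)χ(y) over the irreducible characters χ lying in both B_p and B_q is q^b times an algebraic integer. -/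
theorem result {G : Type*} [Group G] [Finite G] (p q : ℕ) [Fact p.Prime] [Fact q.Prime] (hpq : p ≠ q) (Mp Mq : Ideal Cfsg.AlgInt) (hMp : Cfsg.IsPModular p Mp) (hMq : Cfsg.IsPModular q Mq) (hno : ∀ g : G, orderOf g ≠ p * q) (b : ℕ) (hb : (Nat.card G).factorization q = b) (Bp : Set (Cfsg.IrrCharacter G)) (hBp : Cfsg.IsPBlock Mp Bp) (Bq : Set (Cfsg.IrrCharacter G)) (hBq : Cfsg.IsPBlock Mq Bq) (y : G) (hy : p ∣ orderOf y) : ∃ ω : Cfsg.AlgInt, ∑ᶠ χ ∈ Bp ∩ Bq, (Cfsg.charDegree (χ : G → ℂ) : ℂ) * (χ : G → ℂ) y = (q : ℂ) ^ b * (ω : ℂ) := by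
  classical
  have := Fintype.ofFinite G
  have := hMp.2.1
  have hqq : q.Prime := Fact.out
  have hpp : p.Prime := Fact.out
  have hpq' : ∀ x : G, p ∣ orderOf x → ¬ q ∣ orderOf x := by
    intro x h1 h2
    have h : p * q ∣ orderOf x :=
      ((Nat.coprime_primes hpp hqq).2 hpq).mul_dvd_of_dvd_of_dvd h1 h2
    obtain ⟨c, hc⟩ := h
    have hc0 : c ≠ 0 := by
      rintro rfl
      exact (orderOf_pos x).ne' (by simpa using hc)
    refine hno (x ^ c) ?_
    rw [orderOf_pow' x hc0, hc, Nat.gcd_eq_right (dvd_mul_left c _),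
      Nat.mul_div_cancel _ (Nat.pos_of_ne_zero hc0)]
  set ψ : G → ℂ := ∑ χ ∈ Finset.univ.filter (· ∈ Bp), χ.1 y • χ.1 with hψ
  have hψval : ∀ χ : Cfsg.IrrCharacter G,
      Cfsg.classInner ψ χ.1 = if χ ∈ Bp then χ.1 y else 0 := by
    intro χ
    rw [hψ, Cfsg.Agent.H26.classInner_sum_left]
    simp only [Cfsg.Agent.H26.classInner_smul_left, Cfsg.Agent.H26.classInner_irr, mul_ite, mul_one,
      mul_zero, Finset.sum_ite_eq', Finset.mem_filter, Finset.mem_univ, true_and]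
  have hψvan : ∀ x : G, q ∣ orderOf x → ψ x = 0 := by
    intro x hx
    have hxp : ¬ p ∣ orderOf x := fun h => hpq' x h hx
    have h := Cfsg.Agent.H40.sum_block_mul_conj_eq_zero hMp hBp hxp
      (y := y⁻¹) (by rwa [orderOf_inv])
    simp only [Cfsg.Agent.H26.irr_inv, Complex.conj_conj] at h
    rw [hψ, Finset.sum_apply]
    simp only [Pi.smul_apply, smul_eq_mul]
    rw [← h]
    refine Finset.sum_congr ?_ fun χ _ => mul_comm _ _
    ext; simp
  set T := Finset.univ.filter (fun χ : Cfsg.IrrCharacter G => χ ∈ Bp ∧ χ ∈ Bq) with hT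
  have hzero : ∀ x : G, q ∣ orderOf x → ∑ χ ∈ T, χ.1 y * χ.1 x = 0 := by
    intro x hx
    rw [← Cfsg.Agent.H42.sum_block_eq_zero_of_singular hMq hBq hψvan hx]
    simp only [hψval, ite_mul, zero_mul]
    rw [← Finset.sum_filter, Finset.filter_filter]
    exact Finset.sum_congr (Finset.filter_congr fun χ _ => and_comm) fun _ _ => rfl
  obtain ⟨Q⟩ : Nonempty (Sylow q G) := inferInstance
  have := Fintype.ofFinite (Q : Subgroup G)
  have hm : ∀ χ : Cfsg.IrrCharacter G, ∃ m : ℕ,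
      Cfsg.classInner (fun x : (Q : Subgroup G) => χ.1 x)
        (Cfsg.Agent.H26.oneIrr (Q : Subgroup G)).1 = (m : ℂ) := fun χ =>
    Cfsg.Agent.H26.exists_nat_classInner_irr (Cfsg.Agent.H26.isCharacter_comp
      (Cfsg.Agent.H26.irr_isCharacter χ) (Q : Subgroup G).subtype) _
  choose m hm using hm
  refine ⟨⟨∑ χ ∈ T, χ.1 y * (m χ : ℂ), IsIntegral.sum _ fun χ _ =>
    (Cfsg.Agent.H42.isIntegral_value (Cfsg.Agent.H26.irr_isCharacter χ) y).mul
      (by exact_mod_cast isIntegral_algebraMap (R := ℤ) (A := ℂ) (x := (m χ : ℤ)))⟩, ?_⟩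
  rw [finsum_mem_eq_sum_of_inter_support_eq _ (t := T) (by ext χ; simp [hT])]
  show _ = (q : ℂ) ^ b * ∑ χ ∈ T, χ.1 y * (m χ : ℂ)
  have hQ : (Nat.card (Q : Subgroup G) : ℂ) = (q : ℂ) ^ b := by
    rw [Q.card_eq_multiplicity, hb, Nat.cast_pow]
  rw [← hQ, Finset.mul_sum]
  have hsum : ∀ χ : Cfsg.IrrCharacter G, (Nat.card (Q : Subgroup G) : ℂ) * (χ.1 y * (m χ : ℂ)) =
      χ.1 y * ∑ x : (Q : Subgroup G), χ.1 x := by
    intro χ
    have h : ∑ x : (Q : Subgroup G), χ.1 x = (Nat.card (Q : Subgroup G) : ℂ) * (m χ : ℂ) := by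
      rw [← hm, Cfsg.classInner, ← mul_assoc,
        mul_inv_cancel₀ (Nat.cast_ne_zero.2 Nat.card_pos.ne'), one_mul]
      exact Finset.sum_congr rfl fun x _ => by rw [Cfsg.Agent.H26.oneIrr_val, map_one, mul_one]
    rw [h]; ring
  simp only [hsum, Finset.mul_sum]
  rw [Finset.sum_comm, Finset.sum_eq_single (1 : (Q : Subgroup G))]
  · refine Finset.sum_congr rfl fun χ _ => ?_
    rw [OneMemClass.coe_one, Cfsg.Agent.H42.irr_one_eq, mul_comm]
  · intro x _ hx
    refine hzero _ ?_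
    obtain ⟨k, hk⟩ := IsPGroup.iff_orderOf.1 Q.isPGroup' x
    rw [Subgroup.orderOf_coe, hk]
    refine dvd_pow_self q fun h => hx (orderOf_eq_one_iff.1 ?_)
    rw [hk, h, pow_zero]
  · intro h; exact absurd (Finset.mem_univ _) h

end Cfsg.Agent.S4731
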