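import Cfsg.Statements.S4498
import Cfsg.Agent.S4731
import Cfsg.Agent.H42.Heights
import Cfsg.Agent.H26.PrincipalRestrict
-- import your own Cfsg.Agent.* helpers here

set_option autoImplicit false
open Cfsg

namespace Cfsg.Agent.S4498

/-- Let p and q be distinct primes dividing the order of the finite group G, and suppose G has no element of order p·q. Fix maximal ideals M_p over p and M_q over q of the algebraic integers. Then the principal p-block and the principal q-block of G have a non-principal irreducible character in common. -/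
theorem result {G : Type*} [Group G] [Finite G] (p q : ℕ) [Fact p.Prime] [Fact q.Prime] (hpq : p ≠ q) (hp : p ∣ Nat.card G) (hq : q ∣ Nat.card G) (hno : ∀ g : G, orderOf g ≠ p * q) (Mp Mq : Ideal Cfsg.AlgInt) (hMp : Cfsg.IsPModular p Mp) (hMq : Cfsg.IsPModular q Mq) : ∃ χ : Cfsg.IrrCharacter G, (χ : G → ℂ) ≠ (fun _ => 1) ∧ χ ∈ Cfsg.principalBlock Mp G ∧ χ ∈ Cfsg.principalBlock Mq G := by
  classical
  have := hMp.2.1
  have := hMq.2.1
  by_contra hne
  push Not at hne
  obtain ⟨y, hy⟩ := exists_prime_orderOf_dvd_card' p hp (G := G)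
  obtain ⟨ω, hω⟩ := Cfsg.Agent.S4731.result p q hpq Mp Mq hMp hMq hno _ rfl _
    (Cfsg.Agent.H26.isPBlock_principalBlock (M := Mp) G) _
    (Cfsg.Agent.H26.isPBlock_principalBlock (M := Mq) G) y (dvd_of_eq hy.symm)
  rw [show Cfsg.principalBlock Mp G ∩ Cfsg.principalBlock Mq G = {Cfsg.Agent.H26.oneIrr G} from ?_,
    finsum_mem_singleton, ← Cfsg.Agent.H42.irr_one_eq, Cfsg.Agent.H26.oneIrr_val,
    Cfsg.Agent.H26.oneIrr_val, one_mul] at hω
  · set b := (Nat.card G).factorization q with hb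
    have hb0 : 0 < b := Nat.Prime.factorization_pos_of_dvd Fact.out Nat.card_pos.ne' hq
    obtain ⟨b', hb'⟩ := Nat.exists_eq_succ_of_ne_zero hb0.ne'
    have hqinv : IsIntegral ℤ ((1 : ℂ) / (q : ℂ)) := by
      rw [show (1 : ℂ) / (q : ℂ) = (q : ℂ) ^ b' * (ω : ℂ) from ?_]
      · exact IsIntegral.mul (IsIntegral.pow (isIntegral_algebraMap (R := ℤ) (A := ℂ)
          (x := (q : ℤ))) _) ω.2
      · rw [div_eq_iff (Nat.cast_ne_zero.2 (Fact.out : q.Prime).ne_zero)]
        rw [hb', pow_succ] at hω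
        linear_combination hω
    have h2 : IsIntegral ℤ ((1 / (q : ℚ))) := by
      refine (isIntegral_algebraMap_iff (algebraMap ℚ ℂ).injective).1 ?_
      simpa using hqinv
    obtain ⟨z, hz⟩ := (IsIntegrallyClosed.isIntegral_iff (R := ℤ) (K := ℚ)).1 h2
    have hq2 : (2 : ℤ) ≤ q := by exact_mod_cast (Fact.out : q.Prime).two_le
    have hzq : z * (q : ℤ) = 1 := by
      have h3 : ((z : ℚ)) * (q : ℚ) = 1 := by
        rw [show (z : ℚ) = 1 / (q : ℚ) from by simpa using hz,
          div_mul_cancel₀ _ (Nat.cast_ne_zero.2 (Fact.out : q.Prime).ne_zero)]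
      exact_mod_cast h3
    rcases Int.eq_one_or_neg_one_of_mul_eq_one' hzq with ⟨-, h⟩ | ⟨-, h⟩ <;> omega
  · ext χ
    refine ⟨fun h => ?_, fun h => ?_⟩
    · by_contra hn
      exact hne χ (fun e => hn (Subtype.ext e)) h.1 h.2
    · rw [Set.mem_singleton_iff] at h
      subst h
      exact ⟨Cfsg.Agent.H26.oneIrr_mem_principalBlock G, Cfsg.Agent.H26.oneIrr_mem_principalBlock G⟩

end Cfsg.Agent.S4498
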