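import Cfsg.Statements.S4500
import Cfsg.Agent.H43.CharTools
import Cfsg.Agent.H43.IntCong
import Cfsg.Agent.H26.CharLinear
import Cfsg.Agent.H27.Dual
import Cfsg.Agent.H42.Bounds
import Cfsg.Agent.H42.MaxIdeal
import Cfsg.Agent.H40.BlockSets
import Cfsg.Agent.H25.Burnside

set_option autoImplicit false
set_option maxHeartbeats 800000
open Cfsg

namespace Cfsg.Agent.S4500

theorem half {G : Type*} [Group G] [Finite G] [Nontrivial G] {p q r a b c : ℕ} (hp : p.Prime)
    (hq : q.Prime) (hr : r.Prime) (ha : a ≤ 2) (hpq : p ≠ q) (hpr : p ≠ r)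
    (hG : Nat.card G = p ^ a * q ^ b * r ^ c) :
    ∃ χ : Cfsg.IrrCharacter G, (χ : G → ℂ) ≠ (fun _ => 1) ∧
      ∃ k : ℕ, Cfsg.charDegree (χ : G → ℂ) = q ^ k := by
  classical
  by_cases hperf : commutator G ≠ ⊤
  · obtain ⟨g, hg⟩ : ∃ g : G, g ∉ commutator G := by
      by_contra h
      push Not at h
      exact hperf ((Subgroup.eq_top_iff' _).mpr h)
    have : IsMulCommutative (Abelianization G) := ⟨⟨mul_comm⟩⟩
    obtain ⟨μ, hμ⟩ := H27.exists_linear_ne_one (C := Abelianization G) (g := Abelianization.of g)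
      (fun h => hg ((QuotientGroup.eq_one_iff g).mp h))
    refine ⟨⟨_, H26.isIrrCharacter_hom (μ.comp Abelianization.of)⟩, fun h => hμ ?_, 0, ?_⟩
    · exact Units.ext (congrFun h g)
    · show ⌊((μ (Abelianization.of (1 : G)) : ℂˣ) : ℂ).re⌋₊ = _
      simp
  push Not at hperf
  have hns : ¬ Group.IsSolvable G := by
    intro h
    exact (IsSolvable.commutator_lt_top_of_nontrivial G).ne hperf
  have ha0 : 0 < a := by
    by_contra h
    rw [Nat.eq_zero_of_not_pos h, pow_zero, one_mul] at hG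
    exact hns (H25.isSolvable_of_card_eq_mul_pow hq hr hG)
  have : Fact p.Prime := ⟨hp⟩
  let _ : Fintype G := Fintype.ofFinite G
  obtain ⟨M, hM⟩ := H42.exists_isPModular hp
  have : M.IsMaximal := hM.2.1
  set B := Cfsg.principalBlock M G with hBdef
  have hone : (H26.oneIrr G).1 = fun _ : G => (1 : ℂ) := funext fun g => by
    rw [H26.oneIrr_val]
  have hB : Cfsg.IsPBlock M B := ⟨H26.oneIrr G, by rw [hone]; rfl⟩
  have h1B : H26.oneIrr G ∈ B := by
    intro g
    refine ⟨0, 1, M.zero_mem, fun h => hM.2.1.ne_top ((Ideal.eq_top_iff_one M).2 h), ?_⟩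
    rw [hone, sub_self]
    simp
  have h1deg : Cfsg.charDegree (H26.oneIrr G).1 = 1 := by
    rw [Cfsg.charDegree, hone]; simp
  have hdef : Cfsg.blockDefect p B = a := by
    have hfac : (Nat.card G).factorization p = a := by
      rw [hG, Nat.factorization_mul (by simp [hp.ne_zero, hq.ne_zero]) (by simp [hr.ne_zero]),
        Nat.factorization_mul (by simp [hp.ne_zero]) (by simp [hq.ne_zero]),
        hp.factorization_pow, hq.factorization_pow, hr.factorization_pow]
      simp [hpq.symm, hpr.symm]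
    have h2 : sInf ((fun ψ : Cfsg.IrrCharacter G =>
        (Cfsg.charDegree ψ.1).factorization p) '' B) = 0 :=
      Nat.le_zero.mp (Nat.sInf_le ⟨H26.oneIrr G, h1B, by simp [h1deg]⟩)
    rw [Cfsg.blockDefect, hfac]
    omega
  have hpu : p ∣ Nat.card G := by
    rw [hG]; exact Dvd.dvd.mul_right (Dvd.dvd.mul_right (dvd_pow_self p ha0.ne') _) _
  obtain ⟨u, hu⟩ := exists_prime_orderOf_dvd_card' p hpu
  have horth := H40.sum_block_mul_conj_eq_zero hM hB (x := (1 : G)) (y := u)
    (by simpa using hp.not_dvd_one) (hu ▸ dvd_rfl)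
  obtain ⟨χ, hχB, hχ1, hχr⟩ : ∃ χ ∈ B, χ ≠ H26.oneIrr G ∧ ¬ r ∣ Cfsg.charDegree χ.1 := by
    by_contra h
    push Not at h
    have hsplit := Finset.add_sum_erase (Finset.univ.filter (· ∈ B))
      (fun χ : Cfsg.IrrCharacter G => χ.1 1 * (starRingEnd ℂ) (χ.1 u))
      (Finset.mem_filter.mpr ⟨Finset.mem_univ (H26.oneIrr G), h1B⟩)
    rw [horth] at hsplit
    have hc : H43.IntCong r ((1 : ℕ) : ℂ) 0 := by
      have h0 : H43.IntCong r (∑ χ ∈ (Finset.univ.filter (· ∈ B)).erase (H26.oneIrr G),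
          χ.1 1 * (starRingEnd ℂ) (χ.1 u)) 0 := by
        rw [← Finset.sum_const_zero (s := (Finset.univ.filter (· ∈ B)).erase (H26.oneIrr G))]
        refine H43.IntCong.sum _ _ _ fun χ hχ => ?_
        rw [Finset.mem_erase, Finset.mem_filter] at hχ
        rw [H43.irr_charDegree_spec]
        exact H43.IntCong.natCast_mul_zero (h χ hχ.2.2 hχ.1)
          ((H43.irr_isIntegral χ u).map (starRingEnd ℂ).toIntAlgHom)
      obtain ⟨γ, hγ, e⟩ := h0
      refine ⟨-γ, hγ.neg, ?_⟩
      have h2 : (H26.oneIrr G).1 1 * (starRingEnd ℂ) ((H26.oneIrr G).1 u) = 1 := by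
        rw [hone]; simp
      rw [h2] at hsplit
      rw [sub_zero] at e
      push_cast
      linear_combination hsplit - e
    exact hr.not_dvd_one (H43.IntCong.nat_dvd hr.ne_zero hc)
  refine ⟨χ, fun h => hχ1 (Subtype.ext (h.trans hone.symm)), ?_⟩
  have hheight : Cfsg.blockHeight p B χ.1 = 0 := by
    rcases Nat.eq_zero_or_pos (Cfsg.blockHeight p B χ.1) with h0 | h0
    · exact h0
    · have := H42.height_add_two_le_defect hM hB hχB h0
      omega
  have hdpos := H43.irr_charDegree_pos χ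
  have hχp : ¬ p ∣ Cfsg.charDegree χ.1 := by
    intro h
    have h1 := hp.factorization_pos_of_dvd hdpos.ne' h
    rw [Cfsg.blockHeight] at hheight
    have h2 : sInf ((fun ψ : Cfsg.IrrCharacter G =>
        (Cfsg.charDegree ψ.1).factorization p) '' B) = 0 :=
      Nat.le_zero.mp (Nat.sInf_le ⟨H26.oneIrr G, h1B, by simp [h1deg]⟩)
    omega
  have hdvd := H43.irr_charDegree_dvd χ
  rw [hG] at hdvd
  have h3 : Cfsg.charDegree χ.1 ∣ p ^ a * q ^ b :=
    (Nat.Coprime.pow_right c ((hr.coprime_iff_not_dvd.mpr hχr).symm)).dvd_of_dvd_mul_right hdvd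
  have h4 : Cfsg.charDegree χ.1 ∣ q ^ b :=
    (Nat.Coprime.pow_right a ((hp.coprime_iff_not_dvd.mpr hχp).symm)).dvd_of_dvd_mul_left h3
  obtain ⟨k, -, hk⟩ := (Nat.dvd_prime_pow hq).mp h4
  exact ⟨k, hk⟩

/-- Let G be a non-trivial finite group of order p^a · q^b · r^c with p, q, r distinct primes and a ≤ 2. Then G has a non-principal irreducible character whose degree is a power of q, and a non-principal irreducible character whose degree is a power of r; the power may be the zeroth, so a non-principal linear character serves for both. -/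
theorem result {G : Type*} [Group G] [Finite G] [Nontrivial G] (p q r a b c : ℕ) (hp : p.Prime) (hq : q.Prime) (hr : r.Prime) (hpq : p ≠ q) (hpr : p ≠ r) (hqr : q ≠ r) (ha : a ≤ 2) (hG : Nat.card G = p ^ a * q ^ b * r ^ c) : (∃ χ : Cfsg.IrrCharacter G, (χ : G → ℂ) ≠ (fun _ => 1) ∧ ∃ k : ℕ, Cfsg.charDegree (χ : G → ℂ) = q ^ k) ∧ ∃ χ : Cfsg.IrrCharacter G, (χ : G → ℂ) ≠ (fun _ => 1) ∧ ∃ k : ℕ, Cfsg.charDegree (χ : G → ℂ) = r ^ k := by
  exact ⟨half hp hq hr ha hpq hpr hG,
    half (a := a) (b := c) (c := b) hp hr hq ha hpr hpq (by rw [hG]; ring)⟩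

end Cfsg.Agent.S4500
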