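import Cfsg.Statements.S4502
import Cfsg.Agent.H43.D1.Families

set_option maxHeartbeats 800000

set_option autoImplicit false
open Cfsg

namespace Cfsg.Agent.S4502

/-- Let G be a finite group whose order is divisible by the prime p exactly once, and let P be a Sylow p-subgroup. Then the number of irreducible characters of G of degree not divisible by p equals the number of conjugacy classes of the normalizer of P. -/
theorem result {G : Type*} [Group G] [Finite G] (p : ℕ) [Fact p.Prime] (hdiv : p ∣ Nat.card G) (hsq : ¬ p ^ 2 ∣ Nat.card G) (P : Sylow p G) : Nat.card {χ : Cfsg.IrrCharacter G // ¬ p ∣ Cfsg.charDegree (χ : G → ℂ)} = Nat.card (ConjClasses (Subgroup.normalizer ((P : Subgroup G) : Set G))) := by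
  classical
  have hcard : Nat.card (P : Subgroup G) = p := by
    rw [Sylow.card_eq_multiplicity]
    have hf : (Nat.card G).factorization p = 1 := by
      refine le_antisymm ?_ ?_
      · by_contra h
        exact hsq (((Fact.out : p.Prime).pow_dvd_iff_le_factorization Nat.card_pos.ne').2 (by omega))
      · exact ((Fact.out : p.Prime).pow_dvd_iff_le_factorization Nat.card_pos.ne').1 (by simpa using hdiv)
    rw [hf, pow_one]
  obtain ⟨S, hS⟩ := H43.D1.exists_setup hdiv hsq hcard
  rw [← hS, ← S.N_eq_normalizer, S.count_main.1, H43.D1.card_conjClasses_eq_add p S.N,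
    S.card_regClasses_N, S.card_singClasses_N]

end Cfsg.Agent.S4502
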