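import Cfsg.Statements.S4505
import Cfsg.Agent.H42.DefectValues
-- import your own Cfsg.Agent.* helpers here

set_option autoImplicit false
open Cfsg

namespace Cfsg.Agent.S4505

/-- Let G be a finite group, p a prime and M a maximal ideal of the algebraic integers containing p. For every σ, the number of p-blocks of defect exactly σ is at most the number of conjugacy classes of p-regular elements whose centralizer has order divisible by p^σ but not by p^(σ+1). -/
theorem result {G : Type*} [Group G] [Finite G] (p : ℕ) [Fact p.Prime] (M : Ideal Cfsg.AlgInt) (hM : Cfsg.IsPModular p M) (σ : ℕ) : Nat.card {B : Set (Cfsg.IrrCharacter G) // Cfsg.IsPBlock M B ∧ Cfsg.blockDefect p B = σ} ≤ Nat.card {C : ConjClasses G // ∃ g : G, ConjClasses.mk g = C ∧ ¬ p ∣ orderOf g ∧ (Nat.card (Subgroup.centralizer ({g} : Set G))).factorization p = σ} := by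
  classical
  have := hM.2.1
  have : Finite (ConjClasses G) := Quotient.finite _
  have := Fintype.ofFinite (ConjClasses G)
  let S := {C : ConjClasses G // Cfsg.Agent.H42.IsExactClass p σ (Quotient.out C)}
  let T := {B : Set (Cfsg.IrrCharacter G) // Cfsg.IsPBlock M B ∧ Cfsg.blockDefect p B = σ}
  have := Fintype.ofFinite T
  have hmem : ∀ B : T, ∃ ψ : Cfsg.IrrCharacter G, B.1 = Cfsg.blockOf M (ψ : G → ℂ) := fun B => B.2.1
  choose ψ hψ using hmem
  let v : T → S → Cfsg.Agent.H41.ResField M := fun B C => Cfsg.Agent.H41.omegaBar M (ψ B)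
    (Cfsg.Agent.H41.classSumZ (Cfsg.Agent.H41.ResField M) (Quotient.out C.1))
  have hli : LinearIndependent (Cfsg.Agent.H41.ResField M) v := by
    rw [Fintype.linearIndependent_iff]
    intro c hc B'
    have key : ∀ B : T, ∑ C : S, ((Cfsg.Agent.H41.idemBar B'.2.1 :
          Cfsg.Agent.H41.groupAlgCenter (Cfsg.Agent.H41.ResField M) G) :
          MonoidAlgebra (Cfsg.Agent.H41.ResField M) G).coeff (Quotient.out C.1) * v B C =
        if B = B' then 1 else 0 := by
      intro B
      have h := Cfsg.Agent.H42.sum_exact_coeff_mul_omegaBar hM B'.2.1 (ψ := ψ B)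
        (by rw [← hψ B, B.2.2, B'.2.2])
      have hiff : ψ B ∈ B'.1 ↔ B = B' := by
        refine ⟨fun h => Subtype.ext ?_, fun h => h ▸ ?_⟩
        · exact Cfsg.Agent.H41.block_eq_of_mem_of_mem B.2.1 B'.2.1
            ((hψ B) ▸ Cfsg.Agent.H41.mem_blockOf_self (ψ B)) h
        · rw [hψ B]
          exact Cfsg.Agent.H41.mem_blockOf_self (ψ B)
      simp only [hiff, B'.2.2] at h
      rw [← h]
      refine (Finset.sum_subtype (Finset.univ.filter fun C : ConjClasses G =>
        Cfsg.Agent.H42.IsExactClass p σ (Quotient.out C)) (by simp) (fun C : ConjClasses G =>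
          ((Cfsg.Agent.H41.idemBar B'.2.1 :
            Cfsg.Agent.H41.groupAlgCenter (Cfsg.Agent.H41.ResField M) G) :
            MonoidAlgebra (Cfsg.Agent.H41.ResField M) G).coeff (Quotient.out C) *
          Cfsg.Agent.H41.omegaBar M (ψ B)
            (Cfsg.Agent.H41.classSumZ (Cfsg.Agent.H41.ResField M) (Quotient.out C)))).symm
    have h0 : ∑ B : T, c B * (if B = B' then (1 : Cfsg.Agent.H41.ResField M) else 0) = 0 := by
      simp only [← key, Finset.mul_sum]
      rw [Finset.sum_comm]
      refine Finset.sum_eq_zero fun C _ => ?_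
      have h := congrFun hc C
      simp only [Finset.sum_apply, Pi.smul_apply, smul_eq_mul, Pi.zero_apply] at h
      simp only [mul_left_comm (c _), ← Finset.mul_sum, h, mul_zero]
    rw [Finset.sum_eq_single B' (fun B _ hB => by rw [if_neg hB, mul_zero])
      (fun h => absurd (Finset.mem_univ _) h), if_pos rfl, mul_one] at h0
    exact h0
  have hle := hli.fintype_card_le_finrank
  rw [Module.finrank_pi, ← Nat.card_eq_fintype_card, ← Nat.card_eq_fintype_card] at hle
  refine hle.trans (le_of_eq (Nat.card_congr (Equiv.subtypeEquivRight fun C => ?_)))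
  refine ⟨fun h => ⟨_, Quotient.out_eq C, h⟩, ?_⟩
  rintro ⟨g, rfl, hg⟩
  exact Cfsg.Agent.H42.isExactClass_conj
    (ConjClasses.mk_eq_mk_iff_isConj.1 (Quotient.out_eq (ConjClasses.mk g)).symm) hg

end Cfsg.Agent.S4505
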