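import Cfsg.Statements.S4506
import Cfsg.Agent.H43.PConjugates

set_option autoImplicit false
set_option maxHeartbeats 1600000
open Cfsg

namespace Cfsg.Agent.S4506

/-- Let G be a finite group, p a prime, p^a the p-part of the order of G and g′ its p′-part. Call two irreducible characters p-conjugate when one is obtained from the other by applying a field automorphism of ℂ that fixes the g′-th roots of unity, and let r be the number of characters p-conjugate to the irreducible character χ (χ included). Then the exponent of p in r·χ(1) is at most a; and if p^a divides r·χ(1) then p^a already divides χ(1). -/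
theorem result {G : Type*} [Group G] [Finite G] (p : ℕ) (hp : p.Prime) (χ : Cfsg.IrrCharacter G) (r : ℕ) (hr : Nat.card {ψ : Cfsg.IrrCharacter G // ∃ σ : ℂ ≃+* ℂ, σ (Complex.exp (2 * Real.pi * Complex.I / ((Nat.card G / p ^ (Nat.card G).factorization p) : ℕ))) = Complex.exp (2 * Real.pi * Complex.I / ((Nat.card G / p ^ (Nat.card G).factorization p) : ℕ)) ∧ (ψ : G → ℂ) = fun g => σ ((χ : G → ℂ) g)} = r) : (r * Cfsg.charDegree (χ : G → ℂ)).factorization p ≤ (Nat.card G).factorization p ∧ (p ^ (Nat.card G).factorization p ∣ r * Cfsg.charDegree (χ : G → ℂ) → p ^ (Nat.card G).factorization p ∣ Cfsg.charDegree (χ : G → ℂ)) := by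
  classical
  have : Fact p.Prime := ⟨hp⟩
  let _ : Fintype G := Fintype.ofFinite G
  set a := (Nat.card G).factorization p with ha_def
  set Q := Nat.card G / p ^ a with hQ_def
  have hn : Nat.card G = p ^ a * Q := (Nat.ordProj_mul_ordCompl_eq_self _ p).symm
  have hpQ : ¬ p ∣ Q := Nat.not_dvd_ordCompl hp Nat.card_pos.ne'
  have hQ : (p ^ a).Coprime Q := ((hp.coprime_iff_not_dvd).mpr hpQ).pow_left a
  have : NeZero (p ^ a) := ⟨(pow_pos hp.pos a).ne'⟩
  have hQ0 : Q ≠ 0 := fun h => hpQ (h ▸ dvd_zero p)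
  have hkc : ∀ u, (H43.pExp hQ u).Coprime (Nat.card G) := fun u => hn ▸ H43.pExp_coprime hQ u
  set d := Cfsg.charDegree (χ : G → ℂ) with hd_def
  have hd : 0 < d := H43.irr_charDegree_pos χ
  have hχ1 : χ.1 1 = (d : ℂ) := H43.irr_charDegree_spec χ
  set act : (ZMod (p ^ a))ˣ → Cfsg.IrrCharacter G := fun u => H45.galIrr (hkc u) χ with hact
  have happ : ∀ u g, (act u).1 g = χ.1 (g ^ H43.pExp hQ u) := fun _ _ => rfl
  have hpowmod : ∀ (g : G) (i j : ℕ), i ≡ j [MOD p ^ a * Q] → g ^ i = g ^ j := by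
    intro g i j h
    rw [← hn] at h
    rw [pow_eq_pow_iff_modEq]
    exact h.of_dvd (orderOf_dvd_natCard g)
  have hregfix : ∀ (u : (ZMod (p ^ a))ˣ) (g : G), ¬ p ∣ orderOf g → (act u).1 g = χ.1 g := by
    intro u g hg
    have h1 : orderOf g ∣ Q := by
      have h2 : (orderOf g).Coprime (p ^ a) :=
        ((hp.coprime_iff_not_dvd.mpr hg).symm).pow_right a
      exact h2.dvd_of_dvd_mul_left (hn ▸ orderOf_dvd_natCard g)
    rw [happ]
    conv_rhs => rw [← pow_one g]
    refine congrArg χ.1 ?_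
    rw [pow_eq_pow_iff_modEq]
    exact (H43.pExp_right hQ u).of_dvd h1
  -- the family is the orbit of the exponents
  set O := Finset.univ.image act with hO
  have hset : ∀ ψ : Cfsg.IrrCharacter G, (∃ σ : ℂ ≃+* ℂ,
      σ (Complex.exp (2 * Real.pi * Complex.I / (Q : ℕ))) =
        Complex.exp (2 * Real.pi * Complex.I / (Q : ℕ)) ∧
      (ψ : G → ℂ) = fun g => σ ((χ : G → ℂ) g)) ↔ ψ ∈ O := by
    intro ψ
    have hζ := Complex.isPrimitiveRoot_exp Q hQ0
    constructor
    · rintro ⟨σ, hσ, hψ⟩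
      obtain ⟨k, hk, hσk⟩ := H45.exists_pow_of_ringAut σ (Nat.card_pos (α := G)).ne'
      have hk1 : k ≡ 1 [MOD Q] := by
        rw [hσk _ (by rw [hn, Nat.mul_comm, pow_mul, hζ.pow_eq_one, one_pow]),
          pow_eq_pow_mod k hζ.pow_eq_one] at hσ
        conv_rhs at hσ => rw [← pow_one (Complex.exp _), pow_eq_pow_mod 1 hζ.pow_eq_one]
        exact hζ.pow_inj (Nat.mod_lt _ (Nat.pos_of_ne_zero hQ0))
          (Nat.mod_lt _ (Nat.pos_of_ne_zero hQ0)) hσ
      have hkp : k.Coprime (p ^ a) := (hn ▸ hk).coprime_mul_right_right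
      refine Finset.mem_image.mpr ⟨ZMod.unitOfCoprime k hkp, Finset.mem_univ _,
        Subtype.ext (funext fun g => ?_)⟩
      rw [hψ, happ]
      show _ = σ (χ.1 g)
      rw [H45.ringAut_char (H26.irr_isCharacter χ) σ hσk]
      refine congrArg χ.1 (hpowmod g _ _ ?_)
      rw [← Nat.modEq_and_modEq_iff_modEq_mul hQ]
      refine ⟨(H43.pExp_left hQ _).trans ?_, (H43.pExp_right hQ _).trans hk1.symm⟩
      rw [ZMod.coe_unitOfCoprime, ZMod.val_natCast]
      exact Nat.mod_modEq _ _
    · intro hψ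
      obtain ⟨u, -, rfl⟩ := Finset.mem_image.mp hψ
      obtain ⟨σ, hσ⟩ := H45.exists_ringAut_pow (Nat.card_pos (α := G)).ne' (hkc u)
      refine ⟨σ, ?_, funext fun g =>
        (H45.ringAut_char (H26.irr_isCharacter χ) σ hσ g).symm⟩
      rw [hσ _ (by rw [hn, Nat.mul_comm, pow_mul, hζ.pow_eq_one, one_pow]),
        pow_eq_pow_mod _ hζ.pow_eq_one, H43.pExp_right hQ u, ← pow_eq_pow_mod 1 hζ.pow_eq_one,
        pow_one]
  have hrO : r = O.card := by
    rw [← hr, ← Fintype.card_coe, ← Nat.card_eq_fintype_card]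
    exact Nat.card_congr (Equiv.subtypeEquivRight hset)
  -- all fibres of `act` have the same size
  set s := (Finset.univ.filter fun u => act u = χ).card with hs_def
  have hcomp : ∀ u v g, (act (u * v)).1 g = (act v).1 (g ^ H43.pExp hQ u) := by
    intro u v g
    rw [happ, happ, ← pow_mul]
    exact congrArg χ.1 (hpowmod g _ _ (H43.pExp_mul hQ u v))
  have hfib : ∀ ψ ∈ O, (Finset.univ.filter fun u => act u = ψ).card = s := by
    intro ψ hψ
    obtain ⟨u₀, -, rfl⟩ := Finset.mem_image.mp hψ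
    rw [hs_def]
    symm
    refine Finset.card_equiv (Equiv.mulLeft u₀) fun v => ?_
    simp only [Finset.mem_filter, Finset.mem_univ, true_and, Equiv.coe_mulLeft]
    constructor
    · intro h
      refine Subtype.ext (funext fun g => ?_)
      rw [hcomp, h]
      rfl
    · intro h
      refine Subtype.ext (funext fun g => ?_)
      obtain ⟨x, rfl⟩ := (H45.powCoprime_bijective (hkc u₀)).2 g
      have := congrFun (congrArg Subtype.val h) x
      rw [hcomp, happ] at this
      exact this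
  have hφ : Fintype.card (ZMod (p ^ a))ˣ = r * s := by
    rw [hrO, ← Finset.card_univ, Finset.card_eq_sum_card_image act, Finset.sum_congr rfl hfib,
      Finset.sum_const, smul_eq_mul]
  have hOdeg : ∀ ψ ∈ O, ψ.1 1 = (d : ℂ) := by
    intro ψ hψ
    obtain ⟨u, -, rfl⟩ := Finset.mem_image.mp hψ
    rw [happ, one_pow, hχ1]
  have hr0 : 0 < r := by
    rw [hrO]
    exact Finset.card_pos.mpr (Finset.univ_nonempty.image _)
  -- divisibility of the sum of the family
  obtain ⟨M, hM⟩ := H42.exists_isPModular hp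
  have : M.IsMaximal := hM.2.1
  have hint : ∀ g : G, IsIntegral ℤ ((∑ ψ ∈ O, ψ.1 g) / ((p ^ r.factorization p : ℕ) : ℂ)) := by
    intro g
    have hψint : IsIntegral ℤ (∑ ψ ∈ O, ψ.1 g) :=
      IsIntegral.sum _ fun ψ _ => H43.irr_isIntegral ψ g
    set m := r.factorization p with hm_def
    rcases Nat.eq_zero_or_pos m with hm0 | hm0
    · rw [hm0, pow_zero, Nat.cast_one, div_one]; exact hψint
    have ha0 : 0 < a := by
      by_contra h
      have h1 : r ∣ 1 := by
        have h2 : Fintype.card (ZMod (p ^ a))ˣ = 1 := by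
          rw [ZMod.card_units_eq_totient, Nat.eq_zero_of_not_pos h, pow_zero, Nat.totient_one]
        exact ⟨s, (h2.symm.trans hφ)⟩
      rw [hm_def, Nat.dvd_one.mp h1, Nat.factorization_one] at hm0
      simp at hm0
    obtain ⟨γ, hγ, hsum⟩ := H43.sum_pExp_eq ha0 hQ hn (H26.irr_isCharacter χ) g
    have hsψ : (s : ℂ) * ∑ ψ ∈ O, ψ.1 g = ((p ^ (a - 1) : ℕ) : ℂ) * γ := by
      rw [← hsum, Finset.mul_sum,
        ← Finset.sum_fiberwise_of_maps_to (g := act) (t := O) (fun u _ => Finset.mem_image.mpr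
          ⟨u, Finset.mem_univ _, rfl⟩)]
      refine Finset.sum_congr rfl fun ψ hψ => ?_
      rw [Finset.sum_congr rfl fun u hu => by
        rw [← happ, (Finset.mem_filter.mp hu).2], Finset.sum_const, hfib ψ hψ, nsmul_eq_mul]
    have htot : (p ^ (a - 1) * (p - 1) : ℕ) = r * s := by
      rw [← hφ, ZMod.card_units_eq_totient, Nat.totient_prime_pow hp ha0]
    have hmain : ((p - 1 : ℕ) : ℂ) * ∑ ψ ∈ O, ψ.1 g = (r : ℂ) * γ := by
      refine mul_left_cancel₀ (Nat.cast_ne_zero.mpr (pow_pos hp.pos (a - 1)).ne' :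
        ((p ^ (a - 1) : ℕ) : ℂ) ≠ 0) ?_
      rw [← mul_assoc, ← Nat.cast_mul, htot, Nat.cast_mul, mul_assoc, hsψ]
      ring
    obtain ⟨r', hr'⟩ : p ^ m ∣ r := Nat.ordProj_dvd r p
    have hpm : ((p ^ m : ℕ) : ℂ) ≠ 0 := Nat.cast_ne_zero.mpr (pow_pos hp.pos m).ne'
    refine H27.isIntegral_of_coprime_mul (a := p - 1) (b := p ^ m) ?_ ?_ ?_
    · refine (Nat.Coprime.pow_right m ?_)
      rw [Nat.coprime_comm, hp.coprime_iff_not_dvd]
      exact fun h => by
        have h2 := hp.two_le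
        have h3 := Nat.le_of_dvd (by omega) h
        omega
    · rw [← mul_div_assoc, hmain, hr', Nat.cast_mul]
      rw [mul_assoc, mul_div_cancel_left₀ _ hpm]
      exact (isIntegral_natCast r').mul hγ
    · rw [mul_div_cancel₀ _ hpm]
      exact hψint
  -- the key step
  have key : p ^ a ∣ r * d → p ^ a ∣ d ∧ ¬ p ∣ r := by
    intro hdiv
    set m := r.factorization p with hm_def
    have hmd : p ^ a ∣ p ^ m * d := by
      have h1 : r = p ^ m * (r / p ^ m) := (Nat.ordProj_mul_ordCompl_eq_self _ p).symm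
      have h2 : (p ^ a).Coprime (r / p ^ m) :=
        ((hp.coprime_iff_not_dvd).mpr (Nat.not_dvd_ordCompl hp hr0.ne')).pow_left a
      rw [h1, Nat.mul_right_comm] at hdiv
      exact h2.dvd_of_dvd_mul_right hdiv
    have hvan : ∀ y : G, p ∣ orderOf y → ∑ ψ ∈ O, ψ.1 y = 0 := fun y hy =>
      H43.sum_eq_zero_of_locally_integral hM O hd hOdeg hn hpQ (fun g => by
        obtain ⟨c, hc⟩ := hmd
        have hpm : ((p ^ m : ℕ) : ℂ) ≠ 0 := Nat.cast_ne_zero.mpr (pow_pos hp.pos m).ne'
        have hpa : ((p ^ a : ℕ) : ℂ) ≠ 0 := Nat.cast_ne_zero.mpr (pow_pos hp.pos a).ne'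
        have : (d : ℂ) * (∑ ψ ∈ O, ψ.1 g) / ((p ^ a : ℕ) : ℂ) =
            (c : ℂ) * ((∑ ψ ∈ O, ψ.1 g) / ((p ^ m : ℕ) : ℂ)) := by
          have hc' : ((p ^ m : ℕ) : ℂ) * (d : ℂ) = ((p ^ a : ℕ) : ℂ) * (c : ℂ) := by
            rw [← Nat.cast_mul, ← Nat.cast_mul, hc]
          field_simp
          linear_combination (∑ ψ ∈ O, ψ.1 g) * hc'
        rw [this]
        exact (isIntegral_natCast c).mul (hint g)) hy
    obtain ⟨P⟩ : Nonempty (Sylow p G) := inferInstance
    have hP : Nat.card (P : Subgroup G) = p ^ a := P.card_eq_multiplicity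
    let _ : Fintype (P : Subgroup G) := Fintype.ofFinite _
    have hres : ∀ ψ : Cfsg.IrrCharacter G,
        ∃ N : ℕ, ∑ x : (P : Subgroup G), ψ.1 x = ((p ^ a : ℕ) : ℂ) * (N : ℂ) := fun ψ => by
      refine ⟨H43.mult (fun x : (P : Subgroup G) => ψ.1 x) (H26.oneIrr _), ?_⟩
      rw [← H43.classInner_eq_mult (φ := fun x : (P : Subgroup G) => ψ.1 x)
        (H26.isCharacter_comp (H26.irr_isCharacter ψ) (P : Subgroup G).subtype) (H26.oneIrr _),
        Cfsg.classInner, hP, ← mul_assoc,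
        mul_inv_cancel₀ (Nat.cast_ne_zero.mpr (pow_pos hp.pos a).ne'), one_mul]
      exact Finset.sum_congr rfl fun x _ => by rw [H26.oneIrr_val]; simp
    obtain ⟨N, hN⟩ := hres χ
    have hsame : ∀ ψ ∈ O, ∑ x : (P : Subgroup G), ψ.1 x = ((p ^ a : ℕ) : ℂ) * (N : ℂ) := by
      intro ψ hψ
      obtain ⟨σ, -, hσ⟩ := (hset ψ).mpr hψ
      simp only [hσ]
      rw [← map_sum, hN, map_mul, map_natCast, map_natCast]
    have hdouble : ∑ x : (P : Subgroup G), ∑ ψ ∈ O, ψ.1 x = (r : ℂ) * (d : ℂ) := by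
      rw [Finset.sum_eq_single (1 : (P : Subgroup G)) (fun x _ hx => hvan _ ?_)
        (fun h => absurd (Finset.mem_univ _) h), OneMemClass.coe_one, Finset.sum_congr rfl hOdeg,
        Finset.sum_const, nsmul_eq_mul, hrO]
      rw [Subgroup.orderOf_coe]
      obtain ⟨k, hk⟩ := IsPGroup.iff_orderOf.mp P.isPGroup' x
      rw [hk]
      refine dvd_pow_self p fun h0 => hx ?_
      rwa [h0, pow_zero, orderOf_eq_one_iff] at hk
    rw [Finset.sum_comm, Finset.sum_congr rfl hsame, Finset.sum_const, nsmul_eq_mul, ← hrO] at hdouble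
    have hdN : d = p ^ a * N := by
      have h := mul_left_cancel₀ (Nat.cast_ne_zero.mpr hr0.ne') hdouble
      exact_mod_cast h.symm
    have hpad : p ^ a ∣ d := ⟨N, hdN⟩
    refine ⟨hpad, ?_⟩
    have hvan1 : ∀ y : G, p ∣ orderOf y → χ.1 y = 0 := fun y hy => by
      have h := H43.sum_eq_zero_of_locally_integral hM {χ} hd
        (fun ψ hψ => by rw [Finset.mem_singleton.mp hψ, hχ1]) hn hpQ (fun g => by
          rw [Finset.sum_singleton, hdN, Nat.cast_mul, mul_assoc,
            mul_div_cancel_left₀ _ (Nat.cast_ne_zero.mpr (pow_pos hp.pos a).ne')]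
          exact (isIntegral_natCast N).mul (H43.irr_isIntegral χ g)) hy
      rwa [Finset.sum_singleton] at h
    have hall : ∀ u, act u = χ := fun u => Subtype.ext (funext fun g => by
      by_cases hg : p ∣ orderOf g
      · rw [hvan1 g hg, happ]
        refine hvan1 _ ?_
        have hc : (orderOf g).Coprime (H43.pExp hQ u) :=
          ((hkc u).of_dvd_right (orderOf_dvd_natCard g)).symm
        rwa [hc.orderOf_pow]
      · exact hregfix u g hg)
    have : r = 1 := by
      rw [hrO, Finset.card_eq_one]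
      refine ⟨χ, ?_⟩
      ext ψ
      simp only [hO, Finset.mem_image, Finset.mem_univ, true_and, Finset.mem_singleton]
      exact ⟨fun ⟨u, hu⟩ => hu ▸ hall u, fun h => ⟨1, (hall 1).trans h.symm⟩⟩
    rw [this]
    exact hp.not_dvd_one
  refine ⟨?_, fun h => (key h).1⟩
  by_contra hlt
  push Not at hlt
  obtain ⟨h1, h2⟩ := key ((hp.pow_dvd_iff_le_factorization (Nat.mul_pos hr0 hd).ne').mpr hlt.le)
  have h3 : d.factorization p ≤ a :=
    (Nat.factorization_le_iff_dvd hd.ne' Nat.card_pos.ne').mpr (H43.irr_charDegree_dvd χ) p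
  rw [Nat.factorization_mul hr0.ne' hd.ne', Finsupp.add_apply,
    Nat.factorization_eq_zero_of_not_dvd h2] at hlt
  omega

end Cfsg.Agent.S4506
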