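import Cfsg.Statements.S4507
import Cfsg.Agent.H43.D1.FullBlock

set_option maxHeartbeats 800000

set_option autoImplicit false
open Cfsg

namespace Cfsg.Agent.S4507

/-- Let G be a finite group whose order g is divisible by the prime p exactly once, g′ = g/p, and fix a maximal ideal M of the algebraic integers containing p. Call two irreducible characters p-conjugate when a field automorphism of ℂ fixing the g′-th roots of unity carries one to the other. Let B be a p-block of positive defect (its defect group is a Sylow p-subgroup). Then B contains a subset Y (the exceptional family) such that: Y is a full p-conjugacy class (its members are pairwise p-conjugate and every p-conjugate of a member of Y lies in Y); every member of B outside Y is p-conjugate only to itself; the size t of Y divides p − 1 and B has exactly t + (p − 1)/t members; and there are signs δ_χ = ±1 (χ ∈ B) such that for every p-regular element x and every θ ∈ Y, Σ_{χ ∈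 B ∖ Y} δ_χ χ(x) + δ_θ θ(x) = 0. -/
theorem result {G : Type*} [Group G] [Finite G] (p : ℕ) [Fact p.Prime] (M : Ideal Cfsg.AlgInt) (hM : Cfsg.IsPModular p M) (hdiv : p ∣ Nat.card G) (hsq : ¬ p ^ 2 ∣ Nat.card G) (B : Set (Cfsg.IrrCharacter G)) (hB : Cfsg.IsPBlock M B) (hd : 0 < Cfsg.blockDefect p B) : ∃ Y : Set (Cfsg.IrrCharacter G), Y ⊆ B ∧ Y.Nonempty ∧ (∀ θ ∈ Y, ∀ ψ : Cfsg.IrrCharacter G, (∃ σ : ℂ ≃+* ℂ, σ (Complex.exp (2 * Real.pi * Complex.I / ((Nat.card G / p ^ (Nat.card G).factorization p) : ℕ))) = Complex.exp (2 * Real.pi * Complex.I / ((Nat.card G / p ^ (Nat.card G).factorization p) : ℕ)) ∧ (ψ : G → ℂ) = fun g => σ ((θ : G → ℂ) g)) ↔ ψ ∈ Y) ∧ (∀ χ ∈ B, χ ∉ Y → ∀ ψ : Cfsg.IrrCharacter G, (∃ σ : ℂ ≃+* ℂ, σ (Complex.exp (2 * Real.pi * Complex.I / ((Nat.card G / p ^ (Nat.card G).factorization p) : ℕ))) = Complex.exp (2 * Real.pi * Complex.I / ((Nat.card G / p ^ (Nat.card G).factorization p) : ℕ)) ∧ (ψ : G → ℂ) = fun g => σ ((χ : G → ℂ)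 g)) → ψ = χ) ∧ Nat.card Y ∣ p - 1 ∧ Nat.card B = Nat.card Y + (p - 1) / Nat.card Y ∧ ∃ δ : Cfsg.IrrCharacter G → ℤ, (∀ χ ∈ B, δ χ = 1 ∨ δ χ = -1) ∧ ∀ x : G, ¬ p ∣ orderOf x → ∀ θ ∈ Y, (∑ᶠ χ ∈ B \ Y, (δ χ : ℂ) * (χ : G → ℂ) x) + (δ θ : ℂ) * (θ : G → ℂ) x = 0 := by
  classical
  have : M.IsMaximal := hM.2.1
  have hfac : (Nat.card G).factorization p = 1 := by
    refine le_antisymm ?_ ?_
    · by_contra h
      exact hsq (((Fact.out : p.Prime).pow_dvd_iff_le_factorization Nat.card_pos.ne').2 (by omega))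
    · exact ((Fact.out : p.Prime).pow_dvd_iff_le_factorization Nat.card_pos.ne').1 (by simpa using hdiv)
  obtain ⟨P⟩ : Nonempty (Sylow p G) := inferInstance
  have hcard : Nat.card (P : Subgroup G) = p := by rw [Sylow.card_eq_multiplicity, hfac, pow_one]
  obtain ⟨S, -⟩ := H43.D1.exists_setup hdiv hsq hcard
  simp only [hfac, pow_one]
  obtain ⟨Y, hYB, hYne, hY, hfix, hdvd, hcardB, δ, hδ, hrel⟩ := S.exists_exceptional M hM hB hd
  refine ⟨Y, hYB, hYne, fun θ hθ ψ => ?_, fun χ hχ hn ψ h => ?_, hdvd, hcardB, δ, hδ, hrel⟩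
  · constructor
    · rintro ⟨σ, hσ, hψ⟩
      exact (hY θ hθ ψ).1 (S.isConjBy_of_ringAut σ hσ hψ)
    · intro hψ
      obtain ⟨u, hu⟩ := (hY θ hθ ψ).2 hψ
      obtain ⟨σ, ψ', hσ, hψ', hu'⟩ := S.exists_isConjBy θ u
      refine ⟨σ, hσ, ?_⟩
      have : ψ = ψ' := by
        refine S.eq_of_sv_eq
          (fun g hg => (S.value_eq_of_isConjBy hu hg).trans (S.value_eq_of_isConjBy hu' hg).symm)
          fun θ' i => ?_
        simp only [S.sv_eq_neg_sum, S.av_of_isConjBy hu, S.av_of_isConjBy hu']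
      rw [this, hψ']
  · obtain ⟨σ, hσ, hψ⟩ := h
    obtain ⟨u, hu⟩ := S.isConjBy_of_ringAut σ hσ hψ
    exact hfix χ hχ hn u ψ hu

end Cfsg.Agent.S4507
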