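import Cfsg.Statements.S4508
import Cfsg.Agent.H43.DegreePredPrime

set_option maxHeartbeats 800000

set_option autoImplicit false
open Cfsg

namespace Cfsg.Agent.S4508

/-- Let the finite group G contain an element x of prime order p with C_G(x) = ⟨x⟩, and let t be the number of conjugacy classes of elements of order p. If G has an irreducible character of degree p − 1, then t is even or the commutator subgroup has even index. -/
theorem result {G : Type*} [Group G] [Finite G] (p : ℕ) (hp : p.Prime) (x : G) (hx : orderOf x = p) (hC : Subgroup.centralizer ({x} : Set G) = Subgroup.zpowers x) (t : ℕ) (ht : Nat.card {C : ConjClasses G // ∃ g ∈ C.carrier, orderOf g = p} = t) (χ : Cfsg.IrrCharacter G) (hχ : Cfsg.charDegree (χ : G → ℂ) + 1 = p) : Even t ∨ Even (commutator G).index := by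
  have : Fact p.Prime := ⟨hp⟩
  have : Fintype G := Fintype.ofFinite G
  have h := H43.card_classes_mul_relIndex hx hC
  rw [ht] at h
  have h2 := hp.two_le
  rcases Nat.even_or_odd t with he | ho
  · exact Or.inl he
  refine Or.inr ?_
  rcases Nat.lt_or_ge ((Subgroup.zpowers x).relIndex
      (Subgroup.normalizer ((Subgroup.zpowers x : Subgroup G) : Set G))) 2 with he1 | he2
  · have he : (Subgroup.zpowers x).relIndex
        (Subgroup.normalizer ((Subgroup.zpowers x : Subgroup G) : Set G)) = 1 := by
      have : (Subgroup.zpowers x).relIndex
          (Subgroup.normalizer ((Subgroup.zpowers x : Subgroup G) : Set G)) ≠ 0 := by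
        intro h0; rw [h0, mul_zero] at h; omega
      omega
    rw [(H43.commutator_of_relIndex_eq_one hx hC he).2.1]
    rw [he, mul_one] at h
    rcases hp.eq_two_or_odd with hp2 | hp2
    · rw [hp2]; exact even_two
    · obtain ⟨k, hk⟩ := ho
      omega
  · exact H43.even_index_of_degree_pred hx hC χ hχ h ho he2

end Cfsg.Agent.S4508
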