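import Cfsg.Statements.S4509
import Cfsg.Agent.H43.SelfCentralizingDerived

set_option maxHeartbeats 800000

set_option autoImplicit false
open Cfsg

namespace Cfsg.Agent.S4509

/-- Let the finite group G contain an element x of prime order p with C_G(x) = ⟨x⟩; let t be the number of conjugacy classes of elements of order p and 1 + n·p the number of subgroups of order p. Then G has a normal subgroup of order 1 + n·p if and only if either t = p − 1, or t < p − 1 and G″ ≠ G′. Moreover, if t = p − 1 then G′ has order 1 + n·p and G/G′ is cyclic of order p; and if t < p − 1 and G″ ≠ G′ then G″ has order 1 + n·p and G′ has order p·(1 + n·p). -/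
theorem result {G : Type*} [Group G] [Finite G] (p : ℕ) (hp : p.Prime) (x : G) (hx : orderOf x = p) (hC : Subgroup.centralizer ({x} : Set G) = Subgroup.zpowers x) (t : ℕ) (ht : Nat.card {C : ConjClasses G // ∃ g ∈ C.carrier, orderOf g = p} = t) (n : ℕ) (hn : Nat.card {H : Subgroup G // Nat.card H = p} = 1 + n * p) : ((∃ S : Subgroup G, S.Normal ∧ Nat.card S = 1 + n * p) ↔ (t = p - 1 ∨ (t < p - 1 ∧ derivedSeries G 2 ≠ derivedSeries G 1))) ∧ (t = p - 1 → Nat.card (commutator G) = 1 + n * p ∧ IsCyclic (G ⧸ commutator G) ∧ (commutator G).index = p) ∧ (t < p - 1 → derivedSeries G 2 ≠ derivedSeries G 1 → Nat.card (derivedSeries G 2) = 1 + n * p ∧ Nat.card (commutator G) = p * (1 + n * p)) := by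
  have : Fact p.Prime := ⟨hp⟩
  have h := H43.card_classes_mul_relIndex hx hC
  rw [ht] at h
  have h2 := hp.two_le
  rw [H43.card_subgroups_of_card_eq hx hC] at hn
  set N := Subgroup.normalizer ((Subgroup.zpowers x : Subgroup G) : Set G) with hNdef
  set e := (Subgroup.zpowers x).relIndex N with hedef
  have he0 : e ≠ 0 := fun h0 => by rw [h0, mul_zero] at h; omega
  have htle : t ≤ p - 1 := h ▸ Nat.le_mul_of_pos_right t (Nat.pos_of_ne_zero he0)
  have hA : t = p - 1 → Nat.card (commutator G) = 1 + n * p ∧
      IsCyclic (G ⧸ commutator G) ∧ (commutator G).index = p := by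
    intro heq
    rw [heq] at h
    have he : e = 1 := mul_left_cancel₀ (by omega : p - 1 ≠ 0) (by rw [h, mul_one])
    obtain ⟨-, hi, hc, -⟩ := H43.commutator_of_relIndex_eq_one hx hC he
    exact ⟨hc.trans hn, isCyclic_of_prime_card (α := G ⧸ commutator G)
      (by rw [← Subgroup.index_eq_card, hi]), hi⟩
  have hmem : t < p - 1 → x ∈ commutator G := by
    intro hlt
    refine H43.mem_commutator_of_relIndex_ne_one hx hC fun he => ?_
    rw [← hedef] at he
    rw [he, mul_one] at h
    omega
  have hB : t < p - 1 → derivedSeries G 2 ≠ derivedSeries G 1 →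
      Nat.card (derivedSeries G 2) = 1 + n * p ∧ Nat.card (commutator G) = p * (1 + n * p) := by
    intro hlt hne
    have : (derivedSeries G 2).Normal := derivedSeries_normal G 2
    have hxG := hmem hlt
    obtain ⟨hx2, hG'⟩ := H43.derived_two_of_ne hx hC hxG hne
    obtain ⟨P, hP⟩ := H43.exists_sylow_eq_zpowers hx hC
    have hXN : Subgroup.zpowers x ≤ N := Subgroup.le_normalizer
    have hsup : N ⊔ derivedSeries G 2 = ⊤ := by
      have htop := Sylow.normalizer_sup_eq_top' P
        (hP ▸ (Subgroup.zpowers_le.mpr hxG) : (P : Subgroup G) ≤ commutator G)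
      rw [show ((P : Set G)) = ((Subgroup.zpowers x : Subgroup G) : Set G) from congrArg SetLike.coe hP, ← hNdef, hG'] at htop
      rw [eq_top_iff, ← htop]
      exact sup_le le_sup_left (sup_le_sup_right hXN _)
    have hc := ((H43.sup_normalizer_eq_top_iff hx hC _ hx2).mp hsup).trans hn
    refine ⟨hc, ?_⟩
    rw [hG', H43.card_sup_of_inf_eq_bot, Nat.card_zpowers, hx, hc]
    rw [eq_bot_iff]
    rintro s ⟨hsx, hs⟩
    exact Subgroup.mem_bot.mpr (H43.eq_one_of_mem_of_mem_zpowers hx _ hx2 hs hsx)
  refine ⟨⟨?_, ?_⟩, hA, hB⟩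
  · rintro ⟨S, hS, hcard⟩
    rcases htle.lt_or_eq with hlt | heq
    · refine Or.inr ⟨hlt, fun heq => ?_⟩
      have hxS : x ∉ S := fun hm => H43.not_dvd_index_normalizer hx hC (by
        rw [← hNdef, hn, ← hcard, ← hx]; exact S.orderOf_dvd_natCard hm)
      have hsup := (H43.sup_normalizer_eq_top_iff hx hC S hxS).mpr (hcard.trans hn.symm)
      set π := QuotientGroup.mk' S
      have himg : ∀ g : G, ∃ a ∈ N, π g = π a := by
        intro g
        have hg : g ∈ N ⊔ S := hsup ▸ Subgroup.mem_top g
        rw [← SetLike.mem_coe, Subgroup.mul_normal] at hg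
        obtain ⟨a, ha, s, hs, rfl⟩ := hg
        refine ⟨a, ha, ?_⟩
        rw [map_mul, show π s = 1 from (QuotientGroup.eq_one_iff s).mpr hs, mul_one]
      have hmap : (commutator G).map π ≤ Subgroup.zpowers (π x) := by
        rw [Subgroup.map_le_iff_le_comap, commutator_def, Subgroup.commutator_le]
        intro g _ k _
        rw [Subgroup.mem_comap, map_commutatorElement]
        obtain ⟨a, ha, hga⟩ := himg g
        obtain ⟨b, hb, hkb⟩ := himg k
        rw [hga, hkb, ← map_commutatorElement, ← MonoidHom.map_zpowers]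
        refine ⟨_, ?_, rfl⟩
        have hm := H43.commutator_mem_centralizer ha hb
        rw [hC] at hm
        exact hm
      have hle2 : derivedSeries G 2 ≤ S := by
        rw [derivedSeries_succ, derivedSeries_one, Subgroup.commutator_le]
        intro g hg k hk
        rw [← QuotientGroup.eq_one_iff, ← QuotientGroup.mk'_apply, map_commutatorElement,
          commutatorElement_eq_one_iff_commute]
        obtain ⟨i, hi⟩ := Subgroup.mem_zpowers_iff.mp (hmap ⟨g, hg, rfl⟩)
        obtain ⟨j, hj⟩ := Subgroup.mem_zpowers_iff.mp (hmap ⟨k, hk, rfl⟩)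
        rw [show QuotientGroup.mk' S g = π x ^ i from hi.symm,
          show QuotientGroup.mk' S k = π x ^ j from hj.symm]
        exact Commute.zpow_zpow_self _ i j
      apply hxS
      apply hle2
      rw [heq, derivedSeries_one]
      exact hmem hlt
    · exact Or.inl heq
  · rintro (heq | ⟨hlt, hne⟩)
    · exact ⟨commutator G, inferInstance, (hA heq).1⟩
    · exact ⟨derivedSeries G 2, derivedSeries_normal G 2, (hB hlt hne).1⟩

end Cfsg.Agent.S4509
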