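import Cfsg.Statements.S4510
import Cfsg.Agent.H42.DefectValues
-- import your own Cfsg.Agent.* helpers here

set_option autoImplicit false
open Cfsg

namespace Cfsg.Agent.S4510

/-- Let G be a finite group, p a prime, M a maximal ideal of the algebraic integers containing p, and call the defect of a conjugacy class the exponent of p in the order of the centralizer of its elements. Two irreducible characters lying in p-blocks of defect exactly d lie in the same block if and only if their central characters (class size times χ(x)/χ(1)) agree modulo the local ideal at M at every p-regular element x whose class has defect exactly d. -/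
theorem result {G : Type*} [Group G] [Finite G] (p : ℕ) [Fact p.Prime] (M : Ideal Cfsg.AlgInt) (hM : Cfsg.IsPModular p M) (d : ℕ) (χ ψ : Cfsg.IrrCharacter G) (hχ : Cfsg.blockDefect p (Cfsg.blockOf M (χ : G → ℂ)) = d) (hψ : Cfsg.blockDefect p (Cfsg.blockOf M (ψ : G → ℂ)) = d) : Cfsg.SameBlock M (χ : G → ℂ) (ψ : G → ℂ) ↔ ∀ x : G, ¬ p ∣ orderOf x → (Nat.card (Subgroup.centralizer ({x} : Set G))).factorization p = d → Cfsg.MemLocalIdeal M (Cfsg.centralChar (χ : G → ℂ) x - Cfsg.centralChar (ψ : G → ℂ) x) := by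
  classical
  have := hM.2.1
  have : Finite (ConjClasses G) := Quotient.finite _
  have := Fintype.ofFinite (ConjClasses G)
  refine ⟨fun h x _ _ => h x, fun h => ?_⟩
  have hB := Cfsg.Agent.H41.isPBlock_blockOf (M := M) χ
  have h1 := Cfsg.Agent.H42.sum_exact_coeff_mul_omegaBar hM hB (ψ := χ) rfl
  have h2 := Cfsg.Agent.H42.sum_exact_coeff_mul_omegaBar hM hB (ψ := ψ) (hψ.trans hχ.symm)
  rw [if_pos (Cfsg.Agent.H41.mem_blockOf_self χ)] at h1
  by_cases hmem : ψ ∈ Cfsg.blockOf M (χ : G → ℂ)
  · exact hmem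
  rw [if_neg hmem] at h2
  refine absurd (h1.symm.trans ((Finset.sum_congr rfl fun C hC => ?_).trans h2)) one_ne_zero
  obtain ⟨hC1, hC2⟩ := (Finset.mem_filter.1 hC).2
  congr 1
  rw [Cfsg.Agent.H41.omegaBar_classSumZ, Cfsg.Agent.H41.omegaBar_classSumZ,
    ← Cfsg.Agent.H41.memLocalIdeal_sub_iff, Cfsg.Agent.H41.coe_omegaLoc_classSumZ,
    Cfsg.Agent.H41.coe_omegaLoc_classSumZ]
  exact h _ hC1 (hC2.trans hχ)

end Cfsg.Agent.S4510
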