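import Cfsg.Statements.S4512
import Cfsg.Agent.H38.KleinBlock
-- import your own Cfsg.Agent.* helpers here

set_option autoImplicit false
open Cfsg

namespace Cfsg.Agent.S4512

/-- If G is a finite group with a Sylow 2-subgroup that is a Klein four-group and a single conjugacy class of involutions, then its principal 2-block (relative to a maximal ideal M of the algebraic integers containing 2) has 2-regular rank 3: the restrictions of its irreducible characters to the elements of odd order span a space of dimension 3 (it has three irreducible Brauer characters). -/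
theorem result {G : Type*} [Group G] [Finite G] (M : Ideal Cfsg.AlgInt) (hM : Cfsg.IsPModular 2 M) (P : Sylow 2 G)
    (hP : Nat.card P = 4) (hexp : ∀ x : P, x * x = 1)
    (hone : ∀ s t : G, orderOf s = 2 → orderOf t = 2 → IsConj s t) :
    Cfsg.blockRank 2 (Cfsg.principalBlock M G) = 3 := by
  classical
  haveI := hM.2.1
  haveI : Fact (Nat.Prime 2) := ⟨Nat.prime_two⟩
  haveI := Fintype.ofFinite G
  haveI : Nontrivial P := Finite.one_lt_card_iff_nontrivial.1 (by rw [hP]; norm_num)
  obtain ⟨⟨t, htP⟩, ht1⟩ := exists_ne (1 : P)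
  have ht : orderOf t = 2 := orderOf_eq_prime (by
      rw [pow_two]; exact congrArg Subtype.val (hexp ⟨t, htP⟩))
    fun h => ht1 (Subtype.ext h)
  obtain ⟨O, hOn, hO2, hO4⟩ := H38.exists_complement_centralizer P hP hexp ht htP
  haveI := hOn
  haveI := Fintype.ofFinite O
  set B := Cfsg.principalBlock M G with hBdef
  have hB : Cfsg.IsPBlock M B := H41.isPBlock_principalBlock
  have h1B : H26.oneIrr G ∈ B := by rw [hBdef, H41.principalBlock_eq]; exact H41.mem_blockOf_self _
  -- the representatives of the classes of `2`-elements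
  have h2el : ∀ g : G, (∃ k : ℕ, orderOf g = 2 ^ k) → g = 1 ∨ IsConj t g := by
    rintro g ⟨k, hk⟩
    obtain ⟨Q, hQ⟩ := (IsPGroup.of_card (n := k) (by rw [Nat.card_zpowers, hk]) :
      IsPGroup 2 (Subgroup.zpowers g)).exists_le_sylow
    let e := Q.equiv P
    have hgQ := hQ (Subgroup.mem_zpowers g)
    have hgg : g * g = 1 := congrArg Subtype.val (show (⟨g, hgQ⟩ : Q) * ⟨g, hgQ⟩ = 1 from
      e.injective (by rw [map_mul, map_one]; exact hexp _))
    by_cases hg1 : g = 1
    · exact Or.inl hg1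
    · exact Or.inr (hone t g ht (orderOf_eq_prime (by rw [pow_two]; exact hgg) hg1))
  have hreg : ∀ s : Subgroup.centralizer ({t} : Set G), Cfsg.IsPRegular 2 s → s ∈ O := fun s hs =>
    H41.mem_of_regular_of_index _ ⟨2, by rw [hO4]; norm_num⟩ hs
  have hregO : ∀ s : Subgroup.centralizer ({t} : Set G), s ∈ O → Cfsg.IsPRegular 2 s := fun s hs h =>
    hO2 (h.trans (by have := orderOf_dvd_natCard (⟨s, hs⟩ : O); rwa [Subgroup.orderOf_mk] at this))
  have hA : H40.inducingSet M t B = Cfsg.principalBlock M ↥(Subgroup.centralizer ({t} : Set G)) :=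
    H38.inducingSet_principal hM ⟨1, by rw [pow_one]; exact ht⟩
  -- the values on the section of `t`
  have hsec : ∀ χ ∈ B, ∀ s ∈ O, (χ : G → ℂ) (t * (s : G)) = (χ : G → ℂ) t := by
    have key : ∀ χ ∈ B, ∀ s ∈ O, (χ : G → ℂ) (t * (s : G)) =
        (Nat.card O : ℂ)⁻¹ * ∑ k : O, (χ : G → ℂ) (t * ((k : Subgroup.centralizer ({t} : Set G)) : G)) := by
      intro χ hχ s hs
      have hst : Commute t (s : G) := (Subgroup.mem_centralizer_singleton_iff.1 s.2).symm
      let g' : Subgroup.centralizer ({t} : Set G) :=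
        ⟨t * (s : G), mul_mem (Subgroup.mem_centralizer_singleton_iff.2 rfl) s.2⟩
      have h := H40.sum_inducingSet_mul hM ⟨1, by rw [pow_one]; exact ht⟩ hB (g := g')
        (H40.isPPart_mul hst (j := 1) (by rw [pow_one]; exact ht)
          (by rw [Subgroup.orderOf_coe]; exact hregO s hs)) χ
      rw [if_pos hχ, hA] at h
      simp only [H38.blockCoeff_principal_of_complement hM O hO2 ⟨2, by rw [hO4]; norm_num⟩,
        ite_mul, zero_mul] at h
      rw [← h, ← Finset.sum_filter, ← Finset.mul_sum]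
      congr 1
      refine Finset.sum_bij' (fun k hk => ⟨k * s, O.mul_mem (Finset.mem_filter.1 hk).2 hs⟩)
        (fun k _ => (k : Subgroup.centralizer ({t} : Set G)) * s⁻¹) (fun _ _ => Finset.mem_univ _)
        (fun k _ => Finset.mem_filter.2 ⟨Finset.mem_univ _, O.mul_mem k.2 (O.inv_mem hs)⟩)
        (fun k _ => mul_inv_cancel_right _ _) (fun k _ => Subtype.ext (inv_mul_cancel_right _ _))
        (fun k hk => ?_)
      have hkt := Subgroup.mem_centralizer_singleton_iff.1 k.2
      show (χ : G → ℂ) ((k : G) * (t * s)) = (χ : G → ℂ) (t * ((k : G) * s))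
      rw [← mul_assoc, hkt, mul_assoc]
    intro χ hχ s hs
    have h1 := key χ hχ 1 O.one_mem
    rw [Subgroup.coe_one, mul_one] at h1
    rw [key χ hχ s hs, ← h1]
  -- the column of `t`
  have hlam : ∑ χ ∈ Finset.univ.filter (· ∈ B), (χ : G → ℂ) t * (starRingEnd ℂ) ((χ : G → ℂ) t) = 4 := by
    rw [H38.sum_principal_norm hM ⟨1, by rw [pow_one]; exact ht⟩]
    have h := H38.blockCoeff_principal_of_complement hM O hO2 ⟨2, by rw [hO4]; norm_num⟩
      (1 : Subgroup.centralizer ({t} : Set G))
    rw [if_pos O.one_mem, Cfsg.blockCoeff, inv_mul_eq_iff_eq_mul₀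
      (Nat.cast_ne_zero.2 Nat.card_pos.ne'), ← O.card_mul_index, hO4, Nat.cast_mul,
      mul_comm (Nat.card O : ℂ), mul_inv_cancel_right₀ (Nat.cast_ne_zero.2 Nat.card_pos.ne')] at h
    rw [finsum_mem_eq_finite_toFinset_sum _ (Set.toFinite _)] at h ⊢
    push_cast at h ⊢
    rw [← h]
    refine Finset.sum_congr rfl fun ψ _ => ?_
    rw [H42.irr_one_eq, Complex.conj_natCast, sq]
  -- all degrees in the block are odd
  have hmin : sInf ((fun χ : Cfsg.IrrCharacter G => (Cfsg.charDegree (χ : G → ℂ)).factorization 2) '' B) = 0 := by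
    refine le_antisymm (Nat.sInf_le ⟨_, h1B, ?_⟩) (Nat.zero_le _)
    simp [Cfsg.charDegree, H26.oneIrr_val]
  have hd : Cfsg.blockDefect 2 B = 2 := by
    rw [Cfsg.blockDefect, hmin, Nat.sub_zero]
    have h := P.card_eq_multiplicity
    rw [hP] at h
    exact (Nat.pow_right_injective le_rfl (show 2 ^ 2 = 2 ^ _ from h)).symm
  have hsq : ∀ χ ∈ B, ∃ n : ℤ, (χ : G → ℂ) t = n ∧ 1 ≤ n ^ 2 ∧ (n ^ 2 < 9 → n ^ 2 = 1) := by
    intro χ hχ
    obtain ⟨n, hn, hn2⟩ := S0944.result χ t ht
    have hodd : ¬ 2 ∣ Cfsg.charDegree (χ : G → ℂ) := by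
      have hh : Cfsg.blockHeight 2 B (χ : G → ℂ) = 0 := by
        by_contra hne
        have := H42.height_add_two_le_defect hM hB hχ (Nat.pos_of_ne_zero hne)
        omega
      rw [Cfsg.blockHeight, hmin, Nat.sub_zero] at hh
      intro hdvd
      have := Nat.Prime.factorization_pos_of_dvd Nat.prime_two (H42.charDegree_pos χ).ne' hdvd
      omega
    refine ⟨n, hn, ?_, fun h9 => ?_⟩
    · have : n ≠ 0 := by rintro rfl; omega
      have := sq_pos_of_ne_zero this
      omega
    · have h1 : n < 3 := by nlinarith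
      have h2 : -3 < n := by nlinarith
      have : n = 1 ∨ n = -1 := by omega
      rcases this with rfl | rfl <;> norm_num
  choose! n hn hn1 hn9 using hsq
  have hsum : ∑ χ ∈ Finset.univ.filter (· ∈ B), n χ ^ 2 = 4 := by
    apply Int.cast_injective (α := ℂ)
    push_cast
    rw [← hlam]
    refine Finset.sum_congr rfl fun χ hχ => ?_
    rw [hn χ (Finset.mem_filter.1 hχ).2, map_intCast, sq]
  have hall : ∀ χ ∈ B, n χ ^ 2 = 1 := by
    intro χ hχ
    refine hn9 χ hχ ?_
    have := Finset.single_le_sum (f := fun χ => n χ ^ 2) (fun χ _ => sq_nonneg _)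
      (Finset.mem_filter.2 ⟨Finset.mem_univ χ, hχ⟩)
    exact lt_of_le_of_lt (this.trans hsum.le) (by norm_num)
  have hk : (Finset.univ.filter (· ∈ B)).card = 4 := by
    rw [Finset.sum_congr rfl fun χ hχ => hall χ (Finset.mem_filter.1 hχ).2, Finset.sum_const] at hsum
    rw [nsmul_one] at hsum
    exact_mod_cast hsum
  -- count along the sections
  let f : G → ℂ := fun g => ∑ χ ∈ Finset.univ.filter (· ∈ B), (χ : G → ℂ) g * (starRingEnd ℂ) ((χ : G → ℂ) g)
  have hf : Cfsg.IsClassFunction G f := fun g h => by simp only [f, H26.irr_conj]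
  have htot : ∑ g, f g = (Nat.card G : ℂ) * 4 := by
    simp only [f]
    have hnorm : ∀ χ : Cfsg.IrrCharacter G,
        ∑ g, (χ : G → ℂ) g * (starRingEnd ℂ) ((χ : G → ℂ) g) = (Nat.card G : ℂ) := fun χ => by
      have h := H26.classInner_irr χ χ
      rw [if_pos rfl, Cfsg.classInner, inv_mul_eq_iff_eq_mul₀
        (Nat.cast_ne_zero.2 Nat.card_pos.ne'), mul_one] at h
      exact h
    rw [Finset.sum_comm, Finset.sum_congr rfl fun χ _ => hnorm χ, Finset.sum_const, hk, nsmul_eq_mul,
      mul_comm]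
    norm_num
  have ht1' : t ≠ 1 := fun h => by rw [h, orderOf_one] at ht; omega
  have hsplit := H32.sum_eq_sum_sections (p := 2) (X := {1, t}) ?_ ?_ hf
  rotate_left
  · intro x hx
    rcases Finset.mem_insert.1 hx with rfl | hx
    · exact ⟨0, by simp⟩
    · rw [Finset.mem_singleton.1 hx]; exact ⟨1, by rw [pow_one]; exact ht⟩
  · intro g hg
    rcases h2el g hg with rfl | htg
    · refine ⟨1, ⟨by simp, IsConj.refl _⟩, ?_⟩
      rintro y ⟨-, hy⟩
      exact isConj_one_right.1 hy
    · refine ⟨t, ⟨by simp, htg.symm⟩, ?_⟩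
      rintro y ⟨hy, hy'⟩
      rcases Finset.mem_insert.1 hy with rfl | hy
      · exact absurd (isConj_one_left.1 (htg.trans hy')) ht1'
      · exact Finset.mem_singleton.1 hy
  rw [htot, Finset.sum_insert (by simpa using ht1'.symm), Finset.sum_singleton] at hsplit
  have hterm1 : (Nat.card G : ℂ) / (Nat.card (Subgroup.centralizer ({(1 : G)} : Set G)) : ℂ) *
      ∑ s ∈ Finset.univ.filter (fun s : Subgroup.centralizer ({(1 : G)} : Set G) => Cfsg.IsPRegular 2 s),
        f ((1 : G) * s) = (Nat.card G : ℂ) * (Cfsg.blockRank 2 B : ℂ) := by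
    have hc : Subgroup.centralizer ({(1 : G)} : Set G) = ⊤ := by
      ext x; simp [Subgroup.mem_centralizer_singleton_iff]
    rw [hc, Subgroup.card_top, div_self (Nat.cast_ne_zero.2 Nat.card_pos.ne'), one_mul,
      S4667.result 2 M hM B hB]
    rw [Finset.sum_filter]
    refine Finset.sum_equiv Subgroup.topEquiv.toEquiv (fun _ => by simp) fun s _ => ?_
    show _ = ∑ᶠ χ ∈ B, Cfsg.pRegularPart 2 (χ : G → ℂ) (s : G) * (χ : G → ℂ) (s : G)⁻¹
    rw [finsum_mem_eq_finite_toFinset_sum _ (Set.toFinite _),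
      show (Set.toFinite B).toFinset = Finset.univ.filter (· ∈ B) by ext; simp]
    have e : Cfsg.IsPRegular 2 s ↔ Cfsg.IsPRegular 2 (s : G) := by
      unfold Cfsg.IsPRegular; rw [Subgroup.orderOf_coe]
    show (if Cfsg.IsPRegular 2 s then f ((1 : G) * s) else 0) =
      ∑ χ ∈ Finset.univ.filter (· ∈ B), Cfsg.pRegularPart 2 (χ : G → ℂ) (s : G) * (χ : G → ℂ) (s : G)⁻¹
    simp only [Cfsg.pRegularPart, ← e, one_mul, f]
    split_ifs
    · exact Finset.sum_congr rfl fun χ _ => by rw [H26.irr_inv]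
    · simp
  have hterm2 : (Nat.card G : ℂ) / (Nat.card (Subgroup.centralizer ({t} : Set G)) : ℂ) *
      ∑ s ∈ Finset.univ.filter (fun s : Subgroup.centralizer ({t} : Set G) => Cfsg.IsPRegular 2 s),
        f (t * s) = (Nat.card G : ℂ) := by
    rw [show (Finset.univ.filter fun s : Subgroup.centralizer ({t} : Set G) => Cfsg.IsPRegular 2 s) =
      Finset.univ.filter (· ∈ O) from Finset.filter_congr fun s _ => ⟨hreg s, hregO s⟩]
    rw [Finset.sum_congr rfl (g := fun _ => (4 : ℂ)) fun s hs => ?_, Finset.sum_const, nsmul_eq_mul,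
      show ((Finset.univ.filter (· ∈ O)).card) = Nat.card O by
        rw [Nat.card_eq_fintype_card, Fintype.card_subtype], ← O.card_mul_index, hO4, Nat.cast_mul]
    · have : (Nat.card O : ℂ) ≠ 0 := Nat.cast_ne_zero.2 Nat.card_pos.ne'
      push_cast
      field_simp
    · rw [← hlam]
      refine Finset.sum_congr rfl fun χ hχ => ?_
      rw [hsec χ (Finset.mem_filter.1 hχ).2 s (Finset.mem_filter.1 hs).2]
  rw [hterm1, hterm2] at hsplit
  have : (Cfsg.blockRank 2 B : ℂ) = 3 := by
    apply mul_left_cancel₀ (Nat.cast_ne_zero.2 Nat.card_pos.ne' : (Nat.card G : ℂ) ≠ 0)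
    linear_combination -hsplit
  exact_mod_cast this

end Cfsg.Agent.S4512
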