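import Cfsg.Statements.S4714
import Cfsg.Agent.H40.RankOne
-- import your own Cfsg.Agent.* helpers here

set_option autoImplicit false
open Cfsg

namespace Cfsg.Agent.S4714

/-- Let p be a prime, M a maximal ideal of the algebraic integers containing p, D a p-subgroup of the finite group G with G = D·C_G(D), and B a p-block with defect group D. Let χ be a member of B having D in its kernel (there is exactly one, the canonical character of B). Then the irreducible characters in B are exactly the functions θ on G for which there is an irreducible character ζ of D such that θ(yx) = ζ(y)χ(x) whenever y ∈ D, x has order prime to p and x commutes with y, and θ(z) = 0 whenever the p-part of z does not lie in D. -/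
theorem result {G : Type*} [Group G] [Finite G] (p : ℕ) [Fact p.Prime] (M : Ideal Cfsg.AlgInt) (hM : Cfsg.IsPModular p M) (D : Subgroup G) (hD : IsPGroup p D) (hG : D ⊔ Subgroup.centralizer (D : Set G) = ⊤) (B : Set (Cfsg.IrrCharacter G)) (hB : Cfsg.IsPBlock M B) (hBD : Cfsg.IsDefectGroup p M B D) (χ : Cfsg.IrrCharacter G) (hχ : χ ∈ B) (hχD : ∀ y ∈ D, (χ : G → ℂ) y = (χ : G → ℂ) 1) : (∀ θ : Cfsg.IrrCharacter G, θ ∈ B ↔ ∃ ζ : Cfsg.IrrCharacter D, (∀ (y : D) (x : G), ¬ p ∣ orderOf x → Commute (y : G) x → (θ : G → ℂ) ((y : G) * x) = (ζ : D → ℂ) y * (χ : G → ℂ) x) ∧ (∀ z : G, (∀ y : G, Cfsg.IsPPart p z y → y ∉ D) → (θ : G → ℂ) z = 0)) ∧ ∀ ζ : Cfsg.IrrCharacter D, ∃ θ ∈ B, (∀ (y : D) (x : G), ¬ p ∣ orderOf x → Commute (y : G) x → (θ : G → ℂ) ((y : G) * x) = (ζ : D → ℂ) y * (χ : G → ℂ) x) ∧ (∀ z : G, (∀ y : G, Cfsg.IsPPart p z y → y ∉ D) → (θ : G → ℂ) z = 0) := by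
  classical
  haveI := hM.2.1
  haveI : Fintype G := Fintype.ofFinite G
  haveI : Fintype D := Fintype.ofFinite D
  have hoχ : Cfsg.Agent.H40.OverP χ (Cfsg.Agent.H26.oneIrr D) := fun y => by
    rw [Cfsg.Agent.H26.oneIrr_val, Cfsg.Agent.H26.oneIrr_val, div_one, hχD y y.2,
      div_self (Cfsg.Agent.H26.irr_one_ne_zero χ)]
  -- the formula for the member over `ζ`
  have key : ∀ (θ : Cfsg.IrrCharacter G) (ζ : Cfsg.IrrCharacter D), θ ∈ B →
      Cfsg.Agent.H40.OverP θ ζ →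
      (∀ (y : D) (x : G), ¬ p ∣ orderOf x → Commute (y : G) x →
        (θ : G → ℂ) ((y : G) * x) = (ζ : D → ℂ) y * (χ : G → ℂ) x) ∧
      (∀ z : G, (∀ y : G, Cfsg.IsPPart p z y → y ∉ D) → (θ : G → ℂ) z = 0) := by
    intro θ ζ hθ ho
    refine ⟨fun y x hx _ => ?_, fun z hz => ?_⟩
    · have h1 : (ζ : D → ℂ) 1 ≠ 0 := Cfsg.Agent.H26.irr_one_ne_zero ζ
      rw [Cfsg.Agent.H40.irr_mul_centralizer hG θ y.2
        (Cfsg.Agent.H40.mem_centralizer_of_regular hD hG hx), mul_div_right_comm, ho y,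
        Cfsg.Agent.H40.regular_apply_eq_of_overP hM hD hG hB hBD hθ hχ ho hoχ hx, ← mul_assoc,
        div_mul_cancel₀ _ h1]
    · obtain ⟨y, hy⟩ := Cfsg.Agent.H40.exists_isPPart p z
      exact Cfsg.Agent.H40.eq_zero_of_pPart_notMem hM hG hB hBD hθ hy (hz y hy)
  refine ⟨fun θ => ⟨fun hθ => ?_, ?_⟩, fun ζ => ?_⟩
  · obtain ⟨ζ, ho⟩ := Cfsg.Agent.H40.exists_ratio_eq hG θ
    exact ⟨ζ, key θ ζ hθ ho⟩
  · rintro ⟨ζ, h1, h2⟩
    obtain ⟨φ, hφ, ho⟩ := Cfsg.Agent.H40.exists_mem_overP hM hD hG hB hBD ζ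
    obtain ⟨k1, k2⟩ := key φ ζ hφ ho
    have he : θ = φ := by
      refine Subtype.ext (funext fun z => ?_)
      by_cases hz : ∀ y : G, Cfsg.IsPPart p z y → y ∉ D
      · rw [h2 z hz, k2 z hz]
      · simp only [not_forall, not_not] at hz
        obtain ⟨y, hy, hyD⟩ := hz
        obtain ⟨x, rfl, hc, -, hx⟩ := hy
        rw [h1 ⟨y, hyD⟩ x hx hc, k1 ⟨y, hyD⟩ x hx hc]
    exact he ▸ hφ
  · obtain ⟨φ, hφ, ho⟩ := Cfsg.Agent.H40.exists_mem_overP hM hD hG hB hBD ζ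
    exact ⟨φ, hφ, key φ ζ hφ ho⟩

end Cfsg.Agent.S4714
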