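import Cfsg.Statements.S4513
import Cfsg.Agent.H40.SectionApps
import Cfsg.Agent.H40.FirstMain
import Cfsg.Agent.H38.Linear
import Cfsg.Agent.H32.SubsectionNorm
import Cfsg.Agent.S4714
-- import your own Cfsg.Agent.* helpers here

set_option autoImplicit false
open Cfsg

namespace Cfsg.Agent.S4513

open Cfsg.Agent
open scoped ComplexConjugate

/-- Two blocks of the normaliser with defect group `D` inducing one block coincide. -/
theorem block_unique_aux {G : Type*} [Group G] [Finite G] {p : ℕ} [Fact p.Prime] {M : Ideal Cfsg.AlgInt}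
    [M.IsMaximal] (hM : Cfsg.IsPModular p M) {D : Subgroup G} (hD : IsPGroup p D) {K : Subgroup G}
    (hK : K = Subgroup.normalizer (D : Set G)) {B : Set (Cfsg.IrrCharacter G)}
    {b b' : Set (Cfsg.IrrCharacter K)} (hbD : Cfsg.IsDefectGroup p M b (D.subgroupOf K))
    (hb'D : Cfsg.IsDefectGroup p M b' (D.subgroupOf K))
    (h : Cfsg.IsInducedBlock M K b B) (h' : Cfsg.IsInducedBlock M K b' B) : b = b' := by
  subst hK
  exact H40.inducing_block_unique hM hD hbD hb'D h h'


/-- Blocks of defect one for p = 2. Let M be a maximal ideal of the algebraic integers containing 2, B a 2-block of the finite group G whose defect group is the subgroup generated by an involution x, C = C_G(x), b a block of C inducing B and θ a member of b taking the same value at x as at 1 (there is exactly one). Then B consists of exactly two irreducible characters, which agree on every element of odd order, and they can be labelled χ₁, χ₂ with signs ε₁, ε₂ = ±1, ε₁ε₂ = −1, such that χᵢ(x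 y) = εᵢ θ(y) for every element y of C of odd order. -/
theorem result {G : Type*} [Group G] [Finite G] (M : Ideal Cfsg.AlgInt) (hM : Cfsg.IsPModular 2 M) (x : G) (hx : orderOf x = 2)
    (B : Set (Cfsg.IrrCharacter G)) (hB : Cfsg.IsPBlock M B) (hBD : Cfsg.IsDefectGroup 2 M B (Subgroup.zpowers x))
    (b : Set (Cfsg.IrrCharacter ↥(Subgroup.centralizer ({x} : Set G)))) (hb : Cfsg.IsInducedBlock M (Subgroup.centralizer ({x} : Set G)) b B)
    (θ : Cfsg.IrrCharacter ↥(Subgroup.centralizer ({x} : Set G))) (hθ : θ ∈ b)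
    (hθx : ∀ z : ↥(Subgroup.centralizer ({x} : Set G)), (z : G) = x → (θ : ↥(Subgroup.centralizer ({x} : Set G)) → ℂ) z = (θ : ↥(Subgroup.centralizer ({x} : Set G)) → ℂ) 1) :
    Nat.card B = 2 ∧ (∀ χ ∈ B, ∀ ψ ∈ B, ∀ g : G, ¬ 2 ∣ orderOf g → (χ : G → ℂ) g = (ψ : G → ℂ) g) ∧
      ∃ χ₁ ∈ B, ∃ χ₂ ∈ B, χ₁ ≠ χ₂ ∧ ∃ ε₁ ε₂ : ℤ, (ε₁ = 1 ∨ ε₁ = -1) ∧ (ε₂ = 1 ∨ ε₂ = -1) ∧ ε₁ * ε₂ = -1 ∧
        ∀ y : ↥(Subgroup.centralizer ({x} : Set G)), ¬ 2 ∣ orderOf y →
          (χ₁ : G → ℂ) (x * y) = (ε₁ : ℂ) * (θ : ↥(Subgroup.centralizer ({x} : Set G)) → ℂ) y ∧ (χ₂ : G → ℂ) (x * y) = (ε₂ : ℂ) * (θ : ↥(Subgroup.centralizer ({x} : Set G)) → ℂ) y := by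
  classical
  have : M.IsMaximal := hM.2.1
  have hp2 : Fact (Nat.Prime 2) := ⟨Nat.prime_two⟩
  let : Fintype G := Fintype.ofFinite G
  let K := Subgroup.centralizer ({x} : Set G)
  have hK : K = Subgroup.centralizer ({x} : Set G) := rfl
  let : Fintype K := Fintype.ofFinite _
  have hxK : x ∈ K := Subgroup.mem_centralizer_singleton_iff.2 rfl
  set z : K := ⟨x, hxK⟩ with hz
  let D : Subgroup K := Subgroup.zpowers z
  let : Fintype D := Fintype.ofFinite _
  have hzo : orderOf z = 2 := by rw [← Subgroup.orderOf_coe]; exact hx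
  have hDcard : Nat.card D = 2 := (Nat.card_zpowers z).trans hzo
  have hDp : IsPGroup 2 D := IsPGroup.of_card (n := 1) (by rw [hDcard, pow_one])
  have hxp : ∃ j, orderOf x = 2 ^ j := ⟨1, by rw [hx, pow_one]⟩
  have hzc : ∀ k : K, Commute z k := fun k =>
    Subtype.ext (Subgroup.mem_centralizer_singleton_iff.1 k.2).symm
  have hcent : Subgroup.centralizer (D : Set K) = ⊤ := eq_top_iff.2 fun k _ =>
    Subgroup.mem_centralizer_iff.2 fun y hy => by
      obtain ⟨i, rfl⟩ := hy
      exact ((hzc k).zpow_left i).eq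
  have hGK : D ⊔ Subgroup.centralizer (D : Set K) = ⊤ := by rw [hcent, sup_top_eq]
  have hDn : D.Normal := ⟨fun y hy k => by
    obtain ⟨i, rfl⟩ := hy
    exact ⟨i, by simp only [((hzc k).zpow_left i).symm.eq, mul_inv_cancel_right]⟩⟩
  have hDx : (Subgroup.zpowers x).subgroupOf K = D := by
    rw [show Subgroup.zpowers x = D.map K.subtype from (MonoidHom.map_zpowers K.subtype z).symm]
    exact Subgroup.comap_map_eq_self_of_injective K.subtype_injective D
  have hBcard : Nat.card (Subgroup.zpowers x) = 2 := (Nat.card_zpowers x).trans hx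
  have hdefB : Cfsg.blockDefect 2 B = 1 := by
    have := H40.card_defectGroup hM hB hBD
    rw [hBcard] at this
    exact (Nat.pow_right_injective le_rfl (by simpa using this)).symm
  have hnorm : K = Subgroup.normalizer ((Subgroup.zpowers x : Subgroup G) : Set G) := by
    refine le_antisymm ?_ fun g hg => ?_
    · intro g hg
      refine Subgroup.mem_normalizer_iff.2 fun y => ?_
      have hc : Commute g x := Subgroup.mem_centralizer_singleton_iff.1 hg
      constructor
      · rintro ⟨i, rfl⟩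
        exact ⟨i, by simp only [(hc.zpow_right i).eq, mul_inv_cancel_right]⟩
      · rintro ⟨i, hi⟩
        refine ⟨i, ?_⟩
        have : y = g⁻¹ * x ^ i * g := by rw [show x ^ i = _ from hi]; group
        rw [this]
        show x ^ i = _
        rw [mul_assoc, ← (hc.zpow_right i).eq, inv_mul_cancel_left]
    · have h1 := (Subgroup.mem_normalizer_iff.1 hg x).1 (Subgroup.mem_zpowers x)
      rw [mem_zpowers_iff_mem_range_orderOf, hx] at h1
      simp only [Finset.mem_image, Finset.mem_range] at h1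
      obtain ⟨i, hi, hgx⟩ := h1
      interval_cases i
      · rw [pow_zero] at hgx
        have : x = 1 := by
          simpa [mul_assoc] using congrArg (fun w => g⁻¹ * w * g) hgx.symm
        rw [this, orderOf_one] at hx
        omega
      · rw [pow_one] at hgx
        rw [hK, Subgroup.mem_centralizer_singleton_iff]
        calc g * x = (g * x * g⁻¹) * g := by group
          _ = x * g := by rw [← hgx]
  -- every block of `K` inducing `B` has defect group `D`
  have hdef : ∀ b', Cfsg.IsInducedBlock M K b' B → Cfsg.IsDefectGroup 2 M b' D := by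
    intro b' hb'
    obtain ⟨E, hE⟩ := H40.exists_isDefectGroup hM hb'.1
    obtain ⟨E', hE', hEE'⟩ := H40.exists_defectGroup_ge_of_isInducedBlock hM hb' hE
    have hle : D ≤ E := H40.normal_le_defectGroup hM hb'.1 hE hDp
    have hc : Nat.card E ≤ Nat.card D := by
      rw [← Subgroup.card_map_of_injective K.subtype_injective (K := E), hDcard]
      refine (Subgroup.card_le_of_le hEE').trans_eq ?_
      rw [H40.card_defectGroup hM hB hE', hdefB, pow_one]
    exact (Subgroup.eq_of_le_of_card_ge hle hc) ▸ hE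
  have hbD : Cfsg.IsDefectGroup 2 M b D := hdef b hb
  have huniq : ∀ b', Cfsg.IsInducedBlock M K b' B → b' = b := fun b' hb' =>
    block_unique_aux hM (IsPGroup.of_card (n := 1) (by rw [hBcard, pow_one])) hnorm
      (hDx.symm ▸ hdef b' hb') (hDx.symm ▸ hbD) hb' hb
  have hset : H40.inducingSet M x B = b := by
    ext ψ
    constructor
    · intro hψ
      exact huniq _ hψ ▸ H41.mem_blockOf_self ψ
    · intro hψ
      show Cfsg.IsInducedBlock M K (Cfsg.blockOf M (ψ : K → ℂ)) B
      rwa [← H41.eq_blockOf_of_mem hb.1 hψ]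
  -- members of `b`
  have hθD : ∀ y ∈ D, (θ : K → ℂ) y = (θ : K → ℂ) 1 := by
    intro y hy
    rw [show D = Subgroup.zpowers z from rfl, mem_zpowers_iff_mem_range_orderOf, hzo] at hy
    simp only [Finset.mem_image, Finset.mem_range] at hy
    obtain ⟨i, hi, rfl⟩ := hy
    interval_cases i
    · rw [pow_zero]
    · rw [pow_one]; exact hθx z rfl
  have hmemb := (S4714.result 2 M hM D hDp hGK b hb.1 hbD θ hθ hθD).1
  have hψval : ∀ ψ ∈ b, ∃ ε : ℤ, ∀ s : K, ¬ 2 ∣ orderOf s →
      (ψ : K → ℂ) (z * s) = (ε : ℂ) * (θ : K → ℂ) s := by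
    intro ψ hψ
    obtain ⟨ζ, hζ, -⟩ := (hmemb ψ).1 hψ
    have hζ1 : (ζ : D → ℂ) 1 = 1 := H26.comm_iff_forall_irr_one.1 (fun a c => by
      obtain ⟨i, hi⟩ := a.2
      obtain ⟨j, hj⟩ := c.2
      apply Subtype.ext
      rw [Subgroup.coe_mul, Subgroup.coe_mul, ← hi, ← hj]
      exact ((Commute.refl z).zpow_zpow i j).eq) ζ
    obtain ⟨f, hf⟩ := H38.exists_hom_of_linear (H26.irr_isCharacter ζ) hζ1
    let zD : D := ⟨z, Subgroup.mem_zpowers z⟩
    have hsq : (f zD : ℂ) * (f zD : ℂ) = 1 := by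
      rw [← Units.val_mul, ← map_mul, show zD * zD = 1 from Subtype.ext (by
        rw [Subgroup.coe_mul, OneMemClass.coe_one, ← pow_two, ← hzo, pow_orderOf_eq_one]), map_one,
        Units.val_one]
    have hv : ∀ s : K, ¬ 2 ∣ orderOf s →
        (ψ : K → ℂ) (z * s) = (f zD : ℂ) * (θ : K → ℂ) s := fun s hs => by
      have := hζ zD s hs (hzc s)
      rwa [hf] at this
    rcases mul_self_eq_one_iff.1 hsq with h | h
    · exact ⟨1, fun s hs => by rw [hv s hs, h, Int.cast_one]⟩
    · exact ⟨-1, fun s hs => by rw [hv s hs, h, Int.cast_neg, Int.cast_one]⟩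
  choose ε hε using hψval
  -- values on the section of `x`
  have hsec : ∀ χ : Cfsg.IrrCharacter G, ∃ a : ℤ, χ ∈ B → ∀ s : K, ¬ 2 ∣ orderOf s →
      (χ : G → ℂ) (x * s) = (a : ℂ) * (θ : K → ℂ) s := by
    intro χ
    refine ⟨∑ ψ ∈ Finset.univ.filter (· ∈ b),
      if h : ψ ∈ b then (H43.mult (fun c : K => (χ : G → ℂ) c) ψ : ℤ) * ε ψ h else 0,
      fun hχ s hs => ?_⟩
    have hch : Cfsg.IsCharacter K (fun c : K => (χ : G → ℂ) c) :=
      H26.isCharacter_comp (H26.irr_isCharacter χ) K.subtype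
    have hpp : Cfsg.IsPPart 2 ((z * s : K) : G) x :=
      H40.isPPart_mul (congrArg Subtype.val (hzc s).eq) (by rw [hx, pow_one])
        (by rwa [Subgroup.orderOf_coe])
    have h1 := H40.sum_inducingSet_mul hM hxp hB hpp χ
    rw [if_pos hχ, hset] at h1
    have h2 := H40.blockPart_eq_sum b (H26.isClassFunction_of_isCharacter hch) (z * s)
    rw [H32.blockPart_eq_sum] at h2
    simp only [Subgroup.coe_mul] at h1 h2
    rw [h1] at h2
    rw [← h2, Int.cast_sum, Finset.sum_mul]
    refine Finset.sum_congr rfl fun ψ hψ => ?_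
    rw [dif_pos (Finset.mem_filter.1 hψ).2, H43.classInner_eq_mult hch,
      hε ψ (Finset.mem_filter.1 hψ).2 s hs]
    push_cast
    ring
  choose a ha using hsec
  have h1reg : ¬ 2 ∣ orderOf (1 : K) := by simp
  have hval : ∀ χ ∈ B, (χ : G → ℂ) x = (a χ : ℂ) * (θ : K → ℂ) 1 := fun χ hχ => by
    have := ha χ hχ 1 h1reg
    rwa [OneMemClass.coe_one, mul_one] at this
  have hθ1 : (θ : K → ℂ) 1 ≠ 0 := H26.irr_one_ne_zero θ
  have hθreal : conj ((θ : K → ℂ) 1) = (θ : K → ℂ) 1 := by
    rw [H43.irr_charDegree_spec, Complex.conj_natCast]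
  -- the norm of the column of `x`
  have hb2 : ∑ ψ ∈ Finset.univ.filter (· ∈ b), (ψ : K → ℂ) 1 * conj ((ψ : K → ℂ) 1) =
      2 * ((θ : K → ℂ) 1 * conj ((θ : K → ℂ) 1)) := by
    have hover : H40.OverP θ (H26.oneIrr D) := fun y => by
      rw [H26.oneIrr_val, H26.oneIrr_val, div_one, hθD y y.2, div_self hθ1]
    have h := H40.sum_overP_eq hM hDp hGK hb.1 hbD (H26.oneIrr D) (s := 1) (t := 1) h1reg h1reg
    rw [Finset.sum_eq_single θ, H26.oneIrr_val, one_mul, one_mul, hDcard] at h
    · exact h.symm.trans (by norm_num)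
    · intro φ hφ hne
      obtain ⟨-, hφb, hφo⟩ := Finset.mem_filter.1 hφ
      exact absurd (H40.overP_one_unique hM hDp hGK hb.1 hbD hφb hθ hφo hover) hne
    · intro hn
      exact absurd (Finset.mem_filter.2 ⟨Finset.mem_univ _, hθ, hover⟩) hn
  have hsum : ∑ χ ∈ Finset.univ.filter (· ∈ B), a χ * a χ = 2 := by
    have e1 : ∑ χ ∈ Finset.univ.filter (· ∈ B), (χ : G → ℂ) x * conj ((χ : G → ℂ) x) =
        ∑ χ : Cfsg.IrrCharacter G,
          (∑ k : K, Cfsg.blockCoeff b k * (χ : G → ℂ) ((k : G) * x)) * conj ((χ : G → ℂ) x) := by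
      rw [Finset.sum_filter]
      refine Finset.sum_congr rfl fun χ _ => ?_
      have hpp : Cfsg.IsPPart 2 ((z : K) : G) x := ⟨1, mul_one x, Commute.one_right x, hxp, by simp⟩
      have h := H40.sum_inducingSet_mul hM hxp hB hpp χ
      rw [hset] at h
      rw [h]
      split <;> simp [hz]
    have e2 : ∑ k : K, Cfsg.blockCoeff b k *
        ∑ χ : Cfsg.IrrCharacter G, (χ : G → ℂ) ((k : G) * x) * conj ((χ : G → ℂ) x) =
          Cfsg.blockCoeff b 1 * (Nat.card K : ℂ) := by
      rw [Finset.sum_eq_single (1 : K) ?_ (fun h => absurd (Finset.mem_univ _) h)]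
      · rw [H26.column_orthogonality, H26.classIndicator, if_pos (by simp only [OneMemClass.coe_one, one_mul, IsConj.refl]), mul_one]
      · intro k _ hk
        by_cases hreg : 2 ∣ orderOf k
        · rw [H40.blockCoeff_eq_zero_of_singular hM hb.1 hreg, zero_mul]
        rw [H26.column_orthogonality, H26.classIndicator, if_neg, mul_zero, mul_zero]
        intro hc
        obtain ⟨c, hcc⟩ := isConj_iff.1 hc
        have hkx : Commute x (k : G) := congrArg Subtype.val (hzc k).eq
        have ho : orderOf ((k : G) * x) = 2 :=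
          (MulEquiv.orderOf_eq (MulAut.conj c) _).symm.trans ((congrArg orderOf hcc).trans hx)
        have h1 : Cfsg.IsPPart 2 ((k : G) * x) x := by
          rw [← hkx.eq]
          exact H40.isPPart_mul hkx (by rw [hx, pow_one]) (by rwa [Subgroup.orderOf_coe])
        have h2 : Cfsg.IsPPart 2 ((k : G) * x) ((k : G) * x) :=
          ⟨1, mul_one _, Commute.one_right _, ⟨1, by rw [ho, pow_one]⟩, by simp⟩
        exact hk (Subtype.ext (mul_eq_right.1 (H40.isPPart_unique h2 h1)))
    have e3 : Cfsg.blockCoeff b (1 : K) * (Nat.card K : ℂ) =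
        2 * ((θ : K → ℂ) 1 * conj ((θ : K → ℂ) 1)) := by
      rw [← hb2, H40.blockCoeff_eq_sum, mul_comm, ← mul_assoc,
        mul_inv_cancel₀ (Nat.cast_ne_zero.2 Nat.card_pos.ne'), one_mul]
    simp only [Finset.sum_mul] at e1
    rw [Finset.sum_comm] at e1
    simp only [mul_assoc, ← Finset.mul_sum] at e1
    rw [e2, e3, Finset.sum_congr rfl fun χ hχ => show _ = ((a χ * a χ : ℤ) : ℂ) *
      ((θ : K → ℂ) 1 * conj ((θ : K → ℂ) 1)) by
        rw [hval χ (Finset.mem_filter.1 hχ).2, map_mul, map_intCast]; push_cast; ring,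
      ← Finset.sum_mul, ← Int.cast_sum] at e1
    have := mul_right_cancel₀ (mul_ne_zero hθ1 (by rw [hθreal]; exact hθ1)) e1
    exact_mod_cast this
  -- no member vanishes on the section
  have hne : ∀ χ ∈ B, a χ ≠ 0 := by
    intro χ hχ h0
    have hBeq := H41.eq_blockOf_of_mem hB hχ
    have hv : ∀ g : G, g ≠ 1 → (∃ j, orderOf g = 2 ^ j) → (χ : G → ℂ) g = 0 := by
      intro g hg hgo
      by_contra hne
      have hpp : Cfsg.IsPPart 2 g g := ⟨1, mul_one g, Commute.one_right g, hgo, by simp⟩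
      obtain ⟨E, hE, hgE⟩ : ∃ E, Cfsg.IsDefectGroup 2 M B E ∧ g ∈ E := by
        by_contra hno
        exact hne (H40.eq_zero_of_pPart_notMem_defectGroup hM χ hpp
          fun E hE hgE => hno ⟨E, hBeq ▸ hE, hgE⟩)
      obtain ⟨u, hu⟩ := H40.subConj_defectGroup hM hB hE hBD
      have hgu : u⁻¹ * g * u ∈ Subgroup.zpowers x := hu (by
        rw [H23.mem_rconj]; simpa [mul_assoc] using hgE)
      rw [mem_zpowers_iff_mem_range_orderOf, hx] at hgu
      simp only [Finset.mem_image, Finset.mem_range] at hgu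
      obtain ⟨i, hi, hgu⟩ := hgu
      interval_cases i
      · exact hg (by simpa [mul_assoc] using congrArg (fun w => u * w * u⁻¹) hgu.symm)
      · rw [pow_one] at hgu
        refine hne ?_
        rw [show g = u * x * u⁻¹ by rw [hgu]; group, H26.irr_conj, hval χ hχ, h0, Int.cast_zero,
          zero_mul]
    have hfac := H40.factorization_eq_of_vanish χ hv
    have hsingle := H40.blockOf_eq_singleton hM χ hfac.ge
    rw [Cfsg.blockDefect, hBeq, hsingle, Set.image_singleton, csInf_singleton, hfac, Nat.sub_self]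
      at hdefB
    omega
  have hsq : ∀ χ ∈ Finset.univ.filter (· ∈ B), (1 : ℤ) ≤ a χ * a χ := fun χ hχ => by
    have := hne χ (Finset.mem_filter.1 hχ).2
    nlinarith [mul_self_pos.2 this]
  have hcard2 : (Finset.univ.filter (· ∈ B)).card ≤ 2 := by
    have := Finset.card_nsmul_le_sum _ _ _ hsq
    rw [hsum, nsmul_eq_mul, mul_one] at this
    exact_mod_cast this
  have horth : ∀ g : G, ¬ 2 ∣ orderOf g →
      ∑ χ ∈ Finset.univ.filter (· ∈ B), (χ : G → ℂ) g * (a χ : ℂ) = 0 := by
    intro g hg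
    have h2x : 2 ∣ orderOf x := by rw [hx]
    have h := H40.sum_block_mul_conj_eq_zero hM hB hg (y := x) h2x
    rw [Finset.sum_congr rfl fun (χ : Cfsg.IrrCharacter G) hχ => show _ = (χ : G → ℂ) g * (a χ : ℂ) *
      conj ((θ : K → ℂ) 1) by
        rw [hval χ (Finset.mem_filter.1 hχ).2, map_mul, map_intCast, mul_assoc],
      ← Finset.sum_mul] at h
    exact (mul_eq_zero.1 h).resolve_right (by rw [hθreal]; exact hθ1)
  have h1G : ¬ 2 ∣ orderOf (1 : G) := by simp
  have hcard : (Finset.univ.filter (· ∈ B)).card = 2 := by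
    obtain ⟨χ, hχ⟩ := H41.IsPBlock.nonempty hB
    have hmem : χ ∈ Finset.univ.filter (· ∈ B) := Finset.mem_filter.2 ⟨Finset.mem_univ _, hχ⟩
    rcases Nat.lt_or_eq_of_le hcard2 with h | h
    · exfalso
      obtain ⟨c, hc⟩ := Finset.card_eq_one.1 (by have := Finset.card_pos.2 ⟨χ, hmem⟩; omega :
        (Finset.univ.filter (· ∈ B)).card = 1)
      rw [hc, Finset.sum_singleton] at hsum
      have hb' : a c ≤ 1 ∧ -1 ≤ a c := by constructor <;> nlinarith
      have : a c = -1 ∨ a c = 0 ∨ a c = 1 := by omega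
      rcases this with e | e | e <;> rw [e] at hsum <;> omega
    · exact h
  obtain ⟨χ₁, χ₂, h12, hBs⟩ := Finset.card_eq_two.1 hcard
  have hB₁ : χ₁ ∈ B := by
    have : χ₁ ∈ Finset.univ.filter (· ∈ B) := hBs ▸ Finset.mem_insert_self _ _
    exact (Finset.mem_filter.1 this).2
  have hB₂ : χ₂ ∈ B := by
    have : χ₂ ∈ Finset.univ.filter (· ∈ B) :=
      hBs ▸ Finset.mem_insert_of_mem (Finset.mem_singleton_self _)
    exact (Finset.mem_filter.1 this).2
  rw [hBs, Finset.sum_pair h12] at hsum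
  have hunit : ∀ c d : ℤ, c ≠ 0 → d ≠ 0 → c * c + d * d = 2 → c = 1 ∨ c = -1 := by
    intro c d hc hd h
    have := mul_self_pos.2 hd
    have h1 : c ≤ 1 ∧ -1 ≤ c := by constructor <;> nlinarith
    omega
  have e₁ := hunit _ _ (hne _ hB₁) (hne _ hB₂) hsum
  have e₂ := hunit _ _ (hne _ hB₂) (hne _ hB₁) (by rwa [add_comm])
  have hpair : ∀ g : G, ¬ 2 ∣ orderOf g →
      (χ₁ : G → ℂ) g * (a χ₁ : ℂ) + (χ₂ : G → ℂ) g * (a χ₂ : ℂ) = 0 := by
    intro g hg
    have := horth g hg
    rwa [hBs, Finset.sum_pair h12] at this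
  have hprod : a χ₁ * a χ₂ = -1 := by
    have h := hpair 1 h1G
    rw [H43.irr_charDegree_spec, H43.irr_charDegree_spec] at h
    have h' : (Cfsg.charDegree (χ₁ : G → ℂ) : ℤ) * a χ₁ +
        (Cfsg.charDegree (χ₂ : G → ℂ) : ℤ) * a χ₂ = 0 := by exact_mod_cast h
    have := H43.irr_charDegree_pos χ₁
    have := H43.irr_charDegree_pos χ₂
    rcases e₁ with e | e <;> rcases e₂ with e' | e' <;> rw [e, e'] at h' ⊢ <;> omega
  have heq : ∀ g : G, ¬ 2 ∣ orderOf g → (χ₁ : G → ℂ) g = (χ₂ : G → ℂ) g := by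
    intro g hg
    have h := hpair g hg
    have h2 : (a χ₂ : ℂ) = -(a χ₁ : ℂ) := by
      rcases e₁ with e | e <;> rcases e₂ with e' | e' <;> rw [e, e'] at hprod <;>
        first | omega | (rw [e, e']; norm_num)
    rw [h2, mul_neg, ← sub_eq_add_neg, ← sub_mul] at h
    exact sub_eq_zero.1 ((mul_eq_zero.1 h).resolve_right (Int.cast_ne_zero.2 (hne _ hB₁)))
  have htwo : ∀ χ ∈ B, χ = χ₁ ∨ χ = χ₂ := fun χ hχ => by
    have : χ ∈ ({χ₁, χ₂} : Finset _) := hBs ▸ Finset.mem_filter.2 ⟨Finset.mem_univ _, hχ⟩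
    simpa using this
  refine ⟨?_, ?_, χ₁, hB₁, χ₂, hB₂, h12, a χ₁, a χ₂, e₁, e₂, hprod,
    fun y hy => ⟨ha χ₁ hB₁ y hy, ha χ₂ hB₂ y hy⟩⟩
  · rw [← hcard, ← Fintype.card_subtype, ← Nat.card_eq_fintype_card]
  · intro χ hχ ψ hψ g hg
    rcases htwo χ hχ with rfl | rfl <;> rcases htwo ψ hψ with rfl | rfl
    · rfl
    · exact heq g hg
    · exact (heq g hg).symm
    · rfl

end Cfsg.Agent.S4513
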