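import Cfsg.Agent.H22.PairExtra
import Cfsg.Agent.H22.PairPiKernel
import Mathlib.NumberTheory.Multiplicity
import Cfsg.Statements.S4633

set_option autoImplicit false
open Cfsg

namespace Cfsg.Agent.S4633

/-- Let B be a block of the finite group G relative to a maximal ideal M of the algebraic integers containing the prime p, with a nontrivial cyclic defect group P. Let c be a block of C_G(P) inducing B and T the stabilizer of c in N_G(P) (the elements of N_G(P) conjugating c to itself); T contains C_G(P). Then T/C_G(P) is cyclic of order dividing p − 1, and it acts freely on the non-identity elements of P: an element of T fixing some non-identity element of P under conjugation lies in C_G(P). -/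
theorem result {G : Type*} [Group G] [Finite G] (p : ℕ) [Fact p.Prime] (M : Ideal Cfsg.AlgInt) (hM : Cfsg.IsPModular p M) (B : Set (Cfsg.IrrCharacter G)) (hB : Cfsg.IsPBlock M B) (P : Subgroup G) (hPD : Cfsg.IsDefectGroup p M B P) (hP1 : P ≠ ⊥) (hcyc : IsCyclic P) (c : Set (Cfsg.IrrCharacter (Subgroup.centralizer (P : Set G)))) (hc : Cfsg.IsInducedBlock M (Subgroup.centralizer (P : Set G)) c B) (T : Subgroup G) (hT : ∀ g : G, g ∈ T ↔ (g ∈ Subgroup.normalizer (P : Set G) ∧ Cfsg.StabilizesBlock (Subgroup.centralizer (P : Set G)) c g)) [hn : ((Subgroup.centralizer (P : Set G)).subgroupOf T).Normal] : IsCyclic (T ⧸ (Subgroup.centralizer (P : Set G)).subgroupOf T) ∧ (Subgroup.centralizer (P : Set G)).relIndex T ∣ p - 1 ∧ ∀ g ∈ T, ∀ x ∈ P, x ≠ 1 → g * x * g⁻¹ = x → g ∈ Subgroup.centralizer (P : Set G) := by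
  have := hM.2.1
  have := Cfsg.Agent.H41.IsPModular.charP hM
  classical
  have hS := H22.split M G
  have hPp : IsPGroup p P := Cfsg.Agent.H40.isPGroup_of_isDefectGroup hPD
  have hab : ∀ x ∈ P, ∀ y ∈ P, x * y = y * x := fun x hx y hy => by
    letI := hcyc.commGroup
    exact congrArg Subtype.val (mul_comm (⟨x, hx⟩ : P) ⟨y, hy⟩)
  have hPC : P ≤ Subgroup.centralizer (P : Set G) := fun y hy =>
    Subgroup.mem_centralizer_iff.2 fun q hq => hab q hq y hy
  set g := H22.el M (Subgroup.centralizer (P : Set G)) c with hg_def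
  have hg : H22.IsBlockEl (Subgroup.centralizer (P : Set G)) g := H22.isBlockEl_el hc.1
  have hgb : H22.Below (H22.elTop M B) (P, g) := H22.below_elTop_of_induced hc hPp hPC le_rfl hg
    (show H22.cut _ g * g = g by rw [H22.cut_of_supp hg.cent.supp, hg.idem])
  have hb := H22.isBlockEl_elTop hB
  have hm : H22.IsMaxEl p ⊤ (H22.elTop M B) (P, g) :=
    H22.isMaxEl_of_isDefEl (a := (P, g)) ⟨le_top, hPp, by rw [H22.cen_top]; exact hg⟩ hgb
      ((H22.isDefectGroup_top_iff hM hB).1 hPD)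
  have hTe := H22.eq_pairStab (M := M) hc.1 hT
  -- the subgroup of order `p`
  obtain ⟨m, hcard⟩ := IsPGroup.iff_card.1 hPp
  have hm0 : m ≠ 0 := by
    rintro rfl
    exact hP1 (Subgroup.card_eq_one.1 (by simpa using hcard))
  obtain ⟨z, hz⟩ := exists_prime_orderOf_dvd_card' (G := P) p (hcard ▸ dvd_pow_self p hm0)
  set Ω : Subgroup G := Subgroup.zpowers (z : G) with hΩ
  have hzord : orderOf (z : G) = p := by rw [Subgroup.orderOf_coe, hz]
  have hΩcard : Nat.card Ω = p := by rw [hΩ, Nat.card_zpowers, hzord]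
  have : Fintype P := Fintype.ofFinite P
  have huniq : ∀ a ∈ P, a ^ p = 1 → a ∈ Ω := by
    intro a ha hap
    have h1 : (Subgroup.zpowers z : Set P).toFinset = Finset.univ.filter (fun y : P => y ^ p = 1) := by
      refine Finset.eq_of_subset_of_card_le (fun y hy => ?_) ?_
      · rw [Set.mem_toFinset, SetLike.mem_coe] at hy
        obtain ⟨i, rfl⟩ := Subgroup.mem_zpowers_iff.1 hy
        refine Finset.mem_filter.2 ⟨Finset.mem_univ _, ?_⟩
        rw [← zpow_natCast, ← zpow_mul, mul_comm, zpow_mul, zpow_natCast]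
        simp [← hz, pow_orderOf_eq_one]
      · refine (IsCyclic.card_pow_eq_one_le (Fact.out : p.Prime).pos).trans (le_of_eq ?_)
        rw [Set.toFinset_card, ← Nat.card_eq_fintype_card]
        exact (Nat.card_zpowers z).trans hz |>.symm
    have h2 : (⟨a, ha⟩ : P) ∈ Finset.univ.filter (fun y : P => y ^ p = 1) :=
      Finset.mem_filter.2 ⟨Finset.mem_univ _, Subtype.ext hap⟩
    rw [← h1, Set.mem_toFinset] at h2
    obtain ⟨i, hi⟩ := Subgroup.mem_zpowers_iff.1 h2
    exact Subgroup.mem_zpowers_iff.2 ⟨i, by rw [← Subgroup.coe_zpow, hi]⟩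
  have hTΩ : T ≤ Subgroup.normalizer (Ω : Set G) := by
    intro t ht
    refine H22.mem_normalizer_of_cS (Subgroup.eq_of_le_of_card_ge ?_ (H22.card_cS _ _).ge)
    rintro _ ⟨a, ha, rfl⟩
    have haP : a ∈ P := Subgroup.zpowers_le.2 z.2 ha
    refine huniq _ ((Subgroup.mem_normalizer_iff.1 ((hT t).1 ht).1 a).1 haP) ?_
    show (t * a * t⁻¹) ^ p = 1
    have hap : a ^ p = 1 := by
      obtain ⟨i, rfl⟩ := Subgroup.mem_zpowers_iff.1 ha
      rw [← zpow_natCast, ← zpow_mul, mul_comm, zpow_mul, zpow_natCast]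
      rw [← hzord, pow_orderOf_eq_one, one_zpow]
    rw [conj_pow, hap, mul_one, mul_inv_cancel]
  -- the kernel on it
  have hker : ∀ t ∈ T, t * (z : G) * t⁻¹ = (z : G) → t ∈ Subgroup.centralizer (P : Set G) := by
    intro t ht htz
    have htN := ((hT t).1 ht).1
    obtain ⟨⟨γ, hγP⟩, hγ⟩ := hcyc.exists_generator
    have hgen : ∀ y ∈ P, ∃ i : ℤ, y = γ ^ i := fun y hy => by
      obtain ⟨i, hi⟩ := Subgroup.mem_zpowers_iff.1 (hγ ⟨y, hy⟩)
      exact ⟨i, by simpa using (congrArg Subtype.val hi).symm⟩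
    obtain ⟨r, hr⟩ := hgen _ ((Subgroup.mem_normalizer_iff.1 htN γ).1 hγP)
    obtain ⟨j, hj⟩ := hgen _ z.2
    have hord : orderOf γ = p ^ m := by
      rw [← hcard, ← Subgroup.orderOf_mk γ hγP, orderOf_eq_card_of_forall_mem_zpowers hγ]
    have hpr : (p : ℤ) ∣ r - 1 := by
      by_contra hnd
      have h1 : γ ^ (j * (r - 1)) = 1 := by
        rw [mul_sub, mul_one, zpow_sub, mul_comm j r, zpow_mul, ← hr, conj_zpow, ← hj, htz,
          mul_inv_cancel]
      rw [← orderOf_dvd_iff_zpow_eq_one, hord, Nat.cast_pow] at h1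
      have h2 : (p : ℤ) ^ m ∣ j :=
        (Nat.prime_iff_prime_int.1 Fact.out).pow_dvd_of_dvd_mul_right m hnd h1
      have h3 : (z : G) = 1 := by
        rw [hj, ← orderOf_dvd_iff_zpow_eq_one, hord, Nat.cast_pow]
        exact h2
      rw [h3, orderOf_one] at hzord
      exact (Fact.out : p.Prime).ne_one hzord.symm
    have hpow : ∀ i : ℕ, t ^ i * γ * (t ^ i)⁻¹ = γ ^ (r ^ i) := by
      intro i
      induction i with
      | zero => simp
      | succ i ih =>
        rw [show t ^ (i + 1) * γ * (t ^ (i + 1))⁻¹ = t * (t ^ i * γ * (t ^ i)⁻¹) * t⁻¹ by group, ih,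
          ← conj_zpow, hr, ← zpow_mul, pow_succ' r i]
    refine H22.mem_centralizer_of_pow hS hb hm hab (hTe ▸ ht) (a := m)
      (Subgroup.mem_centralizer_iff.2 fun y hy => ?_)
    obtain ⟨i, rfl⟩ := hgen y hy
    have h2 : γ ^ ((r : ℤ) ^ p ^ m) = γ := by
      have h3 : ((p ^ m : ℕ) : ℤ) ∣ r ^ p ^ m - 1 := by
        have := dvd_sub_pow_of_dvd_sub (R := ℤ) (p := p) (b := 1) hpr m
        rw [one_pow] at this
        push_cast
        exact (dvd_mul_right _ _).trans (pow_succ (p : ℤ) m ▸ this)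
      rw [← hord] at h3 ⊢
      rw [orderOf_dvd_iff_zpow_eq_one, zpow_sub, zpow_one, mul_inv_eq_one] at h3
      exact h3
    have h3 : t ^ p ^ m * γ ^ i * (t ^ p ^ m)⁻¹ = γ ^ i := by rw [← conj_zpow, hpow, h2]
    calc γ ^ i * t ^ p ^ m = (t ^ p ^ m * γ ^ i * (t ^ p ^ m)⁻¹) * t ^ p ^ m := by rw [h3]
      _ = t ^ p ^ m * γ ^ i := by group
  -- the embedding of the inertial quotient
  let ι : T →* MulAut Ω := (Subgroup.normalizerMonoidHom Ω).comp (Subgroup.inclusion hTΩ)
  have hι : ∀ t : T, ι t = 1 ↔ t ∈ (Subgroup.centralizer (P : Set G)).subgroupOf T := by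
    intro t
    have hk : ι t = 1 ↔ (t : G) ∈ Subgroup.centralizer (Ω : Set G) := by
      rw [← MonoidHom.mem_ker, ← MonoidHom.comap_ker, Subgroup.mem_comap,
        Subgroup.normalizerMonoidHom_ker, Subgroup.mem_subgroupOf, Subgroup.coe_inclusion]
    rw [hk, Subgroup.mem_subgroupOf]
    refine ⟨fun h => hker t t.2 ?_, fun h => Subgroup.centralizer_le
      (SetLike.coe_subset_coe.2 (Subgroup.zpowers_le.2 z.2)) h⟩
    rw [← Subgroup.mem_centralizer_iff.1 h z (Subgroup.mem_zpowers _), mul_inv_cancel_right]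
  set N := (Subgroup.centralizer (P : Set G)).subgroupOf T with hN
  let κ : T ⧸ N →* MulAut Ω := QuotientGroup.lift N ι fun t ht => (hι t).2 ht
  have hκ : Function.Injective κ := by
    rw [injective_iff_map_eq_one]
    intro q hq
    obtain ⟨t, rfl⟩ := QuotientGroup.mk'_surjective N q
    exact (QuotientGroup.eq_one_iff t).2 ((hι t).1 hq)
  have : IsCyclic Ω := by rw [hΩ]; infer_instance
  have hcycA : IsCyclic (MulAut Ω) := by
    have e := IsCyclic.mulAutMulEquiv Ω
    rw [hΩcard] at e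
    exact isCyclic_of_injective e.toMonoidHom e.injective
  refine ⟨isCyclic_of_injective κ hκ, ?_, ?_⟩
  · have h := Subgroup.card_dvd_of_injective κ hκ
    rw [IsCyclic.card_mulAut, hΩcard, Nat.totient_prime Fact.out] at h
    exact h
  · intro t ht x hx hx1 htx
    refine hker t ht ?_
    obtain ⟨j, hj⟩ := IsPGroup.iff_orderOf.1 hPp ⟨x, hx⟩
    rw [Subgroup.orderOf_mk] at hj
    have hj0 : j ≠ 0 := by
      rintro rfl
      exact hx1 (orderOf_eq_one_iff.1 (by simpa using hj))
    set y := x ^ p ^ (j - 1) with hy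
    have hyord : orderOf y = p := by
      rw [hy, orderOf_pow_of_dvd (pow_ne_zero _ (Fact.out : p.Prime).ne_zero)
        (hj ▸ pow_dvd_pow p (Nat.sub_le j 1)), hj, Nat.pow_div (Nat.sub_le j 1) (Fact.out : p.Prime).pos,
        Nat.sub_sub_self (Nat.one_le_iff_ne_zero.2 hj0), pow_one]
    have hyΩ : Subgroup.zpowers y = Ω := Subgroup.eq_of_le_of_card_ge
      (Subgroup.zpowers_le.2 (huniq y (pow_mem hx _) (hyord ▸ pow_orderOf_eq_one y)))
      (by rw [hΩcard, Nat.card_zpowers, hyord])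
    have hzy : (z : G) ∈ Subgroup.zpowers y := hyΩ ▸ Subgroup.mem_zpowers _
    obtain ⟨i, hi⟩ := Subgroup.mem_zpowers_iff.1 hzy
    rw [← hi, ← conj_zpow, hy, ← conj_pow, htx]

end Cfsg.Agent.S4633
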