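import Cfsg.Statements.S4634
import Cfsg.Agent.H57.Cyclic.Main
import Cfsg.Agent.H22.PairNilpotentDict

set_option autoImplicit false
open Cfsg Cfsg.Agent

namespace Cfsg.Agent.S4634

/-- Let B be a block of the finite group G relative to a maximal ideal M of the algebraic integers containing the prime p, with a nontrivial cyclic defect group P, let c be a block of C_G(P) inducing B, T the stabilizer of c in N_G(P) and e the index of C_G(P) in T. Let F be any finite group of order #P · e having a cyclic subgroup Q of order #P that is its own centralizer (F is then the semidirect product of Q by a cyclic group of order e acting faithfully). Then there is a perfect isometry from the set of all irreducible characters of F onto B whose signs agree on all the characters of F that do not contain Q in their kernel. -/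
theorem result {G : Type*} [Group G] [Finite G] (p : ℕ) [Fact p.Prime] (M : Ideal Cfsg.AlgInt) (hM : Cfsg.IsPModular p M) (B : Set (Cfsg.IrrCharacter G)) (hB : Cfsg.IsPBlock M B) (P : Subgroup G) (hPD : Cfsg.IsDefectGroup p M B P) (hP1 : P ≠ ⊥) (hcyc : IsCyclic P) (c : Set (Cfsg.IrrCharacter (Subgroup.centralizer (P : Set G)))) (hc : Cfsg.IsInducedBlock M (Subgroup.centralizer (P : Set G)) c B) (T : Subgroup G) (hT : ∀ g : G, g ∈ T ↔ (g ∈ Subgroup.normalizer (P : Set G) ∧ Cfsg.StabilizesBlock (Subgroup.centralizer (P : Set G)) c g)) (e : ℕ) (he : (Subgroup.centralizer (P : Set G)).relIndex T = e) (F : Type*) [Group F] [Finite F] (hF : Nat.card F = Nat.card P * e) (Q : Subgroup F) (hQ : IsCyclic Q) (hQcard : Nat.card Q = Nat.card P) (hQC : Subgroup.centralizer (Q : Set F) = Q) : ∃ (I : Cfsg.IrrCharacter F → Cfsg.IrrCharacter G) (ε : Cfsg.IrrCharacter F → ℤ), Cfsg.IsPerfectIsometry p M (Set.univ : Set (Cfsg.IrrCharacter F)) B I ε ∧ ∀ η η' : Cfsg.IrrCharacter F, (∃ x ∈ Q, (η : F → ℂ) x ≠ (η : F → ℂ) 1) → (∃ x ∈ Q, (η' : F → ℂ) x ≠ (η' :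 F → ℂ) 1) → ε η = ε η' := by
  classical
  have := hM.2.1
  have := Cfsg.Agent.H41.IsPModular.charP hM
  have : Fintype G := Fintype.ofFinite G
  have : Fintype F := Fintype.ofFinite F
  have hab := H57.Cyclic.comm_of_cyclic hcyc
  have hm := H40.exists_isMaxEl hM hB hPD hab hc
  have hTm : T = H22.pairStab P (H22.el M (Subgroup.centralizer (P : Set G)) c) := by
    ext g
    rw [hT]
    exact ⟨fun h => ⟨h.1, (H22.stabilizesBlock_iff hc.1
        (H22.normalizer_le_normalizer_centralizer P h.1)).1 h.2⟩,
      fun h => ⟨h.1, (H22.stabilizesBlock_iff hc.1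
        (H22.normalizer_le_normalizer_centralizer P h.1)).2 h.2⟩⟩
  exact H57.Cyclic.exists_isometry_model hM hB hm hcyc hP1 (hTm ▸ he) hF hQ hQcard hQC

end Cfsg.Agent.S4634
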