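import Cfsg.Statements.S4635
import Cfsg.Agent.H57.Cyclic.Main
import Cfsg.Agent.H22.CyclicSubpair

set_option autoImplicit false
open Cfsg Cfsg.Agent

namespace Cfsg.Agent.S4635

/-- Let B be a block of the finite group G relative to a maximal ideal M of the algebraic integers containing the prime p, with a nontrivial cyclic defect group P; let Z be the subgroup of order p of P and H = N_G(Z), which contains N_G(P). Let c be the block of H with defect group P that induces B. Then B and c contain the same number of irreducible characters, have the same p-regular rank, and there is a perfect isometry from c onto B. -/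
theorem result {G : Type*} [Group G] [Finite G] (p : ℕ) [Fact p.Prime] (M : Ideal Cfsg.AlgInt) (hM : Cfsg.IsPModular p M) (B : Set (Cfsg.IrrCharacter G)) (hB : Cfsg.IsPBlock M B) (P : Subgroup G) (hPD : Cfsg.IsDefectGroup p M B P) (hP1 : P ≠ ⊥) (hcyc : IsCyclic P) (Z : Subgroup G) (hZ : Z ≤ P) (hZcard : Nat.card Z = p) (H : Subgroup G) (hH : H = Subgroup.normalizer (Z : Set G)) (c : Set (Cfsg.IrrCharacter H)) (hcD : Cfsg.IsDefectGroup p M c (P.subgroupOf H)) (hc : Cfsg.IsInducedBlock M H c B) : Nat.card c = Nat.card B ∧ Cfsg.blockRank p c = Cfsg.blockRank p B ∧ ∃ (I : Cfsg.IrrCharacter H → Cfsg.IrrCharacter G) (ε : Cfsg.IrrCharacter H → ℤ), Cfsg.IsPerfectIsometry p M c B I ε := by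
  classical
  have := hM.2.1
  have := Cfsg.Agent.H41.IsPModular.charP hM
  have : Fintype G := Fintype.ofFinite G
  have hPp : IsPGroup p P := H40.isPGroup_of_isDefectGroup hPD
  have hnorm : Subgroup.normalizer (P : Set G) ≤ H := fun g hg => by
    have hle : H22.cS g Z ≤ P := fun y hy => by
      rw [H22.mem_cS] at hy
      have h := (Subgroup.mem_normalizer_iff.1 hg _).1 (hZ hy)
      simpa [mul_assoc] using h
    have heq : H22.cS g Z = Z := by
      rcases H22.le_or_le_of_cyclic hPp hcyc hle hZ with h | h
      · exact Subgroup.eq_of_le_of_card_ge h (H22.card_cS g Z).ge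
      · exact (Subgroup.eq_of_le_of_card_ge h (H22.card_cS g Z).le).symm
    rw [hH]
    exact H22.mem_normalizer_of_cS heq
  exact H57.Cyclic.exists_isometry_correspondent hM hPD hP1 hcyc hnorm hcD hc

end Cfsg.Agent.S4635
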