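import Cfsg.Statements.S4636
import Mathlib

set_option autoImplicit false
open scoped Pointwise
open Cfsg

namespace Cfsg.Agent.S4636

open scoped Pointwise in
/-- In a cyclic subgroup `P`, a subgroup of order `p` contains every element killed by `p`. -/
theorem mem_of_pow_eq_one {G : Type*} [Group G] [Finite G] {p : ℕ} (hp : 0 < p) {P Z : Subgroup G}
    (hcyc : IsCyclic P) (hZ : Z ≤ P) (hZcard : Nat.card Z = p) {y : G} (hy : y ∈ P)
    (hyp : y ^ p = 1) : y ∈ Z := by
  classical
  have : Fintype P := Fintype.ofFinite _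
  have : Fintype Z := Fintype.ofFinite _
  let S : Finset P := Finset.univ.filter fun a => a ^ p = 1
  let T : Finset P := Finset.univ.filter fun a => (a : G) ∈ Z
  have hTS : T ⊆ S := by
    intro a ha
    simp only [T, Finset.mem_filter] at ha
    simp only [S, Finset.mem_filter, Finset.mem_univ, true_and]
    have h1 : (⟨(a : G), ha.2⟩ : Z) ^ p = 1 := by
      rw [← hZcard]; exact pow_card_eq_one'
    exact Subtype.ext (congrArg (Subtype.val : Z → G) h1)
  have hT : T.card = p := by
    rw [← hZcard, Nat.card_eq_fintype_card, ← Fintype.card_subtype]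
    exact Fintype.card_congr
      { toFun := fun a => ⟨(a.1 : G), a.2⟩
        invFun := fun z => ⟨⟨(z : G), hZ z.2⟩, z.2⟩
        left_inv := fun a => rfl
        right_inv := fun z => rfl }
  have hS : S.card ≤ p := IsCyclic.card_pow_eq_one_le hp
  have := Finset.eq_of_subset_of_card_le hTS (hS.trans hT.ge)
  have hmem : (⟨y, hy⟩ : P) ∈ S := by
    simp only [S, Finset.mem_filter, Finset.mem_univ, true_and]
    exact Subtype.ext hyp
  rw [← this] at hmem
  exact (Finset.mem_filter.1 hmem).2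

/-- A nontrivial subgroup of a cyclic `p`-group contains the subgroup of order `p`. -/
theorem le_of_ne_bot {G : Type*} [Group G] [Finite G] {p : ℕ} [Fact p.Prime] {P Z Q : Subgroup G}
    (hP : IsPGroup p P) (hcyc : IsCyclic P) (hZ : Z ≤ P) (hZcard : Nat.card Z = p) (hQ : Q ≤ P)
    (hQ1 : Q ≠ ⊥) : Z ≤ Q := by
  have hd : p ∣ Nat.card Q := by
    obtain ⟨k, hk⟩ := (IsPGroup.iff_card.1 (hP.to_le hQ))
    rcases k with _ | k
    · exact absurd (Subgroup.card_eq_one.1 (by simpa using hk)) hQ1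
    · rw [hk, pow_succ']; exact dvd_mul_right _ _
  obtain ⟨⟨y, hy⟩, hyo⟩ := exists_prime_orderOf_dvd_card' p hd
  rw [Subgroup.orderOf_mk] at hyo
  have hyZ := mem_of_pow_eq_one (Fact.out : p.Prime).pos hcyc hZ hZcard (hQ hy)
    (by rw [← hyo, pow_orderOf_eq_one])
  have : Subgroup.zpowers y = Z :=
    Subgroup.eq_of_le_of_card_ge (Subgroup.zpowers_le.2 hyZ) (by rw [Nat.card_zpowers, hyo, hZcard])
  rw [← this]
  exact Subgroup.zpowers_le.2 hy

/-- Let P be a nontrivial cyclic p-subgroup of the finite group G and Z its subgroup of order p. For every x outside N_G(Z), P meets its conjugate xPx⁻¹ trivially; consequently N_G(Q) ≤ N_G(Z) for every nontrivial subgroup Q of P. -/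
theorem result {G : Type*} [Group G] [Finite G] (p : ℕ) [Fact p.Prime] (P : Subgroup G) (hP : IsPGroup p P) (hP1 : P ≠ ⊥) (hcyc : IsCyclic P) (Z : Subgroup G) (hZ : Z ≤ P) (hZcard : Nat.card Z = p) : (∀ x : G, x ∉ Subgroup.normalizer (Z : Set G) → P ⊓ MulAut.conj x • P = ⊥) ∧ ∀ Q : Subgroup G, Q ≤ P → Q ≠ ⊥ → Subgroup.normalizer (Q : Set G) ≤ Subgroup.normalizer (Z : Set G) := by
  classical
  have key : ∀ x : G, (∀ z ∈ Z, x * z * x⁻¹ ∈ Z) → x ∈ Subgroup.normalizer (Z : Set G) := by
    intro x hx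
    rw [Subgroup.mem_normalizer_iff]
    intro h
    refine ⟨hx h, fun hh => ?_⟩
    have hinj : Function.Bijective fun z : Z => (⟨x * z * x⁻¹, hx z z.2⟩ : Z) :=
      Finite.injective_iff_bijective.1 fun a b e => Subtype.ext (by simpa using congrArg Subtype.val e)
    obtain ⟨z, hz⟩ := hinj.2 ⟨_, hh⟩
    have : x * (z : G) * x⁻¹ = x * h * x⁻¹ := congrArg Subtype.val hz
    have h2 : (z : G) = h := by simpa using this
    exact h2 ▸ z.2
  have hxp : ∀ x : G, ∀ z ∈ Z, (x * z * x⁻¹) ^ p = 1 := by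
    intro x z hz
    have h1 : (⟨z, hz⟩ : Z) ^ p = 1 := by rw [← hZcard]; exact pow_card_eq_one'
    have h2 : z ^ p = 1 := congrArg (Subtype.val : Z → G) h1
    simp [conj_pow, h2]
  refine ⟨fun x hx => ?_, fun Q hQ hQ1 x hx => key x fun z hz => ?_⟩
  · by_contra hne
    have hle := le_of_ne_bot hP hcyc hZ hZcard inf_le_left hne
    refine hx (inv_mem_iff.1 (key x⁻¹ fun z hz => ?_))
    have hz' := (hle hz).2
    change z ∈ MulAut.conj x • P at hz'
    rw [Subgroup.mem_pointwise_smul_iff_inv_smul_mem, MulAut.smul_def,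
      ← map_inv, MulAut.conj_apply] at hz'
    exact mem_of_pow_eq_one (Fact.out : p.Prime).pos hcyc hZ hZcard hz' (hxp _ _ hz)
  · have hle := le_of_ne_bot hP hcyc hZ hZcard hQ hQ1
    exact mem_of_pow_eq_one (Fact.out : p.Prime).pos hcyc hZ hZcard
      (hQ ((Subgroup.mem_normalizer_iff.1 hx z).1 (hle hz))) (hxp _ _ hz)

end Cfsg.Agent.S4636
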