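import Cfsg.Statements.S4637
import Cfsg.Agent.H40.KleinFour

set_option autoImplicit false
open Cfsg

namespace Cfsg.Agent.S4637

/-- Let B be a block of the finite group G relative to a maximal ideal M of the algebraic integers containing 2, with a Klein four defect group P. Let c be a block of C_G(P) inducing B, T the stabilizer of c in N_G(P) and e the index of C_G(P) in T (the inertial index). Then e is 1 or 3, B contains exactly four irreducible characters, and the 2-regular rank of B (its number of irreducible Brauer characters) equals e. -/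
theorem result {G : Type*} [Group G] [Finite G] (M : Ideal Cfsg.AlgInt) (hM : Cfsg.IsPModular 2 M) (B : Set (Cfsg.IrrCharacter G)) (hB : Cfsg.IsPBlock M B) (P : Subgroup G) (hPD : Cfsg.IsDefectGroup 2 M B P) (hV : IsKleinFour P) (c : Set (Cfsg.IrrCharacter (Subgroup.centralizer (P : Set G)))) (hc : Cfsg.IsInducedBlock M (Subgroup.centralizer (P : Set G)) c B) (T : Subgroup G) (hT : ∀ g : G, g ∈ T ↔ (g ∈ Subgroup.normalizer (P : Set G) ∧ Cfsg.StabilizesBlock (Subgroup.centralizer (P : Set G)) c g)) (e : ℕ) (he : (Subgroup.centralizer (P : Set G)).relIndex T = e) : (e = 1 ∨ e = 3) ∧ Nat.card B = 4 ∧ Cfsg.blockRank 2 B = e := by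
  classical
  have : Fact (Nat.Prime 2) := ⟨Nat.prime_two⟩
  have := hM.2.1
  have := Cfsg.Agent.H41.IsPModular.charP hM
  have : Fintype G := Fintype.ofFinite G
  have h4 : Nat.card P = 4 := hV.card_four
  have hsq : ∀ x ∈ P, x * x = 1 := by
    intro x hx
    have h := Monoid.pow_exponent_eq_one (⟨x, hx⟩ : P)
    rw [hV.exponent_two, sq] at h
    exact congrArg Subtype.val h
  have hm := Cfsg.Agent.H40.exists_isMaxEl hM hB hPD
    (Cfsg.Agent.H40.comm_of_exponent_two hsq) hc
  have hTeq : T = Cfsg.Agent.H22.pairStab P
      (Cfsg.Agent.H22.el M (Subgroup.centralizer (P : Set G)) c) := by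
    ext g
    rw [hT, Subgroup.mem_inf]
    refine and_congr_right fun hg => ?_
    exact Cfsg.Agent.H22.stabilizesBlock_iff hc.1
      (Cfsg.Agent.H22.normalizer_le_normalizer_centralizer P hg)
  have h := Cfsg.Agent.H40.klein_four_invariants hM hB hm hPD h4 hsq
  rw [← hTeq, he] at h
  exact h

end Cfsg.Agent.S4637
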