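import Cfsg.Statements.S4638
import Cfsg.Agent.H56.KleinIsometry

set_option autoImplicit false
open Cfsg

namespace Cfsg.Agent.S4638

/-- Let B be a block of the finite group G relative to a maximal ideal M of the algebraic integers containing 2, with a Klein four defect group P, and let c be its Brauer correspondent: the block of N_G(P) with defect group P that induces B. Then there is a perfect isometry from c onto B. -/
theorem result {G : Type*} [Group G] [Finite G] (M : Ideal Cfsg.AlgInt) (hM : Cfsg.IsPModular 2 M) (B : Set (Cfsg.IrrCharacter G)) (hB : Cfsg.IsPBlock M B) (P : Subgroup G) (hPD : Cfsg.IsDefectGroup 2 M B P) (hV : IsKleinFour P) (c : Set (Cfsg.IrrCharacter (Subgroup.normalizer (P : Set G)))) (hcD : Cfsg.IsDefectGroup 2 M c (P.subgroupOf (Subgroup.normalizer (P : Set G)))) (hc : Cfsg.IsInducedBlock M (Subgroup.normalizer (P : Set G)) c B) : ∃ (I : Cfsg.IrrCharacter (Subgroup.normalizer (P : Set G)) → Cfsg.IrrCharacter G) (ε : Cfsg.IrrCharacter (Subgroup.normalizer (P : Set G)) → ℤ), Cfsg.IsPerfectIsometry 2 M c B I ε := by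
  exact Cfsg.Agent.H56.exists_klein_perfectIsometry hM hB hPD hV rfl hcD hc

end Cfsg.Agent.S4638
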