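import Cfsg.Statements.S4639
import Cfsg.Agent.H56.FreeDefectCount
import Cfsg.Agent.H20.Cyclic.Local
import Cfsg.Agent.H22.PairDict

set_option autoImplicit false
open Cfsg

namespace Cfsg.Agent.S4639

/-- Let B be a block of the finite group G relative to a maximal ideal M of the algebraic integers containing the prime p, with a nontrivial commutative defect group P. Let c be a block of C_G(P) inducing B, T the stabilizer of c in N_G(P) and e the index of C_G(P) in T. Suppose that T/C_G(P) is commutative (all commutators of elements of T lie in C_G(P)) and acts freely on the non-identity elements of P (an element of T fixing a non-identity element of P under conjugation lies in C_G(P)). Then B has at most e + (#P − 1)/e irreducible characters and p-regular rank at most e; equality holds in the first bound exactly when it holds in the second; and both equalities hold when e ≤ 3. -/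
theorem result {G : Type*} [Group G] [Finite G] (p : ℕ) [Fact p.Prime] (M : Ideal Cfsg.AlgInt) (hM : Cfsg.IsPModular p M) (B : Set (Cfsg.IrrCharacter G)) (hB : Cfsg.IsPBlock M B) (P : Subgroup G) (hPD : Cfsg.IsDefectGroup p M B P) (hP1 : P ≠ ⊥) (hPab : ∀ x ∈ P, ∀ y ∈ P, x * y = y * x) (c : Set (Cfsg.IrrCharacter (Subgroup.centralizer (P : Set G)))) (hc : Cfsg.IsInducedBlock M (Subgroup.centralizer (P : Set G)) c B) (T : Subgroup G) (hT : ∀ g : G, g ∈ T ↔ (g ∈ Subgroup.normalizer (P : Set G) ∧ Cfsg.StabilizesBlock (Subgroup.centralizer (P : Set G)) c g)) (e : ℕ) (he : (Subgroup.centralizer (P : Set G)).relIndex T = e) (hEab : ∀ g ∈ T, ∀ h ∈ T, g * h * g⁻¹ * h⁻¹ ∈ Subgroup.centralizer (P : Set G)) (hfree : ∀ g ∈ T, ∀ x ∈ P, x ≠ 1 → g * x * g⁻¹ = x → g ∈ Subgroup.centralizer (P : Set G)) : Nat.card B ≤ e + (Nat.card P - 1) / e ∧ Cfsg.blockRank p B ≤ e ∧ (Nat.card B = e + (Nat.card P - 1) / e ↔ Cfsg.blockRank p B = e) ∧ (e ≤ 3 → Nat.card B = e + (Nat.card P - 1) / e ∧ Cfsg.blockRank p B = e) := by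
  classical
  have : M.IsMaximal := hM.2.1
  have := H41.IsPModular.charP hM
  have hm := H40.exists_isMaxEl hM hB hPD hPab hc
  have hTeq : T = H22.pairStab P (H22.el M (Subgroup.centralizer (P : Set G)) c) := by
    ext g
    rw [hT]
    refine and_congr_right fun hg => ?_
    exact H22.stabilizesBlock_iff hc.1 (H22.normalizer_le_normalizer_centralizer P hg)
  subst hTeq
  obtain ⟨j, h⟩ := H56.FD.exists_ctx hM hB hm hPab hfree hP1
  obtain ⟨m, hm0, hmq, hk, hl, hsmall⟩ := h.counts hP1
  rw [he] at hmq hl hsmall
  have he0 : 0 < e := he ▸ h.relIndex_pos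
  have hdiv : (Nat.card P - 1) / e = m := by rw [← hmq, Nat.mul_div_cancel _ he0]
  rw [hdiv]
  have heq : e ≤ 3 → blockRank p B = e := by
    intro h3
    have hcyc : (Nat.card P).Prime → blockRank p B = e := fun hprime => by
      have : Fact (Nat.card P).Prime := ⟨hprime⟩
      have hcy : IsCyclic P := isCyclic_of_prime_card rfl
      exact le_antisymm hl (he ▸ H20.Cyclic.relIndex_le_blockRank hM hB hm hcy hP1)
    rcases hsmall h3 with h1 | ⟨h1, h2⟩ | ⟨h1, h2⟩
    · exact h1
    · exact hcyc (by
        rw [h1, h2] at hmq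
        rw [show Nat.card P = 7 by omega]; norm_num)
    · obtain ⟨k, hk'⟩ := IsPGroup.iff_card.1 h.pGroup
      rcases h2 with h2 | h2
      · exfalso
        rw [h1, h2, hk'] at hmq
        have h10 : p ^ k = 10 := by omega
        have hp := (Fact.out : p.Prime)
        have h2' : 2 ∣ p ^ k := h10 ▸ by norm_num
        have h5 : 5 ∣ p ^ k := h10 ▸ by norm_num
        have a := (Nat.prime_dvd_prime_iff_eq Nat.prime_two hp).1 (Nat.prime_two.dvd_of_dvd_pow h2')
        have b := (Nat.prime_dvd_prime_iff_eq (by norm_num) hp).1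
          ((show (5 : ℕ).Prime by norm_num).dvd_of_dvd_pow h5)
        omega
      · exact hcyc (by
          rw [h1, h2] at hmq
          rw [show Nat.card P = 13 by omega]; norm_num)
  exact ⟨by omega, hl, by omega, fun h3 => ⟨by rw [hk, heq h3], heq h3⟩⟩

end Cfsg.Agent.S4639
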