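import Cfsg.Statements.S4642
import Cfsg.Agent.H45.PrincipalType
import Cfsg.Agent.H74.PGroupAction
import Cfsg.Agent.H19.Cores
import Cfsg.Agent.H19.PLengthOne

set_option autoImplicit false
open Cfsg

namespace Cfsg.Agent.S4642

open scoped ComplexConjugate
open Cfsg.Agent.H45.PrincipalType
open Cfsg.Agent.H41 (omegaBar twistIrr)

variable {G : Type*} [Group G] [Finite G] {p : ℕ} [hp : Fact p.Prime]

theorem eq_one_of_mem {K Q : Subgroup G} (hK : ¬ p ∣ Nat.card K) (hQ : IsPGroup p Q) {x : G}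
    (hxK : x ∈ K) (hxQ : x ∈ Q) : x = 1 := by
  obtain ⟨a, ha⟩ := IsPGroup.iff_card.1 hQ
  have h : Disjoint K Q := disjoint_iff.2 (Subgroup.inf_eq_bot_of_coprime (by
    rw [ha]; exact (((hp.out.coprime_iff_not_dvd).2 hK).symm).pow_right a))
  exact Subgroup.disjoint_def.1 h hxK hxQ

/-- An element of `K Q` fixed by conjugation has both parts fixed. -/
theorem fixed_part {K Q : Subgroup G} [K.Normal] (hK : ¬ p ∣ Nat.card K) (hQ : IsPGroup p Q)
    {r k q : G} (hr : r ∈ Subgroup.normalizer (Q : Set G)) (hk : k ∈ K) (hq : q ∈ Q)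
    (h : r * (k * q) * r⁻¹ * (k * q)⁻¹ ∈ K) : r * q * r⁻¹ = q := by
  have h1 : r * q * r⁻¹ * q⁻¹ ∈ Q :=
    mul_mem ((Subgroup.mem_normalizer_iff.1 hr q).1 hq) (inv_mem hq)
  have h2 : r * q * r⁻¹ * q⁻¹ ∈ K := by
    have h3 := mul_mem (mul_mem (inv_mem ((inferInstance : K.Normal).conj_mem k hk r)) h) hk
    convert h3 using 1
    group
  exact mul_inv_eq_one.1 (eq_one_of_mem hK hQ h2 h1)

/-- An element normalising `L = K Q` modulo `K` and centralising it there lies in `L`. -/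
theorem mem_of_centralizes_quotient {K L Q : Subgroup G} [K.Normal] [L.Normal]
    (hK : ¬ p ∣ Nat.card K) (hQ : IsPGroup p Q) (hQL : Q ≤ L) (hidx : ¬ p ∣ Q.relIndex L)
    (hKL : K ≤ L) (hL : ∀ n ∈ L, ∃ k ∈ K, ∃ q ∈ Q, n = k * q)
    (hCQ : Subgroup.centralizer (Q : Set G) ≤ L) {x : G}
    (hx : ∀ q ∈ Q, x * q * x⁻¹ * q⁻¹ ∈ K) : x ∈ L := by
  have hS : IsPGroup p (Q.subgroupOf L) := hQ.of_equiv (Subgroup.subgroupOfEquivOfLe hQL).symm
  have htop := Sylow.normalizer_sup_eq_top (hS.toSylow hidx)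
  rw [show ((hS.toSylow hidx : Sylow p L) : Subgroup L) = Q.subgroupOf L from rfl,
    Subgroup.subgroupOf_map_subtype, inf_eq_left.2 hQL] at htop
  obtain ⟨y, hy, l, hl, rfl⟩ : ∃ y ∈ Subgroup.normalizer (Q : Set G), ∃ l ∈ L, y * l = x :=
    Subgroup.mem_sup_of_normal_right.1 (htop ▸ Subgroup.mem_top x)
  have hl' : y * l * y⁻¹ ∈ L := (inferInstance : L.Normal).conj_mem l hl y
  obtain ⟨k, hk, q, hq, hkq⟩ := hL _ hl'
  have hx' : y * l = k * (q * y) := by
    rw [← mul_assoc, ← hkq]; group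
  have hz : q * y ∈ Subgroup.normalizer (Q : Set G) := mul_mem (Subgroup.le_normalizer hq) hy
  have hc : q * y ∈ Subgroup.centralizer (Q : Set G) := by
    rw [Subgroup.mem_centralizer_iff]
    intro u hu
    have h1 : q * y * u * (q * y)⁻¹ * u⁻¹ ∈ Q :=
      mul_mem ((Subgroup.mem_normalizer_iff.1 hz u).1 hu) (inv_mem hu)
    have h2 : q * y * u * (q * y)⁻¹ * u⁻¹ ∈ K := by
      have h := hx u hu
      rw [hx'] at h
      have hn := (inferInstance : K.Normal)
      -- strip the factor in `K`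
      have h3 : k⁻¹ * (k * (q * y) * u * (k * (q * y))⁻¹ * u⁻¹) * (u * k * u⁻¹) ∈ K :=
        mul_mem (mul_mem (inv_mem hk) h) (hn.conj_mem k hk u)
      convert h3 using 1
      group
    exact (mul_inv_eq_iff_eq_mul.1 (mul_inv_eq_one.1 (eq_one_of_mem hK hQ h2 h1))).symm
  rw [hx']
  exact mul_mem (hKL hk) (hCQ hc)

/-- Let G be a finite group, p a prime, M a maximal ideal of the algebraic integers containing p, K the largest normal subgroup of G of order prime to p, and L the preimage in G of the largest normal p-subgroup of G/K. Let Q be a Sylow p-subgroup of L and suppose C_G(Q) ≤ L. Let θ be an irreducible character of K invariant under conjugation by every element of G, and let B be the set of irreducible characters of G whose restriction to K contains θ. Then B is a block of G, every Sylow p-subgroup of G is a defect group of B, and B is of principal type: for every p-subgroup R of G exactly one block of C_G(R) induces B.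 -/
theorem result {G : Type*} [Group G] [Fintype G] (p : ℕ) [Fact p.Prime] (M : Ideal Cfsg.AlgInt) (hM : Cfsg.IsPModular p M) (K : Subgroup G) (hK : K = Cfsg.pPrimeCore p G) [Fintype K] (L : Subgroup G) (hL : L = Cfsg.pPrimePCore p G) (Q : Subgroup G) (hQL : Q ≤ L) (hQp : IsPGroup p Q) (hQS : ¬ p ∣ Q.relIndex L) (hCQ : Subgroup.centralizer (Q : Set G) ≤ L) (θ : Cfsg.IrrCharacter K) (hθ : ∀ g : G, Cfsg.IsConjCharOf K g (θ : K → ℂ) (θ : K → ℂ)) (B : Set (Cfsg.IrrCharacter G)) (hBdef : ∀ χ : Cfsg.IrrCharacter G, χ ∈ B ↔ Cfsg.classInner (fun k : K => (χ : G → ℂ) k) (θ : K → ℂ) ≠ 0) : Cfsg.IsPBlock M B ∧ (∀ S : Sylow p G, Cfsg.IsDefectGroup p M B S) ∧ ∀ R : Subgroup G, IsPGroup p R → ∃! f : Set (Cfsg.IrrCharacter (Subgroup.centralizer (R : Set G))), Cfsg.IsInducedBlock M (Subgroup.centralizer (R : Set G)) f B := by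
  classical
  haveI : M.IsMaximal := hM.2.1
  haveI hKn : K.Normal := hK ▸ H19.pPrimeCore_normal p G
  haveI hLn : L.Normal := hL ▸ H19.pPrimePCore_normal p G
  have hpp : p.Prime := Fact.out
  have hKp : ¬ p ∣ Nat.card K := by
    rw [hK]
    exact (hpp.coprime_iff_not_dvd).1 (H19.pPrimeCore_coprime p).symm
  have hθ' : Inv K θ := fun g => Subtype.ext (funext fun n => by
    rw [H41.twistIrr_apply]
    exact hθ g n _ rfl)
  have hKL : K ≤ L := by
    subst hK hL
    haveI := H19.pPrimeCore_normal p G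
    intro k hk
    show (QuotientGroup.mk' (Cfsg.pPrimeCore p G)) k ∈ Cfsg.pCore p (G ⧸ Cfsg.pPrimeCore p G)
    rw [QuotientGroup.mk'_apply, (QuotientGroup.eq_one_iff k).2 hk]
    exact one_mem _
  have hLquot : IsPGroup p (L.map (QuotientGroup.mk' K)) := by
    subst hK hL
    haveI := H19.pPrimeCore_normal p G
    refine (H40.isPGroup_pCore p _).to_le ?_
    exact Subgroup.map_comap_le _ _
  have hprod : ∀ (Q₁ : Subgroup G), Q₁ ≤ L → ¬ p ∣ Q₁.relIndex L →
      ∀ n ∈ L, ∃ k ∈ K, ∃ q ∈ Q₁, n = k * q := by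
    intro Q₁ h1 h2 n hn
    obtain ⟨a, ha⟩ := IsPGroup.iff_card.1 hLquot
    have hd1 : (K ⊔ Q₁).relIndex L ∣ p ^ a := by
      have hd : K.relIndex L = Nat.card (L.map (QuotientGroup.mk' K)) := by
        rw [← Subgroup.relIndex_ker, QuotientGroup.ker_mk']
      rw [← ha, ← hd]
      exact Subgroup.relIndex_dvd_of_le_left L le_sup_left
    have hd2 : (K ⊔ Q₁).relIndex L ∣ Q₁.relIndex L :=
      Subgroup.relIndex_dvd_of_le_left L le_sup_right
    have h3 : (K ⊔ Q₁).relIndex L = 1 := by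
      obtain ⟨b, -, hb⟩ := (Nat.dvd_prime_pow hpp).1 hd1
      rcases b with - | b
      · exact hb
      · exact absurd ((dvd_pow_self p b.succ_ne_zero).trans (hb ▸ hd2)) h2
    have h4 : n ∈ K ⊔ Q₁ := (Subgroup.relIndex_eq_one.1 h3) hn
    obtain ⟨k, hk, q, hq, hkq⟩ := Subgroup.mem_sup_of_normal_left.1 h4
    exact ⟨k, hk, q, hq, hkq.symm⟩
  have hregQ : ∀ x ∈ Subgroup.centralizer (Q : Set G), ¬ p ∣ orderOf x → x ∈ K := fun x hx hxp =>
    mem_of_regular hQp (hprod Q hQL hQS) (hCQ hx) hxp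
  have hone : ∀ χ χ' : Cfsg.IrrCharacter G, χ ∈ B → χ' ∈ B →
      Cfsg.SameBlock M (χ : G → ℂ) (χ' : G → ℂ) := fun χ χ' h h' =>
    sameBlock_of_over hM hKp hθ' L hQp hKL hQL (hprod Q hQL hQS) hregQ
      ((hBdef χ).1 h) ((hBdef χ').1 h')
  obtain ⟨χ₀, hχ₀d, hχ₀⟩ := exists_over_not_dvd (p := p) hKp hθ'
  have hB0 : B = Cfsg.blockOf M (χ₀ : G → ℂ) := by
    ext χ
    refine ⟨fun h => hone χ₀ χ ((hBdef χ₀).2 hχ₀) h, fun h => (hBdef χ).2 ?_⟩
    have h1 := omegaBar_eBar hM hKp hθ' χ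
    rw [H41.omegaBar_eq_of_mem (H41.isPBlock_blockOf χ₀) h (H41.mem_blockOf_self χ₀),
      omegaBar_eBar, if_pos hχ₀] at h1
    intro hn
    rw [if_neg (not_not.2 hn)] at h1
    exact one_ne_zero h1
  have hB : Cfsg.IsPBlock M B := hB0 ▸ H41.isPBlock_blockOf χ₀
  have hχ₀B : χ₀ ∈ B := (hBdef χ₀).2 hχ₀
  refine ⟨hB, fun S => H69.CentralBlocks.isDefectGroup_sylow hM hB hχ₀B hχ₀d S, fun R hR => ?_⟩
  set H := Subgroup.centralizer (R : Set G)
  -- characters of the centraliser seen by `θ`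
  have hseen : ∀ f : Set (Cfsg.IrrCharacter H), Cfsg.IsInducedBlock M H f B →
      ∀ ψ ∈ f, omegaBar M ψ (brC R hM hR (eBar hM hKp hθ')) ≠ 0 := by
    intro f hf ψ hψ
    rw [brC_eq_restrictZ, H40.omegaBar_restrictZ_of_isInducedBlock hf hψ hχ₀B, omegaBar_eBar,
      if_pos hχ₀]
    exact one_ne_zero
  obtain ⟨ψ₀, hψ₀⟩ := exists_omegaBar_brC_eBar_ne_zero R hM hR hKp hθ'
  have hind : Cfsg.IsInducedBlock M H (Cfsg.blockOf M (ψ₀ : H → ℂ)) B := by
    obtain ⟨χ₁, hχ₁⟩ := H41.exists_eq_omegaBar ((omegaBar M ψ₀).comp (brC R hM hR))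
    have e1 : ∀ z, omegaBar M ψ₀ (brC R hM hR z) = omegaBar M χ₁ z := fun z =>
      AlgHom.congr_fun hχ₁ z
    have hmem : χ₁ ∈ B := by
      rw [e1, omegaBar_eBar] at hψ₀
      exact (hBdef χ₁).2 (fun hn => hψ₀ (if_neg (not_not.2 hn)))
    refine (H40.isInducedBlock_iff (H41.isPBlock_blockOf ψ₀) hB (H41.mem_blockOf_self ψ₀)
      hmem).2 fun z => ?_
    rw [← brC_eq_restrictZ R hM hR, e1]
  refine ⟨_, hind, fun f hf => ?_⟩
  obtain ⟨ψ, hψ⟩ := H41.IsPBlock.nonempty hf.1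
  have := Fintype.ofFinite H
  have := Fintype.ofFinite (K.subgroupOf H)
  obtain ⟨φ, hφ, hφ₀, hφinv⟩ := constituent_eq R hM hR hKp hθ' (hseen f hf ψ hψ) hψ₀
  -- a Sylow subgroup of `L` normalised by `R`
  obtain ⟨S, hRS⟩ := hR.exists_le_sylow
  set Q₁ := (S : Subgroup G) ⊓ L
  have hQ₁p : IsPGroup p Q₁ := S.isPGroup'.to_le inf_le_left
  have hQ₁i : ¬ p ∣ Q₁.relIndex L := by
    have e1 := Subgroup.relIndex_mul_relIndex Q₁ L ((S : Subgroup G) ⊔ L) inf_le_right le_sup_right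
    have e2 := Subgroup.relIndex_mul_relIndex Q₁ (S : Subgroup G) ((S : Subgroup G) ⊔ L) inf_le_left
      le_sup_left
    rw [show L.relIndex ((S : Subgroup G) ⊔ L) = L.relIndex (S : Subgroup G) from
      Subgroup.relIndex_sup_right _ _] at e1
    rw [show Q₁.relIndex (S : Subgroup G) = L.relIndex (S : Subgroup G) from
      Subgroup.inf_relIndex_left _ _] at e2
    have hpos : L.relIndex (S : Subgroup G) ≠ 0 := Subgroup.FiniteIndex.index_ne_zero
    have e3 : Q₁.relIndex L = (S : Subgroup G).relIndex ((S : Subgroup G) ⊔ L) :=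
      Nat.eq_of_mul_eq_mul_right (Nat.pos_of_ne_zero hpos)
        (e1.trans (e2.symm.trans (mul_comm _ _)))
    intro h
    exact S.not_dvd_index ((e3 ▸ h).trans ⟨_, (Subgroup.relIndex_mul_index le_sup_left).symm⟩)
  have hCQ₁ : Subgroup.centralizer (Q₁ : Set G) ≤ L := by
    obtain ⟨x, hx⟩ := H40.subConj_of_isSylowIn (p := p) (P := Q) (K := L) ⟨hQL, hQp, hQS⟩ hQ₁p
      inf_le_right
    have hcard : Nat.card Q ≤ Nat.card (H23.rconj x Q₁) := by
      obtain ⟨y, hy⟩ := H40.subConj_of_isSylowIn (p := p) (P := Q₁) (K := L)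
        ⟨inf_le_right, hQ₁p, hQ₁i⟩ hQp hQL
      calc Nat.card Q ≤ Nat.card Q₁ := H40.SubConj.card_le ⟨y, hy⟩
        _ = _ := (Subgroup.card_map_of_injective (MulAut.conj x⁻¹).injective).symm
    have he := Subgroup.eq_of_le_of_card_ge hx hcard
    intro c hc
    have h1 : x⁻¹ * c * x ∈ Subgroup.centralizer (Q : Set G) := by
      rw [← he, Subgroup.mem_centralizer_iff]
      intro q hq
      have hq' := Subgroup.mem_centralizer_iff.1 hc _ (H23.mem_rconj.1 hq)
      calc q * (x⁻¹ * c * x) = x⁻¹ * (x * q * x⁻¹ * c) * x := by group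
        _ = x⁻¹ * (c * (x * q * x⁻¹)) * x := by rw [hq']
        _ = x⁻¹ * c * x * q := by group
    have h2 := hLn.conj_mem _ (hCQ h1) x
    simpa [mul_assoc] using h2
  have hRQ : ∀ r ∈ R, r ∈ Subgroup.normalizer (Q₁ : Set G) := fun r hr => by
    rw [Subgroup.mem_normalizer_iff]
    intro q
    simp only [Q₁, Subgroup.mem_inf]
    have h1 : q ∈ (S : Subgroup G) ↔ r * q * r⁻¹ ∈ (S : Subgroup G) := by
      rw [Subgroup.mul_mem_cancel_right _ (inv_mem (hRS hr)),
        Subgroup.mul_mem_cancel_left _ (hRS hr)]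
    have h2 : q ∈ L ↔ r * q * r⁻¹ ∈ L :=
      ⟨fun h => hLn.conj_mem q h r, fun h => by
        simpa [mul_assoc] using hLn.conj_mem _ h r⁻¹⟩
    exact and_congr h1 h2
  have hprod₁ := hprod Q₁ inf_le_right hQ₁i
  have hN : ∀ n ∈ L.subgroupOf H, ∃ k ∈ K.subgroupOf H, ∃ q ∈ Q₁.subgroupOf H, n = k * q := by
    intro n hn
    obtain ⟨k, hk, q, hq, hkq⟩ := hprod₁ (n : G) hn
    have hqH : q ∈ H := by
      rw [Subgroup.mem_centralizer_iff]
      intro r hr
      refine mul_inv_eq_iff_eq_mul.1 (fixed_part hKp hQ₁p (hRQ r hr) hk hq ?_)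
      rw [← hkq, mul_inv_eq_iff_eq_mul.2 (Subgroup.mem_centralizer_iff.1 n.2 r hr), mul_inv_cancel]
      exact one_mem _
    have hkH : k ∈ H := by
      rw [show k = (n : G) * q⁻¹ by rw [hkq]; group]
      exact mul_mem n.2 (inv_mem hqH)
    exact ⟨⟨k, hkH⟩, hk, ⟨q, hqH⟩, hq, Subtype.ext hkq⟩
  have hreg : ∀ x ∈ Subgroup.centralizer ((Q₁.subgroupOf H : Subgroup H) : Set H),
      ¬ p ∣ orderOf x → x ∈ K.subgroupOf H := by
    intro x hx hxp
    have hxp' : ¬ p ∣ orderOf (x : G) := by rwa [Subgroup.orderOf_coe]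
    refine mem_of_regular hQ₁p hprod₁ ?_ hxp'
    refine mem_of_centralizes_quotient hKp hQ₁p inf_le_right hQ₁i hKL hprod₁ hCQ₁ fun q hq => ?_
    let π := QuotientGroup.mk' K
    have hQmap : Q₁.map π = L.map π := by
      refine le_antisymm (Subgroup.map_mono inf_le_right) ?_
      rintro _ ⟨n, hn, rfl⟩
      obtain ⟨k, hk, q', hq', rfl⟩ := hprod₁ n hn
      exact ⟨q', hq', by
        rw [map_mul, show π k = 1 from (QuotientGroup.eq_one_iff k).2 hk, one_mul]⟩
    haveI : (Q₁.map π).Normal :=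
      hQmap ▸ hLn.map π (QuotientGroup.mk'_surjective K)
    have hnt : ∀ g : G ⧸ K, g ∈ Subgroup.normalizer ((Q₁.map π : Subgroup (G ⧸ K)) : Set (G ⧸ K)) :=
      fun g => by rw [Subgroup.normalizer_eq_top]; exact Subgroup.mem_top g
    have key := H74.thompson_AxB (p := p) (R := Q₁.map π) (B := R.map π) (hQ₁p.map π)
      (hR.map π) (fun g _ => hnt g) (c := π (x : G)) (hnt _)
      (fun h => hxp' (h.trans (orderOf_map_dvd π _))) ?_ ?_ (π q) ⟨q, hq, rfl⟩
    · have h1 : π ((x : G) * q * (x : G)⁻¹ * q⁻¹) = 1 := by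
        rw [map_mul, map_mul, map_mul, map_inv, map_inv, key.eq, mul_inv_cancel_right,
          mul_inv_cancel]
      exact (QuotientGroup.eq_one_iff _).1 h1
    · rintro _ ⟨r, hr, rfl⟩
      exact ((show Commute r (x : G) from Subgroup.mem_centralizer_iff.1 x.2 r hr).map π).symm
    · rintro _ ⟨q', hq', rfl⟩ hcomm
      have hq'H : q' ∈ H := by
        rw [Subgroup.mem_centralizer_iff]
        intro r hr
        have h1 : π (r * q' * r⁻¹ * q'⁻¹) = 1 := by
          rw [map_mul, map_mul, map_mul, map_inv, map_inv, (hcomm _ ⟨r, hr, rfl⟩).eq,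
            mul_inv_cancel_right, mul_inv_cancel]
        refine mul_inv_eq_iff_eq_mul.1 (mul_inv_eq_one.1 (eq_one_of_mem hKp hQ₁p
          ((QuotientGroup.eq_one_iff _).1 h1)
          (mul_mem ((Subgroup.mem_normalizer_iff.1 (hRQ r hr) q').1 hq') (inv_mem hq'))))
      have h2 := Subgroup.mem_centralizer_iff.1 hx ⟨q', hq'H⟩ hq'
      exact ((show Commute q' (x : G) from congrArg (fun y : H => (y : G)) h2).map π).symm
  have hKH : ¬ p ∣ Nat.card (K.subgroupOf H) := (glaubermanData R hR hKp).not_dvd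
  have hsame : Cfsg.SameBlock M (ψ₀ : H → ℂ) (ψ : H → ℂ) :=
    sameBlock_of_over (G := H) (K := K.subgroupOf H) hM hKH hφinv (L.subgroupOf H)
      (P := Q₁.subgroupOf H) (hQ₁p.comap_of_injective H.subtype H.subtype_injective)
      (Subgroup.comap_mono hKL) (Subgroup.comap_mono inf_le_right) hN hreg
      hφ₀ hφ
  exact H41.block_eq_of_mem_of_mem hf.1 (H41.isPBlock_blockOf ψ₀) hψ hsame

end Cfsg.Agent.S4642
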