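import Cfsg.Statements.S4644
import Cfsg.Agent.H40.WatanabeCount

set_option autoImplicit false
open Cfsg

namespace Cfsg.Agent.S4644

/-- Let B be a block of the finite group G relative to a maximal ideal M of the algebraic integers containing the prime p, with a commutative defect group P; let c be a block of C_G(P) inducing B and T the stabilizer of c in N_G(P). Let u be an element of P fixed under conjugation by every element of T, H = C_G(u) (so C_G(P) ≤ H), and f the block of H induced by c inside H. Then B and f have the same p-regular rank and the same number of irreducible characters. -/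
theorem result {G : Type*} [Group G] [Finite G] (p : ℕ) [Fact p.Prime] (M : Ideal Cfsg.AlgInt) (hM : Cfsg.IsPModular p M) (B : Set (Cfsg.IrrCharacter G)) (hB : Cfsg.IsPBlock M B) (P : Subgroup G) (hPD : Cfsg.IsDefectGroup p M B P) (hPab : ∀ x ∈ P, ∀ y ∈ P, x * y = y * x) (c : Set (Cfsg.IrrCharacter (Subgroup.centralizer (P : Set G)))) (hc : Cfsg.IsInducedBlock M (Subgroup.centralizer (P : Set G)) c B) (T : Subgroup G) (hT : ∀ g : G, g ∈ T ↔ (g ∈ Subgroup.normalizer (P : Set G) ∧ Cfsg.StabilizesBlock (Subgroup.centralizer (P : Set G)) c g)) (u : G) (hu : u ∈ P) (huT : ∀ g ∈ T, g * u * g⁻¹ = u) (H : Subgroup G) (hH : H = Subgroup.centralizer ({u} : Set G)) (f : Set (Cfsg.IrrCharacter H)) (hf : Cfsg.IsInducedBlockIn M H (Subgroup.centralizer (P : Set G)) c f) : Cfsg.blockRank p B = Cfsg.blockRank p f ∧ Nat.card B = Nat.card f := by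
  have := hM.2.1
  have := Cfsg.Agent.H41.IsPModular.charP hM
  have hP := Cfsg.Agent.H40.isPGroup_of_isDefectGroup hPD
  have hm := Cfsg.Agent.H40.exists_isMaxEl hM hB hPD hPab hc
  have hfix : ∀ t ∈ Cfsg.Agent.H22.pairStab P
      (Cfsg.Agent.H22.el M (Subgroup.centralizer (P : Set G)) c), t * u * t⁻¹ = u := by
    rintro t ⟨ht1, ht2⟩
    exact huT t ((hT t).2 ⟨ht1, (Cfsg.Agent.H22.stabilizesBlock_iff hc.1
      (Cfsg.Agent.H22.normalizer_le_normalizer_centralizer P ht1)).2 ht2⟩)
  subst hH
  have hPC : P ≤ Subgroup.centralizer ({u} : Set G) := fun y hy =>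
    Subgroup.mem_centralizer_singleton_iff.2 (hPab y hy u hu)
  have hCH : Subgroup.centralizer (P : Set G) ≤ Subgroup.centralizer ({u} : Set G) :=
    Subgroup.centralizer_le (Set.singleton_subset_iff.2 hu)
  exact Cfsg.Agent.H40.Watanabe.rank_and_card hM hB hm hPab hu hfix
    ⟨hf.2.1, (Cfsg.Agent.H22.isInducedBlockIn_iff_below hP hPC hCH hc.1 hf.2.1).1 hf⟩

end Cfsg.Agent.S4644
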