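import Cfsg.Agent.H22.CyclicSubpair
import Cfsg.Agent.S4689
import Cfsg.Statements.S4645

set_option autoImplicit false
open Cfsg Cfsg.Agent

namespace Cfsg.Agent.S4645

/-- Let B be a block of the finite group G relative to a maximal ideal M of the algebraic integers containing the prime p, with a nontrivial cyclic defect group P; let c be a block of C_G(P) inducing B and T the stabilizer of c in N_G(P). Let Q be a nontrivial subgroup of P (so C_G(P) ≤ C_G(Q)), f the block of C_G(Q) induced by c inside C_G(Q), and T' the stabilizer of f in N_G(Q). Then T' = T·C_G(Q), the index of C_G(Q) in T' equals the index of C_G(P) in T, f has p-regular rank 1, and f is a nilpotent block of C_G(Q). -/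
theorem result {G : Type*} [Group G] [Finite G] (p : ℕ) [Fact p.Prime] (M : Ideal Cfsg.AlgInt) (hM : Cfsg.IsPModular p M) (B : Set (Cfsg.IrrCharacter G)) (hB : Cfsg.IsPBlock M B) (P : Subgroup G) (hPD : Cfsg.IsDefectGroup p M B P) (hP1 : P ≠ ⊥) (hcyc : IsCyclic P) (c : Set (Cfsg.IrrCharacter (Subgroup.centralizer (P : Set G)))) (hc : Cfsg.IsInducedBlock M (Subgroup.centralizer (P : Set G)) c B) (T : Subgroup G) (hT : ∀ g : G, g ∈ T ↔ (g ∈ Subgroup.normalizer (P : Set G) ∧ Cfsg.StabilizesBlock (Subgroup.centralizer (P : Set G)) c g)) (Q : Subgroup G) (hQP : Q ≤ P) (hQ1 : Q ≠ ⊥) (f : Set (Cfsg.IrrCharacter (Subgroup.centralizer (Q : Set G)))) (hf : Cfsg.IsInducedBlockIn M (Subgroup.centralizer (Q : Set G)) (Subgroup.centralizer (P : Set G)) c f) (T' : Subgroup G) (hT' : ∀ g : G, g ∈ T' ↔ (g ∈ Subgroup.normalizer (Q : Set G) ∧ Cfsg.StabilizesBlock (Subgroup.centralizer (Q : Set G)) f g)) : T' = T ⊔ Subgroup.centralizer (Q : Set G) ∧ (Subgroup.centralizer (Q : Set G)).relIndex T'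 = (Subgroup.centralizer (P : Set G)).relIndex T ∧ Cfsg.blockRank p f = 1 ∧ Cfsg.IsNilpotentBlock p M f := by
  have := hM.2.1
  have := Cfsg.Agent.H41.IsPModular.charP hM
  have hS := H22.split M G
  have hb : H22.IsBlockEl ⊤ (H22.elTop M B) := H22.isBlockEl_elTop hB
  have hDel := (H22.isDefectGroup_top_iff hM hB).1 hPD
  have hPC : P ≤ Subgroup.centralizer (P : Set G) := H22.le_centralizer_of_cyclic hcyc le_rfl
  have hQC : P ≤ Subgroup.centralizer (Q : Set G) := H22.le_centralizer_of_cyclic hcyc hQP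
  have hpairP : H22.IsPairEl p ⊤ (P, H22.el M (Subgroup.centralizer (P : Set G)) c) :=
    H22.isPairEl_of_isBrauerPair ⟨hDel.pGroup, hc.1⟩
  have hbelB : H22.Below (G := G) (H22.elTop M B)
      (P, H22.el M (Subgroup.centralizer (P : Set G)) c) :=
    H22.cut_elTop_mul_el_of_induced hM hDel.pGroup hPC le_rfl
      (Subgroup.centralizer_le_normalizer _) hc
  have hm := H22.isMaxEl_of_isDefEl hpairP hbelB hDel
  have hfb : IsPBlock M f := hf.2.1
  have hle : H22.NSub p ⊤ (Q, H22.el M (Subgroup.centralizer (Q : Set G)) f)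
      (P, H22.el M (Subgroup.centralizer (P : Set G)) c) :=
    H22.nsub_of_cyclic hpairP hcyc hQP (H22.isBlockEl_el hfb)
      ((H22.isInducedBlockIn_iff_below hDel.pGroup hQC (Subgroup.centralizer_le hQP) hc.1 hfb).1 hf)
  have hnil : IsNilpotentBlock p M f :=
    H22.isNilpotentBlock_sub hfb (H22.isNilEl_centralizer hS hb hm hcyc hle hQ1)
  have hTm : ∀ g : G, g ∈ T ↔
      g ∈ H22.pairStab P (H22.el M (Subgroup.centralizer (P : Set G)) c) := fun g => by
    rw [hT]
    exact ⟨fun h => ⟨h.1, (H22.stabilizesBlock_iff hc.1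
        (H22.normalizer_le_normalizer_centralizer P h.1)).1 h.2⟩,
      fun h => ⟨h.1, (H22.stabilizesBlock_iff hc.1
        (H22.normalizer_le_normalizer_centralizer P h.1)).2 h.2⟩⟩
  have hTm' : ∀ g : G, g ∈ T' ↔
      g ∈ H22.pairStab Q (H22.el M (Subgroup.centralizer (Q : Set G)) f) := fun g => by
    rw [hT']
    exact ⟨fun h => ⟨h.1, (H22.stabilizesBlock_iff hfb
        (H22.normalizer_le_normalizer_centralizer Q h.1)).1 h.2⟩,
      fun h => ⟨h.1, (H22.stabilizesBlock_iff hfb
        (H22.normalizer_le_normalizer_centralizer Q h.1)).2 h.2⟩⟩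
  have hTT : T ≤ T' := fun t ht =>
    (hTm' t).2 (H22.mem_pairStab_of_mem hS hb hm hcyc hle ((hTm t).1 ht))
  have hCT : Subgroup.centralizer (Q : Set G) ≤ T' := fun t ht =>
    (hTm' t).2 (H22.centralizer_le_pairStab (H22.isBlockEl_el hfb) ht)
  have hdec : ∀ t ∈ T', ∃ s ∈ T, s⁻¹ * t ∈ Subgroup.centralizer (Q : Set G) := by
    intro t ht
    obtain ⟨y, hy, hyt⟩ := H22.exists_mul_mem_pairStab hS hb hm hcyc hle ((hTm' t).1 ht)
    have hs : y * t ∈ T := (hTm _).2 hyt
    refine ⟨y * t, hs, ?_⟩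
    have hn : (y * t)⁻¹ ∈
        Subgroup.normalizer ((Subgroup.centralizer (Q : Set G) : Subgroup G) : Set G) :=
      H22.normalizer_le_normalizer_centralizer Q ((hT' _).1 (hTT (inv_mem hs))).1
    have h2 := (Subgroup.mem_normalizer_iff.1 hn y⁻¹).1 (inv_mem hy)
    have h3 : (y * t)⁻¹ * y⁻¹ * (y * t)⁻¹⁻¹ = (y * t)⁻¹ * t := by group
    rwa [h3] at h2
  refine ⟨le_antisymm (fun t ht => ?_) (sup_le hTT hCT), ?_, ?_, hnil⟩
  · obtain ⟨s, hs, hst⟩ := hdec t ht
    simpa using Subgroup.mul_mem_sup hs hst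
  · have hinf : ∀ t ∈ T, t ∈ Subgroup.centralizer (Q : Set G) →
        t ∈ Subgroup.centralizer (P : Set G) := fun t ht htQ =>
      H22.mem_centralizer_of_mem_stab hS hb hm hcyc hle hQ1 ((hTm t).1 ht) htQ
    let ψ : T ⧸ (Subgroup.centralizer (P : Set G)).subgroupOf T →
        T' ⧸ (Subgroup.centralizer (Q : Set G)).subgroupOf T' :=
      Quotient.map' (Subgroup.inclusion hTT) fun a b h => by
        rw [QuotientGroup.leftRel_apply] at h ⊢
        exact Subgroup.centralizer_le hQP h
    refine (Nat.card_eq_of_bijective ψ ⟨?_, ?_⟩).symm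
    · intro a b
      induction a using QuotientGroup.induction_on with | _ a => ?_
      induction b using QuotientGroup.induction_on with | _ b => ?_
      intro h
      refine QuotientGroup.eq.2 ?_
      exact hinf _ (mul_mem (inv_mem a.2) b.2) (QuotientGroup.eq.1 h :)
    · intro b
      induction b using QuotientGroup.induction_on with | _ b => ?_
      obtain ⟨s, hs, hst⟩ := hdec b b.2
      exact ⟨QuotientGroup.mk ⟨s, hs⟩, QuotientGroup.eq.2 hst⟩
  · classical
    have : Fintype (Subgroup.centralizer (Q : Set G)) := Fintype.ofFinite _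
    exact (Cfsg.Agent.S4689.result p M hM f hnil).1

end Cfsg.Agent.S4645
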