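import Cfsg.Statements.S4647
import Cfsg.Agent.H56.MinimalBlockDim
import Cfsg.Agent.H22.PairDefectDict
import Cfsg.Agent.H40.BlockSquares

set_option autoImplicit false
open Cfsg

namespace Cfsg.Agent.S4647

/-- Let B be a block of the finite group G relative to a maximal ideal M of the algebraic integers containing the prime p, p^a the p-part of the order of G and p^d the order of a defect group D of B. If Σ_{χ ∈ B} χ(1)² = p^(2a−d) (the least possible value), then B is nilpotent. -/
theorem result {G : Type*} [Group G] [Finite G] (p : ℕ) [Fact p.Prime] (M : Ideal Cfsg.AlgInt) (hM : Cfsg.IsPModular p M) (B : Set (Cfsg.IrrCharacter G)) (hB : Cfsg.IsPBlock M B) (D : Subgroup G) (hD : Cfsg.IsDefectGroup p M B D) (a d : ℕ) (ha : (Nat.card G).factorization p = a) (hd : Nat.card D = p ^ d) (hmin : ∑ᶠ χ ∈ B, Cfsg.charDegree (χ : G → ℂ) ^ 2 = p ^ (2 * a - d)) : Cfsg.IsNilpotentBlock p M B := by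
  classical
  have := hM.2.1
  have := Fintype.ofFinite G
  have : CharP (Cfsg.Agent.H41.ResField M) p := Cfsg.Agent.H41.IsPModular.charP hM
  have hDel := (H22.isDefectGroup_top_iff hM hB).1 hD
  set b := H22.elTop M B with hbdef
  have hb := H22.isBlockEl_elTop (M := M) hB
  have hbinv : ∀ g, H22.cj g b = b := fun g => hb.cent.inv g (Subgroup.mem_top g)
  set β : G → Cfsg.Agent.H41.ResField M := fun g => b.coeff g with hβdef
  have hcl : ∀ g h, β (h * g * h⁻¹) = β g := fun g h => hb.cent.inv.coeff (Subgroup.mem_top h) g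
  have hid : ∀ z, ∑ y, β y * β (y⁻¹ * z) = β z := fun z => by
    have := congrArg (fun e => e.coeff z) hb.idem
    rw [← hbdef, H40.coeff_mul_eq_sum] at this
    exact this
  have hcut : ∀ R : Subgroup G, H22.cut (Subgroup.centralizer (R : Set G)) b ≠ 0 ↔
      ∃ y ∈ Subgroup.centralizer (R : Set G), β y ≠ 0 := by
    intro R
    constructor
    · intro h
      obtain ⟨y, hy⟩ := H22.exists_coeff_ne_zero h
      have hyR : y ∈ Subgroup.centralizer (R : Set G) := H22.supp_cut _ _ y hy
      exact ⟨y, hyR, by rwa [H22.coeff_cut_of_mem _ hyR] at hy⟩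
    · rintro ⟨y, hy, hy0⟩ h
      refine hy0 ?_
      show b.coeff y = 0
      rw [← H22.coeff_cut_of_mem b hy, h]
      rfl
  have hmax : ∀ R : Subgroup G, IsPGroup p R →
      (∃ y ∈ Subgroup.centralizer (R : Set G), β y ≠ 0) → Nat.card R ≤ p ^ d := by
    intro R hR h
    rw [← hd]
    exact hDel.card_le le_top hR ((hcut R).2 h)
  -- the rank of the block algebra
  have hrk : (H56.MinDim.convMat β).rank = p ^ (2 * a - d) := by
    let R := Cfsg.Agent.H41.localRing M
    let A : Matrix G G R := fun z u =>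
      ⟨Cfsg.blockCoeff B (u⁻¹ * z), Cfsg.Agent.H41.blockCoeff_mem hB _⟩
    have hid' : ∀ z, ∑ y, Cfsg.blockCoeff B y * Cfsg.blockCoeff B (y⁻¹ * z) = Cfsg.blockCoeff B z := by
      intro z
      have h1 : Cfsg.Agent.H41.blockIdem B * Cfsg.Agent.H41.blockIdem B =
          Cfsg.Agent.H41.blockIdem B := by
        refine Cfsg.Agent.H41.center_ext_omega fun φ => ?_
        rw [map_mul, Cfsg.Agent.H41.omega_blockIdem]
        split <;> simp
      have := congrArg
        (fun e : ↥(Subalgebra.center ℂ (MonoidAlgebra ℂ G)) => (e : MonoidAlgebra ℂ G).coeff z) h1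
      simp only [MulMemClass.coe_mul, H40.coeff_mul_eq_sum,
        Cfsg.Agent.H41.coeff_blockIdem] at this
      exact this
    have hι : A.map R.subtype = H56.MinDim.convMat (Cfsg.blockCoeff B) := rfl
    have hA : A * A = A := by
      refine Matrix.map_injective R.subtype_injective ?_
      show (A * A).map R.subtype = A.map R.subtype
      rw [Matrix.map_mul, hι]
      exact H56.MinDim.convMat_idem hid'
    have hφ : A.map (Cfsg.Agent.H41.res M) = H56.MinDim.convMat β := by
      ext z u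
      show Cfsg.Agent.H41.res M _ = b.coeff (u⁻¹ * z)
      rw [hbdef, H22.coeff_elTop, H22.resT_of_mem (Cfsg.Agent.H41.blockCoeff_mem hB _)]
    rw [← hφ, H56.MinDim.rank_map_eq _ R.subtype Cfsg.Agent.H41.res_surjective R.subtype_injective hA,
      hι]
    apply Nat.cast_injective (R := ℂ)
    rw [← H56.MinDim.trace_eq_rank (H56.MinDim.convMat_idem hid'), ← hmin, Matrix.trace]
    have := Cfsg.Agent.H41.finite_irrCharacter (G := G)
    have := Fintype.ofFinite (Cfsg.IrrCharacter G)
    rw [finsum_mem_eq_finite_toFinset_sum _ (Set.toFinite B), Nat.cast_sum]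
    simp only [Matrix.diag, H56.MinDim.convMat, inv_mul_cancel, Finset.sum_const, Finset.card_univ]
    rw [Cfsg.blockCoeff, finsum_mem_eq_finite_toFinset_sum _ (Set.toFinite B), nsmul_eq_mul,
      ← Nat.card_eq_fintype_card, ← mul_assoc, mul_inv_cancel₀ (Nat.cast_ne_zero.2 Nat.card_pos.ne'),
      one_mul]
    refine Finset.sum_congr rfl fun χ _ => ?_
    rw [Cfsg.Agent.H42.irr_one_eq, Complex.conj_natCast]
    push_cast
    ring
  refine ⟨hB, fun Q e he x hxN _ hxr => ?_⟩
  have hQp : IsPGroup p Q := he.1.1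
  have hQne : H22.cut (Subgroup.centralizer (Q : Set G)) b ≠ 0 := by
    intro h0
    have hbel := (H22.isBrauerPairOf_iff hB he.1).1 he
    have hel := (H22.isBlockEl_el (M := M) he.1.2).ne_zero
    refine hel ?_
    have h1 : H22.cut (Subgroup.centralizer (Q : Set G)) b *
      H22.el M (Subgroup.centralizer (Q : Set G)) e = H22.el M (Subgroup.centralizer (Q : Set G)) e := hbel
    rw [← h1, h0, zero_mul]
  obtain ⟨S, hQS⟩ := hQp.exists_le_sylow
  have hDp : IsPGroup p D := hDel.pGroup
  obtain ⟨S₀, hDS₀⟩ := hDp.exists_le_sylow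
  obtain ⟨h, hh⟩ := MulAction.exists_smul_eq G S₀ S
  have hDS : H22.cS h D ≤ (S : Subgroup G) := by
    rw [← hh]
    exact (H22.cS_mono hDS₀).trans_eq rfl
  have hD1 : H22.cut (Subgroup.centralizer ((H22.cS h D : Subgroup G) : Set G)) b ≠ 0 := by
    rw [← H22.cS_centralizer, ← hbinv h, ← H22.cj_cut]
    exact fun e' => hDel.ne_zero ((H22.cj h).injective (e'.trans (map_zero _).symm))
  obtain ⟨n, hn, hxn⟩ := H56.MinDim.exists_mul_mem_centralizer (β := β) S.2
    (a := a) (d := d) (by rw [Sylow.card_eq_multiplicity, ha]) hcl hid hmax hDS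
    ((hcut _).1 hD1) (by rw [H22.card_cS, hd]) hrk.le hQS ((hcut Q).1 hQne) hxN
  have hnN : n ∈ Subgroup.normalizer (Q : Set G) := by
    have := Subgroup.mul_mem _ (Subgroup.inv_mem _ hxN)
      (Subgroup.centralizer_le_normalizer (Q : Set G) hxn)
    rwa [inv_mul_cancel_left] at this
  let f := Subgroup.normalizerMonoidHom Q
  have hker : ∀ y : ↥(Subgroup.normalizer (Q : Set G)), f y = 1 ↔
      (y : G) ∈ Subgroup.centralizer (Q : Set G) := fun y => by
    rw [← MonoidHom.mem_ker, Subgroup.normalizerMonoidHom_ker, Subgroup.mem_subgroupOf]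
  have h1 : f ⟨x, hxN⟩ * f ⟨n, hnN⟩ = 1 := by
    rw [← map_mul, hker]
    exact hxn
  obtain ⟨j, hj⟩ := IsPGroup.iff_orderOf.1 S.2 ⟨n, hn⟩
  rw [← Subgroup.orderOf_coe] at hj
  have h2 : orderOf (f ⟨x, hxN⟩) ∣ p ^ j := by
    rw [eq_inv_of_mul_eq_one_left h1, orderOf_inv, ← hj]
    refine (orderOf_map_dvd f _).trans ?_
    rw [← Subgroup.orderOf_coe]
  have h3 : orderOf (f ⟨x, hxN⟩) ∣ orderOf x := by
    refine (orderOf_map_dvd f _).trans ?_
    rw [← Subgroup.orderOf_coe]
  have h4 : orderOf (f ⟨x, hxN⟩) = 1 :=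
    Nat.eq_one_of_dvd_coprimes
      (Nat.Coprime.pow_left j (((Fact.out : p.Prime).coprime_iff_not_dvd).2 hxr)) h2 h3
  exact (hker _).1 (orderOf_eq_one_iff.1 h4)

end Cfsg.Agent.S4647
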