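import Cfsg.Statements.S4649
import Cfsg.Agent.H20.Cyclic.Local
import Cfsg.Agent.S4689
-- import your own Cfsg.Agent.* helpers here

set_option autoImplicit false
open Cfsg

namespace Cfsg.Agent.S4649

/-- A block with cyclic defect group, of a finite group relative to a maximal ideal M of the algebraic integers containing the prime p, is nilpotent if and only if its p-regular rank is 1 (it has a unique irreducible Brauer character). -/
theorem result {G : Type*} [Group G] [Finite G] (p : ℕ) [Fact p.Prime] (M : Ideal Cfsg.AlgInt) (hM : Cfsg.IsPModular p M) (B : Set (Cfsg.IrrCharacter G)) (hB : Cfsg.IsPBlock M B) (P : Subgroup G) (hPD : Cfsg.IsDefectGroup p M B P) (hcyc : IsCyclic P) : Cfsg.IsNilpotentBlock p M B ↔ Cfsg.blockRank p B = 1 := by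
  have := hM.2.1
  have := Cfsg.Agent.H41.IsPModular.charP hM
  classical
  have := Fintype.ofFinite G
  refine ⟨fun h => (Cfsg.Agent.S4689.result p M hM B h).1, fun hl => ?_⟩
  have hS := H22.split M G
  have hb := H22.isBlockEl_elTop (M := M) hB
  obtain ⟨e, hm⟩ := H40.NilpotentBlocks.exists_isMaxEl_of_defect hM hB hPD
  have hab : ∀ x ∈ P, ∀ y ∈ P, x * y = y * x := fun x hx y hy => by
    let _ := hcyc.commGroup
    exact congrArg Subtype.val (mul_comm (⟨x, hx⟩ : P) ⟨y, hy⟩)
  rw [H22.isNilpotentBlock_top_iff hB]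
  intro Q g hQ hbel x _ hxN hxg _
  obtain ⟨h, -, hh⟩ := H22.exists_conj_ple hS hb hQ hbel hm
  dsimp only at hh
  have hy : h * x * h⁻¹ ∈ H22.pairStab (H22.cS h Q) (H22.cj h g) := by
    rw [← H22.cS_pairStab]
    exact H22.conj_mem_cS ⟨hxN, hxg⟩
  have key : h * x * h⁻¹ ∈ Subgroup.centralizer ((H22.cS h Q : Subgroup G) : Set G) := by
    rcases eq_or_ne P ⊥ with hP1 | hP1
    · refine Subgroup.mem_centralizer_iff.2 fun q hq => ?_
      have hq1 : q ∈ P := hh.le hq
      rw [hP1, Subgroup.mem_bot] at hq1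
      rw [hq1, one_mul, mul_one]
    · obtain ⟨y, hyT, c, hc, hyc⟩ := H22.exists_factor_abelian hS hb hm hab hh hy
      have hle := H20.Cyclic.relIndex_le_blockRank hM hB hm hcyc hP1
      rw [hl] at hle
      have h1 : H22.pairStab P e ≤ Subgroup.centralizer (P : Set G) :=
        Subgroup.relIndex_eq_one.1 (le_antisymm hle
          (Nat.one_le_iff_ne_zero.2 Subgroup.index_ne_zero_of_finite))
      rw [hyc]
      exact mul_mem (Subgroup.centralizer_le (SetLike.coe_subset_coe.2 hh.le) (h1 hyT)) hc
  rw [← H22.cS_centralizer] at key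
  simpa [mul_assoc] using H22.mem_cS.1 key

end Cfsg.Agent.S4649
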