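import Cfsg.Agent.H22.PairExtra
import Cfsg.Agent.H22.PairInducedIn
import Cfsg.Agent.H22.PairPiKernel
import Cfsg.Statements.S4650

set_option autoImplicit false
open Cfsg

namespace Cfsg.Agent.S4650

/-- Let B be a block of the finite group G relative to a maximal ideal M of the algebraic integers containing the prime p, with a nontrivial commutative defect group P; let c be a block of C_G(P) inducing B and T the stabilizer of c in N_G(P). Then T/C_G(P) acts freely on the non-identity elements of P (an element of T fixing a non-identity element of P under conjugation lies in C_G(P)) if and only if, for every nontrivial subgroup Q of P, the block of C_G(Q) induced by c inside C_G(Q) is a nilpotent block of C_G(Q). -/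
theorem result {G : Type*} [Group G] [Finite G] (p : ℕ) [Fact p.Prime] (M : Ideal Cfsg.AlgInt) (hM : Cfsg.IsPModular p M) (B : Set (Cfsg.IrrCharacter G)) (hB : Cfsg.IsPBlock M B) (P : Subgroup G) (hPD : Cfsg.IsDefectGroup p M B P) (hPab : ∀ x ∈ P, ∀ y ∈ P, x * y = y * x) (hP1 : P ≠ ⊥) (c : Set (Cfsg.IrrCharacter (Subgroup.centralizer (P : Set G)))) (hc : Cfsg.IsInducedBlock M (Subgroup.centralizer (P : Set G)) c B) (T : Subgroup G) (hT : ∀ g : G, g ∈ T ↔ (g ∈ Subgroup.normalizer (P : Set G) ∧ Cfsg.StabilizesBlock (Subgroup.centralizer (P : Set G)) c g)) : (∀ g ∈ T, ∀ x ∈ P, x ≠ 1 → g * x * g⁻¹ = x → g ∈ Subgroup.centralizer (P : Set G)) ↔ ∀ Q : Subgroup G, Q ≤ P → Q ≠ ⊥ → ∀ f : Set (Cfsg.IrrCharacter (Subgroup.centralizer (Q : Set G))), Cfsg.IsInducedBlockIn M (Subgroup.centralizer (Q : Set G)) (Subgroup.centralizer (P : Set G)) c f → Cfsg.IsNilpotentBlock p M f := by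
  have := hM.2.1
  have := Cfsg.Agent.H41.IsPModular.charP hM
  classical
  have hS := H22.split M G
  have hPp : IsPGroup p P := Cfsg.Agent.H40.isPGroup_of_isDefectGroup hPD
  have hPC : P ≤ Subgroup.centralizer (P : Set G) := fun y hy =>
    Subgroup.mem_centralizer_iff.2 fun q hq => hPab q hq y hy
  set gc := H22.el M (Subgroup.centralizer (P : Set G)) c with hgc_def
  have hg : H22.IsBlockEl (Subgroup.centralizer (P : Set G)) gc := H22.isBlockEl_el hc.1
  have hgb : H22.Below (H22.elTop M B) (P, gc) := H22.below_elTop_of_induced hc hPp hPC le_rfl hg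
    (show H22.cut _ gc * gc = gc by rw [H22.cut_of_supp hg.cent.supp, hg.idem])
  have hb := H22.isBlockEl_elTop hB
  have hpair : H22.IsPairEl p ⊤ (P, gc) := ⟨le_top, hPp, by rw [H22.cen_top]; exact hg⟩
  have hD := (H22.isDefectGroup_top_iff hM hB).1 hPD
  have hm : H22.IsMaxEl p ⊤ (H22.elTop M B) (P, gc) := H22.isMaxEl_of_isDefEl hpair hgb hD
  have hTe := H22.eq_pairStab (M := M) hc.1 hT
  -- a subpair and its local maximal pair
  have hloc : ∀ Q : Subgroup G, Q ≤ P → ∀ f, H22.IsPairEl p ⊤ (Q, f) →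
      H22.Below f (P, gc) → H22.NSub p ⊤ (Q, f) (P, gc) ∧
        H22.IsMaxEl p (Subgroup.centralizer (Q : Set G)) f (P, gc) := by
    intro Q hQP f hQ hbel
    have hPQ : P ≤ Subgroup.centralizer (Q : Set G) :=
      hPC.trans (Subgroup.centralizer_le (SetLike.coe_subset_coe.2 hQP))
    have hcen : H22.cen (Subgroup.centralizer (Q : Set G)) P = Subgroup.centralizer (P : Set G) :=
      inf_eq_left.2 (Subgroup.centralizer_le (SetLike.coe_subset_coe.2 hQP))
    have hp' : H22.IsPairEl p (Subgroup.centralizer (Q : Set G)) (P, gc) :=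
      ⟨hPQ, hPp, by rw [hcen]; exact hg⟩
    have hns : H22.NSub p ⊤ (Q, f) (P, gc) := by
      have h := H22.nsub_join hQ hp' hbel
      rwa [sup_eq_right.2 hQP] at h
    refine ⟨hns, hp', hbel, fun ⟨R, g⟩ hg' hle => (Subgroup.eq_of_le_of_card_ge hle.le ?_).symm⟩
    have hns' := H22.nsub_join hQ (hle.right hp') hg'
    rw [sup_eq_right.2 (hQP.trans hle.le)] at hns'
    exact hD.card_le le_top hns'.right.pGroup
      (H22.below_ne_zero hns'.right ((hns'.below_iff hb).1 ((hns.below_iff hb).2 hgb)))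
  constructor
  · intro hfree Q hQP hQ1 f hf
    have hPQ : P ≤ Subgroup.centralizer (Q : Set G) :=
      hPC.trans (Subgroup.centralizer_le (SetLike.coe_subset_coe.2 hQP))
    have hbel := (H22.isInducedBlockIn_iff_below hPp hPQ
      (Subgroup.centralizer_le (SetLike.coe_subset_coe.2 hQP)) hf.1 hf.2.1).1 hf
    have hQ : H22.IsPairEl p ⊤ (Q, H22.el M (Subgroup.centralizer (Q : Set G)) f) :=
      H22.isPairEl_of_isBrauerPair ⟨hPp.to_le hQP, hf.2.1⟩
    obtain ⟨hns, hmH⟩ := hloc Q hQP _ hQ hbel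
    have hfe := H22.isBlockEl_el (M := M) hf.2.1
    refine H22.isNilpotentBlock_sub hf.2.1 fun R g hR hRb x hxH hxN hxg _ => ?_
    obtain ⟨h, hh, hle⟩ := H22.exists_conj_ple hS hfe hR hRb hmH
    dsimp only at hle
    set R' := H22.cS h R with hR'
    have hR'P : R' ≤ P := hle.le
    have hnsH : H22.NSub p (Subgroup.centralizer (Q : Set G)) (R', H22.cj h g) (P, gc) :=
      hle.nsub hS hmH.pair (hPC.trans ((Subgroup.centralizer_le (SetLike.coe_subset_coe.2 hR'P)).trans
        (Subgroup.centralizer_le_normalizer _)))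
    have hR'b : H22.Below (H22.el M (Subgroup.centralizer (Q : Set G)) f) (R', H22.cj h g) :=
      (hle.below_iff hfe).2 hmH.below
    have hns1 := H22.nsub_join hQ hnsH.left hR'b
    have hns2 : H22.NSub p ⊤ (Q ⊔ R', H22.cj h g) (P, gc) :=
      ⟨hns1.right, hpair, sup_le hQP hR'P,
        (hPC.trans (Subgroup.centralizer_le (SetLike.coe_subset_coe.2 (sup_le hQP hR'P)))).trans
          (Subgroup.centralizer_le_normalizer _), hnsH.inv, hnsH.occ⟩
    have hy : h * x * h⁻¹ ∈ H22.pairStab (Q ⊔ R') (H22.cj h g) := by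
      have hxQ : x ∈ Subgroup.normalizer ((Q ⊔ R : Subgroup G) : Set G) := H22.mem_normalizer_of_cS (by
        rw [show H22.cS x (Q ⊔ R) = H22.cS x Q ⊔ H22.cS x R from Subgroup.map_sup _ _ _,
          H22.cS_eq_self (Subgroup.centralizer_le_normalizer _ hxH), H22.cS_eq_self hxN])
      have h1 : H22.cS h (Q ⊔ R) = Q ⊔ R' := by
        rw [show H22.cS h (Q ⊔ R) = H22.cS h Q ⊔ H22.cS h R from Subgroup.map_sup _ _ _,
          H22.cS_eq_self (Subgroup.centralizer_le_normalizer _ hh)]
      rw [← h1, ← H22.cS_pairStab]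
      exact H22.conj_mem_cS ⟨hxQ, hxg⟩
    obtain ⟨y, hy', c', hc', hyc⟩ :=
      H22.exists_factor_abelian hS hb hm hPab (Relation.ReflTransGen.single hns2) hy
    obtain ⟨⟨a, ha⟩, ha0⟩ := (Subgroup.ne_bot_iff_exists_ne_one.1 hQ1)
    have ha1 : a ≠ 1 := fun h => ha0 (Subtype.ext h)
    have hyQ : y ∈ Subgroup.centralizer (Q : Set G) := by
      rw [show y = h * x * h⁻¹ * c'⁻¹ by rw [hyc, mul_inv_cancel_right]]
      exact mul_mem (mul_mem (mul_mem hh hxH) (inv_mem hh))
        (inv_mem (Subgroup.centralizer_le (SetLike.coe_subset_coe.2 le_sup_left) hc'))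
    have hyP : y ∈ Subgroup.centralizer (P : Set G) := by
      refine hfree y (hTe ▸ hy') a (hQP ha) ha1 ?_
      rw [← Subgroup.mem_centralizer_iff.1 hyQ a ha, mul_inv_cancel_right]
    have hgx : h * x * h⁻¹ ∈ Subgroup.centralizer (R' : Set G) := by
      rw [hyc]
      exact mul_mem (Subgroup.centralizer_le (SetLike.coe_subset_coe.2 hR'P) hyP)
        (Subgroup.centralizer_le (SetLike.coe_subset_coe.2 le_sup_right) hc')
    rw [hR', ← H22.cS_centralizer] at hgx
    simpa [mul_assoc] using H22.mem_cS.1 hgx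
  · intro hnil t ht x hxP hx1 htx
    set Q := Subgroup.zpowers x with hQ
    have hQP : Q ≤ P := Subgroup.zpowers_le.2 hxP
    have hQ1 : Q ≠ ⊥ := fun h => hx1 (Subgroup.zpowers_eq_bot.1 h)
    have hPQ : P ≤ Subgroup.centralizer (Q : Set G) :=
      hPC.trans (Subgroup.centralizer_le (SetLike.coe_subset_coe.2 hQP))
    obtain ⟨fe, hns, -⟩ := H22.existsUnique_nsub hS hpair hQP
      (hPQ.trans (Subgroup.centralizer_le_normalizer _))
    obtain ⟨f, hf, hfeq⟩ := H22.exists_of_isPairEl hns.left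
    subst hfeq
    have hbel : H22.Below (H22.el M (Subgroup.centralizer (Q : Set G)) f) (P, gc) := hns.occ
    have hnilf := H22.isNilEl_el (hnil Q hQP hQ1 f ((H22.isInducedBlockIn_iff_below hPp hPQ
      (Subgroup.centralizer_le (SetLike.coe_subset_coe.2 hQP)) hc.1 hf.2).2 hbel))
    obtain ⟨-, hmH⟩ := hloc Q hQP _ hns.left hbel
    have htQ : t ∈ Subgroup.centralizer (Q : Set G) := by
      rw [hQ, Subgroup.zpowers_eq_closure, Subgroup.centralizer_closure,
        Subgroup.mem_centralizer_singleton_iff]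
      calc t * x = (t * x * t⁻¹) * t := by group
        _ = x * t := by rw [htx]
    have ht' : t ∈ H22.pairStab P gc := hTe ▸ ht
    obtain ⟨a, ha⟩ := H22.exists_pow_regular (p := p) t
    exact H22.mem_centralizer_of_pow hS hb hm hPab ht' (hnilf P gc hmH.pair hbel _ (pow_mem htQ _)
      (pow_mem ht'.1 _) ((H22.stabEl gc).pow_mem ht'.2 _) ha)

end Cfsg.Agent.S4650
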