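import Cfsg.Statements.S4651
import Cfsg.Agent.H40.ChainCounts
import Cfsg.Agent.H40.ChainPairing

set_option autoImplicit false
open Cfsg

namespace Cfsg.Agent.S4651

/-- An alternating-sum identity over chains of p-subgroups (the character-count form behind the chain reformulation of Alperin's weight conjecture, which holds unconditionally for the difference k − l). Let b be a block of the finite group G relative to a maximal ideal M of the algebraic integers containing the prime p. Consider the nonempty chains s = {Q_0 < Q_1 < ⋯ < Q_m} of nontrivial p-subgroups of G in which every member is normal in the largest member; let N_G(s) be the intersection of the normalizers of the members (the stabilizer of the chain), and let b_s be the set of irreducible characters of N_G(s) lying in blocks of N_G(s) that induce b. Then #G · (k(b) − l(b)) equals the sum over all such chains s of (−1)^m · #N_G(s) · (k(b_s) − l(b_s)), where k counts irreducible characters and l is the p-regular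 rank; equivalently, k(b) − l(b) is the alternating sum of k(b_s) − l(b_s) over representatives of the conjugacy classes of such chains. -/
theorem result {G : Type*} [Group G] [Finite G] (p : ℕ) [Fact p.Prime] (M : Ideal Cfsg.AlgInt) (hM : Cfsg.IsPModular p M) (b : Set (Cfsg.IrrCharacter G)) (hb : Cfsg.IsPBlock M b) : (Nat.card G : ℤ) * ((Nat.card b : ℤ) - (Cfsg.blockRank p b : ℤ)) = ∑ᶠ s ∈ {s : Finset (Subgroup G) | s.Nonempty ∧ (∀ Q ∈ s, ∀ R ∈ s, Q ≤ R ∨ R ≤ Q) ∧ (∀ Q ∈ s, Q ≠ ⊥ ∧ IsPGroup p Q) ∧ ∃ T ∈ s, ∀ Q ∈ s, Q ≤ T ∧ T ≤ Subgroup.normalizer ((Q : Subgroup G) : Set G)}, (-1 : ℤ) ^ (s.card - 1) * (Nat.card (((⨅ Q ∈ s, Subgroup.normalizer ((Q : Subgroup G) : Set G) : Subgroup G))) : ℤ) * ((Nat.card {ψ : Cfsg.IrrCharacter (((⨅ Q ∈ s, Subgroup.normalizer ((Q : Subgroup G) : Set G) : Subgroup G))) | ∃ β : Set (Cfsg.IrrCharacter (((⨅ Q ∈ s, Subgroup.normalizer ((Q : Subgroup G) : Set G) : Subgroup G)))), ψ ∈ β ∧ Cfsg.IsInducedBlock M (((⨅ Q ∈ s, Subgroup.normalizer ((Q : Subgroup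 G) : Set G) : Subgroup G))) β b} : ℤ) - (Cfsg.blockRank p {ψ : Cfsg.IrrCharacter (((⨅ Q ∈ s, Subgroup.normalizer ((Q : Subgroup G) : Set G) : Subgroup G))) | ∃ β : Set (Cfsg.IrrCharacter (((⨅ Q ∈ s, Subgroup.normalizer ((Q : Subgroup G) : Set G) : Subgroup G)))), ψ ∈ β ∧ Cfsg.IsInducedBlock M (((⨅ Q ∈ s, Subgroup.normalizer ((Q : Subgroup G) : Set G) : Subgroup G))) β b} : ℤ)) := by
  classical
  have := hM.2.1
  have := Fintype.ofFinite G
  let P : G → Prop := fun g => (∃ k : ℕ, orderOf g = p ^ k) ∧ g ≠ 1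
  let F : Subgroup G → ℤ := Cfsg.Agent.H40.ChainCounts.weight p M b
  let S := (Set.toFinite {s : Finset (Subgroup G) | Cfsg.Agent.H40.ChainPairing.IsNChain p s}).toFinset
  have hterm : ∀ s : Finset (Subgroup G), (Nat.card (Cfsg.Agent.H40.ChainPairing.stab s) : ℤ) *
      ((Nat.card (Cfsg.Agent.H40.ChainCounts.indUnion M (Cfsg.Agent.H40.ChainPairing.stab s) b) : ℤ) -
        (Cfsg.blockRank p
          (Cfsg.Agent.H40.ChainCounts.indUnion M (Cfsg.Agent.H40.ChainPairing.stab s) b) : ℤ)) =
      ∑ g ∈ Finset.univ.filter P, if g ∈ Cfsg.Agent.H40.ChainPairing.stab s then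
        F (Cfsg.Agent.H40.ChainPairing.stab s ⊓ Subgroup.centralizer ({g} : Set G)) else 0 := by
    intro s
    rw [Cfsg.Agent.H40.ChainCounts.excess_eq hM hb, ← Finset.sum_filter, Finset.filter_filter]
  have hlhs := Cfsg.Agent.H40.ChainCounts.excess_top hM hb
  rw [hlhs]
  refine Eq.trans ?_ (finsum_mem_eq_finite_toFinset_sum _ (Set.toFinite _)).symm
  refine Eq.trans ?_ (Finset.sum_congr (s₁ := S)
    (g := fun s => (-1 : ℤ) ^ (s.card - 1) * ∑ g ∈ Finset.univ.filter P,
      if g ∈ Cfsg.Agent.H40.ChainPairing.stab s then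
        F (Cfsg.Agent.H40.ChainPairing.stab s ⊓ Subgroup.centralizer ({g} : Set G)) else 0)
    rfl (fun s _ => (mul_assoc _ _ _).trans
      (congrArg (fun z : ℤ => (-1 : ℤ) ^ (s.card - 1) * z) (hterm s)))).symm
  simp only [Finset.mul_sum, mul_ite, mul_zero]
  rw [Finset.sum_comm]
  refine Finset.sum_congr rfl fun g hg => ?_
  obtain ⟨⟨k, hk⟩, hg1⟩ := (Finset.mem_filter.1 hg).2
  rw [← Finset.sum_filter]
  refine ((Finset.sum_congr rfl fun s _ => (smul_eq_mul _ _).symm).trans
    (Cfsg.Agent.H40.ChainPairing.sum_signed_eq hg1 (IsPGroup.of_card (n := k)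
      (by rw [Nat.card_zpowers, hk])) _ (fun s => ?_) F)).symm
  simp [S]

end Cfsg.Agent.S4651
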