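import Cfsg.Statements.S4654
import Cfsg.Agent.H40.NormalPair

set_option autoImplicit false
open Cfsg

namespace Cfsg.Agent.S4654

/-- Fix a prime p and a maximal ideal M of the algebraic integers containing p. Let P be a normal p-subgroup of the finite group G, B a p-block of G and e a p-block of C_G(P) such that (P, e) is a Brauer pair of B (as P is normal, this says that e occurs in the idempotent of B, which is supported on C_G(P)). Let T be the stabilizer of e in G under conjugation. Then the idempotent of e is a block idempotent of T: some block E of T has, at every element of T, the same idempotent coefficient as e (zero off C_G(P)); and the idempotent of B is the sum of the distinct G-conjugates of the idempotent of e: its coefficient at g is the sum over all x in G of the coefficient of e at x⁻¹ g x, divided by the order of T. -/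
theorem result {G : Type*} [Group G] [Fintype G] (p : ℕ) [Fact p.Prime] (M : Ideal Cfsg.AlgInt) (hM : Cfsg.IsPModular p M) (P : Subgroup G) [P.Normal] (hP : IsPGroup p P) (B : Set (Cfsg.IrrCharacter G)) (e : Set (Cfsg.IrrCharacter (Subgroup.centralizer (P : Set G)))) (hBe : Cfsg.IsBrauerPairOf p M B P e) (T : Subgroup G) (hT : ∀ x : G, x ∈ T ↔ Cfsg.StabilizesBlock (Subgroup.centralizer (P : Set G)) e x) : (∃ E : Set (Cfsg.IrrCharacter T), Cfsg.IsPBlock M E ∧ ∀ t : T, Cfsg.blockCoeff E t = Cfsg.subgroupBlockCoeff (Subgroup.centralizer (P : Set G)) e (t : G)) ∧ ∀ g : G, Cfsg.blockCoeff B g = (Nat.card T : ℂ)⁻¹ * ∑ x : G, Cfsg.subgroupBlockCoeff (Subgroup.centralizer (P : Set G)) e (x⁻¹ * g * x) := by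
  classical
  have := hM.2.1
  have := Cfsg.Agent.H41.IsPModular.charP hM
  have hn : Subgroup.normalizer (P : Set G) = ⊤ := Subgroup.normalizer_eq_top (H := P)
  have he := hBe.1.2
  refine ⟨?_, fun g => ?_⟩
  · obtain ⟨E, hE, hcoef, -⟩ := Cfsg.Agent.H22.exists_stab_block (T := T) hP he
      (fun y => by rw [hT, hn]; simp)
    exact ⟨E, hE, hcoef⟩
  have : Fintype (Subgroup.centralizer (P : Set G)) := Fintype.ofFinite _
  have : (Subgroup.centralizer (P : Set G)).Normal := inferInstance
  have hstab : ∀ y : G, y ∈ T ↔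
      ∀ θ ∈ e, Cfsg.Agent.H43.irrConj (Subgroup.centralizer (P : Set G)) y θ ∈ e := by
    intro y
    rw [← inv_mem_iff (x := y), hT]
    constructor
    · rintro ⟨-, h⟩ θ hθ
      obtain ⟨θ', hθ', hc⟩ := h θ hθ
      convert hθ' using 1
      refine Subtype.ext (funext fun n => ?_)
      rw [Cfsg.Agent.H43.irrConj_apply]
      exact (hc _ n (by simp [mul_assoc])).symm
    · intro h
      refine ⟨by simp [Subgroup.normalizer_eq_top], fun θ hθ => ⟨_, h θ hθ, fun k k' hk => ?_⟩⟩
      rw [Cfsg.Agent.H43.irrConj_apply]
      exact congrArg _ (Subtype.ext (by simp [hk, mul_assoc]))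
  have S : Cfsg.Agent.H26.FRSetup (Subgroup.centralizer (P : Set G)) M e T :=
    { isBlock := he
      le := fun y hy => (hstab y).2 ((Cfsg.Agent.H26.frSetup_blockStab he).stab y |>.1
        ((Cfsg.Agent.H26.frSetup_blockStab he).le hy))
      stab := hstab }
  rw [Cfsg.Agent.H40.blockCoeff_eq_indFun hP S hBe g, Cfsg.indFun]
  congr 1
  refine Finset.sum_congr rfl fun x _ => ?_
  by_cases hx : x⁻¹ * g * x ∈ T
  · rw [Cfsg.Agent.H25.extendByZero_of_mem T _ hx]
    rfl
  · rw [Cfsg.Agent.H25.extendByZero_of_notMem T _ hx, Cfsg.subgroupBlockCoeff,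
      dif_neg fun h => hx (S.le h)]

end Cfsg.Agent.S4654
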