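import Cfsg.Agent.H22.PairDict
import Cfsg.Statements.S4656

set_option autoImplicit false
open Cfsg

namespace Cfsg.Agent.S4656

/-- Fix a prime p and a maximal ideal M of the algebraic integers containing p. Let (P, e) be a Brauer pair of the finite group G and Q a normal subgroup of P. Then there is exactly one p-block f of C_G(Q) that is stable under conjugation by P and such that e occurs in the Brauer-map image at P of the idempotent of f; that is, exactly one f with (Q, f) normally below (P, e). -/
theorem result {G : Type*} [Group G] [Fintype G] (p : ℕ) [Fact p.Prime] (M : Ideal Cfsg.AlgInt) (hM : Cfsg.IsPModular p M) (P Q : Subgroup G) (e : Set (Cfsg.IrrCharacter (Subgroup.centralizer (P : Set G)))) (hPe : Cfsg.IsBrauerPair p M P e) (hQP : Q ≤ P) (hPN : P ≤ Subgroup.normalizer (Q : Set G)) : ∃! f : Set (Cfsg.IrrCharacter (Subgroup.centralizer (Q : Set G))), Cfsg.IsNormalSubpair p M Q f P e := by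
  have := hM.2.1
  have := Cfsg.Agent.H41.IsPModular.charP hM
  have hS := H22.split M G
  obtain ⟨f, hf, hu⟩ := H22.existsUnique_nsub hS (H22.isPairEl_of_isBrauerPair hPe) hQP hPN
  obtain ⟨f', hf', rfl⟩ := H22.exists_of_isPairEl hf.left
  refine ⟨f', (H22.normalSubpair_iff (a := ⟨Q, f'⟩) (b := ⟨P, e⟩) hf' hPe).2 hf, fun g hg => ?_⟩
  exact H22.el_inj hg.1.2 hf'.2
    (hu _ ((H22.normalSubpair_iff (a := ⟨Q, g⟩) (b := ⟨P, e⟩) hg.1 hPe).1 hg))

end Cfsg.Agent.S4656
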