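import Cfsg.Agent.H22.PairDefectDict
import Cfsg.Statements.S4660

set_option autoImplicit false
open Cfsg

namespace Cfsg.Agent.S4660

/-- Fix a prime p and a maximal ideal M of the algebraic integers containing p. Let (P, e) be a maximal Brauer pair of the p-block B of the finite group G and (Q, f) any Brauer pair of B. Then some conjugate of (Q, f) lies below (P, e): there is x in G such that (x Q x⁻¹, conjugate of f by x) ≤ (P, e). -/
theorem result {G : Type*} [Group G] [Fintype G] (p : ℕ) [Fact p.Prime] (M : Ideal Cfsg.AlgInt) (hM : Cfsg.IsPModular p M) (B : Set (Cfsg.IrrCharacter G)) (P Q : Subgroup G) (e : Set (Cfsg.IrrCharacter (Subgroup.centralizer (P : Set G)))) (f : Set (Cfsg.IrrCharacter (Subgroup.centralizer (Q : Set G)))) (hmax : Cfsg.IsMaximalBrauerPair p M B P e) (hQf : Cfsg.IsBrauerPairOf p M B Q f) : ∃ x : G, Cfsg.SubpairLE p M (Q.map (MulAut.conj x).toMonoidHom) (Cfsg.conjBlock Q x f) P e := by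
  have := hM.2.1
  have := Cfsg.Agent.H41.IsPModular.charP hM
  obtain ⟨h, hm⟩ := H22.isMaximal_iff.1 hmax
  obtain ⟨x, -, hx⟩ := H22.exists_conj_ple (H22.split M G) (H22.isBlockEl_elTop h.2.1)
    (H22.isPairEl_of_isBrauerPair hQf.1) ((H22.isBrauerPairOf_iff h.2.1 hQf.1).1 hQf) hm
  refine ⟨x, (H22.subpairLE_iff ⟨hQf.1.1.map _, H22.isPBlock_conjBlock hQf.1.2 x⟩ h.1).2 ?_⟩
  rw [H22.el_conjBlock Q x f]
  exact hx

end Cfsg.Agent.S4660
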