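import Cfsg.Agent.H22.PairStab
import Cfsg.Statements.S4662

set_option autoImplicit false
open Cfsg

namespace Cfsg.Agent.S4662

/-- Fix a prime p and a maximal ideal M of the algebraic integers containing p. Let (P, e) be a maximal Brauer pair of the p-block B of the finite group G, Q ≤ P, and f the p-block of C_G(Q) with (Q, f) ≤ (P, e). Let T be the stabilizer of f in N_G(Q). Then the idempotent of f is a block idempotent of T, and N_P(Q) is contained in a defect group of that block of T; moreover for some x in G the conjugate pair (x Q x⁻¹, conjugate of f) again lies below (P, e) and, with T' the stabilizer of the conjugate of f in N_G(x Q x⁻¹), N_P(x Q x⁻¹) is a defect group of the block of T' whose idempotent is that of the conjugate of f. -/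
theorem result {G : Type*} [Group G] [Fintype G] (p : ℕ) [Fact p.Prime] (M : Ideal Cfsg.AlgInt) (hM : Cfsg.IsPModular p M) (B : Set (Cfsg.IrrCharacter G)) (P Q : Subgroup G) (e : Set (Cfsg.IrrCharacter (Subgroup.centralizer (P : Set G)))) (f : Set (Cfsg.IrrCharacter (Subgroup.centralizer (Q : Set G)))) (hmax : Cfsg.IsMaximalBrauerPair p M B P e) (hQP : Q ≤ P) (hf : Cfsg.IsPBlock M f) (hle : Cfsg.SubpairLE p M Q f P e) (T : Subgroup G) (hT : ∀ y : G, y ∈ T ↔ y ∈ Subgroup.normalizer (Q : Set G) ∧ Cfsg.StabilizesBlock (Subgroup.centralizer (Q : Set G)) f y) : (∃ F : Set (Cfsg.IrrCharacter T), Cfsg.IsPBlock M F ∧ (∀ t : T, Cfsg.blockCoeff F t = Cfsg.subgroupBlockCoeff (Subgroup.centralizer (Q : Set G)) f (t : G)) ∧ ∃ D : Subgroup T, Cfsg.IsDefectGroup p M F D ∧ (P ⊓ Subgroup.normalizer (Q : Set G)).subgroupOf T ≤ D) ∧ ∃ x : G, Cfsg.SubpairLE p M (Q.map (MulAut.conj x).toMonoidHom) (Cfsg.conjBlock Q x f) P e ∧ ∀ (T' : Subgroup G), (∀ y : G, y ∈ T' ↔ y ∈ Subgroup.normalizer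 ((Q.map (MulAut.conj x).toMonoidHom) : Set G) ∧ Cfsg.StabilizesBlock (Subgroup.centralizer ((Q.map (MulAut.conj x).toMonoidHom) : Set G)) (Cfsg.conjBlock Q x f) y) → ∃ F' : Set (Cfsg.IrrCharacter T'), Cfsg.IsPBlock M F' ∧ (∀ t : T', Cfsg.blockCoeff F' t = Cfsg.subgroupBlockCoeff (Subgroup.centralizer ((Q.map (MulAut.conj x).toMonoidHom) : Set G)) (Cfsg.conjBlock Q x f) (t : G)) ∧ Cfsg.IsDefectGroup p M F' ((P ⊓ Subgroup.normalizer ((Q.map (MulAut.conj x).toMonoidHom) : Set G)).subgroupOf T') := by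
  have := hM.2.1
  have := Cfsg.Agent.H41.IsPModular.charP hM
  have hS := H22.split M G
  obtain ⟨h, hm⟩ := H22.isMaximal_iff.1 hmax
  have hQf : Cfsg.IsBrauerPair p M Q f := ⟨h.1.1.to_le hQP, hf⟩
  have hle' := (H22.subpairLE_iff hQf h.1).1 hle
  have hb := H22.isBlockEl_elTop (M := M) h.2.1
  have hfT := H22.isBlockEl_pairStab hQf.1 (H22.isBlockEl_el (M := M) hf)
  constructor
  · obtain ⟨F, hF, hco, hel⟩ := H22.exists_stab_block hQf.1 hf hT
    obtain ⟨D, hD, hPD⟩ := H22.exists_isDefEl_ge hS hm hle' inf_le_left hfT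
    rw [H22.inf_pairStab hS hm.pair hle'] at hPD
    have hDT : H22.IsDefEl p T (H22.el M T F) D := by
      rw [hel, H22.eq_pairStab hf hT]; exact hD
    exact ⟨F, hF, hco, D.subgroupOf T, (H22.isDefectGroup_subgroupOf_iff hM hF hDT.le).2 hDT,
      Subgroup.comap_mono hPD⟩
  · obtain ⟨x, hx, hD⟩ := H22.exists_conj_inf_defect hS hb hm hle' inf_le_left hfT
    have hf' := H22.isPBlock_conjBlock hf x
    refine ⟨x, (H22.subpairLE_iff ⟨hQf.1.map _, hf'⟩ h.1).2 (by rw [H22.el_conjBlock]; exact hx),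
      fun T' hT' => ?_⟩
    obtain ⟨F, hF, hco, hel⟩ := H22.exists_stab_block (hQf.1.map _) hf' hT'
    have hT'' : T' = H22.pairStab (H22.cS x Q) (H22.cj x (H22.el M (Subgroup.centralizer (Q : Set G)) f)) := by
      rw [← H22.el_conjBlock]; exact H22.eq_pairStab hf' hT'
    rw [H22.cS_pairStab, H22.inf_pairStab hS hm.pair hx] at hD
    have hDT : H22.IsDefEl p T' (H22.el M T' F) (P ⊓ Subgroup.normalizer ((H22.cS x Q : Subgroup G) : Set G)) := by
      rw [hel, H22.el_conjBlock, hT'']; exact hD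
    exact ⟨F, hF, hco, (H22.isDefectGroup_subgroupOf_iff hM hF hDT.le).2 hDT⟩

end Cfsg.Agent.S4662
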