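import Cfsg.Statements.S4664
import Cfsg.Agent.H40.BlockSets
import Cfsg.Agent.H25.CharValues

set_option autoImplicit false
open Cfsg

namespace Cfsg.Agent.S4664

/-- Fix a prime p and a maximal ideal M of the algebraic integers containing p, and let B be a p-block of the finite group G. Let m be the p'-part of the order of G and η = exp(2πi/m). Then every coefficient of the idempotent of B lies in the cyclotomic field ℚ(η). -/
theorem result {G : Type*} [Group G] [Fintype G] (p : ℕ) [Fact p.Prime] (M : Ideal Cfsg.AlgInt) (hM : Cfsg.IsPModular p M) (B : Set (Cfsg.IrrCharacter G)) (hB : Cfsg.IsPBlock M B) (g : G) : Cfsg.blockCoeff B g ∈ IntermediateField.adjoin ℚ ({Complex.exp (2 * Real.pi * Complex.I / ((Nat.card G / p ^ (Nat.card G).factorization p : ℕ) : ℂ))} : Set ℂ) := by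
  classical
  have := hM.2.1
  have hp : p.Prime := Fact.out
  set m := Nat.card G / p ^ (Nat.card G).factorization p with hm
  set η := Complex.exp (2 * Real.pi * Complex.I / (m : ℂ))
  set K := IntermediateField.adjoin ℚ ({η} : Set ℂ)
  by_cases hg : p ∣ orderOf g
  · rw [Cfsg.Agent.H40.blockCoeff_eq_zero_of_singular hM hB hg]
    exact zero_mem K
  have hm0 : m ≠ 0 := (Nat.ordCompl_pos p Nat.card_pos.ne').ne'
  have hη : IsPrimitiveRoot η m := Complex.isPrimitiveRoot_exp m hm0
  have hord : orderOf g ∣ m := by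
    refine (Nat.Coprime.dvd_mul_left ?_).1
      ((Nat.ordProj_mul_ordCompl_eq_self (Nat.card G) p).symm ▸ orderOf_dvd_natCard g)
    exact ((Nat.Prime.coprime_iff_not_dvd hp).2 hg).symm.pow_right _
  have hroot : ∀ z : ℂ, z ^ m = 1 → z ∈ K := by
    intro z hz
    haveI : NeZero m := ⟨hm0⟩
    obtain ⟨i, -, rfl⟩ := hη.eq_pow_of_pow_eq_one hz
    exact pow_mem (IntermediateField.mem_adjoin_simple_self ℚ η) i
  rw [Cfsg.blockCoeff]
  refine mul_mem (inv_mem (natCast_mem K _)) ?_
  rw [finsum_mem_eq_finite_toFinset_sum _ (Set.toFinite _)]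
  refine sum_mem fun χ _ => ?_
  rw [← Cfsg.Agent.H26.irr_inv]
  obtain ⟨n, ρ, hρ, hχ⟩ := χ.2
  have hval : ∀ y : G, orderOf y ∣ m → (χ : G → ℂ) y ∈ K := by
    intro y hy
    obtain ⟨μ, hμ, hsum⟩ := Cfsg.Agent.H25.exists_char_eq_sum_roots ρ y
    rw [← hχ, hsum]
    exact sum_mem fun i _ => hroot _ (by
      obtain ⟨c, hc⟩ := hy
      rw [hc, pow_mul, hμ i, one_pow])
  exact mul_mem (hval 1 (by simp)) (hval g⁻¹ (by rwa [orderOf_inv]))

end Cfsg.Agent.S4664
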