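import Cfsg.Statements.S4665
import Cfsg.Agent.H42.BlockSpan
-- import your own Cfsg.Agent.* helpers here

set_option autoImplicit false
open Cfsg

namespace Cfsg.Agent.S4665

/-- Fix a prime p, a maximal ideal M of the algebraic integers containing p, and a p-block B of the finite group G, and let p^a be the p-part of the order of G. Let χ be an integer combination of the irreducible characters in B. If the function that agrees with χ on p-regular elements and vanishes on p-singular elements is again an integer combination of the irreducible characters in B, then p^a divides χ(1). -/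
theorem result {G : Type*} [Group G] [Fintype G] (p : ℕ) [Fact p.Prime] (M : Ideal Cfsg.AlgInt) (hM : Cfsg.IsPModular p M) (B : Set (Cfsg.IrrCharacter G)) (hB : Cfsg.IsPBlock M B) (χ : G → ℂ) (hχ : (∃ n : Cfsg.IrrCharacter G → ℤ, ∀ g : G, χ g = ∑ᶠ ψ ∈ B, (n ψ : ℂ) * (ψ : G → ℂ) g)) (h0 : (∃ n : Cfsg.IrrCharacter G → ℤ, ∀ g : G, Cfsg.pRegularPart p χ g = ∑ᶠ ψ ∈ B, (n ψ : ℂ) * (ψ : G → ℂ) g)) : ∃ k : ℤ, χ 1 = (p ^ (Nat.card G).factorization p : ℂ) * k := by
  classical
  obtain ⟨n, hn⟩ := h0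
  have hgen : Cfsg.IsGeneralizedCharacter G (Cfsg.pRegularPart p χ) := by
    have : Cfsg.pRegularPart p χ =
        ∑ ψ ∈ Cfsg.Agent.H42.blockFinset B, (n ψ : ℂ) • ψ.1 := by
      funext x
      rw [hn x, Cfsg.Agent.H42.finsum_mem_block, Finset.sum_apply]
      simp
    rw [this]
    show _ ∈ Cfsg.Agent.H27.genChars G
    refine sum_mem fun ξ _ => ?_
    rw [Int.cast_smul_eq_zsmul]
    exact zsmul_mem
      (Cfsg.Agent.H27.mem_genChars_of_isCharacter (Cfsg.Agent.H26.irr_isCharacter ξ)) _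
  have hreg : ¬ p ∣ orderOf (1 : G) := by rw [orderOf_one]; exact (Fact.out : p.Prime).not_dvd_one
  have h1 := Cfsg.Agent.H42.isIntegral_degree_div_of_generalized p hgen fun x hx => by
    rw [Cfsg.Agent.H42.pRegularPart_eq_regRes, Cfsg.Agent.H42.regRes_of_singular hx]
  rw [Cfsg.Agent.H42.pRegularPart_eq_regRes, Cfsg.Agent.H42.regRes_of_regular hreg] at h1
  obtain ⟨m, hm⟩ := hχ
  have hint : χ 1 = ((∑ ψ ∈ Cfsg.Agent.H42.blockFinset B,
      m ψ * (Cfsg.charDegree (ψ : G → ℂ) : ℤ) : ℤ) : ℂ) := by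
    rw [hm 1, Cfsg.Agent.H42.finsum_mem_block]
    push_cast
    exact Finset.sum_congr rfl fun ψ _ => by rw [Cfsg.Agent.H42.irr_one_eq]
  rw [hint] at h1 ⊢
  have h2 : ((p ^ (Nat.card G).factorization p : ℕ) : ℤ) ∣ ∑ ψ ∈ Cfsg.Agent.H42.blockFinset B,
      m ψ * (Cfsg.charDegree (ψ : G → ℂ) : ℤ) :=
    Cfsg.Agent.H42.dvd_of_isIntegral_div
      (by exact_mod_cast pow_ne_zero _ (Fact.out : p.Prime).ne_zero) (by exact_mod_cast h1)
  obtain ⟨k, hk⟩ := h2
  exact ⟨k, by rw [hk]; push_cast; ring⟩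

end Cfsg.Agent.S4665
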