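import Cfsg.Statements.S4666
import Cfsg.Agent.H42.BlockSpan
-- import your own Cfsg.Agent.* helpers here

set_option autoImplicit false
open Cfsg

namespace Cfsg.Agent.S4666

/-- Fix a prime p and a maximal ideal M of the algebraic integers containing p, and a p-block B of the finite group G of defect d. For every integer combination χ of the irreducible characters in B, p^d times the function that agrees with χ on p-regular elements and vanishes elsewhere is again an integer combination of the irreducible characters in B. -/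
theorem result {G : Type*} [Group G] [Fintype G] (p : ℕ) [Fact p.Prime] (M : Ideal Cfsg.AlgInt) (hM : Cfsg.IsPModular p M) (B : Set (Cfsg.IrrCharacter G)) (hB : Cfsg.IsPBlock M B) (χ : G → ℂ) (hχ : (∃ n : Cfsg.IrrCharacter G → ℤ, ∀ g : G, χ g = ∑ᶠ ψ ∈ B, (n ψ : ℂ) * (ψ : G → ℂ) g)) : (∃ n : Cfsg.IrrCharacter G → ℤ, ∀ g : G, (p ^ Cfsg.blockDefect p B : ℂ) * Cfsg.pRegularPart p χ g = ∑ᶠ ψ ∈ B, (n ψ : ℂ) * (ψ : G → ℂ) g) := by
  classical
  obtain ⟨n, hn⟩ := hχ
  have hint := fun (ψ : Cfsg.IrrCharacter G) (hψ : ψ ∈ B) (ξ : Cfsg.IrrCharacter G) =>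
    Cfsg.Agent.H42.exists_int_pow_defect_mul hM hB hψ ξ
  choose! z hz using hint
  refine ⟨fun ξ => ∑ ψ ∈ Cfsg.Agent.H42.blockFinset B, n ψ * z ψ ξ, fun g => ?_⟩
  rw [Cfsg.Agent.H42.finsum_mem_block]
  have h1 : Cfsg.pRegularPart p χ g =
      ∑ ψ ∈ Cfsg.Agent.H42.blockFinset B, (n ψ : ℂ) * Cfsg.Agent.H42.regRes p ψ.1 g := by
    rw [Cfsg.Agent.H42.pRegularPart_eq_regRes]
    by_cases hg : p ∣ orderOf g
    · simp [Cfsg.Agent.H42.regRes_of_singular hg]
    · simp only [Cfsg.Agent.H42.regRes_of_regular hg]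
      rw [hn g, Cfsg.Agent.H42.finsum_mem_block]
  rw [h1, Finset.mul_sum]
  simp only [Int.cast_sum, Finset.sum_mul, Int.cast_mul]
  rw [Finset.sum_comm]
  refine Finset.sum_congr rfl fun ψ hψ => ?_
  have hψB := Cfsg.Agent.H42.mem_blockFinset.1 hψ
  rw [Cfsg.Agent.H42.regRes_eq_sum_block hM hB hψB g, Finset.mul_sum, Finset.mul_sum]
  refine Finset.sum_congr rfl fun ξ _ => ?_
  rw [← hz ψ hψB ξ]
  ring

end Cfsg.Agent.S4666
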