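import Cfsg.Statements.S4668
import Cfsg.Agent.H42.CentralizerSupport
import Cfsg.Agent.H40.BlockSets
-- import your own Cfsg.Agent.* helpers here

set_option autoImplicit false
open Cfsg

namespace Cfsg.Agent.S4668

/-- Fix a prime p and a maximal ideal M of the algebraic integers containing p. Let Q₀ < Q₁ < ⋯ < Q_m be a strictly increasing chain of p-subgroups of the finite group G and N the intersection of their normalizers. Then every block idempotent of N is supported on C_G(Q_m): for every p-block E of N, the idempotent coefficient of E vanishes at every element of N outside C_G(Q_m). -/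
theorem result {G : Type*} [Group G] [Fintype G] (p : ℕ) [Fact p.Prime] (M : Ideal Cfsg.AlgInt) (hM : Cfsg.IsPModular p M) (m : ℕ) (Q : Fin (m + 1) → Subgroup G) (hQ : StrictMono Q) (hQp : ∀ i, IsPGroup p (Q i)) (N : Subgroup G) (hN : ∀ g : G, g ∈ N ↔ ∀ i, g ∈ Subgroup.normalizer (Q i : Set G)) (E : Set (Cfsg.IrrCharacter N)) (hE : Cfsg.IsPBlock M E) (n : N) (hn : (n : G) ∉ Subgroup.centralizer (Q (Fin.last m) : Set G)) : Cfsg.blockCoeff E n = 0 := by
  classical
  have := hM.2.1
  set L := Q (Fin.last m) with hL
  by_cases hreg : p ∣ orderOf n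
  · exact Cfsg.Agent.H40.blockCoeff_eq_zero_of_singular hM hE hreg
  by_contra hne
  refine hn ?_
  have hnreg : ¬ p ∣ orderOf (n : G) := by rwa [Subgroup.orderOf_coe]
  have hmono := hQ.monotone
  have hLn : ∀ x : G, x ∈ N → x ∈ Subgroup.normalizer (L : Set G) := fun x hx => (hN x).1 hx _
  -- the intersection with `N` is a normal `p`-subgroup of `N`
  have hnorm : ((L.subgroupOf N)).Normal := by
    refine ⟨fun x hx g => ?_⟩
    rw [Subgroup.mem_subgroupOf] at hx ⊢
    simpa using ((Subgroup.mem_normalizer_iff.1 (hLn g g.2)) x).1 hx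
  have hPp : IsPGroup p (L.subgroupOf N) :=
    (hQp _).of_injective ((N.subtype.comp (L.subgroupOf N).subtype).codRestrict L fun x => x.2)
      (fun a b h => Subtype.ext (Subtype.ext (congrArg (fun z : L => (z : G)) h)))
  have hcent : ∀ u ∈ L, u ∈ N → (n : G) * u = u * n := by
    intro u hu huN
    by_contra hc
    refine hne (Cfsg.Agent.H42.blockCoeff_eq_zero_of_notMem_centralizer hM hPp hE fun hmem => hc ?_)
    have := Subgroup.mem_centralizer_iff.1 hmem ⟨u, huN⟩ (Subgroup.mem_subgroupOf.2 hu)
    exact (congrArg Subtype.val this).symm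
  -- the descending normalizer series inside the last member
  let U : ℕ → Subgroup G := fun k =>
    L ⊓ ⨅ (j : Fin (m + 1)) (_ : k ≤ j), Subgroup.normalizer (Q j : Set G)
  have memU : ∀ k x, x ∈ U k ↔ x ∈ L ∧ ∀ j : Fin (m + 1), k ≤ j →
      x ∈ Subgroup.normalizer (Q j : Set G) := by
    intro k x
    simp [U, Subgroup.mem_iInf]
  have key : ∀ k, k ≤ m + 1 → ∀ x ∈ U k, (n : G) * x = x * n := by
    intro k
    induction k with
    | zero =>
      intro _ x hx
      obtain ⟨h1, h2⟩ := (memU 0 x).1 hx
      exact hcent x h1 ((hN x).2 fun i => h2 i (Nat.zero_le _))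
    | succ k ih =>
      intro hk
      have hkm : k < m + 1 := by omega
      have hle : U k ≤ U (k + 1) := fun x hx => by
        obtain ⟨h1, h2⟩ := (memU k x).1 hx
        exact (memU (k + 1) x).2 ⟨h1, fun j hj => h2 j (by omega)⟩
      refine Cfsg.Agent.H42.centralizes_of_centralizes_selfCentralizing
        ((hQp (Fin.last m)).to_le (inf_le_left : U (k + 1) ≤ L)) hnreg (fun x hx => ?_) _ (U k) le_rfl hle
        (fun x hx hcom => ?_) (ih (by omega))
      · obtain ⟨h1, h2⟩ := (memU (k + 1) x).1 hx
        refine (memU (k + 1) _).2 ⟨((Subgroup.mem_normalizer_iff.1 (hLn _ n.2)) x).1 h1,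
          fun j hj => ?_⟩
        have hnj := (hN n).1 n.2 j
        exact mul_mem (mul_mem hnj (h2 j hj)) (inv_mem hnj)
      · obtain ⟨h1, h2⟩ := (memU (k + 1) x).1 hx
        refine (memU k x).2 ⟨h1, fun j hj => ?_⟩
        rcases Nat.lt_or_ge k (j : ℕ) with h | h
        · exact h2 j h
        · have hjk : (j : ℕ) = k := le_antisymm h hj
          have hsub : ∀ u ∈ Q j, u ∈ U k := fun u hu =>
            (memU k u).2 ⟨hmono (Fin.le_last j) hu, fun i hi =>
              Subgroup.le_normalizer (hmono (Fin.le_iff_val_le_val.2 (by omega)) hu)⟩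
          rw [Subgroup.mem_normalizer_iff]
          intro u
          refine ⟨fun hu => ?_, fun hu => ?_⟩
          · rwa [hcom u (hsub u hu), mul_inv_cancel_right]
          · have h3 := hcom _ (hsub _ hu)
            have h4 : x * u * x⁻¹ = u := by
              have h5 := congrArg (fun z => x⁻¹ * z) h3
              simp only [inv_mul_cancel_left, inv_mul_cancel_right] at h5
              exact h5
            rwa [h4] at hu
  rw [Subgroup.mem_centralizer_iff]
  intro x hx
  exact (key (m + 1) le_rfl x ((memU _ _).2 ⟨hx, fun j hj => absurd j.2 (by omega)⟩)).symm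

end Cfsg.Agent.S4668
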