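import Cfsg.Agent.H22.PairStab
import Cfsg.Statements.S4670

set_option autoImplicit false
open Cfsg

namespace Cfsg.Agent.S4670

/-- Fix a prime p and a maximal ideal M of the algebraic integers containing p. Let P be a p-subgroup of the finite group G and H a subgroup containing N_G(P). For every p-block B of G with defect group P there is exactly one p-block c of H with defect group P whose idempotent agrees with that of B, modulo the local ideal at M, at every element of C_G(P) (their Brauer-map images at P coincide); and every p-block c of H with defect group P arises in this way from exactly one such B. This is the Brauer correspondence over H. -/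
theorem result {G : Type*} [Group G] [Fintype G] (p : ℕ) [Fact p.Prime] (M : Ideal Cfsg.AlgInt) (hM : Cfsg.IsPModular p M) (P H : Subgroup G) (hP : IsPGroup p P) (hH : Subgroup.normalizer (P : Set G) ≤ H) : (∀ B : Set (Cfsg.IrrCharacter G), Cfsg.IsPBlock M B → Cfsg.IsDefectGroup p M B P → ∃! c : Set (Cfsg.IrrCharacter H), Cfsg.IsPBlock M c ∧ Cfsg.IsDefectGroup p M c (P.subgroupOf H) ∧ ∀ x : G, x ∈ Subgroup.centralizer (P : Set G) → Cfsg.MemLocalIdeal M (Cfsg.blockCoeff B x - Cfsg.subgroupBlockCoeff H c x)) ∧ (∀ c : Set (Cfsg.IrrCharacter H), Cfsg.IsPBlock M c → Cfsg.IsDefectGroup p M c (P.subgroupOf H) → ∃! B : Set (Cfsg.IrrCharacter G), Cfsg.IsPBlock M B ∧ Cfsg.IsDefectGroup p M B P ∧ ∀ x : G, x ∈ Subgroup.centralizer (P : Set G) → Cfsg.MemLocalIdeal M (Cfsg.blockCoeff B x - Cfsg.subgroupBlockCoeff H c x)) := by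
  have := hM.2.1
  have := Cfsg.Agent.H41.IsPModular.charP hM
  have hS := H22.split M G
  have hPH : P ≤ H := Subgroup.le_normalizer.trans hH
  have hCH : Subgroup.centralizer (P : Set G) ≤ H :=
    (Subgroup.centralizer_le_normalizer _).trans hH
  have key : ∀ (B : Set (Cfsg.IrrCharacter G)) (c : Set (Cfsg.IrrCharacter H)),
      Cfsg.IsPBlock M B → Cfsg.IsPBlock M c →
      ((∀ x : G, x ∈ Subgroup.centralizer (P : Set G) →
          Cfsg.MemLocalIdeal M (Cfsg.blockCoeff B x - Cfsg.subgroupBlockCoeff H c x)) ↔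
        H22.cut (Subgroup.centralizer (P : Set G)) (H22.el M H c) =
          H22.cut (Subgroup.centralizer (P : Set G)) (H22.elTop M B)) := by
    intro B c hB hc
    have hloc : ∀ x ∈ Subgroup.centralizer (P : Set G),
        Cfsg.subgroupBlockCoeff H c x ∈ Cfsg.Agent.H41.localRing M := fun x hx => by
      rw [Cfsg.subgroupBlockCoeff, dif_pos (hCH hx)]
      exact Cfsg.Agent.H41.blockCoeff_mem hc _
    constructor
    · intro h
      refine Cfsg.Agent.H40.ext_coeff fun x => ?_
      by_cases hx : x ∈ Subgroup.centralizer (P : Set G)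
      · rw [H22.coeff_cut_of_mem _ hx, H22.coeff_cut_of_mem _ hx, H22.coeff_el, H22.coeff_elTop]
        exact ((H22.memLocalIdeal_sub_iff_resT (Cfsg.Agent.H41.blockCoeff_mem hB x)
          (hloc x hx)).1 (h x hx)).symm
      · rw [H22.coeff_cut_of_notMem _ hx, H22.coeff_cut_of_notMem _ hx]
    · intro h x hx
      have h1 := congrArg (fun a => a.coeff x) h
      simp only [H22.coeff_cut_of_mem _ hx, H22.coeff_el, H22.coeff_elTop] at h1
      exact (H22.memLocalIdeal_sub_iff_resT (Cfsg.Agent.H41.blockCoeff_mem hB x)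
        (hloc x hx)).2 h1.symm
  refine ⟨fun B hB hBD => ?_, fun c hc hcD => ?_⟩
  · obtain ⟨γ, ⟨hγ, hγD, hγe⟩, hu⟩ := H22.existsUnique_correspondent hS le_top hH
      (H22.isBlockEl_elTop hB) ((H22.isDefectGroup_top_iff hM hB).1 hBD)
    obtain ⟨c, hc, rfl⟩ := H22.exists_el_eq hγ
    refine ⟨c, ⟨hc, (H22.isDefectGroup_subgroupOf_iff hM hc hPH).2 hγD, (key B c hB hc).2 hγe⟩, ?_⟩
    rintro c' ⟨hc', hc'D, hc'e⟩
    exact H22.el_inj hc' hc (hu _ ⟨H22.isBlockEl_el hc',
      (H22.isDefectGroup_subgroupOf_iff hM hc' hPH).1 hc'D, (key B c' hB hc').1 hc'e⟩)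
  · obtain ⟨β, ⟨hβ, hβD, hβe⟩, hu⟩ := H22.existsUnique_correspondent hS hH le_top
      (H22.isBlockEl_el hc) ((H22.isDefectGroup_subgroupOf_iff hM hc hPH).1 hcD)
    obtain ⟨B, hB, rfl⟩ := H22.exists_elTop_eq hβ
    refine ⟨B, ⟨hB, (H22.isDefectGroup_top_iff hM hB).2 hβD, (key B c hB hc).2 hβe.symm⟩, ?_⟩
    rintro B' ⟨hB', hB'D, hB'e⟩
    exact H22.elTop_inj hB' hB (hu _ ⟨H22.isBlockEl_elTop hB',
      (H22.isDefectGroup_top_iff hM hB').1 hB'D, ((key B' c hB' hc).1 hB'e).symm⟩)

end Cfsg.Agent.S4670
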