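import Cfsg.Statements.S4672
import Cfsg.Agent.H42.StableBlock
import Cfsg.Agent.H26.CoverDefect
import Cfsg.Agent.H40.InducedBlocks
-- import your own Cfsg.Agent.* helpers here

set_option autoImplicit false
open Cfsg

namespace Cfsg.Agent.S4672

/-- Fix a prime p and a maximal ideal M of the algebraic integers containing p. Let N be a normal subgroup of the finite group G of p-power index and c a p-block of N stable under conjugation by G. Then the idempotent of c is a block idempotent of G: there is a p-block B of G whose idempotent coefficients agree with those of c on N and vanish off N; and for every defect group P of such a block B, G = NP and P ∩ N is a defect group of c. -/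
theorem result {G : Type*} [Group G] [Fintype G] (p : ℕ) [Fact p.Prime] (M : Ideal Cfsg.AlgInt) (hM : Cfsg.IsPModular p M) (N : Subgroup G) [N.Normal] (hN : ∃ k : ℕ, N.index = p ^ k) (c : Set (Cfsg.IrrCharacter N)) (hc : Cfsg.IsPBlock M c) (hst : ∀ x : G, Cfsg.StabilizesBlock N c x) : (∃ B : Set (Cfsg.IrrCharacter G), Cfsg.IsPBlock M B ∧ ∀ g : G, Cfsg.blockCoeff B g = Cfsg.subgroupBlockCoeff N c g) ∧ ∀ B : Set (Cfsg.IrrCharacter G), Cfsg.IsPBlock M B → (∀ g : G, Cfsg.blockCoeff B g = Cfsg.subgroupBlockCoeff N c g) → ∀ P : Subgroup G, Cfsg.IsDefectGroup p M B P → N ⊔ P = ⊤ ∧ Cfsg.IsDefectGroup p M c ((P ⊓ N).subgroupOf N) := by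
  classical
  have := hM.2.1
  have := Fintype.ofFinite N
  obtain ⟨k, hk⟩ := hN
  have hirr : ∀ x : G, ∀ θ ∈ c, Cfsg.Agent.H43.irrConj N x θ ∈ c := by
    intro x θ hθ
    obtain ⟨θ', hθ', he⟩ := (hst x⁻¹).2 θ hθ
    have : θ' = Cfsg.Agent.H43.irrConj N x θ := Subtype.ext (funext fun n => by
      rw [Cfsg.Agent.H43.irrConj_apply]
      exact he _ n (by simp [mul_assoc]))
    exact this ▸ hθ'
  have hA := Cfsg.Agent.H42.isPBlock_overSet hM hk hc hirr
  have hcoef := Cfsg.Agent.H42.blockCoeff_overSet (G := G) hirr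
  refine ⟨⟨_, hA, fun g => congrFun hcoef g⟩, fun B hB hBc P hP => ?_⟩
  have hBA : B = Cfsg.Agent.H42.overSet N c := by
    ext χ
    have h1 := Cfsg.Agent.H26.omegaFun_blockCoeff B χ
    have h2 := Cfsg.Agent.H26.omegaFun_blockCoeff (Cfsg.Agent.H42.overSet N c) χ
    rw [show Cfsg.blockCoeff B = Cfsg.blockCoeff (Cfsg.Agent.H42.overSet N c) from
      funext fun g => (hBc g).trans (congrFun hcoef g).symm, h2] at h1
    by_cases hx : χ ∈ Cfsg.Agent.H42.overSet N c <;> by_cases hy : χ ∈ B <;> simp_all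
  subst hBA
  obtain ⟨Q', hQ'⟩ := Cfsg.Agent.H40.exists_isDefectGroup hM hc
  set Q := Q'.map N.subtype with hQdef
  have hQN : Q ≤ N := Subgroup.map_subtype_le _
  have hQsub : Q.subgroupOf N = Q' :=
    Subgroup.comap_map_eq_self_of_injective N.subtype_injective _
  obtain ⟨θ₀, hθ₀⟩ := Cfsg.Agent.H41.IsPBlock.nonempty hc
  obtain ⟨χ, hχ⟩ := Cfsg.Agent.H43.exists_above N θ₀
  have hcov : ∃ χ ∈ Cfsg.Agent.H42.overSet N c, Cfsg.Agent.H26.CoversG c χ := by
    refine ⟨χ, ⟨θ₀, hθ₀, hχ⟩, θ₀, hθ₀, ?_⟩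
    rw [Cfsg.Agent.H43.classInner_eq_mult (Cfsg.Agent.H43.isCharacter_restr N χ)]
    exact Nat.cast_ne_zero.2 hχ
  obtain ⟨P₀, hP₀, hinf⟩ := Cfsg.Agent.H26.exists_defectGroup_inf_eq (Q := Q) hM hc hQN
    (by rw [hQsub]; exact hQ') hB hcov
  have hcardQ : Nat.card Q = p ^ Cfsg.blockDefect p c := by
    rw [hQdef, Subgroup.card_map_of_injective N.subtype_injective,
      Cfsg.Agent.H40.card_defectGroup hM hc hQ']
  have hcardP : Nat.card P₀ = p ^ (Cfsg.blockDefect p c + k) := by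
    rw [Cfsg.Agent.H40.card_defectGroup hM hB hP₀,
      Cfsg.Agent.H42.blockDefect_overSet hM hk hc hirr]
  have hsup : N ⊔ P₀ = ⊤ := by
    refine Subgroup.eq_top_of_card_eq _ (le_antisymm (Nat.le_of_dvd Nat.card_pos
      (Subgroup.card_subgroup_dvd_card _)) ?_)
    have h1 : N.relIndex (N ⊔ P₀) = N.relIndex P₀ := Subgroup.relIndex_sup_left _ _
    have h2 : Nat.card P₀ = N.relIndex P₀ * Nat.card Q := by
      rw [← hinf, ← Subgroup.relIndex_bot_left, ← Subgroup.relIndex_bot_left (P₀ ⊓ N : Subgroup G),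
        mul_comm, ← Subgroup.inf_relIndex_right N P₀, inf_comm N P₀,
        Subgroup.relIndex_mul_relIndex _ _ _ bot_le inf_le_left]
    rw [hcardP, hcardQ, pow_add, mul_comm] at h2
    have h3 := Nat.eq_of_mul_eq_mul_right (pow_pos (Fact.out : p.Prime).pos _) h2
    rw [← h1] at h3
    have h4 := Subgroup.relIndex_mul_relIndex (⊥ : Subgroup G) N (N ⊔ P₀) bot_le le_sup_left
    rw [Subgroup.relIndex_bot_left, Subgroup.relIndex_bot_left, ← h3, ← hk,
      Subgroup.card_mul_index] at h4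
    exact h4.le
  -- transfer to the given defect group
  obtain ⟨g, hg⟩ := Cfsg.Agent.H40.SubConj.exists_rconj_eq
    (Cfsg.Agent.H40.subConj_defectGroup hM hB hP₀ hP)
    (Cfsg.Agent.H40.subConj_defectGroup hM hB hP hP₀)
  obtain ⟨n, hn, q, hq, hnq⟩ : ∃ n ∈ N, ∃ q ∈ P₀, q * n = g := by
    have hg' : g⁻¹ ∈ (N ⊔ P₀ : Subgroup G) := hsup ▸ Subgroup.mem_top _
    obtain ⟨n, hn, q, hq, h⟩ := Subgroup.mem_sup_of_normal_left.1 hg'
    exact ⟨n⁻¹, N.inv_mem hn, q⁻¹, P₀.inv_mem hq, by rw [← mul_inv_rev, h, inv_inv]⟩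
  have hPn : Cfsg.Agent.H23.rconj n P₀ = P := by
    rw [← hg, ← hnq, ← Cfsg.Agent.H23.rconj_rconj,
      Cfsg.Agent.H23.rconj_eq_self (Subgroup.le_normalizer hq)]
  refine ⟨?_, ?_⟩
  · refine top_unique ?_
    rw [← hsup, sup_le_iff]
    refine ⟨le_sup_left, fun x hx => ?_⟩
    have h1 : n⁻¹ * x * n ∈ P := by
      rw [← hPn, Cfsg.Agent.H23.mem_rconj]
      simpa [mul_assoc] using hx
    have h2 : n * (n⁻¹ * x * n) * n⁻¹ ∈ N ⊔ P :=
      mul_mem (mul_mem (Subgroup.mem_sup_left hn) (Subgroup.mem_sup_right h1))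
        (Subgroup.mem_sup_left (N.inv_mem hn))
    simpa [mul_assoc] using h2
  · have h := Cfsg.Agent.H40.isDefectGroup_rconj hQ' (⟨n, hn⟩ : N)
    convert h using 1
    rw [← hQsub, ← hinf, ← hPn]
    ext y
    simp only [Subgroup.mem_subgroupOf, Cfsg.Agent.H23.mem_rconj, Subgroup.mem_inf,
      Subgroup.coe_mul, InvMemClass.coe_inv]
    exact ⟨fun h => ⟨h.1, mul_mem (mul_mem hn h.2) (N.inv_mem hn)⟩, fun h => ⟨h.1, y.2⟩⟩

end Cfsg.Agent.S4672
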