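import Cfsg.Statements.S4673
import Cfsg.Agent.H40.PPowerOver
import Cfsg.Agent.H22.BlockTransport

set_option autoImplicit false
open Cfsg

namespace Cfsg.Agent.S4673

/-- Fix a prime p and a maximal ideal M of the algebraic integers containing p. Let N ≤ L be normal subgroups of the finite group G with L/N a p-group, let B be a p-block of G covering the p-block c of N (some member of B has a constituent in c on restriction to N), and suppose that N contains a defect group of B. Then the stabilizer T of c in G satisfies T ∩ L = N. -/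
theorem result {G : Type*} [Group G] [Fintype G] (p : ℕ) [Fact p.Prime] (M : Ideal Cfsg.AlgInt) (hM : Cfsg.IsPModular p M) (N L : Subgroup G) [N.Normal] [L.Normal] [Fintype N] (hNL : N ≤ L) (hLN : ∃ k : ℕ, (N.subgroupOf L).index = p ^ k) (B : Set (Cfsg.IrrCharacter G)) (hB : Cfsg.IsPBlock M B) (c : Set (Cfsg.IrrCharacter N)) (hc : Cfsg.IsPBlock M c) (hcov : (∃ χ ∈ B, ∃ θ ∈ c, Cfsg.classInner (fun n : N => (χ : G → ℂ) n) (θ : N → ℂ) ≠ 0)) (hD : ∃ D : Subgroup G, Cfsg.IsDefectGroup p M B D ∧ D ≤ N) (T : Subgroup G) (hT : ∀ x : G, x ∈ T ↔ Cfsg.StabilizesBlock N c x) : T ⊓ L = N := by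
  classical
  have := hM.2.1
  have := Cfsg.Agent.H41.IsPModular.charP hM
  obtain ⟨χ, hχ, θ, hθ, hne⟩ := hcov
  obtain ⟨D, hD, hDN⟩ := hD
  refine le_antisymm (fun t ht => ?_) (fun n hn => ⟨(hT n).2 ?_, hNL hn⟩)
  swap
  · refine ⟨by rw [Subgroup.normalizer_eq_top]; trivial, fun η hη => ⟨η, hη, fun k k' hk => ?_⟩⟩
    exact Cfsg.Agent.H26.irr_eq_of_isConj η (isConj_iff.2 ⟨(⟨n, hn⟩ : N)⁻¹, Subtype.ext (by
      simp [hk, mul_assoc])⟩)
  have : Fintype L := Fintype.ofFinite L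
  have : Fintype (N.subgroupOf L) := Fintype.ofFinite _
  let e : N.subgroupOf L ≃* N := Subgroup.subgroupOfEquivOfLe hNL
  -- a member of a block of `L` between
  obtain ⟨m, hm, hdec⟩ := Cfsg.Agent.H26.exists_nat_coeffs
    (Cfsg.Agent.H26.isCharacter_comp (Cfsg.Agent.H26.irr_isCharacter χ) L.subtype)
  obtain ⟨φ, hmφ, hφθ⟩ : ∃ φ : Cfsg.IrrCharacter L, (m φ : ℂ) ≠ 0 ∧
      Cfsg.classInner (fun n : N.subgroupOf L => (φ : L → ℂ) n)
        (Cfsg.Agent.H43.irrCongr e θ : N.subgroupOf L → ℂ) ≠ 0 := by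
    by_contra hno
    simp only [not_exists, not_and, not_not] at hno
    refine hne ?_
    rw [← Cfsg.Agent.H43.classInner_congr e,
      show (fun n : N.subgroupOf L => (χ : G → ℂ) (e n : N)) =
        ∑ φ : Cfsg.IrrCharacter L, (m φ : ℂ) • (fun n : N.subgroupOf L => (φ : L → ℂ) n) from
        funext fun n => by
          have h := congrFun hdec (n : L)
          simp only [Function.comp_apply, Subgroup.coe_subtype, Finset.sum_apply, Pi.smul_apply,
            smul_eq_mul] at h ⊢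
          exact h,
      Cfsg.Agent.H26.classInner_sum_left]
    refine Finset.sum_eq_zero fun φ _ => ?_
    rw [Cfsg.Agent.H26.classInner_smul_left]
    by_cases h0 : (m φ : ℂ) = 0
    · rw [h0, zero_mul]
    · exact mul_eq_zero_of_right _ (hno φ h0)
  have hd := Cfsg.Agent.H41.isPBlock_blockOf (M := M) φ
  obtain ⟨Q, hQ⟩ := Cfsg.Agent.H40.exists_isDefectGroup hM hd
  have hQL : Q.map L.subtype ≤ L := Subgroup.map_subtype_le Q
  have hQe : (Q.map L.subtype).subgroupOf L = Q :=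
    Subgroup.comap_map_eq_self_of_injective L.subtype_injective Q
  obtain ⟨P, hP, hPL⟩ := Cfsg.Agent.H26.exists_defectGroup_inf_eq hM hd hQL (hQe.symm ▸ hQ) hB
    ⟨χ, hχ, φ, Cfsg.Agent.H41.mem_blockOf_self φ, (hm φ).trans_ne hmφ⟩
  have hQN : Q ≤ N.subgroupOf L := by
    obtain ⟨g, -, hg⟩ := Cfsg.Agent.H22.IsDefEl.exists_conj_eq
      ((Cfsg.Agent.H22.isDefectGroup_top_iff hM hB).1 hP)
      ((Cfsg.Agent.H22.isDefectGroup_top_iff hM hB).1 hD)
    intro q hq
    have hqP : (q : G) ∈ P := (hPL ▸ Subgroup.mem_map_of_mem L.subtype hq : (q : G) ∈ P ⊓ L).1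
    rw [← hg] at hqP
    obtain ⟨d, hd, hdq⟩ := Subgroup.mem_map.1 hqP
    rw [Subgroup.mem_subgroupOf, ← hdq]
    exact ‹N.Normal›.conj_mem d (hDN hd) g
  obtain ⟨k, hk⟩ := hLN
  obtain ⟨θ', hθ', hc'⟩ := ((hT t⁻¹).1 (inv_mem ht.1)).2 θ hθ
  suffices h : (⟨t, ht.2⟩ : L) ∈ N.subgroupOf L from Subgroup.mem_subgroupOf.1 h
  refine Cfsg.Agent.H40.mem_of_stab_of_defect_le hM (N.subgroupOf L) ⟨k, hk⟩ hd
    (Cfsg.Agent.H41.mem_blockOf_self φ) hφθ hQ hQN ?_
  rw [show Cfsg.Agent.H41.twistIrr (N.subgroupOf L) (Cfsg.Agent.H43.irrCongr e θ) ⟨t, ht.2⟩ =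
    Cfsg.Agent.H43.irrCongr e θ' from Subtype.ext (funext fun n => by
      rw [Cfsg.Agent.H41.twistIrr_apply, Cfsg.Agent.H43.irrCongr_apply,
        Cfsg.Agent.H43.irrCongr_apply]
      exact (hc' _ _ (by simp [e, mul_assoc])).symm)]
  exact (Cfsg.Agent.H22.sameBlock_irrCongr M e θ θ').2
    (Cfsg.Agent.H41.sameBlock_of_mem hc hθ hθ')

end Cfsg.Agent.S4673
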