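import Cfsg.Statements.S4674
import Cfsg.Agent.H22.CoverPairs

set_option autoImplicit false
open Cfsg

namespace Cfsg.Agent.S4674

open Cfsg.Agent.H22 in
/-- Covering from a normal subgroup of a subgroup, read in the group algebra. -/
theorem covers_sub_iff {G : Type*} [Group G] [Fintype G] {M : Ideal Cfsg.AlgInt} [M.IsMaximal]
    {H L : Subgroup G} [Fintype L] (hLH : L ≤ H) [(L.subgroupOf H).Normal]
    {c : Set (Cfsg.IrrCharacter H)} (hc : Cfsg.IsPBlock M c)
    {e : Set (Cfsg.IrrCharacter L)} (he : Cfsg.IsPBlock M e) :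
    (∃ ψ ∈ c, ∃ ξ ∈ e, Cfsg.classInner
        (fun l : L => (ψ : H → ℂ) (Subgroup.inclusion hLH l)) (ξ : L → ℂ) ≠ 0) ↔
      el M H c * el M L e ≠ 0 := by
  classical
  have : Fintype H := Fintype.ofFinite H
  have : Fintype (L.subgroupOf H) := Fintype.ofFinite _
  set i : L.subgroupOf H ≃* L := Subgroup.subgroupOfEquivOfLe hLH
  have he' : Cfsg.IsPBlock M (Cfsg.Agent.H43.irrCongr i '' e) := isPBlock_image i he
  have hel : emb H.subtype (el M (L.subgroupOf H) (Cfsg.Agent.H43.irrCongr i '' e)) = el M L e := by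
    refine (emb_emb _ _ _).trans (Cfsg.Agent.H40.ext_coeff fun x => ?_)
    by_cases hx : x ∈ L
    · refine (coeff_bk (f := H.subtype.comp (L.subgroupOf H).subtype)
        (H.subtype_injective.comp (L.subgroupOf H).subtype_injective) _
        ⟨⟨x, hLH hx⟩, hx⟩).trans ?_
      rw [coeff_el, blockCoeff_image, Cfsg.subgroupBlockCoeff, dif_pos hx]
      rfl
    · rw [coeff_el, Cfsg.subgroupBlockCoeff, dif_neg hx, resT_zero, coeff_emb_notMem]
      rintro ⟨y, hy⟩
      exact hx (hy ▸ y.2)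
  have hiff := covers_iff (G := H) (N := L.subgroupOf H) he' hc
  have hmul : el M H c * el M L e =
      emb H.subtype (elTop M c * el M (L.subgroupOf H) (Cfsg.Agent.H43.irrCongr i '' e)) := by
    rw [map_mul, hel, emb_elTop H.subtype_injective]
  rw [hmul, Ne, map_eq_zero_iff _ (emb_injective H.subtype_injective), ← Ne, ← hiff]
  refine exists_congr fun ψ => and_congr_right fun _ => ?_
  have key : ∀ ξ : Cfsg.IrrCharacter L,
      Cfsg.classInner (fun l : L.subgroupOf H => (ψ : H → ℂ) l)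
        (Cfsg.Agent.H43.irrCongr i ξ : L.subgroupOf H → ℂ) =
      Cfsg.classInner (fun l : L => (ψ : H → ℂ) (Subgroup.inclusion hLH l)) (ξ : L → ℂ) := by
    intro ξ
    rw [← Cfsg.Agent.H43.classInner_congr i]
    rfl
  constructor
  · rintro ⟨ξ, hξ, hne⟩
    exact ⟨_, ⟨ξ, hξ, rfl⟩, (key ξ).trans_ne hne⟩
  · rintro ⟨_, ⟨ξ, hξ, rfl⟩, hne⟩
    exact ⟨ξ, hξ, (key ξ).symm.trans_ne hne⟩

/-- Fix a prime p and a maximal ideal M of the algebraic integers containing p. Let N be a normal subgroup of the finite group G, Q a p-subgroup of N, H = N_G(Q) and L = H ∩ N = N_N(Q). Let d be a p-block of N with defect group Q and e the p-block of L with defect group Q that induces d inside N (its Brauer correspondent). Then block induction from H to G is a bijection from the p-blocks of H covering e onto the p-blocks of G covering d: every block of H covering e induces exactly one block of G, and that block covers d; and every block of G covering d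 is induced by exactly one block of H covering e. -/
theorem result {G : Type*} [Group G] [Fintype G] (p : ℕ) [Fact p.Prime] (M : Ideal Cfsg.AlgInt) (hM : Cfsg.IsPModular p M) (N : Subgroup G) [N.Normal] [Fintype N] (Q : Subgroup G) (hQ : IsPGroup p Q) (hQN : Q ≤ N) [Fintype ↥(Subgroup.normalizer (Q : Set G) ⊓ N)] (d : Set (Cfsg.IrrCharacter N)) (hd : Cfsg.IsPBlock M d) (hdQ : Cfsg.IsDefectGroup p M d (Q.subgroupOf N)) (e : Set (Cfsg.IrrCharacter ↥(Subgroup.normalizer (Q : Set G) ⊓ N))) (he : Cfsg.IsPBlock M e) (heQ : Cfsg.IsDefectGroup p M e (Q.subgroupOf (Subgroup.normalizer (Q : Set G) ⊓ N))) (hed : Cfsg.IsInducedBlockIn M N (Subgroup.normalizer (Q : Set G) ⊓ N) e d) : (∀ c : Set (Cfsg.IrrCharacter ↥(Subgroup.normalizer (Q : Set G))), Cfsg.IsPBlock M c → (∃ ψ ∈ c, ∃ ξ ∈ e, Cfsg.classInner (fun l : ↥(Subgroup.normalizer (Q : Set G) ⊓ N) => (ψ : ↥(Subgroup.normalizer (Q : Set G)) → ℂ) (Subgroup.inclusion inf_le_left l)) (ξ : ↥(Subgroup.normalizer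 (Q : Set G) ⊓ N) → ℂ) ≠ 0) → ∃! B : Set (Cfsg.IrrCharacter G), Cfsg.IsInducedBlock M (Subgroup.normalizer (Q : Set G)) c B ∧ (∃ χ ∈ B, ∃ θ ∈ d, Cfsg.classInner (fun n : N => (χ : G → ℂ) n) (θ : N → ℂ) ≠ 0)) ∧ (∀ B : Set (Cfsg.IrrCharacter G), Cfsg.IsPBlock M B → (∃ χ ∈ B, ∃ θ ∈ d, Cfsg.classInner (fun n : N => (χ : G → ℂ) n) (θ : N → ℂ) ≠ 0) → ∃! c : Set (Cfsg.IrrCharacter ↥(Subgroup.normalizer (Q : Set G))), (Cfsg.IsPBlock M c ∧ ∃ ψ ∈ c, ∃ ξ ∈ e, Cfsg.classInner (fun l : ↥(Subgroup.normalizer (Q : Set G) ⊓ N) => (ψ : ↥(Subgroup.normalizer (Q : Set G)) → ℂ) (Subgroup.inclusion inf_le_left l)) (ξ : ↥(Subgroup.normalizer (Q : Set G) ⊓ N) → ℂ) ≠ 0) ∧ Cfsg.IsInducedBlock M (Subgroup.normalizer (Q : Set G)) c B) := by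
  classical
  have := hM.2.1
  have := Cfsg.Agent.H41.IsPModular.charP hM
  have hS := Cfsg.Agent.H22.split M G
  have hQH : Q ≤ Subgroup.normalizer (Q : Set G) := Subgroup.le_normalizer
  have hCH := Subgroup.centralizer_le_normalizer (Q : Set G)
  have hnorm : ((Subgroup.normalizer (Q : Set G) ⊓ N).subgroupOf
      (Subgroup.normalizer (Q : Set G))).Normal := by
    rw [Subgroup.inf_subgroupOf_left]
    exact Subgroup.Normal.subgroupOf inferInstance _
  have hD := Cfsg.Agent.H22.isBlockEl_el hd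
  have hDd := (Cfsg.Agent.H22.isDefectGroup_subgroupOf_iff hM hd hQN).1 hdQ
  have hE := Cfsg.Agent.H22.isBlockEl_el he
  set D := Cfsg.Agent.H22.el M N d
  set E := Cfsg.Agent.H22.el M (Subgroup.normalizer (Q : Set G) ⊓ N) e
  have hDE : Cfsg.Agent.H22.cut (Subgroup.centralizer (Q : Set G)) D * E = E := by
    have hQL : Q ≤ (Subgroup.normalizer (Q : Set G) ⊓ N) := le_inf hQH hQN
    have hs : Cfsg.Agent.H22.Supp (Subgroup.centralizer (Q : Set G)) E :=
      Cfsg.Agent.H22.supp_centralizer_of_idem hQ hQL inf_le_left hE.cent hE.idem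
    have hLC : (Subgroup.centralizer (Q : Set G)) ⊓ N ≤ (Subgroup.normalizer (Q : Set G) ⊓ N) := inf_le_inf_right _ hCH
    have hi : Cfsg.Agent.H22.Inv Q (Cfsg.Agent.H22.cut (Subgroup.normalizer (Q : Set G) ⊓ N) D) :=
      (hD.cent.inv.mono hQN).cut (hQL.trans Subgroup.le_normalizer)
    have hEi : Cfsg.Agent.H22.Inv Q E := hE.cent.inv.mono hQL
    have hLi : Cfsg.Agent.H22.cut (Subgroup.centralizer (Q : Set G)) (Cfsg.Agent.H22.cut (Subgroup.normalizer (Q : Set G) ⊓ N) D) =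
        Cfsg.Agent.H22.cut (Subgroup.centralizer (Q : Set G)) D := by
      refine Cfsg.Agent.H40.ext_coeff fun x => ?_
      rw [Cfsg.Agent.H22.cut_cut]
      by_cases hx : x ∈ Subgroup.centralizer (Q : Set G)
      · by_cases hxN : x ∈ N
        · rw [Cfsg.Agent.H22.coeff_cut_of_mem _ hx, Cfsg.Agent.H22.coeff_cut_of_mem _
            (show x ∈ Subgroup.centralizer (Q : Set G) ⊓ (Subgroup.normalizer (Q : Set G) ⊓ N) from ⟨hx, hLC ⟨hx, hxN⟩⟩)]
        · rw [Cfsg.Agent.H22.coeff_cut_of_mem _ hx, Cfsg.Agent.H22.coeff_cut_of_notMem _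
            (fun h : x ∈ Subgroup.centralizer (Q : Set G) ⊓ (Subgroup.normalizer (Q : Set G) ⊓ N) => hxN h.2.2),
            hD.cent.supp.coeff_eq_zero hxN]
      · rw [Cfsg.Agent.H22.coeff_cut_of_notMem _ hx, Cfsg.Agent.H22.coeff_cut_of_notMem _
            (fun h : x ∈ Subgroup.centralizer (Q : Set G) ⊓ (Subgroup.normalizer (Q : Set G) ⊓ N) => hx h.1)]
    have hsuppC : ∀ a : MonoidAlgebra (Cfsg.Agent.H41.ResField M) G, Cfsg.Agent.H22.Inv Q a →
        Cfsg.Agent.H22.cut (Subgroup.centralizer (Q : Set G)) (a * E) =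
          Cfsg.Agent.H22.cut (Subgroup.centralizer (Q : Set G)) a * E := fun a ha => by
      rw [Cfsg.Agent.H22.cut_mul hQ ha hEi, Cfsg.Agent.H22.cut_of_supp hs]
    have hnil := Cfsg.Agent.H22.isNilpotent_of_inducedIn (inf_le_right : (Subgroup.normalizer (Q : Set G) ⊓ N) ≤ N) hed
    have hnil' := Cfsg.Agent.H22.isNilpotent_cut hQ
      ((hi.sub (Cfsg.Agent.H22.inv_one Q)).mul hEi) hnil
    rw [hsuppC _ (hi.sub (Cfsg.Agent.H22.inv_one Q)), map_sub, Cfsg.Agent.H22.cut_one, hLi,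
      sub_mul, one_mul] at hnil'
    set a := Cfsg.Agent.H22.cut (Subgroup.centralizer (Q : Set G)) D
    have hDi : Cfsg.Agent.H22.Inv Q D := hD.cent.inv.mono hQN
    have haa : a * a = a := by rw [← Cfsg.Agent.H22.cut_mul hQ hDi hDi, hD.idem]
    have hca : E * a = a * E := hE.cent.comm fun x hx => hLC
      ((Cfsg.Agent.H22.Supp.cut hD.cent.supp (C := Subgroup.centralizer (Q : Set G)) x hx).symm)
    have haE : a * E * (a * E) = a * E := by
      rw [mul_assoc, ← mul_assoc E, hca, mul_assoc a E E, hE.idem, ← mul_assoc, haa]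
    have h3 : (E - a * E) * (E - a * E) = E - a * E := by
      have e1 : E * (a * E) = a * E := by rw [← mul_assoc, hca, mul_assoc, hE.idem]
      have e2 : a * E * E = a * E := by rw [mul_assoc, hE.idem]
      rw [sub_mul, mul_sub, mul_sub, hE.idem, e1, e2, haE, sub_self, sub_zero]
    have h4 := Cfsg.Agent.H22.isIdempotentElem_eq_zero_of_isNilpotent h3
      (by rw [← neg_sub]; exact hnil'.neg)
    exact (sub_eq_zero.1 h4).symm
  constructor
  · intro c hc hcov
    obtain ⟨B, hB⟩ := Cfsg.Agent.H40.exists_isInducedBlock hM hQ hQH hCH le_rfl hc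
    refine ⟨B, ⟨hB, ?_⟩, fun B' hB' => Cfsg.Agent.H40.isInducedBlock_unique hB'.1 hB⟩
    refine (Cfsg.Agent.H22.covers_iff hd hB.2.1).2 fun h0 => ?_
    have hBe := Cfsg.Agent.H22.isBlockEl_elTop hB.2.1
    have hcE := (covers_sub_iff inf_le_left hc he).1 hcov
    have h1 := Cfsg.Agent.H22.cut_elTop_mul_el_of_induced hM hQ hQH hCH le_rfl hB
    have hce := Cfsg.Agent.H22.isBlockEl_el hc
    have hcomm := hce.cent.comm (hE.cent.supp.mono inf_le_left)
    refine hcE ?_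
    rw [← h1, mul_assoc, hcomm, ← hDE, mul_assoc, ← mul_assoc,
      ← Cfsg.Agent.H22.cut_mul hQ (hBe.cent.inv.mono le_top) (hD.cent.inv.mono hQN), h0, map_zero,
      zero_mul]
  · intro B hB hcov
    have hBe := Cfsg.Agent.H22.isBlockEl_elTop hB
    obtain ⟨P, hP, hPN⟩ := Cfsg.Agent.H26.exists_defectGroup_inf_eq hM hd hQN hdQ hB hcov
    have hBD := (Cfsg.Agent.H22.covers_iff hd hB).1 hcov
    have hne : Cfsg.Agent.H22.cut (Subgroup.centralizer (Q : Set G))
        (Cfsg.Agent.H22.elTop M B) ≠ 0 := fun h0 => by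
      refine ((Cfsg.Agent.H22.isDefectGroup_top_iff hM hB).1 hP).ne_zero ?_
      rw [← Cfsg.Agent.H22.cut_cut_of_le (D := Q) (R := P) (hPN ▸ inf_le_left), h0, map_zero]
    have hne' := Cfsg.Agent.H22.cut_mul_ne_zero_of_covers hS hQN hQ hD hDd hE hDE hBe hBD hne
    set a := Cfsg.Agent.H22.cut (Subgroup.centralizer (Q : Set G)) (Cfsg.Agent.H22.elTop M B)
    have hBi : Cfsg.Agent.H22.Inv Q (Cfsg.Agent.H22.elTop M B) := hBe.cent.inv.mono le_top
    have ha : Cfsg.Agent.H22.IsCent (Subgroup.normalizer (Q : Set G)) a :=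
      ⟨(Cfsg.Agent.H22.supp_cut _ _).mono hCH,
        (hBe.cent.inv.mono le_top).cut (Cfsg.Agent.H22.normalizer_le_normalizer_centralizer Q)⟩
    have haa : a * a = a := by rw [← Cfsg.Agent.H22.cut_mul hQ hBi hBi, hBe.idem]
    rw [← Cfsg.Agent.H22.sum_blockEls hS ha haa, Finset.sum_mul] at hne'
    obtain ⟨γ, hγ, hγE⟩ := Finset.exists_ne_zero_of_sum_ne_zero hne'
    rw [Finset.mem_filter, Cfsg.Agent.H22.mem_blockEls] at hγ
    obtain ⟨c, hc, rfl⟩ := Cfsg.Agent.H22.exists_el_eq hγ.1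
    refine ⟨c, ⟨⟨hc, (covers_sub_iff inf_le_left hc he).2 hγE⟩,
      Cfsg.Agent.H22.isInducedBlock_of_cut hM hQ hQH hCH le_rfl hc hB hγ.2⟩, ?_⟩
    rintro c' ⟨⟨hc', hcov'⟩, hind'⟩
    exact Cfsg.Agent.H22.el_inj hc' hc (Cfsg.Agent.H22.eq_of_covers_of_induced hS hQN hQ hD hDd hE
      hDE hBe (Cfsg.Agent.H22.isBlockEl_el hc') ((covers_sub_iff inf_le_left hc' he).1 hcov')
      (Cfsg.Agent.H22.cut_elTop_mul_el_of_induced hM hQ hQH hCH le_rfl hind')
      (Cfsg.Agent.H22.isBlockEl_el hc) hγE hγ.2)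

end Cfsg.Agent.S4674
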