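import Cfsg.Statements.S4676
import Cfsg.Agent.H42.Bounds
import Cfsg.Agent.H40.BlockDefect
-- import your own Cfsg.Agent.* helpers here

set_option autoImplicit false
open Cfsg

namespace Cfsg.Agent.S4676

/-- Fix a prime p and a maximal ideal M of the algebraic integers containing p. Let B be a p-block of the finite group G with defect group P. For χ in B, let the height of χ be the exponent of p in the degree of χ minus the least such exponent over the members of B. Then the sum over χ in B of p raised to twice the height of χ is at most the integer part of (order of P)²/4, plus 1; in particular B has at most that many irreducible characters. -/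
theorem result {G : Type*} [Group G] [Fintype G] (p : ℕ) [Fact p.Prime] (M : Ideal Cfsg.AlgInt) (hM : Cfsg.IsPModular p M) (B : Set (Cfsg.IrrCharacter G)) (hB : Cfsg.IsPBlock M B) (P : Subgroup G) (hP : Cfsg.IsDefectGroup p M B P) : ∑ᶠ χ ∈ B, p ^ (2 * Cfsg.blockHeight p B (χ : G → ℂ)) ≤ Nat.card P ^ 2 / 4 + 1 := by
  classical
  have := hM.2.1
  rw [Cfsg.Agent.H42.finsum_mem_block, Cfsg.Agent.H40.card_defectGroup hM hB hP]
  obtain ⟨ψ, hψ, hψ0, -⟩ := Cfsg.Agent.H42.exists_height_zero (p := p) hB
  set f : Cfsg.IrrCharacter G → ℕ := fun ξ =>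
    p ^ (2 * Cfsg.blockHeight p B (ξ : G → ℂ)) with hf
  set D : ℕ := p ^ (2 * Cfsg.blockDefect p B) with hD
  have key : 4 * Finset.sum ((Cfsg.Agent.H42.blockFinset B).erase ψ) f ≤ D := by
    convert Cfsg.Agent.H42.four_mul_sum_pow_height_le hM hB hψ hψ0 using 4
  have hsplit : f ψ + Finset.sum ((Cfsg.Agent.H42.blockFinset B).erase ψ) f =
      Finset.sum (Cfsg.Agent.H42.blockFinset B) f :=
    Finset.add_sum_erase _ _ (Cfsg.Agent.H42.mem_blockFinset.2 hψ)
  have hone : f ψ = 1 := by rw [hf]; simp only [hψ0, Nat.mul_zero, pow_zero]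
  have hsq : (p ^ Cfsg.blockDefect p B) ^ 2 = D := by rw [hD, ← pow_mul, Nat.mul_comm]
  rw [hsq, ← hsplit, hone]
  omega

end Cfsg.Agent.S4676
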