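import Cfsg.Agent.H22.PairFusionDict
import Cfsg.Statements.S4679

set_option autoImplicit false
open Cfsg

namespace Cfsg.Agent.S4679

/-- Fix a prime p and a maximal ideal M of the algebraic integers containing p, a p-block B of the finite group G with maximal Brauer pair (P, e), its fusion system F on P, a Brauer pair (Q, f) ≤ (P, e), and let T be the stabilizer of f in N_G(Q). Then Q is fully normalized in F if and only if N_P(Q) is a defect group of the block of T whose idempotent is that of f. -/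
theorem result {G : Type*} [Group G] [Fintype G] (p : ℕ) [Fact p.Prime] (M : Ideal Cfsg.AlgInt) (hM : Cfsg.IsPModular p M) (B : Set (Cfsg.IrrCharacter G)) (P : Subgroup G) (e : Set (Cfsg.IrrCharacter (Subgroup.centralizer (P : Set G)))) (hmax : Cfsg.IsMaximalBrauerPair p M B P e) (F : Cfsg.FusionSystem P) (hF : Cfsg.IsBlockFusionSystemOn p M B P e F) (Q : Subgroup G) (f : Set (Cfsg.IrrCharacter (Subgroup.centralizer (Q : Set G)))) (hQP : Q ≤ P) (hf : Cfsg.IsPBlock M f) (hle : Cfsg.SubpairLE p M Q f P e) (T : Subgroup G) (hT : ∀ y : G, y ∈ T ↔ y ∈ Subgroup.normalizer (Q : Set G) ∧ Cfsg.StabilizesBlock (Subgroup.centralizer (Q : Set G)) f y) : F.IsFullyNormalized Q ↔ ∃ F' : Set (Cfsg.IrrCharacter T), Cfsg.IsPBlock M F' ∧ (∀ t : T, Cfsg.blockCoeff F' t = Cfsg.subgroupBlockCoeff (Subgroup.centralizer (Q : Set G)) f (t : G)) ∧ Cfsg.IsDefectGroup p M F' ((P ⊓ Subgroup.normalizer (Q : Set G)).subgroupOf T) := by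
  have := hM.2.1
  have := Cfsg.Agent.H41.IsPModular.charP hM
  have hS := H22.split M G
  obtain ⟨h, hm⟩ := H22.isMaximal_iff.1 hmax
  have hFS := (H22.isBlockFusionSystemOn_iff.1 hF).2
  have hQf : Cfsg.IsBrauerPair p M Q f := ⟨h.1.1.to_le hQP, hf⟩
  have hle' := (H22.subpairLE_iff hQf h.1).1 hle
  have hb := H22.isBlockEl_elTop (M := M) h.2.1
  have hTe := H22.eq_pairStab (M := M) hf hT
  rw [H22.fullyNormalized_iff hS hb hm hFS hle', H22.inf_pairStab hS hm.pair hle']
  have hPT : P ⊓ Subgroup.normalizer (Q : Set G) ≤ T := by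
    rw [hTe, ← H22.inf_pairStab hS hm.pair hle']; exact inf_le_right
  have hCT : Subgroup.centralizer (Q : Set G) ≤ T := by
    rw [hTe]; exact H22.centralizer_le_pairStab (H22.isBlockEl_el hf)
  constructor
  · intro hD
    obtain ⟨F', hF', hco, hel⟩ := H22.exists_stab_block hQf.1 hf hT
    refine ⟨F', hF', hco, (H22.isDefectGroup_subgroupOf_iff hM hF' hPT).2 ?_⟩
    rw [hel, hTe]; exact hD
  · rintro ⟨F', hF', hco, hD⟩
    have hD' := (H22.isDefectGroup_subgroupOf_iff hM hF' hPT).1 hD
    rw [H22.el_eq_of_coeff hCT hco, hTe] at hD'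
    exact hD'

end Cfsg.Agent.S4679
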