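import Cfsg.Agent.H22.PairFusionDict
import Cfsg.Agent.H22.PairPrincipal
import Cfsg.Statements.S4681

set_option autoImplicit false
open Cfsg

namespace Cfsg.Agent.S4681

/-- Fix a prime p and a maximal ideal M of the algebraic integers containing p. Let B₀ be the principal p-block of the finite group G, P a Sylow p-subgroup and e₀ the principal p-block of C_G(P). Then (P, e₀) is a maximal Brauer pair of B₀, and the fusion system of B₀ on (P, e₀) is the fusion system of G on P: its maps from each subgroup of P are exactly the conjugation maps into P by elements of G. -/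
theorem result {G : Type*} [Group G] [Fintype G] (p : ℕ) [Fact p.Prime] (M : Ideal Cfsg.AlgInt) (hM : Cfsg.IsPModular p M) (S : Sylow p G) : Cfsg.IsMaximalBrauerPair p M (Cfsg.principalBlock M G) (S : Subgroup G) (Cfsg.principalBlock M (Subgroup.centralizer ((S : Subgroup G) : Set G))) ∧ ∀ F : Cfsg.FusionSystem (S : Subgroup G), Cfsg.IsBlockFusionSystemOn p M (Cfsg.principalBlock M G) (S : Subgroup G) (Cfsg.principalBlock M (Subgroup.centralizer ((S : Subgroup G) : Set G))) F → ∀ Q : Subgroup G, F.Hom Q = (Cfsg.groupFusionSystem (S : Subgroup G)).Hom Q := by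
  have := hM.2.1
  have := Cfsg.Agent.H41.IsPModular.charP hM
  have hS := H22.split M G
  have hp := Cfsg.Agent.H41.isPBlock_principalBlock (M := M) (G := G)
  have hpC := Cfsg.Agent.H41.isPBlock_principalBlock (M := M)
    (G := ↥(Subgroup.centralizer ((S : Subgroup G) : Set G)))
  have he : Cfsg.IsBrauerPair p M (S : Subgroup G)
      (Cfsg.principalBlock M (Subgroup.centralizer ((S : Subgroup G) : Set G))) := ⟨S.2, hpC⟩
  have hm := H22.isMaxEl_sylow (H22.isBlockEl_elTop hp) (H22.aug_bk_principal _) S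
    (H22.isBlockEl_el hpC) (H22.aug_bk_principal _) hS
  have hmax : Cfsg.IsMaximalBrauerPair p M (Cfsg.principalBlock M G) (S : Subgroup G)
      (Cfsg.principalBlock M (Subgroup.centralizer ((S : Subgroup G) : Set G))) :=
    H22.isMaximal_iff.2 ⟨(H22.isBrauerPairOf_iff hp he).2 hm.below, hm⟩
  refine ⟨hmax, fun F hF Q => Set.ext fun φ => ?_⟩
  rw [(H22.isBlockFusionSystemOn_iff.1 hF).2 Q φ]
  constructor
  · rintro ⟨g, hg, hc⟩
    exact ⟨(H22.carry_le hc).1,
      fun u => by rw [hg]; exact (H22.carry_le hc).2 (H22.conj_mem_cS u.2), g, hg⟩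
  · rintro ⟨hQ, hval, g, hg⟩
    refine ⟨g, hg, ?_⟩
    have hQS : H22.cS g Q ≤ (S : Subgroup G) := by
      rintro _ ⟨u, hu, rfl⟩
      have := hval ⟨u, hu⟩
      rwa [hg] at this
    obtain ⟨f, hf, -⟩ := H22.existsUnique_ple hS hm.pair Q hQ
    obtain ⟨f', hf', -⟩ := H22.existsUnique_ple hS hm.pair (H22.cS g Q) hQS
    have h2 := (hf.left hm.pair).conj g
    rw [H22.cS_top] at h2
    have e1 : H22.cj g f = f' := h2.block.eq_of_aug (hf'.left hm.pair).block
      (by rw [H22.aug_cj]; exact H22.aug_of_ple hf (H22.aug_bk_principal _))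
      (H22.aug_of_ple hf' (H22.aug_bk_principal _))
    exact ⟨f, hf, e1 ▸ hf'⟩

end Cfsg.Agent.S4681
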