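import Cfsg.Agent.H22.PairNilpotentDict
import Cfsg.Statements.S4682

set_option autoImplicit false
open Cfsg

namespace Cfsg.Agent.S4682

/-- Fix a prime p and a maximal ideal M of the algebraic integers containing p, a p-block B of the finite group G with maximal Brauer pair (P, e), P abelian, and a Brauer pair (Q, f) ≤ (P, e). Let T_Q be the stabilizer of f in N_G(Q) and T_P the stabilizer of e in N_G(P). Then every element of T_Q is a product of an element of T_P and an element of C_G(Q); and the index of C_G(Q) in T_Q equals the index of T_P ∩ C_G(Q) in T_P ∩ N_G(Q). -/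
theorem result {G : Type*} [Group G] [Fintype G] (p : ℕ) [Fact p.Prime] (M : Ideal Cfsg.AlgInt) (hM : Cfsg.IsPModular p M) (B : Set (Cfsg.IrrCharacter G)) (P : Subgroup G) (e : Set (Cfsg.IrrCharacter (Subgroup.centralizer (P : Set G)))) (hmax : Cfsg.IsMaximalBrauerPair p M B P e) (hab : ∀ x ∈ P, ∀ y ∈ P, x * y = y * x) (Q : Subgroup G) (f : Set (Cfsg.IrrCharacter (Subgroup.centralizer (Q : Set G)))) (hQP : Q ≤ P) (hf : Cfsg.IsPBlock M f) (hle : Cfsg.SubpairLE p M Q f P e) (TQ : Subgroup G) (hTQ : ∀ y : G, y ∈ TQ ↔ y ∈ Subgroup.normalizer (Q : Set G) ∧ Cfsg.StabilizesBlock (Subgroup.centralizer (Q : Set G)) f y) (TP : Subgroup G) (hTP : ∀ y : G, y ∈ TP ↔ y ∈ Subgroup.normalizer (P : Set G) ∧ Cfsg.StabilizesBlock (Subgroup.centralizer (P : Set G)) e y) : (∀ x ∈ TQ, ∃ y ∈ TP, ∃ c ∈ Subgroup.centralizer (Q : Set G), x = y * c) ∧ ((Subgroup.centralizer (Q : Set G)).subgroupOf TQ).index = ((TP ⊓ Subgroup.centralizer (Q : Set G)).subgroupOf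 (TP ⊓ Subgroup.normalizer (Q : Set G))).index := by
  have := hM.2.1
  have := Cfsg.Agent.H41.IsPModular.charP hM
  have hS := H22.split M G
  obtain ⟨h, hm⟩ := H22.isMaximal_iff.1 hmax
  have hb := H22.isBlockEl_elTop (M := M) h.2.1
  have hQf : Cfsg.IsBrauerPair p M Q f := ⟨h.1.1.to_le hQP, hf⟩
  have hle' := (H22.subpairLE_iff hQf h.1).1 hle
  have hTQe := H22.eq_pairStab (M := M) hf hTQ
  have hTPe := H22.eq_pairStab (M := M) h.1.2 hTP
  have hfac : ∀ x ∈ TQ, ∃ y ∈ TP, ∃ c ∈ (Subgroup.centralizer (Q : Set G)), x = y * c := by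
    intro x hx
    rw [hTQe] at hx
    rw [hTPe]
    exact H22.exists_factor_abelian hS hb hm hab hle' hx
  refine ⟨hfac, ?_⟩
  set A := TP ⊓ Subgroup.normalizer (Q : Set G) with hA
  have hAQ : A ≤ TQ := by
    rw [hA, hTQe, hTPe]
    exact H22.inf_normalizer_le_pairStab hS hm.pair hle'
  have hCQ : (Subgroup.centralizer (Q : Set G)) ≤ TQ := by
    rw [hTQe]; exact H22.centralizer_le_pairStab (H22.isBlockEl_el hf)
  have hTN : TQ ≤ Subgroup.normalizer (Q : Set G) := fun y hy => ((hTQ y).1 hy).1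
  have hinf : (Subgroup.centralizer (Q : Set G)) ⊓ A = TP ⊓ (Subgroup.centralizer (Q : Set G)) := by
    rw [hA]
    ext y
    simp only [Subgroup.mem_inf]
    exact ⟨fun ⟨h1, h2, _⟩ => ⟨h2, h1⟩,
      fun ⟨h1, h2⟩ => ⟨h2, h1, Subgroup.centralizer_le_normalizer _ h2⟩⟩
  have hnorm : ((Subgroup.centralizer (Q : Set G)).subgroupOf TQ).Normal := ⟨fun c hc t => by
    rw [Subgroup.mem_subgroupOf] at hc ⊢
    simpa using (Subgroup.mem_normalizer_iff.1
      (H22.normalizer_le_normalizer_centralizer Q (hTN t.2)) _).1 hc⟩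
  have htop : (Subgroup.centralizer (Q : Set G)).subgroupOf TQ ⊔ A.subgroupOf TQ = ⊤ := by
    rw [eq_top_iff]
    rintro ⟨x, hx⟩ -
    obtain ⟨y, hy, c, hc, hxe⟩ := hfac x hx
    have hyx : y = x * c⁻¹ := by rw [hxe, mul_inv_cancel_right]
    have hyQ : y ∈ TQ := hyx ▸ mul_mem hx (inv_mem (hCQ hc))
    have : (⟨x, hx⟩ : TQ) = ⟨y, hyQ⟩ * ⟨c, hCQ hc⟩ := Subtype.ext hxe
    rw [this]
    exact mul_mem (Subgroup.mem_sup_right (Subgroup.mem_subgroupOf.2 ⟨hy, hTN hyQ⟩))
      (Subgroup.mem_sup_left (Subgroup.mem_subgroupOf.2 hc))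
  rw [← Subgroup.relIndex_top_right, ← htop, Subgroup.relIndex_sup_left,
    Subgroup.relIndex_subgroupOf hAQ, ← Subgroup.inf_relIndex_right, hinf]
  rfl

end Cfsg.Agent.S4682
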