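import Cfsg.Agent.H22.PairNilpotentDict
import Cfsg.Statements.S4686

set_option autoImplicit false
open Cfsg

namespace Cfsg.Agent.S4686

/-- Fix a prime p and a maximal ideal M of the algebraic integers containing p, a p-block B of the finite group G with maximal Brauer pair (P, e) and fusion system F on P. Then B is nilpotent (for every Brauer pair (Q, f) of B the stabilizer of f in N_G(Q) is C_G(Q) extended by a p-group) if and only if F is the inner fusion system of P: its maps from each subgroup of P are exactly the conjugations by elements of P. -/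
theorem result {G : Type*} [Group G] [Fintype G] (p : ℕ) [Fact p.Prime] (M : Ideal Cfsg.AlgInt) (hM : Cfsg.IsPModular p M) (B : Set (Cfsg.IrrCharacter G)) (P : Subgroup G) (e : Set (Cfsg.IrrCharacter (Subgroup.centralizer (P : Set G)))) (hmax : Cfsg.IsMaximalBrauerPair p M B P e) (F : Cfsg.FusionSystem P) (hF : Cfsg.IsBlockFusionSystemOn p M B P e F) : Cfsg.IsNilpotentBlock p M B ↔ ∀ Q : Subgroup G, F.Hom Q = (Cfsg.innerFusionSystem P).Hom Q := by
  have := hM.2.1
  have := Cfsg.Agent.H41.IsPModular.charP hM
  have hS := H22.split M G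
  obtain ⟨h, hm⟩ := H22.isMaximal_iff.1 hmax
  have hb := H22.isBlockEl_elTop (M := M) h.2.1
  have hFS := (H22.isBlockFusionSystemOn_iff.1 hF).2
  rw [H22.isNilpotentBlock_top_iff h.2.1]
  constructor
  · intro hnil Q
    refine Set.ext fun φ => ⟨fun hφ => H22.mem_inner_of_isNilEl hS hb hm hFS hnil hφ, ?_⟩
    rintro ⟨hQ, g, hg, hge⟩
    exact (hFS Q φ).2 ⟨g, hge, H22.carry_of_mem hS hm.pair hQ hg⟩
  · intro hin
    exact H22.isNilEl_of_inner hS hb hm hFS fun R φ hφ => (hin R) ▸ hφ

end Cfsg.Agent.S4686
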