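import Cfsg.Agent.H22.PairNilpotentDict
import Cfsg.Statements.S4688

set_option autoImplicit false
open Cfsg

namespace Cfsg.Agent.S4688

/-- Fix a prime p and a maximal ideal M of the algebraic integers containing p, and a nilpotent p-block B of the finite group G with maximal Brauer pair (P, e). Then for every Brauer pair (Q, f) of B, f is a nilpotent block of C_G(Q); and if moreover (Q, f) ≤ (P, e), then C_P(Q) is a defect group of f as a block of C_G(Q). -/
theorem result {G : Type*} [Group G] [Fintype G] (p : ℕ) [Fact p.Prime] (M : Ideal Cfsg.AlgInt) (hM : Cfsg.IsPModular p M) (B : Set (Cfsg.IrrCharacter G)) (P : Subgroup G) (e : Set (Cfsg.IrrCharacter (Subgroup.centralizer (P : Set G)))) (hmax : Cfsg.IsMaximalBrauerPair p M B P e) (hnil : Cfsg.IsNilpotentBlock p M B) (Q : Subgroup G) (f : Set (Cfsg.IrrCharacter (Subgroup.centralizer (Q : Set G)))) (hQf : Cfsg.IsBrauerPairOf p M B Q f) : Cfsg.IsNilpotentBlock p M f ∧ (Cfsg.SubpairLE p M Q f P e → Cfsg.IsDefectGroup p M f ((P ⊓ Subgroup.centralizer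 (Q : Set G)).subgroupOf (Subgroup.centralizer (Q : Set G)))) := by
  have := hM.2.1
  have := Cfsg.Agent.H41.IsPModular.charP hM
  have hS := H22.split M G
  obtain ⟨h, hm⟩ := H22.isMaximal_iff.1 hmax
  have hb := H22.isBlockEl_elTop (M := M) h.2.1
  have hnilE := (H22.isNilpotentBlock_top_iff h.2.1).1 hnil
  have hQe := H22.isPairEl_of_isBrauerPair hQf.1
  have hQb := (H22.isBrauerPairOf_iff h.2.1 hQf.1).1 hQf
  refine ⟨H22.isNilpotentBlock_sub hQf.1.2 (H22.isNilEl_local hb hnilE hQe hQb), fun hle => ?_⟩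
  have hle' := (H22.subpairLE_iff hQf.1 h.1).1 hle
  let F := H22.pairFS hS hm.pair
  have hFS : H22.IsPairFS p (H22.el M (Subgroup.centralizer (P : Set G)) e) F :=
    fun Q φ => Iff.rfl
  exact (H22.isDefectGroup_subgroupOf_iff hM hQf.1.2 inf_le_right).2
    ((H22.fullyCentralized_iff hS hb hm hFS hle').1
      (H22.fullyCentralized_of_inner (fun R φ hφ => H22.mem_inner_of_isNilEl hS hb hm hFS hnilE hφ)
        hle'.le))

end Cfsg.Agent.S4688
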