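import Cfsg.Agent.H22.PairExtra
import Cfsg.Statements.S4692

set_option autoImplicit false
open Cfsg

namespace Cfsg.Agent.S4692

/-- Fix a prime p and a maximal ideal M of the algebraic integers containing p. Let N be a normal subgroup of p-power index in the finite group G and c a p-block of N stable under conjugation by G, and let B be the p-block of G whose idempotent is that of c (it exists and is unique). Then c is nilpotent as a block of N if and only if B is nilpotent as a block of G. -/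
theorem result {G : Type*} [Group G] [Fintype G] (p : ℕ) [Fact p.Prime] (M : Ideal Cfsg.AlgInt) (hM : Cfsg.IsPModular p M) (N : Subgroup G) [N.Normal] (hN : ∃ k : ℕ, N.index = p ^ k) (c : Set (Cfsg.IrrCharacter N)) (hc : Cfsg.IsPBlock M c) (hst : ∀ x : G, Cfsg.StabilizesBlock N c x) (B : Set (Cfsg.IrrCharacter G)) (hB : Cfsg.IsPBlock M B) (hBc : ∀ g : G, Cfsg.blockCoeff B g = Cfsg.subgroupBlockCoeff N c g) : Cfsg.IsNilpotentBlock p M c ↔ Cfsg.IsNilpotentBlock p M B := by
  have := hM.2.1
  have := Cfsg.Agent.H41.IsPModular.charP hM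
  classical
  have hS := H22.split M G
  obtain ⟨k, hk⟩ := hN
  have hregN : ∀ x : G, ¬ p ∣ orderOf x → x ∈ N := fun x hx =>
    H22.mem_of_pow_mem hx (a := k) (hk ▸ N.pow_index_mem x)
  have hNn : ∀ K : Subgroup G, K ≤ Subgroup.normalizer ((K ⊓ N : Subgroup G) : Set G) :=
    fun K n hn => H22.mem_normalizer_of_cS (by
      rw [H22.cS_inf, H22.cS_eq_self (Subgroup.le_normalizer hn),
        H22.cS_eq_self ((Subgroup.normalizer_eq_top_iff.2 ‹N.Normal›).symm ▸ Subgroup.mem_top n)])
  have hsupp : ∀ (K : Subgroup G) ε, H22.IsBlockEl K ε →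
      H22.Supp (K ⊓ N) (ε : MonoidAlgebra (Cfsg.Agent.H41.ResField M) G) :=
    fun K ε hε => H22.supp_of_regular hM (fun x _ hx => hregN x hx) hε
  set f := H22.elTop M B with hf
  have hfe : H22.el M N c = f := Cfsg.Agent.H40.ext_coeff fun g => by
    rw [H22.coeff_el, hf, H22.coeff_elTop, hBc]
  have hb : H22.IsBlockEl ⊤ f := H22.isBlockEl_elTop hB
  rw [H22.isNilpotentBlock_sub_iff hc, H22.isNilpotentBlock_top_iff hB, hfe, ← hf]
  constructor
  · intro hnil Q e hQe hbel x _ hxQ hxe hreg
    have hxN := hregN x hreg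
    set R := Q ⊓ N with hR
    obtain ⟨h, hns, huniq⟩ := H22.existsUnique_nsub hS (Q := R) hQe inf_le_left (hNn Q)
    have hxR : H22.cS x R = R := by
      rw [hR, H22.cS_inf, H22.cS_eq_self hxQ,
        H22.cS_eq_self ((Subgroup.normalizer_eq_top_iff.2 ‹N.Normal›).symm ▸ Subgroup.mem_top x)]
    have hxh : H22.cj x h = h := by
      refine huniq _ ?_
      have h1 := hns.conj x
      rw [H22.cS_top] at h1
      dsimp only at h1
      rwa [hxR, H22.cS_eq_self hxQ, hxe] at h1
    have hhC : H22.IsBlockEl (Subgroup.centralizer (R : Set G)) h := by simpa using hns.left.block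
    obtain ⟨g, hg, hhg⟩ := hS.exists_block (Subgroup.centralizer (R : Set G) ⊓ N) h
      ⟨hsupp _ h hhC, hhC.cent.inv.mono inf_le_left⟩ hhC.idem hhC.ne_zero
    have hsum : H22.conjSum (Subgroup.centralizer (R : Set G)) g = h := by
      refine ((H22.isBlockEl_conjSum hS inf_le_left (hNn _) (fun ε hε => hsupp _ ε hε) hg).eq_of_mul_ne_zero
        hhC fun h0 => hg.ne_zero ?_)
      have h1 := congrArg (· * g) h0
      rwa [mul_assoc, hhg, zero_mul, H22.conjSum_mul_of_mem (hNn _) hg (H22.self_mem_conjs _ g)] at h1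
    have hxC : x ∈ Subgroup.normalizer ((Subgroup.centralizer (R : Set G) : Subgroup G) : Set G) :=
      H22.normalizer_le_normalizer_centralizer R (H22.mem_normalizer_of_cS hxR)
    -- `x` fixes `g`
    have hxg : H22.cj x g = g := by
      have hxgb : H22.IsBlockEl (Subgroup.centralizer (R : Set G) ⊓ N) (H22.cj x g) := by
        have := hg.cj x
        rwa [H22.cS_inf, H22.cS_eq_self hxC, H22.cS_eq_self
          ((Subgroup.normalizer_eq_top_iff.2 ‹N.Normal›).symm ▸ Subgroup.mem_top x)] at this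
      have hmem : H22.cj x g ∈ H22.conjs (Subgroup.centralizer (R : Set G)) g := by
        by_contra hne
        refine hxgb.ne_zero ?_
        have h1 := congrArg (H22.cj x) hhg
        rw [map_mul, hxh, ← hsum, H22.conjSum_mul_of_notMem (hNn _) hg hxgb hne] at h1
        exact h1.symm
      obtain ⟨u, hu, hug⟩ := H22.mem_conjs.1 hmem
      have hcommPow : ∀ i : ℕ, H22.cj x (H22.cj (u ^ i) g) = H22.cj (u ^ i) (H22.cj x g) := by
        intro i
        cases i with
        | zero => simp
        | succ i =>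
          have hn : x⁻¹ * (u ^ (i + 1))⁻¹ * x * u ^ (i + 1) ∈ Subgroup.centralizer (R : Set G) ⊓ N := by
            refine Subgroup.mem_inf.2 ⟨mul_mem ?_ (pow_mem hu _), ?_⟩
            · simpa using (Subgroup.mem_normalizer_iff.1 (inv_mem hxC) (u ^ (i + 1))⁻¹).1
                (inv_mem (pow_mem hu _))
            · rw [show x⁻¹ * (u ^ (i + 1))⁻¹ * x * u ^ (i + 1) =
                x⁻¹ * ((u ^ (i + 1))⁻¹ * x * (u ^ (i + 1))⁻¹⁻¹) by group]
              exact mul_mem (inv_mem hxN) (‹N.Normal›.conj_mem x hxN _)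
          rw [← H22.cj_mul_apply, show x * u ^ (i + 1) =
              u ^ (i + 1) * x * (x⁻¹ * (u ^ (i + 1))⁻¹ * x * u ^ (i + 1)) by group,
            H22.cj_mul_apply, hg.cent.inv _ hn, H22.cj_mul_apply]
      have hpow : ∀ i : ℕ, H22.cj (x ^ i) g = H22.cj (u ^ i) g := by
        intro i
        induction i with
        | zero => simp
        | succ i ih =>
          rw [pow_succ', pow_succ, H22.cj_mul_apply, ih, hcommPow, ← hug, ← H22.cj_mul_apply]
      have h1 : u ^ orderOf x ∈ H22.stabEl g := by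
        rw [H22.mem_stabEl, ← hpow, pow_orderOf_eq_one, H22.cj_one_apply]
      have h2 : u ^ p ^ k ∈ H22.stabEl g := hg.cent.inv _
        (Subgroup.mem_inf.2 ⟨pow_mem hu _, hk ▸ N.pow_index_mem u⟩)
      have hgc := Int.gcd_eq_gcd_ab (p ^ k : ℕ) (orderOf x)
      rw [Int.gcd_natCast_natCast, (H22.coprime_pow_of_not_dvd hreg k).gcd_eq_one,
        Nat.cast_one] at hgc
      have h3 : u ∈ H22.stabEl g := by
        rw [show u = (u ^ p ^ k) ^ Int.gcdA (p ^ k : ℕ) (orderOf x) *
            (u ^ orderOf x) ^ Int.gcdB (p ^ k : ℕ) (orderOf x) by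
          rw [← zpow_natCast u (orderOf x), ← zpow_natCast u (p ^ k), ← zpow_mul, ← zpow_mul,
            ← zpow_add, ← hgc, zpow_one]]
        exact mul_mem (zpow_mem h2 _) (zpow_mem h1 _)
      rw [← hug]
      exact h3
    have hpairN : H22.IsPairEl p N (R, g) := ⟨inf_le_right, hns.left.pGroup, hg⟩
    have hbelN : H22.Below f (R, g) := by
      have h1 : H22.cut (Subgroup.centralizer (R : Set G)) f * h = h := (hns.below_iff hb).2 hbel
      show H22.cut (Subgroup.centralizer (R : Set G)) f * g = g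
      rw [← hhg, ← mul_assoc, h1]
    have hxR' : x ∈ Subgroup.centralizer (R : Set G) :=
      hnil R g hpairN hbelN x hxN (H22.mem_normalizer_of_cS hxR) hxg hreg
    refine Subgroup.mem_centralizer_iff.2 fun q hq => ?_
    have hu : q⁻¹ * (x * q * x⁻¹) ∈ R := by
      refine Subgroup.mem_inf.2 ⟨mul_mem (inv_mem hq) ((Subgroup.mem_normalizer_iff.1 hxQ q).1 hq), ?_⟩
      rw [show q⁻¹ * (x * q * x⁻¹) = (q⁻¹ * x * q⁻¹⁻¹) * x⁻¹ by group]
      exact mul_mem (‹N.Normal›.conj_mem x hxN q⁻¹) (inv_mem hxN)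
    set u := q⁻¹ * (x * q * x⁻¹) with hu_def
    have hux : u * x = x * u := Subgroup.mem_centralizer_iff.1 hxR' u hu
    have hiter : ∀ i : ℕ, x ^ i * q * (x ^ i)⁻¹ = q * u ^ i := by
      intro i
      induction i with
      | zero => simp
      | succ i ih =>
        rw [show x ^ (i + 1) * q * (x ^ (i + 1))⁻¹ = x * (x ^ i * q * (x ^ i)⁻¹) * x⁻¹ by group, ih,
          show x * (q * u ^ i) * x⁻¹ = (x * q * x⁻¹) * (x * u ^ i * x⁻¹) by group,
          show x * u ^ i * x⁻¹ = u ^ i by
            rw [← ((Commute.pow_left hux i).eq), mul_inv_cancel_right],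
          show x * q * x⁻¹ = q * u by rw [hu_def, mul_inv_cancel_left], pow_succ' u i, mul_assoc]
    have h1 := hiter (orderOf x)
    rw [pow_orderOf_eq_one, one_mul, inv_one, mul_one, left_eq_mul] at h1
    obtain ⟨a, ha⟩ := hns.left.pGroup ⟨u, hu⟩
    have h2 : u = 1 := by
      have := pow_gcd_eq_one.2 ⟨(congrArg Subtype.val ha : u ^ p ^ a = 1), h1⟩
      rwa [(H22.coprime_pow_of_not_dvd hreg a).gcd_eq_one, pow_one] at this
    rw [hu_def, inv_mul_eq_one] at h2
    conv_lhs => rw [h2]
    group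
  · intro hnil R g hR hbel x hxN hxR hxg hreg
    have hg : H22.IsBlockEl (Subgroup.centralizer (R : Set G) ⊓ N) g := hR.block
    have hgS := H22.isBlockEl_conjSum hS inf_le_left (hNn (Subgroup.centralizer (R : Set G))) (fun ε hε => hsupp _ ε hε) hg
    have hpair : H22.IsPairEl p ⊤ (R, H22.conjSum (Subgroup.centralizer (R : Set G)) g) :=
      ⟨le_top, hR.pGroup, by rw [H22.cen_top]; exact hgS⟩
    have hcut : H22.IsCent (Subgroup.centralizer (R : Set G)) (H22.cut (Subgroup.centralizer (R : Set G)) f) := by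
      have := H22.isCent_cut_top (R := R) hb.cent
      rwa [H22.cen_top] at this
    have hbel' : H22.Below f (R, H22.conjSum (Subgroup.centralizer (R : Set G)) g) := by
      show H22.cut (Subgroup.centralizer (R : Set G)) f * H22.conjSum (Subgroup.centralizer (R : Set G)) g = _
      rw [H22.conjSum, Finset.mul_sum]
      refine Finset.sum_congr rfl fun ε hε => ?_
      obtain ⟨n, hn, rfl⟩ := H22.mem_conjs.1 hε
      rw [← hcut.inv n hn, ← map_mul, show H22.cut (Subgroup.centralizer (R : Set G)) f * g = g from hbel]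
    refine hnil R _ hpair hbel' x (Subgroup.mem_top x) hxR ?_ hreg
    have hxC := H22.normalizer_le_normalizer_centralizer R hxR
    have key : ∀ (y : G), y ∈ Subgroup.normalizer ((Subgroup.centralizer (R : Set G)) : Set G) → H22.cj y g = g →
        ∀ ε ∈ H22.conjs (Subgroup.centralizer (R : Set G)) g, H22.cj y ε ∈ H22.conjs (Subgroup.centralizer (R : Set G)) g := by
      intro y hy hyg ε hε
      obtain ⟨n, hn, rfl⟩ := H22.mem_conjs.1 hε
      refine H22.mem_conjs.2 ⟨y * n * y⁻¹, (Subgroup.mem_normalizer_iff.1 hy n).1 hn, ?_⟩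
      conv_lhs => rw [← hyg, ← H22.cj_mul_apply, inv_mul_cancel_right, H22.cj_mul_apply]
    rw [H22.conjSum, map_sum]
    refine Finset.sum_nbij' (fun ε => H22.cj x ε) (fun ε => H22.cj x⁻¹ ε) (key x hxC hxg)
      (key x⁻¹ (inv_mem hxC) (by conv_lhs => rw [← hxg, H22.cj_inv_cj]))
      (fun ε _ => H22.cj_inv_cj x ε) (fun ε _ => H22.cj_cj_inv x ε) (fun ε _ => rfl)

end Cfsg.Agent.S4692
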