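import Cfsg.Agent.H22.PairNilpotentDict
import Cfsg.Statements.S4693

set_option autoImplicit false
open Cfsg

namespace Cfsg.Agent.S4693

/-- Fix a prime p and a maximal ideal M of the algebraic integers containing p, a p-block B of the finite group G with maximal Brauer pair (P, e) and fusion system F on P, and a Brauer pair (Q, f) ≤ (P, e) with Q centric in F. Suppose every element of G normalizes Q and stabilizes f. Then the idempotent of B agrees with that of f modulo M at every element of G, and f is the idempotent of a nilpotent block of Q·C_G(Q): some p-block of Q·C_G(Q) has the idempotent coefficients of f and is nilpotent. -/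
theorem result {G : Type*} [Group G] [Fintype G] (p : ℕ) [Fact p.Prime] (M : Ideal Cfsg.AlgInt) (hM : Cfsg.IsPModular p M) (B : Set (Cfsg.IrrCharacter G)) (P : Subgroup G) (e : Set (Cfsg.IrrCharacter (Subgroup.centralizer (P : Set G)))) (hmax : Cfsg.IsMaximalBrauerPair p M B P e) (F : Cfsg.FusionSystem P) (hF : Cfsg.IsBlockFusionSystemOn p M B P e F) (Q : Subgroup G) (f : Set (Cfsg.IrrCharacter (Subgroup.centralizer (Q : Set G)))) (hQP : Q ≤ P) (hf : Cfsg.IsPBlock M f) (hle : Cfsg.SubpairLE p M Q f P e) (hcen : F.IsCentric Q) (hG : ∀ x : G, x ∈ Subgroup.normalizer (Q : Set G) ∧ Cfsg.StabilizesBlock (Subgroup.centralizer (Q : Set G)) f x) : (∀ g : G, Cfsg.MemLocalIdeal M (Cfsg.blockCoeff B g - Cfsg.subgroupBlockCoeff (Subgroup.centralizer (Q : Set G)) f g)) ∧ ∃ F' : Set (Cfsg.IrrCharacter ↥(Q ⊔ Subgroup.centralizer (Q : Set G))), Cfsg.IsPBlock M F' ∧ (∀ t : ↥(Q ⊔ Subgroup.centralizer (Q : Set G)), Cfsg.blockCoeff F' t = Cfsg.subgroupBlockCoeff (Subgroup.centralizer (Q : Set G)) f (t : G)) ∧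 Cfsg.IsNilpotentBlock p M F' := by
  have := hM.2.1
  have := Cfsg.Agent.H41.IsPModular.charP hM
  have hS := H22.split M G
  obtain ⟨h, hm⟩ := H22.isMaximal_iff.1 hmax
  have hb := H22.isBlockEl_elTop (M := M) h.2.1
  have hQf : Cfsg.IsBrauerPair p M Q f := ⟨h.1.1.to_le hQP, hf⟩
  have hle' := (H22.subpairLE_iff hQf h.1).1 hle
  have hFS := (H22.isBlockFusionSystemOn_iff.1 hF).2
  have hfE := H22.isBlockEl_el (M := M) hf
  have htop : H22.pairStab Q (H22.el M (Subgroup.centralizer (Q : Set G)) f) = ⊤ := by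
    rw [eq_top_iff]
    intro x _
    exact ⟨(hG x).1, (H22.stabilizesBlock_iff hf
      (H22.normalizer_le_normalizer_centralizer Q (hG x).1)).1 (hG x).2⟩
  have hfT := H22.isBlockEl_pairStab hQf.1 hfE
  rw [htop] at hfT
  have hbel : H22.Below (H22.el M (Subgroup.centralizer (Q : Set G)) f) (Q, H22.el M (Subgroup.centralizer (Q : Set G)) f) := by
    show H22.cut _ _ * _ = _
    rw [H22.cut_of_supp hfE.cent.supp, hfE.idem]
  have hBf : H22.elTop M B = H22.el M (Subgroup.centralizer (Q : Set G)) f :=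
    (H22.existsUnique_below hS (H22.isPairEl_of_isBrauerPair hQf)).unique
      ⟨hb, (hle'.below_iff hb).2 hm.below⟩ ⟨hfT, hbel⟩
  constructor
  · intro g
    have h1 := congrArg (fun a => a.coeff g) hBf
    simp only [H22.coeff_elTop, H22.coeff_el] at h1
    refine (H22.memLocalIdeal_sub_iff_resT (Cfsg.Agent.H41.blockCoeff_mem h.2.1 g) ?_).2 h1
    unfold Cfsg.subgroupBlockCoeff
    split_ifs
    · exact Cfsg.Agent.H41.blockCoeff_mem hf _
    · exact zero_mem _
  · have hD := (H22.centric_iff hS hb hm hFS hle').1 hcen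
    have hHN : Q ⊔ (Subgroup.centralizer (Q : Set G)) ≤ Subgroup.normalizer (Q : Set G) :=
      sup_le Subgroup.le_normalizer (Subgroup.centralizer_le_normalizer _)
    have hHblk := H22.isBlockEl_stab hQf.1 (T := Q ⊔ (Subgroup.centralizer (Q : Set G))) le_sup_left hHN le_sup_right hfE
      (H22.inv_iff_le_stabEl.2 ((le_top.trans htop.ge).trans inf_le_right))
    obtain ⟨F', hF', hco, hel⟩ := H22.exists_block_lift le_sup_right
      (hHN.trans (H22.normalizer_le_normalizer_centralizer Q)) hf hHblk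
    refine ⟨F', hF', hco, H22.isNilpotentBlock_sub hF' ?_⟩
    rw [hel]
    exact H22.isNilEl_centric hfE.cent.supp hQf.1 hD

end Cfsg.Agent.S4693
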