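import Cfsg.Agent.H22.CentralDefectZero
import Cfsg.Agent.H22.PairDefectDict
import Cfsg.Agent.H22.PairStab
import Cfsg.Agent.H26.CoverDefect
import Cfsg.Agent.H41.Covering
import Cfsg.Agent.H40.BlockDefect
import Cfsg.Agent.H43.CharKer
import Cfsg.Statements.S4694

set_option autoImplicit false
open Cfsg

namespace Cfsg.Agent.S4694

/-- Fix a prime p and a maximal ideal M of the algebraic integers containing p, a p-block B of the finite group G and a Brauer pair (Q, e) of B. Let T be the stabilizer of e in N_G(Q) and suppose that (Q, e) carries a weight: the block of T whose idempotent is that of e contains an irreducible character χ that is constant on the cosets of Q and whose degree has p-part equal to the p-part of the index of Q in T. Then Z(Q) is a defect group of e as a block of C_G(Q), and Q is the largest normal p-subgroup of T: every p-subgroup of T normalized by T lies in Q. -/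
theorem result {G : Type*} [Group G] [Fintype G] (p : ℕ) [Fact p.Prime] (M : Ideal Cfsg.AlgInt) (hM : Cfsg.IsPModular p M) (B : Set (Cfsg.IrrCharacter G)) (Q : Subgroup G) (e : Set (Cfsg.IrrCharacter (Subgroup.centralizer (Q : Set G)))) (hQe : Cfsg.IsBrauerPairOf p M B Q e) (T : Subgroup G) (hT : ∀ y : G, y ∈ T ↔ y ∈ Subgroup.normalizer (Q : Set G) ∧ Cfsg.StabilizesBlock (Subgroup.centralizer (Q : Set G)) e y) (F' : Set (Cfsg.IrrCharacter T)) (hF' : Cfsg.IsPBlock M F') (hF'e : ∀ t : T, Cfsg.blockCoeff F' t = Cfsg.subgroupBlockCoeff (Subgroup.centralizer (Q : Set G)) e (t : G)) (χ : Cfsg.IrrCharacter T) (hχ : χ ∈ F') (hχQ : ∀ q : G, q ∈ Q → ∀ t : T, ∀ t' : T, (t' : G) = q * (t : G) → (χ : T → ℂ) t' = (χ : T → ℂ) t) (hdeg : (Cfsg.charDegree (χ : T → ℂ)).factorization p + (Nat.card Q).factorization p = (Nat.card T).factorization p) : Cfsg.IsDefectGroup p M e ((Q ⊓ Subgroup.centralizer (Q : Set G)).subgroupOf (Subgroup.centralizer (Q : Set G))) ∧ ∀ R : Subgroup G, R ≤ T → IsPGroup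 p R → (∀ t ∈ T, t ∈ Subgroup.normalizer (R : Set G)) → R ≤ Q := by
  have := hM.2.1
  have := Cfsg.Agent.H41.IsPModular.charP hM
  classical
  have hp : p.Prime := Fact.out
  have hQp : IsPGroup p Q := hQe.1.1
  have hTN : ∀ t ∈ T, t ∈ Subgroup.normalizer (Q : Set G) := fun t ht => ((hT t).1 ht).1
  have hCT : Subgroup.centralizer (Q : Set G) ≤ T := by
    rw [H22.eq_pairStab (M := M) hQe.1.2 hT]
    exact H22.centralizer_le_pairStab (H22.isBlockEl_el hQe.1.2)
  have hQT : Q ≤ T := by
    rw [H22.eq_pairStab (M := M) hQe.1.2 hT]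
    exact H22.le_pairStab (H22.isBlockEl_el hQe.1.2).cent.supp
  set Qs := Q.subgroupOf T with hQs
  have hQn : Qs.Normal := Subgroup.normal_subgroupOf_of_le_normalizer hTN
  have hQscard : Nat.card Qs = Nat.card Q :=
    Nat.card_congr (Subgroup.subgroupOfEquivOfLe hQT).toEquiv
  have : Fintype T := Fintype.ofFinite T
  have hker : Qs ≤ Cfsg.Agent.H44.kerOf χ := fun q hq =>
    Cfsg.Agent.H44.mem_kerOf.2 (hχQ (q : G) (Subgroup.mem_subgroupOf.1 hq) 1 q (by simp))
  obtain ⟨ψ, hψ⟩ := Cfsg.Agent.H44.exists_eq_inflate Qs χ hker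
  have : Fintype (T ⧸ Qs) := Fintype.ofFinite _
  have hψdeg : (Cfsg.charDegree (ψ : T ⧸ Qs → ℂ)).factorization p =
      (Nat.card (T ⧸ Qs)).factorization p := by
    have h1 := hdeg
    rw [← hψ, Cfsg.Agent.H44.charDegree_inflate, ← hQscard, ← Qs.card_mul_index,
      Nat.factorization_mul Nat.card_pos.ne' Subgroup.index_ne_zero_of_finite, Finsupp.add_apply,
      Subgroup.index_eq_card] at h1
    omega
  have hvan : ∀ x : T ⧸ Qs, p ∣ orderOf x → (ψ : T ⧸ Qs → ℂ) x = 0 := fun x hx =>
    Cfsg.Agent.H27.char_eq_zero_of_defect_zero ψ hp (Nat.ordProj_dvd _ p)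
      (fun h => by
        rw [hp.pow_dvd_iff_le_factorization Nat.card_pos.ne'] at h
        omega)
      (Cfsg.Agent.H44.cast_charDegree ψ).symm
      ((hp.pow_dvd_iff_le_factorization (Cfsg.Agent.H44.charDegree_pos ψ).ne').2 hψdeg.ge) x hx
  refine ⟨?_, fun R hRT hRp hRN => ?_⟩
  · -- the image of the centraliser
    set π := QuotientGroup.mk' Qs with hπ
    have hCn : ((Subgroup.centralizer (Q : Set G)).subgroupOf T).Normal :=
      Subgroup.normal_subgroupOf_of_le_normalizer fun t ht =>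
        H22.normalizer_le_normalizer_centralizer Q (hTN t ht)
    set Nb : Subgroup (T ⧸ Qs) := ((Subgroup.centralizer (Q : Set G)).subgroupOf T).map π with hNb
    have hNn : Nb.Normal := hCn.map π (QuotientGroup.mk'_surjective _)
    have : Fintype Nb := Fintype.ofFinite _
    let κ : (Subgroup.centralizer (Q : Set G)) →* Nb :=
      (π.comp (Subgroup.inclusion hCT)).codRestrict Nb fun c =>
        Subgroup.mem_map_of_mem π (Subgroup.mem_subgroupOf.2 c.2)
    have hκ : Function.Surjective κ := by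
      rintro ⟨y, t, ht, rfl⟩
      exact ⟨⟨(t : G), Subgroup.mem_subgroupOf.1 ht⟩, Subtype.ext rfl⟩
    have hκker : κ.ker = (Q ⊓ Subgroup.centralizer (Q : Set G)).subgroupOf
        (Subgroup.centralizer (Q : Set G)) := by
      ext c
      rw [MonoidHom.mem_ker, Subgroup.mem_subgroupOf, Subgroup.mem_inf, Subtype.ext_iff]
      show ((Subgroup.inclusion hCT c : T) : T ⧸ Qs) = 1 ↔ _
      rw [QuotientGroup.eq_one_iff, Subgroup.mem_subgroupOf, Subgroup.coe_inclusion]
      exact ⟨fun h => ⟨h, c.2⟩, fun h => h.1⟩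
    have hPc : (Q ⊓ Subgroup.centralizer (Q : Set G)).subgroupOf (Subgroup.centralizer (Q : Set G)) ≤
        Subgroup.center (Subgroup.centralizer (Q : Set G)) := by
      intro z hz
      rw [Subgroup.mem_center_iff]
      exact fun c => Subtype.ext
        (Subgroup.mem_centralizer_iff.1 c.2 (z : G) (Subgroup.mem_subgroupOf.1 hz).1).symm
    have hcardP : Nat.card ((Q ⊓ Subgroup.centralizer (Q : Set G)).subgroupOf
        (Subgroup.centralizer (Q : Set G))) =
          Nat.card ↥(Q ⊓ Subgroup.centralizer (Q : Set G)) :=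
      Nat.card_congr (Subgroup.subgroupOfEquivOfLe inf_le_right).toEquiv
    have hPp : IsPGroup p ((Q ⊓ Subgroup.centralizer (Q : Set G)).subgroupOf
        (Subgroup.centralizer (Q : Set G))) :=
      (hQp.to_le inf_le_left).of_equiv (Subgroup.subgroupOfEquivOfLe inf_le_right).symm
    have : Fintype (Subgroup.centralizer (Q : Set G)) := Fintype.ofFinite _
    -- a constituent below
    obtain ⟨θ, hθ⟩ := Cfsg.Agent.H41.exists_constituent Nb ψ
    let lift : Cfsg.IrrCharacter Nb → Cfsg.IrrCharacter (Subgroup.centralizer (Q : Set G)) := fun η =>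
      ⟨fun c => (η : Nb → ℂ) (κ c), Cfsg.Agent.H44.isIrrCharacter_comp_surjective κ hκ η.2⟩
    -- it lies in the block
    have hch : Cfsg.IsCharacter Nb (fun n : Nb => (ψ : T ⧸ Qs → ℂ) n) :=
      Cfsg.Agent.H26.isCharacter_comp (Cfsg.Agent.H26.irr_isCharacter ψ) Nb.subtype
    have hdec : ∀ n : Nb, (ψ : T ⧸ Qs → ℂ) n = ∑ η : Cfsg.IrrCharacter Nb,
        (Cfsg.Agent.H43.mult (fun n : Nb => (ψ : T ⧸ Qs → ℂ) n) η : ℂ) * (η : Nb → ℂ) n := fun n => by
      have h := congrFun (Cfsg.Agent.H43.eq_sum_mult hch) n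
      rw [Finset.sum_apply] at h
      exact h
    have hθe : lift θ ∈ e := by
      have hω : ∑ c : Subgroup.centralizer (Q : Set G),
          Cfsg.blockCoeff e c * (χ : T → ℂ) (Subgroup.inclusion hCT c) = (χ : T → ℂ) 1 := by
        have h := Cfsg.Agent.H41.omega_blockIdem F' χ
        rw [if_pos hχ, Cfsg.Agent.H41.omega_apply, div_eq_one_iff_eq
          (Cfsg.Agent.H26.irr_one_ne_zero χ)] at h
        rw [← h]
        refine (Finset.sum_bij_ne_zero (fun c _ _ => Subgroup.inclusion hCT c)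
          (fun _ _ _ => Finset.mem_univ _) (fun a _ _ b _ _ hab => Subgroup.inclusion_injective hCT hab)
          ?_ ?_)
        · intro t _ ht
          rw [Cfsg.Agent.H41.coeff_blockIdem, hF'e, Cfsg.subgroupBlockCoeff] at ht
          by_cases htC : (t : G) ∈ Subgroup.centralizer (Q : Set G)
          · rw [dif_pos htC] at ht
            exact ⟨⟨t, htC⟩, Finset.mem_univ _, ht, Subtype.ext rfl⟩
          · rw [dif_neg htC, zero_mul] at ht
            exact absurd rfl ht
        · intro c _ _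
          rw [Cfsg.Agent.H41.coeff_blockIdem, hF'e, Cfsg.subgroupBlockCoeff, dif_pos (show
            ((Subgroup.inclusion hCT c : T) : G) ∈ Subgroup.centralizer (Q : Set G) from c.2)]
          rfl
      have hχκ : ∀ c, (χ : T → ℂ) (Subgroup.inclusion hCT c) = (ψ : T ⧸ Qs → ℂ) (κ c : T ⧸ Qs) := by
        intro c
        rw [← hψ, Cfsg.Agent.H44.inflate_apply]
        rfl
      rw [Finset.sum_congr rfl fun c _ => show _ = _ from (congrArg (Cfsg.blockCoeff e c * ·)
        ((hχκ c).trans (hdec (κ c)))).trans (Finset.mul_sum _ _ _)] at hω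
      rw [Finset.sum_comm] at hω
      have hη : ∀ η : Cfsg.IrrCharacter Nb, ∑ c, Cfsg.blockCoeff e c *
          ((Cfsg.Agent.H43.mult (fun n : Nb => (ψ : T ⧸ Qs → ℂ) n) η : ℂ) * (η : Nb → ℂ) (κ c)) =
          ((Cfsg.Agent.H43.mult (fun n : Nb => (ψ : T ⧸ Qs → ℂ) n) η *
            (if lift η ∈ e then Cfsg.charDegree (η : Nb → ℂ) else 0) : ℕ) : ℂ) := by
        intro η
        have h := Cfsg.Agent.H41.omega_blockIdem e (lift η)
        rw [Cfsg.Agent.H41.omega_apply] at h
        simp only [Cfsg.Agent.H41.coeff_blockIdem] at h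
        rw [div_eq_iff (Cfsg.Agent.H26.irr_one_ne_zero _)] at h
        push_cast
        rw [← Cfsg.Agent.H42.irr_one_eq]
        rw [Finset.sum_congr rfl (fun c _ => mul_left_comm (Cfsg.blockCoeff e c) _ _), ← Finset.mul_sum]
        congr 1
        refine h.trans ?_
        split_ifs
        · rw [one_mul]
          show (η : Nb → ℂ) (κ 1) = _
          rw [map_one]
        · rw [zero_mul]
      rw [Finset.sum_congr rfl fun η _ => hη η, ← Nat.cast_sum] at hω
      have h1 : (χ : T → ℂ) 1 = ((∑ η : Cfsg.IrrCharacter Nb,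
          Cfsg.Agent.H43.mult (fun n : Nb => (ψ : T ⧸ Qs → ℂ) n) η *
            Cfsg.charDegree (η : Nb → ℂ) : ℕ) : ℂ) := by
        have := hdec 1
        push_cast
        simp only [← Cfsg.Agent.H42.irr_one_eq]
        rw [← this, ← hψ, Cfsg.Agent.H44.inflate_apply]
        rfl
      rw [h1, Nat.cast_inj] at hω
      by_contra hne
      have hlt : (∑ η : Cfsg.IrrCharacter Nb, Cfsg.Agent.H43.mult (fun n : Nb => (ψ : T ⧸ Qs → ℂ) n) η *
            (if lift η ∈ e then Cfsg.charDegree (η : Nb → ℂ) else 0)) <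
          ∑ η : Cfsg.IrrCharacter Nb, Cfsg.Agent.H43.mult (fun n : Nb => (ψ : T ⧸ Qs → ℂ) n) η *
            Cfsg.charDegree (η : Nb → ℂ) := by
        refine Finset.sum_lt_sum (fun η _ => Nat.mul_le_mul_left _ (by split_ifs <;> omega))
          ⟨θ, Finset.mem_univ _, ?_⟩
        rw [if_neg hne, mul_zero]
        refine Nat.mul_pos (Nat.pos_of_ne_zero fun h0 => hθ ?_) (Cfsg.Agent.H42.charDegree_pos θ)
        rw [Cfsg.Agent.H43.classInner_eq_mult hch, h0, Nat.cast_zero]
      exact hlt.ne hω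
    -- it has defect zero modulo the centre
    have hθdef : (Cfsg.charDegree (θ : Nb → ℂ)).factorization p = (Nat.card Nb).factorization p := by
      refine le_antisymm ((Nat.factorization_le_iff_dvd (Cfsg.Agent.H42.charDegree_pos θ).ne'
        Nat.card_pos.ne').2 (Cfsg.Agent.H43.irr_charDegree_dvd θ) p) ?_
      have hbθ := Cfsg.Agent.H41.isPBlock_blockOf (M := M) θ
      have hBψ := Cfsg.Agent.H41.isPBlock_blockOf (M := M) ψ
      obtain ⟨D', hD'⟩ := Cfsg.Agent.H40.exists_isDefectGroup hM hbθ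
      obtain ⟨P', hP', hPD⟩ := Cfsg.Agent.H26.exists_defectGroup_inf_eq hM hbθ
        (Q := D'.map Nb.subtype) (Subgroup.map_subtype_le D')
        (by rwa [show (D'.map Nb.subtype).subgroupOf Nb = D' from
          Subgroup.comap_map_eq_self_of_injective Nb.subtype_injective D'])
        hBψ ⟨ψ, Cfsg.Agent.H41.mem_blockOf_self ψ, θ, Cfsg.Agent.H41.mem_blockOf_self θ, hθ⟩
      have h0 : Cfsg.blockDefect p (Cfsg.blockOf M (ψ : T ⧸ Qs → ℂ)) = 0 := by
        rw [Cfsg.blockDefect, Cfsg.Agent.H40.blockOf_eq_singleton hM ψ hψdeg.ge, Set.image_singleton,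
          csInf_singleton, hψdeg, Nat.sub_self]
      have hP1 : P' = ⊥ := by
        rw [← Subgroup.card_eq_one, Cfsg.Agent.H40.card_defectGroup hM hBψ hP', h0, pow_zero]
      rw [hP1, bot_inf_eq, eq_comm, Subgroup.map_eq_bot_iff_of_injective _ Nb.subtype_injective] at hPD
      have hcard := Cfsg.Agent.H40.card_defectGroup hM hbθ hD'
      rw [hPD, Subgroup.card_bot] at hcard
      have h1 := Cfsg.Agent.H40.sub_blockDefect_le hM hbθ (Cfsg.Agent.H41.mem_blockOf_self θ)
      have h2 : Cfsg.blockDefect p (Cfsg.blockOf M (θ : Nb → ℂ)) = 0 :=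
        ((Nat.pow_eq_one).1 hcard.symm).resolve_left hp.ne_one
      omega
    have hliftdeg : Cfsg.charDegree (lift θ : Subgroup.centralizer (Q : Set G) → ℂ) =
        Cfsg.charDegree (θ : Nb → ℂ) := by
      apply Nat.cast_injective (R := ℂ)
      rw [← Cfsg.Agent.H42.irr_one_eq, ← Cfsg.Agent.H42.irr_one_eq]
      show (θ : Nb → ℂ) (κ 1) = _
      rw [map_one]
    have hker' : ∀ z ∈ (Q ⊓ Subgroup.centralizer (Q : Set G)).subgroupOf
        (Subgroup.centralizer (Q : Set G)),
        (lift θ : Subgroup.centralizer (Q : Set G) → ℂ) z =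
          (lift θ : Subgroup.centralizer (Q : Set G) → ℂ) 1 := by
      intro z hz
      rw [← hκker, MonoidHom.mem_ker] at hz
      show (θ : Nb → ℂ) (κ z) = (θ : Nb → ℂ) (κ 1)
      rw [hz, map_one]
    have hdeg' : (Cfsg.charDegree (lift θ : Subgroup.centralizer (Q : Set G) → ℂ)).factorization p +
        (Nat.card ((Q ⊓ Subgroup.centralizer (Q : Set G)).subgroupOf
          (Subgroup.centralizer (Q : Set G)))).factorization p =
        (Nat.card (Subgroup.centralizer (Q : Set G))).factorization p := by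
      rw [hliftdeg, hθdef, ← κ.ker.card_mul_index,
        Nat.factorization_mul Nat.card_pos.ne' Subgroup.index_ne_zero_of_finite, Finsupp.add_apply,
        Subgroup.index_ker, MonoidHom.range_eq_top.2 hκ, Subgroup.card_top, hκker, add_comm]
    obtain ⟨D, hD⟩ := Cfsg.Agent.H40.exists_isDefectGroup hM hQe.1.2
    have hDe := H22.isDefEl_map_of_isDefectGroup hM hQe.1.2 hD
    have hfsupp := (H22.isBlockEl_el (M := M) hQe.1.2).cent.supp
    obtain ⟨u, hu, hle⟩ := hDe.max (Q ⊓ Subgroup.centralizer (Q : Set G)) inf_le_right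
      (hQp.to_le inf_le_left) (by
        rw [H22.cut_of_supp (hfsupp.mono fun c hc => Subgroup.mem_centralizer_iff.2 fun z hz =>
          Subgroup.mem_centralizer_iff.1 hc z hz.1)]
        exact (H22.isBlockEl_el hQe.1.2).ne_zero)
    rw [H22.cS_eq_self (Subgroup.centralizer_le_normalizer _ (Subgroup.mem_centralizer_iff.2
      fun z (hz : z ∈ Q ⊓ Subgroup.centralizer (Q : Set G)) =>
        Subgroup.mem_centralizer_iff.1 hu z (Subgroup.mem_inf.1 hz).1))] at hle
    have hcard : Nat.card (D.map (Subgroup.centralizer (Q : Set G)).subtype : Subgroup G) ≤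
        Nat.card ↥(Q ⊓ Subgroup.centralizer (Q : Set G)) := by
      rw [Subgroup.card_map_of_injective (Subgroup.subtype_injective _), ← hcardP]
      exact H22.card_defectGroup_le_of_central hM hQe.1.2 hPc hPp hθe hker' hdeg' hD
    rw [H22.isDefectGroup_subgroupOf_iff hM hQe.1.2 inf_le_right,
      Subgroup.eq_of_le_of_card_ge hle hcard]
    exact hDe
  · -- a normal `p`-subgroup
    have hR'n : (R.subgroupOf T).Normal := Subgroup.normal_subgroupOf_of_le_normalizer hRN
    set Rb := (R.subgroupOf T).map (QuotientGroup.mk' Qs) with hRb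
    have : Rb.Normal := hR'n.map _ (QuotientGroup.mk'_surjective _)
    have : Fintype Rb := Fintype.ofFinite _
    have hRbp : IsPGroup p Rb := (hRp.of_equiv (Subgroup.subgroupOfEquivOfLe hRT).symm).map _
    have hdiv : ∀ x : Rb, x ≠ 1 → p ∣ orderOf (x : T ⧸ Qs) := by
      intro x hx
      obtain ⟨j, hj⟩ := IsPGroup.iff_orderOf.1 hRbp x
      have hj0 : j ≠ 0 := by
        rintro rfl
        exact hx (orderOf_eq_one_iff.1 (by simpa using hj))
      rw [Subgroup.orderOf_coe, hj]
      exact dvd_pow_self p hj0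
    have hsum : ∑ x : Rb, (ψ : T ⧸ Qs → ℂ) x = (ψ : T ⧸ Qs → ℂ) 1 := by
      rw [Finset.sum_eq_single (1 : Rb) (fun x _ hx => hvan _ (hdiv x hx)) (by simp)]
      rfl
    have hle : Rb ≤ Cfsg.Agent.H43.charKer ψ := by
      refine Cfsg.Agent.H43.le_charKer_of_one ψ Rb fun hm => Cfsg.Agent.H26.irr_one_ne_zero ψ ?_
      have hch : Cfsg.IsCharacter Rb (fun n : Rb => (ψ : T ⧸ Qs → ℂ) n) :=
        Cfsg.Agent.H26.isCharacter_comp (Cfsg.Agent.H26.irr_isCharacter ψ) Rb.subtype
      have h := Cfsg.Agent.H43.classInner_eq_mult hch (Cfsg.Agent.H26.oneIrr Rb)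
      rw [show Cfsg.Agent.H43.mult (fun n : Rb => (ψ : T ⧸ Qs → ℂ) n)
        (Cfsg.Agent.H26.oneIrr Rb) = 0 from hm, Cfsg.classInner] at h
      simp only [Cfsg.Agent.H26.oneIrr_val, map_one, mul_one, Nat.cast_zero, hsum] at h
      exact (mul_eq_zero.1 h).resolve_left (inv_ne_zero (Nat.cast_ne_zero.2 Nat.card_pos.ne'))
    intro r hr
    by_contra hrQ
    have hmem : ((⟨r, hRT hr⟩ : T) : T ⧸ Qs) ∈ Rb :=
      Subgroup.mem_map_of_mem _ (Subgroup.mem_subgroupOf.2 hr)
    have hne : (⟨_, hmem⟩ : Rb) ≠ 1 := fun h => hrQ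
      (Subgroup.mem_subgroupOf.1 ((QuotientGroup.eq_one_iff _).1 (congrArg Subtype.val h)))
    have h0 := hvan _ (hdiv _ hne)
    rw [Cfsg.Agent.H43.mem_charKer.1 (hle hmem)] at h0
    exact Cfsg.Agent.H26.irr_one_ne_zero ψ h0

end Cfsg.Agent.S4694
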