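import Cfsg.Statements.S4695
import Cfsg.Agent.H20.Cyclic.SignRelation

set_option autoImplicit false
open Cfsg

namespace Cfsg.Agent.S4695

/-- Let p be a prime, M a maximal ideal of the algebraic integers containing p, and B a p-block of the finite group G whose defect group D is cyclic of order p^a with a ≥ 1. Let C = C_G(D), let b be a block of C inducing B, let T be the stabilizer of b in N_G(D) (the elements g of N_G(D) such that the g-conjugate of every member of b is again in b), and let e be the index of C in T (the inertial index of B). Then the p-regular rank of B (the dimension of the span of the restrictions of its members to the p-regular elements, classically the number l(B) of irreducible Brauer characters in B) equals e. -/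
theorem result {G : Type*} [Group G] [Finite G] (p : ℕ) [Fact p.Prime] (M : Ideal Cfsg.AlgInt) (hM : Cfsg.IsPModular p M) (D : Subgroup G) (hD : IsCyclic D) (a : ℕ) (ha : 1 ≤ a) (hDa : Nat.card D = p ^ a) (B : Set (Cfsg.IrrCharacter G)) (hB : Cfsg.IsPBlock M B) (hBD : Cfsg.IsDefectGroup p M B D) (b : Set (Cfsg.IrrCharacter (Subgroup.centralizer (D : Set G)))) (hind : Cfsg.IsInducedBlock M (Subgroup.centralizer (D : Set G)) b B) (T : Subgroup G) (hT : ∀ g : G, g ∈ T ↔ (g ∈ Subgroup.normalizer (D : Set G) ∧ ∀ θ ∈ b, ∀ θ' : Cfsg.IrrCharacter (Subgroup.centralizer (D : Set G)), (∀ h h' : Subgroup.centralizer (D : Set G), (h' : G) = g * h * g⁻¹ → (θ' : Subgroup.centralizer (D : Set G) → ℂ) h' = (θ : Subgroup.centralizer (D : Set G) → ℂ) h) → θ' ∈ b)) (e : ℕ) (he : (Subgroup.centralizer (D : Set G)).relIndex T = e) : Cfsg.blockRank p B = e := by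
  have := hM.2.1
  have := Cfsg.Agent.H41.IsPModular.charP hM
  have : Fintype G := Fintype.ofFinite G
  have : Fintype D := Fintype.ofFinite D
  have hD1 : D ≠ ⊥ := fun h => by
    rw [h, Subgroup.card_bot] at hDa
    exact (Nat.one_lt_pow (by omega) (Fact.out : p.Prime).one_lt).ne hDa
  have hab := Cfsg.Agent.H57.Cyclic.comm_of_cyclic hD
  have hm := Cfsg.Agent.H20.Cyclic.isMaxEl_of_induced hM hB hBD hab hind
  obtain ⟨γ, X, d, d₀, -, -, -, hrk⟩ := Cfsg.Agent.H57.Cyclic.exists_values hM hB hm hD hD1
  rw [hrk, ← he, Cfsg.Agent.H20.Cyclic.eq_pairStab_of_forall hind.1 hT]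

end Cfsg.Agent.S4695
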