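import Cfsg.Statements.S4696
import Cfsg.Agent.H20.Cyclic.SignRelation
import Cfsg.Agent.S4633

set_option autoImplicit false
open Cfsg

namespace Cfsg.Agent.S4696

/-- Let p be a prime, M a maximal ideal of the algebraic integers containing p, and B a p-block of the finite group G whose defect group D is cyclic of order p^a with a ≥ 1. Let C = C_G(D), let b be a block of C inducing B, let T be the stabilizer of b in N_G(D) (the elements g of N_G(D) such that the g-conjugate of every member of b is again in b), and let e be the index of C in T (the inertial index of B). Then e divides p − 1, every irreducible character in B has height zero, and B is the disjoint union of a set X of e characters and a set Y of (p^a − 1)/e characters, the members of Y agreeing on p-regular elements, for which there are signs δ_χ = ±1 (χ ∈ X) and δ₀ = ±1 such that: for every ψ ∈ Y and every p-regular g, δ₀ ψ(g) +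 Σ_{χ ∈ X} δ_χ χ(g) = 0; for all χ, χ' ∈ X the integers δ_χ χ(1) and δ_χ' χ'(1) are congruent modulo p^a; and for ψ ∈ Y and χ ∈ X, ψ(1) ≡ −e δ₀ δ_χ χ(1) modulo p^a. -/
theorem result {G : Type*} [Group G] [Finite G] (p : ℕ) [Fact p.Prime] (M : Ideal Cfsg.AlgInt) (hM : Cfsg.IsPModular p M) (D : Subgroup G) (hD : IsCyclic D) (a : ℕ) (ha : 1 ≤ a) (hDa : Nat.card D = p ^ a) (B : Set (Cfsg.IrrCharacter G)) (hB : Cfsg.IsPBlock M B) (hBD : Cfsg.IsDefectGroup p M B D) (b : Set (Cfsg.IrrCharacter (Subgroup.centralizer (D : Set G)))) (hind : Cfsg.IsInducedBlock M (Subgroup.centralizer (D : Set G)) b B) (T : Subgroup G) (hT : ∀ g : G, g ∈ T ↔ (g ∈ Subgroup.normalizer (D : Set G) ∧ ∀ θ ∈ b, ∀ θ' : Cfsg.IrrCharacter (Subgroup.centralizer (D : Set G)), (∀ h h' : Subgroup.centralizer (D : Set G), (h' : G) = g * h * g⁻¹ → (θ' : Subgroup.centralizer (D : Set G) → ℂ) h' = (θ : Subgroup.centralizer (D : Set G) →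 ℂ) h) → θ' ∈ b)) (e : ℕ) (he : (Subgroup.centralizer (D : Set G)).relIndex T = e) : e ∣ p - 1 ∧ (∀ χ ∈ B, Cfsg.blockHeight p B (χ : G → ℂ) = 0) ∧ ∃ X Y : Set (Cfsg.IrrCharacter G), B = X ∪ Y ∧ Disjoint X Y ∧ Nat.card X = e ∧ Nat.card Y = (p ^ a - 1) / e ∧ (∀ ψ ∈ Y, ∀ ψ' ∈ Y, ∀ g : G, ¬ p ∣ orderOf g → (ψ : G → ℂ) g = (ψ' : G → ℂ) g) ∧ ∃ (δ : Cfsg.IrrCharacter G → ℤ) (δ₀ : ℤ), (∀ χ ∈ X, δ χ = 1 ∨ δ χ = -1) ∧ (δ₀ = 1 ∨ δ₀ = -1) ∧ (∀ ψ ∈ Y, ∀ g : G, ¬ p ∣ orderOf g → (δ₀ : ℂ) * (ψ : G → ℂ) g + ∑ᶠ χ ∈ X, (δ χ : ℂ) * (χ : G → ℂ) g = 0) ∧ (∀ χ ∈ X, ∀ χ' ∈ X, δ χ * (Cfsg.charDegree (χ : G → ℂ) : ℤ) ≡ δ χ' * (Cfsg.charDegree (χ' : G → ℂ) : ℤ) [ZMOD (p : ℤ) ^ a]) ∧ (∀ ψ ∈ Y, ∀ χ ∈ X, (Cfsg.charDegree (ψ : G → ℂ) : ℤ) ≡ -((e : ℤ) * δ₀ * δ χ * (Cfsg.charDegree (χ : G → ℂ) : ℤ)) [ZMOD (p : ℤ) ^ a]) := by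
  classical
  have := hM.2.1
  have := Cfsg.Agent.H41.IsPModular.charP hM
  have : Fintype G := Fintype.ofFinite G
  have : Fintype D := Fintype.ofFinite D
  have hp : p.Prime := Fact.out
  have hD1 : D ≠ ⊥ := fun h => by
    rw [h, Subgroup.card_bot] at hDa
    exact (Nat.one_lt_pow (by omega) hp.one_lt).ne hDa
  have hab := Cfsg.Agent.H57.Cyclic.comm_of_cyclic hD
  have hm := Cfsg.Agent.H20.Cyclic.isMaxEl_of_induced hM hB hBD hab hind
  obtain ⟨γ, X, d, d₀, -, hγ, hS, -⟩ := Cfsg.Agent.H57.Cyclic.exists_values hM hB hm hD hD1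
  have hTe := Cfsg.Agent.H20.Cyclic.eq_pairStab_of_forall hind.1 hT
  rw [← hTe, he] at hS
  -- the inertial index
  have hst : ∀ g : G, g ∈ T ↔ (g ∈ Subgroup.normalizer (D : Set G) ∧
      Cfsg.StabilizesBlock (Subgroup.centralizer (D : Set G)) b g) := fun g => by
    rw [hTe, Subgroup.mem_inf, Cfsg.Agent.H22.mem_stabEl]
    exact and_congr_right fun hg => (Cfsg.Agent.H22.stabilizesBlock_iff hind.1
      (Cfsg.Agent.H22.normalizer_le_normalizer_centralizer D hg)).symm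
  have hn : ((Subgroup.centralizer (D : Set G)).subgroupOf T).Normal :=
    Subgroup.normal_subgroupOf_of_le_normalizer fun g hg =>
      Cfsg.Agent.H22.normalizer_le_normalizer_centralizer D ((hst g).1 hg).1
  have hep : e ∣ p - 1 := he ▸
    (Cfsg.Agent.S4633.result p M hM B hB D hBD hD1 hD b hind T hst).2.1
  have he0 : 0 < e := Nat.pos_of_dvd_of_pos hep (Nat.sub_pos_of_lt hp.one_lt)
  have hpe : ¬ p ∣ e := fun h => by
    have h1 := Nat.le_of_dvd (Nat.sub_pos_of_lt hp.one_lt) hep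
    have h2 := Nat.le_of_dvd he0 h
    omega
  have hdef : Cfsg.blockDefect p B = a := Nat.pow_right_injective hp.two_le
    ((Cfsg.Agent.H40.card_defectGroup hM hB hBD).symm.trans hDa)
  have hle : (p : ℤ) ^ a ∣ (p : ℤ) ^ (Nat.card G).factorization p :=
    pow_dvd_pow _ ((hp.pow_dvd_iff_le_factorization Nat.card_pos.ne').1
      (hDa ▸ Subgroup.card_subgroup_dvd_card D))
  obtain ⟨hXX, hYX⟩ := Cfsg.Agent.H20.Cyclic.shape_degrees hM hB hm hD hγ hS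
  have hrel := fun (ψ : Cfsg.IrrCharacter G) (hψ : ψ ∈ B \ X) (g : G) (hg : ¬ p ∣ orderOf g) =>
    Cfsg.Agent.H20.Cyclic.shape_relation hM hB hm hD hS hψ hg
  have hd₀ : (d₀ : ℂ) ≠ 0 := by rcases hS.sign₀ with h | h <;> simp [h]
  refine ⟨hep, fun χ hχ => Cfsg.Agent.H20.Cyclic.shape_heights hM hB hm hD hγ hS hpe (by omega) hχ,
    X, B \ X, (Set.union_sdiff_cancel hS.subset).symm, Set.disjoint_sdiff_right,
    (Nat.card_coe_set_eq X).trans hS.card, ?_,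
    fun ψ hψ ψ' hψ' g hg => mul_left_cancel₀ hd₀ ((hrel ψ hψ g hg).trans (hrel ψ' hψ' g hg).symm),
    d, -d₀, hS.sign, ?_, fun ψ hψ g hg => ?_, fun χ hχ χ' hχ' => (hXX χ hχ χ' hχ').of_dvd hle,
    fun ψ hψ χ hχ => ?_⟩
  · have hc := Cfsg.Agent.H57.Cyclic.isMulComm hM hB hm hD
    have hfree : ∀ α ∈ Cfsg.Agent.H57.Cyclic.inertAut D _, ∀ v : D, v ≠ 1 → α v = v → α = 1 :=
      fun α hα v hv h => Cfsg.Agent.H57.Cyclic.inertAut_fixed hM hB hm hD hα hv h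
    have h1 := Cfsg.Agent.H57.Cyclic.card_orbitSums hfree
    rw [Cfsg.Agent.H57.Cyclic.card_inertAut, ← hTe, he, ← Nat.card_congr hS.rest.equiv, hDa] at h1
    exact (Nat.div_eq_of_eq_mul_left he0 (by omega)).symm
  · rcases hS.sign₀ with h | h <;> simp [h]
  · have hfin : (∑ᶠ χ ∈ X, (d χ : ℂ) * (χ : G → ℂ) g) =
        ∑ χ ∈ (Cfsg.Agent.H42.blockFinset B).filter (· ∈ X), (d χ : ℂ) * (χ : G → ℂ) g := by
      rw [finsum_mem_eq_finite_toFinset_sum _ X.toFinite]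
      refine Finset.sum_congr (Finset.ext fun χ => ?_) fun _ _ => rfl
      simp only [Set.Finite.mem_toFinset, Finset.mem_filter, Cfsg.Agent.H42.mem_blockFinset]
      exact ⟨fun h => ⟨hS.subset h, h⟩, fun h => h.2⟩
    rw [hfin, ← hrel ψ hψ g hg]
    push_cast
    ring
  · have h := (hYX ψ hψ χ hχ).of_dvd hle
    rwa [show -((e : ℤ) * -d₀ * d χ * (Cfsg.charDegree (χ : G → ℂ) : ℤ)) =
      d₀ * (e : ℤ) * d χ * (Cfsg.charDegree (χ : G → ℂ) : ℤ) by ring]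

end Cfsg.Agent.S4696
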