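import Cfsg.Statements.S4702
import Cfsg.Agent.H44.ZassenhausOdd

set_option autoImplicit false
open Cfsg

namespace Cfsg.Agent.S4702

/-- Let G be a triply transitive permutation group on a finite set of odd size m ≥ 3 in which only the identity fixes three or more points. Then m = 2^a + 1 for some a ≥ 1 and G is isomorphic to SL(2, 2^a). -/
theorem result {α : Type*} [Fintype α] [DecidableEq α] (hm : 3 ≤ Fintype.card α) (hodd : Odd (Fintype.card α)) (G : Subgroup (Equiv.Perm α)) (h3 : MulAction.IsMultiplyPretransitive G α 3) (hfix : ∀ g : G, 3 ≤ Nat.card (MulAction.fixedBy α g) → g = 1) : ∃ a : ℕ, 1 ≤ a ∧ Fintype.card α = 2 ^ a + 1 ∧ ∃ (F : Type) (_ : Field F) (_ : Fintype F), Fintype.card F = 2 ^ a ∧ Nonempty (G ≃* Matrix.SpecialLinearGroup (Fin 2) F) := by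
  exact H44.zassenhaus_odd hm hodd G h3 hfix

end Cfsg.Agent.S4702
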