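import Cfsg.Statements.S4703
import Cfsg.Agent.H40.SmallDeg.Main
-- import your own Cfsg.Agent.* helpers here

set_option autoImplicit false
open Cfsg

namespace Cfsg.Agent.S4703

/-- Let G be a finite group whose centre Z has odd order, p > 7 a prime, and suppose a Sylow p-subgroup of G has order p and is not normal. Let ζ be a faithful irreducible character of G (only the identity lies in its kernel). Then either G/Z is isomorphic to PSL(2, p) and ζ has degree (p + 1)/2 or (p − 1)/2, or ζ has degree at least p − 2. -/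
theorem result {G : Type*} [Group G] [Finite G] (hZ : Odd (Nat.card (Subgroup.center G))) (p : ℕ) [Fact p.Prime] (hp : 7 < p) (P : Sylow p G) (hP : Nat.card P = p) (hnn : ¬ (P : Subgroup G).Normal) (ζ : G → ℂ) (hζ : Cfsg.IsIrrCharacter G ζ) (hfaith : ∀ g : G, ζ g = ζ 1 → g = 1) : ((∃ (F : Type) (_ : Field F) (_ : Fintype F), Fintype.card F = p ∧ Nonempty (G ⧸ Subgroup.center G ≃* Matrix.ProjectiveSpecialLinearGroup (Fin 2) F)) ∧ (2 * Cfsg.charDegree ζ = p + 1 ∨ 2 * Cfsg.charDegree ζ = p - 1)) ∨ p - 2 ≤ Cfsg.charDegree ζ := by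
  rcases Nat.lt_or_ge (Cfsg.charDegree ζ + 2) p with h | h
  · obtain ⟨hiso, hdeg⟩ := H40.SmallDeg.main hZ hp P hP hnn ⟨ζ, hζ⟩ hfaith h
    exact Or.inl ⟨⟨ZMod p, inferInstance, inferInstance, ZMod.card p, hiso⟩, hdeg⟩
  · exact Or.inr (by omega)

end Cfsg.Agent.S4703
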