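import Cfsg.Statements.S4704
import Cfsg.Agent.H82.SmallDeg.Main
-- import your own Cfsg.Agent.* helpers here

set_option autoImplicit false
open Cfsg

namespace Cfsg.Agent.S4704

/-- Let G be a finite group with centre Z, p > 7 a prime, and suppose a Sylow p-subgroup of G has order p and is not normal. Let ζ be a faithful irreducible character of G and t the number of conjugacy classes of G consisting of elements of order p. Then one of the following holds: G/Z is isomorphic to PSL(2, p), ζ has degree (p + 1)/2 or (p − 1)/2 and t = 2; or ζ has degree at least p − 1; or ζ has degree at least p + 3/2 − √(p + 5/4) and p ≤ t^2 − 3t + 1. -/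
theorem result {G : Type*} [Group G] [Finite G] (p : ℕ) [Fact p.Prime] (hp : 7 < p) (P : Sylow p G) (hP : Nat.card P = p) (hnn : ¬ (P : Subgroup G).Normal) (ζ : G → ℂ) (hζ : Cfsg.IsIrrCharacter G ζ) (hfaith : ∀ g : G, ζ g = ζ 1 → g = 1) (t : ℕ) (ht : Nat.card {c : ConjClasses G // ∃ g : G, ConjClasses.mk g = c ∧ orderOf g = p} = t) : ((∃ (F : Type) (_ : Field F) (_ : Fintype F), Fintype.card F = p ∧ Nonempty (G ⧸ Subgroup.center G ≃* Matrix.ProjectiveSpecialLinearGroup (Fin 2) F)) ∧ (2 * Cfsg.charDegree ζ = p + 1 ∨ 2 * Cfsg.charDegree ζ = p - 1) ∧ t = 2) ∨ p - 1 ≤ Cfsg.charDegree ζ ∨ ((p : ℝ) + 3 / 2 - Real.sqrt ((p : ℝ) + 5 / 4) ≤ (Cfsg.charDegree ζ : ℝ) ∧ (p : ℤ) ≤ (t : ℤ) ^ 2 - 3 * t + 1) := by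
  rcases Nat.lt_or_ge (Cfsg.charDegree ζ + 1) p with h | h
  · rcases H82.SmallDeg.main hp P hP hnn ⟨ζ, hζ⟩ hfaith h t ht with
      ⟨hiso, hdeg, ht2⟩ | ⟨e, hde, het, hte⟩
    · exact Or.inl ⟨⟨ZMod p, inferInstance, inferInstance, ZMod.card p, hiso⟩, hdeg, ht2⟩
    · refine Or.inr (Or.inr ⟨?_, ?_⟩)
      · have hd : (Cfsg.charDegree ζ : ℝ) + e = p := by exact_mod_cast hde
        have h1 : (e : ℝ) + 3 ≤ t := by exact_mod_cast het
        have h2 : (t : ℝ) * e + 1 = p := by exact_mod_cast hte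
        have h3 : ((e : ℝ) + 3 / 2) ^ 2 ≤ (p : ℝ) + 5 / 4 := by
          nlinarith [mul_le_mul_of_nonneg_right h1 (Nat.cast_nonneg (α := ℝ) e)]
        have h4 := Real.le_sqrt_of_sq_le h3
        linarith
      · have h1 : (e : ℤ) + 3 ≤ t := by exact_mod_cast het
        have h2 : (t : ℤ) * e + 1 = p := by exact_mod_cast hte
        nlinarith [mul_le_mul_of_nonneg_left h1 (Int.natCast_nonneg t)]
  · exact Or.inr (Or.inl (by omega))

end Cfsg.Agent.S4704
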