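import Cfsg.Statements.S4705
import Cfsg.Agent.H39.SmallDeg.Final
-- import your own Cfsg.Agent.* helpers here

set_option autoImplicit false
open Cfsg

namespace Cfsg.Agent.S4705

/-- Let G be a finite group with centre Z and p > 5 a prime such that a Sylow p-subgroup of G has order p and is not normal. If G has a faithful irreducible character of degree p − 2, then p = 2^a + 1 for some a and G is isomorphic to the direct product of SL(2, 2^a) with Z. -/
theorem result {G : Type*} [Group G] [Finite G] (p : ℕ) [Fact p.Prime] (hp : 5 < p) (P : Sylow p G) (hP : Nat.card P = p) (hnn : ¬ (P : Subgroup G).Normal) (ζ : G → ℂ) (hζ : Cfsg.IsIrrCharacter G ζ) (hfaith : ∀ g : G, ζ g = ζ 1 → g = 1) (hdeg : Cfsg.charDegree ζ = p - 2) : ∃ (a : ℕ) (F : Type) (_ : Field F) (_ : Fintype F), p = 2 ^ a + 1 ∧ Fintype.card F = 2 ^ a ∧ Nonempty (G ≃* Matrix.SpecialLinearGroup (Fin 2) F × Subgroup.center G) := by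
  classical
  have hpp : p.Prime := Fact.out
  obtain ⟨z, hz⟩ := exists_prime_orderOf_dvd_card' (G := (P : Subgroup G)) p (dvd_of_eq hP.symm)
  have hz' : orderOf (z : G) = p := (Subgroup.orderOf_coe z).trans hz
  have hzP : Subgroup.zpowers (z : G) = (P : Subgroup G) :=
    Subgroup.eq_of_le_of_card_ge (Subgroup.zpowers_le.2 z.2) (by rw [Nat.card_zpowers, hz', hP])
  have hsq : ¬ p ^ 2 ∣ Nat.card G := fun h => by
    have h2 := P.pow_dvd_card_of_pow_dvd_card h
    rw [hP] at h2
    have := Nat.le_of_dvd hpp.pos h2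
    nlinarith
  refine H39.SmallDeg.Hyp.structure_iso (p := p) (z := (z : G)) (χ := ⟨ζ, hζ⟩)
    ⟨hz', hsq, by rw [hzP]; exact hnn, hfaith, ?_, hp⟩
  let _ : Fintype G := Fintype.ofFinite G
  have h := (H31.Defect.irr_degree ⟨ζ, hζ⟩).1
  rw [← hdeg]
  exact h

end Cfsg.Agent.S4705
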