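import Cfsg.Statements.S4708
import Cfsg.Agent.H42.PrincipalCover
import Cfsg.Agent.H42.Bounds
-- import your own Cfsg.Agent.* helpers here

set_option autoImplicit false
open Cfsg

namespace Cfsg.Agent.S4708

/-- Let p be a prime, M a maximal ideal of the algebraic integers containing p, G a finite group and H a normal subgroup. Write λ(X) for the sum of the squares of the degrees of the irreducible characters in the principal p-block of a group X. Then λ(H) ≤ λ(G) ≤ [G : H]·λ(H). -/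
theorem result {G : Type*} [Group G] [Finite G] (p : ℕ) [Fact p.Prime] (M : Ideal Cfsg.AlgInt) (hM : Cfsg.IsPModular p M) (H : Subgroup G) [H.Normal] : (∑ᶠ θ ∈ Cfsg.principalBlock M H, Cfsg.charDegree (θ : H → ℂ) ^ 2) ≤ (∑ᶠ χ ∈ Cfsg.principalBlock M G, Cfsg.charDegree (χ : G → ℂ) ^ 2) ∧ (∑ᶠ χ ∈ Cfsg.principalBlock M G, Cfsg.charDegree (χ : G → ℂ) ^ 2) ≤ H.index * ∑ᶠ θ ∈ Cfsg.principalBlock M H, Cfsg.charDegree (θ : H → ℂ) ^ 2 := by
  classical
  have := Fintype.ofFinite G
  have := Fintype.ofFinite H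
  rw [Cfsg.Agent.H42.finsum_mem_block, Cfsg.Agent.H42.finsum_mem_block]
  set b := Cfsg.principalBlock M H
  set B := Cfsg.principalBlock M G
  have hswap : ∑ θ ∈ Cfsg.Agent.H42.blockFinset b, Cfsg.charDegree (θ : H → ℂ) *
      (∑ χ ∈ Cfsg.Agent.H42.blockFinset B, Cfsg.Agent.H43.restrMult H χ θ *
        Cfsg.charDegree (χ : G → ℂ)) =
      ∑ χ ∈ Cfsg.Agent.H42.blockFinset B, Cfsg.charDegree (χ : G → ℂ) ^ 2 := by
    simp only [Finset.mul_sum]
    rw [Finset.sum_comm]
    refine Finset.sum_congr rfl fun χ hχ => ?_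
    rw [sq]
    conv_rhs => arg 2; rw [Cfsg.Agent.H42.degree_eq_sum_restrMult (N := H) χ]
    rw [Finset.mul_sum]
    refine (Finset.sum_subset (Finset.subset_univ _) fun θ _ hθ => ?_).trans
      (Finset.sum_congr rfl fun θ _ => by ring)
    have h0 : Cfsg.Agent.H43.restrMult H χ θ = 0 := by
      by_contra hne
      exact hθ (Cfsg.Agent.H42.mem_blockFinset.2 (Cfsg.Agent.H42.constituent_mem_principal hM
        (Cfsg.Agent.H42.mem_blockFinset.1 hχ) hne))
    simp [h0]
  rw [← hswap]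
  refine ⟨Finset.sum_le_sum fun θ hθ => ?_, ?_⟩
  · obtain ⟨χ, hχ, hne⟩ := Cfsg.Agent.H42.exists_over_principal hM
      (Cfsg.Agent.H42.mem_blockFinset.1 hθ)
    rw [sq]
    refine Nat.mul_le_mul_left _ (le_trans ?_ (Finset.single_le_sum (fun _ _ => Nat.zero_le _)
      (Cfsg.Agent.H42.mem_blockFinset.2 hχ)))
    refine le_trans ?_ (Nat.le_mul_of_pos_left _ (Nat.pos_of_ne_zero hne))
    rw [Cfsg.Agent.H42.degree_eq_sum_restrMult (N := H) χ]
    exact (Nat.le_mul_of_pos_left _ (Nat.pos_of_ne_zero hne)).trans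
      (Finset.single_le_sum (f := fun θ => Cfsg.Agent.H43.restrMult H χ θ *
        Cfsg.charDegree (θ : H → ℂ)) (fun _ _ => Nat.zero_le _) (Finset.mem_univ θ))
  · rw [Finset.mul_sum]
    refine Finset.sum_le_sum fun θ _ => ?_
    rw [sq, ← mul_assoc, mul_comm _ (Cfsg.charDegree (θ : H → ℂ))]
    refine Nat.mul_le_mul_left _ ?_
    rw [← Cfsg.Agent.H42.sum_restrMult_mul_degree]
    exact Finset.sum_le_sum_of_subset (Finset.subset_univ _)

end Cfsg.Agent.S4708
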