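import Cfsg.Statements.S4709
import Cfsg.Agent.H28.AbelianExceptional

set_option autoImplicit false
open Cfsg

namespace Cfsg.Agent.S4709

/-- Let p be a prime, M a maximal ideal of the algebraic integers containing p, and G a finite group with a nontrivial abelian Sylow p-subgroup P; put N = N_G(P), C = C_G(P). Suppose N/C is cyclic of order m with 1 < m < #P − 1 (C has index m in N and N is generated by C and one element), and C_G(y) ∩ N = C for every non-identity y ∈ P. Put r = (#P − 1)/m. Then there is s ≤ m such that the principal p-block is the disjoint union of a set X of s characters containing the principal character and a set Y of r characters, with integers a_χ ≠ 0 (χ ∈ X), d and a sign δ = ±1, such that: every χ ∈ X takes the value a_χ at every element whose p-part is a non-identity element of P; there is a map ζ from the non-principal linear characters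 ψ of P onto Y, constant on N-conjugacy classes, with ζ_ψ(z) = d + δ·Σ ψ'(y) for every z whose p-part y is a non-identity element of P, the sum running over the N-conjugates ψ' of ψ; (d − δ)^2 + (r − 1) d^2 + Σ_{χ ∈ X} a_χ^2 = m + 1; all members of Y agree on p-regular elements; and (r d − δ) η(g) + Σ_{χ ∈ X} a_χ χ(g) = 0 for every η ∈ Y and every p-regular g. -/
theorem result {G : Type*} [Group G] [Finite G] (p : ℕ) [Fact p.Prime] (M : Ideal Cfsg.AlgInt) (hM : Cfsg.IsPModular p M) (P : Sylow p G) (hab : IsMulCommutative P) (hP1 : Nat.card P ≠ 1) (m : ℕ) (hm1 : 1 < m) (hm2 : m + 1 < Nat.card P) (hCN : (Subgroup.centralizer ((P : Subgroup G) : Set G)).relIndex (Subgroup.normalizer ((P : Subgroup G) : Set G)) = m) (hcyc : ∃ g : G, g ∈ Subgroup.normalizer ((P : Subgroup G) : Set G) ∧ Subgroup.centralizer ((P : Subgroup G) : Set G) ⊔ Subgroup.zpowers g = Subgroup.normalizer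 ((P : Subgroup G) : Set G)) (hfrob : ∀ y : G, y ∈ (P : Subgroup G) → y ≠ 1 → Subgroup.centralizer ({y} : Set G) ⊓ Subgroup.normalizer ((P : Subgroup G) : Set G) = Subgroup.centralizer ((P : Subgroup G) : Set G)) : ∃ (s : ℕ) (X Y : Set (Cfsg.IrrCharacter G)), s ≤ m ∧ Cfsg.principalBlock M G = X ∪ Y ∧ Disjoint X Y ∧ Nat.card X = s ∧ Nat.card Y = (Nat.card P - 1) / m ∧ (∃ χ₁ ∈ X, (χ₁ : G → ℂ) = fun _ => 1) ∧ ∃ (a : Cfsg.IrrCharacter G → ℤ) (d δ : ℤ) (ζ : (↥(P : Subgroup G) →* ℂˣ) → Cfsg.IrrCharacter G), (δ = 1 ∨ δ = -1) ∧ (∀ χ ∈ X, a χ ≠ 0 ∧ ∀ z y : G, Cfsg.IsPPart p z y → y ∈ (P : Subgroup G) → y ≠ 1 → (χ : G → ℂ) z = (a χ : ℂ)) ∧ (∀ ψ : ↥(P : Subgroup G) →* ℂˣ, ψ ≠ 1 → ζ ψ ∈ Y) ∧ (∀ η ∈ Y, ∃ ψ : ↥(P : Subgroup G) →* ℂˣ, ψ ≠ 1 ∧ ζ ψ = η) ∧ (∀ ψ ψ' : ↥(P : Subgroup G) →* ℂˣ, ψ ≠ 1 → (∃ n : G, n ∈ Subgroup.normalizer ((P : Subgroup G) : Set G) ∧ ∀ w w' : ↥(P : Subgroup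 G), (w' : G) = n * w * n⁻¹ → ψ' w' = ψ w) → ζ ψ' = ζ ψ) ∧ (∀ ψ : ↥(P : Subgroup G) →* ℂˣ, ψ ≠ 1 → ∀ (z : G) (y : ↥(P : Subgroup G)), Cfsg.IsPPart p z (y : G) → (y : G) ≠ 1 → (ζ ψ : G → ℂ) z = (d : ℂ) + (δ : ℂ) * ∑ᶠ ψ' ∈ {ψ' : ↥(P : Subgroup G) →* ℂˣ | ∃ n : G, n ∈ Subgroup.normalizer ((P : Subgroup G) : Set G) ∧ ∀ w w' : ↥(P : Subgroup G), (w' : G) = n * w * n⁻¹ → ψ' w' = ψ w}, ((ψ' y : ℂˣ) : ℂ)) ∧ ((d - δ) ^ 2 + ((Nat.card P - 1) / m - 1 : ℤ) * d ^ 2 + ∑ᶠ χ ∈ X, a χ ^ 2 = (m : ℤ) + 1) ∧ (∀ η ∈ Y, ∀ η' ∈ Y, ∀ g : G, ¬ p ∣ orderOf g → (η : G → ℂ) g = (η' : G → ℂ) g) ∧ (∀ η ∈ Y, ∀ g : G, ¬ p ∣ orderOf g → ((((Nat.card P - 1) / m : ℕ) : ℂ) * d - δ) * (η : G → ℂ) g + ∑ᶠ χ ∈ X, (a χ : ℂ) * (χ : G → ℂ) g = 0) := by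
  classical
  haveI := Fintype.ofFinite G
  have h : Cfsg.Agent.H28.Ab.Ctx P m := ⟨hab, hCN, hfrob⟩
  obtain ⟨r, ⟨E⟩⟩ := h.exists_exc hM hm2
  have hA : ∀ χ ∈ E.X, (1 : ℤ) ≤ E.a χ ^ 2 := fun χ hχ => by
    nlinarith [Int.one_le_abs (E.a_ne χ hχ), sq_abs (E.a χ)]
  have hr := E.r_eq h
  refine ⟨E.X.card, (E.X : Set (Cfsg.IrrCharacter G)), Set.range E.mu, ?_, E.block, ?_,
    ?_, ?_, ⟨_, E.one_mem, funext Cfsg.Agent.H26.oneIrr_val⟩, E.a, E.d, E.e,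
    fun ψ => E.mu (E.R.idx ψ), E.e_unit,
    fun χ hχ => ⟨E.a_ne χ hχ, fun z y hz hyP hy => E.value_X h hM hχ hz hyP hy⟩,
    fun ψ _ => ⟨_, rfl⟩, ?_, ?_, ?_, ?_, ?_, ?_⟩
  · have h1 : (E.X.card : ℤ) ≤ ∑ χ ∈ E.X, E.a χ ^ 2 := by
      have := Finset.sum_le_sum hA
      simpa using this
    have h2 : 0 ≤ (r : ℤ) * E.d ^ 2 - 2 * E.d * E.e := by
      have h3 : (2 : ℤ) * E.d ^ 2 ≤ r * E.d ^ 2 :=
        mul_le_mul_of_nonneg_right (by exact_mod_cast E.two_le) (sq_nonneg _)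
      rcases E.e_unit with he | he <;> rw [he] <;>
        nlinarith [sq_nonneg (E.d - 1), sq_nonneg (E.d + 1), h3,
          mul_self_nonneg (E.d : ℤ), Int.le_self_sq E.d, Int.le_self_sq (-E.d)]
    have := E.norm
    exact_mod_cast (show (E.X.card : ℤ) ≤ m by linarith)
  · rw [Set.disjoint_left]
    rintro χ hχ ⟨i, rfl⟩
    exact E.notMem i hχ
  · rw [Nat.card_coe_set_eq, Set.ncard_coe_finset]
  · rw [E.card_range, hr]
  · rintro _ ⟨i, rfl⟩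
    exact ⟨E.R.rep i, E.R.ne_one i, congrArg E.mu (E.R.idx_rep i)⟩
  · intro ψ ψ' hψ hψ'
    exact congrArg E.mu (E.R.idx_orb hψ hψ')
  · intro ψ hψ z y hz hy
    exact E.value_mu h hM hψ hz hy
  · rw [finsum_mem_coe_finset, ← E.card]
    push_cast
    rw [add_sub_cancel_right, Int.mul_ediv_cancel _ (by exact_mod_cast h.pos.ne')]
    have := E.norm
    rcases E.e_unit with he | he <;> rw [he] at this ⊢ <;> linarith
  · rintro _ ⟨i, rfl⟩ _ ⟨j, rfl⟩ g hg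
    exact E.reg i j g hg
  · rintro _ ⟨i, rfl⟩ g hg
    rw [hr, finsum_mem_coe_finset]
    exact E.rel i g hg

end Cfsg.Agent.S4709
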