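import Cfsg.Statements.S4715
import Cfsg.Agent.H41.CentralSubsections
import Cfsg.Agent.H41.SectionSum

set_option autoImplicit false
open Cfsg

namespace Cfsg.Agent.S4715

/-- Let p be a prime, M a maximal ideal of the algebraic integers containing p, B a p-block of the finite group G with defect group D of order p^d, H = D·C_G(D), b a block of H inducing B, T the stabilizer of b in N_G(D) and e = [T : H] the inertial index of B; let n be the integer with p^n ≤ e < p^(n+1) and p^c the order of the centre of D. Then every irreducible character in B has height h with h + c ≤ n + d. -/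
theorem result {G : Type*} [Group G] [Finite G] (p : ℕ) [Fact p.Prime] (M : Ideal Cfsg.AlgInt) (hM : Cfsg.IsPModular p M) (B : Set (Cfsg.IrrCharacter G)) (hB : Cfsg.IsPBlock M B) (D : Subgroup G) (hBD : Cfsg.IsDefectGroup p M B D) (d : ℕ) (hDd : Nat.card D = p ^ d) (H : Subgroup G) (hH : H = D ⊔ Subgroup.centralizer (D : Set G)) (b : Set (Cfsg.IrrCharacter H)) (hind : Cfsg.IsInducedBlock M H b B) (T : Subgroup G) (hT : ∀ g : G, g ∈ T ↔ (g ∈ Subgroup.normalizer (D : Set G) ∧ ∀ θ ∈ b, ∀ θ' : Cfsg.IrrCharacter H, (∀ h h' : H, (h' : G) = g * h * g⁻¹ → (θ' : H → ℂ) h' = (θ : H → ℂ) h) → θ' ∈ b)) (e : ℕ) (he : H.relIndex T = e) (n : ℕ) (hn : p ^ n ≤ e ∧ e < p ^ (n + 1)) (c : ℕ) (hc : Nat.card (Subgroup.center D) = p ^ c) : ∀ χ ∈ B, Cfsg.blockHeight p B (χ : G → ℂ) + c ≤ n + d := by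
  classical
  intro χ hχ
  haveI := Fintype.ofFinite G
  haveI := hM.2.1
  haveI := H41.IsPModular.charP hM
  have hp : p.Prime := Fact.out
  set f := H22.el M H b with hf_def
  have hm := Cfsg.Agent.H41.Central.isMaxEl_el hM hB hBD hH hind
  rw [← hf_def] at hm
  have hDH : D ≤ H := hH ▸ le_sup_left
  have hCH : Subgroup.centralizer (D : Set G) ≤ H := hH ▸ le_sup_right
  have hblkC : H22.IsBlockEl (Subgroup.centralizer (D : Set G)) f := by simpa using hm.pair.block
  -- the stabiliser of the pair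
  have hNH : Subgroup.normalizer (D : Set G) ≤ Subgroup.normalizer (H : Set G) := by
    intro x hx
    refine H22.mem_normalizer_of_cS ?_
    rw [hH]
    show Subgroup.map _ _ = _
    rw [Subgroup.map_sup]
    show H22.cS x D ⊔ H22.cS x (Subgroup.centralizer (D : Set G)) = _
    rw [H22.cS_centralizer, H22.cS_eq_self hx]
  have hstab : H22.pairStab D f ≤ T := by
    intro g hg
    refine (hT g).2 ⟨hg.1, fun θ hθ θ' hθ' => ?_⟩
    obtain ⟨θ'', hθ'', hc⟩ := ((H22.stabilizesBlock_iff hind.1 (hNH hg.1)).2 hg.2).2 θ hθ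
    have : θ' = θ'' := by
      refine Subtype.ext (funext fun h' => ?_)
      have hmem : g⁻¹ * (h' : G) * g ∈ H := by
        have := (Subgroup.mem_normalizer_iff.1 (inv_mem (hNH hg.1)) (h' : G)).1 h'.2
        simpa using this
      have heq : (h' : G) = g * ((⟨_, hmem⟩ : H) : G) * g⁻¹ := by
        show (h' : G) = g * (g⁻¹ * (h' : G) * g) * g⁻¹
        group
      rw [hθ' ⟨_, hmem⟩ h' heq, hc ⟨_, hmem⟩ h' heq]
    exact this ▸ hθ''
  have hHT : H ≤ T := by
    rw [hH]
    exact (sup_le (H22.le_pairStab hblkC.cent.supp) (H22.centralizer_le_pairStab hblkC)).trans hstab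
  -- the central subsections
  choose bu hbu using fun u : G => (show ∃ b' : Set (Cfsg.IrrCharacter (H56.Subsec.CZ u)),
      u ∈ D → u ∈ Subgroup.centralizer (D : Set G) →
        Cfsg.IsInducedBlock M (H56.Subsec.CZ u) b' B ∧
        Cfsg.blockDefect p b' = Cfsg.blockDefect p B ∧
        H22.PLe p ⊤ (Subgroup.zpowers u, H22.el M (H56.Subsec.CZ u) b') (D, f) by
    by_cases h : u ∈ D ∧ u ∈ Subgroup.centralizer (D : Set G)
    · obtain ⟨b', hb'⟩ := Cfsg.Agent.H41.Central.exists_major hM hB hm h.1 h.2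
      exact ⟨b', fun _ _ => hb'⟩
    · exact ⟨∅, fun h1 h2 => absurd ⟨h1, h2⟩ h⟩)
  let C : Finset G :=
    Finset.univ.filter fun u => u ∈ D ∧ u ∈ Subgroup.centralizer (D : Set G)
  let S := H22.pairStab D f
  let orb : Setoid G :=
    { r := fun u v => ∃ t ∈ S, t * u * t⁻¹ = v
      iseqv := ⟨fun u => ⟨1, one_mem _, by group⟩,
        fun ⟨t, ht, h⟩ => ⟨t⁻¹, inv_mem ht, by rw [← h]; group⟩,
        fun ⟨t, ht, h⟩ ⟨s, hs, h'⟩ => ⟨s * t, mul_mem hs ht, by rw [← h', ← h]; group⟩⟩ }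
  let rep : G → G := fun u => (Quotient.mk orb u).out
  have hrep : ∀ u, ∃ t ∈ S, t * u * t⁻¹ = rep u := fun u =>
    Setoid.symm' orb (Quotient.exact (Quotient.out_eq (Quotient.mk orb u)))
  let Z : Finset G := C.image rep
  have hZC : ∀ z ∈ Z, z ∈ D ∧ z ∈ Subgroup.centralizer (D : Set G) := by
    intro z hz
    obtain ⟨u, hu, rfl⟩ := Finset.mem_image.1 hz
    obtain ⟨t, ht, htu⟩ := hrep u
    obtain ⟨h1, h2⟩ := (Finset.mem_filter.1 hu).2
    rw [← htu]
    exact ⟨(Subgroup.mem_normalizer_iff.1 ht.1 u).1 h1,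
      (H40.conj_mem_centralizer_iff ht.1).2 h2⟩
  -- each orbit has at most `e` elements
  have hcard : p ^ c ≤ e * Z.card := by
    have hC : C.card = p ^ c := by
      rw [← hc, Nat.card_eq_fintype_card, ← Fintype.card_coe]
      refine Fintype.card_congr
        { toFun := fun u => ⟨⟨u.1, (Finset.mem_filter.1 u.2).2.1⟩, Subgroup.mem_center_iff.2 fun x =>
            Subtype.ext (Subgroup.mem_centralizer_iff.1 (Finset.mem_filter.1 u.2).2.2 x.1 x.2)⟩
          invFun := fun v => ⟨(v.1 : G), Finset.mem_filter.2 ⟨Finset.mem_univ _, v.1.2,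
            Subgroup.mem_centralizer_iff.2 fun x hx =>
              congrArg Subtype.val (Subgroup.mem_center_iff.1 v.2 ⟨x, hx⟩)⟩⟩
          left_inv := fun u => rfl
          right_inv := fun v => rfl }
    rw [← hC]
    refine Finset.card_le_mul_card_image C e fun z hz => ?_
    obtain ⟨hzD, hzC⟩ := hZC z hz
    have hsub : (C.filter fun u => rep u = z) ⊆
        (Finset.univ : Finset (T ⧸ H.subgroupOf T)).image
          (fun q => (q.out : G) * z * (q.out : G)⁻¹) := by
      intro v hv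
      obtain ⟨t, ht, htv⟩ := hrep v
      rw [(Finset.mem_filter.1 hv).2] at htv
      let t' : T := ⟨t⁻¹, inv_mem (hstab ht)⟩
      refine Finset.mem_image.2 ⟨QuotientGroup.mk t', Finset.mem_univ _, ?_⟩
      obtain ⟨h', hh'⟩ := QuotientGroup.mk_out_eq_mul (H.subgroupOf T) t'
      rw [hh']
      have hcm : ((h' : T) : G) * z = z * ((h' : T) : G) := by
        have hmem : ((h' : T) : G) ∈ H := h'.2
        have hle : H ≤ Subgroup.centralizer ({z} : Set G) := by
          rw [hH]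
          refine sup_le (fun x hx => ?_) (Subgroup.centralizer_le (Set.singleton_subset_iff.2 hzD))
          rw [Subgroup.mem_centralizer_singleton_iff]
          exact Subgroup.mem_centralizer_iff.1 hzC x hx
        exact Subgroup.mem_centralizer_singleton_iff.1 (hle hmem)
      push_cast
      show t⁻¹ * ((h' : T) : G) * z * (t⁻¹ * ((h' : T) : G))⁻¹ = v
      rw [mul_assoc (t⁻¹), hcm, ← htv]
      group
    refine (Finset.card_le_card hsub).trans (Finset.card_image_le.trans (le_of_eq ?_))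
    rw [Finset.card_univ, ← Nat.card_eq_fintype_card, ← he]
    rfl
  -- the exponent
  set N := p ^ (Nat.card G).factorization p with hN_def
  have hN0 : N ≠ 0 := (pow_pos hp.pos _).ne'
  have hN : ∀ y : G, (∃ k : ℕ, orderOf y = p ^ k) → y ^ N = 1 := by
    rintro y ⟨k, hk⟩
    refine orderOf_dvd_iff_pow_eq_one.1 ?_
    rw [hk, hN_def]
    refine pow_dvd_pow _ ((hp.pow_dvd_iff_le_factorization Nat.card_pos.ne').1 ?_)
    rw [← hk]
    exact orderOf_dvd_natCard y
  have hord : ∀ z ∈ Z, ∃ k : ℕ, orderOf z = p ^ k := by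
    intro z hz
    obtain ⟨k, hk⟩ := IsPGroup.iff_orderOf.1 hm.pair.pGroup ⟨z, (hZC z hz).1⟩
    exact ⟨k, by rw [← hk, Subgroup.orderOf_mk]⟩
  have hdB : Cfsg.blockDefect p B = d :=
    (Nat.pow_right_injective hp.two_le ((H40.card_defectGroup hM hB hBD).symm.trans hDd))
  set h := Cfsg.blockHeight p B (χ : G → ℂ)
  set U := H56.Twist.units N
  -- upper bound
  have hup : ∀ k ∈ U, ∑ z ∈ Z, (H56.Subsec.cont p z (bu z) χ χ k).re ≤ (p : ℝ) ^ d := by
    intro k hk
    have hinj : ∀ u ∈ Z, ∀ v ∈ Z, ∀ g : G, g * u * g⁻¹ = v →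
        H22.cj g (H22.el M (H56.Subsec.CZ u) (bu u)) = H22.el M (H56.Subsec.CZ v) (bu v) →
          u = v := by
      intro u hu v hv g hg hgf
      obtain ⟨y, hy, hyu⟩ := Cfsg.Agent.H41.Central.exists_pairStab_conj hM hB hm (hZC u hu).2
        (hZC v hv).2 (hbu u (hZC u hu).1 (hZC u hu).2).2.2
        (hbu v (hZC v hv).1 (hZC v hv).2).2.2 hg hgf
      have hidem : ∀ w ∈ Z, rep w = w := by
        intro w hw
        obtain ⟨w', -, rfl⟩ := Finset.mem_image.1 hw
        show (Quotient.mk orb (Quotient.mk orb w').out).out = _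
        rw [Quotient.out_eq]
      rw [← hidem u hu, ← hidem v hv]
      show (Quotient.mk orb u).out = (Quotient.mk orb v).out
      rw [Quotient.sound (show orb u v from ⟨y, hy, hyu⟩)]
    have hs := Cfsg.Agent.H41.SectionSum.sum_share_le hM hN0 hN Z hord bu
      (fun u hu => (hbu u (hZC u hu).1 (hZC u hu).2).1.1) hinj χ hk
    have hpd : (0 : ℝ) < (p : ℝ) ^ d := pow_pos (Nat.cast_pos.2 hp.pos) _
    calc ∑ z ∈ Z, (H56.Subsec.cont p z (bu z) χ χ k).re =
        (p : ℝ) ^ d * ∑ z ∈ Z, (Cfsg.Agent.H41.SectionSum.share p z (bu z) χ k).re := by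
          rw [Finset.mul_sum]
          refine Finset.sum_congr rfl fun z hz => ?_
          rw [Cfsg.Agent.H41.SectionSum.share, (hbu z (hZC z hz).1 (hZC z hz).2).2.1, hdB,
            show (p : ℂ) ^ d = (((p : ℝ) ^ d : ℝ) : ℂ) by push_cast; rfl, Complex.div_ofReal_re]
          field_simp
      _ ≤ (p : ℝ) ^ d * 1 := mul_le_mul_of_nonneg_left hs hpd.le
      _ = (p : ℝ) ^ d := mul_one _
  -- lower bound
  have hlow : ∀ z ∈ Z, (U.card : ℝ) * (p : ℝ) ^ h ≤
      ∑ k ∈ U, (H56.Subsec.cont p z (bu z) χ χ k).re := by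
    intro z hz
    obtain ⟨hind', hbd, -⟩ := hbu z (hZC z hz).1 (hZC z hz).2
    have hy := hord z hz
    have hzN := hN z hy
    obtain ⟨χ₀, hχ₀, h00⟩ := H41.exists_height_zero (p := p) (H41.IsPBlock.nonempty hB)
    have hne : H56.Subsec.cont p z (bu z) χ χ 1 ≠ 0 := by
      intro h0
      have hsum := H56.Subsec.sum_cont_mul hM hy hind' χ χ
      rw [h0, mul_zero] at hsum
      have hsum' : ∑ ψ ∈ H56.Subsec.mem' B, ‖H56.Subsec.cont p z (bu z) χ ψ 1‖ ^ 2 = 0 := by
        apply Complex.ofReal_injective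
        rw [Complex.ofReal_zero, ← hsum, Complex.ofReal_sum]
        refine Finset.sum_congr rfl fun ψ _ => ?_
        rw [← H56.Subsec.conj_cont χ ψ, Complex.mul_conj', Complex.ofReal_pow]
      have h1 := (Finset.sum_eq_zero_iff_of_nonneg fun ψ _ => sq_nonneg _).1 hsum' χ₀
        (H56.Subsec.mem_mem'.2 hχ₀)
      rw [sq_eq_zero_iff, norm_eq_zero] at h1
      have h2 : H56.Subsec.redCont p z (bu z) B χ₀ χ = 0 := by
        rw [H56.Subsec.redCont, ← H56.Subsec.conj_cont χ χ₀ 1, h1, map_zero, zero_div]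
      refine (H56.Subsec.res_redCont_eq_zero_iff hM hy hind' hbd hχ₀ hχ).1 ?_ h00
      have : (⟨_, H41.isIntegral_mem_localRing
          (H56.Subsec.isIntegral_redCont hM hy hind' hbd χ₀ hχ)⟩ : H41.localRing M) = 0 :=
        Subtype.ext h2
      rw [this, map_zero]
    have hp0 : (p : ℂ) ^ h ≠ 0 := pow_ne_zero _ (Nat.cast_ne_zero.2 hp.ne_zero)
    have hmean := (H56.Subsec.isTwist_redCont (p := p) (b := bu z) (B := B) hzN χ χ).card_le_sum_norm_pow
      hN0 (H56.Subsec.isIntegral_redCont hM hy hind' hbd χ hχ) (div_ne_zero hne hp0) 1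
    have hterm : ∀ k ∈ U, ‖H56.Subsec.cont p z (bu z) χ χ k / (p : ℂ) ^ h‖ ^ 1 =
        (H56.Subsec.cont p z (bu z) χ χ k).re / (p : ℝ) ^ h := by
      intro k hk
      have hr : ((H56.Subsec.cont p z (bu z) χ χ k).re : ℂ) = H56.Subsec.cont p z (bu z) χ χ k :=
        Complex.conj_eq_iff_re.1 (H56.Subsec.conj_cont χ χ k)
      rw [pow_one, norm_div, norm_pow, Complex.norm_natCast]
      conv_lhs => rw [← hr, Complex.norm_real, Real.norm_eq_abs,
        abs_of_nonneg (H56.Subsec.re_cont_self_nonneg hM hy hind' hN0 hzN χ hk)]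
    rw [Finset.sum_congr rfl hterm, ← Finset.sum_div] at hmean
    rwa [le_div_iff₀ (pow_pos (Nat.cast_pos.2 hp.pos) _)] at hmean
  -- counting
  have hU : 0 < U.card := Finset.card_pos.2 ⟨1 % N, Finset.mem_filter.2
    ⟨Finset.mem_range.2 (Nat.mod_lt _ (Nat.pos_of_ne_zero hN0)), by
      rw [Nat.Coprime, ← Nat.gcd_rec, Nat.gcd_one_right]⟩⟩
  have hkey : Z.card * p ^ h ≤ p ^ d := by
    have h1 : (Z.card : ℝ) * ((U.card : ℝ) * (p : ℝ) ^ h) ≤ (U.card : ℝ) * (p : ℝ) ^ d := by
      have hle := (Finset.sum_le_sum hlow).trans (le_of_eq Finset.sum_comm)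
      have hle' := hle.trans (Finset.sum_le_sum hup)
      simpa [Finset.sum_const, nsmul_eq_mul] using hle'
    have h2 : Z.card * (U.card * p ^ h) ≤ U.card * p ^ d := by exact_mod_cast h1
    refine Nat.le_of_mul_le_mul_left ?_ hU
    calc U.card * (Z.card * p ^ h) = Z.card * (U.card * p ^ h) := by ring
      _ ≤ _ := h2
  have hfin : p ^ (c + h) < p ^ (n + 1 + d) := by
    calc p ^ (c + h) = p ^ c * p ^ h := pow_add _ _ _
      _ ≤ e * Z.card * p ^ h := Nat.mul_le_mul_right _ hcard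
      _ = e * (Z.card * p ^ h) := by ring
      _ ≤ e * p ^ d := Nat.mul_le_mul_left _ hkey
      _ < p ^ (n + 1) * p ^ d := Nat.mul_lt_mul_of_pos_right hn.2 (pow_pos hp.pos d)
      _ = _ := (pow_add _ _ _).symm
  have := (Nat.pow_lt_pow_iff_right hp.one_lt).1 hfin
  omega


end Cfsg.Agent.S4715
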