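import Cfsg.Statements.S4717
import Cfsg.Agent.H38.Deficiency
import Cfsg.Agent.S0936
-- import your own Cfsg.Agent.* helpers here

set_option autoImplicit false
open Cfsg

namespace Cfsg.Agent.S4717

/-- Let p be a prime, M a maximal ideal of the algebraic integers containing p, and r a natural number; say that a finite group X has deficiency class r when X has no non-principal p-block of defect ≥ r. If G has deficiency class r then so does the centralizer of every p-element of G; conversely, if r > 0 and the centralizer of every element of order p has deficiency class r, then G has deficiency class r. -/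
theorem result {G : Type*} [Group G] [Finite G] (p : ℕ) [Fact p.Prime] (M : Ideal Cfsg.AlgInt) (hM : Cfsg.IsPModular p M) (r : ℕ) : ((∀ B' : Set (Cfsg.IrrCharacter G), Cfsg.IsPBlock M B' → B' ≠ Cfsg.principalBlock M G → Cfsg.blockDefect p B' < r) → ∀ y : G, (∃ k : ℕ, orderOf y = p ^ k) → (∀ B' : Set (Cfsg.IrrCharacter ↥(Subgroup.centralizer ({y} : Set G))), Cfsg.IsPBlock M B' → B' ≠ Cfsg.principalBlock M ↥(Subgroup.centralizer ({y} : Set G)) → Cfsg.blockDefect p B' < r)) ∧ (0 < r → (∀ y : G, orderOf y = p → (∀ B' : Set (Cfsg.IrrCharacter ↥(Subgroup.centralizer ({y} : Set G))), Cfsg.IsPBlock M B' → B' ≠ Cfsg.principalBlock M ↥(Subgroup.centralizer ({y} : Set G)) → Cfsg.blockDefect p B' < r)) → (∀ B' : Set (Cfsg.IrrCharacter G), Cfsg.IsPBlock M B' → B' ≠ Cfsg.principalBlock M G → Cfsg.blockDefect p B' < r)) := by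
  have := hM.2.1
  have hp : p.Prime := Fact.out
  constructor
  · intro hG y hy B' hB' hne
    obtain ⟨B, hB⟩ := H40.exists_isInducedBlock_centralizer hM hy hB'
    obtain ⟨D, hD⟩ := H40.exists_isDefectGroup (p := p) hM hB'
    obtain ⟨E, hE, hDE⟩ := H40.exists_defectGroup_ge_of_isInducedBlock hM hB hD
    have hle : Cfsg.blockDefect p B' ≤ Cfsg.blockDefect p B := by
      have h := Subgroup.card_le_of_le hDE
      rw [Subgroup.card_map_of_injective (Subgroup.centralizer ({y} : Set G)).subtype_injective,
        H40.card_defectGroup hM hB' hD, H40.card_defectGroup hM hB.2.1 hE] at h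
      exact (Nat.pow_le_pow_iff_right hp.one_lt).1 h
    refine lt_of_le_of_lt hle (hG B hB.2.1 fun h => hne ?_)
    subst h
    exact (S0936.result p M hM _ B' ⟨_, hB⟩).1 hB
  · intro hr hC B hB hne
    by_contra hle
    push Not at hle
    obtain ⟨D, hD⟩ := H40.exists_isDefectGroup (p := p) hM hB
    have hcard := H40.card_defectGroup hM hB hD
    have hDp := H40.isPGroup_of_isDefectGroup hD
    haveI : Nontrivial D := Finite.one_lt_card_iff_nontrivial.1 (hcard ▸
      Nat.one_lt_pow (by omega) hp.one_lt)
    haveI := hDp.center_nontrivial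
    obtain ⟨⟨z, hz⟩, hz'⟩ := exists_prime_orderOf_dvd_card' (G := Subgroup.center D) p (by
      obtain ⟨n, hn⟩ := IsPGroup.iff_card.1 (hDp.to_subgroup (Subgroup.center D))
      rw [hn]
      exact dvd_pow_self p fun h => by
        have := Finite.one_lt_card (α := Subgroup.center D)
        rw [hn, h, pow_zero] at this
        omega)
    rw [← Subgroup.orderOf_coe, ← Subgroup.orderOf_coe] at hz'
    have hzC : ((z : D) : G) ∈ Subgroup.centralizer (D : Set G) :=
      Subgroup.mem_centralizer_iff.2 fun d hd => congrArg Subtype.val (Subgroup.mem_center_iff.1 hz ⟨d, hd⟩)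
    obtain ⟨b, hb, hdef⟩ := H38.exists_inducing_block_defect_le hM hB hD
      ⟨1, by rw [pow_one]; exact hz'⟩ z.2 hzC
    have hlt := hC (z : G) hz' b hb.1 fun h => hne (H40.isInducedBlock_unique hb (by
      have hdefd : Cfsg.InducedBlockDefined M _ b := ⟨B, hb⟩
      subst h
      exact (S0936.result p M hM _ _ hdefd).2 rfl))
    omega

end Cfsg.Agent.S4717
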