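import Cfsg.Statements.S4719
import Cfsg.Agent.H56.DeficiencyClass

set_option autoImplicit false
universe u
open Cfsg

namespace Cfsg.Agent.S4719

/-- For every natural number a there is a bound N with the following property. Let G be a finite group with Sylow 2-subgroups of order 2^a and r ≥ 0 such that G has no non-principal 2-block (relative to a maximal ideal of the algebraic integers containing 2) of defect ≥ r, and suppose a Sylow 2-subgroup of G contains an elementary abelian subgroup of order 2^(r+1). Then the order of G is at most N. -/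
theorem result (a : ℕ) : ∃ N : ℕ, ∀ (G : Type u) [Group G] [Finite G] (M : Ideal Cfsg.AlgInt) (r : ℕ) (P : Sylow 2 G), Cfsg.IsPModular 2 M → Nat.card P = 2 ^ a → (∀ B : Set (Cfsg.IrrCharacter G), Cfsg.IsPBlock M B → B ≠ Cfsg.principalBlock M G → Cfsg.blockDefect 2 B < r) → (∃ E : Subgroup G, E ≤ (P : Subgroup G) ∧ IsMulCommutative E ∧ (∀ x ∈ E, x * x = 1) ∧ Nat.card E = 2 ^ (r + 1)) → Nat.card G ≤ N := by
  classical
  choose N hN using fun r => H56.Deficiency.exists_bound_of_noHighBlock.{u} r a
  refine ⟨(Finset.range (a + 1)).sup N, fun G _ _ M r P hM hP h hE => ?_⟩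
  haveI : Fact (Nat.Prime 2) := ⟨Nat.prime_two⟩
  obtain ⟨E, hEP, hEc, hsq, hcard⟩ := hE
  have ha : (Nat.card G).factorization 2 = a := by
    have h1 := P.card_eq_multiplicity.symm.trans hP
    exact Nat.pow_right_injective le_rfl h1
  have hra : r < a + 1 := by
    have h1 := Subgroup.card_le_of_le hEP
    rw [hcard, hP] at h1
    have := (Nat.pow_le_pow_iff_right one_lt_two).1 h1
    omega
  refine le_trans (hN r G M hM ha.le h ⟨E, fun u hu => Subgroup.mem_centralizer_iff.2 fun v hv => ?_, hsq, hcard⟩)
    (Finset.le_sup (Finset.mem_range.2 hra))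
  exact congrArg Subtype.val (hEc.is_comm.comm ⟨v, hv⟩ ⟨u, hu⟩)

end Cfsg.Agent.S4719
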