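import Cfsg.Statements.S4720
import Cfsg.Agent.H38.PrincipalNorm
-- import your own Cfsg.Agent.* helpers here

set_option autoImplicit false
open Cfsg

namespace Cfsg.Agent.S4720

/-- Let p be a prime, M a maximal ideal of the algebraic integers containing p, P a p-subgroup of the finite group G, N a subgroup with P ≤ N ≤ N_G(P), and U a nonempty subset of P normalized by N such that an element of U and an element of P that are conjugate in G are already conjugate in N, and such that λ(C_G(y)) = w·#C_N(y) for every y ∈ U with one rational number w, where λ(X) denotes the sum of the squares of the degrees of the irreducible characters in the principal p-block of X. For a complex function θ on P and χ in the principal block of G put a_χ(θ) = #P⁻¹ Σ_{y ∈ P} χ(y) θ(y⁻¹). Then for generalized characters θ, η of P with θ vanishing outside U, Σ_χ a_χ(θ)·conj(a_χ(η)) = (w/#P²)·Σ_{y ∈ P} θ(y)·conj(Σ_{x ∈ N} η(x y x⁻¹)) (η extended by zero off P; the conjugates lie in P), the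 first sum over the principal p-block of G. -/
theorem result {G : Type*} [Group G] [Finite G] (p : ℕ) [Fact p.Prime] (M : Ideal Cfsg.AlgInt) (hM : Cfsg.IsPModular p M) (P : Subgroup G) (hP : IsPGroup p P) (N : Subgroup G) (hPN : P ≤ N) (hNN : N ≤ Subgroup.normalizer (P : Set G)) (U : Set G) (hUne : U.Nonempty) (hUP : U ⊆ (P : Set G)) (hUN : ∀ n ∈ N, ∀ u ∈ U, n * u * n⁻¹ ∈ U) (hfus : ∀ u ∈ U, ∀ g : G, g * u * g⁻¹ ∈ (P : Set G) → ∃ n ∈ N, n * u * n⁻¹ = g * u * g⁻¹) (w : ℚ) (hw : ∀ y ∈ U, ((∑ᶠ ψ ∈ Cfsg.principalBlock M ↥(Subgroup.centralizer ({y} : Set G)), Cfsg.charDegree (ψ : ↥(Subgroup.centralizer ({y} : Set G)) → ℂ) ^ 2) : ℚ) = w * Nat.card ↥(N ⊓ Subgroup.centralizer ({y} : Set G))) (θ η : ↥P → ℂ) (hθ : Cfsg.IsGeneralizedCharacter ↥P θ) (hη : Cfsg.IsGeneralizedCharacter ↥P η) (hθU : ∀ y : ↥P, (y : G) ∉ U → θ y = 0) : ∑ᶠ χ ∈ Cfsg.principalBlock M G, ((Nat.card ↥P : ℂ)⁻¹ * ∑ᶠ y : ↥P, (χ : G → ℂ) (y : G) * θ y⁻¹) * (starRingEnd ℂ) ((Nat.card ↥P : ℂ)⁻¹ * ∑ᶠ y : ↥P, (χ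 : G → ℂ) (y : G) * η y⁻¹) = ((w : ℂ) / ((Nat.card ↥P : ℂ) ^ 2)) * ∑ᶠ y : ↥P, θ y * (starRingEnd ℂ) (∑ᶠ x : ↥N, Cfsg.extendByZero P η ((x : G) * (y : G) * (x : G)⁻¹)) := by
  classical
  haveI := hM.2.1
  haveI := Fintype.ofFinite G
  haveI := Fintype.ofFinite P
  haveI := Fintype.ofFinite N
  set B := Cfsg.principalBlock M G with hBdef
  have hpel : ∀ u : P, ∃ j, orderOf (u : G) = p ^ j := fun u => by
    rw [Subgroup.orderOf_coe]; exact IsPGroup.iff_orderOf.1 hP u
  let c : G → ℂ := fun y => ((∑ᶠ ψ ∈ Cfsg.principalBlock M ↥(Subgroup.centralizer ({y} : Set G)),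
    Cfsg.charDegree (ψ : ↥(Subgroup.centralizer ({y} : Set G)) → ℂ) ^ 2 : ℕ) : ℂ)
  have hcw : ∀ y ∈ U, c y = (w : ℂ) * Nat.card ↥(N ⊓ Subgroup.centralizer ({y} : Set G)) := by
    intro y hy
    have h := hw y hy
    rw [finsum_mem_eq_finite_toFinset_sum _ (Set.toFinite _)] at h
    have h' := congrArg (fun q : ℚ => (q : ℂ)) h
    simp only [Rat.cast_sum, Rat.cast_mul, Rat.cast_natCast, Rat.cast_pow] at h'
    simp only [c, finsum_mem_eq_finite_toFinset_sum _ (Set.toFinite _), Nat.cast_sum, Nat.cast_pow]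
    exact h'
  -- the columns
  have hcol : ∀ u v : P, ∑ χ ∈ Finset.univ.filter (· ∈ B),
      (starRingEnd ℂ) ((χ : G → ℂ) u) * (χ : G → ℂ) v = if IsConj (u : G) v then c u else 0 := by
    intro u v
    split_ifs with huv
    · have h := H38.sum_principal_norm hM (hpel u)
      rw [show c u = _ from h.symm]
      refine Finset.sum_congr rfl fun χ _ => ?_
      rw [← H26.irr_eq_of_isConj χ huv, mul_comm]
    · obtain ⟨i, hi⟩ := hpel u
      obtain ⟨j, hj⟩ := hpel v
      have h1 : Cfsg.IsPPart p (u : G) u :=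
        ⟨1, mul_one _, Commute.one_right _, ⟨i, hi⟩, by simpa using (Fact.out : p.Prime).not_dvd_one⟩
      have h2 : Cfsg.IsPPart p (v : G) v :=
        ⟨1, mul_one _, Commute.one_right _, ⟨j, hj⟩, by simpa using (Fact.out : p.Prime).not_dvd_one⟩
      rw [← H40.sum_block_mul_conj_eq_zero_of_section hM H41.isPBlock_principalBlock h2 h1
        (fun h => huv h.symm)]
      exact Finset.sum_congr rfl fun χ _ => mul_comm _ _
  -- inner sums over `N`
  have hN : ∀ u : P, (u : G) ∈ U →
      (w : ℂ) * (starRingEnd ℂ) (∑ x : N, Cfsg.extendByZero P η ((x : G) * (u : G) * (x : G)⁻¹)) =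
        ∑ v : P, (if IsConj (u : G) v then c u else 0) * (starRingEnd ℂ) (η v) := by
    intro u hu
    let cj : N → P := fun x => ⟨(x : G) * (u : G) * (x : G)⁻¹, hUP (hUN x x.2 u hu)⟩
    have e1 : ∀ x : N, Cfsg.extendByZero P η ((x : G) * (u : G) * (x : G)⁻¹) = η (cj x) := fun x =>
      H25.extendByZero_of_mem P η (hUP (hUN x x.2 u hu))
    rw [Finset.sum_congr rfl fun x _ => e1 x, map_sum, Finset.mul_sum,
      ← Finset.sum_fiberwise Finset.univ cj]
    refine Finset.sum_congr rfl fun v _ => ?_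
    rw [Finset.sum_congr rfl (g := fun _ : N => (w : ℂ) * (starRingEnd ℂ) (η v))
      fun x hx => by rw [(Finset.mem_filter.1 hx).2], Finset.sum_const, nsmul_eq_mul]
    split_ifs with huv
    · obtain ⟨g, hg⟩ := isConj_iff.1 huv
      obtain ⟨n, hn, hn'⟩ := hfus u hu g (hg.symm ▸ v.2)
      have hcard : (Finset.univ.filter fun x => cj x = v).card =
          Nat.card ↥(N ⊓ Subgroup.centralizer ({(u : G)} : Set G)) := by
        rw [← Fintype.card_subtype, ← Nat.card_eq_fintype_card]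
        refine Nat.card_congr
          { toFun := fun x => ⟨n⁻¹ * (x.1 : G), N.mul_mem (N.inv_mem hn) x.1.2,
              Subgroup.mem_centralizer_singleton_iff.2 ?_⟩
            invFun := fun y => ⟨⟨n * (y : G), N.mul_mem hn y.2.1⟩, Subtype.ext ?_⟩
            left_inv := fun x => Subtype.ext (Subtype.ext (by simp))
            right_inv := fun y => Subtype.ext (by simp) }
        · have h3 : (x.1 : G) * (u : G) * (x.1 : G)⁻¹ = n * (u : G) * n⁻¹ := by
            rw [hn', hg]; exact congrArg Subtype.val x.2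
          calc n⁻¹ * (x.1 : G) * u = n⁻¹ * ((x.1 : G) * u * (x.1 : G)⁻¹) * x.1 := by group
            _ = (u : G) * (n⁻¹ * x.1) := by rw [h3]; group
        · have h4 := Subgroup.mem_centralizer_singleton_iff.1 y.2.2
          show n * (y : G) * (u : G) * (n * (y : G))⁻¹ = (v : G)
          rw [← hg, ← hn', mul_assoc n (y : G), h4]
          group
      rw [hcard, hcw _ hu]
      ring
    · rw [zero_mul, show (Finset.univ.filter fun x => cj x = v) = ∅ from
        Finset.filter_eq_empty_iff.2 fun x _ h => huv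
          (isConj_iff.2 ⟨x, congrArg Subtype.val h⟩)]
      simp
  rw [finsum_mem_eq_finite_toFinset_sum _ (Set.toFinite _)]
  simp only [finsum_eq_sum_of_fintype]
  rw [show (Set.toFinite B).toFinset = Finset.univ.filter (· ∈ B) by ext; simp]
  have hflip : ∀ (χ : Cfsg.IrrCharacter G) (f : P → ℂ), ∑ y : P, (χ : G → ℂ) y * f y⁻¹ =
      ∑ u : P, (starRingEnd ℂ) ((χ : G → ℂ) u) * f u := by
    intro χ f
    refine Fintype.sum_equiv (Equiv.inv P) _ _ fun y => ?_
    rw [Equiv.inv_apply, Subgroup.coe_inv, H26.irr_inv, Complex.conj_conj]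
  calc ∑ χ ∈ Finset.univ.filter (· ∈ B),
        (Nat.card P : ℂ)⁻¹ * (∑ y : P, (χ : G → ℂ) y * θ y⁻¹) *
          (starRingEnd ℂ) ((Nat.card P : ℂ)⁻¹ * ∑ y : P, (χ : G → ℂ) y * η y⁻¹)
      = ((Nat.card P : ℂ) ^ 2)⁻¹ * ∑ u : P, θ u * ∑ v : P,
          (∑ χ ∈ Finset.univ.filter (· ∈ B), (starRingEnd ℂ) ((χ : G → ℂ) u) * (χ : G → ℂ) v) *
            (starRingEnd ℂ) (η v) := by
        simp only [hflip, map_mul, map_inv₀, map_natCast, map_sum, Complex.conj_conj,
          Finset.mul_sum, Finset.sum_mul]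
        rw [Finset.sum_comm]
        conv_rhs => rw [Finset.sum_comm]
        refine Finset.sum_congr rfl fun v _ => ?_
        rw [Finset.sum_comm]
        refine Finset.sum_congr rfl fun u _ => Finset.sum_congr rfl fun χ _ => ?_
        ring
    _ = _ := by
        rw [Finset.mul_sum, Finset.mul_sum]
        refine Finset.sum_congr rfl fun u _ => ?_
        simp only [hcol]
        by_cases hu : (u : G) ∈ U
        · rw [← hN u hu]
          field_simp
        · rw [hθU u hu]
          ring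

end Cfsg.Agent.S4720
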