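import Cfsg.Statements.S4721
import Cfsg.Agent.H28.IndexThree

set_option autoImplicit false
open Cfsg

namespace Cfsg.Agent.S4721

/-- Let p be a prime, M a maximal ideal of the algebraic integers containing p, and G a finite group with a nontrivial abelian Sylow p-subgroup P, N = N_G(P), C = C_G(P), such that N/C is cyclic of order 3, #P > 4, and C_G(y) ∩ N = C for every non-identity y ∈ P. Then the principal p-block is the disjoint union of a set X of exactly 3 characters containing the principal character and a set Y of (#P − 1)/3 characters, with signs a_χ = ±1 (χ ∈ X, a = 1 at the principal character) and δ = ±1 such that every χ ∈ X takes the value a_χ at every element whose p-part is a non-identity element of P, and there is a map ζ from the non-principal linear characters of P onto Y, constant on N-conjugacy classes, with ζ_ψ(z) = δ·Σ ψ'(y) over the N-orbit of ψ, for z with p-part y ≠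 1 in P. If moreover G has an involution lying in no proper normal subgroup of G, then exactly two of the three numbers −δ and a_χ (χ ∈ X non-principal) equal −1, and the product of the degrees of the two non-principal members of X and of any member of Y is a perfect square. -/
theorem result {G : Type*} [Group G] [Finite G] (p : ℕ) [Fact p.Prime] (M : Ideal Cfsg.AlgInt) (hM : Cfsg.IsPModular p M) (P : Sylow p G) (hab : IsMulCommutative P) (hP1 : Nat.card P ≠ 1) (hCN : (Subgroup.centralizer ((P : Subgroup G) : Set G)).relIndex (Subgroup.normalizer ((P : Subgroup G) : Set G)) = 3) (hcyc : ∃ g : G, g ∈ Subgroup.normalizer ((P : Subgroup G) : Set G) ∧ Subgroup.centralizer ((P : Subgroup G) : Set G) ⊔ Subgroup.zpowers g = Subgroup.normalizer ((P : Subgroup G) : Set G)) (hm2 : 3 + 1 < Nat.card P) (hfrob : ∀ y : G, y ∈ (P : Subgroup G) → y ≠ 1 → Subgroup.centralizer ({y} : Set G) ⊓ Subgroup.normalizer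 ((P : Subgroup G) : Set G) = Subgroup.centralizer ((P : Subgroup G) : Set G)) : ∃ (X Y : Set (Cfsg.IrrCharacter G)), Cfsg.principalBlock M G = X ∪ Y ∧ Disjoint X Y ∧ Nat.card X = 3 ∧ Nat.card Y = (Nat.card P - 1) / 3 ∧ (∃ χ₁ ∈ X, (χ₁ : G → ℂ) = fun _ => 1) ∧ ∃ (a : Cfsg.IrrCharacter G → ℤ) (δ : ℤ) (ζ : (↥(P : Subgroup G) →* ℂˣ) → Cfsg.IrrCharacter G), (δ = 1 ∨ δ = -1) ∧ (∀ χ ∈ X, (a χ = 1 ∨ a χ = -1) ∧ ∀ z y : G, Cfsg.IsPPart p z y → y ∈ (P : Subgroup G) → y ≠ 1 → (χ : G → ℂ) z = (a χ : ℂ)) ∧ (∀ ψ : ↥(P : Subgroup G) →* ℂˣ, ψ ≠ 1 → ζ ψ ∈ Y) ∧ (∀ η ∈ Y, ∃ ψ : ↥(P : Subgroup G) →* ℂˣ, ψ ≠ 1 ∧ ζ ψ = η) ∧ (∀ ψ ψ' : ↥(P : Subgroup G) →* ℂˣ, ψ ≠ 1 → (∃ n : G, n ∈ Subgroup.normalizer ((P : Subgroup G) : Set G) ∧ ∀ w w' : ↥(P : Subgroup G), (w' : G) = n * w * n⁻¹ → ψ' w' = ψ w) → ζ ψ' = ζ ψ) ∧ (∀ ψ : ↥(P : Subgroup G) →* ℂˣ, ψ ≠ 1 → ∀ (z : G) (y : ↥(P : Subgroup G)), Cfsg.IsPPart p z (y : G) → (y : G)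 ≠ 1 → (ζ ψ : G → ℂ) z = (δ : ℂ) * ∑ᶠ ψ' ∈ {ψ' : ↥(P : Subgroup G) →* ℂˣ | ∃ n : G, n ∈ Subgroup.normalizer ((P : Subgroup G) : Set G) ∧ ∀ w w' : ↥(P : Subgroup G), (w' : G) = n * w * n⁻¹ → ψ' w' = ψ w}, ((ψ' y : ℂˣ) : ℂ)) ∧ ((∃ t : G, orderOf t = 2 ∧ ∀ K : Subgroup G, K.Normal → t ∈ K → K = ⊤) → Nat.card {χ : Cfsg.IrrCharacter G // χ ∈ X ∧ (χ : G → ℂ) ≠ (fun _ => 1) ∧ a χ = -1} + (if δ = 1 then 1 else 0) = 2 ∧ ∀ η ∈ Y, IsSquare (Cfsg.charDegree (η : G → ℂ) * ∏ᶠ χ ∈ {χ : Cfsg.IrrCharacter G | χ ∈ X ∧ (χ : G → ℂ) ≠ fun _ => 1}, Cfsg.charDegree (χ : G → ℂ))) := by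
  classical
  haveI := Fintype.ofFinite G
  have h : Cfsg.Agent.H28.Ab.Ctx P 3 := ⟨hab, hCN, hfrob⟩
  obtain ⟨r, E, hd, hcard, hunit⟩ := h.exists_exc_three hM hm2
  have hone : ((Cfsg.Agent.H26.oneIrr G : Cfsg.IrrCharacter G) : G → ℂ) = fun _ => 1 :=
    funext Cfsg.Agent.H26.oneIrr_val
  refine ⟨(E.X : Set (Cfsg.IrrCharacter G)), Set.range E.mu, E.block, ?_, ?_, ?_,
    ⟨_, E.one_mem, hone⟩, E.a, E.e, fun ψ => E.mu (E.R.idx ψ), E.e_unit,
    fun χ hχ => ⟨hunit χ hχ, fun z y hz hyP hy => E.value_X h hM hχ hz hyP hy⟩,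
    fun ψ _ => ⟨_, rfl⟩, ?_, ?_, ?_, ?_⟩
  · rw [Set.disjoint_left]
    rintro χ hχ ⟨i, rfl⟩
    exact E.notMem i hχ
  · rw [Nat.card_coe_set_eq, Set.ncard_coe_finset, hcard]
  · rw [E.card_range, E.r_eq h]
  · rintro _ ⟨i, rfl⟩
    exact ⟨E.R.rep i, E.R.ne_one i, congrArg E.mu (E.R.idx_rep i)⟩
  · intro ψ ψ' hψ hψ'
    exact congrArg E.mu (E.R.idx_orb hψ hψ')
  · intro ψ hψ z y hz hy
    rw [E.value_mu h hM hψ hz hy, hd, Int.cast_zero, zero_add]
    rfl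
  · rintro ⟨t, ht, hK⟩
    have hcard2 : (E.X.erase (Cfsg.Agent.H26.oneIrr G)).card = 2 := by
      rw [Finset.card_erase_of_mem E.one_mem, hcard]
    obtain ⟨x₂, x₃, hne, hX⟩ := Finset.card_eq_two.1 hcard2
    have hmem : ∀ χ : Cfsg.IrrCharacter G,
        χ ∈ (E.X : Set (Cfsg.IrrCharacter G)) ∧ (χ : G → ℂ) ≠ (fun _ => 1) ↔
          χ ∈ ({x₂, x₃} : Finset (Cfsg.IrrCharacter G)) := by
      intro χ
      rw [← hX, Finset.mem_erase, Finset.mem_coe]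
      refine ⟨fun hc => ⟨fun he => hc.2 (he ▸ hone), hc.1⟩,
        fun hc => ⟨hc.2, fun he => hc.1 (Subtype.ext (he.trans hone.symm))⟩⟩
    have key := E.signs_square h hM hd hne hX hunit ht hK
    constructor
    · have hr : 0 < r := lt_of_lt_of_le two_pos E.two_le
      rw [← (key ⟨0, hr⟩).1]
      congr 1
      rw [Nat.card_congr (Equiv.subtypeEquivRight
        (q := fun χ => χ ∈ ({x₂, x₃} : Finset (Cfsg.IrrCharacter G)).filter (fun χ => E.a χ = -1))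
        fun χ => by rw [Finset.mem_filter, ← and_assoc, hmem χ]),
        Nat.card_eq_finsetCard, Finset.card_filter, Finset.sum_pair hne]
    · rintro _ ⟨i, rfl⟩
      have hset : {χ : Cfsg.IrrCharacter G | χ ∈ (E.X : Set (Cfsg.IrrCharacter G)) ∧
          (χ : G → ℂ) ≠ fun _ => 1} = ↑({x₂, x₃} : Finset (Cfsg.IrrCharacter G)) := Set.ext hmem
      rw [hset, finprod_mem_coe_finset, Finset.prod_pair hne]
      exact (key i).2

end Cfsg.Agent.S4721
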