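import Cfsg.Statements.S4722
import Cfsg.Agent.H32.PrincipalColumns
import Cfsg.Agent.S0925

set_option autoImplicit false
open Cfsg

namespace Cfsg.Agent.S4722

/-- Let M be a maximal ideal of the algebraic integers containing 2, P a 2-subgroup of the finite group G, U a subset of P, and t an involution of G such that no element of U is inverted by any conjugate of t. Let θ be a generalized character of P vanishing outside U, and for χ in the principal 2-block B₀ put a_χ = #P⁻¹ Σ_{y ∈ P} χ(y) θ(y⁻¹). Then Σ_{χ ∈ B₀} a_χ χ(t)^2/χ(1) = 0, Σ_{χ ∈ B₀} a_χ χ(1) = 0 and Σ_{χ ∈ B₀} a_χ χ(t) = 0. If moreover #P⁻¹ Σ_{y ∈ P} θ(y) ≠ 0, then either at least two of the a_χ have positive real part and at least two have negative real part, or G has a proper normal subgroup containing O_2'(G) and t. -/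
theorem result {G : Type*} [Group G] [Finite G] (M : Ideal Cfsg.AlgInt) (hM : Cfsg.IsPModular 2 M) (P : Subgroup G) (hP : IsPGroup 2 P) (U : Set G) (hUP : U ⊆ (P : Set G)) (t : G) (ht : orderOf t = 2) (hinv : ∀ u ∈ U, ∀ g : G, (g * t * g⁻¹) * u * (g * t * g⁻¹)⁻¹ ≠ u⁻¹) (θ : ↥P → ℂ) (hθ : Cfsg.IsGeneralizedCharacter ↥P θ) (hθU : ∀ y : ↥P, (y : G) ∉ U → θ y = 0) : (∑ᶠ χ ∈ Cfsg.principalBlock M G, ((Nat.card ↥P : ℂ)⁻¹ * ∑ᶠ y : ↥P, (χ : G → ℂ) (y : G) * θ y⁻¹) * (χ : G → ℂ) t ^ 2 / (χ : G → ℂ) 1 = 0) ∧ (∑ᶠ χ ∈ Cfsg.principalBlock M G, ((Nat.card ↥P : ℂ)⁻¹ * ∑ᶠ y : ↥P, (χ : G → ℂ) (y : G) * θ y⁻¹) * (χ : G → ℂ) 1 = 0) ∧ (∑ᶠ χ ∈ Cfsg.principalBlock M G, ((Nat.card ↥P : ℂ)⁻¹ * ∑ᶠ y : ↥P, (χ : G → ℂ) (y : G) * θ y⁻¹) * (χ : G → ℂ) t = 0) ∧ ((Nat.card ↥P : ℂ)⁻¹ * ∑ᶠ y : ↥P, θ y ≠ 0 → (2 ≤ Nat.card {χ : Cfsg.IrrCharacter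 G // χ ∈ Cfsg.principalBlock M G ∧ 0 < (((Nat.card ↥P : ℂ)⁻¹ * ∑ᶠ y : ↥P, (χ : G → ℂ) (y : G) * θ y⁻¹)).re} ∧ 2 ≤ Nat.card {χ : Cfsg.IrrCharacter G // χ ∈ Cfsg.principalBlock M G ∧ (((Nat.card ↥P : ℂ)⁻¹ * ∑ᶠ y : ↥P, (χ : G → ℂ) (y : G) * θ y⁻¹)).re < 0}) ∨ ∃ K : Subgroup G, K.Normal ∧ K ≠ ⊤ ∧ Cfsg.pPrimeCore 2 G ≤ K ∧ t ∈ K) := by
  haveI : Fact (Nat.Prime 2) := ⟨Nat.prime_two⟩
  exact Cfsg.Agent.H32.columns_of_block_orthogonality M (Cfsg.Agent.S0925.result 2 M hM).1 hM P hP U hUP t ht hinv θ hθ hθU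

end Cfsg.Agent.S4722
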