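import Cfsg.Statements.S4725
import Cfsg.Agent.S4430
import Cfsg.Agent.H42.Heights
-- import your own Cfsg.Agent.* helpers here

set_option autoImplicit false
open Cfsg

namespace Cfsg.Agent.S4725

/-- Let p be a prime, M a maximal ideal of the algebraic integers containing p, H a subgroup of the finite group G, and b a p-block of H inducing the p-block B of G, with b and B of the same defect. Then for every height-zero ζ ∈ b there is a height-zero χ ∈ B whose multiplicity in the character induced from ζ is not divisible by p. -/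
theorem result {G : Type*} [Group G] [Fintype G] (p : ℕ) [Fact p.Prime] (M : Ideal Cfsg.AlgInt) (hM : Cfsg.IsPModular p M) (H : Subgroup G) (b : Set (Cfsg.IrrCharacter ↥H)) (B : Set (Cfsg.IrrCharacter G)) (hind : Cfsg.IsInducedBlock M H b B) (hdef : Cfsg.blockDefect p b = Cfsg.blockDefect p B) (ζ : Cfsg.IrrCharacter ↥H) (hζ : ζ ∈ b) (hζ0 : Cfsg.blockHeight p b (ζ : ↥H → ℂ) = 0) : ∃ χ ∈ B, Cfsg.blockHeight p B (χ : G → ℂ) = 0 ∧ ∃ a : ℕ, Cfsg.classInner (Cfsg.indFun H (ζ : ↥H → ℂ)) (χ : G → ℂ) = (a : ℂ) ∧ ¬ p ∣ a := by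
  classical
  have := hM.2.1
  have := Fintype.ofFinite H
  obtain ⟨⟨n, hn, hn0, hnf⟩, -⟩ := Cfsg.Agent.S4430.result p M hM H b B hind ζ hζ
  have hb := hind.1
  have hB := hind.2.1
  have hθc : Cfsg.IsCharacter G (Cfsg.indFun H (ζ : H → ℂ)) :=
    Cfsg.Agent.H25.isCharacter_indFun H (Cfsg.Agent.H26.irr_isCharacter ζ)
  have hD : Cfsg.charDegree (Cfsg.indFun H (ζ : H → ℂ)) = H.index * Cfsg.charDegree (ζ : H → ℂ) :=
    Cfsg.Agent.H42.charDegree_of_eq_nat (by
      rw [Cfsg.Agent.H25.indFun_one, Cfsg.Agent.H42.irr_one_eq ζ, Nat.cast_mul])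
  choose m hm using fun χ : Cfsg.IrrCharacter G =>
    Cfsg.Agent.H26.exists_nat_classInner_irr hθc χ
  have hsum : n = ∑ χ ∈ Finset.univ.filter (· ∈ B), m χ * Cfsg.charDegree (χ : G → ℂ) := by
    apply Nat.cast_injective (R := ℂ)
    rw [← hn]
    simp only [Cfsg.blockPart]
    rw [finsum_mem_eq_finite_toFinset_sum _ (Set.toFinite _)]
    push_cast
    refine Finset.sum_congr (by ext; simp) fun χ _ => ?_
    rw [Cfsg.Agent.H42.irr_one_eq, ← hm]
    congr 2
    exact Subsingleton.elim _ _
  have h1 := (Cfsg.Agent.H42.blockHeight_eq_zero_iff (p := p) hb hζ).1 hζ0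
  have h2 : (Cfsg.charDegree (Cfsg.indFun H (ζ : H → ℂ))).factorization p =
      H.index.factorization p + (Cfsg.charDegree (ζ : H → ℂ)).factorization p := by
    rw [hD, Nat.factorization_mul Subgroup.index_ne_zero_of_finite
      (Cfsg.Agent.H42.charDegree_pos ζ).ne', Finsupp.add_apply]
  have h3 : (Nat.card G).factorization p =
      (Nat.card H).factorization p + H.index.factorization p := by
    rw [← H.card_mul_index, Nat.factorization_mul Nat.card_pos.ne'
      Subgroup.index_ne_zero_of_finite, Finsupp.add_apply]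
  set v := (Cfsg.charDegree (Cfsg.indFun H (ζ : H → ℂ))).factorization p with hv
  by_contra hne
  push Not at hne
  have hdvd : p ^ (v + 1) ∣ n := by
    rw [hsum]
    refine Finset.dvd_sum fun χ hχ => ?_
    have hχB := (Finset.mem_filter.1 hχ).2
    have h4 := Cfsg.Agent.H42.factorization_degree_add_defect (p := p) hB hχB
    by_cases h0 : Cfsg.blockHeight p B (χ : G → ℂ) = 0
    · rw [pow_succ']
      exact mul_dvd_mul (hne χ hχB h0 (m χ) (hm χ))
        ((Nat.Prime.pow_dvd_iff_le_factorization Fact.out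
          (Cfsg.Agent.H42.charDegree_pos χ).ne').2 (by omega))
    · exact dvd_mul_of_dvd_right ((Nat.Prime.pow_dvd_iff_le_factorization Fact.out
          (Cfsg.Agent.H42.charDegree_pos χ).ne').2 (by omega)) _
  have := (Nat.Prime.pow_dvd_iff_le_factorization Fact.out hn0).1 hdvd
  omega

end Cfsg.Agent.S4725
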