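import Cfsg.Statements.S4726
import Cfsg.Agent.H40.LocalBlocks
import Cfsg.Agent.H22.PairPiKernel

set_option autoImplicit false
open Cfsg

namespace Cfsg.Agent.S4726

/-- Let p be a prime, M a maximal ideal of the algebraic integers containing p, H a subgroup of the finite group G and b a p-block of H with defect group D₀ such that C_G(D₀) ≤ H. Then b induces a block of G, and for every block B of G induced by b there is a defect group D of B with Z(D) ≤ Z(D₀) ≤ D₀ ≤ D (as subgroups of G). In particular, if the defect groups of B are abelian then D₀ is a defect group of B. -/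
theorem result {G : Type*} [Group G] [Finite G] (p : ℕ) [Fact p.Prime] (M : Ideal Cfsg.AlgInt) (hM : Cfsg.IsPModular p M) (H : Subgroup G) (b : Set (Cfsg.IrrCharacter ↥H)) (hb : Cfsg.IsPBlock M b) (D₀ : Subgroup ↥H) (hD₀ : Cfsg.IsDefectGroup p M b D₀) (hC : Subgroup.centralizer ((D₀.map H.subtype : Subgroup G) : Set G) ≤ H) : Cfsg.InducedBlockDefined M H b ∧ ∀ B : Set (Cfsg.IrrCharacter G), Cfsg.IsInducedBlock M H b B → (∃ D : Subgroup G, Cfsg.IsDefectGroup p M B D ∧ (Subgroup.center ↥D).map D.subtype ≤ ((Subgroup.center ↥D₀).map D₀.subtype).map H.subtype ∧ ((Subgroup.center ↥D₀).map D₀.subtype).map H.subtype ≤ D₀.map H.subtype ∧ D₀.map H.subtype ≤ D) ∧ (∀ D : Subgroup G, Cfsg.IsDefectGroup p M B D → IsMulCommutative ↥D → Cfsg.IsDefectGroup p M B (D₀.map H.subtype)) := by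
  classical
  have := hM.2.1
  have := Cfsg.Agent.H41.IsPModular.charP hM
  have hD₀p : IsPGroup p D₀ := Cfsg.Agent.H40.isPGroup_of_isDefectGroup hD₀
  set E := D₀.map H.subtype with hE
  have hEH : E ≤ H := Subgroup.map_subtype_le D₀
  have hEp : IsPGroup p E := hD₀p.map _
  have hDE : E.subgroupOf H = D₀ := Subgroup.comap_map_eq_self_of_injective H.subtype_injective D₀
  -- the block is induced from the normaliser of `D₀` in `H`
  have hdef : Cfsg.InducedBlockDefined M H b := by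
    obtain ⟨b₀, hb₀, -, hind₀⟩ := Cfsg.Agent.H40.exists_inducing_block hM hb hD₀
    set L := (Subgroup.normalizer (D₀ : Set H)).map H.subtype
    let e : (Subgroup.normalizer (D₀ : Set H)) ≃* L := Subgroup.equivMapOfInjective (Subgroup.normalizer (D₀ : Set H)) H.subtype H.subtype_injective
    have hbL : Cfsg.IsPBlock M (Cfsg.Agent.H43.irrCongr e.symm '' b₀) :=
      Cfsg.Agent.H22.isPBlock_image e.symm hb₀
    obtain ⟨B, hB⟩ := Cfsg.Agent.H40.exists_isInducedBlock hM hEp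
      (H := L) (Subgroup.map_mono Subgroup.le_normalizer)
      (fun x hx => ⟨⟨x, hC hx⟩, Subgroup.centralizer_le_normalizer _
        (Subgroup.mem_centralizer_iff.2 fun d hd =>
          Subtype.ext (Subgroup.mem_centralizer_iff.1 hx _ ⟨d, hd, rfl⟩)), rfl⟩)
      (Subgroup.le_normalizer_map H.subtype) hbL
    obtain ⟨η, hη⟩ := Cfsg.Agent.H41.IsPBlock.nonempty hb₀
    obtain ⟨ξ, hξ⟩ := Cfsg.Agent.H41.IsPBlock.nonempty hb
    obtain ⟨χ, hχ⟩ := Cfsg.Agent.H41.IsPBlock.nonempty hB.2.1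
    refine ⟨B, (Cfsg.Agent.H40.isInducedBlock_iff hb hB.2.1 hξ hχ).2 fun z => ?_⟩
    have hη' : Cfsg.Agent.H43.irrCongr e (Cfsg.Agent.H43.irrCongr e.symm η) = η :=
      Subtype.ext (funext fun x => by
        rw [Cfsg.Agent.H43.irrCongr_apply, Cfsg.Agent.H43.irrCongr_apply, e.symm_apply_apply])
    rw [← Cfsg.Agent.H40.omegaBar_restrictZ_of_isInducedBlock hind₀ hη hξ,
      ← Cfsg.Agent.H40.omegaBar_restrictZ_of_isInducedBlock hB ⟨η, hη, rfl⟩ hχ]
    conv_lhs => rw [← hη']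
    exact Cfsg.Agent.H40.omegaBar_restrictZ_restrictZ H L (Subgroup.normalizer (D₀ : Set H)) e (fun x => rfl) _ z
  refine ⟨hdef, fun B hind => ?_⟩
  -- a pair of `H` at `E`, maximal there
  have hS := Cfsg.Agent.H22.split M G
  have hb1 := Cfsg.Agent.H22.isBlockEl_el hb
  have hD1 := (Cfsg.Agent.H22.isDefectGroup_subgroupOf_iff hM hb hEH).1 (hDE.symm ▸ hD₀)
  obtain ⟨f, hf, hf1⟩ := Cfsg.Agent.H22.exists_pair_below hS hb1 hD1.le hD1.pGroup hD1.ne_zero
  have hmax := Cfsg.Agent.H22.isMaxEl_of_isDefEl hf hf1 hD1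
  have hfC : Cfsg.Agent.H22.IsBlockEl (Subgroup.centralizer (E : Set G)) f := by
    have h : Cfsg.Agent.H22.IsBlockEl (Cfsg.Agent.H22.cen H E) f := hf.block
    rwa [show Cfsg.Agent.H22.cen H E = Subgroup.centralizer (E : Set G) from
      inf_eq_left.2 hC] at h
  have hpair : Cfsg.Agent.H22.IsPairEl p ⊤ (E, f) :=
    ⟨le_top, hEp, by rw [Cfsg.Agent.H22.cen_top']; exact hfC⟩
  have hbel := Cfsg.Agent.H22.below_elTop_of_induced hind hEp hEH hC hfC hf1
  have hbB := Cfsg.Agent.H22.isBlockEl_elTop hind.2.1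
  obtain ⟨⟨D, e⟩, hm, hle⟩ := Cfsg.Agent.H22.exists_isMaxEl_ge hbB hpair hbel
  have hDdef : Cfsg.IsDefectGroup p M B D :=
    (Cfsg.Agent.H22.isDefectGroup_top_iff hM hind.2.1).2 (hm.isDefEl hS hbB)
  have hED : E ≤ D := hle.le
  set Z := (Subgroup.center ↥D).map D.subtype with hZ
  have hZD : Z ≤ D := Subgroup.map_subtype_le _
  have hZC : ∀ z ∈ Z, ∀ d ∈ D, d * z = z * d := by
    rintro _ ⟨z, hz, rfl⟩ d hd
    exact congrArg Subtype.val (Subgroup.mem_center_iff.1 hz ⟨d, hd⟩)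
  have hZE : Z ≤ E := by
    obtain ⟨g, h1, h2⟩ := hle.exists_between hS hm.pair (R := E ⊔ Z) le_sup_left (sup_le hED hZD)
    have hN : E ⊔ Z ≤ Subgroup.normalizer (E : Set G) := sup_le Subgroup.le_normalizer
      (fun z hz => Subgroup.centralizer_le_normalizer _
        (Subgroup.mem_centralizer_iff.2 fun d hd => hZC z hz d (hED hd)))
    have hns := h1.nsub hS (h2.left hm.pair) hN
    have hRH : E ⊔ Z ≤ H := sup_le hEH (fun z hz => hC
      (Subgroup.mem_centralizer_iff.2 fun d hd => hZC z hz d (hED hd)))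
    have hpR : Cfsg.Agent.H22.IsPairEl p H (E ⊔ Z, g) := ⟨hRH, hns.right.pGroup, by
      rw [show Cfsg.Agent.H22.cen H (E ⊔ Z) = Subgroup.centralizer ((E ⊔ Z : Subgroup G) : Set G) from
        inf_eq_left.2 ((Subgroup.centralizer_le (le_sup_left : E ≤ E ⊔ Z)).trans hC)]
      simpa using hns.right.block⟩
    have hnsH : Cfsg.Agent.H22.NSub p H (E, f) (E ⊔ Z, g) :=
      ⟨hf, hpR, le_sup_left, hN, hns.inv, hns.occ⟩
    have h := hmax.max _ ((hnsH.below_iff hb1).1 hf1) (Relation.ReflTransGen.single hnsH)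
    exact (le_sup_right : Z ≤ E ⊔ Z).trans h.le
  refine ⟨⟨D, hDdef, ?_, Subgroup.map_mono (Subgroup.map_subtype_le _), hED⟩, fun D' hD' hab => ?_⟩
  · intro z hz
    obtain ⟨z', hz', hzz⟩ := (hZE hz : z ∈ E)
    refine ⟨z', ⟨⟨z', hz'⟩, Subgroup.mem_center_iff.2 fun w => ?_, rfl⟩, hzz⟩
    refine Subtype.ext (Subtype.ext ?_)
    have := hZC z hz ((w : H) : G) (hED ⟨(w : H), w.2, rfl⟩)
    rw [← hzz] at this
    exact this
  · obtain ⟨g, -, hg⟩ := Cfsg.Agent.H22.IsDefEl.exists_conj_eq (hm.isDefEl hS hbB)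
      ((Cfsg.Agent.H22.isDefectGroup_top_iff hM hind.2.1).1 hD')
    dsimp only at hg
    have hZtop : D ≤ Z := by
      intro d hd
      refine ⟨⟨d, hd⟩, Subgroup.mem_center_iff.2 fun w => Subtype.ext ?_, rfl⟩
      obtain ⟨x, hx, hxw⟩ := (hg ▸ w.2 : (w : G) ∈ Cfsg.Agent.H22.cS g D')
      obtain ⟨y, hy, hyd⟩ := (hg ▸ hd : d ∈ Cfsg.Agent.H22.cS g D')
      have hc : x * y = y * x := congrArg Subtype.val (hab.is_comm.comm ⟨x, hx⟩ ⟨y, hy⟩)
      show (w : G) * d = d * (w : G)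
      rw [← hxw, ← hyd, ← map_mul, hc, map_mul]
    have hDEq : D = E := le_antisymm (hZtop.trans hZE) hED
    exact hDEq ▸ hDdef

end Cfsg.Agent.S4726
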