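import Cfsg.Agent.H22.PairPiKernel
import Cfsg.Agent.H40.SecondMain
import Cfsg.Statements.S4727

set_option autoImplicit false
open Cfsg

namespace Cfsg.Agent.S4727

/-- Let p be a prime, π a set of primes containing p, M a maximal ideal of the algebraic integers containing p, and B a p-block of the finite group G with defect group D; let B₁ be the block of N_G(D) with defect group D that induces B (the Brauer correspondent of B). Suppose every element of O_π'(N_G(D)), the largest normal subgroup of N_G(D) whose order has no prime divisor in π, lies in the kernel of every member of B₁. If y is a p-element whose centralizer C has a normal Hall π'-subgroup (every element of C whose order has no prime divisor in π lies in O_π'(C)), then χ(y x) = χ(y) for every χ ∈ B and every x ∈ C whose order has no prime divisor in π. -/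
theorem result {G : Type*} [Group G] [Finite G] (p : ℕ) [Fact p.Prime] (M : Ideal Cfsg.AlgInt) (hM : Cfsg.IsPModular p M) (π : Set ℕ) (hpπ : p ∈ π) (B : Set (Cfsg.IrrCharacter G)) (hB : Cfsg.IsPBlock M B) (D : Subgroup G) (hBD : Cfsg.IsDefectGroup p M B D) (B₁ : Set (Cfsg.IrrCharacter ↥(Subgroup.normalizer (D : Set G)))) (hB₁ : Cfsg.IsInducedBlock M (Subgroup.normalizer (D : Set G)) B₁ B) (hB₁D : Cfsg.IsDefectGroup p M B₁ (D.subgroupOf (Subgroup.normalizer (D : Set G)))) (hker : ∀ n : ↥(Subgroup.normalizer (D : Set G)), n ∈ Cfsg.piCore {q | q ∉ π} ↥(Subgroup.normalizer (D : Set G)) → n ∈ Cfsg.blockKer B₁) (y : G) (hy : ∃ k : ℕ, orderOf y = p ^ k) (hC : ∀ x : ↥(Subgroup.centralizer ({y} : Set G)), (∀ q : ℕ, q.Prime → q ∣ orderOf x → q ∉ π) → x ∈ Cfsg.piCore {q | q ∉ π} ↥(Subgroup.centralizer ({y} : Set G))) : ∀ χ ∈ B, ∀ x : G, x ∈ Subgroup.centralizer ({y} : Set G) → (∀ q : ℕ, q.Prime → q ∣ orderOf x → q ∉ π) → (χ : G → ℂ) (y * x) = (χ : G → ℂ) y := by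
  have := hM.2.1
  have := Cfsg.Agent.H41.IsPModular.charP hM
  classical
  have : Fintype G := Fintype.ofFinite G
  have : Fintype (Subgroup.centralizer ({y} : Set G)) := Fintype.ofFinite _
  intro χ hχ x hx hxπ
  have hC' : Subgroup.centralizer ((Subgroup.zpowers y : Subgroup G) : Set G) =
      Subgroup.centralizer ({y} : Set G) := by
    rw [Subgroup.zpowers_eq_closure, Subgroup.centralizer_closure]
  have hyC : y ∈ Subgroup.centralizer ({y} : Set G) := Subgroup.mem_centralizer_singleton_iff.2 rfl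
  have hR : IsPGroup p (Subgroup.zpowers y) := by
    obtain ⟨j, hj⟩ := hy
    exact IsPGroup.of_card (n := j) (by rw [Nat.card_zpowers, hj])
  set A := Cfsg.Agent.H40.inducingSet M y B with hA
  set x' : Subgroup.centralizer ({y} : Set G) := ⟨x, hx⟩ with hx'
  have hxK := hC x' (fun q hq hd => hxπ q hq (by rwa [← Subgroup.orderOf_coe] at hd))
  have hkerψ : ∀ ψ ∈ A, x' ∈ Cfsg.Agent.H43.charKer ψ := by
    intro ψ hψ
    refine H22.piCore_mem_blockKer_of_pair hM hpπ
      (fun a ha hab => H22.kerPair_of_below hM hpπ hB hBD hB₁ hB₁D hker ha hab) hψ hR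
      (Subgroup.zpowers_le.2 hyC) hC'.le ?_ x' hxK ψ (Cfsg.Agent.H41.mem_blockOf_self ψ)
    rw [hC', H22.cut_of_supp (H22.isBlockEl_el hψ.1).cent.supp]
    exact (H22.isBlockEl_el hψ.1).ne_zero
  have hcoeff : ∀ k, Cfsg.blockCoeff A (k * x') = Cfsg.blockCoeff A k := by
    intro k
    rw [Cfsg.Agent.H40.blockCoeff_eq_sum, Cfsg.Agent.H40.blockCoeff_eq_sum]
    congr 1
    exact Finset.sum_congr rfl fun ψ hψ => by
      rw [Cfsg.Agent.H43.irr_mul_charKer ψ k (hkerψ ψ (Finset.mem_filter.1 hψ).2)]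
  have hcomm : Commute y x := (Subgroup.mem_centralizer_singleton_iff.1 hx).symm
  have h1 := Cfsg.Agent.H40.sum_inducingSet_mul hM hy hB (g := (⟨y, hyC⟩ * x'))
    (x := y) ⟨x, rfl, hcomm, hy, fun hd => hxπ p Fact.out hd hpπ⟩ χ
  have h2 := Cfsg.Agent.H40.sum_inducingSet_mul hM hy hB (g := ⟨y, hyC⟩)
    (x := y) ⟨1, mul_one y, Commute.one_right y, hy, by simp [(Fact.out : p.Prime).ne_one]⟩ χ
  rw [if_pos hχ] at h1 h2
  refine h1.symm.trans (Eq.trans ?_ h2)
  refine Fintype.sum_equiv (Equiv.mulRight x') _ _ fun k => ?_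
  rw [Equiv.coe_mulRight, hcoeff]
  congr 2
  simp [hx', mul_assoc, hcomm.eq]

end Cfsg.Agent.S4727
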