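import Cfsg.Agent.H22.PairPiKernel
import Cfsg.Agent.H22.PairLocal
import Cfsg.Statements.S4728

set_option autoImplicit false
open Cfsg

namespace Cfsg.Agent.S4728

/-- Let p be a prime, π a set of primes containing p, M a maximal ideal of the algebraic integers containing p, B a p-block of the finite group G with defect group D, and B₁ the block of N_G(D) with defect group D inducing B. Let D₀ be a p-subgroup, H₀ = D₀·C_G(D₀), and b a block of H₀ inducing B. Write O_π'(X) for the largest normal subgroup of X whose order has no prime divisor in π. Suppose that O_π'(C_G(D₀)) is a normal Hall π'-subgroup of C_G(D₀) (it contains every element of C_G(D₀) whose order has no prime divisor in π) and that every element of it lies in the kernel of every member of b. Then every element of O_π'(N_G(D)) lies in the kernel of every member of B₁. -/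
theorem result {G : Type*} [Group G] [Finite G] (p : ℕ) [Fact p.Prime] (M : Ideal Cfsg.AlgInt) (hM : Cfsg.IsPModular p M) (π : Set ℕ) (hpπ : p ∈ π) (B : Set (Cfsg.IrrCharacter G)) (hB : Cfsg.IsPBlock M B) (D : Subgroup G) (hBD : Cfsg.IsDefectGroup p M B D) (B₁ : Set (Cfsg.IrrCharacter ↥(Subgroup.normalizer (D : Set G)))) (hB₁ : Cfsg.IsInducedBlock M (Subgroup.normalizer (D : Set G)) B₁ B) (hB₁D : Cfsg.IsDefectGroup p M B₁ (D.subgroupOf (Subgroup.normalizer (D : Set G)))) (D₀ : Subgroup G) (hD₀ : IsPGroup p D₀) (H₀ : Subgroup G) (hH₀ : H₀ = D₀ ⊔ Subgroup.centralizer (D₀ : Set G)) (b : Set (Cfsg.IrrCharacter ↥H₀)) (hb : Cfsg.IsInducedBlock M H₀ b B) (hcompl : ∀ x : ↥(Subgroup.centralizer (D₀ : Set G)), (∀ q : ℕ, q.Prime → q ∣ orderOf x → q ∉ π) → x ∈ Cfsg.piCore {q | q ∉ π} ↥(Subgroup.centralizer (D₀ : Set G))) (hkerb : ∀ x : ↥(Subgroup.centralizer (D₀ : Set G)), x ∈ Cfsg.piCore {q | q ∉ π} ↥(Subgroup.centralizer (D₀ : Set G)) → ∀ θ ∈ b,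 ∀ h : ↥H₀, (h : G) = (x : G) → (θ : ↥H₀ → ℂ) h = (θ : ↥H₀ → ℂ) 1) : ∀ n : ↥(Subgroup.normalizer (D : Set G)), n ∈ Cfsg.piCore {q | q ∉ π} ↥(Subgroup.normalizer (D : Set G)) → n ∈ Cfsg.blockKer B₁ := by
  have := hM.2.1
  have := Cfsg.Agent.H41.IsPModular.charP hM
  classical
  have hS := H22.split M G
  set C₀ := Subgroup.centralizer (D₀ : Set G) with hC₀
  have hC0H : C₀ ≤ H₀ := hH₀ ▸ le_sup_right
  have hD0H : D₀ ≤ H₀ := hH₀ ▸ le_sup_left
  have hHN : H₀ ≤ Subgroup.normalizer (D₀ : Set G) :=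
    hH₀ ▸ sup_le Subgroup.le_normalizer (Subgroup.centralizer_le_normalizer _)
  have hbe := H22.isBlockEl_el hb.1
  set f := H22.el M H₀ b with hf_def
  have hfs : H22.Supp C₀ f := H22.supp_centralizer_of_idem hD₀ hD0H hHN hbe.cent hbe.idem
  have hfC : H22.IsBlockEl C₀ f :=
    ⟨⟨hfs, hbe.cent.inv.mono hC0H⟩, hbe.idem, hbe.ne_zero, fun a ha ha2 =>
      hbe.prim a ⟨ha.supp.mono hC0H, hH₀ ▸ (H22.inv_of_supp_centralizer ha.supp).sup ha.inv⟩ ha2⟩
  have hpair : H22.IsPairEl p ⊤ (D₀, f) := ⟨le_top, hD₀, by rw [H22.cen_top]; exact hfC⟩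
  have hfb : H22.Below (H22.elTop M B) (D₀, f) :=
    H22.below_elTop_of_induced hb hD₀ hD0H hC0H hfC
      (show H22.cut C₀ f * f = f by rw [H22.cut_of_supp hfs, hbe.idem])
  -- the kernel of the local pair
  set π' : Set ℕ := {q | q ∉ π} with hπ'
  set K₀ := Cfsg.piCoreOf π' C₀ with hK₀
  have hK0C : K₀ ≤ C₀ := Cfsg.Agent.H55.piCoreOf_le _ _
  have hK0π : Cfsg.Agent.H55.PiDvd π' (Nat.card K₀) := Cfsg.Agent.H55.piCoreOf_piDvd _ _
  have hKn : (K₀.subgroupOf H₀).Normal := Subgroup.normal_subgroupOf_of_le_normalizer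
    (hHN.trans ((H22.normalizer_le_normalizer_centralizer D₀).trans
      (Cfsg.Agent.H55.normalizer_le_normalizer_piCoreOf _ _)))
  have hKf : H22.avg (Cfsg.Agent.H41.ResField M) K₀ * f = f := by
    have h := (H22.avg_mul_bk_iff hM H₀.subtype_injective hb.1 (K₀.subgroupOf H₀)
      (H22.not_dvd_of_piDvd hpπ (by
        rwa [Nat.card_congr (Subgroup.subgroupOfEquivOfLe (hK0C.trans hC0H)).toEquiv]))).2
      (fun x hx θ hθ => by
        obtain ⟨c, hc, hcx⟩ := Subgroup.mem_subgroupOf.1 hx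
        exact hkerb c hc θ hθ x hcx.symm)
    rwa [Subgroup.map_subgroupOf_eq_of_le (hK0C.trans hC0H)] at h
  have hhall : H22.HallKer π (D₀, f) := by
    intro K hK hKπ
    refine H22.avg_mul_of_le (fun x hx => ?_) (H22.cast_ne_zero_of_piDvd (p := p) hpπ hKπ) hKf
    refine ⟨⟨x, hK hx⟩, hcompl _ (fun q hq hd => hKπ q hq (hd.trans ?_)), rfl⟩
    rw [← Subgroup.orderOf_coe]
    exact Subgroup.orderOf_dvd_natCard K hx
  -- carry it to the defect group
  have hbB := H22.isBlockEl_elTop hB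
  obtain ⟨c, hc, hle⟩ := H22.exists_isMaxEl_ge hbB hpair hfb
  have hD := (H22.isDefectGroup_top_iff hM hB).1 hBD
  obtain ⟨h, -, hhD⟩ := hD.exists_conj_eq (hc.isDefEl hS hbB)
  set N := Subgroup.normalizer (D : Set G)
  have hb1 := H22.isBlockEl_el hB₁.1
  have hD1 := (H22.isDefectGroup_subgroupOf_iff hM hB₁.1 Subgroup.le_normalizer).1 hB₁D
  obtain ⟨e₁, he₁, he₁b⟩ := H22.exists_pair_below hS hb1 hD1.le hD1.pGroup hD1.ne_zero
  have hCN : Subgroup.centralizer (D : Set G) ≤ N := Subgroup.centralizer_le_normalizer _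
  have he₁C : H22.IsBlockEl (Subgroup.centralizer (D : Set G)) e₁ := by
    have h' : H22.IsBlockEl (H22.cen N D) e₁ := he₁.block
    rwa [show H22.cen N D = Subgroup.centralizer (D : Set G) from inf_eq_left.2 hCN] at h'
  have he₁B := H22.below_elTop_of_induced hB₁ hD1.pGroup Subgroup.le_normalizer hCN he₁C he₁b
  have hmid : H22.IsPairEl p ⊤ (D, H22.cj h c.2) := by
    have := hc.pair.conj h
    rwa [hhD, H22.cS_top] at this
  have hmidB : H22.Below (H22.elTop M B) (D, H22.cj h c.2) := by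
    have := hc.below.conj h
    rwa [hhD, hbB.cent.inv h (Subgroup.mem_top _)] at this
  obtain ⟨n, -, hnD, hn⟩ := H22.exists_conj_eq_of_isDefEl hS hbB hD hmid hmidB
    (g := e₁) ⟨le_top, hD1.pGroup, by rw [H22.cen_top]; exact he₁C⟩ he₁B
  have hfinal : H22.HallKer π (D, e₁) := by
    have := ((hhall.of_ple hle).conj h).conj n
    rwa [hhD, hnD, hn] at this
  refine (H22.avg_piCoreOf_mul_el_iff hM hpπ hB₁.1).1 (H22.avg_mul_descend hD1.pGroup
    (Subgroup.le_normalizer.trans (Cfsg.Agent.H55.le_normalizer_piCoreOf _ N))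
    (Cfsg.Agent.H55.piCoreOf_le _ N) (Cfsg.Agent.H55.le_normalizer_piCoreOf _ N)
    (H22.not_dvd_of_piDvd hpπ (Cfsg.Agent.H55.piCoreOf_piDvd _ N)) hb1
    (hb1.cent.inv.mono Subgroup.le_normalizer) he₁C.ne_zero he₁b
    (hfinal _ inf_le_right ((Cfsg.Agent.H55.piCoreOf_piDvd _ N).subgroup_le inf_le_left)))

end Cfsg.Agent.S4728
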