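import Cfsg.Statements.S4729
import Cfsg.Agent.H42.SmallPrincipal
-- import your own Cfsg.Agent.* helpers here

set_option autoImplicit false
open Cfsg

namespace Cfsg.Agent.S4729

/-- Let p be a prime, M a maximal ideal of the algebraic integers containing p, G a finite perfect group and P a Sylow p-subgroup. If the principal p-block of G contains a faithful irreducible character of degree less than 2p, then the centralizer of P is a p-group. -/
theorem result {G : Type*} [Group G] [Finite G] (p : ℕ) [Fact p.Prime] (M : Ideal Cfsg.AlgInt) (hM : Cfsg.IsPModular p M) (hperf : commutator G = ⊤) (P : Sylow p G) (χ : Cfsg.IrrCharacter G) (hχ : χ ∈ Cfsg.principalBlock M G) (hfaith : ∀ g : G, (χ : G → ℂ) g = (χ : G → ℂ) 1 → g = 1) (hdeg : Cfsg.charDegree (χ : G → ℂ) < 2 * p) : IsPGroup p ↥(Subgroup.centralizer ((P : Subgroup G) : Set G)) := by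
  classical
  have := Fintype.ofFinite G
  refine fun g => ⟨(Nat.card G).factorization p, Subtype.ext ?_⟩
  push_cast
  refine Cfsg.Agent.H42.eq_one_of_small_principal hM hperf P hχ hfaith hdeg ?_ ?_
  · intro h
    refine Nat.not_dvd_ordCompl (Fact.out : p.Prime) (Nat.card_pos (α := G)).ne' (h.trans ?_)
    refine orderOf_dvd_of_pow_eq_one ?_
    rw [← pow_mul, Nat.ordProj_mul_ordCompl_eq_self, pow_card_eq_one']
  · intro y hy
    exact (Commute.pow_right (Subgroup.mem_centralizer_iff.1 g.2 y hy) _).eq

end Cfsg.Agent.S4729
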