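import Cfsg.Statements.S4730
import Cfsg.Agent.H40.BlockDefect
import Cfsg.Agent.H42.Central
import Cfsg.Agent.H42.Heights
-- import your own Cfsg.Agent.* helpers here

set_option autoImplicit false
open Cfsg

namespace Cfsg.Agent.S4730

/-- Let p be a prime, M a maximal ideal of the algebraic integers containing p, and G a finite group with trivial centre, Sylow p-subgroup P of order p^a and centre Z(P) of order p^b. If χ is a faithful irreducible character of G whose degree is a power of p, then the p-block of χ has defect at most a − b; in particular, if P is abelian then χ lies in a block of defect zero. -/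
theorem result {G : Type*} [Group G] [Finite G] (p : ℕ) [Fact p.Prime] (M : Ideal Cfsg.AlgInt) (hM : Cfsg.IsPModular p M) (hZ : Subgroup.center G = ⊥) (P : Sylow p G) (a b : ℕ) (ha : Nat.card P = p ^ a) (hb : Nat.card (Subgroup.center ↥(P : Subgroup G)) = p ^ b) (χ : Cfsg.IrrCharacter G) (hfaith : ∀ g : G, (χ : G → ℂ) g = (χ : G → ℂ) 1 → g = 1) (n : ℕ) (hdeg : Cfsg.charDegree (χ : G → ℂ) = p ^ n) : Cfsg.blockDefect p (Cfsg.blockOf M (χ : G → ℂ)) ≤ a - b ∧ (IsMulCommutative ↥(P : Subgroup G) → Cfsg.blockDefect p (Cfsg.blockOf M (χ : G → ℂ)) = 0) := by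
  classical
  have := hM.2.1
  have := Fintype.ofFinite G
  have hp : p.Prime := Fact.out
  set Z : Subgroup G := (Subgroup.center ↥(P : Subgroup G)).map (P : Subgroup G).subtype with hZdef
  have hZcard : Nat.card Z = p ^ b := by
    rw [hZdef, Subgroup.card_map_of_injective (Subgroup.subtype_injective _), hb]
  have hab : a = (Nat.card G).factorization p := by
    have := P.card_eq_multiplicity
    rw [ha] at this
    exact Nat.pow_right_injective hp.two_le this
  have hcl : ∀ z ∈ Z, ¬ p ∣ (Subgroup.centralizer ({z} : Set G)).index := by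
    rintro z ⟨w, hw, rfl⟩ h
    refine P.not_dvd_index (h.trans (Subgroup.index_dvd_of_le fun y hy => ?_))
    rw [Subgroup.mem_centralizer_singleton_iff]
    exact congrArg Subtype.val (Subgroup.mem_center_iff.1 hw ⟨y, hy⟩)
  set B := Cfsg.blockOf M (χ : G → ℂ) with hBdef
  have hB : Cfsg.IsPBlock M B := Cfsg.Agent.H41.isPBlock_blockOf χ
  have hfac : ∀ ψ ∈ B, b ≤ (Cfsg.charDegree (ψ : G → ℂ)).factorization p := by
    intro ψ hψ
    set d₀ := Cfsg.charDegree (ψ : G → ℂ) with hd₀
    have hd0 : d₀ ≠ 0 := (Cfsg.Agent.H42.charDegree_pos ψ).ne'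
    have hr : ∀ z ∈ Z, z ≠ 1 → Cfsg.MemLocalIdeal M ((ψ : G → ℂ) z / (d₀ : ℂ)) := by
      intro z hz hz1
      have h0 := Cfsg.Agent.H42.eq_zero_of_prime_power_degree hZ hp χ hfaith hdeg hz1 (hcl z hz)
      have h1 : Cfsg.MemLocalIdeal M (Cfsg.centralChar (ψ : G → ℂ) z) := by
        have h : Cfsg.MemLocalIdeal M
            (Cfsg.centralChar (ψ : G → ℂ) z - Cfsg.centralChar (χ : G → ℂ) z) :=
          Cfsg.Agent.H41.sameBlock_symm hψ z
        rwa [show Cfsg.centralChar (χ : G → ℂ) z = 0 by simp [Cfsg.centralChar, h0], sub_zero] at h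
      have h2 := Cfsg.Agent.H40.memLocalIdeal_mul_left
        (Cfsg.Agent.H41.IsPModular.inv_natCast_mem hM (hcl z hz)) h1
      rwa [Cfsg.centralChar, Cfsg.Agent.H42.irr_one_eq, ← hd₀, mul_div_assoc,
        inv_mul_cancel_left₀ (Nat.cast_ne_zero.2
          (Subgroup.centralizer _).index_ne_zero_of_finite)] at h2
    set R := ∑ z ∈ (Finset.univ : Finset Z).erase 1, (ψ : G → ℂ) z / (d₀ : ℂ) with hR
    have hRI : Cfsg.MemLocalIdeal M R := Cfsg.Agent.H40.memLocalIdeal_sum _ _ fun z hz =>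
      hr z z.2 fun h => (Finset.mem_erase.1 hz).1 (Subtype.ext h)
    obtain ⟨hR1, hR2⟩ := Cfsg.Agent.H41.memLocalIdeal_iff_res.1 hRI
    have hres1 : Cfsg.Agent.H41.res M ⟨1 + R, add_mem (one_mem _) hR1⟩ = 1 := by
      rw [show (⟨1 + R, _⟩ : Cfsg.Agent.H41.localRing M) = 1 + ⟨R, hR1⟩ from Subtype.ext rfl,
        map_add, map_one, hR2, add_zero]
    obtain ⟨m, hm⟩ := Cfsg.Agent.H26.exists_nat_classInner_irr
      (Cfsg.Agent.H26.isCharacter_comp (Cfsg.Agent.H26.irr_isCharacter ψ) Z.subtype)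
      (Cfsg.Agent.H26.oneIrr Z)
    have hsum : ((p ^ b * m : ℕ) : ℂ) = (d₀ : ℂ) * (1 + R) := by
      rw [Nat.cast_mul, ← hm, ← hZcard, Cfsg.classInner, ← mul_assoc,
        mul_inv_cancel₀ (Nat.cast_ne_zero.2 Nat.card_pos.ne'), one_mul,
        ← Finset.add_sum_erase _ _ (Finset.mem_univ (1 : Z))]
      rw [hR, mul_add, mul_one, Finset.mul_sum]
      congr 1
      · simp [Cfsg.Agent.H26.oneIrr_val, hd₀, Cfsg.Agent.H42.irr_one_eq]
      · refine Finset.sum_congr rfl fun z _ => ?_
        rw [mul_div_cancel₀ _ (Nat.cast_ne_zero.2 hd0)]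
        simp [Cfsg.Agent.H26.oneIrr_val]
    have hne : p ^ b * m ≠ 0 := by
      intro h0
      rw [h0, Nat.cast_zero, eq_comm, mul_eq_zero, Nat.cast_eq_zero] at hsum
      refine one_ne_zero (α := Cfsg.Agent.H41.ResField M) (hres1.symm.trans ?_)
      rw [show (⟨1 + R, _⟩ : Cfsg.Agent.H41.localRing M) = 0 from
        Subtype.ext (hsum.resolve_left hd0), map_zero]
    obtain ⟨hle, hiff⟩ := Cfsg.Agent.H40.factorization_le_of_div_mem hM hne hd0
      (add_mem (one_mem _) hR1) hsum
    have heq : d₀.factorization p = (p ^ b * m).factorization p := by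
      refine le_antisymm hle (not_lt.1 fun hlt => ?_)
      obtain ⟨h3, h4⟩ := Cfsg.Agent.H41.memLocalIdeal_iff_res.1 (hiff.2 hlt)
      exact one_ne_zero (α := Cfsg.Agent.H41.ResField M) (hres1.symm.trans h4)
    have hm0 : m ≠ 0 := right_ne_zero_of_mul hne
    rw [heq, Nat.factorization_mul (pow_ne_zero _ hp.ne_zero) hm0, Finsupp.add_apply,
      Nat.factorization_pow, Finsupp.smul_apply, smul_eq_mul, hp.factorization_self]
    omega
  obtain ⟨ψ, hψ, -, hv⟩ := Cfsg.Agent.H42.exists_height_zero (p := p) hB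
  have h1 := hfac ψ hψ
  refine ⟨by omega, fun hcomm => ?_⟩
  have htop : Subgroup.center ↥(P : Subgroup G) = ⊤ :=
    top_unique fun x _ => Subgroup.mem_center_iff.2 fun y => hcomm.is_comm.comm y x
  rw [htop, Subgroup.card_top, ha] at hb
  have := Nat.pow_right_injective hp.two_le hb
  omega

end Cfsg.Agent.S4730
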