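import Cfsg.Statements.S4732
import Cfsg.Agent.H68.JordanP.Linear
-- import your own Cfsg.Agent.* helpers here

set_option autoImplicit false
universe u v
open Cfsg

namespace Cfsg.Agent.S4732

/-- Let p be a prime. There is a function f of two natural-number arguments such that every finite group G admitting a faithful representation of degree n over a field of characteristic p, with Sylow p-subgroups of order p^m, has a normal abelian subgroup A with [G : A] < f(m, n). -/
theorem result (p : ℕ) [Fact p.Prime] : ∃ f : ℕ → ℕ → ℕ, ∀ (G : Type u) [Group G] [Finite G] (F : Type v) [Field F] [CharP F p] (n : ℕ) (ρ : Representation F G (Fin n → F)), Function.Injective ρ → ∀ m : ℕ, (Nat.card G).factorization p = m → ∃ A : Subgroup G, A.Normal ∧ IsMulCommutative A ∧ A.index < f m n := by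
  classical
  choose F hF using fun m n : ℕ => H68.JordanP.exists_linear_bound.{u, v} p n m
  refine ⟨fun m n => (F m n).factorial + 1, fun G _ _ K _ _ n ρ hρ m hm => ?_⟩
  have : CharP (AlgebraicClosure K) p :=
    charP_of_injective_algebraMap (algebraMap K (AlgebraicClosure K)).injective p
  let σ : G →* Module.End (AlgebraicClosure K) (Fin n → AlgebraicClosure K) :=
    ((Matrix.toLinAlgEquiv'.toAlgHom.toRingHom.comp
      (algebraMap K (AlgebraicClosure K)).mapMatrix).comp
      LinearMap.toMatrixAlgEquiv'.toAlgHom.toRingHom).toMonoidHom.comp ρ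
  have hσ : Function.Injective σ :=
    (Matrix.toLinAlgEquiv'.injective.comp
      ((Matrix.map_injective (algebraMap K (AlgebraicClosure K)).injective).comp
        LinearMap.toMatrixAlgEquiv'.injective)).comp hρ
  obtain ⟨A, hA, hAi⟩ := hF m n G (AlgebraicClosure K) (Fin n → AlgebraicClosure K) σ hσ
    (le_of_eq (Module.finrank_fin_fun _)) (le_of_eq hm)
  refine ⟨A.normalCore, Subgroup.normalCore_normal A, ?_, ?_⟩
  · refine ⟨⟨fun x y => Subtype.ext ?_⟩⟩
    exact hA.1 x (Subgroup.normalCore_le A x.2) y (Subgroup.normalCore_le A y.2)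
  · exact Nat.lt_succ_of_le ((Nat.le_of_dvd (Nat.factorial_pos _)
      (H68.JordanP.index_normalCore_dvd A)).trans (Nat.factorial_le hAi))

end Cfsg.Agent.S4732
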