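import Cfsg.Statements.S4735
import Cfsg.Agent.H32.PrincipalGalois
-- import your own Cfsg.Agent.* helpers here

set_option autoImplicit false
open Cfsg

namespace Cfsg.Agent.S4735

/-- Let p be a prime, M a maximal ideal of the algebraic integers containing p, G a finite group, H = O_p'(G) and Ḡ = G/H. For x ∈ G write λ(G, x) for the sum of |χ(x)|^2 over the irreducible characters χ in the principal p-block of G. Then λ(G, x) is a positive integer, λ(G, x) = λ(Ḡ, x̄) where x̄ is the image of x, and λ(G, x) ≤ #C_Ḡ(x̄). Moreover λ(G, 1) = [G : H] if and only if the principal block is the only p-block of Ḡ. -/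
theorem result {G : Type*} [Group G] [Finite G] (p : ℕ) [Fact p.Prime] (M : Ideal Cfsg.AlgInt) (hM : Cfsg.IsPModular p M) (x : G) : (∃ n : ℕ, 0 < n ∧ ∑ᶠ χ ∈ Cfsg.principalBlock M G, Complex.normSq ((χ : G → ℂ) x) = n) ∧ ∑ᶠ χ ∈ Cfsg.principalBlock M G, Complex.normSq ((χ : G → ℂ) x) = ∑ᶠ ψ ∈ Cfsg.principalBlock M (G ⧸ Cfsg.pPrimeCore p G), Complex.normSq ((ψ : G ⧸ Cfsg.pPrimeCore p G → ℂ) (QuotientGroup.mk x)) ∧ ∑ᶠ χ ∈ Cfsg.principalBlock M G, Complex.normSq ((χ : G → ℂ) x) ≤ (Nat.card ↥(Subgroup.centralizer ({(QuotientGroup.mk x : G ⧸ Cfsg.pPrimeCore p G)} : Set (G ⧸ Cfsg.pPrimeCore p G))) : ℝ) ∧ ((∑ᶠ χ ∈ Cfsg.principalBlock M G, Cfsg.charDegree (χ : G → ℂ) ^ 2) = (Cfsg.pPrimeCore p G).index ↔ ∀ B : Set (Cfsg.IrrCharacter (G ⧸ Cfsg.pPrimeCore p G)), Cfsg.IsPBlock M B → B = Cfsg.principalBlock M (G ⧸ Cfsg.pPrimeCore p G)) := by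
  classical
  have : M.IsMaximal := hM.2.1
  let : Fintype G := Fintype.ofFinite G
  have hnor := Cfsg.Agent.H19.pPrimeCore_normal p G
  set N := Cfsg.pPrimeCore p G
  let : Fintype (G ⧸ N) := Fintype.ofFinite _
  have hn : ¬ p ∣ Nat.card N :=
    (Nat.Prime.coprime_iff_not_dvd Fact.out).1 (Cfsg.Agent.H19.pPrimeCore_coprime p).symm
  have hBimg : Finset.univ.filter (· ∈ Cfsg.principalBlock M G) =
      (Finset.univ.filter (· ∈ Cfsg.principalBlock M (G ⧸ N))).image (Cfsg.Agent.H44.inflate N) := by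
    ext χ
    simp [Cfsg.Agent.H32.mem_principalBlock_iff_inflate hM N hn χ]
  have fs : ∀ {H : Type _} [Group H] [Fintype H] {R : Type} [AddCommMonoid R]
      (B : Set (Cfsg.IrrCharacter H)) (f : Cfsg.IrrCharacter H → R),
      ∑ᶠ χ ∈ B, f χ = ∑ χ ∈ Finset.univ.filter (· ∈ B), f χ := by
    intro H _ _ R _ B f
    rw [finsum_mem_eq_finite_toFinset_sum _ (Set.toFinite _)]
    exact Finset.sum_congr (by ext; simp) fun _ _ => rfl
  rw [fs (Cfsg.principalBlock M G) fun χ => Complex.normSq ((χ : G → ℂ) x), fs (Cfsg.principalBlock M (G ⧸ N)), fs (Cfsg.principalBlock M G) fun χ => Cfsg.charDegree (χ : G → ℂ) ^ 2]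
  have h2 : ∑ χ ∈ Finset.univ.filter (· ∈ Cfsg.principalBlock M G), Complex.normSq ((χ : G → ℂ) x) =
      ∑ ψ ∈ Finset.univ.filter (· ∈ Cfsg.principalBlock M (G ⧸ N)),
        Complex.normSq ((ψ : G ⧸ N → ℂ) (QuotientGroup.mk x)) := by
    rw [hBimg, Finset.sum_image fun a _ b _ h => Cfsg.Agent.H44.inflate_injective N h]
    rfl
  refine ⟨Cfsg.Agent.H32.exists_nat_principal_norm hM x, h2, ?_, ?_⟩
  · rw [h2]
    refine (Finset.sum_le_sum_of_subset_of_nonneg (Finset.subset_univ _)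
      fun ψ _ _ => Complex.normSq_nonneg _).trans (le_of_eq ?_)
    have h := Cfsg.Agent.H26.column_orthogonality (G := G ⧸ N) (QuotientGroup.mk x) (QuotientGroup.mk x)
    rw [Cfsg.Agent.H26.classIndicator, if_pos (IsConj.refl _), mul_one] at h
    simp only [Complex.mul_conj, ← Complex.ofReal_sum] at h
    exact_mod_cast h
  · rw [hBimg, Finset.sum_image fun a _ b _ h => Cfsg.Agent.H44.inflate_injective N h]
    have hall : ∑ ψ : Cfsg.IrrCharacter (G ⧸ N), Cfsg.charDegree (ψ : G ⧸ N → ℂ) ^ 2 = N.index := by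
      have h := Cfsg.Agent.H26.column_orthogonality (G := G ⧸ N) 1 1
      rw [Cfsg.Agent.H26.classIndicator, if_pos (IsConj.refl _), mul_one,
        Subgroup.centralizer_eq_top_iff_subset.2 (by simp), Subgroup.card_top] at h
      simp only [Cfsg.Agent.H43.irr_charDegree_spec, Complex.conj_natCast, ← sq] at h
      exact_mod_cast h
    have hdeg : ∀ ψ : Cfsg.IrrCharacter (G ⧸ N),
        Cfsg.charDegree (Cfsg.Agent.H44.inflate N ψ : G → ℂ) = Cfsg.charDegree (ψ : G ⧸ N → ℂ) :=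
      fun ψ => by rw [Cfsg.charDegree, Cfsg.charDegree, Cfsg.Agent.H44.inflate_apply]; rfl
    simp only [hdeg]
    constructor
    · intro h B hB
      obtain ⟨ψ, hψ⟩ := Cfsg.Agent.H41.IsPBlock.nonempty hB
      refine Cfsg.Agent.H41.block_eq_of_mem_of_mem hB Cfsg.Agent.H41.isPBlock_principalBlock hψ ?_
      by_contra hno
      have hlt : ∑ φ ∈ Finset.univ.filter (· ∈ Cfsg.principalBlock M (G ⧸ N)),
          Cfsg.charDegree (φ : G ⧸ N → ℂ) ^ 2 <
          ∑ φ : Cfsg.IrrCharacter (G ⧸ N), Cfsg.charDegree (φ : G ⧸ N → ℂ) ^ 2 :=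
        Finset.sum_lt_sum_of_subset (Finset.subset_univ _) (Finset.mem_univ ψ)
          (fun h' => hno (Finset.mem_filter.1 h').2)
          (pow_pos (Cfsg.Agent.H43.irr_charDegree_pos ψ) 2) fun _ _ _ => Nat.zero_le _
      rw [hall, h] at hlt
      exact lt_irrefl _ hlt
    · intro h
      rw [← hall]
      refine Finset.sum_congr (Finset.filter_true_of_mem fun ψ _ => ?_) fun _ _ => rfl
      rw [← h _ (Cfsg.Agent.H41.isPBlock_blockOf ψ)]
      exact Cfsg.Agent.H41.mem_blockOf_self ψ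

end Cfsg.Agent.S4735
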