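import Cfsg.Statements.S4736
import Cfsg.Agent.H32.Constrained
import Cfsg.Agent.H32.PrincipalGalois
import Cfsg.Agent.H59.PSolvable
import Cfsg.Agent.H20.PLengthExponent
import Cfsg.Agent.S4713
import Cfsg.Agent.H26.PrincipalRestrict
import Cfsg.Agent.H84.PSolvable

set_option autoImplicit false
open Cfsg

namespace Cfsg.Agent.S4736

/-- Let p be a prime, M a maximal ideal of the algebraic integers containing p, and G a finite p-solvable group with Sylow p-subgroup P. Then P is abelian if and only if every irreducible character in the principal p-block of G has height zero. -/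
theorem result {G : Type*} [Group G] [Finite G] (p : ℕ) [Fact p.Prime] (M : Ideal Cfsg.AlgInt) (hM : Cfsg.IsPModular p M) (hsolv : Cfsg.IsPSolvable p G) (P : Sylow p G) : IsMulCommutative P ↔ ∀ χ ∈ Cfsg.principalBlock M G, Cfsg.blockHeight p (Cfsg.principalBlock M G) (χ : G → ℂ) = 0 := by
  classical
  have hp := (Fact.out : p.Prime)
  have := hM.2.1
  haveI : Fintype G := Fintype.ofFinite G
  have h1 := H26.oneIrr_mem_principalBlock (M := M) G
  have hd1 : Cfsg.charDegree ((H26.oneIrr G : Cfsg.IrrCharacter G) : G → ℂ) = 1 :=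
    H42.charDegree_of_eq_nat (n := 1) (by rw [H26.oneIrr_val, Nat.cast_one])
  have hinf : sInf ((fun χ : Cfsg.IrrCharacter G => (Cfsg.charDegree (χ : G → ℂ)).factorization p) ''
      Cfsg.principalBlock M G) = 0 :=
    Nat.sInf_eq_zero.2 (Or.inl ⟨H26.oneIrr G, h1, by
      show (Cfsg.charDegree ((H26.oneIrr G : Cfsg.IrrCharacter G) : G → ℂ)).factorization p = 0
      rw [hd1]; simp⟩)
  have hh : ∀ χ : Cfsg.IrrCharacter G,
      Cfsg.blockHeight p (Cfsg.principalBlock M G) (χ : G → ℂ) = 0 ↔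
        ¬ p ∣ Cfsg.charDegree (χ : G → ℂ) := fun χ => by
    rw [Cfsg.blockHeight, hinf, Nat.sub_zero, Nat.factorization_eq_zero_iff]
    have := H44.charDegree_pos χ
    constructor
    · rintro (h | h | h)
      · exact absurd hp h
      · exact h
      · omega
    · exact fun h => Or.inr (Or.inl h)
  simp only [hh]
  set N := Cfsg.pPrimeCore p G
  haveI : N.Normal := H19.pPrimeCore_normal p G
  have hn : ¬ p ∣ Nat.card N := fun h =>
    (Nat.Prime.coprime_iff_not_dvd hp).mp (H19.pPrimeCore_coprime p).symm h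
  have hsQ : Cfsg.IsPSolvable p (G ⧸ N) :=
    H84.isPSolvable_of_surjective _ (QuotientGroup.mk'_surjective N) hsolv
  have hred : Cfsg.pPrimeCore p (G ⧸ N) = ⊥ := H19.pPrimeCore_quotient_pPrimeCore p
  haveI : Fintype (G ⧸ N) := Fintype.ofFinite _
  haveI : Fintype (⊥ : Subgroup (G ⧸ N)) := Fintype.ofFinite _
  set K := Cfsg.pCore p (G ⧸ N)
  haveI : K.Normal := H19.pCore_normal p _
  have hK := H59.centralizer_pCore_le_of_isPSolvable hsQ hred
  have hKp : IsPGroup p K := H19.pCore_isPGroup p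
  obtain ⟨a, ha⟩ := hKp.exists_card_eq
  have hall : ∀ ψ : Cfsg.IrrCharacter (G ⧸ N), ψ ∈ Cfsg.principalBlock M (G ⧸ N) := fun ψ => by
    have hov : ∀ χ : Cfsg.IrrCharacter (G ⧸ N), Cfsg.classInner
        (fun n : (⊥ : Subgroup (G ⧸ N)) => (χ : G ⧸ N → ℂ) n)
        ((H26.oneIrr (⊥ : Subgroup (G ⧸ N)) : Cfsg.IrrCharacter _) : (⊥ : Subgroup (G ⧸ N)) → ℂ) ≠ 0 := by
      intro χ
      rw [Cfsg.classInner, Fintype.sum_subsingleton _ (1 : (⊥ : Subgroup (G ⧸ N))), H26.oneIrr_val,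
        map_one, mul_one, OneMemClass.coe_one, ← H44.cast_charDegree χ]
      exact mul_ne_zero (inv_ne_zero (Nat.cast_ne_zero.2 Nat.card_pos.ne'))
          (Nat.cast_ne_zero.2 (H44.charDegree_pos χ).ne')
    exact H32.sameBlock_of_over (⊥ : Subgroup (G ⧸ N)) (p := p) hM (by simp [hp.one_lt.ne'])
      (fun g => Subtype.ext (funext fun n => by rw [H41.twistIrr_apply, H26.oneIrr_val, H26.oneIrr_val]))
      K bot_le ⟨a, by rw [Subgroup.relIndex_bot_left, ha]⟩
      (fun Q hQK hQ hQc => by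
        have hQK' : Q = K := Subgroup.eq_of_le_of_card_ge hQK
          (le_of_eq (by rw [hQc, ha, hp.factorization_pow, Finsupp.single_eq_same]))
        rw [hQK']
        exact hK)
      (hov (H26.oneIrr (G ⧸ N))) (hov ψ)
  have hB : (∀ χ ∈ Cfsg.principalBlock M G, ¬ p ∣ Cfsg.charDegree (χ : G → ℂ)) ↔
      ∀ ψ : Cfsg.IrrCharacter (G ⧸ N), ¬ p ∣ Cfsg.charDegree (ψ : G ⧸ N → ℂ) := by
    have hdeg : ∀ ψ : Cfsg.IrrCharacter (G ⧸ N), Cfsg.charDegree (H44.inflate N ψ : G → ℂ) =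
        Cfsg.charDegree (ψ : G ⧸ N → ℂ) := fun ψ => by
      apply Nat.cast_injective (R := ℂ)
      rw [H44.cast_charDegree, H44.cast_charDegree, H44.inflate_apply, QuotientGroup.mk_one]
    constructor
    · intro h ψ
      rw [← hdeg]
      exact h _ ((H32.mem_principalBlock_iff_inflate hM N hn _).2 ⟨ψ, hall ψ, rfl⟩)
    · intro h χ hχ
      obtain ⟨ψ, -, rfl⟩ := (H32.mem_principalBlock_iff_inflate hM N hn χ).1 hχ
      rw [hdeg]
      exact h ψ
  rw [hB]
  set P' := P.mapSurjective (QuotientGroup.mk'_surjective N)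
  refine Iff.trans ?_ (S4713.result p hsQ P')
  have hP' : (P' : Subgroup (G ⧸ N)) = (P : Subgroup G).map (QuotientGroup.mk' N) :=
    Sylow.coe_mapSurjective _ _
  have hinj : ∀ x : G, x ∈ (P : Subgroup G) → x ∈ N → x = 1 := by
    intro x hx hxN
    obtain ⟨k, hk⟩ := P.2 ⟨x, hx⟩
    have h2 : x ^ Nat.card N = 1 := congrArg Subtype.val (pow_card_eq_one' (x := (⟨x, hxN⟩ : N)))
    have h3 := pow_gcd_eq_one.mpr ⟨(congrArg Subtype.val hk : x ^ p ^ k = 1), h2⟩
    rwa [Nat.Coprime.pow_left k ((Nat.Prime.coprime_iff_not_dvd hp).mpr hn), pow_one] at h3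
  constructor
  · intro hc
    have hab : IsMulCommutative P' := ⟨⟨fun a b => by
      obtain ⟨u, hu, hua⟩ := hP'.le a.2
      obtain ⟨v, hv, hvb⟩ := hP'.le b.2
      apply Subtype.ext
      show (a : G ⧸ N) * b = b * a
      rw [← hua, ← hvb, ← map_mul, ← map_mul]
      exact congrArg _ (congrArg Subtype.val (hc.is_comm.comm ⟨u, hu⟩ ⟨v, hv⟩))⟩⟩
    refine ⟨?_, hab⟩
    have hle : (P' : Subgroup (G ⧸ N)) ≤ K := fun x hx => hK fun k hk =>
      congrArg Subtype.val (hab.is_comm.comm ⟨k, H19.pCore_le_sylow P' hk⟩ ⟨x, hx⟩)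
    rw [le_antisymm hle (H19.pCore_le_sylow P')]
    infer_instance
  · rintro ⟨-, hab⟩
    refine ⟨⟨fun a b => Subtype.ext ?_⟩⟩
    have h := congrArg Subtype.val (hab.is_comm.comm
      ⟨QuotientGroup.mk' N a, hP'.ge ⟨a, a.2, rfl⟩⟩ ⟨QuotientGroup.mk' N b, hP'.ge ⟨b, b.2, rfl⟩⟩)
    simp only [Subgroup.coe_mul, ← map_mul] at h
    have h2 : ((b : G) * a)⁻¹ * (a * b) ∈ N := QuotientGroup.eq.mp h.symm
    have h3 := hinj _ (mul_mem (inv_mem (mul_mem b.2 a.2)) (mul_mem a.2 b.2)) h2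
    exact (inv_mul_eq_one.mp h3).symm

end Cfsg.Agent.S4736
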