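import Cfsg.Statements.S4955
import Cfsg.Agent.H45.Galois
import Cfsg.Agent.H45.NormalSylow
import Cfsg.Agent.H45.Inflation

set_option autoImplicit false
open Cfsg

namespace Cfsg.Agent.S4955

/-- Let X be a finite group with an abelian normal Sylow p-subgroup V (a normal p-subgroup of index prime to p in which any two elements commute), and let G be a complement to V in X. Then for every v in V, writing C for the centralizer of v in G, the number k(X) of conjugacy classes of X satisfies k(X) ≤ (order of C)·(order of V) − ((order of G) − k(G)); the statement is written with the subtracted term moved to the left. In particular, if some v in V is centralized by no nonidentity element of G, then k(X) is at most the order of V. -/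
theorem result {X : Type*} [Group X] [Finite X] (p : ℕ) [Fact p.Prime] (V : Subgroup X) [V.Normal] (hVp : IsPGroup p V) (hidx : ¬ p ∣ V.index) (hab : ∀ a ∈ V, ∀ b ∈ V, a * b = b * a) (G : Subgroup X) (hGV : Subgroup.IsComplement' V G) (v : X) (hv : v ∈ V) : Nat.card (ConjClasses X) + Nat.card G ≤ Nat.card ↥(G ⊓ Subgroup.centralizer ({v} : Set X)) * Nat.card V + Nat.card (ConjClasses G) := by
  classical
  let π : X →* G := (hGV.symm.QuotientMulEquiv).toMonoidHom.comp (QuotientGroup.mk' V)
  have hπ : Function.Surjective π :=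
    hGV.symm.QuotientMulEquiv.surjective.comp (QuotientGroup.mk'_surjective V)
  have hπv : π v = 1 := by
    show hGV.symm.QuotientMulEquiv (QuotientGroup.mk' V v) = 1
    rw [QuotientGroup.mk'_apply, (QuotientGroup.eq_one_iff v).2 hv, map_one]
  set J : Finset (Cfsg.IrrCharacter X) := Finset.univ.image (H45.inflIrr π hπ) with hJ
  have hJval : ∑ χ ∈ J, ‖χ.1 v‖ ^ 2 = (Nat.card G : ℝ) := by
    rw [hJ, Finset.sum_image (fun a _ b _ h => H45.inflIrr_injective π hπ h)]
    have h1 := H45.sum_irr_norm_sq (1 : G)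
    rw [show Subgroup.centralizer ({1} : Set G) = ⊤ from eq_top_iff.2 fun x _ => by simp [Subgroup.mem_centralizer_iff], Subgroup.card_top] at h1
    rw [← h1]
    exact Finset.sum_congr rfl fun θ _ => by simp [H45.inflIrr, hπv]
  have hJcard : J.card = Nat.card (ConjClasses G) := by
    rw [hJ, Finset.card_image_of_injective _ (H45.inflIrr_injective π hπ),
      ← H26.card_irr_eq_card_conjClasses, Nat.card_eq_fintype_card, Finset.card_univ]
  have hcompl : ∀ (k : ℕ) (hk : k.Coprime (Nat.card X)), ∀ χ ∈ Jᶜ, H45.galIrr hk χ ∈ Jᶜ := by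
    intro k hk χ hχ
    rw [Finset.mem_compl] at hχ ⊢
    intro h
    obtain ⟨θ, -, hθ⟩ := Finset.mem_image.1 h
    have hk' : k.Coprime (Nat.card G) := hk.of_dvd_right (Subgroup.card_subgroup_dvd_card G)
    obtain ⟨θ', hθ'⟩ := (Finite.injective_iff_surjective.1
      (H45.galIrr_injective (G := G) hk')) θ
    refine hχ (Finset.mem_image.2 ⟨θ', Finset.mem_univ _, H45.galIrr_injective hk ?_⟩)
    rw [← hθ, ← hθ']
    exact Subtype.ext (funext fun x => by simp [H45.galIrr, H45.inflIrr, map_pow])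
  have hlow : ((Jᶜ).card : ℝ) ≤ ∑ χ ∈ Jᶜ, ‖χ.1 v‖ ^ 2 := by
    rw [← Finset.sum_coe_sort Jᶜ, ← Fintype.card_coe]
    refine H45.card_le_sum_norm_pow (fun χ : {x // x ∈ Jᶜ} => χ.1.1 v)
      (fun χ => H45.isIntegral_char' (H26.irr_isCharacter χ.1) v)
      (fun χ => H45.irr_ne_zero_of_abelian_normal_sylow p V hVp hidx hab χ.1 hv) (fun σ => ?_) 2
    obtain ⟨k, hk, hσ⟩ := H45.exists_pow_of_ringAut σ (Nat.card_pos (α := X)).ne'
    have hinj : Function.Injective
        fun χ : {x // x ∈ Jᶜ} => (⟨H45.galIrr hk χ.1, hcompl k hk χ.1 χ.2⟩ : {x // x ∈ Jᶜ}) :=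
      fun a b h => Subtype.ext (H45.galIrr_injective hk (congrArg Subtype.val h))
    exact ⟨Equiv.ofBijective _ (Finite.injective_iff_bijective.1 hinj),
      fun χ => H45.ringAut_char (H26.irr_isCharacter χ.1) σ hσ v⟩
  have hcent : Nat.card ↥(Subgroup.centralizer ({v} : Set X))
      = Nat.card ↥(G ⊓ Subgroup.centralizer ({v} : Set X)) * Nat.card V := by
    set C := Subgroup.centralizer ({v} : Set X) with hC
    have hVC : ∀ u ∈ V, u ∈ C := fun u hu => Subgroup.mem_centralizer_iff.2 fun z hz => by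
      rw [Set.mem_singleton_iff.1 hz, hab v hv u hu]
    rw [mul_comm, ← Nat.card_prod]
    symm
    refine Nat.card_eq_of_bijective
      (fun q : V × ↥(G ⊓ C) => (⟨q.1 * q.2, C.mul_mem (hVC _ q.1.2) q.2.2.2⟩ : C)) ⟨?_, ?_⟩
    · rintro ⟨a, b⟩ ⟨a', b'⟩ h
      have hz : (b : X) * (b' : X)⁻¹ = (a : X)⁻¹ * (a' : X) := by
        have h1 : (a : X) * b = (a' : X) * b' := congrArg Subtype.val h
        rw [mul_inv_eq_iff_eq_mul, mul_assoc, ← h1, inv_mul_cancel_left]
      have hbb : (b : X) * (b' : X)⁻¹ = 1 := by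
        rw [← Subgroup.mem_bot, ← hGV.disjoint.eq_bot]
        exact ⟨hz ▸ V.mul_mem (V.inv_mem a.2) a'.2, G.mul_mem b.2.1 (G.inv_mem b'.2.1)⟩
      have this : a = a' ∧ (b : X) = b' := by
        refine ⟨Subtype.ext ?_, mul_inv_eq_one.1 hbb⟩
        rw [hbb] at hz
        exact inv_mul_eq_one.1 hz.symm
      exact Prod.ext this.1 (Subtype.ext this.2)
    · rintro ⟨x, hx⟩
      obtain ⟨⟨⟨a, ha⟩, ⟨b, hb⟩⟩, hab'⟩ := hGV.2 x
      refine ⟨(⟨a, ha⟩, ⟨b, hb, ?_⟩), Subtype.ext hab'⟩
      rw [show b = a⁻¹ * x by rw [← hab']; simp]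
      exact C.mul_mem (C.inv_mem (hVC a ha)) hx
  have hcardX : Nat.card (ConjClasses X) = J.card + (Jᶜ).card := by
    rw [← H26.card_irr_eq_card_conjClasses, Nat.card_eq_fintype_card, Finset.card_add_card_compl]
  have htot := H45.sum_irr_norm_sq v
  rw [← Finset.sum_add_sum_compl J, hJval, hcent] at htot
  have hfin : ((Nat.card (ConjClasses X) + Nat.card G : ℕ) : ℝ)
      ≤ ((Nat.card ↥(G ⊓ Subgroup.centralizer ({v} : Set X)) * Nat.card V
        + Nat.card (ConjClasses G) : ℕ) : ℝ) := by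
    rw [hcardX, hJcard]
    push_cast at htot ⊢
    linarith
  exact_mod_cast hfin

end Cfsg.Agent.S4955
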