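import Cfsg.Statements.S4956
import Mathlib
import Cfsg.Agent.H56.Coprime

set_option autoImplicit false
open Cfsg

namespace Cfsg.Agent.S4956

/-- Let X be a finite group, V an abelian normal subgroup of X (any two elements of V commute) and G a complement to V in X whose order is coprime to that of V. Let S be a set of representatives of the orbits of G on V under conjugation: S lies in V and every element of V is conjugate under G to exactly one member of S. Then the number of conjugacy classes of X equals the sum, over s in S, of the number of conjugacy classes of the centralizer of s in G. -/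
theorem result {X : Type*} [Group X] [Finite X] (V : Subgroup X) [V.Normal] (hab : ∀ a ∈ V, ∀ b ∈ V, a * b = b * a) (G : Subgroup X) (hGV : Subgroup.IsComplement' V G) (hcop : (Nat.card V).Coprime (Nat.card G)) (S : Finset X) (hSV : ∀ s ∈ S, s ∈ V) (hrep : ∀ v ∈ V, ∃! s, s ∈ S ∧ ∃ g ∈ G, g * v * g⁻¹ = s) : Nat.card (ConjClasses X) = ∑ s ∈ S, Nat.card (ConjClasses ↥(G ⊓ Subgroup.centralizer ({s} : Set X))) := by
  classical
  have hmk : ∀ x : X, ∃ u ∈ V, ∃ g ∈ G, u * g = x := fun x => by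
    obtain ⟨⟨⟨u, hu⟩, ⟨g, hg⟩⟩, h⟩ := hGV.2 x
    exact ⟨u, hu, g, hg, h⟩
  have hinj : ∀ a ∈ G, ∀ b ∈ G, a * b⁻¹ ∈ V → a = b := fun a ha b hb h => by
    have h1 : a * b⁻¹ ∈ V ⊓ G := ⟨h, G.mul_mem ha (G.inv_mem hb)⟩
    rw [hGV.disjoint.eq_bot, Subgroup.mem_bot, mul_inv_eq_one] at h1
    exact h1
  let C : X → Subgroup X := fun s => G ⊓ Subgroup.centralizer ({s} : Set X)
  have hCcomm : ∀ s : X, ∀ h : C s, Commute s (h : X) := fun s h =>
    Subgroup.mem_centralizer_iff.1 h.2.2 s rfl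
  let Φ : (Σ s : {s // s ∈ S}, ConjClasses ↥(C s.1)) → ConjClasses X := fun p =>
    Quotient.liftOn p.2 (fun h => ConjClasses.mk (p.1.1 * (h : X))) (by
      intro h k hk
      obtain ⟨c, hc⟩ := isConj_iff.1 hk
      refine ConjClasses.mk_eq_mk_iff_isConj.2 (isConj_iff.2 ⟨(c : X), ?_⟩)
      rw [← congrArg Subtype.val hc]
      push_cast
      rw [← mul_assoc, ← (hCcomm _ c).eq, mul_assoc, mul_assoc, mul_assoc])
  have hsurj : Function.Surjective Φ := by
    intro Y
    obtain ⟨y, rfl⟩ := ConjClasses.exists_rep Y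
    obtain ⟨u, hu, g, hg, rfl⟩ := hmk y
    have hgN : g ∈ Subgroup.normalizer (V : Set X) := by
      rw [Subgroup.normalizer_eq_top]; trivial
    obtain ⟨x, -, c, hc, hcg, hx⟩ := Cfsg.Agent.H56.exists_conj_into_centralizer_coset V g hgN
      (hcop.symm.of_dvd_left (Subgroup.orderOf_dvd_natCard G hg)) u hu
    obtain ⟨s, ⟨hsS, g', hg', hgs⟩, -⟩ := hrep c hc
    have hh : g' * g * g'⁻¹ ∈ C s := by
      refine ⟨G.mul_mem (G.mul_mem hg' hg) (G.inv_mem hg'), Subgroup.mem_centralizer_iff.2 ?_⟩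
      intro z hz
      rw [Set.mem_singleton_iff.1 hz, ← hgs]
      calc g' * c * g'⁻¹ * (g' * g * g'⁻¹) = g' * (c * g) * g'⁻¹ := by group
        _ = g' * (g * c) * g'⁻¹ := by rw [hcg]
        _ = g' * g * g'⁻¹ * (g' * c * g'⁻¹) := by group
    refine ⟨⟨⟨s, hsS⟩, ConjClasses.mk ⟨_, hh⟩⟩, ?_⟩
    show ConjClasses.mk (s * (g' * g * g'⁻¹)) = ConjClasses.mk (u * g)
    refine (ConjClasses.mk_eq_mk_iff_isConj.2 (isConj_iff.2 ⟨g' * x, ?_⟩)).symm
    rw [← hgs, show g' * x * (u * g) * (g' * x)⁻¹ = g' * (x * (u * g) * x⁻¹) * g'⁻¹ by group, hx]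
    group
  have hinjΦ : Function.Injective Φ := by
    rintro ⟨⟨s, hs⟩, A⟩ ⟨⟨t, ht⟩, B⟩ h
    obtain ⟨a, rfl⟩ := ConjClasses.exists_rep A
    obtain ⟨b, rfl⟩ := ConjClasses.exists_rep B
    obtain ⟨x, hx⟩ := isConj_iff.1 (ConjClasses.mk_eq_mk_iff_isConj.1 (h :
      ConjClasses.mk (s * (a : X)) = ConjClasses.mk (t * (b : X))))
    have hx' : x * (s * (a : X)) * x⁻¹ = t * (b : X) := hx
    clear hx
    obtain ⟨m, hm1, hm0⟩ := Nat.chineseRemainder hcop 1 0
    have hpart : ∀ v : X, v ∈ V → ∀ w : C v, (v * (w : X)) ^ m = v := by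
      intro v hv w
      rw [(hCcomm v w).mul_pow]
      have e1 : v ^ m = v ^ 1 := pow_eq_pow_iff_modEq.2
        (hm1.of_dvd (Subgroup.orderOf_dvd_natCard V hv))
      have e2 : (w : X) ^ m = (w : X) ^ 0 := pow_eq_pow_iff_modEq.2
        (hm0.of_dvd (Subgroup.orderOf_dvd_natCard G w.2.1))
      rw [e1, e2, pow_one, pow_zero, mul_one]
    have hst : x * s * x⁻¹ = t := by
      have h1 := congrArg (· ^ m) hx'
      simp only [conj_pow, hpart s (hSV s hs) a, hpart t (hSV t ht) b] at h1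
      exact h1
    have hab' : x * (a : X) * x⁻¹ = b := by
      refine mul_left_cancel (a := t) ?_
      calc t * (x * (a : X) * x⁻¹) = x * s * x⁻¹ * (x * (a : X) * x⁻¹) :=
            congrArg (· * (x * (a : X) * x⁻¹)) hst.symm
        _ = x * (s * (a : X)) * x⁻¹ := by group
        _ = t * (b : X) := hx'
    obtain ⟨u, hu, g, hg, rfl⟩ := hmk x
    have hgsV : g * s * g⁻¹ ∈ V := (inferInstance : V.Normal).conj_mem s (hSV s hs) g
    have hgst : g * s * g⁻¹ = t := by
      rw [← hst, show u * g * s * (u * g)⁻¹ = u * (g * s * g⁻¹) * u⁻¹ by group,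
        hab u hu _ hgsV, mul_inv_cancel_right]
    have hself : ∀ r, r ∈ S → ∃ g ∈ G, g * r * g⁻¹ = r := fun r _ => ⟨1, G.one_mem, by simp⟩
    obtain ⟨r, -, huniq⟩ := hrep s (hSV s hs)
    have hstE : s = t := (huniq s ⟨hs, hself s hs⟩).trans (huniq t ⟨ht, g, hg, hgst⟩).symm
    subst hstE
    have hgC : g ∈ C s := by
      refine ⟨hg, Subgroup.mem_centralizer_iff.2 fun z hz => ?_⟩
      rw [Set.mem_singleton_iff.1 hz]
      exact (mul_inv_eq_iff_eq_mul.1 hgst).symm
    have hga : g * (a : X) * g⁻¹ = b := by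
      refine hinj _ (G.mul_mem (G.mul_mem hg a.2.1) (G.inv_mem hg)) _ b.2.1 ?_
      have hw : g * (a : X) * g⁻¹ * (b : X)⁻¹ = u⁻¹ * ((b : X) * u * (b : X)⁻¹) := by
        rw [← hab']; group
      rw [hw]
      exact V.mul_mem (V.inv_mem hu) ((inferInstance : V.Normal).conj_mem u hu _)
    have hE : ConjClasses.mk a = ConjClasses.mk b :=
      ConjClasses.mk_eq_mk_iff_isConj.2 (isConj_iff.2 ⟨⟨g, hgC⟩, Subtype.ext hga⟩)
    rw [hE]
  rw [← Nat.card_eq_of_bijective Φ ⟨hinjΦ, hsurj⟩, Nat.card_sigma]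
  exact Finset.sum_coe_sort S fun s => Nat.card (ConjClasses ↥(C s))

end Cfsg.Agent.S4956
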