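import Cfsg.Statements.S4958
import Cfsg.Agent.H45.Galois
import Cfsg.Agent.H45.NormalSylow
import Cfsg.Agent.H45.AbelianForm

set_option autoImplicit false
open Cfsg

namespace Cfsg.Agent.S4958

/-- Let X be a finite group and V a normal subgroup of X in which every element has order dividing the prime p, whose index in X is prime to p and which is its own centralizer in X; so V is an elementary abelian normal Sylow p-subgroup, and any complement G to V in X is a group of order prime to p acting faithfully on the vector space V by conjugation (the coprime linear setting of the k(GV) problem). Let G be a complement to V in X and suppose that for some v in V the centralizer of v in G is abelian. Then the number of conjugacy classes of X is at most the order of V (the abelian-stabilizer criterion for the k(GV) problem). -/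
theorem result {X : Type*} [Group X] [Finite X] (p : ℕ) [Fact p.Prime] (V : Subgroup X) [V.Normal] (hVexp : ∀ v ∈ V, v ^ p = 1) (hidx : ¬ p ∣ V.index) (hself : Subgroup.centralizer (V : Set X) = V) (G : Subgroup X) (hGV : Subgroup.IsComplement' V G) (v : X) (hv : v ∈ V) (hab : ∀ a ∈ G ⊓ Subgroup.centralizer ({v} : Set X), ∀ b ∈ G ⊓ Subgroup.centralizer ({v} : Set X), a * b = b * a) : Nat.card (ConjClasses X) ≤ Nat.card V := by
  classical
  have hcomm : ∀ a ∈ V, ∀ b ∈ V, a * b = b * a := by
    intro a ha b hb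
    have hb' : b ∈ Subgroup.centralizer (V : Set X) := by rw [hself]; exact hb
    exact Subgroup.mem_centralizer_iff.1 hb' a ha
  have hVp : IsPGroup p V := fun u => ⟨1, Subtype.ext (by simpa using hVexp u u.2)⟩
  let H : Subgroup X := G ⊓ Subgroup.centralizer ({v} : Set X)
  letI : CommGroup H :=
    { (inferInstance : Group H) with
      mul_comm := fun a b => Subtype.ext (hab a a.2 b b.2) }
  letI : CommGroup V :=
    { (inferInstance : Group V) with
      mul_comm := fun a b => Subtype.ext (hcomm a a.2 b b.2) }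
  have hGV' : G ⊓ V = ⊥ := hGV.disjoint.symm.eq_bot
  have hHdvd : Nat.card H ∣ V.index := by
    rw [hGV.symm.index_eq_card]
    exact Subgroup.card_dvd_of_le inf_le_left
  have hpH : ¬ p ∣ Nat.card H := fun h => hidx (h.trans hHdvd)
  let φ : H →* MulAut V := (MulAut.conjNormal (H := V)).comp H.subtype
  have hφ : Function.Injective φ := by
    rw [injective_iff_map_eq_one]
    intro h hh
    have hc : (h : X) ∈ Subgroup.centralizer (V : Set X) := by
      refine Subgroup.mem_centralizer_iff.2 fun u hu => ?_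
      have := congrArg Subtype.val (DFunLike.congr_fun hh ⟨u, hu⟩)
      simp only [φ, MonoidHom.comp_apply, MulAut.conjNormal_apply, MulAut.one_apply] at this
      exact (mul_inv_eq_iff_eq_mul.1 this).symm
    rw [hself] at hc
    have h0 : (h : X) ∈ G ⊓ V := ⟨h.2.1, hc⟩
    rw [hGV', Subgroup.mem_bot] at h0
    exact Subtype.ext h0
  have hform := H45.formBound_faithful p hpH hVp φ hφ
  have := Fintype.ofFinite H
  -- the family of columns at `v * h`
  have hvh : ∀ h : H, Commute v (h : X) := fun h =>
    Subgroup.mem_centralizer_iff.1 h.2.2 v rfl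
  have hint : ∀ χ : Cfsg.IrrCharacter X, H45.IntFourier fun h : H => χ.1 (v * h) := by
    intro χ μ
    obtain ⟨d, ρ, -, hρ⟩ := χ.2
    letI : CommGroup (Subgroup.zpowers v × H) :=
      { (inferInstance : Group (Subgroup.zpowers v × H)) with
        mul_comm := fun a b => Prod.ext (mul_comm' a.1 b.1) (mul_comm a.2 b.2) }
    let ψ : Subgroup.zpowers v × H →* X :=
      MonoidHom.noncommCoprod (Subgroup.zpowers v).subtype H.subtype fun a h => by
        obtain ⟨i, hi⟩ := Subgroup.mem_zpowers_iff.1 a.2
        show Commute (a : X) (h : X)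
        rw [← hi]
        exact (hvh h).zpow_left i
    obtain ⟨m, hm⟩ := H27.character_eq_sum_linear
      (C := Subgroup.zpowers v × H) (ρ.comp ψ : Representation ℂ _ _)
    let z : Subgroup.zpowers v := ⟨v, Subgroup.mem_zpowers v⟩
    have hval : ∀ h : H, χ.1 (v * h) = ∑ ν : Subgroup.zpowers v × H →* ℂˣ,
        ((m ν : ℂ) * ((ν (z, 1) : ℂˣ) : ℂ))
          * ((ν.comp (MonoidHom.inr _ H) h : ℂˣ) : ℂ) := by
      intro h
      rw [← hρ]
      show Representation.character (ρ.comp ψ : Representation ℂ _ _) (z, h) = _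
      rw [hm]
      refine Finset.sum_congr rfl fun ν _ => ?_
      rw [mul_assoc, MonoidHom.comp_apply, MonoidHom.inr_apply, ← Units.val_mul, ← map_mul,
        Prod.mk_mul_mk, mul_one, one_mul]
    simp only [finsum_eq_sum_of_fintype, hval, Finset.sum_mul, Finset.mul_sum]
    rw [Finset.sum_comm]
    refine IsIntegral.sum _ fun ν _ => ?_
    have horth : ∑ x : H, (Nat.card H : ℂ)⁻¹ *
        ((m ν : ℂ) * ((ν (z, 1) : ℂˣ) : ℂ) * ((ν.comp (MonoidHom.inr _ H) x : ℂˣ) : ℂ)
          * ((μ x⁻¹ : ℂˣ) : ℂ))
        = (m ν : ℂ) * ((ν (z, 1) : ℂˣ) : ℂ)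
          * (if ν.comp (MonoidHom.inr _ H) = μ then 1 else 0) := by
      have e : ∀ x : H, ((ν.comp (MonoidHom.inr _ H) x : ℂˣ) : ℂ) * ((μ x⁻¹ : ℂˣ) : ℂ)
          = (((ν.comp (MonoidHom.inr _ H)) * μ⁻¹) x : ℂˣ) := fun x => by
        rw [MonoidHom.mul_apply, MonoidHom.inv_apply, Units.val_mul, map_inv]
      simp only [mul_assoc, e, ← Finset.mul_sum]
      split_ifs with h
      · rw [h]
        have hone : ∀ x : H, (μ * μ⁻¹) x = 1 := fun x => by
          rw [MonoidHom.mul_apply, MonoidHom.inv_apply, mul_inv_cancel]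
        simp only [hone, Units.val_one, Finset.sum_const,
          Finset.card_univ, nsmul_eq_mul, mul_one, ← Nat.card_eq_fintype_card]
        field_simp
      · rw [H27.sum_apply_linear (fun hc => h (mul_inv_eq_one.1 hc))]
        simp
    rw [horth]
    refine IsIntegral.mul (IsIntegral.mul (isIntegral_algebraMap (x := (m ν : ℤ))) ?_) ?_
    · refine IsIntegral.of_pow (n := Nat.card (Subgroup.zpowers v × H)) Nat.card_pos ?_
      rw [← Units.val_pow_eq_pow_val, ← map_pow, pow_card_eq_one', map_one, Units.val_one]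
      exact isIntegral_one
    · split_ifs
      · exact isIntegral_one
      · exact isIntegral_zero
  have hgal : ∀ σ : ℂ ≃+* ℂ, ∃ π : Equiv.Perm (Cfsg.IrrCharacter X),
      ∀ (χ : Cfsg.IrrCharacter X) (h : H), σ (χ.1 (v * h)) = (π χ).1 (v * h) := by
    intro σ
    obtain ⟨k, hk, hσ⟩ := H45.exists_pow_of_ringAut σ (Nat.card_pos (α := X)).ne'
    exact ⟨Equiv.ofBijective _ (Finite.injective_iff_bijective.1 (H45.galIrr_injective hk)),
      fun χ h => H45.ringAut_char (H26.irr_isCharacter χ) σ hσ _⟩
  have hne : ∀ χ : Cfsg.IrrCharacter X, χ.1 (v * ((1 : H) : X)) ≠ 0 := fun χ => by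
    rw [OneMemClass.coe_one, mul_one]
    exact H45.irr_ne_zero_of_abelian_normal_sylow p V hVp hidx hcomm χ hv
  have hlow := hform (Cfsg.IrrCharacter X) (fun χ h => χ.1 (v * h)) hint hne hgal
  simp only [finsum_eq_sum_of_fintype] at hlow
  -- the centralisers of `v * h`
  obtain ⟨j, hj1, hj0⟩ := Nat.chineseRemainder
    (show (Nat.card V).Coprime (Nat.card H) from by
      obtain ⟨e, he⟩ := IsPGroup.iff_card.1 hVp
      rw [he]
      exact ((Fact.out : p.Prime).coprime_iff_not_dvd.2 hpH).pow_left e) 1 0
  have hcent : ∀ h : H, Nat.card (Subgroup.centralizer ({v * (h : X)} : Set X))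
      ≤ Nat.card {u : V // φ h u = u} * Nat.card H := by
    intro h
    have hpart : (v * (h : X)) ^ j = v := by
      rw [(hvh h).mul_pow]
      have e1 : v ^ j = v ^ 1 := pow_eq_pow_iff_modEq.2
        (hj1.of_dvd (Subgroup.orderOf_dvd_natCard V hv))
      have e2 : (h : X) ^ j = (h : X) ^ 0 := pow_eq_pow_iff_modEq.2
        (hj0.of_dvd (Subgroup.orderOf_dvd_natCard H h.2))
      rw [e1, e2, pow_one, pow_zero, mul_one]
    have key : ∀ x : Subgroup.centralizer ({v * (h : X)} : Set X),
        ∃ q : {u : V // φ h u = u} × H, (q.1.1 : X) * (q.2 : X) = x := by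
      rintro ⟨x, hx⟩
      have hxc : Commute x (v * (h : X)) :=
        (Subgroup.mem_centralizer_iff.1 hx _ rfl).symm
      have hxv : Commute x v := hpart ▸ hxc.pow_right j
      have hxh : Commute x (h : X) := by
        have := hxv.inv_right.mul_right hxc
        rwa [inv_mul_cancel_left] at this
      obtain ⟨⟨⟨u, hu⟩, ⟨g, hg⟩⟩, hug⟩ := hGV.2 x
      simp only at hug
      have huv : Commute u v := hcomm u hu v hv
      have hgv : Commute g v := by
        rw [show g = u⁻¹ * x by rw [← hug, inv_mul_cancel_left]]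
        exact huv.inv_left.mul_left hxv
      have hgH : g ∈ H := ⟨hg, Subgroup.mem_centralizer_iff.2 fun z hz => by
        rw [Set.mem_singleton_iff.1 hz]; exact hgv.eq.symm⟩
      have hgh : Commute g (h : X) := hab g hgH h h.2
      have huh : Commute u (h : X) := by
        rw [show u = x * g⁻¹ by rw [← hug, mul_inv_cancel_right]]
        exact hxh.mul_left hgh.inv_left
      refine ⟨(⟨⟨u, hu⟩, Subtype.ext ?_⟩, ⟨g, hgH⟩), hug⟩
      simp only [φ, MonoidHom.comp_apply, MulAut.conjNormal_apply, Subgroup.coe_subtype]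
      rw [← huh.eq, mul_inv_cancel_right]
    choose q hq using key
    rw [← Nat.card_prod]
    exact Nat.card_le_card_of_injective q fun a b hab' =>
      Subtype.ext (by rw [← hq a, ← hq b, hab'])
  have hH0 : (0 : ℝ) < Nat.card H := Nat.cast_pos.2 Nat.card_pos
  have hV0 : (0 : ℝ) < Nat.card V := Nat.cast_pos.2 Nat.card_pos
  have hup : ∑ χ : Cfsg.IrrCharacter X, ∑ h : H,
      (Nat.card {u : V // φ h u = u} : ℝ)⁻¹ * ‖χ.1 (v * h)‖ ^ 2
      ≤ (Nat.card H : ℝ) ^ 2 := by
    rw [Finset.sum_comm]
    simp only [← Finset.mul_sum, H45.sum_irr_norm_sq]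
    calc ∑ h : H, (Nat.card {u : V // φ h u = u} : ℝ)⁻¹
          * (Nat.card (Subgroup.centralizer ({v * (h : X)} : Set X)) : ℝ)
        ≤ ∑ _h : H, (Nat.card H : ℝ) := by
          refine Finset.sum_le_sum fun h _ => ?_
          haveI : Nonempty {u : V // φ h u = u} := ⟨⟨1, map_one _⟩⟩
          rw [inv_mul_le_iff₀ (Nat.cast_pos.2 Nat.card_pos)]
          exact_mod_cast hcent h
      _ = _ := by
          rw [Finset.sum_const, Finset.card_univ, nsmul_eq_mul, ← Nat.card_eq_fintype_card, sq]
  have h3 := hlow.trans hup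
  rw [← Nat.card_eq_fintype_card, div_mul_eq_mul_div, div_le_iff₀ hV0] at h3
  have h4 : (Nat.card (Cfsg.IrrCharacter X) : ℝ) ≤ Nat.card V :=
    le_of_mul_le_mul_left h3 (pow_pos hH0 2)
  rw [← H26.card_irr_eq_card_conjClasses]
  exact_mod_cast h4

end Cfsg.Agent.S4958
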