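import Cfsg.Statements.S4964
import Cfsg.Agent.H28.DerivedQuotientBlock

set_option autoImplicit false
open Cfsg

namespace Cfsg.Agent.S4964

/-- Let D be a normal p-subgroup of the finite group G, let D′ be its commutator subgroup (normal in G), and fix a maximal ideal M of the algebraic integers containing p. Then (i) two irreducible characters of G ⧸ D′ lie in the same p-block if and only if their inflations to G do, and (ii) every p-block of G contains the inflation of some irreducible character of G ⧸ D′; so inflation induces a bijection between the p-blocks of G ⧸ D′ and the p-blocks of G. -/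
theorem result {G : Type*} [Group G] [Finite G] (p : ℕ) [Fact p.Prime] (M : Ideal Cfsg.AlgInt) (hM : Cfsg.IsPModular p M) (D : Subgroup G) [D.Normal] (hD : IsPGroup p D) : (∀ χ ψ : Cfsg.IrrCharacter (G ⧸ ⁅D, D⁆), Cfsg.SameBlock M (χ : G ⧸ ⁅D, D⁆ → ℂ) (ψ : G ⧸ ⁅D, D⁆ → ℂ) ↔ Cfsg.SameBlock M ((χ : G ⧸ ⁅D, D⁆ → ℂ) ∘ QuotientGroup.mk) ((ψ : G ⧸ ⁅D, D⁆ → ℂ) ∘ QuotientGroup.mk)) ∧ ∀ B : Set (Cfsg.IrrCharacter G), Cfsg.IsPBlock M B → ∃ χ : Cfsg.IrrCharacter (G ⧸ ⁅D, D⁆), ∃ θ ∈ B, (θ : G → ℂ) = (χ : G ⧸ ⁅D, D⁆ → ℂ) ∘ QuotientGroup.mk := by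
  have e : ∀ χ : Cfsg.IrrCharacter (G ⧸ ⁅D, D⁆),
      (H44.inflate ⁅D, D⁆ χ : G → ℂ) = (χ : G ⧸ ⁅D, D⁆ → ℂ) ∘ QuotientGroup.mk :=
    fun χ => funext fun g => H44.inflate_apply ⁅D, D⁆ χ g
  refine ⟨fun χ ψ => ?_, fun B hB => ?_⟩
  · rw [← e, ← e]
    exact H28.DerivedQuotientBlock.sameBlock_inflate_iff hM hD χ ψ
  · obtain ⟨χ, hχ⟩ := H28.DerivedQuotientBlock.exists_inflate_mem hM hD hB
    exact ⟨χ, _, hχ, e χ⟩

end Cfsg.Agent.S4964
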