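import Cfsg.Statements.S4965
import Mathlib

set_option autoImplicit false
open Cfsg

namespace Cfsg.Agent.S4965

/-- A commuting pair `(a * x₀, b * y₀)` over a commuting pair `(x₀, y₀)` gives the relation of the
split extension. -/
theorem split_relation {X : Type*} [Group X] (x₀ y₀ a b : X) (h₀ : x₀ * y₀ = y₀ * x₀)
    (h : a * x₀ * (b * y₀) = b * y₀ * (a * x₀)) :
    a * (x₀ * b * x₀⁻¹) = b * (y₀ * a * y₀⁻¹) :=
  calc a * (x₀ * b * x₀⁻¹) = a * x₀ * (b * y₀) * (x₀ * y₀)⁻¹ := by group
    _ = b * y₀ * (a * x₀) * (y₀ * x₀)⁻¹ := by rw [h, h₀]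
    _ = b * (y₀ * a * y₀⁻¹) := by group

/-- Let X be a finite group with an abelian normal subgroup V (any two elements of V commute), and let φ be the action of X ⧸ V on V induced by conjugation (well defined because V is abelian; the hypothesis hφ says that the class of x acts as conjugation by x). Then X has at most as many conjugacy classes as the semidirect product of V by X ⧸ V formed with this action: the split extension has the largest class number among extensions with the given action. -/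
theorem result {X : Type*} [Group X] [Finite X] (V : Subgroup X) [V.Normal] (hab : ∀ a ∈ V, ∀ b ∈ V, a * b = b * a) (φ : X ⧸ V →* MulAut ↥V) (hφ : ∀ (x : X) (v : ↥V), ((φ (QuotientGroup.mk x) v : ↥V) : X) = x * v * x⁻¹) : Nat.card (ConjClasses X) ≤ Nat.card (ConjClasses (SemidirectProduct ↥V (X ⧸ V) φ)) := by
  classical
  let P : (X ⧸ V) × (X ⧸ V) → X × X → Prop := fun q xy =>
    (xy.1 : X ⧸ V) = q.1 ∧ (xy.2 : X ⧸ V) = q.2 ∧ Commute xy.1 xy.2
  let sel : (X ⧸ V) × (X ⧸ V) → X × X := fun q =>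
    if h : ∃ xy, P q xy then h.choose else (1, 1)
  have hsel : ∀ x y : X, Commute x y →
      P ((x : X ⧸ V), (y : X ⧸ V)) (sel ((x : X ⧸ V), (y : X ⧸ V))) := by
    intro x y hxy
    have h : ∃ xy, P ((x : X ⧸ V), (y : X ⧸ V)) xy := ⟨(x, y), rfl, rfl, hxy⟩
    simp only [sel, dif_pos h]
    exact h.choose_spec
  have hmem : ∀ x y : X, (x : X ⧸ V) = (y : X ⧸ V) → x * y⁻¹ ∈ V := by
    intro x y h
    rw [← QuotientGroup.eq_one_iff, QuotientGroup.mk_mul, QuotientGroup.mk_inv, h, mul_inv_cancel]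
  let F : {p : X × X // Commute p.1 p.2} →
      {p : SemidirectProduct ↥V (X ⧸ V) φ × SemidirectProduct ↥V (X ⧸ V) φ // Commute p.1 p.2} :=
    fun p =>
      ⟨(⟨⟨p.1.1 * (sel ((p.1.1 : X ⧸ V), (p.1.2 : X ⧸ V))).1⁻¹,
            hmem _ _ (hsel _ _ p.2).1.symm⟩, (p.1.1 : X ⧸ V)⟩,
          ⟨⟨p.1.2 * (sel ((p.1.1 : X ⧸ V), (p.1.2 : X ⧸ V))).2⁻¹,
            hmem _ _ (hsel _ _ p.2).2.1.symm⟩, (p.1.2 : X ⧸ V)⟩), by
        obtain ⟨h1, h2, h3⟩ := hsel _ _ p.2
        have hxy : p.1.1 * p.1.2 = p.1.2 * p.1.1 := p.2.eq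
        generalize hz : sel ((p.1.1 : X ⧸ V), (p.1.2 : X ⧸ V)) = z at h1 h2 h3
        refine SemidirectProduct.ext (Subtype.ext ?_) ?_
        · rw [SemidirectProduct.mul_left, SemidirectProduct.mul_left, Subgroup.coe_mul,
            Subgroup.coe_mul]
          dsimp only
          simp only at h1 h2
          rw [← congrArg (φ ·) h1, ← congrArg (φ ·) h2, hφ, hφ]
          exact split_relation z.1 z.2 _ _ h3.eq (by
            simp only [inv_mul_cancel_right]; exact hxy)
        · rw [SemidirectProduct.mul_right, SemidirectProduct.mul_right]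
          dsimp only
          rw [← QuotientGroup.mk_mul, ← QuotientGroup.mk_mul, hxy]⟩
  have hF : Function.Injective F := by
    rintro ⟨⟨x, y⟩, hxy⟩ ⟨⟨x', y'⟩, hxy'⟩ h
    have h0 := congrArg Subtype.val h
    simp only [F, Prod.mk.injEq] at h0
    obtain ⟨h1, h2⟩ := h0
    have hx : (x : X ⧸ V) = (x' : X ⧸ V) := congrArg SemidirectProduct.right h1
    have hy : (y : X ⧸ V) = (y' : X ⧸ V) := congrArg SemidirectProduct.right h2
    have ha := congrArg (fun s => ((SemidirectProduct.left s : ↥V) : X)) h1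
    have hb := congrArg (fun s => ((SemidirectProduct.left s : ↥V) : X)) h2
    simp only [hx, hy] at ha hb
    exact Subtype.ext (Prod.ext (mul_right_cancel ha) (mul_right_cancel hb))
  haveI : Finite (SemidirectProduct ↥V (X ⧸ V) φ) :=
    Finite.of_equiv _ (SemidirectProduct.equivProd (φ := φ)).symm
  have hle := Nat.card_le_card_of_injective F hF
  rw [card_comm_eq_card_conjClasses_mul_card, card_comm_eq_card_conjClasses_mul_card,
    SemidirectProduct.card, mul_comm (Nat.card ↥V), ← Subgroup.card_eq_card_quotient_mul_card_subgroup] at hle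
  exact Nat.le_of_mul_le_mul_right hle Nat.card_pos

end Cfsg.Agent.S4965
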