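import Cfsg.Statements.S4967
import Mathlib.RingTheory.Trace.Basic
import Mathlib.FieldTheory.Finite.GaloisField
-- import your own Cfsg.Agent.* helpers here

set_option autoImplicit false
open Cfsg

namespace Cfsg.Agent.S4967

/-- Let F be a finite field with r elements and of characteristic p, H a finite abelian group of order prime to p, and V a faithful irreducible representation of H over F of dimension n (faithful: distinct elements act differently; irreducible: the only H-invariant subspaces are 0 and V). Call V self-dual when it carries a nondegenerate H-invariant bilinear form. If n = 1 and V is self-dual then H has order at most 2. If n ≥ 2 then V is self-dual if and only if n is even and the order of H divides r^(n/2) + 1. -/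
theorem result {F : Type*} [Field F] [Fintype F] (p : ℕ) [Fact p.Prime] [CharP F p] {H : Type*} [CommGroup H] [Finite H] (hcop : ¬ p ∣ Nat.card H) {V : Type*} [AddCommGroup V] [Module F V] [FiniteDimensional F V] (ρ : Representation F H V) (hfaith : Function.Injective ρ) (hirr : ∀ U : Submodule F V, (∀ h : H, ∀ u ∈ U, ρ h u ∈ U) → U = ⊥ ∨ U = ⊤) : (Module.finrank F V = 1 → (∃ B : LinearMap.BilinForm F V, B.Nondegenerate ∧ ∀ h : H, ∀ x y : V, B (ρ h x) (ρ h y) = B x y) → Nat.card H ≤ 2) ∧ (2 ≤ Module.finrank F V → ((∃ B : LinearMap.BilinForm F V, B.Nondegenerate ∧ ∀ h : H, ∀ x y : V, B (ρ h x) (ρ h y) = B x y) ↔ (Even (Module.finrank F V) ∧ Nat.card H ∣ Fintype.card F ^ (Module.finrank F V / 2) + 1))) := by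
  classical
  rcases subsingleton_or_nontrivial V with hV | hV
  · have : Module.finrank F V = 0 := Module.finrank_zero_of_subsingleton
    omega
  set K : Subalgebra F (Module.End F V) := Algebra.adjoin F (Set.range ρ) with hK
  have hρcomm : ∀ a b : H, ρ a * ρ b = ρ b * ρ a := fun a b => by
    rw [← map_mul, ← map_mul, mul_comm]
  have hKρ : ∀ a ∈ K, ∀ h : H, a * ρ h = ρ h * a := by
    intro a ha h
    induction ha using Algebra.adjoin_induction with
    | mem x hx => obtain ⟨g, rfl⟩ := hx; exact hρcomm g h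
    | algebraMap c => exact Algebra.commutes c (ρ h)
    | add x y _ _ hx hy => rw [add_mul, mul_add, hx, hy]
    | mul x y _ _ hx hy => rw [mul_assoc, hy, ← mul_assoc, hx, mul_assoc]
  have hKcomm : ∀ a ∈ K, ∀ b ∈ K, a * b = b * a := by
    intro a ha b hb
    induction hb using Algebra.adjoin_induction with
    | mem x hx => obtain ⟨g, rfl⟩ := hx; exact hKρ a ha g
    | algebraMap c => exact (Algebra.commutes c a).symm
    | add x y _ _ hx hy => rw [add_mul, mul_add, hx, hy]
    | mul x y _ _ hx hy => rw [← mul_assoc, hx, mul_assoc, hy, mul_assoc]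
  letI : CommRing ↥K :=
    { (inferInstance : Ring ↥K) with
      mul_comm := fun a b => Subtype.ext (hKcomm a a.2 b b.2) }
  -- a nonzero element is injective
  have hinj : ∀ a : ↥K, a ≠ 0 → ∀ x : V, (a : Module.End F V) x = 0 → x = 0 := by
    intro a ha x hx
    rcases hirr (LinearMap.ker (a : Module.End F V)) (fun h u hu => by
      rw [LinearMap.mem_ker] at hu ⊢
      have h2 := LinearMap.congr_fun (hKρ a a.2 h) u
      simp only [Module.End.mul_apply] at h2
      rw [h2, hu, map_zero]) with h | h
    · exact (Submodule.mem_bot F).1 (h ▸ LinearMap.mem_ker.2 hx)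
    · exact absurd (Subtype.ext (LinearMap.ker_eq_top.1 h)) ha
  have : Nontrivial ↥K := ⟨⟨1, 0, fun h => one_ne_zero (congrArg Subtype.val h :
    (1 : Module.End F V) = 0)⟩⟩
  have : NoZeroDivisors ↥K := by
    refine ⟨fun {a b} hab => or_iff_not_imp_left.2 fun ha => Subtype.ext (LinearMap.ext fun x => ?_)⟩
    exact hinj a ha _ (by
      have := congrArg (fun c : ↥K => (c : Module.End F V) x) hab
      simpa using this)
  have : IsDomain ↥K := NoZeroDivisors.to_isDomain _
  have : Finite V := Module.finite_of_finite F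
  have : Finite (Module.End F V) := Finite.of_injective (fun f => (f : V → V)) DFunLike.coe_injective
  letI : Field ↥K := (Finite.isField_of_domain ↥K).toField
  obtain ⟨v, hv⟩ := exists_ne (0 : V)
  let ev : ↥K →ₗ[F] V :=
    { toFun := fun a => (a : Module.End F V) v
      map_add' := fun a b => rfl
      map_smul' := fun c a => rfl }
  have hev : Function.Bijective ev := by
    refine ⟨(injective_iff_map_eq_zero ev).2 fun a ha => by_contra fun h => hv (hinj a h v ha), ?_⟩
    rw [← LinearMap.range_eq_top]
    refine (hirr _ fun h u hu => ?_).resolve_left fun h => hv ?_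
    · obtain ⟨a, rfl⟩ := hu
      exact ⟨⟨ρ h, Algebra.subset_adjoin ⟨h, rfl⟩⟩ * a, rfl⟩
    · exact (Submodule.mem_bot F).1 (h ▸ ⟨1, rfl⟩)
  let e : ↥K ≃ₗ[F] V := LinearEquiv.ofBijective ev hev
  have hn : Module.finrank F ↥K = Module.finrank F V := e.finrank_eq
  let T : H →* ↥K :=
    { toFun := fun h => ⟨ρ h, Algebra.subset_adjoin ⟨h, rfl⟩⟩
      map_one' := Subtype.ext (map_one ρ)
      map_mul' := fun a b => Subtype.ext (map_mul ρ a b) }
  have hT : Function.Injective T := fun a b h => hfaith (congrArg Subtype.val h)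
  have hcyc : IsCyclic H := isCyclic_of_injective_ringHom T hT
  -- two algebra maps agreeing on the image of `H` agree
  have hext : ∀ f g : ↥K →ₐ[F] ↥K, (∀ h, f (T h) = g (T h)) → f = g := by
    intro f g h
    apply AlgHom.ext
    rintro ⟨a, ha⟩
    induction ha using Algebra.adjoin_induction with
    | mem x hx => obtain ⟨g', rfl⟩ := hx; exact h g'
    | algebraMap c => exact (f.commutes c).trans (g.commutes c).symm
    | add x y hx hy ihx ihy =>
      rw [show (⟨x + y, _⟩ : ↥K) = ⟨x, hx⟩ + ⟨y, hy⟩ from rfl, map_add, map_add, ihx, ihy]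
    | mul x y hx hy ihx ihy =>
      rw [show (⟨x * y, _⟩ : ↥K) = ⟨x, hx⟩ * ⟨y, hy⟩ from rfl, map_mul, map_mul, ihx, ihy]
  set q := Fintype.card F
  set Φ := FiniteField.frobeniusAlgHom F ↥K with hΦdef
  have hΦ : ∀ (i : ℕ) (x : ↥K), (Φ ^ i) x = x ^ q ^ i := by
    intro i x
    rw [AlgHom.coe_pow, FiniteField.coe_frobeniusAlgHom, pow_iterate]
  have main : (∃ B : LinearMap.BilinForm F V, B.Nondegenerate ∧
      ∀ h : H, ∀ x y : V, B (ρ h x) (ρ h y) = B x y) →
      ∃ i < Module.finrank F V, Nat.card H ∣ q ^ i + 1 := by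
    rintro ⟨B, hB, hBi⟩
    have huniq : ∀ b b' : ↥K, (∀ x y, B x ((b : Module.End F V) y) = B x ((b' : Module.End F V) y)) →
        b = b' := by
      intro b b' h
      refine Subtype.ext (LinearMap.ext fun y => sub_eq_zero.1 (hB.2 _ fun x => ?_))
      rw [map_sub, h, sub_self]
    have hex : ∀ a : ↥K, ∃ b : ↥K, ∀ x y,
        B ((a : Module.End F V) x) y = B x ((b : Module.End F V) y) := by
      rintro ⟨a, ha⟩
      induction ha using Algebra.adjoin_induction with
      | mem x hx =>
        obtain ⟨g, rfl⟩ := hx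
        refine ⟨T g⁻¹, fun x y => ?_⟩
        conv_lhs => rw [show y = ρ g (ρ g⁻¹ y) by
          rw [← Module.End.mul_apply, ← map_mul, mul_inv_cancel, map_one, Module.End.one_apply]]
        exact hBi g x (ρ g⁻¹ y)
      | algebraMap c =>
        exact ⟨algebraMap F ↥K c, fun x y => by simp [Module.algebraMap_end_apply]⟩
      | add x y _ _ hx hy =>
        obtain ⟨b, hb⟩ := hx
        obtain ⟨b', hb'⟩ := hy
        exact ⟨b + b', fun u w => by simp [hb, hb']⟩
      | mul x y _ _ hx hy =>
        obtain ⟨b, hb⟩ := hx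
        obtain ⟨b', hb'⟩ := hy
        exact ⟨b' * b, fun u w => by simp [hb, hb']⟩
    choose σ hσ using hex
    let f : ↥K →ₐ[F] ↥K :=
      { toFun := σ
        map_one' := huniq _ _ fun x y => by rw [← hσ]; rfl
        map_mul' := fun a b => huniq _ _ fun x y => by
          rw [← hσ, mul_comm (σ a)]
          simp [hσ]
        map_zero' := huniq _ _ fun x y => by rw [← hσ]; simp
        map_add' := fun a b => huniq _ _ fun x y => by rw [← hσ]; simp [hσ]
        commutes' := fun c => huniq _ _ fun x y => by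
          rw [← hσ]
          simp [Module.algebraMap_end_apply] }
    obtain ⟨i, hi⟩ := (FiniteField.bijective_frobeniusAlgHom_pow F ↥K).2 f
    refine ⟨i, hn ▸ i.2, ?_⟩
    rw [← IsCyclic.exponent_eq_card]
    refine Monoid.exponent_dvd_of_forall_pow_eq_one fun h => hT ?_
    have h1 : T h⁻¹ = T h ^ q ^ (i : ℕ) := by
      rw [← hΦ, show (Φ ^ (i : ℕ)) = f from hi]
      refine huniq _ _ fun x y => ?_
      show _ = B x ((σ (T h) : Module.End F V) y)
      rw [← hσ]
      show B x (ρ h⁻¹ y) = B (ρ h x) y
      conv_rhs => rw [show y = ρ h (ρ h⁻¹ y) by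
        rw [← Module.End.mul_apply, ← map_mul, mul_inv_cancel, map_one, Module.End.one_apply]]
      exact (hBi h x (ρ h⁻¹ y)).symm
    rw [map_pow, pow_succ, ← h1, ← map_mul, inv_mul_cancel]
  have hsmall : Nat.card H ∣ 2 → Module.finrank F V = 1 := by
    intro h2
    have hbot : ∀ a ∈ K, a ∈ (⊥ : Subalgebra F (Module.End F V)) := by
      intro a ha
      refine Algebra.adjoin_le ?_ ha
      rintro _ ⟨g, rfl⟩
      have hg : T g * T g = 1 * 1 := by
        rw [← map_mul, one_mul, ← pow_two]
        obtain ⟨c, hc⟩ := (orderOf_dvd_natCard g).trans h2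
        rw [hc, pow_mul, pow_orderOf_eq_one, one_pow, map_one]
      rcases mul_self_eq_mul_self_iff.1 hg with h | h
      · rw [show ρ g = ((1 : ↥K) : Module.End F V) from congrArg Subtype.val h]
        exact one_mem _
      · rw [show ρ g = ((-1 : ↥K) : Module.End F V) from congrArg Subtype.val h]
        exact neg_mem (one_mem _)
    rw [← hn, show K = ⊥ from le_bot_iff.1 hbot, Subalgebra.finrank_bot]
  refine ⟨fun hn1 hex => ?_, fun hn2 => ⟨fun hex => ?_, ?_⟩⟩
  · obtain ⟨i, hi, hd⟩ := main hex
    obtain rfl : i = 0 := by omega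
    exact Nat.le_of_dvd two_pos (by simpa using hd)
  · obtain ⟨i, hi, hd⟩ := main hex
    have hi0 : i ≠ 0 := fun h => by
      have := hsmall (by simpa [h] using hd)
      omega
    have h2i : Φ ^ (2 * i) = 1 := hext _ _ fun h => by
      obtain ⟨c, hc⟩ := hd
      have h1 : T h * T h ^ q ^ i = 1 := by
        rw [← pow_succ', hc, pow_mul, ← map_pow, pow_card_eq_one', map_one, one_pow]
      have h2 : T h ^ q ^ i = (T h)⁻¹ := eq_inv_of_mul_eq_one_right h1
      rw [hΦ, AlgHom.one_apply, two_mul, pow_add, pow_mul, h2, inv_pow, h2, inv_inv]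
    have hdvd := orderOf_dvd_of_pow_eq_one h2i
    rw [hΦdef, FiniteField.orderOf_frobeniusAlgHom, hn] at hdvd
    obtain ⟨c, hc⟩ := hdvd
    have hc1 : c = 1 := by
      have h1 : c < 2 := Nat.lt_of_mul_lt_mul_left (a := Module.finrank F V) (by omega)
      rcases Nat.eq_zero_or_pos c with rfl | h
      · omega
      · omega
    subst hc1
    refine ⟨⟨i, by omega⟩, ?_⟩
    rwa [show Module.finrank F V / 2 = i by omega]
  · rintro ⟨-, hd⟩
    set σ := Φ ^ (Module.finrank F V / 2)
    have hσT : ∀ h, T h * σ (T h) = 1 := by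
      intro h
      obtain ⟨c, hc⟩ := hd
      rw [hΦ, ← pow_succ', hc, pow_mul, ← map_pow, pow_card_eq_one', map_one, one_pow]
    refine ⟨(Algebra.traceForm F ↥K).compl₁₂ e.symm.toLinearMap
      (σ.toLinearMap ∘ₗ e.symm.toLinearMap), ⟨fun x hx => ?_, fun y hy => ?_⟩, fun h x y => ?_⟩
    · refine e.symm.map_eq_zero_iff.1 ((traceForm_nondegenerate F ↥K).1 _ fun z => ?_)
      obtain ⟨w, rfl⟩ := (Finite.injective_iff_surjective.1 σ.toRingHom.injective) z
      have := hx (e w)
      simpa using this
    · refine e.symm.map_eq_zero_iff.1 ((map_eq_zero_iff σ σ.toRingHom.injective).1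
        ((traceForm_nondegenerate F ↥K).2 _ fun z => ?_))
      have := hy (e z)
      simpa using this
    · have hρ : ∀ x, e.symm (ρ h x) = T h * e.symm x := by
        intro x
        apply e.injective
        rw [e.apply_symm_apply]
        show ρ h x = ρ h (ev (e.symm x))
        rw [show ev (e.symm x) = x from e.apply_symm_apply x]
      simp only [LinearMap.compl₁₂_apply, LinearMap.comp_apply, LinearEquiv.coe_coe,
        AlgHom.toLinearMap_apply, hρ, Algebra.traceForm_apply, map_mul]
      rw [mul_mul_mul_comm, hσT, one_mul]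

end Cfsg.Agent.S4967
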