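import Cfsg.Statements.S5006
import Cfsg.Agent.H11.BlockOne
import Cfsg.Agent.H11.Constrained
import Cfsg.Agent.H11.M24Degree

set_option autoImplicit false
open Cfsg

namespace Cfsg.Agent.S5006

/-- All irreducible complex characters of the Mathieu group `M₂₄` lie in a single 2-block: any two of them lie in the same block relative to every maximal ideal of the algebraic integers containing 2. -/
theorem result (M : Ideal Cfsg.AlgInt) (hM : Cfsg.IsPModular 2 M)
    (χ ψ : Cfsg.IrrCharacter ↥Cfsg.M24) : Cfsg.SameBlock M (χ : ↥Cfsg.M24 → ℂ) (ψ : ↥Cfsg.M24 → ℂ) := by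
  have : Fact (Nat.Prime 2) := ⟨Nat.prime_two⟩
  have : M.IsMaximal := hM.2.1
  refine Cfsg.Agent.H11.sameBlock_of_constrained hM
    (fun z hz => Cfsg.Agent.H11.exists_selfCentralizing_M24 z hz) (fun φ h => ?_) χ ψ
  refine Cfsg.Agent.H11.not_two_pow_ten_dvd φ ?_
  have hne : Cfsg.charDegree (φ : ↥Cfsg.M24 → ℂ) ≠ 0 := by
    obtain ⟨d, hd, hd'⟩ := Cfsg.Agent.H26.exists_degree φ
    rw [Cfsg.Agent.H26.charDegree_eq hd']
    omega
  rw [Nat.prime_two.pow_dvd_iff_le_factorization hne]
  refine le_trans ?_ h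
  rw [← Nat.prime_two.pow_dvd_iff_le_factorization Nat.card_pos.ne', Cfsg.Agent.H11.card_M24]
  norm_num

end Cfsg.Agent.S5006
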