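import Cfsg.Statements.S5014
import Cfsg.Agent.H92.RankOne

set_option autoImplicit false
open Cfsg

namespace Cfsg.Agent.S5014

/-- Let X = ⟨A, B⟩ be a rank one group with unipotent subgroups A and B and let Ω be the set of conjugates of A under X. Then Ω has at least three members, X acts doubly transitively on Ω by conjugation (any two ordered pairs of distinct members are carried to one another by a single element of X), and A acts regularly on Ω with A removed: for C, D in Ω different from A there is exactly one element of A conjugating C to D. -/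
theorem result {G : Type*} [Group G] {A B : Subgroup G} (h : Cfsg.IsRankOnePair A B) :
    (∃ C₁ ∈ Cfsg.unipotentSubgroups A B, ∃ C₂ ∈ Cfsg.unipotentSubgroups A B, ∃ C₃ ∈ Cfsg.unipotentSubgroups A B,
      C₁ ≠ C₂ ∧ C₁ ≠ C₃ ∧ C₂ ≠ C₃) ∧
    (∀ C₁ ∈ Cfsg.unipotentSubgroups A B, ∀ C₂ ∈ Cfsg.unipotentSubgroups A B, ∀ D₁ ∈ Cfsg.unipotentSubgroups A B,
      ∀ D₂ ∈ Cfsg.unipotentSubgroups A B, C₁ ≠ C₂ → D₁ ≠ D₂ →
        ∃ x ∈ A ⊔ B, Cfsg.conjBy C₁ x = D₁ ∧ Cfsg.conjBy C₂ x = D₂) ∧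
    (∀ C ∈ Cfsg.unipotentSubgroups A B, ∀ D ∈ Cfsg.unipotentSubgroups A B, C ≠ A → D ≠ A →
      ∃! a : G, a ∈ A ∧ Cfsg.conjBy C a = D) := by
  refine ⟨?_, fun C₁ h₁ C₂ h₂ D₁ h₃ D₂ h₄ hC hD => H92.unipotent_two_transitive h h₁ h₂ h₃ h₄ hC hD, ?_⟩
  · obtain ⟨⟨b, hb⟩, hb1⟩ := Subgroup.ne_bot_iff_exists_ne_one.1 (H92.rankOne_right_ne_bot h)
    replace hb1 : b ≠ 1 := fun e => hb1 (Subtype.ext e)
    obtain ⟨a, ha, ha1, e⟩ := h.cond_right b hb hb1
    refine ⟨A, H92.left_mem_unipotent A B, B, H92.right_mem_unipotent h, Cfsg.conjBy A b⁻¹,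
      H92.conjBy_mem_unipotent (H92.left_mem_unipotent A B) (inv_mem (Subgroup.mem_sup_right hb)), h.ne, ?_, ?_⟩
    · intro e'
      apply hb1
      simpa using H92.rankOne_conjBy_injOn h (inv_mem hb) (one_mem B) (e'.symm.trans (H92.conjBy_one A).symm)
    · intro e'
      apply ha1
      simpa using H92.rankOne_conjBy_injOn (Cfsg.RankOnePair_symm h) (inv_mem ha) (one_mem A)
        ((e.trans e'.symm).trans (H92.conjBy_one B).symm)
  · exact fun C hC D hD hCA hDA => H92.unipotent_regular h hC hD hCA hDA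

end Cfsg.Agent.S5014
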