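import Cfsg.Statements.S5015
import Cfsg.Agent.H92.RankOne

set_option autoImplicit false
open Cfsg

namespace Cfsg.Agent.S5015

/-- Let a group Y act doubly transitively on a set Ω with at least three points, and suppose that the stabilizer of a point α contains a nilpotent subgroup A, normalized by that stabilizer, which acts regularly on the points other than α. Then for any y in Y moving α, the subgroups A and y A y⁻¹ are the unipotent subgroups of a rank one group, and the normal closure of A in Y (the subgroup generated by all conjugates of A) is generated by A and y A y⁻¹ alone. -/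
theorem result {Y Ω : Type*} [Group Y] [MulAction Y Ω]
    (h2 : MulAction.IsMultiplyPretransitive Y Ω 2) (hΩ : 3 ≤ ENat.card Ω) (α : Ω) (A : Subgroup Y)
    (hA : A ≤ MulAction.stabilizer Y α) (hAn : ∀ y ∈ MulAction.stabilizer Y α, Cfsg.conjBy A y = A)
    (hnil : Group.IsNilpotent A) (hreg : ∀ β γ : Ω, β ≠ α → γ ≠ α → ∃! a : Y, a ∈ A ∧ a • β = γ)
    (y : Y) (hy : y ∉ MulAction.stabilizer Y α) :
    Cfsg.IsRankOnePair A (Cfsg.conjBy A y) ∧ Subgroup.normalClosure (A : Set Y) = A ⊔ Cfsg.conjBy A y := by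
  have indep : ∀ g g' : Y, g • α = g' • α → Cfsg.conjBy A g = Cfsg.conjBy A g' := by
    intro g g' e
    refine H92.conjBy_eq_iff.2 (hAn _ ?_)
    rw [MulAction.mem_stabilizer_iff, mul_smul, e, inv_smul_smul]
  have hya : y • α ≠ α := hy
  set β := y • α with hβ
  obtain ⟨γ, hγα, hγβ⟩ : ∃ γ : Ω, γ ≠ α ∧ γ ≠ β := by
    by_contra hcon
    push Not at hcon
    have hle : ENat.card Ω ≤ 2 := by
      rw [← Set.encard_univ]
      refine (Set.encard_le_encard (t := {α, β}) fun x _ => ?_).trans ?_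
      · by_cases hx : x = α
        · exact Or.inl hx
        · exact Or.inr (hcon x hx)
      · exact (Set.encard_insert_le _ _).trans (by simp [Set.encard_singleton]; norm_num)
    have : (3 : ℕ∞) ≤ 2 := hΩ.trans hle
    norm_num at this
  have hBreg : ∀ δ ε : Ω, δ ≠ β → ε ≠ β → ∃ b ∈ Cfsg.conjBy A y, b • δ = ε := by
    intro δ ε hδ hε
    obtain ⟨a, ⟨ha, e⟩, -⟩ := hreg (y⁻¹ • δ) (y⁻¹ • ε)
      (fun h => hδ (by rw [hβ, ← h, smul_inv_smul])) (fun h => hε (by rw [hβ, ← h, smul_inv_smul]))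
    exact ⟨y * a * y⁻¹, H92.conj_mem_conjBy ha y, by rw [mul_smul, mul_smul, e, smul_inv_smul]⟩
  have hBfix : ∀ b ∈ Cfsg.conjBy A y, b • β = β := by
    intro b hb
    have := hA (H92.mem_conjBy.1 hb)
    rw [MulAction.mem_stabilizer_iff, mul_smul, mul_smul, inv_smul_eq_iff] at this
    exact this
  have hAfix : ∀ a ∈ A, a • α = α := fun a ha => hA ha
  have hAfree : ∀ δ, δ ≠ α → ∀ a ∈ A, a • δ = δ → a = 1 := by
    intro δ hδ a ha e
    exact (hreg δ δ hδ hδ).unique ⟨ha, e⟩ ⟨one_mem _, one_smul _ _⟩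
  have hne : A ≠ Cfsg.conjBy A y := by
    intro e
    obtain ⟨a, ⟨ha, haγ⟩, -⟩ := hreg β γ hya hγα
    apply hγβ
    rw [← haγ]
    exact hBfix a (e ▸ ha)
  have gen : ∀ g : Y, Cfsg.conjBy A g ≤ A ⊔ Cfsg.conjBy A y := by
    intro g
    obtain ⟨x, hx, e⟩ : ∃ x ∈ A ⊔ Cfsg.conjBy A y, x • α = g • α := by
      by_cases hg : g • α = β
      · obtain ⟨b, hb, hbγ⟩ := hBreg α γ hya.symm hγβ
        obtain ⟨a, ⟨ha, haβ⟩, -⟩ := hreg γ β hγα hya
        exact ⟨a * b, mul_mem (Subgroup.mem_sup_left ha) (Subgroup.mem_sup_right hb),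
          by rw [mul_smul, hbγ, haβ, hg]⟩
      · obtain ⟨b, hb, e⟩ := hBreg α (g • α) hya.symm hg
        exact ⟨b, Subgroup.mem_sup_right hb, e⟩
    rw [indep g x e.symm]
    exact H92.conjBy_le le_sup_left hx
  refine ⟨⟨hne, hnil, ?_, ?_, ?_⟩, ?_⟩
  · exact Group.nilpotent_of_mulEquiv (A.equivMapOfInjective _ (MulAut.conj y).injective)
  · intro a ha ha1
    have h1 : a⁻¹ • β ≠ β := fun e => ha1 (inv_eq_one.1 (hAfree β hya _ (inv_mem ha) e))
    obtain ⟨b, hb, e⟩ := hBreg α (a⁻¹ • β) hya.symm h1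
    refine ⟨b⁻¹, inv_mem hb, ?_, ?_⟩
    · intro hb1
      rw [inv_eq_one] at hb1
      rw [hb1, one_smul] at e
      apply hya
      have := congrArg (a • ·) e
      simp only [smul_inv_smul, hAfix a ha] at this
      exact this.symm
    · rw [inv_inv, H92.conjBy_conjBy]
      exact indep _ _ (by rw [mul_smul, ← hβ, e])
  · intro b hb hb1
    have h1 : b⁻¹ • α ≠ α := by
      intro e
      apply hb1
      have e0 : b • α = α := by
        conv_lhs => rw [← e]
        rw [smul_inv_smul]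
      have h2 : y⁻¹ * b * y = 1 := by
        refine hAfree (y⁻¹ • α) ?_ _ (H92.mem_conjBy.1 hb) ?_
        · intro h; exact hya ((inv_smul_eq_iff.1 h).symm)
        · rw [mul_smul, mul_smul, smul_inv_smul, e0]
      have : b = y * (y⁻¹ * b * y) * y⁻¹ := by group
      rw [this, h2]; group
    obtain ⟨a, ⟨ha, e⟩, -⟩ := hreg β (b⁻¹ • α) hya h1
    refine ⟨a⁻¹, inv_mem ha, ?_, ?_⟩
    · intro ha1
      rw [inv_eq_one] at ha1
      rw [ha1, one_smul] at e
      have h3 := congrArg (b • ·) e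
      simp only [smul_inv_smul, hBfix b hb] at h3
      exact hya h3
    · rw [inv_inv, H92.conjBy_conjBy]
      exact (indep _ _ (by rw [mul_smul, ← hβ, e])).symm
  · refine le_antisymm ?_ (sup_le Subgroup.le_normalClosure ?_)
    · rw [Subgroup.normalClosure, Subgroup.closure_le]
      intro z hz
      obtain ⟨a, ha, hc⟩ := Group.mem_conjugatesOfSet_iff.1 hz
      obtain ⟨g, rfl⟩ := isConj_iff.1 hc
      exact gen g (H92.conj_mem_conjBy ha g)
    · intro z hz
      have h' := (Subgroup.normalClosure_normal (s := (A : Set Y))).conj_mem _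
        (Subgroup.le_normalClosure (H92.mem_conjBy.1 hz)) y
      simpa [mul_assoc] using h'

end Cfsg.Agent.S5015
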