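import Cfsg.Statements.S5016
import Cfsg.Agent.H92.SL2RankOne

set_option autoImplicit false
open Cfsg

namespace Cfsg.Agent.S5016

/-- For any field k, the special linear group SL₂(k) is a special rank one group with abelian unipotent subgroups, the unipotent subgroups being the group of lower unitriangular matrices and the group of upper unitriangular matrices. -/
theorem result (k : Type*) [Field k] :
    Cfsg.IsRankOneGroup (Matrix.SpecialLinearGroup (Fin 2) k) (Cfsg.lowerUnipotentSL2 k) (Cfsg.upperUnipotentSL2 k) ∧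
    Cfsg.IsSpecialRankOnePair (Cfsg.lowerUnipotentSL2 k) (Cfsg.upperUnipotentSL2 k) ∧
    Cfsg.HasAbelianUnipotents (Cfsg.lowerUnipotentSL2 k) (Cfsg.upperUnipotentSL2 k) := by
  have hs := H92.sl2_specialPair (k := k)
  refine ⟨⟨?_, hs.1⟩, hs, ⟨⟨fun x y => Subtype.ext ?_⟩⟩, ⟨⟨fun x y => Subtype.ext ?_⟩⟩⟩
  · rw [eq_top_iff, ← H92.sl2_closure_sx_sy, Subgroup.closure_le]
    rintro _ (⟨t, rfl⟩ | ⟨t, rfl⟩)
    · exact Subgroup.mem_sup_right (H92.mem_upperUnipotentSL2.2 ⟨t, rfl⟩)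
    · exact Subgroup.mem_sup_left (H92.mem_lowerUnipotentSL2.2 ⟨t, rfl⟩)
  · obtain ⟨s, hs'⟩ := H92.mem_lowerUnipotentSL2.1 x.2
    obtain ⟨t, ht'⟩ := H92.mem_lowerUnipotentSL2.1 y.2
    change (x : Matrix.SpecialLinearGroup (Fin 2) k) * y = y * x
    rw [← hs', ← ht', ← H92.sy_add, ← H92.sy_add, add_comm]
  · obtain ⟨s, hs'⟩ := H92.mem_upperUnipotentSL2.1 x.2
    obtain ⟨t, ht'⟩ := H92.mem_upperUnipotentSL2.1 y.2
    change (x : Matrix.SpecialLinearGroup (Fin 2) k) * y = y * x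
    rw [← hs', ← ht', ← H92.sx_add, ← H92.sx_add, add_comm]

end Cfsg.Agent.S5016
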