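import Cfsg.Statements.S5017
import Cfsg.Agent.H92.RankOneNormal

set_option autoImplicit false
open Cfsg

namespace Cfsg.Agent.S5017

/-- Let X be a rank one group with unipotent subgroups A and B and N a normal subgroup of X. Then either X = N A or N lies in the centre of X. Consequently a perfect rank one group is quasisimple. -/
theorem result {X : Type*} [Group X] {A B : Subgroup X} (h : Cfsg.IsRankOneGroup X A B) :
    (∀ N : Subgroup X, N.Normal → N ⊔ A = ⊤ ∨ N ≤ Subgroup.center X) ∧
    (Group.IsPerfect X → Cfsg.IsQuasisimple X) := by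
  refine ⟨H92.rankOne_normal h, fun hp => ⟨hp, ?_⟩⟩
  haveI := hp
  have hZ : Subgroup.center X ≠ ⊤ := by
    intro e
    apply H92.rankOne_sup_upperCentralSeries h 1
    rw [Subgroup.upperCentralSeries_one, e, sup_top_eq]
  haveI : Nontrivial (X ⧸ Subgroup.center X) := QuotientGroup.nontrivial_iff.2 hZ
  refine IsSimpleGroup.mk fun K hK => ?_
  rcases H92.rankOne_normal h (K.comap (QuotientGroup.mk' _)) (hK.comap _) with hl | hr
  · right
    by_contra hKt
    haveI : K.Normal := hK
    haveI : Nontrivial ((X ⧸ Subgroup.center X) ⧸ K) := QuotientGroup.nontrivial_iff.2 hKt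
    let f : X →* (X ⧸ Subgroup.center X) ⧸ K :=
      (QuotientGroup.mk' K).comp (QuotientGroup.mk' _)
    have hf : Function.Surjective f :=
      (QuotientGroup.mk'_surjective K).comp (QuotientGroup.mk'_surjective _)
    have hker : (K.comap (QuotientGroup.mk' _)).map f = ⊥ := by
      rw [Subgroup.map_eq_bot_iff]
      intro x hx
      exact (QuotientGroup.eq_one_iff _).2 hx
    have hmapA : A.map f = ⊤ := by
      have := congrArg (Subgroup.map f) hl
      rwa [Subgroup.map_sup, hker, bot_sup_eq, Subgroup.map_top_of_surjective _ hf] at this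
    haveI := h.2.nilpotent_left
    have hsurj : Function.Surjective (f.comp A.subtype) := by
      rw [← MonoidHom.range_eq_top, MonoidHom.range_comp, Subgroup.range_subtype, hmapA]
    haveI := Group.nilpotent_of_surjective (f.comp A.subtype) hsurj
    haveI : Group.IsPerfect ((X ⧸ Subgroup.center X) ⧸ K) := by
      rw [Group.isPerfect_def]
      have h1 := congrArg (Subgroup.map f) (Group.isPerfect_def.1 hp)
      rw [map_commutator_eq, MonoidHom.range_eq_top.2 hf] at h1
      simpa [commutator_def, Subgroup.map_top_of_surjective _ hf] using h1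
    exact (Group.IsPerfect.not_isNilpotent (G := (X ⧸ Subgroup.center X) ⧸ K)) inferInstance
  · left
    rw [Subgroup.eq_bot_iff_forall]
    intro q hq
    obtain ⟨x, rfl⟩ := QuotientGroup.mk'_surjective _ q
    exact (QuotientGroup.eq_one_iff _).2 (hr hq)

end Cfsg.Agent.S5017
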