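import Cfsg.Statements.S5018
import Cfsg.Agent.H92.RankOneNormal

set_option autoImplicit false
open Cfsg

namespace Cfsg.Agent.S5018

/-- A rank one group is not nilpotent, and its second centre equals its centre. -/
theorem result {X : Type*} [Group X] {A B : Subgroup X} (h : Cfsg.IsRankOneGroup X A B) :
    Subgroup.upperCentralSeries X 2 = Subgroup.center X ∧ ¬ Group.IsNilpotent X := by
  refine ⟨le_antisymm ?_ ?_, ?_⟩
  · rcases H92.rankOne_normal h _ (inferInstance : (Subgroup.upperCentralSeries X 2).Normal) with hl | hr
    · rw [sup_comm] at hl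
      exact absurd hl (H92.rankOne_sup_upperCentralSeries h 2)
    · exact hr
  · rw [← Subgroup.upperCentralSeries_one]
    exact Subgroup.upperCentralSeries_mono X (by norm_num)
  · intro hn
    obtain ⟨n, hn'⟩ := hn
    exact H92.rankOne_sup_upperCentralSeries h n (by rw [hn', sup_top_eq])

end Cfsg.Agent.S5018
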