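import Cfsg.Statements.S5019
import Cfsg.Agent.H92.QuadModule
import Cfsg.Agent.H92.RankOne

set_option autoImplicit false
open Cfsg

namespace Cfsg.Agent.S5019

/-- Let X be a rank one group with abelian unipotent subgroups A and B, and suppose X acts on an abelian group N (written additively) in such a way that A acts quadratically, meaning a' • (a • n − n) = a • n − n for all a, a' in A and n in N, while X as a whole does not: y • (x • n − n) ≠ x • n − n for some x, y in X and n in N. Then X is a special rank one group. -/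
theorem result {X : Type*} [Group X] {A B : Subgroup X} (h : Cfsg.IsRankOneGroup X A B)
    (hab : Cfsg.HasAbelianUnipotents A B) {N : Type*} [AddCommGroup N] [DistribMulAction X N]
    (hq : ∀ a ∈ A, ∀ a' ∈ A, ∀ n : N, a' • (a • n - n) = a • n - n)
    (hX : ∃ x y : X, ∃ n : N, y • (x • n - n) ≠ x • n - n) : Cfsg.IsSpecialRankOnePair A B := by
  obtain ⟨hgen, hp⟩ := h
  have hA : H92.QuadActs A N := hq
  have hB : H92.QuadActs B N := by
    obtain ⟨g, -, e⟩ := H92.right_mem_unipotent hp
    rw [e]; exact H92.quadActs_conj hA g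
  refine ⟨hp, fun a ha ha1 b hb hb1 e => ?_⟩
  obtain ⟨c, hc, hce⟩ : ∃ c ∈ B, b⁻¹ * a * b = a⁻¹ * c * a := by
    have := H92.conj_mem_conjBy ha b⁻¹
    rw [e, inv_inv, H92.mem_conjBy, inv_inv] at this
    exact ⟨_, this, by group⟩
  suffices c * b = 1 by rw [hce, mul_eq_one_iff_eq_inv.1 this]
  by_contra hcb
  have hcall := H92.quad_degenerate hp hA hB (mul_mem hc hb) hcb ?_
  · obtain ⟨x, y, n, hxy⟩ := hX
    exact hxy (hcall x (hgen ▸ Subgroup.mem_top x) n y (hgen ▸ Subgroup.mem_top y))
  intro w hw
  have he := H92.quad_key hp hA hB ha hb e hw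
  set β := b • w - w with hβ
  set ε := w - (a • β - β) with hε
  have hwa : a • w = w := hw a ha
  have h1 : b • w = w + β := by rw [hβ]; abel
  have h2 : a • β = β + w - ε := by rw [hε]; abel
  have h3 : b⁻¹ • w = w - β := by
    have := H92.quad_inv hB hb w
    rw [sub_eq_iff_eq_add] at this
    rw [this, ← hβ]; abel
  have h4 : b⁻¹ • β = β := H92.quad_fixed hB hb w _ (inv_mem hb)
  have h5 : b⁻¹ • ε = ε := he _ (Subgroup.mem_sup_right (inv_mem hb))
  have h6 : a • ε = ε := he _ (Subgroup.mem_sup_left ha)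
  have h7 : c • w = w - β := by
    have hc' : c = a * (b⁻¹ * (a * (b * a⁻¹))) := by
      have h := congrArg (fun z => a * z * a⁻¹) hce
      simp only [mul_assoc] at h ⊢
      simpa [mul_assoc] using h.symm
    rw [hc', mul_smul, mul_smul, mul_smul, mul_smul, hw _ (inv_mem ha), h1]
    simp only [smul_add, smul_sub, hwa, h2, h3, h4, h5, h6]
    abel
  have h8 : (c * b) • w - w = 0 := by rw [H92.quad_mul hB hc hb, h7, ← hβ]; abel
  rw [h8]
  intro g _
  simp

end Cfsg.Agent.S5019
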