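import Cfsg.Statements.S5022
import Cfsg.Agent.H92.Special
import Cfsg.Agent.H92.SL2Hom

set_option autoImplicit false
open Cfsg

namespace Cfsg.Agent.S5022

/-- Let X be a special rank one group with abelian unipotent subgroups A and B, where A is an elementary abelian p-group for the prime p. Then for every non-identity a in A and the non-identity b in B with b⁻¹ A b = a⁻¹ B a, the subgroup generated by a and b is isomorphic to SL₂(p) or to PSL₂(p). -/
theorem result {X : Type*} [Group X] {A B : Subgroup X} (h : Cfsg.IsRankOneGroup X A B)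
    (hs : Cfsg.IsSpecialRankOnePair A B) (hab : Cfsg.HasAbelianUnipotents A B)
    {p : ℕ} [Fact p.Prime] (hA : Cfsg.IsElementaryAbelian p A)
    {a b : X} (ha : a ∈ A) (ha1 : a ≠ 1) (hb : b ∈ B) (hb1 : b ≠ 1) (hab' : Cfsg.conjBy A b⁻¹ = Cfsg.conjBy B a⁻¹) :
    Nonempty (↥(Subgroup.closure ({a, b} : Set X)) ≃* Matrix.SpecialLinearGroup (Fin 2) (ZMod p)) ∨
    Nonempty (↥(Subgroup.closure ({a, b} : Set X)) ≃* Matrix.ProjectiveSpecialLinearGroup (Fin 2) (ZMod p)) := by
  obtain ⟨-, hp⟩ := h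
  have hAc : ∀ x ∈ A, ∀ y ∈ A, x * y = y * x := fun x hx y hy =>
    congrArg Subtype.val (hab.1.is_comm.comm (⟨x, hx⟩ : A) ⟨y, hy⟩)
  have hBc : ∀ x ∈ B, ∀ y ∈ B, x * y = y * x := fun x hx y hy =>
    congrArg Subtype.val (hab.2.is_comm.comm (⟨x, hx⟩ : B) ⟨y, hy⟩)
  have pc : H92.Partner A B a b⁻¹ := ⟨ha, ha1, inv_mem hb, inv_ne_one.2 hb1, hab'⟩
  set c := b⁻¹ with hc
  have hap : a ^ p = 1 := hA.2 a ha
  have hcp : c ^ p = 1 := (pc.pow_eq_one_iff hs p).2 hap
  have hord : orderOf a = p := orderOf_eq_prime hap ha1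
  have pow_val : ∀ (g : X), g ^ p = 1 → ∀ n : ℕ, g ^ n = g ^ ((n : ZMod p)).val := fun g hg n => by
    rw [ZMod.val_natCast, pow_eq_pow_mod n hg]
  set xx : ZMod p → X := fun t => a ^ t.val with hxx
  set yy : ZMod p → X := fun t => c ^ t.val with hyy
  have powadd : ∀ (g : X), g ^ p = 1 → ∀ s t : ZMod p, g ^ (s + t).val = g ^ s.val * g ^ t.val :=
    fun g hg s t => by rw [← pow_add, pow_val g hg (s.val + t.val)]; simp
  have powmul : ∀ (g : X), g ^ p = 1 → ∀ s t : ZMod p, (g ^ s.val) ^ t.val = g ^ (s * t).val :=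
    fun g hg s t => by rw [← pow_mul, pow_val g hg (s.val * t.val)]; simp
  have hpart : ∀ t : ZMod p, t ≠ 0 → H92.Partner A B (xx t) (yy t⁻¹) := by
    intro t ht
    have ht' : t⁻¹ ≠ 0 := inv_ne_zero ht
    have hval : t⁻¹.val ≠ 0 := (ZMod.val_ne_zero _).2 ht'
    have hak : a ^ t⁻¹.val ≠ 1 := by
      intro e
      have hdvd := orderOf_dvd_of_pow_eq_one e
      rw [hord] at hdvd
      exact Nat.not_dvd_of_pos_of_lt (Nat.pos_of_ne_zero hval) (ZMod.val_lt _) hdvd
    obtain ⟨z, pz⟩ := H92.Partner.exists_right hp (pow_mem pc.hc t⁻¹.val)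
      (fun e => hak ((pc.pow_eq_one_iff hs _).1 e))
    have hz := H92.rootLaw hs hAc hBc _ (Nat.pos_of_ne_zero hval) a c z pc pz
    have : z = xx t := by
      have hzp : z ^ p = 1 := hA.2 z pz.ha
      rw [hxx]
      dsimp only
      rw [← hz, ← pow_mul, pow_val z hzp (t⁻¹.val * t.val)]
      simp [ht, ZMod.val_one]
    exact this ▸ pz
  have hR : H92.SL2Rels xx yy := by
    refine ⟨powadd a hap, powadd c hcp, fun t ht => ((hpart t ht).braid hs).symm, ?_, ?_⟩
    · intro t ht u
      have e : xx u = xx t ^ (u / t).val := by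
        simp only [hxx]; rw [powmul a hap, mul_div_cancel₀ _ ht]
      rw [e, ← conj_pow, show H92.rn xx yy t = xx t * yy t⁻¹ * xx t from rfl,
        H92.conj_fst_of_braid ((hpart t ht).braid hs)]
      simp only [hyy]; rw [powmul c hcp]; congr 2; field_simp
    · intro t ht u
      have e : yy u = yy t⁻¹ ^ (u * t).val := by
        simp only [hyy]; rw [powmul c hcp]; congr 2; field_simp
      rw [e, ← conj_pow, show H92.rn xx yy t = xx t * yy t⁻¹ * xx t from rfl,
        H92.conj_snd_of_braid ((hpart t ht).braid hs)]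
      simp only [hxx]; rw [powmul a hap]; congr 2; ring
  set φ := hR.hom with hφ
  have hrange : φ.range = Subgroup.closure ({a, b} : Set X) := by
    refine le_antisymm ?_ ((Subgroup.closure_le _).2 ?_)
    · rw [MonoidHom.range_eq_map, ← H92.sl2_closure_sx_sy, MonoidHom.map_closure, Subgroup.closure_le]
      rintro _ ⟨_, ⟨t, rfl⟩ | ⟨t, rfl⟩, rfl⟩
      · rw [hφ, hR.hom_sx, SetLike.mem_coe]
        exact pow_mem (Subgroup.subset_closure (Set.mem_insert a _)) _
      · rw [hφ, hR.hom_sy, SetLike.mem_coe]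
        exact pow_mem (inv_mem (Subgroup.subset_closure (Set.mem_insert_of_mem a (Set.mem_singleton b)))) _
    · rintro z (rfl | rfl)
      · exact ⟨H92.sx 1, by rw [hφ, hR.hom_sx]; simp [hxx, ZMod.val_one]⟩
      · exact ⟨(H92.sy 1)⁻¹, by rw [map_inv, hφ, hR.hom_sy]; simp [hyy, ZMod.val_one, hc]⟩
  have hAB : ∀ t : ZMod p, t ≠ 0 → H92.rn xx yy t ∉ A := by
    intro t ht hm
    have := (hpart t ht).conj_left
    rw [show xx t * yy t⁻¹ * xx t = H92.rn xx yy t from rfl, H92.conjBy_self hm] at this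
    exact hp.ne this
  have hker : φ.ker ≤ Subgroup.center (Matrix.SpecialLinearGroup (Fin 2) (ZMod p)) := by
    intro M hM
    rw [MonoidHom.mem_ker] at hM
    change H92.sl2Map xx yy M = 1 at hM
    by_cases h10 : M 1 0 = 0
    · rw [H92.sl2Map, if_pos h10] at hM
      have hd := H92.sl2_det M
      rw [h10, mul_zero, sub_zero] at hd
      have h00 : M 0 0 ≠ 0 := fun e => by simp [e] at hd
      set H := H92.rh xx yy (M 0 0) with hH
      have hHA : H ∈ A := by
        rw [mul_eq_one_iff_eq_inv'.1 hM]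
        exact inv_mem (pow_mem ha _)
      have hnA : ∀ t : ZMod p, t ≠ 0 → Cfsg.conjBy A (H92.rn xx yy t) = B :=
        fun t ht => (hpart t ht).conj_left
      have hnB : ∀ t : ZMod p, t ≠ 0 → Cfsg.conjBy B (H92.rn xx yy t) = A :=
        fun t ht => (hpart t ht).conj_right hs
      have hHB : Cfsg.conjBy B H = B := by
        rw [hH, H92.rh, ← H92.conjBy_conjBy, ← hnA 1 one_ne_zero, H92.conjBy_conjBy _ _ (H92.rn xx yy 1)⁻¹,
          inv_mul_cancel, H92.conjBy_one, hnA 1 one_ne_zero, hnA _ h00]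
      have hH1 : H = 1 := (Subgroup.eq_bot_iff_forall _).1 (H92.rankOne_inf_normalizer hp) H
        ⟨hHA, H92.mem_normalizer_iff_conjBy.2 hHB⟩
      rw [hH1, mul_one] at hM
      have h01 : M 0 1 = 0 := by
        have hdvd := orderOf_dvd_of_pow_eq_one hM
        rw [hord] at hdvd
        have := (ZMod.natCast_eq_zero_iff _ _).2 hdvd |>.symm
        rw [ZMod.natCast_zmod_val] at this
        exact (mul_eq_zero.1 this.symm).resolve_left h00
      have hsq : M 0 0 ^ 2 = 1 := by
        have h1 := hR.h_conj_x h00 1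
        rw [← hH, hH1] at h1
        simp only [hxx, one_mul, inv_one, mul_one, ZMod.val_one, pow_one] at h1
        have h2 : a ^ ((M 0 0) ^ 2).val = a ^ 1 := by rw [pow_one]; exact h1.symm
        rw [pow_inj_mod, hord, Nat.mod_eq_of_lt (ZMod.val_lt _),
          Nat.mod_eq_of_lt (Fact.out (p := p.Prime)).one_lt] at h2
        have := congrArg (Nat.cast : ℕ → ZMod p) h2
        simpa using this
      have h11 : M 1 1 = M 0 0 := by linear_combination (M 0 0) * hd - (M 1 1) * hsq
      rw [Subgroup.mem_center_iff]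
      intro N
      apply H92.sl2_ext <;> simp [H92.sl2_mul_apply, h01, h10, h11, mul_comm]
    · exfalso
      rw [H92.sl2Map, if_neg h10] at hM
      refine hAB (-1 / M 1 0) (div_ne_zero (neg_ne_zero.2 one_ne_zero) h10) ?_
      have e : H92.rn xx yy (-1 / M 1 0) =
          (xx (M 0 0 / M 1 0))⁻¹ * (xx (M 1 1 / M 1 0))⁻¹ := by
        rw [mul_assoc, mul_eq_one_iff_inv_eq, eq_comm, ← eq_mul_inv_iff_mul_eq] at hM
        exact hM
      rw [e]
      exact mul_mem (inv_mem (pow_mem ha _)) (inv_mem (pow_mem ha _))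
  let e₁ : (Matrix.SpecialLinearGroup (Fin 2) (ZMod p) ⧸ φ.ker) ≃* ↥(Subgroup.closure ({a, b} : Set X)) :=
    (QuotientGroup.quotientKerEquivRange φ).trans (MulEquiv.subgroupCongr hrange)
  by_cases hk : φ.ker = ⊥
  · exact Or.inl ⟨e₁.symm.trans ((QuotientGroup.quotientMulEquivOfEq hk).trans QuotientGroup.quotientBot)⟩
  · right
    obtain ⟨⟨M, hM⟩, hM1⟩ := Subgroup.ne_bot_iff_exists_ne_one.1 hk
    replace hM1 : M ≠ 1 := fun e => hM1 (Subtype.ext e)
    have hcz : ∀ N ∈ Subgroup.center (Matrix.SpecialLinearGroup (Fin 2) (ZMod p)),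
        N 1 0 = 0 ∧ N 0 1 = 0 ∧ N 1 1 = N 0 0 ∧ (N 0 0 = 1 ∨ N 0 0 = -1) := by
      intro N hN
      obtain ⟨r, hr, hrN⟩ := Matrix.SpecialLinearGroup.mem_center_iff.1 hN
      simp only [Fintype.card_fin] at hr
      refine ⟨by simp [← hrN], by simp [← hrN], by simp [← hrN], ?_⟩
      have : N 0 0 = r := by simp [← hrN]
      rw [this]
      exact sq_eq_one_iff.1 hr
    have heq : Subgroup.center (Matrix.SpecialLinearGroup (Fin 2) (ZMod p)) = φ.ker := by
      refine le_antisymm ?_ hker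
      intro N hN
      obtain ⟨n1, n2, n3, n4⟩ := hcz N hN
      obtain ⟨m1, m2, m3, m4⟩ := hcz M (hker hM)
      have hm : M 0 0 = -1 := m4.resolve_left fun e => hM1 (by
        apply H92.sl2_ext <;> simp [m1, m2, m3, e])
      rcases n4 with e | e
      · have : N = 1 := by apply H92.sl2_ext <;> simp [n1, n2, n3, e]
        rw [this]; exact one_mem _
      · have : N = M := by apply H92.sl2_ext <;> simp [n1, n2, n3, m1, m2, m3, e, hm]
        rw [this]; exact hM
    exact ⟨e₁.symm.trans (QuotientGroup.quotientMulEquivOfEq heq.symm)⟩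

end Cfsg.Agent.S5022
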