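import Cfsg.Statements.S5020
import Cfsg.Agent.H92.SpecialPerfect
import Cfsg.Agent.H92.Quasisimple
import Cfsg.Agent.S5022

set_option autoImplicit false
open Cfsg

namespace Cfsg.Agent.S5020

/-- Let X be a special rank one group with abelian unipotent subgroups A and B, and H = N(A) ∩ N(B) its diagonal subgroup. Then either A has at most three elements and X is isomorphic to SL₂(2), SL₂(3) or PSL₂(3); or X = X' A with the commutator subgroup X' quasisimple and the commutator subgroup ⁅A, H⁆ having more than three elements. -/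
theorem result {X : Type*} [Group X] {A B : Subgroup X} (h : Cfsg.IsRankOneGroup X A B)
    (hs : Cfsg.IsSpecialRankOnePair A B) (hab : Cfsg.HasAbelianUnipotents A B) :
    (ENat.card A ≤ 3 ∧ (Nonempty (X ≃* Matrix.SpecialLinearGroup (Fin 2) (ZMod 2)) ∨
        Nonempty (X ≃* Matrix.SpecialLinearGroup (Fin 2) (ZMod 3)) ∨
        Nonempty (X ≃* Matrix.ProjectiveSpecialLinearGroup (Fin 2) (ZMod 3)))) ∨
    (commutator X ⊔ A = ⊤ ∧ Cfsg.IsQuasisimple (commutator X) ∧
      3 < ENat.card ↥(⁅A, Cfsg.rankOneDiagonal A B⁆ : Subgroup X)) := by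
  have hA : ∀ x ∈ A, ∀ y ∈ A, x * y = y * x := fun x hx y hy =>
    congrArg Subtype.val (hab.1.is_comm.comm (⟨x, hx⟩ : A) ⟨y, hy⟩)
  obtain ⟨hgen, hp⟩ := h
  by_cases h4 : 3 < ENat.card A
  · right
    have hperf : commutator X = ⊤ := by
      rw [commutator_def, eq_top_iff, ← hgen]
      exact H92.special_le_commutator hs hA h4
    haveI hP : Group.IsPerfect X := Group.isPerfect_def.2 hperf
    refine ⟨by rw [hperf, top_sup_eq], ?_, by rwa [H92.special_commutator_diagonal hs hA h4]⟩
    refine H92.quasisimple_commutator hperf ?_ fun N hN => ?_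
    · intro e
      apply H92.rankOne_sup_upperCentralSeries ⟨hgen, hp⟩ 1
      rw [Subgroup.upperCentralSeries_one, e, sup_top_eq]
    · rcases H92.rankOne_normal ⟨hgen, hp⟩ N hN with hN' | hN'
      · left
        haveI := hN
        by_contra hne
        haveI : Nontrivial (X ⧸ N) := QuotientGroup.nontrivial_iff.2 hne
        haveI := hp.nilpotent_left
        have hsurj : Function.Surjective ((QuotientGroup.mk' N).comp A.subtype) := by
          rw [← MonoidHom.range_eq_top, MonoidHom.range_comp, Subgroup.range_subtype]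
          have := congrArg (Subgroup.map (QuotientGroup.mk' N)) hN'
          rwa [Subgroup.map_sup, QuotientGroup.map_mk'_self, bot_sup_eq,
            Subgroup.map_top_of_surjective _ (QuotientGroup.mk'_surjective N)] at this
        haveI := Group.nilpotent_of_surjective _ hsurj
        haveI : Group.IsPerfect (X ⧸ N) := by
          rw [Group.isPerfect_def]
          have h1 := congrArg (Subgroup.map (QuotientGroup.mk' N)) hperf
          rw [map_commutator_eq, MonoidHom.range_eq_top.2 (QuotientGroup.mk'_surjective N)] at h1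
          simpa [commutator_def, Subgroup.map_top_of_surjective _ (QuotientGroup.mk'_surjective N)] using h1
        exact (Group.IsPerfect.not_isNilpotent (G := X ⧸ N)) inferInstance
      · exact Or.inr hN'
  · left
    have hle : ENat.card A ≤ 3 := not_lt.1 h4
    refine ⟨hle, ?_⟩
    haveI hfin : Finite A := by
      rw [← ENat.card_lt_top]
      exact lt_of_le_of_lt hle (ENat.natCast_lt_top 3)
    have hcard : Nat.card A ≤ 3 := by
      rw [ENat.card_eq_coe_natCard] at hle
      exact_mod_cast hle
    have h2 : 2 ≤ Nat.card A := by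
      haveI : Nontrivial A := (Subgroup.nontrivial_iff_ne_bot A).2 (H92.rankOne_left_ne_bot hp)
      exact Finite.one_lt_card
    obtain ⟨p, hp2, hpA⟩ : ∃ p : ℕ, (p = 2 ∨ p = 3) ∧ Nat.card A = p := ⟨_, by omega, rfl⟩
    haveI : Fact p.Prime := ⟨by rcases hp2 with rfl | rfl <;> norm_num⟩
    have hel : Cfsg.IsElementaryAbelian p A := ⟨hab.1, fun x hx => by
      have := pow_card_eq_one' (G := A) (x := ⟨x, hx⟩)
      rw [hpA] at this
      exact congrArg Subtype.val this⟩
    obtain ⟨a, ha, ha1⟩ : ∃ a ∈ A, a ≠ 1 := by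
      obtain ⟨⟨a, ha⟩, ha1⟩ := Subgroup.ne_bot_iff_exists_ne_one.1 (H92.rankOne_left_ne_bot hp)
      exact ⟨a, ha, fun e => ha1 (Subtype.ext e)⟩
    obtain ⟨c, pc⟩ := H92.Partner.exists_left hp ha ha1
    have hAcl : A = Subgroup.zpowers a :=
      (Subgroup.eq_of_le_of_card_ge ((Subgroup.zpowers_le).2 ha) (by
        rw [Nat.card_zpowers, hpA, orderOf_eq_prime (hel.2 a ha) ha1])).symm
    have hclo : Subgroup.closure ({a, c⁻¹} : Set X) = ⊤ := by
      rw [eq_top_iff, ← hgen, sup_le_iff]
      have haC : a ∈ Subgroup.closure ({a, c⁻¹} : Set X) :=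
        Subgroup.subset_closure (Set.mem_insert a _)
      have hcC : c ∈ Subgroup.closure ({a, c⁻¹} : Set X) := by
        simpa using inv_mem (Subgroup.subset_closure (k := ({a, c⁻¹} : Set X))
          (Set.mem_insert_of_mem a (Set.mem_singleton c⁻¹)))
      have hAle : A ≤ Subgroup.closure ({a, c⁻¹} : Set X) := by
        rw [hAcl]; exact (Subgroup.zpowers_le).2 haC
      refine ⟨hAle, ?_⟩
      rw [← pc.conj_left]
      exact H92.conjBy_le hAle (mul_mem (mul_mem haC hcC) haC)
    have h22 := S5022.result (X := X) (p := p) ⟨hgen, hp⟩ hs hab hel ha ha1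
      (inv_mem pc.hc) (inv_ne_one.2 pc.hc1) (by simpa using pc.eq)
    rw [hclo] at h22
    rcases hp2 with rfl | rfl
    · left
      rcases h22 with ⟨⟨e⟩⟩ | ⟨⟨e⟩⟩
      · exact ⟨Subgroup.topEquiv.symm.trans e⟩
      · have hc : Subgroup.center (Matrix.SpecialLinearGroup (Fin 2) (ZMod 2)) = ⊥ := by
          rw [Subgroup.eq_bot_iff_forall]
          intro M hM
          obtain ⟨r, hr, hrM⟩ := Matrix.SpecialLinearGroup.mem_center_iff.1 hM
          have hr1 : r = 1 :=
            (ZMod.pow_card r).symm.trans (by simpa using hr)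
          apply Subtype.ext
          rw [← hrM, hr1]
          simp
        exact ⟨Subgroup.topEquiv.symm.trans (e.trans
          ((QuotientGroup.quotientMulEquivOfEq hc).trans QuotientGroup.quotientBot))⟩
    · right
      rcases h22 with ⟨⟨e⟩⟩ | ⟨⟨e⟩⟩
      · exact Or.inl ⟨Subgroup.topEquiv.symm.trans e⟩
      · exact Or.inr ⟨Subgroup.topEquiv.symm.trans e⟩

end Cfsg.Agent.S5020
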