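import Cfsg.Statements.S5021
import Cfsg.Agent.H92.Special

set_option autoImplicit false
open Cfsg

namespace Cfsg.Agent.S5021

/-- In a special rank one group with abelian unipotent subgroups A and B, either A is an elementary abelian p-group for some prime p, or A is torsion-free and divisible (every element of A has an n-th root in A for every positive n). -/
theorem result {X : Type*} [Group X] {A B : Subgroup X} (h : Cfsg.IsRankOneGroup X A B)
    (hs : Cfsg.IsSpecialRankOnePair A B) (hab : Cfsg.HasAbelianUnipotents A B) :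
    (∃ p : ℕ, p.Prime ∧ Cfsg.IsElementaryAbelian p A) ∨
    ((∀ a ∈ A, a ≠ 1 → ¬ IsOfFinOrder a) ∧ ∀ a ∈ A, ∀ n : ℕ, 0 < n → ∃ c ∈ A, c ^ n = a) := by
  obtain ⟨-, hp⟩ := h
  have hA : ∀ x ∈ A, ∀ y ∈ A, x * y = y * x := fun x hx y hy =>
    congrArg Subtype.val (hab.1.is_comm.comm (⟨x, hx⟩ : A) ⟨y, hy⟩)
  have hB : ∀ x ∈ B, ∀ y ∈ B, x * y = y * x := fun x hx y hy =>
    congrArg Subtype.val (hab.2.is_comm.comm (⟨x, hx⟩ : B) ⟨y, hy⟩)
  have hroot := H92.rootLaw hs hA hB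
  by_cases htf : ∀ a ∈ A, a ≠ 1 → ¬ IsOfFinOrder a
  · refine Or.inr ⟨htf, fun a ha n hn => ?_⟩
    by_cases ha1 : a = 1
    · exact ⟨1, one_mem _, by simp [ha1]⟩
    obtain ⟨c, p⟩ := H92.Partner.exists_left hp ha ha1
    have hcn : c ^ n ≠ 1 := fun e => htf a ha ha1
      (isOfFinOrder_iff_pow_eq_one.2 ⟨n, hn, (p.pow_eq_one_iff hs n).1 e⟩)
    obtain ⟨z, pz⟩ := H92.Partner.exists_right hp (pow_mem p.hc n) hcn
    exact ⟨z, pz.ha, hroot n hn a c z p pz⟩
  · left
    push Not at htf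
    obtain ⟨a₀, ha₀, ha₀1, hfin⟩ := htf
    have ho : orderOf a₀ ≠ 1 := fun e => ha₀1 (orderOf_eq_one_iff.1 e)
    obtain ⟨p, hp', hpd⟩ := Nat.exists_prime_and_dvd ho
    have hord := orderOf_pow_orderOf_div hfin.orderOf_pos.ne' hpd
    refine ⟨p, hp', hab.1, fun a ha => ?_⟩
    by_contra hap
    have h1 := H92.rootLaw_dichotomy hs hB (hroot p hp'.pos) ha hap _ (pow_mem ha₀ (orderOf a₀ / p))
      (by
        have := pow_orderOf_eq_one (a₀ ^ (orderOf a₀ / p))
        rwa [hord] at this)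
    rw [h1, orderOf_one] at hord
    exact hp'.ne_one hord.symm

end Cfsg.Agent.S5021
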