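import Cfsg.Statements.S5023
import Cfsg.Agent.H92.QuadModule
import Cfsg.Agent.H92.RankOne

set_option autoImplicit false
open Cfsg

namespace Cfsg.Agent.S5023

/-- Let X be a rank one group with unipotent subgroups A and B that acts faithfully on an abelian group V (written additively) with A acting quadratically: a' • (a • v − v) = a • v − v for all a, a' in A and v in V. Then A is either torsion-free or an elementary abelian p-group for some prime p. -/
theorem result {X : Type*} [Group X] {A B : Subgroup X} (h : Cfsg.IsRankOneGroup X A B)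
    {V : Type*} [AddCommGroup V] [DistribMulAction X V] (hf : ∀ x : X, (∀ v : V, x • v = v) → x = 1)
    (hq : ∀ a ∈ A, ∀ a' ∈ A, ∀ v : V, a' • (a • v - v) = a • v - v) :
    (∀ a ∈ A, a ≠ 1 → ¬ IsOfFinOrder a) ∨ ∃ p : ℕ, p.Prime ∧ Cfsg.IsElementaryAbelian p A := by
  obtain ⟨hgen, hp⟩ := h
  have hA : H92.QuadActs A V := hq
  have hB : H92.QuadActs B V := by
    obtain ⟨g, -, e⟩ := H92.right_mem_unipotent hp
    rw [e]; exact H92.quadActs_conj hA g
  by_cases htf : ∀ a ∈ A, a ≠ 1 → ¬ IsOfFinOrder a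
  · exact Or.inl htf
  push Not at htf
  obtain ⟨a₀, ha₀, ha₀1, hfin⟩ := htf
  have ho : orderOf a₀ ≠ 1 := fun e => ha₀1 (orderOf_eq_one_iff.1 e)
  obtain ⟨p, hp', hpd⟩ := Nat.exists_prime_and_dvd ho
  obtain ⟨a, ha, hap⟩ : ∃ a ∈ A, orderOf a = p := by
    refine ⟨a₀ ^ (orderOf a₀ / p), pow_mem ha₀ _, ?_⟩
    exact orderOf_pow_orderOf_div hfin.orderOf_pos.ne' hpd
  have ha1 : a ≠ 1 := fun e => by simp [e] at hap; exact hp'.ne_one hap.symm
  have hpD : ∀ v : V, p • (a • v - v) = 0 := by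
    intro v
    rw [← H92.quad_pow hA ha v p, ← hap, pow_orderOf_eq_one, one_smul, sub_self]
  obtain ⟨b, hb, -, e⟩ := hp.cond_left a ha ha1
  have hmem : ∀ g : X, g ∈ A ⊔ B := fun g => hgen ▸ Subgroup.mem_top g
  have hpA : ∀ w : V, H92.FixedBy' A w → H92.FixedBy' (A ⊔ B) (p • w) := by
    intro w hw
    have := H92.fixedBy_nsmul (H92.quad_key hp hA hB ha hb e hw) p
    rwa [nsmul_sub, hpD, sub_zero] at this
  have hpB : ∀ w : V, H92.FixedBy' B w → H92.FixedBy' (A ⊔ B) (p • w) := by
    intro w hw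
    have := H92.fixedBy_nsmul (H92.quad_key (Cfsg.RankOnePair_symm hp) hB hA hb ha e.symm hw) p
    rw [nsmul_sub, nsmul_sub, ← smul_comm b p, hpD, smul_zero, sub_zero, sub_zero, sup_comm] at this
    exact this
  have hcomm : (∀ g ∈ A ⊔ B, ∀ n : V, H92.FixedBy' (A ⊔ B) (g • n - n)) → False := by
    intro hall
    apply H92.rankOne_right_ne_bot hp
    rw [← le_bot_iff, ← H92.rankOne_inf_normalizer' hp]
    refine le_inf le_rfl fun y _ => H92.mem_normalizer_iff_conjBy.2 ?_
    have hcen : ∀ g g' : X, g * g' = g' * g := by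
      intro g g'
      rw [← mul_inv_eq_one]
      refine hf _ fun v => ?_
      rw [mul_smul]
      set v' := (g' * g)⁻¹ • v with hv'
      have h1 := hall g' (hmem g') v' g (hmem g)
      have h2 := hall g (hmem g) v' g' (hmem g')
      rw [smul_sub, sub_eq_iff_eq_add] at h1 h2
      have h3 : (g * g') • v' = (g' * g) • v' := by rw [mul_smul, mul_smul, h1, h2]; abel
      rw [h3, hv', smul_inv_smul]
    ext z
    rw [H92.mem_conjBy, hcen y⁻¹ z, inv_mul_cancel_right]
  refine Or.inr ⟨p, hp', ⟨⟨fun x y => Subtype.ext ?_⟩⟩, fun d hd => ?_⟩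
  · change (x : X) * (y : X) = (y : X) * (x : X)
    rw [← mul_inv_eq_one]
    refine hf _ fun v => ?_
    rw [mul_smul]
    set v' := ((y : X) * (x : X))⁻¹ • v with hv'
    have h1 := H92.quad_mul hA x.2 y.2 v'
    have h2 := H92.quad_mul hA y.2 x.2 v'
    rw [add_comm] at h2
    have h3 := h1.trans h2.symm
    rw [sub_left_inj] at h3
    rw [h3, hv', smul_inv_smul]
  · by_contra hd1
    obtain ⟨c, hc, hc1, e'⟩ := hp.cond_left (d ^ p) (pow_mem hd p) hd1
    have hzero : ∀ u : V, H92.FixedBy' B u → (d ^ p) • u - u = 0 := by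
      intro u hu
      have := hpB u hu d (hmem d)
      rw [H92.quad_pow hA hd u p, nsmul_sub, ← smul_comm d p, this, sub_self]
    apply hcomm
    have := H92.quad_degenerate (Cfsg.RankOnePair_symm hp) hB hA (pow_mem hd p) hd1 ?_
    · rwa [sup_comm] at this
    · intro u hu g _
      rw [hzero u hu, smul_zero]

end Cfsg.Agent.S5023
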