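import Cfsg.Statements.S5024
import Cfsg.Agent.H92.RootBasic

set_option autoImplicit false
open Cfsg

namespace Cfsg.Agent.S5024

/-- Let S be a set of abstract root subgroups of G, A and C members of S, B a rank one partner of A in S and D a rank one partner of C in S. If the rank one group ⟨A, B⟩ is contained in ⟨C, D⟩ then the two coincide, and C and D are conjugates of A inside ⟨A, B⟩. -/
theorem result {G : Type*} [Group G] {S : Set (Subgroup G)} (hS : Cfsg.IsRootSubgroupSet S)
    {A B C D : Subgroup G} (hA : A ∈ S) (hC : C ∈ S) (hB : B ∈ Cfsg.rankOnePartners S A) (hD : D ∈ Cfsg.rankOnePartners S C)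
    (hle : A ⊔ B ≤ C ⊔ D) : A ⊔ B = C ⊔ D ∧ C ∈ Cfsg.unipotentSubgroups A B ∧ D ∈ Cfsg.unipotentSubgroups A B := by
  have h := hB.2
  have hne : ∀ P Q : Subgroup G, IsRankOnePair P Q → Q ≤ C ⊔ D →
      ¬ P ≤ Subgroup.centralizer ((C ⊔ D : Subgroup G) : Set G) := by
    intro P Q hPQ hQ hP
    apply H92.rankOne_left_ne_bot hPQ
    rw [← le_bot_iff, ← H92.rankOne_inf_normalizer hPQ]
    refine le_inf le_rfl fun p hp => H92.mem_normalizer_iff_conjBy.2 ?_
    exact H92.centralizer_conjBy (hP hp) hQ
  have hA' := (H92.member_le_rankOne hS hC hD hA (le_sup_left.trans hle)).resolve_right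
    (hne A B h (le_sup_right.trans hle))
  have hB' := (H92.member_le_rankOne hS hC hD hB.1 (le_sup_right.trans hle)).resolve_right
    (hne B A (Cfsg.RankOnePair_symm h) (le_sup_left.trans hle))
  have hu := H92.rankOne_unipotent_pair hD.2 hA' hB' h.ne
  exact ⟨H92.unipotent_pair hD.2 hA' hB' h.ne, hu ▸ H92.left_mem_unipotent C D,
    hu ▸ H92.right_mem_unipotent hD.2⟩

end Cfsg.Agent.S5024
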