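import Cfsg.Statements.S5025
import Cfsg.Agent.H92.RootBasic

set_option autoImplicit false
open Cfsg

namespace Cfsg.Agent.S5025

/-- Let S be a set of abstract root subgroups of G, A ∈ S and B a rank one partner of A in S. If z ≠ 1 centralizes ⟨A, B⟩, then no product z a with a a non-identity element of A is a non-identity element of a member of S. -/
theorem result {G : Type*} [Group G] {S : Set (Subgroup G)} (hS : Cfsg.IsRootSubgroupSet S)
    {A B : Subgroup G} (hA : A ∈ S) (hB : B ∈ Cfsg.rankOnePartners S A) {z : G}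
    (hz : z ∈ Subgroup.centralizer ((A ⊔ B : Subgroup G) : Set G)) (hz1 : z ≠ 1) :
    ∀ a ∈ A, a ≠ 1 → z * a ∉ Cfsg.rootElements S := by
  rintro a ha ha1 ⟨-, C, hC, hzC⟩
  have e := H92.member_eq_of_mem hS hA hB hC hz ha ha1 hzC
  have hzA : z ∈ A := by
    rw [e] at hzC
    simpa using mul_mem hzC (inv_mem ha)
  apply hz1
  refine (Subgroup.eq_bot_iff_forall _).1 (H92.rankOne_inf_normalizer hB.2) z ⟨hzA, ?_⟩
  exact H92.mem_normalizer_iff_conjBy.2 (H92.centralizer_conjBy hz le_sup_right)

end Cfsg.Agent.S5025
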