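import Cfsg.Statements.S5026
import Cfsg.Agent.H92.RootBasic

set_option autoImplicit false
open Cfsg

namespace Cfsg.Agent.S5026

/-- Let S be a degenerate set of abstract root subgroups of G (a set of abstract transvection groups) and let a, b be commuting non-identity elements of members of S with a b ≠ 1. Then the members of S centralizing a b are exactly those centralizing both a and b. -/
theorem result {G : Type*} [Group G] {S : Set (Subgroup G)} (hS : Cfsg.IsRootSubgroupSet S) (hdeg : Cfsg.IsDegenerateRootSet S)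
    {a b : G} (ha : a ∈ Cfsg.rootElements S) (hb : b ∈ Cfsg.rootElements S) (hab : a * b = b * a) (hab1 : a * b ≠ 1) :
    Cfsg.centralizingMembers S (Subgroup.zpowers (a * b)) =
      Cfsg.centralizingMembers S (Subgroup.zpowers a) ∩ Cfsg.centralizingMembers S (Subgroup.zpowers b) := by
  have hz : ∀ (C : Subgroup G) (x : G), C ≤ Subgroup.centralizer (Subgroup.zpowers x : Set G) ↔
      ∀ c ∈ C, x * c = c * x := by
    intro C x
    constructor
    · intro h c hc
      exact Subgroup.mem_centralizer_iff.1 (h hc) x (Subgroup.mem_zpowers x)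
    · intro h c hc
      rw [Subgroup.mem_centralizer_iff]
      rintro _ ⟨n, rfl⟩
      exact (Commute.zpow_left (h c hc) n).eq
  obtain ⟨ha1, A, hA, haA⟩ := ha
  obtain ⟨hb1, B, hB, hbB⟩ := hb
  ext C
  simp only [Cfsg.centralizingMembers, Set.mem_setOf_eq, Set.mem_inter_iff, hz]
  constructor
  · rintro ⟨hC, h⟩
    have fromB : (∀ c ∈ C, b * c = c * b) → ∀ c ∈ C, a * c = c * a := by
      intro hb' c hc
      have h1 := h c hc
      rw [mul_assoc, hb' c hc, ← mul_assoc, ← mul_assoc] at h1
      exact mul_right_cancel h1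
    have fromA : (∀ c ∈ C, a * c = c * a) → ∀ c ∈ C, b * c = c * b := by
      intro ha' c hc
      have h1 := h c hc
      rw [← mul_assoc c a b, ← ha' c hc, mul_assoc, mul_assoc] at h1
      exact mul_left_cancel h1
    suffices key : (∀ c ∈ C, a * c = c * a) from ⟨⟨hC, key⟩, hC, fromA key⟩
    rcases hS.pair A hA C hC with h1 | h1 | h1
    · exact fun c hc => H92.commute_of_commutator_eq_bot h1 haA hc
    swap
    · exact absurd h1 (hdeg A hA C hC)
    rcases hS.pair B hB C hC with h2 | h2 | h2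
    · exact fromB fun c hc => H92.commute_of_commutator_eq_bot h2 hbB hc
    swap
    · exact absurd h2 (hdeg B hB C hC)
    exfalso
    obtain ⟨c₁, hc₁, -, e₁⟩ := h1.cond_left a⁻¹ (inv_mem haA) (inv_ne_one.2 ha1)
    obtain ⟨c₂, hc₂, -, e₂⟩ := h2.cond_left b hbB hb1
    rw [inv_inv] at e₁
    have hfix : Cfsg.conjBy C (a * b) = C := H92.centralizer_conjBy
      (Subgroup.mem_centralizer_iff.2 fun c hc => (h c hc).symm) le_rfl
    have e : Cfsg.conjBy C a = Cfsg.conjBy C b⁻¹ := by
      conv_rhs => rw [← hfix, H92.conjBy_conjBy]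
      have : b⁻¹ * (a * b) = a := by rw [hab, inv_mul_cancel_left]
      rw [this]
    have hBu : B ∈ Cfsg.unipotentSubgroups A C := by
      refine ⟨c₂ * c₁⁻¹, Subgroup.mem_sup_right (mul_mem hc₂ (inv_mem hc₁)), ?_⟩
      rw [← H92.conjBy_conjBy, e₁, e, ← e₂, H92.conjBy_conjBy, mul_inv_cancel, H92.conjBy_one]
    have hbX : b ∈ A ⊔ C := H92.unipotent_le hBu hbB
    have hfixA : Cfsg.conjBy A b = A := by
      refine H92.unipotent_fixed h1 (H92.left_mem_unipotent A C) hbX haA ha1 ?_
      rw [← hab, mul_inv_cancel_right]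
    have hBA : B = A := by
      by_contra hne
      obtain ⟨y, hy, y1, y2⟩ := H92.unipotent_to_pair h1 hBu (H92.left_mem_unipotent A C) hne
      have m1 : y * b * y⁻¹ ∈ A := y1 ▸ H92.conj_mem_conjBy hbB y
      have m2 : Cfsg.conjBy C (y * b * y⁻¹) = C := by
        rw [← y2, H92.conjBy_conjBy]
        simp only [inv_mul_cancel_right]
        rw [← H92.conjBy_conjBy A b y, hfixA]
      exact hb1 (conj_eq_one_iff.1 ((Subgroup.eq_bot_iff_forall _).1 (H92.rankOne_inf_normalizer h1) _
        ⟨m1, H92.mem_normalizer_iff_conjBy.2 m2⟩))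
    subst hBA
    exact hab1 ((Subgroup.eq_bot_iff_forall _).1 (H92.rankOne_inf_normalizer h1) (a * b)
      ⟨mul_mem haA hbB, H92.mem_normalizer_iff_conjBy.2 hfix⟩)
  · rintro ⟨⟨hC, h1⟩, -, h2⟩
    refine ⟨hC, fun c hc => ?_⟩
    rw [mul_assoc, h2 c hc, ← mul_assoc, h1 c hc, mul_assoc]

end Cfsg.Agent.S5026
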