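import Cfsg.Statements.S5027
import Cfsg.Agent.H92.RootBasic

set_option autoImplicit false
open Cfsg

namespace Cfsg.Agent.S5027

/-- Let S be a set of abstract root subgroups of G such that every member of S has a rank one partner in S (the graph of rank one pairs on S has no isolated vertex). Then the second centre of G equals its centre. -/
theorem result {G : Type*} [Group G] {S : Set (Subgroup G)} (hS : Cfsg.IsRootSubgroupSet S)
    (hF : ∀ A ∈ S, ¬ Cfsg.IsIsolatedIn (Cfsg.FAdj S) S A) : Subgroup.upperCentralSeries G 2 = Subgroup.center G := by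
  refine le_antisymm ?_ ?_
  · intro g hg
    rw [Subgroup.mem_center_iff]
    have hcomm := Subgroup.mem_upperCentralSeries_succ_iff.1 hg
    rw [Subgroup.upperCentralSeries_one] at hcomm
    suffices (⊤ : Subgroup G) ≤ Subgroup.centralizer {g} from
      fun y => Subgroup.mem_centralizer_singleton_iff.1 (this (Subgroup.mem_top y))
    rw [← hS.generates]
    refine iSup₂_le fun A hA a ha => ?_
    rw [Subgroup.mem_centralizer_singleton_iff]
    by_cases ha1 : a = 1
    · simp [ha1]
    obtain ⟨B, hB⟩ := H92.exists_partner_of_not_isolated hA (hF A hA)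
    set z := g * a * g⁻¹ * a⁻¹ with hz
    have hzc : z ∈ Subgroup.center G := hcomm a
    have hzm : z * a ∈ Cfsg.conjBy A g := by
      have : z * a = g * a * g⁻¹ := by simp [hz]
      rw [this]; exact H92.conj_mem_conjBy ha g
    have hzcl : z ∈ Subgroup.centralizer ((A ⊔ B : Subgroup G) : Set G) :=
      Subgroup.mem_centralizer_iff.2 fun x _ => Subgroup.mem_center_iff.1 hzc x
    have e := H92.member_eq_of_mem hS hA hB (hS.conj_mem A hA g) hzcl ha ha1 hzm
    rw [e] at hzm
    have hzA : z ∈ A := by simpa [mul_assoc] using mul_mem hzm (inv_mem ha)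
    have hz1 : z = 1 := (Subgroup.eq_bot_iff_forall _).1 (H92.rankOne_inf_normalizer hB.2) z
      ⟨hzA, H92.mem_normalizer_iff_conjBy.2 (H92.centralizer_conjBy hzcl le_sup_right)⟩
    rw [hz, mul_inv_eq_one, mul_inv_eq_iff_eq_mul] at hz1
    exact hz1.symm
  · rw [← Subgroup.upperCentralSeries_one]
    exact Subgroup.upperCentralSeries_mono G (by norm_num)

end Cfsg.Agent.S5027
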