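import Cfsg.Statements.S5031
import Cfsg.Agent.H92.RootComponents

set_option autoImplicit false
open Cfsg

namespace Cfsg.Agent.S5031

/-- Let S be a set of abstract root subgroups of G and let A, B ∈ S lie in different connected components of the graph of rank one pairs on S, each component having more than one member. Then B is not a line partner of A. -/
theorem result {G : Type*} [Group G] {S : Set (Subgroup G)} (hS : Cfsg.IsRootSubgroupSet S)
    {A B : Subgroup G} (hA : A ∈ S) (hB : B ∈ S)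
    (hne : Cfsg.componentOf (Cfsg.FAdj S) S A ≠ Cfsg.componentOf (Cfsg.FAdj S) S B)
    (hA2 : ∃ A' ∈ Cfsg.componentOf (Cfsg.FAdj S) S A, A' ≠ A) (hB2 : ∃ B' ∈ Cfsg.componentOf (Cfsg.FAdj S) S B, B' ≠ B) :
    B ∉ Cfsg.linePartners S A := by
  rintro ⟨⟨-, hBA, hcomm⟩, -, hcov, -⟩
  obtain ⟨D, hD⟩ := H92.exists_partner_of_component hA2
  obtain ⟨D', hD'⟩ := H92.exists_partner_of_component hB2
  have hc : ∀ x ∈ A, ∀ y ∈ B, x * y = y * x := fun x hx y hy =>
    H92.commute_of_commutator_eq_bot hcomm hx hy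
  have hnr : ¬ Cfsg.IsRankOnePair B D := fun h => hne <| H92.fReach_componentOf_eq
    ((Relation.ReflTransGen.single (show Cfsg.FAdj S A D from ⟨hA, hD.1, hD.2⟩)).tail
      (show Cfsg.FAdj S D B from ⟨hD.1, hB, Cfsg.RankOnePair_symm h⟩))
  have hnr' : ¬ Cfsg.IsRankOnePair A D' := fun h => hne <| H92.fReach_componentOf_eq
    ((Relation.ReflTransGen.single (show Cfsg.FAdj S A D' from ⟨hA, hD'.1, h⟩)).tail
      (show Cfsg.FAdj S D' B from ⟨hD'.1, hB, Cfsg.RankOnePair_symm hD'.2⟩))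
  obtain ⟨a, ha, ha1⟩ := H92.ne_one_exists (hS.ne_bot A hA)
  obtain ⟨b, hb, hb1⟩ := H92.ne_one_exists (hS.ne_bot B hB)
  have hab1 : a * b ≠ 1 := by
    intro e
    have hbA : b ∈ A := by rw [eq_inv_of_mul_eq_one_right e]; exact inv_mem ha
    exact hBA (H92.root_TI hS hA hD hB hbA hb hb1)
  obtain ⟨E, hE, habE⟩ :=
    hcov _ (mul_mem (Subgroup.mem_sup_left ha) (Subgroup.mem_sup_right hb)) hab1
  obtain ⟨k, -, e⟩ := H92.line_member hS hA hD hB hc hnr hE.1 ha ha1 hb habE
  obtain ⟨k', -, e'⟩ := H92.line_member hS hB hD' hA (fun x hx y hy => (hc y hy x hx).symm) hnr'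
    hE.1 hb hb1 ha (by rwa [← hc a ha b hb])
  apply hne
  rw [H92.fReach_componentOf_eq (H92.fReach_conj hS hA hD k),
    H92.fReach_componentOf_eq (H92.fReach_conj hS hB hD' k'), ← e, ← e']

end Cfsg.Agent.S5031
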