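import Cfsg.Statements.S5032
import Cfsg.Agent.H92.RootComponents

set_option autoImplicit false
open Cfsg

namespace Cfsg.Agent.S5032

/-- Let S be a set of abstract root subgroups of G with more than one member. Then the graph of rank one pairs on S is connected if and only if S is a single conjugacy class of G and some member of S has a rank one partner in S. -/
theorem result {G : Type*} [Group G] {S : Set (Subgroup G)} (hS : Cfsg.IsRootSubgroupSet S) (h2 : ∃ A ∈ S, ∃ B ∈ S, A ≠ B) :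
    Cfsg.IsConnectedFamily (Cfsg.FAdj S) S ↔
      (Cfsg.IsConjClassOfSubgroups S ∧ ∃ A ∈ S, ¬ Cfsg.IsIsolatedIn (Cfsg.FAdj S) S A) := by
  constructor
  · intro hc
    obtain ⟨A, hA, B, hB, hne⟩ := h2
    refine ⟨⟨⟨A, hA⟩, fun C hC C' hC' => H92.fReach_isConj (hc C hC C' hC')⟩, A, hA, ?_⟩
    rcases (hc A hA B hB).cases_head with e | ⟨D, e, -⟩
    · exact absurd e hne
    · exact fun h => (h.2 D).1 e
  · rintro ⟨⟨-, hcl⟩, A₀, hA₀, hiso⟩ A hA B hB
    obtain ⟨D, hD⟩ := H92.exists_partner_of_not_isolated hA₀ hiso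
    obtain ⟨g, rfl⟩ := hcl A₀ hA₀ A hA
    obtain ⟨g', rfl⟩ := hcl A₀ hA₀ B hB
    exact (H92.fReach_symm (H92.fReach_conj hS hA₀ hD g)).trans (H92.fReach_conj hS hA₀ hD g')

end Cfsg.Agent.S5032
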