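import Cfsg.Statements.S5033
import Cfsg.Agent.H92.SpecialPerfect
import Cfsg.Agent.H92.Quasisimple
import Cfsg.Agent.H92.RootClass

set_option autoImplicit false
open Cfsg

namespace Cfsg.Agent.S5033

/-- Quasisimplicity criterion for groups generated by abstract root subgroups. Let S be a set of abstract root subgroups of G with more than one member such that: the graph of rank one pairs on S is connected; no two different members of S have the same set of commuting members of S; if S is degenerate then every member of S has more than three elements; and every rank one pair in S is special. Then for every A ∈ S one has G = G' A with A ∩ G' ≠ 1, and the commutator subgroup G' is quasisimple. Moreover G is perfect if S is non-degenerate, or if some rank one pair A, B in S generates a perfect group. -/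
theorem result {G : Type*} [Group G] {S : Set (Subgroup G)} (hS : Cfsg.IsRootSubgroupSet S) (h2 : ∃ A ∈ S, ∃ B ∈ S, A ≠ B)
    (h1 : Cfsg.IsConnectedFamily (Cfsg.FAdj S) S)
    (h2' : ∀ A ∈ S, ∀ C ∈ S, A ≠ C → Cfsg.centralizingMembers S A ≠ Cfsg.centralizingMembers S C)
    (h3 : Cfsg.IsDegenerateRootSet S → ∀ A ∈ S, 3 < ENat.card A)
    (h4 : ∀ A ∈ S, ∀ B ∈ Cfsg.rankOnePartners S A, Cfsg.IsSpecialRankOnePair A B) :
    (∀ A ∈ S, commutator G ⊔ A = ⊤ ∧ A ⊓ commutator G ≠ ⊥) ∧ Cfsg.IsQuasisimple ↥(commutator G) ∧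
    (Cfsg.IsNondegenerateRootSet S → commutator G = ⊤) ∧
    ((∃ A ∈ S, ∃ B ∈ Cfsg.rankOnePartners S A, Group.IsPerfect ↥(A ⊔ B)) → commutator G = ⊤) := by
  have hne2 : ∀ A ∈ S, ¬ Cfsg.IsIsolatedIn (Cfsg.FAdj S) S A := by
    intro A hA
    obtain ⟨P, hP, Q, hQ, hne⟩ := h2
    obtain ⟨B, hB, hBA⟩ : ∃ B ∈ S, A ≠ B := by
      by_cases e : A = P
      · exact ⟨Q, hQ, e ▸ hne⟩
      · exact ⟨P, hP, e⟩
    rcases (h1 A hA B hB).cases_head with e | ⟨D, e, -⟩
    · exact absurd e hBA
    · exact fun h => (h.2 D).1 e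
  obtain ⟨A₀, hA₀⟩ : ∃ A, A ∈ S := by obtain ⟨P, hP, -⟩ := h2; exact ⟨P, hP⟩
  have hclass : Cfsg.IsRootSubgroupClass S :=
    ⟨hS, ⟨A₀, hA₀⟩, fun A hA B hB => H92.fReach_isConj (h1 A hA B hB)⟩
  have partner : ∀ A ∈ S, ∃ B, B ∈ Cfsg.rankOnePartners S A := fun A hA =>
    H92.exists_partner_of_not_isolated hA (hne2 A hA)
  have ndOfNot : ¬ Cfsg.IsDegenerateRootSet S → Cfsg.IsNondegenerateRootSet S := by
    intro h
    simp only [Cfsg.IsDegenerateRootSet, not_forall, not_not] at h
    obtain ⟨P, hP, Q, hQ, hPQ⟩ := h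
    refine ⟨⟨P, hP, ⁅P, Q⁆, hPQ.1, ?_, ?_⟩, ⟨A₀, hA₀, ?_⟩, ⟨P, hP, Q, hQ, hPQ⟩⟩
    · intro e
      apply hS.ne_bot P hP
      rw [← H92.rcc_inf' hS hPQ, ← e, inf_idem]
    · exact H92.commutator_eq_bot_of_commute fun x hx y hy =>
        (hPQ.2.1 y hy x (Subgroup.mem_sup_left hx)).symm
    · obtain ⟨B, hB⟩ := partner A₀ hA₀
      exact ⟨B, hB.1, hB.2⟩
  have perfPair : Cfsg.IsDegenerateRootSet S → ∀ P ∈ S, ∀ Q ∈ Cfsg.rankOnePartners S P,
      P ⊔ Q ≤ ⁅P ⊔ Q, P ⊔ Q⁆ := fun hd P hP Q hQ =>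
    H92.special_le_commutator (h4 P hP Q hQ) (fun x hx y hy => H92.root_comm hS hP hx hy) (h3 hd P hP)
  have allLe : ∀ N : Subgroup G, N.Normal → ∀ P ∈ S, P ≤ N → N = ⊤ := by
    intro N hN P hP hle
    rw [eq_top_iff, ← hS.generates]
    refine iSup₂_le fun Q hQ => ?_
    obtain ⟨g, rfl⟩ := hclass.2.2 P hP Q hQ
    intro x hx
    have := hN.conj_mem _ (hle (H92.mem_conjBy.1 hx)) g
    simpa [mul_assoc] using this
  have hperf : commutator G = ⊤ := by
    by_cases hd : Cfsg.IsDegenerateRootSet S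
    · obtain ⟨B, hB⟩ := partner A₀ hA₀
      refine allLe _ inferInstance A₀ hA₀ (le_sup_left.trans ((perfPair hd A₀ hA₀ B hB).trans ?_))
      rw [commutator_def]
      exact Subgroup.commutator_mono le_top le_top
    · obtain ⟨B, hB, hcc⟩ := H92.class_rcc hclass (ndOfNot hd) hA₀
      refine allLe _ inferInstance _ hcc.1 ?_
      rw [commutator_def]
      exact Subgroup.commutator_mono le_top le_top
  have hdich : ∀ N : Subgroup G, N.Normal → N = ⊤ ∨ N ≤ Subgroup.center G := by
    intro N hN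
    haveI := hN
    by_cases hfix : ∀ n ∈ N, ∀ A ∈ S, Cfsg.conjBy A n = A
    · right
      intro n hn
      rw [Subgroup.mem_center_iff]
      suffices (⊤ : Subgroup G) ≤ Subgroup.centralizer {n} from
        fun y => Subgroup.mem_centralizer_singleton_iff.1 (this (Subgroup.mem_top y))
      rw [← hS.generates]
      refine iSup₂_le fun A hA a ha => ?_
      rw [Subgroup.mem_centralizer_singleton_iff]
      obtain ⟨B, hB⟩ := partner A hA
      have h1 : n * a * n⁻¹ * a⁻¹ ∈ A :=
        mul_mem ((hfix n hn A hA) ▸ H92.conj_mem_conjBy ha n) (inv_mem ha)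
      have h2 : n * a * n⁻¹ * a⁻¹ ∈ N := by
        simpa [mul_assoc] using mul_mem hn (hN.conj_mem n⁻¹ (inv_mem hn) a)
      have := (Subgroup.eq_bot_iff_forall _).1 (H92.rankOne_inf_normalizer hB.2) _
        ⟨h1, H92.mem_normalizer_iff_conjBy.2 (hfix _ h2 B hB.1)⟩
      rw [mul_inv_eq_one, mul_inv_eq_iff_eq_mul] at this
      exact this.symm
    · left
      push Not at hfix
      obtain ⟨n, hn, A, hA, hne⟩ := hfix
      set f := QuotientGroup.mk' N with hf
      have mapConj : ∀ (P : Subgroup G) (g : G),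
          (Cfsg.conjBy P g).map f = Cfsg.conjBy (P.map f) (f g) := by
        intro P g
        simp only [Cfsg.conjBy, Subgroup.map_map]
        congr 1
      have toN : ∀ P : Subgroup G, P.map f = ⊥ → P ≤ N := fun P hP => by
        rwa [Subgroup.map_eq_bot_iff, QuotientGroup.ker_mk'] at hP
      have hCS := hS.conj_mem A hA n
      have hCimg : (Cfsg.conjBy A n).map f = A.map f := by
        rw [mapConj, (QuotientGroup.eq_one_iff n).2 hn |> (fun e => (show f n = 1 from e)), H92.conjBy_one]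
      have hAA : ∀ P ∈ S, ⁅P.map f, P.map f⁆ = ⊥ := fun P hP => by
        rw [← Subgroup.map_commutator, H92.commutator_eq_bot_of_commute (fun x hx y hy =>
          H92.root_comm hS hP hx hy), Subgroup.map_bot]
      -- a rank one pair with commuting images has a member inside `N`
      have edgeKill : ∀ P ∈ S, ∀ Q ∈ S, Cfsg.IsRankOnePair P Q → ⁅P.map f, Q.map f⁆ = ⊥ → N = ⊤ := by
        intro P hP Q hQ hPQ hcom
        by_cases hd : Cfsg.IsDegenerateRootSet S
        · refine allLe N hN P hP (le_sup_left.trans ((perfPair hd P hP Q ⟨hQ, hPQ⟩).trans ?_))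
          refine toN _ ?_
          rw [Subgroup.map_commutator, Subgroup.map_sup]
          have hQP : ⁅Q.map f, P.map f⁆ = ⊥ := by rw [Subgroup.commutator_comm]; exact hcom
          apply H92.commutator_eq_bot_of_commute
          intro x hx y hy
          have c1 : P.map f ⊔ Q.map f ≤ Subgroup.centralizer ((P.map f : Subgroup (G ⧸ N)) : Set (G ⧸ N)) :=
            sup_le (Subgroup.commutator_eq_bot_iff_le_centralizer.1 (hAA P hP))
              (Subgroup.commutator_eq_bot_iff_le_centralizer.1 hQP)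
          have c2 : P.map f ⊔ Q.map f ≤ Subgroup.centralizer ((Q.map f : Subgroup (G ⧸ N)) : Set (G ⧸ N)) :=
            sup_le (Subgroup.commutator_eq_bot_iff_le_centralizer.1 hcom)
              (Subgroup.commutator_eq_bot_iff_le_centralizer.1 (hAA Q hQ))
          have : P.map f ⊔ Q.map f ≤ Subgroup.centralizer {x} := sup_le
            (fun z hz => Subgroup.mem_centralizer_singleton_iff.2 (Subgroup.mem_centralizer_iff.1 (c1 hx) z hz))
            (fun z hz => Subgroup.mem_centralizer_singleton_iff.2 (Subgroup.mem_centralizer_iff.1 (c2 hx) z hz))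
          exact (Subgroup.mem_centralizer_singleton_iff.1 (this hy)).symm
        · have hnd := ndOfNot hd
          obtain ⟨T, hT, hcc, L⟩ := H92.exists_lineData hclass hnd hP ⟨hQ, hPQ⟩
          have hQimg : Q.map f = P.map f := by
            obtain ⟨x, hx, e⟩ := H92.right_mem_unipotent hPQ
            rw [e, mapConj]
            apply H92.centralizer_conjBy (H := P.map f) ?_ le_rfl
            have : (P ⊔ Q).map f ≤ Subgroup.centralizer ((P.map f : Subgroup (G ⧸ N)) : Set (G ⧸ N)) := by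
              rw [Subgroup.map_sup]
              exact sup_le (Subgroup.commutator_eq_bot_iff_le_centralizer.1 (hAA P hP))
                (Subgroup.commutator_eq_bot_iff_le_centralizer.1 (by rwa [Subgroup.commutator_comm]))
            exact this (Subgroup.mem_map_of_mem f hx)
          refine allLe N hN _ hcc.1 (toN _ ?_)
          rw [Subgroup.map_commutator, hQimg, ← Subgroup.map_commutator, hT.1.2.2, Subgroup.map_bot]
      have rccKill : ∀ P ∈ S, ∀ Q ∈ S, Cfsg.RootCommutatorCase S P Q → ⁅P.map f, Q.map f⁆ = ⊥ → N = ⊤ :=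
        fun P _ Q _ hcc hcom => allLe N hN _ hcc.1 (toN _ (by rw [Subgroup.map_commutator, hcom]))
      have kill : ∀ P ∈ S, ∀ Q ∈ S, ⁅P, Q⁆ ≠ ⊥ → ⁅P.map f, Q.map f⁆ = ⊥ → N = ⊤ := by
        intro P hP Q hQ hPQ hcom
        rcases hS.pair P hP Q hQ with h | h | h
        · exact absurd h hPQ
        · exact edgeKill P hP Q hQ h hcom
        · exact rccKill P hP Q hQ h hcom
      by_cases hAC : ⁅A, Cfsg.conjBy A n⁆ = ⊥
      · have hdist := h2' A hA _ hCS hne.symm
        have : ∃ E ∈ S, (⁅E, A⁆ = ⊥ ∧ ⁅E, Cfsg.conjBy A n⁆ ≠ ⊥) ∨ (⁅E, Cfsg.conjBy A n⁆ = ⊥ ∧ ⁅E, A⁆ ≠ ⊥) := by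
          by_contra hcon
          apply hdist
          ext E
          push Not at hcon
          simp only [Cfsg.centralizingMembers, ← Subgroup.commutator_eq_bot_iff_le_centralizer]
          exact ⟨fun h => ⟨h.1, (hcon E h.1).1 h.2⟩, fun h => ⟨h.1, (hcon E h.1).2 h.2⟩⟩
        obtain ⟨E, hE, ⟨e1, e2⟩ | ⟨e1, e2⟩⟩ := this
        · refine kill E hE _ hCS e2 ?_
          rw [hCimg, ← Subgroup.map_commutator, e1, Subgroup.map_bot]
        · refine kill E hE _ hA e2 ?_
          rw [← hCimg, ← Subgroup.map_commutator, e1, Subgroup.map_bot]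
      · exact kill A hA _ hCS hAC (by rw [hCimg]; exact hAA A hA)
  refine ⟨fun A hA => ⟨by rw [hperf, top_sup_eq], by rw [hperf, inf_top_eq]; exact hS.ne_bot A hA⟩, ?_,
    fun _ => hperf, fun _ => hperf⟩
  refine H92.quasisimple_commutator hperf ?_ hdich
  intro e
  obtain ⟨B, hB⟩ := partner A₀ hA₀
  apply H92.rankOne_left_ne_bot hB.2
  rw [← le_bot_iff, ← H92.rankOne_inf_normalizer hB.2]
  refine le_inf le_rfl fun a _ => Subgroup.mem_normalizer_iff.2 fun x => ?_
  have ha : a ∈ Subgroup.center G := e ▸ Subgroup.mem_top a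
  rw [← (Subgroup.mem_center_iff.1 ha x), mul_inv_cancel_right]

end Cfsg.Agent.S5033
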