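import Cfsg.Statements.S5035
import Cfsg.Agent.H92.RootComponents

set_option autoImplicit false
open Cfsg

namespace Cfsg.Agent.S5035

/-- Let S be a set of abstract root subgroups of G whose graph of rank one pairs is connected, and f a homomorphism from G onto a group H. Then either the images of the members of S form a set of abstract root subgroups of H whose graph of rank one pairs is again connected, or H equals the image of a member of S. -/
theorem result {G H : Type*} [Group G] [Group H] {S : Set (Subgroup G)} (hS : Cfsg.IsRootSubgroupSet S)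
    (hc : Cfsg.IsConnectedFamily (Cfsg.FAdj S) S) (f : G →* H) (hf : Function.Surjective f) :
    (Cfsg.IsRootSubgroupSet ((fun A : Subgroup G => A.map f) '' S) ∧
      Cfsg.IsConnectedFamily (Cfsg.FAdj ((fun A : Subgroup G => A.map f) '' S)) ((fun A : Subgroup G => A.map f) '' S)) ∨
    ∃ A ∈ S, A.map f = ⊤ := by
  have hmc : ∀ (K : Subgroup G) (g : G), (Cfsg.conjBy K g).map f = Cfsg.conjBy (K.map f) (f g) := by
    intro K g
    simp only [Cfsg.conjBy, Subgroup.map_map]
    congr 1
    ext x
    simp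
  by_cases hbot : ∃ A ∈ S, A.map f = ⊥
  · obtain ⟨A, hA, hAb⟩ := hbot
    right
    refine ⟨A, hA, ?_⟩
    rw [hAb, ← Subgroup.map_top_of_surjective f hf, ← hS.generates, Subgroup.map_iSup]
    rw [eq_comm, eq_bot_iff]
    refine iSup_le fun B => ?_
    rw [Subgroup.map_iSup]
    refine iSup_le fun hB => ?_
    obtain ⟨g, rfl⟩ := H92.fReach_isConj (hc A hA B hB)
    rw [hmc, hAb, H92.conjBy_bot]
  push Not at hbot
  left
  have lift : ∀ {K : Subgroup G} {x : H}, x ∈ K.map f → x ≠ 1 → ∃ y ∈ K, y ≠ 1 ∧ f y = x := by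
    rintro K _ ⟨y, hy, rfl⟩ hx
    exact ⟨y, hy, fun e => hx (by simp [e]), rfl⟩
  have cond : ∀ {A B : Subgroup G}, Cfsg.RankOneCondition A B → A.map f ≠ B.map f →
      Cfsg.RankOneCondition (A.map f) (B.map f) := by
    intro A B h hne x hx hx1
    obtain ⟨a, ha, ha1, rfl⟩ := lift hx hx1
    obtain ⟨b, hb, -, e⟩ := h a ha ha1
    have e' := congrArg (Subgroup.map f) e
    rw [hmc, hmc, map_inv, map_inv] at e'
    refine ⟨f b, Subgroup.mem_map_of_mem f hb, fun hfb => hne ?_, e'⟩
    rw [hfb, inv_one, H92.conjBy_one] at e'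
    apply H92.conjBy_injective (g := (f a)⁻¹)
    rw [← e', H92.conjBy_self (inv_mem (Subgroup.mem_map_of_mem f ha))]
  have hcomm : ∀ A ∈ S, IsMulCommutative ↥(A.map f) := by
    intro A hA
    refine ⟨⟨fun x y => ?_⟩⟩
    obtain ⟨x, a, ha, rfl⟩ := x
    obtain ⟨y, b, hb, rfl⟩ := y
    exact Subtype.ext (by
      show f a * f b = f b * f a
      rw [← map_mul, H92.root_comm hS hA ha hb, map_mul])
  have hpair : ∀ A ∈ S, ∀ B ∈ S, Cfsg.IsRankOnePair A B → A.map f ≠ B.map f →
      Cfsg.IsRankOnePair (A.map f) (B.map f) := by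
    intro A _ B _ h hne
    haveI := h.nilpotent_left
    haveI := h.nilpotent_right
    exact ⟨hne, Group.nilpotent_of_surjective (f.subgroupMap A) (f.subgroupMap_surjective A),
      Group.nilpotent_of_surjective (f.subgroupMap B) (f.subgroupMap_surjective B),
      cond h.cond_left hne, cond h.cond_right hne.symm⟩
  refine ⟨⟨?_, ?_, ?_, ?_, ?_⟩, ?_⟩
  · rintro _ ⟨A, hA, rfl⟩; exact hcomm A hA
  · rintro _ ⟨A, hA, rfl⟩; exact hbot A hA
  · rw [iSup_image, ← Subgroup.map_top_of_surjective f hf, ← hS.generates]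
    simp only [Subgroup.map_iSup]
  · rintro _ ⟨A, hA, rfl⟩ g
    obtain ⟨g, rfl⟩ := hf g
    exact ⟨_, hS.conj_mem A hA g, hmc A g⟩
  · rintro _ ⟨A, hA, rfl⟩ _ ⟨B, hB, rfl⟩
    simp only
    rcases hS.pair A hA B hB with h | h | h
    · left; rw [← Subgroup.map_commutator, h, Subgroup.map_bot]
    · by_cases hne : A.map f = B.map f
      · left
        rw [← hne]
        apply H92.commutator_eq_bot_of_commute
        intro x hx y hy
        exact congrArg Subtype.val ((hcomm A hA).is_comm.comm ⟨x, hx⟩ ⟨y, hy⟩)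
      · exact Or.inr (Or.inl (hpair A hA B hB h hne))
    · refine Or.inr (Or.inr ⟨⟨_, h.1, Subgroup.map_commutator _ _ f⟩, ?_, ?_, ?_⟩)
      · rw [← Subgroup.map_commutator, ← Subgroup.map_sup]
        rintro _ ⟨c, hc, rfl⟩ _ ⟨x, hx, rfl⟩
        rw [← map_mul, h.2.1 c hc x hx, map_mul]
      · intro x hx hx1
        obtain ⟨a, ha, ha1, rfl⟩ := lift hx hx1
        rw [← Subgroup.map_commutator, ← h.2.2.1 a ha ha1, MonoidHom.map_closure, Subgroup.coe_map,
          Set.image_image, Set.image_image]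
        simp
      · intro x hx hx1
        obtain ⟨b, hb, hb1, rfl⟩ := lift hx hx1
        rw [← Subgroup.map_commutator, ← h.2.2.2 b hb hb1, MonoidHom.map_closure, Subgroup.coe_map,
          Set.image_image, Set.image_image]
        simp
  · rintro _ ⟨A, hA, rfl⟩ _ ⟨B, hB, rfl⟩
    have r := hc A hA B hB
    induction r with
    | refl => exact Relation.ReflTransGen.refl
    | @tail P Q r e ih =>
      have hP := e.1
      by_cases hne : P.map f = Q.map f
      · simp only [← hne]; exact ih hP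
      · exact (ih hP).tail ⟨⟨P, e.1, rfl⟩, ⟨Q, e.2.1, rfl⟩, hpair P e.1 Q e.2.1 e.2.2 hne⟩

end Cfsg.Agent.S5035
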