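import Cfsg.Statements.S5036
import Cfsg.Agent.H92.RootLine

set_option autoImplicit false
open Cfsg

namespace Cfsg.Agent.S5036

/-- Let S be a set of abstract root subgroups of G, A, B ∈ S with C = ⁅A, B⁆ ∈ S, and D ∈ S with ⁅D, C⁆ = A. Put X = ⟨B, D⟩ and N = AC. Then B, D form a rank one pair; the conjugates of A under X are the conjugates of C under X, namely the conjugates of A by elements of B together with C, equally the conjugates of C by elements of D together with A, and they partition N; and the centralizer of N in X is central in X. -/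
theorem result {G : Type*} [Group G] {S : Set (Subgroup G)} (hS : Cfsg.IsRootSubgroupSet S)
    {A B D : Subgroup G} (hA : A ∈ S) (hB : B ∈ S) (hC : ⁅A, B⁆ ∈ S) (hD : D ∈ S) (hDC : ⁅D, ⁅A, B⁆⁆ = A) :
    Cfsg.IsRankOnePair B D ∧
    {E | ∃ x ∈ B ⊔ D, E = Cfsg.conjBy A x} = {E | ∃ x ∈ B ⊔ D, E = Cfsg.conjBy ⁅A, B⁆ x} ∧
    {E | ∃ x ∈ B ⊔ D, E = Cfsg.conjBy A x} = (fun b : G => Cfsg.conjBy A b) '' (B : Set G) ∪ {⁅A, B⁆} ∧
    {E | ∃ x ∈ B ⊔ D, E = Cfsg.conjBy A x} = (fun d : G => Cfsg.conjBy ⁅A, B⁆ d) '' (D : Set G) ∪ {A} ∧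
    Cfsg.IsSubgroupPartition (A ⊔ ⁅A, B⁆) {E | ∃ x ∈ B ⊔ D, E = Cfsg.conjBy A x} ∧
    ∀ x ∈ (B ⊔ D) ⊓ Subgroup.centralizer ((A ⊔ ⁅A, B⁆ : Subgroup G) : Set G), ∀ y ∈ B ⊔ D, x * y = y * x := by
  have hCA : ⁅D, ⁅A, B⁆⁆ ∈ S := hDC.symm ▸ hA
  have L : H92.LineData S A B ⁅A, B⁆ D :=
    ⟨hS, hA, hB, hD, rfl, hDC, H92.rootCommutatorCase_of_mem hS hA hB hC,
      H92.rootCommutatorCase_of_mem hS hD hC hCA⟩
  have hR := L.pair
  obtain ⟨y₀, hy₀, ey₀⟩ := L.conjC_eq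
  have hfixA : ∀ x ∈ B ⊔ D, Cfsg.conjBy A x =
      (A ⊔ ⁅A, B⁆) ⊓ Subgroup.centralizer (Cfsg.conjBy D x : Set G) := by
    intro x hx
    conv_lhs => rw [← L.fix_D]
    exact L.fix_conj D hx
  refine ⟨hR, ?_, ?_, ?_, ⟨?_, ?_, ?_⟩, ?_⟩
  · ext E
    constructor <;> rintro ⟨x, hx, rfl⟩
    · refine ⟨x * y₀⁻¹, mul_mem hx (inv_mem hy₀), ?_⟩
      conv_rhs => rw [← ey₀]
      rw [H92.conjBy_conjBy, inv_mul_cancel_right]
    · exact ⟨x * y₀, mul_mem hx hy₀, by rw [← H92.conjBy_conjBy, ey₀]⟩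
  · ext E
    constructor
    · rintro ⟨x, hx, rfl⟩
      rcases L.conjA_mem hx with e | ⟨b, hb, e⟩
      · exact Or.inr e
      · exact Or.inl ⟨b, hb, e.symm⟩
    · rintro (⟨b, hb, rfl⟩ | rfl)
      · exact ⟨b, Subgroup.mem_sup_left hb, rfl⟩
      · exact ⟨y₀, hy₀, ey₀.symm⟩
  · ext E
    constructor
    · rintro ⟨x, hx, rfl⟩
      rcases H92.unipotent_cases (Cfsg.RankOnePair_symm hR)
        (H92.conjBy_mem_unipotent (H92.left_mem_unipotent D B) (sup_comm B D ▸ hx)) with e | ⟨d, hd, e⟩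
      · exact Or.inr (by rw [hfixA x hx, e, L.fix_D]; rfl)
      · refine Or.inl ⟨d, hd, ?_⟩
        show Cfsg.conjBy ⁅A, B⁆ d = Cfsg.conjBy A x
        rw [hfixA x hx, e, ← L.fix_conj B (Subgroup.mem_sup_right hd), L.fix_B]
    · rintro (⟨d, hd, rfl⟩ | rfl)
      · exact ⟨d * y₀, mul_mem (Subgroup.mem_sup_right hd) hy₀, by rw [← H92.conjBy_conjBy, ey₀]⟩
      · exact ⟨1, one_mem _, (H92.conjBy_one _).symm⟩
  · rintro E ⟨x, hx, rfl⟩
    exact (H92.conjBy_mono le_sup_left x).trans (L.normalize hx).le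
  · intro z hz hz1
    obtain ⟨a, ha, c, hc, rfl⟩ := L.mem_sup hz
    by_cases ha1 : a = 1
    · subst ha1
      exact ⟨Cfsg.conjBy A y₀, ⟨y₀, hy₀, rfl⟩, by rwa [ey₀, one_mul]⟩
    · obtain ⟨b, hb, hm⟩ := H92.rcc_mem_conj L.h1 ha ha1 hc
      exact ⟨_, ⟨b, Subgroup.mem_sup_left hb, rfl⟩, hm⟩
  · rintro E ⟨x, hx, rfl⟩ E' ⟨x', hx', rfl⟩ hne
    have hne' : Cfsg.conjBy D x ≠ Cfsg.conjBy D x' := fun e => hne (by rw [hfixA x hx, hfixA x' hx', e])
    obtain ⟨y, hy, y1, y2⟩ := H92.unipotent_to_pair hR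
      (H92.conjBy_mem_unipotent (H92.right_mem_unipotent hR) hx)
      (H92.conjBy_mem_unipotent (H92.right_mem_unipotent hR) hx') hne'
    apply H92.conjBy_injective (g := y)
    rw [hfixA x hx, hfixA x' hx', H92.conjBy_inf, L.fix_conj _ hy, L.fix_conj _ hy, y1, y2, L.fix_B,
      L.fix_D, inf_comm, L.inf_eq_bot, H92.conjBy_bot]
  · rintro z ⟨hzX, hzN⟩
    have hfix : ∀ E ∈ Cfsg.unipotentSubgroups B D, Cfsg.conjBy E z = E := by
      intro E hE
      by_contra hne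
      obtain ⟨y, hy, y1, y2⟩ := H92.unipotent_to_pair hR (H92.conjBy_mem_unipotent hE hzX) hE hne
      have hsame : (A ⊔ ⁅A, B⁆) ⊓ Subgroup.centralizer (Cfsg.conjBy E z : Set G) =
          (A ⊔ ⁅A, B⁆) ⊓ Subgroup.centralizer (E : Set G) := by
        rw [← L.fix_conj E hzX]
        exact H92.centralizer_conjBy hzN inf_le_left
      have h3 := congrArg (fun K => Cfsg.conjBy K y) hsame
      simp only [L.fix_conj _ hy, y1, y2, L.fix_B, L.fix_D] at h3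
      have h4 := L.inf_eq_bot
      rw [h3, inf_idem] at h4
      exact hS.ne_bot A hA h4
    intro w hw
    have : B ⊔ D ≤ Subgroup.centralizer {z} := sup_le
      (fun x hx => Subgroup.mem_centralizer_singleton_iff.2
        (H92.fix_all_central hR hfix (H92.left_mem_unipotent B D) hx).symm)
      (fun x hx => Subgroup.mem_centralizer_singleton_iff.2
        (H92.fix_all_central hR hfix (H92.right_mem_unipotent hR) hx).symm)
    exact (Subgroup.mem_centralizer_singleton_iff.1 (this hw)).symm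

end Cfsg.Agent.S5036
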