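import Cfsg.Statements.S5037
import Cfsg.Agent.H92.RootClass

set_option autoImplicit false
open Cfsg

namespace Cfsg.Agent.S5037

/-- Let S be a class of abstract root subgroups of G that is either degenerate or non-degenerate (so either the commutator case never occurs, or all three cases occur), and A ≠ C members of S. If every member of S commuting with A commutes with C, then A and C have the same commuting members of S; and if every rank one partner of A is a rank one partner of C, then A and C commute and have the same rank one partners. -/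
theorem result {G : Type*} [Group G] {S : Set (Subgroup G)} (hS : Cfsg.IsRootSubgroupClass S)
    (hdn : Cfsg.IsDegenerateRootSet S ∨ Cfsg.IsNondegenerateRootSet S)
    {A C : Subgroup G} (hA : A ∈ S) (hC : C ∈ S) (hAC : A ≠ C) :
    (Cfsg.centralizingMembers S A ⊆ Cfsg.centralizingMembers S C →
      Cfsg.centralizingMembers S A = Cfsg.centralizingMembers S C) ∧
    (Cfsg.rankOnePartners S A ⊆ Cfsg.rankOnePartners S C →
      ⁅A, C⁆ = ⊥ ∧ Cfsg.rankOnePartners S A = Cfsg.rankOnePartners S C) := by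
  have comm_symm : ∀ {P Q : Subgroup G}, ⁅P, Q⁆ = ⊥ → ⁅Q, P⁆ = ⊥ := fun h =>
    (Subgroup.commutator_comm _ _).trans h
  have cmem : ∀ P Q : Subgroup G, P ∈ Cfsg.centralizingMembers S Q ↔ P ∈ S ∧ ⁅P, Q⁆ = ⊥ := by
    intro P Q
    exact and_congr_right fun _ => (Subgroup.commutator_eq_bot_iff_le_centralizer).symm
  have selfComm : ∀ P ∈ S, ⁅P, P⁆ = ⊥ := fun P hP =>
    H92.commutator_eq_bot_of_commute fun x hx y hy => H92.root_comm hS.1 hP hx hy
  have nePair : ∀ {P Q : Subgroup G}, Cfsg.IsRankOnePair P Q → ⁅P, Q⁆ ≠ ⊥ := by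
    intro P Q h hb
    apply H92.rankOne_left_ne_bot h
    rw [← le_bot_iff, ← H92.rankOne_inf_normalizer h]
    refine le_inf le_rfl fun p hp => H92.mem_normalizer_iff_conjBy.2 ?_
    exact H92.centralizer_conjBy (H := Q)
      (Subgroup.mem_centralizer_iff.2 fun q hq => (H92.commute_of_commutator_eq_bot hb hp hq).symm) le_rfl
  have conj_c : ∀ (P Q : Subgroup G) (g : G), ⁅P, Q⁆ = ⊥ → ⁅Cfsg.conjBy P g, Cfsg.conjBy Q g⁆ = ⊥ := by
    intro P Q g h; rw [← H92.conjBy_commutator, h, H92.conjBy_bot]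
  -- first part, degenerate case
  have degFirst : Cfsg.IsDegenerateRootSet S → ∀ A ∈ S, ∀ C ∈ S,
      (∀ P ∈ S, ⁅P, A⁆ = ⊥ → ⁅P, C⁆ = ⊥) → ∀ E ∈ S, ⁅E, C⁆ = ⊥ → ⁅E, A⁆ = ⊥ := by
    intro hdeg A hA C hC hsub E hE hEC
    by_contra hEA
    have opp : ∀ {P Q : Subgroup G}, P ∈ S → Q ∈ S → ⁅P, Q⁆ ≠ ⊥ → Cfsg.IsRankOnePair P Q := by
      intro P Q hP hQ h
      rcases hS.1.pair P hP Q hQ with h1 | h1 | h1
      · exact absurd h1 h
      · exact h1
      · exact absurd h1 (hdeg P hP Q hQ)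
    have hAE := opp hA hE fun h => hEA (comm_symm h)
    have hAC : ⁅A, C⁆ = ⊥ := hsub A hA (selfComm A hA)
    have hfixC : ∀ x ∈ A ⊔ E, Cfsg.conjBy C x = C := by
      intro x hx
      have hle : ∀ P : Subgroup G, ⁅P, C⁆ = ⊥ → P ≤ Subgroup.centralizer (C : Set G) := fun P hP p hp =>
        Subgroup.mem_centralizer_iff.2 fun c hc => (H92.commute_of_commutator_eq_bot hP hp hc).symm
      exact H92.centralizer_conjBy (H := C) ((sup_le (hle A hAC) (hle E hEC)) hx) le_rfl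
    have hsubE : ∀ P ∈ S, ⁅P, E⁆ = ⊥ → ⁅P, C⁆ = ⊥ := by
      intro P hP hPE
      obtain ⟨y, hy, eE⟩ := H92.right_mem_unipotent hAE
      have h1 := conj_c _ _ y⁻¹ hPE
      rw [eE, H92.conjBy_conjBy A, inv_mul_cancel, H92.conjBy_one] at h1
      have h2 := conj_c _ _ y (hsub _ (hS.1.conj_mem P hP _) h1)
      rwa [H92.conjBy_conjBy, mul_inv_cancel, H92.conjBy_one, hfixC y hy] at h2
    obtain ⟨Q, hQ⟩ : ∃ Q, Q ∈ Cfsg.rankOnePartners S C := by
      obtain ⟨g, rfl⟩ := hS.2.2 A hA C hC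
      exact ⟨_, H92.rankOne_partner_conj hS.1 (⟨hE, hAE⟩ : E ∈ Cfsg.rankOnePartners S A) g⟩
    have hQC : ⁅Q, C⁆ ≠ ⊥ := fun h => nePair hQ.2 (comm_symm h)
    have hQA := opp hQ.1 hA fun h => hQC (hsub Q hQ.1 h)
    have hQE := opp hQ.1 hE fun h => hQC (hsubE Q hQ.1 h)
    obtain ⟨q, hq, hq1⟩ := H92.ne_one_exists (hS.1.ne_bot Q hQ.1)
    obtain ⟨a, ha, -, ea⟩ := hQA.cond_left q hq hq1
    obtain ⟨e, he, -, ee⟩ := hQE.cond_left q hq hq1
    obtain ⟨c, hc, -, ec⟩ := (Cfsg.RankOnePair_symm hQ.2).cond_left q hq hq1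
    -- the inclusion transported to `Q`
    have key : ∀ (T : Subgroup G) (t : G), t ∈ T → t ∈ A ⊔ E →
        (∀ P ∈ S, ⁅P, T⁆ = ⊥ → ⁅P, C⁆ = ⊥) → Cfsg.conjBy Q t⁻¹ = Cfsg.conjBy T q⁻¹ →
        ∀ P ∈ S, ⁅P, Q⁆ = ⊥ → ⁅P, Cfsg.conjBy Q (t * c⁻¹)⁆ = ⊥ := by
      intro T t _ _ hT et P hP hPQ
      have h1 := conj_c _ _ t⁻¹ hPQ
      rw [et] at h1
      have h2 := conj_c _ _ q h1
      rw [H92.conjBy_conjBy T, mul_inv_cancel, H92.conjBy_one] at h2
      have h3 := conj_c _ _ q⁻¹ (hT _ (hS.1.conj_mem _ (hS.1.conj_mem P hP _) _) h2)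
      rw [← ec, H92.conjBy_conjBy (Cfsg.conjBy P t⁻¹), inv_mul_cancel, H92.conjBy_one] at h3
      have h4 := conj_c _ _ t h3
      rwa [H92.conjBy_conjBy, mul_inv_cancel, H92.conjBy_one, H92.conjBy_conjBy] at h4
    have ka := key A a ha (Subgroup.mem_sup_left ha) hsub ea
    have ke := key E e he (Subgroup.mem_sup_right he) hsubE ee
    have hZ := comm_symm (ke Q hQ.1 (selfComm Q hQ.1))
    have h5 := ka _ (hS.1.conj_mem Q hQ.1 _) hZ
    have hac : ∀ t ∈ A ⊔ E, t * c⁻¹ = c⁻¹ * t := by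
      intro t ht
      have hle : ∀ P : Subgroup G, ⁅P, C⁆ = ⊥ → P ≤ Subgroup.centralizer (C : Set G) := fun P hP p hp =>
        Subgroup.mem_centralizer_iff.2 fun x hx => (H92.commute_of_commutator_eq_bot hP hp hx).symm
      exact (Subgroup.mem_centralizer_iff.1 ((sup_le (hle A hAC) (hle E hEC)) ht) c⁻¹ (inv_mem hc)).symm
    have h6 := conj_c _ _ c h5
    rw [H92.conjBy_conjBy, H92.conjBy_conjBy, hac e (Subgroup.mem_sup_right he),
      hac a (Subgroup.mem_sup_left ha), mul_inv_cancel_left, mul_inv_cancel_left] at h6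
    -- `Q^e` and `Q^a` commute
    have hne : ∀ (T : Subgroup G) (t : G), T ∈ S → t ∈ T → Cfsg.IsRankOnePair Q T → t ≠ 1 →
        ∃ d ∈ Q, d ≠ 1 ∧ Cfsg.conjBy T d = Cfsg.conjBy Q t := by
      intro T t _ ht hQT ht1
      obtain ⟨d, hd, hd1, ed⟩ := hQT.cond_right t⁻¹ (inv_mem ht) (inv_ne_one.2 ht1)
      exact ⟨d⁻¹, inv_mem hd, inv_ne_one.2 hd1, by simpa using ed⟩
    have ha1 : a ≠ 1 := by
      intro h
      rw [h, inv_one, H92.conjBy_one] at ea
      apply hQA.ne
      apply H92.conjBy_injective (g := q⁻¹)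
      rw [← ea, H92.conjBy_self (inv_mem hq)]
    have he1 : e ≠ 1 := by
      intro h
      rw [h, inv_one, H92.conjBy_one] at ee
      apply hQE.ne
      apply H92.conjBy_injective (g := q⁻¹)
      rw [← ee, H92.conjBy_self (inv_mem hq)]
    obtain ⟨q1, hq1', -, eq1⟩ := hne A a hA ha hQA ha1
    obtain ⟨q2, hq2', -, eq2⟩ := hne E e hE he hQE he1
    rw [← eq1, ← eq2] at h6
    have h7 := conj_c _ _ q2⁻¹ h6
    rw [H92.conjBy_conjBy, inv_mul_cancel, H92.conjBy_one, H92.conjBy_conjBy] at h7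
    have h8 := hsubE _ (hS.1.conj_mem A hA _) (comm_symm h7)
    by_cases hd : q2⁻¹ * q1 = 1
    · rw [hd, H92.conjBy_one] at h7
      exact hEA h7
    obtain ⟨a', ha', -, ea'⟩ := hQA.cond_left (q2⁻¹ * q1)⁻¹ (inv_mem (mul_mem (inv_mem hq2') hq1')) (inv_ne_one.2 hd)
    rw [inv_inv] at ea'
    rw [← ea'] at h8
    have h9 := conj_c _ _ a' h8
    rw [H92.conjBy_conjBy, mul_inv_cancel, H92.conjBy_one, hfixC a' (Subgroup.mem_sup_left ha')] at h9
    exact hQC h9
  have ndSecond : Cfsg.IsNondegenerateRootSet S → ∀ A ∈ S, ∀ C ∈ S, A ≠ C →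
      (∀ B ∈ S, Cfsg.IsRankOnePair A B → Cfsg.IsRankOnePair C B) →
      ⁅A, C⁆ = ⊥ ∧ ∀ B ∈ S, Cfsg.IsRankOnePair C B → Cfsg.IsRankOnePair A B := by
    intro hnd A hA C hC hAC hsub
    have hF := H92.class_noIso hS hnd
    have hcom : ⁅A, C⁆ = ⊥ := by
      rcases hS.1.pair A hA C hC with h | h | h
      · exact h
      · exact absurd rfl (hsub C hC h).ne
      · exfalso
        obtain ⟨W, hW, hWA⟩ := H92.rcc_opp hS.1 hF hA hC h
        exact nePair (hsub W hW.1.1 hWA.2) hW.1.2.2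
    refine ⟨hcom, ?_⟩
    have hlC : ∀ R ∈ Cfsg.linePartners S C, ⁅A, R⁆ = ⊥ := by
      intro R hR
      rcases hS.1.pair A hA R hR.1.1 with h | h | h
      · exact h
      · exact absurd hR.1.2.2 (nePair (hsub R hR.1.1 h))
      · exfalso
        obtain ⟨W, hW, hWA⟩ := H92.rcc_opp hS.1 hF hA hR.1.1 h
        refine H92.line_not_commute hS.1 hC ⟨hW.1.1, hsub W hW.1.1 hWA.2⟩ hR ?_
        exact comm_symm hW.1.2.2
    have hlA : ∀ U ∈ Cfsg.linePartners S A, ⁅C, U⁆ = ⊥ := by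
      intro U hU
      rcases hS.1.pair U hU.1.1 C hC with h | h | h
      · exact comm_symm h
      · exfalso
        exact H92.line_not_commute hS.1 hU.1.1 ⟨hC, h⟩ (H92.linePartners_symm hA hU) (comm_symm hcom)
      · exfalso
        obtain ⟨W, hW, hWU⟩ := H92.rcc_opp hS.1 hF hU.1.1 hC h
        exact H92.line_not_commute hS.1 hU.1.1 hWU (H92.linePartners_symm hA hU) (comm_symm (hlC W hW))
    intro Q hQ hCQ
    rcases hS.1.pair A hA Q hQ with h | h | h
    · exact (H92.not_centralize_lineGen hS hnd hC ⟨hQ, hCQ⟩ hA hlC h).elim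
    · exact h
    · exfalso
      obtain ⟨DA, hDA⟩ := H92.class_partner hS hnd hA
      obtain ⟨DQ, hDQ⟩ := H92.class_partner hS hnd hQ
      have hRA := H92.linePartners_symm h.1 (H92.rcc_linePartner hS.1 hA hDA h)
      have hRQ : ⁅A, Q⁆ ∈ Cfsg.linePartners S Q := by
        refine H92.linePartners_symm h.1 ?_
        have := H92.rcc_linePartner hS.1 hQ hDQ (H92.rcc_symm h)
        rwa [Subgroup.commutator_comm] at this
      exact H92.line_not_commute hS.1 hQ ⟨hC, Cfsg.RankOnePair_symm hCQ⟩ hRQ (hlA _ hRA)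
  rcases hdn with hdeg | hnd
  · constructor
    · intro h
      have hsub : ∀ P ∈ S, ⁅P, A⁆ = ⊥ → ⁅P, C⁆ = ⊥ := fun P hP hPA =>
        ((cmem P C).1 (h ((cmem P A).2 ⟨hP, hPA⟩))).2
      refine le_antisymm h fun P hP => ?_
      obtain ⟨hPS, hPC⟩ := (cmem P C).1 hP
      exact (cmem P A).2 ⟨hPS, degFirst hdeg A hA C hC hsub P hPS hPC⟩
    · intro h
      have notrank : ∀ {P Q : Subgroup G}, P ∈ S → Q ∈ S → (¬ Cfsg.IsRankOnePair P Q) → ⁅P, Q⁆ = ⊥ := by
        intro P Q hP hQ hn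
        rcases hS.1.pair P hP Q hQ with h1 | h1 | h1
        · exact h1
        · exact absurd h1 hn
        · exact absurd h1 (hdeg P hP Q hQ)
      have hsub : ∀ P ∈ S, ⁅P, C⁆ = ⊥ → ⁅P, A⁆ = ⊥ := fun P hP hPC =>
        comm_symm (notrank hA hP fun hAP => nePair (h ⟨hP, hAP⟩).2 (comm_symm hPC))
      refine ⟨comm_symm (notrank hC hA fun hCA =>
        (h ⟨hC, Cfsg.RankOnePair_symm hCA⟩).2.ne rfl), le_antisymm h fun P hP => ⟨hP.1, ?_⟩⟩
      rcases hS.1.pair A hA P hP.1 with h1 | h1 | h1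
      · exact absurd (comm_symm (degFirst hdeg C hC A hA hsub P hP.1 (comm_symm h1))) (nePair hP.2)
      · exact h1
      · exact absurd h1 (hdeg A hA P hP.1)
  · have second := fun (h : Cfsg.rankOnePartners S A ⊆ Cfsg.rankOnePartners S C) =>
      ndSecond hnd A hA C hC hAC fun B hB hAB => (h ⟨hB, hAB⟩).2
    constructor
    · intro h
      have hF := H92.class_noIso hS hnd
      have hsub : ∀ P ∈ S, ⁅P, A⁆ = ⊥ → ⁅P, C⁆ = ⊥ := fun P hP hPA =>
        ((cmem P C).1 (h ((cmem P A).2 ⟨hP, hPA⟩))).2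
      have hlA : ∀ U ∈ Cfsg.linePartners S A, ⁅C, U⁆ = ⊥ := fun U hU =>
        comm_symm (hsub U hU.1.1 (comm_symm hU.1.2.2))
      have hcom : ⁅A, C⁆ = ⊥ := hsub A hA (selfComm A hA)
      have hopp : Cfsg.rankOnePartners S A ⊆ Cfsg.rankOnePartners S C := by
        rintro Q ⟨hQ, hAQ⟩
        refine ⟨hQ, ?_⟩
        rcases hS.1.pair C hC Q hQ with h1 | h1 | h1
        · exact (H92.not_centralize_lineGen hS hnd hA ⟨hQ, hAQ⟩ hC hlA h1).elim
        · exact h1
        · exfalso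
          have hZQ := H92.rcc_symm h1
          rcases hS.1.pair A hA _ hZQ.1 with h2 | h2 | h2
          · refine hS.1.ne_bot _ hZQ.1 (H92.rankOne_transfer_trivial hAQ
              (fun x hx y hy => H92.commute_of_commutator_eq_bot hcom hx hy) fun f hf x hx => ?_)
            have : A ⊔ Q ≤ Subgroup.centralizer {f} := sup_le
              (fun y hy => Subgroup.mem_centralizer_singleton_iff.2
                (H92.commute_of_commutator_eq_bot h2 hy hf))
              (fun y hy => Subgroup.mem_centralizer_singleton_iff.2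
                (hZQ.2.1 f hf y (Subgroup.mem_sup_left hy)).symm)
            exact Subgroup.mem_centralizer_singleton_iff.1 (this hx)
          · refine H92.not_centralize_lineGen hS hnd hA ⟨hZQ.1, h2⟩ hC hlA ?_
            exact H92.commutator_eq_bot_of_commute fun x hx y hy =>
              (hZQ.2.1 y hy x (Subgroup.mem_sup_right hx)).symm
          · obtain ⟨W, hW, hWZ⟩ := H92.rcc_opp hS.1 hF hZQ.1 hA (H92.rcc_symm h2)
            obtain ⟨DC, hDC⟩ := H92.class_partner hS hnd hC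
            have hCl : C ∈ Cfsg.linePartners S ⁅Q, C⁆ := by
              have := H92.rcc_linePartner hS.1 hC hDC h1
              rwa [Subgroup.commutator_comm] at this
            exact H92.line_not_commute hS.1 hZQ.1 hWZ hCl (comm_symm (hlA W hW))
      obtain ⟨-, hback⟩ := second hopp
      refine le_antisymm h fun P hP => ?_
      obtain ⟨hPS, hPC⟩ := (cmem P C).1 hP
      refine (cmem P A).2 ⟨hPS, ?_⟩
      rcases hS.1.pair A hA P hPS with h1 | h1 | h1
      · exact comm_symm h1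
      · exact absurd (comm_symm hPC) (nePair (hopp ⟨hPS, h1⟩).2)
      · exfalso
        obtain ⟨W, hW, hWA⟩ := H92.rcc_opp hS.1 hF hA hPS h1
        exact H92.line_not_commute hS.1 hW.1.1 ⟨hC, Cfsg.RankOnePair_symm (hopp hWA).2⟩
          (H92.linePartners_symm hPS hW) (comm_symm hPC)
    · intro h
      obtain ⟨hcom, hback⟩ := second h
      exact ⟨hcom, le_antisymm h fun P hP => ⟨hP.1, hback P hP.1 hP.2⟩⟩

end Cfsg.Agent.S5037
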