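import Cfsg.Statements.S5038
import Cfsg.Agent.H92.RootLines

set_option autoImplicit false
open Cfsg

namespace Cfsg.Agent.S5038

/-- Let S be a set of abstract root subgroups of G in which every member has a rank one partner, A ∈ S and B a line partner of A. Then the subgroup generated by the members of S normalizing AB permutes the members of S inside AB doubly transitively by conjugation. -/
theorem result {G : Type*} [Group G] {S : Set (Subgroup G)} (hS : Cfsg.IsRootSubgroupSet S)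
    (hF : ∀ A ∈ S, ¬ Cfsg.IsIsolatedIn (Cfsg.FAdj S) S A) {A B : Subgroup G} (hA : A ∈ S) (hB : B ∈ Cfsg.linePartners S A) :
    ∀ C₁ ∈ Cfsg.membersIn S (A ⊔ B), ∀ C₂ ∈ Cfsg.membersIn S (A ⊔ B), ∀ D₁ ∈ Cfsg.membersIn S (A ⊔ B),
      ∀ D₂ ∈ Cfsg.membersIn S (A ⊔ B), C₁ ≠ C₂ → D₁ ≠ D₂ →
        ∃ x ∈ ⨆ E ∈ Cfsg.normalizingMembers S (A ⊔ B), E, Cfsg.conjBy C₁ x = D₁ ∧ Cfsg.conjBy C₂ x = D₂ := by
  intro C₁ h1 C₂ h2 D₁ h3 D₂ h4 hne hne'
  exact H92.line_two_transitive hS hF hA hB h1 h2 h3 h4 hne hne'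

end Cfsg.Agent.S5038
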