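import Cfsg.Statements.S5039
import Cfsg.Agent.H92.RootSpecial

set_option autoImplicit false
universe u
open Cfsg

namespace Cfsg.Agent.S5039

/-- Let S be a class of abstract root subgroups of G containing two different commuting members. Suppose that, in case S is degenerate and every element of every member of S has order at most 3, the following holds: for every A ∈ S and every rank one partner B of A there are subgroups A₀ ≤ A and B₀ ≤ B generating an image of SL₂(k) with central kernel, k a field with at least four elements, A₀ and B₀ being the images of the unitriangular subgroups. Then every rank one pair A, B in S is special. -/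
theorem result {G : Type u} [Group G] {S : Set (Subgroup G)} (hS : Cfsg.IsRootSubgroupClass S)
    (hcomm : ∃ A ∈ S, ∃ C ∈ S, A ≠ C ∧ ⁅A, C⁆ = ⊥)
    (hH : Cfsg.IsDegenerateRootSet S → (∀ A ∈ S, ∀ a ∈ A, 0 < orderOf a ∧ orderOf a ≤ 3) →
      ∀ A ∈ S, ∀ B ∈ Cfsg.rankOnePartners S A, ∃ A₀ B₀ : Subgroup G, A₀ ≤ A ∧ B₀ ≤ B ∧
        ∃ (k : Type u) (_ : Field k), 3 < ENat.card k ∧ Cfsg.IsPSL2PairOver k A₀ B₀)
    {A B : Subgroup G} (hA : A ∈ S) (hB : B ∈ Cfsg.rankOnePartners S A) : Cfsg.IsSpecialRankOnePair A B := by
  exact H92.RS.class_special hS hcomm hH hA hB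

end Cfsg.Agent.S5039
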