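import Cfsg.Statements.S5040
import Cfsg.Agent.H92.RootClass

set_option autoImplicit false
open Cfsg

namespace Cfsg.Agent.S5040

/-- Let S be a non-degenerate class of abstract root subgroups of G and Δ a weak TI-subset of S. Then the members of Δ commute with one another elementwise. -/
theorem result {G : Type*} [Group G] {S : Set (Subgroup G)} (hS : Cfsg.IsRootSubgroupClass S) (hnd : Cfsg.IsNondegenerateRootSet S)
    {Δ : Set (Subgroup G)} (hΔ : Cfsg.IsWeakTISubset S Δ) : Cfsg.IsAbelianFamily Δ := by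
  obtain ⟨hΔS, hΔ_ex, hne, hTI⟩ := hΔ
  set K : Subgroup G :=
    { carrier := {g | (fun P => Cfsg.conjBy P g) '' Δ = Δ}
      one_mem' := by simp [H92.conjBy_one]
      mul_mem' := fun {x y} hx hy => by
        show (fun P => Cfsg.conjBy P (x * y)) '' Δ = Δ
        conv_rhs => rw [← hx, ← hy]
        rw [Set.image_image]
        simp [H92.conjBy_conjBy]
      inv_mem' := fun {x} hx => by
        show (fun P => Cfsg.conjBy P x⁻¹) '' Δ = Δ
        conv_lhs => rw [← hx]
        rw [Set.image_image]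
        simp [H92.conjBy_conjBy, H92.conjBy_one] } with hK
  have fixK : ∀ A ∈ Δ, ∀ U ∈ S, ⁅A, U⁆ = ⊥ → U ≤ K := by
    intro A hA U hU hc u hu
    by_cases hu1 : u = 1
    · rw [hu1]; exact one_mem _
    rcases hTI u ⟨hu1, U, hU, hu⟩ with h | h
    · exact h
    · exfalso
      refine Set.disjoint_left.1 h ⟨A, hA, ?_⟩ hA
      exact H92.centralizer_conjBy (H := A)
        (Subgroup.mem_centralizer_iff.2 fun x hx => H92.commute_of_commutator_eq_bot hc hx hu) le_rfl
  have noTop : K ≠ ⊤ := by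
    intro htop
    apply hne
    refine le_antisymm hΔS fun U hU => ?_
    obtain ⟨A, hA, -⟩ := hΔ_ex
    obtain ⟨g, rfl⟩ := hS.2.2 A (hΔS hA) U hU
    have hg : g ∈ K := htop ▸ Subgroup.mem_top g
    exact (show (fun P => Cfsg.conjBy P g) '' Δ = Δ from hg) ▸ ⟨A, hA, rfl⟩
  intro A hA B hB
  rcases hS.1.pair A (hΔS hA) B (hΔS hB) with h | h | h
  · exact fun a ha b hb => H92.commute_of_commutator_eq_bot h ha hb
  · exfalso
    apply noTop
    rw [eq_top_iff, ← H92.lineGen_eq_top hS hnd (hΔS hA) ⟨hΔS hB, h⟩]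
    refine sup_le (iSup₂_le fun U hU => fixK A hA U hU.1.1 hU.1.2.2) (fixK B hB B (hΔS hB) ?_)
    exact H92.commutator_eq_bot_of_commute fun x hx y hy => H92.root_comm hS.1 (hΔS hB) hx hy
  · exfalso
    apply noTop
    obtain ⟨W, hW, hWA⟩ := H92.rcc_opp hS.1 (H92.class_noIso hS hnd) (hΔS hA) (hΔS hB) h
    rw [eq_top_iff, ← H92.lineGen_eq_top hS hnd (hΔS hA) hWA]
    exact sup_le (iSup₂_le fun U hU => fixK A hA U hU.1.1 hU.1.2.2) (fixK B hB W hW.1.1 hW.1.2.2)

end Cfsg.Agent.S5040
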