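import Cfsg.Statements.S5043
import Cfsg.Agent.H2.Root.SLTransvStd

set_option autoImplicit false
open Matrix
open Cfsg

namespace Cfsg.Agent.S5043

/-- Let k be a field and n a natural number. In SL_{n+3}(k) (so in every dimension at least 3) the conjugates of the root subgroup of elementary transvections 1 + c E₁₂ (c ∈ k) — that is, the groups of transvections attached to an incident point–hyperplane pair — form a non-degenerate class of abstract k-root subgroups of SL_{n+3}(k) whose graph of rank one pairs is connected. -/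
theorem result (k : Type*) [Field k] (n : ℕ) :
    Cfsg.IsRootSubgroupClass {A : Subgroup (Matrix.SpecialLinearGroup (Fin (n + 3)) k) |
        ∃ g : Matrix.SpecialLinearGroup (Fin (n + 3)) k,
          A = Cfsg.conjBy (Subgroup.closure {t : Matrix.SpecialLinearGroup (Fin (n + 3)) k |
            ∃ c : k, (t : Matrix (Fin (n + 3)) (Fin (n + 3)) k) = Matrix.transvection 0 1 c}) g} ∧
    Cfsg.IsNondegenerateRootSet {A : Subgroup (Matrix.SpecialLinearGroup (Fin (n + 3)) k) |
        ∃ g : Matrix.SpecialLinearGroup (Fin (n + 3)) k,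
          A = Cfsg.conjBy (Subgroup.closure {t : Matrix.SpecialLinearGroup (Fin (n + 3)) k |
            ∃ c : k, (t : Matrix (Fin (n + 3)) (Fin (n + 3)) k) = Matrix.transvection 0 1 c}) g} ∧
    Cfsg.IsKRootSubgroupSet k {A : Subgroup (Matrix.SpecialLinearGroup (Fin (n + 3)) k) |
        ∃ g : Matrix.SpecialLinearGroup (Fin (n + 3)) k,
          A = Cfsg.conjBy (Subgroup.closure {t : Matrix.SpecialLinearGroup (Fin (n + 3)) k |
            ∃ c : k, (t : Matrix (Fin (n + 3)) (Fin (n + 3)) k) = Matrix.transvection 0 1 c}) g} ∧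
    Cfsg.IsConnectedFamily (Cfsg.FAdj {A : Subgroup (Matrix.SpecialLinearGroup (Fin (n + 3)) k) |
        ∃ g : Matrix.SpecialLinearGroup (Fin (n + 3)) k,
          A = Cfsg.conjBy (Subgroup.closure {t : Matrix.SpecialLinearGroup (Fin (n + 3)) k |
            ∃ c : k, (t : Matrix (Fin (n + 3)) (Fin (n + 3)) k) = Matrix.transvection 0 1 c}) g})
      {A : Subgroup (Matrix.SpecialLinearGroup (Fin (n + 3)) k) |
        ∃ g : Matrix.SpecialLinearGroup (Fin (n + 3)) k,
          A = Cfsg.conjBy (Subgroup.closure {t : Matrix.SpecialLinearGroup (Fin (n + 3)) k |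
            ∃ c : k, (t : Matrix (Fin (n + 3)) (Fin (n + 3)) k) = Matrix.transvection 0 1 c}) g} := by
  simp only [H2.elementary_class (F := k) (n := n + 3) (i := 0) (j := 1) (Nat.le_add_left 3 n)
    (by simp)]
  exact H2.elementary_class_main (Nat.le_add_left 3 n)

end Cfsg.Agent.S5043
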