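import Cfsg.Statements.S5045
import Cfsg.Agent.H92.RootInvIsolated

set_option autoImplicit false
open Cfsg

namespace Cfsg.Agent.S5045

/-- Let G be a finite group generated by a set D of root involutions, and W the set of members of D whose product with every other member of D has even order or is trivial (the isolated vertices of the odd-order-product graph on D). Then W is conjugation-invariant and generates a normal 2-subgroup of G meeting D in exactly W; the commutator of two members of D lying in different connected components of that graph, each with more than one member, lies in the subgroup generated by W; and for a in such a component, every member of D commuting with a, different from a and with product with a in D, lies in that component or in W. -/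
theorem result {G : Type*} [Group G] [Finite G] {D : Set G} (hD : Cfsg.IsRootInvolutionSet D) :
    (∀ w ∈ {w | Cfsg.IsIsolatedElem (Cfsg.OddAdj D) D w}, ∀ g : G, g * w * g⁻¹ ∈ {w | Cfsg.IsIsolatedElem (Cfsg.OddAdj D) D w}) ∧
    (Subgroup.closure {w | Cfsg.IsIsolatedElem (Cfsg.OddAdj D) D w}).Normal ∧
    IsPGroup 2 ↥(Subgroup.closure {w | Cfsg.IsIsolatedElem (Cfsg.OddAdj D) D w}) ∧
    (Subgroup.closure {w | Cfsg.IsIsolatedElem (Cfsg.OddAdj D) D w} : Set G) ∩ D = {w | Cfsg.IsIsolatedElem (Cfsg.OddAdj D) D w} ∧
    (∀ a ∈ D, ∀ b ∈ D, (∃ a' ∈ Cfsg.elemComponentOf (Cfsg.OddAdj D) D a, a' ≠ a) →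
      (∃ b' ∈ Cfsg.elemComponentOf (Cfsg.OddAdj D) D b, b' ≠ b) →
      Cfsg.elemComponentOf (Cfsg.OddAdj D) D a ≠ Cfsg.elemComponentOf (Cfsg.OddAdj D) D b →
        a * b * a⁻¹ * b⁻¹ ∈ Subgroup.closure {w | Cfsg.IsIsolatedElem (Cfsg.OddAdj D) D w}) ∧
    (∀ a ∈ D, (∃ a' ∈ Cfsg.elemComponentOf (Cfsg.OddAdj D) D a, a' ≠ a) →
      Cfsg.productPartners D a ⊆ Cfsg.elemComponentOf (Cfsg.OddAdj D) D a ∪ {w | Cfsg.IsIsolatedElem (Cfsg.OddAdj D) D w}) := by
  refine ⟨fun w hw g => H92.RI.isolated_conj hD hw g, H92.RI.isolated_normal hD,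
    H92.RI.isolated_isPGroup hD, ?_, ?_, ?_⟩
  · ext d
    refine ⟨fun h => H92.RI.isolated_inter hD h.2 h.1, fun h => ⟨Subgroup.subset_closure h, h.1⟩⟩
  · intro a ha b hb hna hnb hne
    exact H92.RI.comm_components hD ha hb (H92.RI.exists_adj_of_component hD hna)
      (H92.RI.exists_adj_of_component hD hnb) hne
  · intro a _ hna
    exact H92.RI.partners_subset hD (H92.RI.exists_adj_of_component hD hna)

end Cfsg.Agent.S5045
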