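import Cfsg.Statements.S5049
import Cfsg.Agent.H92.RootInvCore

set_option autoImplicit false
open Cfsg

namespace Cfsg.Agent.S5049

/-- Let G be a finite group generated by a set D of odd transpositions (root involutions with no product of order 4), Q = O₂(G), and for a ∈ D let Q_a be the commutator subgroup of Q with a. Then every member of D commuting with a centralizes Q_a; and for b ∈ D with ab of odd order greater than 1, the centralizer of ab in Q is the intersection of the centralizers of a and b in Q. -/
theorem result {G : Type*} [Group G] [Finite G] {D : Set G} (hD : Cfsg.IsOddTranspositionSet D) {a : G} (ha : a ∈ D) :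
    (∀ e ∈ Cfsg.commutingMembers D a, ∀ q ∈ ⁅Cfsg.pCore 2 G, Subgroup.zpowers a⁆, e * q = q * e) ∧
    (∀ b ∈ Cfsg.oddPartners D a,
      Cfsg.pCore 2 G ⊓ Subgroup.centralizer {a * b} = Cfsg.pCore 2 G ⊓ Subgroup.centralizer {a} ⊓ Subgroup.centralizer {b}) := by
  refine ⟨fun e he q hq => ?_, fun b hb => ?_⟩
  · exact ((Subgroup.mem_centralizer_singleton_iff.mp
      (H92.RI.comm_commutator_core hD ha he.1 he.2 hq))).symm
  · obtain ⟨hbD, hne, ho⟩ := hb
    ext q
    simp only [Subgroup.mem_inf, Subgroup.mem_centralizer_singleton_iff]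
    constructor
    · rintro ⟨hq, hc⟩
      obtain ⟨h1, h2⟩ := H92.RI.centralizer_product_core hD ha hbD hne.symm ho hq hc
      exact ⟨⟨hq, h1⟩, h2⟩
    · rintro ⟨⟨hq, h1⟩, h2⟩
      exact ⟨hq, by rw [← mul_assoc, h1, mul_assoc, h2, ← mul_assoc]⟩

end Cfsg.Agent.S5049
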