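import Cfsg.Statements.S5057

set_option autoImplicit false
open Cfsg

namespace Cfsg.Agent.S5057

/-- The involutions of the alternating group of degree 6 form a class of root involutions (a single conjugacy class of involutions generating the group, any two of which commute, have product of odd order, or have product of order 4 whose square is again an involution of the class), and the product of any two of them has order at most 5. -/
theorem result :
    Cfsg.IsRootInvolutionClass {g : ↥(alternatingGroup (Fin 6)) | orderOf g = 2} ∧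
    ∀ d ∈ {g : ↥(alternatingGroup (Fin 6)) | orderOf g = 2}, ∀ e ∈ {g : ↥(alternatingGroup (Fin 6)) | orderOf g = 2},
      orderOf (d * e) ≤ 5 := by
  have hfour : ∀ g : ↥(alternatingGroup (Fin 6)),
      orderOf g = 2 ↔ (g : Equiv.Perm (Fin 6)).cycleType = {2, 2} := by
    intro g
    rw [← Subgroup.orderOf_coe]
    constructor
    · intro h
      obtain ⟨n, hn⟩ := Equiv.Perm.cycleType_prime_order (by rw [h]; exact Nat.prime_two)
      rw [h] at hn
      have hsum : (g : Equiv.Perm (Fin 6)).cycleType.sum ≤ 6 := by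
        rw [Equiv.Perm.sum_cycleType]; exact (Finset.card_le_univ _).trans (by simp)
      have hsign := Equiv.Perm.mem_alternatingGroup.1 g.2
      rw [Equiv.Perm.sign_of_cycleType, hn] at hsign
      rw [hn, Multiset.sum_replicate, smul_eq_mul] at hsum
      have hn3 : n = 0 ∨ n = 1 ∨ n = 2 := by omega
      rw [hn]
      rcases hn3 with rfl | rfl | rfl
      · simp [← Units.val_inj] at hsign
      · rfl
      · simp [← Units.val_inj, Multiset.replicate_succ] at hsign
    · intro h
      rw [← Equiv.Perm.lcm_cycleType, h]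
      rfl
  have hconj : ∀ a b : ↥(alternatingGroup (Fin 6)), orderOf a = 2 → orderOf b = 2 → IsConj a b := by
    intro a b ha hb
    refine alternatingGroup.isConj_of ?_ ?_
    · rw [Equiv.Perm.isConj_iff_cycleType_eq, (hfour a).1 ha, (hfour b).1 hb]
    · rw [← Equiv.Perm.sum_cycleType, (hfour a).1 ha]
      simp
  set d₀ : Equiv.Perm (Fin 6) := Equiv.swap 0 1 * Equiv.swap 2 3 with hd₀
  have hd₀A : d₀ ∈ alternatingGroup (Fin 6) := by
    rw [Equiv.Perm.mem_alternatingGroup, hd₀]; simp
  have hbase : ∀ e : Equiv.Perm (Fin 6), e * e = 1 → Equiv.Perm.sign e = 1 →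
      d₀ * e = 1 ∨ (d₀ * e) ^ 2 = 1 ∨ (d₀ * e) ^ 3 = 1 ∨ (d₀ * e) ^ 5 = 1 ∨ (d₀ * e) ^ 4 = 1 := by
    rw [hd₀]
    decide +kernel
  have hd₀2 : orderOf (⟨d₀, hd₀A⟩ : ↥(alternatingGroup (Fin 6))) = 2 := by
    rw [Subgroup.orderOf_mk]
    exact orderOf_eq_prime (by rw [hd₀]; decide +kernel) (by rw [hd₀]; decide +kernel)
  have hpair : ∀ d e : ↥(alternatingGroup (Fin 6)), orderOf d = 2 → orderOf e = 2 →
      orderOf (d * e) ≤ 5 ∧ (orderOf (d * e) = 1 ∨ orderOf (d * e) = 2 ∨ orderOf (d * e) = 3 ∨
        orderOf (d * e) = 4 ∨ orderOf (d * e) = 5) := by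
    intro d e hd he
    obtain ⟨g, hg⟩ := isConj_iff.1 (hconj d ⟨d₀, hd₀A⟩ hd hd₀2)
    set e' := g * e * g⁻¹ with he'
    have he2 : orderOf e' = 2 := by
      rw [he', ← orderOf_injective (MulAut.conj g).toMonoidHom (MulAut.conj g).injective e] at *
      exact he
    have h1 : (e' : Equiv.Perm (Fin 6)) * e' = 1 := by
      have := pow_orderOf_eq_one e'
      rw [he2, pow_two] at this
      exact congrArg Subtype.val this
    have hord : orderOf (d * e) = orderOf (d₀ * (e' : Equiv.Perm (Fin 6))) := by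
      rw [← orderOf_injective (MulAut.conj g).toMonoidHom (MulAut.conj g).injective (d * e), map_mul,
        ← Subgroup.orderOf_coe]
      have hg' : (MulAut.conj g).toMonoidHom d = ⟨d₀, hd₀A⟩ := hg
      rw [hg']
      rfl
    rw [hord]
    have key : orderOf (d₀ * (e' : Equiv.Perm (Fin 6))) ∣ 1 ∨ orderOf (d₀ * (e' : Equiv.Perm (Fin 6))) ∣ 2 ∨
        orderOf (d₀ * (e' : Equiv.Perm (Fin 6))) ∣ 3 ∨ orderOf (d₀ * (e' : Equiv.Perm (Fin 6))) ∣ 5 ∨
        orderOf (d₀ * (e' : Equiv.Perm (Fin 6))) ∣ 4 := by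
      simp only [orderOf_dvd_iff_pow_eq_one, pow_one]
      exact hbase _ h1 (Equiv.Perm.mem_alternatingGroup.1 e'.2)
    have hpos := (orderOf_pos (d₀ * (e' : Equiv.Perm (Fin 6))))
    have hle : orderOf (d₀ * (e' : Equiv.Perm (Fin 6))) ≤ 5 := by
      rcases key with h | h | h | h | h <;> have := Nat.le_of_dvd (by norm_num) h <;> omega
    refine ⟨hle, ?_⟩
    omega
  refine ⟨⟨⟨fun d hd => hd, ?_, ?_, ?_⟩, ⟨⟨d₀, hd₀A⟩, hd₀2⟩, ?_⟩, fun d hd e he => (hpair d e hd he).1⟩
  · rw [eq_top_iff, ← alternatingGroup.closure_cycleType_eq_two_two_eq_top (α := Fin 6) (by simp)]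
    exact Subgroup.closure_mono fun g hg => (hfour g).2 hg
  · intro d hd g
    exact (orderOf_injective (MulAut.conj g).toMonoidHom (MulAut.conj g).injective d).trans hd
  · intro a ha b hb
    rcases (hpair a b ha hb).2 with h | h | h | h | h
    · right; left; rw [h]; decide
    · left
      have h2 := pow_orderOf_eq_one (a * b)
      rw [h, pow_two] at h2
      have a2 := pow_orderOf_eq_one a
      have b2 := pow_orderOf_eq_one b
      rw [show orderOf a = 2 from ha, pow_two] at a2
      rw [show orderOf b = 2 from hb, pow_two] at b2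
      calc a * b = (a * b)⁻¹ := eq_inv_of_mul_eq_one_left h2
        _ = b * a := by rw [mul_inv_rev, inv_eq_of_mul_eq_one_right a2, inv_eq_of_mul_eq_one_right b2]
    · right; left; rw [h]; decide
    · right; right
      refine ⟨h, ?_⟩
      show orderOf ((a * b) ^ 2) = 2
      rw [orderOf_pow' _ (by norm_num), h]
      rfl
    · right; left; rw [h]; decide
  · intro a ha b hb
    obtain ⟨g, hg⟩ := isConj_iff.1 (hconj a b ha hb)
    exact ⟨g, hg.symm⟩

end Cfsg.Agent.S5057
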