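import Cfsg.Statements.S5058
import Cfsg.Agent.H2.Root.SLRootInvolutions

set_option autoImplicit false
open Matrix
open Cfsg

namespace Cfsg.Agent.S5058

/-- Let F be a finite field of characteristic 2 and n a natural number. Then the transvections of SL_{n+3}(F) (so in every dimension at least 3) (the conjugates of the elementary matrices 1 + c E₁₂, c ≠ 0) form a class of root involutions of SL_{n+3}(F); when F has two elements they form a class of {3,4}⁺-transpositions (every product of odd order has order 1 or 3). -/
theorem result (F : Type*) [Field F] [Fintype F] [CharP F 2] (n : ℕ) :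
    Cfsg.IsRootInvolutionClass {t : Matrix.SpecialLinearGroup (Fin (n + 3)) F | ∃ c : F, c ≠ 0 ∧
        ∃ g : Matrix.SpecialLinearGroup (Fin (n + 3)) F, ((g⁻¹ * t * g : Matrix.SpecialLinearGroup (Fin (n + 3)) F) :
          Matrix (Fin (n + 3)) (Fin (n + 3)) F) = Matrix.transvection 0 1 c} ∧
    (Fintype.card F = 2 → Cfsg.IsThreeFourPlusTranspositionSet {t : Matrix.SpecialLinearGroup (Fin (n + 3)) F | ∃ c : F, c ≠ 0 ∧
        ∃ g : Matrix.SpecialLinearGroup (Fin (n + 3)) F, ((g⁻¹ * t * g : Matrix.SpecialLinearGroup (Fin (n + 3)) F) :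
          Matrix (Fin (n + 3)) (Fin (n + 3)) F) = Matrix.transvection 0 1 c}) := by
  rw [H2.elementary_tvSet (Nat.le_add_left 3 n) (by simp)]
  exact H2.tvSet_rootInvolutions (Nat.le_add_left 3 n)

end Cfsg.Agent.S5058
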