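import Cfsg.Statements.S5060
import Cfsg.Agent.H92.QP.Machine

set_option autoImplicit false
open Cfsg

namespace Cfsg.Agent.S5060

/-- Let k ⊆ K be fields with the characteristic of k not 2 and k not of order 3, and let α ∈ K be a non-zero element algebraic over k. Then the subgroup of SL₂(K) generated by the upper unitriangular matrices with entry c and the lower unitriangular matrices with entry cα, c ranging over k, is exactly the group of matrices of SL₂(K) with all entries in k(α). -/
theorem result {k K : Type*} [Field k] [Field K] [Algebra k K] (hk2 : ringChar k ≠ 2) (hk3 : Nat.card k ≠ 3)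
    (α : K) (hα : IsAlgebraic k α) (hα0 : α ≠ 0) :
    (Subgroup.closure ({g : Matrix.SpecialLinearGroup (Fin 2) K | ∃ c : k, (g : Matrix (Fin 2) (Fin 2) K) = !![1, algebraMap k K c; 0, 1]} ∪
        {g : Matrix.SpecialLinearGroup (Fin 2) K | ∃ c : k, (g : Matrix (Fin 2) (Fin 2) K) = !![1, 0; algebraMap k K c * α, 1]}) :
      Set (Matrix.SpecialLinearGroup (Fin 2) K)) =
    {g : Matrix.SpecialLinearGroup (Fin 2) K | ∀ i j : Fin 2, (g : Matrix (Fin 2) (Fin 2) K) i j ∈ IntermediateField.adjoin k ({α} : Set K)} := by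
  open Cfsg.Agent.H92 Cfsg.Agent.H92.QP in
  · have h2 : (2 : k) ≠ 0 := Ring.two_ne_zero hk2
    set L := IntermediateField.adjoin k ({α} : Set K) with hL
    haveI : FiniteDimensional k L := IntermediateField.adjoin.finiteDimensional hα.isIntegral
    let a : L := ⟨α, IntermediateField.subset_adjoin k _ rfl⟩
    let w : Lˣ := Units.mk0 a (fun e => hα0 (congrArg Subtype.val e))
    have hgen : Algebra.adjoin k ({(w : L)} : Set L) = ⊤ := by
      rw [eq_top_iff]
      rintro ⟨x, hx⟩ -
      have hx' : x ∈ Algebra.adjoin k ({α} : Set K) := by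
        rwa [← IntermediateField.adjoin_simple_toSubalgebra_of_isAlgebraic hα]
      rw [Algebra.adjoin_singleton_eq_range_aeval] at hx' ⊢
      obtain ⟨q, hq⟩ := hx'
      refine ⟨q, Subtype.ext ?_⟩
      exact (Polynomial.aeval_algHom_apply L.val a q).symm.trans hq
    let ψ : Matrix.SpecialLinearGroup (Fin 2) L →* Matrix.SpecialLinearGroup (Fin 2) K :=
      Matrix.SpecialLinearGroup.map (algebraMap L K)
    set S := Subgroup.closure ({g : Matrix.SpecialLinearGroup (Fin 2) K | ∃ c : k, (g : Matrix (Fin 2) (Fin 2) K) = !![1, algebraMap k K c; 0, 1]} ∪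
        {g : Matrix.SpecialLinearGroup (Fin 2) K | ∃ c : k, (g : Matrix (Fin 2) (Fin 2) K) = !![1, 0; algebraMap k K c * α, 1]}) with hS
    have hall : ∀ g, ψ g ∈ S := by
      have key := sl2_machine h2 hk3 w hgen (H := S.comap ψ)
        (fun c => Subgroup.subset_closure (Or.inl ⟨c, by ext i j; fin_cases i <;> fin_cases j <;> simp [ψ] <;> first | rfl | exact Or.inl rfl⟩))
        (fun c => Subgroup.subset_closure (Or.inr ⟨c, by ext i j; fin_cases i <;> fin_cases j <;> simp [ψ] <;> first | rfl | exact Or.inl rfl⟩)) 0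
      rcases key with ⟨r, hr, hr', -⟩ | ⟨-, e1, e2⟩
      · exact absurd (IsUnit.mk0 r hr) hr'
      · intro g
        show g ∈ S.comap ψ
        have hle : (⊤ : Subgroup (Matrix.SpecialLinearGroup (Fin 2) L)) ≤ S.comap ψ := by
          rw [← sl2_closure_sx_sy, Subgroup.closure_le]
          rintro _ (⟨t, rfl⟩ | ⟨t, rfl⟩)
          · exact e1 t
          · exact e2 (-t)
        exact hle (Subgroup.mem_top g)
    ext g
    constructor
    · intro hg
      have hle : S ≤ ψ.range := by
        rw [hS, Subgroup.closure_le]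
        rintro x (⟨c, hc⟩ | ⟨c, hc⟩)
        · exact ⟨eU (algebraMap k L c), by ext i j; rw [hc]; fin_cases i <;> fin_cases j <;> simp [ψ] <;> first | rfl | exact Or.inl rfl⟩
        · exact ⟨eL (algebraMap k L c * a), by ext i j; rw [hc]; fin_cases i <;> fin_cases j <;> simp [ψ] <;> first | rfl | exact Or.inl rfl⟩
      obtain ⟨y, rfl⟩ := hle hg
      exact fun i j => (y i j).2
    · intro hg
      let y : Matrix.SpecialLinearGroup (Fin 2) L := ⟨Matrix.of fun i j => (⟨g i j, hg i j⟩ : L), by
        apply Subtype.val_injective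
        rw [Matrix.det_fin_two]
        simp
        rw [← Matrix.det_fin_two]; exact g.2⟩
      have : ψ y = g := by ext i j; rfl
      exact this ▸ hall y

end Cfsg.Agent.S5060
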