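import Cfsg.Statements.S5063
import Cfsg.Agent.H92.QP.Product

set_option autoImplicit false
universe u
open Cfsg

namespace Cfsg.Agent.S5063

/-- Let k be a field of characteristic not 2 with k not of order 3, M a finite-dimensional k-vector space and G ≤ GL(M) such that (G, M) is a quadratic pair (M irreducible for G, and G generated by its quadratically acting elements σ whose scalar family 1 + c(σ − 1), c ∈ k, lies in G). Write 𝒬_d for the quadratic elements of G of minimal commutator rank, E(σ) for the subgroup generated by the members of 𝒬_d with the same fixed space and commutator space as σ, and Σ for the set of these subgroups. Then G is a central product of finitely many quasisimple normal subgroups G₁, …, G_s (pairwise commuting and together generating G), each generated by the quadratic elements of G it contains, and every quadratic element of G lies in one of them. -/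
theorem result {k : Type u} [Field k] (hk2 : ringChar k ≠ 2) (hk3 : Nat.card k ≠ 3)
    {M : Type u} [AddCommGroup M] [Module k M] [FiniteDimensional k M]
    {G : Subgroup (LinearMap.GeneralLinearGroup k M)} (hG : Cfsg.IsQuadraticPair G) :
    ∃ (s : ℕ) (Gi : Fin s → Subgroup (LinearMap.GeneralLinearGroup k M)),
      (∀ i, Gi i ≤ G ∧ ∀ g ∈ G, Cfsg.conjBy (Gi i) g = Gi i) ∧ (∀ i j, i ≠ j → ⁅Gi i, Gi j⁆ = ⊥) ∧ (⨆ i, Gi i) = G ∧
      (∀ i, Cfsg.IsQuasisimple ↥(Gi i) ∧ Subgroup.closure (Cfsg.quadraticElements G ∩ (Gi i : Set (LinearMap.GeneralLinearGroup k M))) = Gi i) ∧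
      Cfsg.quadraticElements G ⊆ ⋃ i, (Gi i : Set (LinearMap.GeneralLinearGroup k M)) := by
  open Cfsg.Agent.H92.QP in
  · have hP := pair_of_quadraticPair hk2 hk3 hG
    obtain ⟨ι, hι, Gi, d1, d2, d3, d4, d5⟩ := decomp_all (Module.finrank k M + 1) hP fun y _ _ => by omega
    let e := (Fintype.equivFin ι).symm
    refine ⟨Fintype.card ι, fun i => Gi (e i), fun i => d1 _, fun i j h => d2 _ _ (e.injective.ne h), ?_, fun i => d4 _, ?_⟩
    · rw [← d3]; exact e.surjective.iSup_comp Gi
    · exact d5.trans (Set.iUnion_subset fun i => Set.subset_iUnion_of_subset (e.symm i) (by simp))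

end Cfsg.Agent.S5063
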