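import Cfsg.Statements.S5064
import Cfsg.Agent.H92.QP.PairN
import Cfsg.Agent.H92.QP.Bridge

set_option autoImplicit false
universe u
open Cfsg

namespace Cfsg.Agent.S5064

/-- Let k be a field of characteristic not 2 with k not of order 3, M a finite-dimensional k-vector space and G ≤ GL(M) such that (G, M) is a quadratic pair (M irreducible for G, and G generated by its quadratically acting elements σ whose scalar family 1 + c(σ − 1), c ∈ k, lies in G). Write 𝒬_d for the quadratic elements of G of minimal commutator rank, E(σ) for the subgroup generated by the members of 𝒬_d with the same fixed space and commutator space as σ, and Σ for the set of these subgroups. If σ, τ ∈ 𝒬_d and the subgroup H generated by their two scalar families does not act unipotently on M, then H is isomorphic to SL₂ over a simple algebraic extension k(λ) of k. -/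
theorem result {k : Type u} [Field k] (hk2 : ringChar k ≠ 2) (hk3 : Nat.card k ≠ 3)
    {M : Type u} [AddCommGroup M] [Module k M] [FiniteDimensional k M]
    {G : Subgroup (LinearMap.GeneralLinearGroup k M)} (hG : Cfsg.IsQuadraticPair G)
    {σ τ : LinearMap.GeneralLinearGroup k M} (hσ : σ ∈ Cfsg.minimalQuadraticElements G) (hτ : τ ∈ Cfsg.minimalQuadraticElements G)
    (hH : ¬ Cfsg.IsUnipotentOn (Subgroup.closure (Cfsg.scalarFamily σ ∪ Cfsg.scalarFamily τ))) :
    ∃ (K : Type u) (_ : Field K) (_ : Algebra k K) (lam : K), IsAlgebraic k lam ∧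
      IntermediateField.adjoin k ({lam} : Set K) = ⊤ ∧
      Nonempty (↥(Subgroup.closure (Cfsg.scalarFamily σ ∪ Cfsg.scalarFamily τ)) ≃* Matrix.SpecialLinearGroup (Fin 2) K) := by
  open Cfsg.Agent.H92 Cfsg.Agent.H92.QP in
  · have h2 : (2 : k) ≠ 0 := two_ne_zero_of_ringChar hk2
    have hs := mem_minimalQuadraticElements.1 hσ
    have ht := mem_minimalQuadraticElements.1 hτ
    set s : Module.End k M := (σ : Module.End k M) - 1 with hsdef
    set t : Module.End k M := (τ : Module.End k M) - 1 with htdef
    rw [scalarFamily_eq hs.1.1, scalarFamily_eq ht.1.1] at hH ⊢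
    have hz : ¬ IsNilpotent (s * t + t * s) := fun hn => hH <|
      isUnipotentOn_pair hs.1.1 ht.1.1 (nilp_pair h2 hs ht.1 hn)
        (nilp_pair h2 ht hs.1 (by rwa [add_comm])) le_rfl
    obtain ⟨ν, π, wi, e, P⟩ := exists_npair h2 hk3 hs ht.1 hz
    have F := P.fit
    haveI : Module.Finite k (AdjoinRoot ν) := F.monic.finite_adjoinRoot
    haveI : Nontrivial (AdjoinRoot ν) := AdjoinRoot.nontrivial ν (by
      rw [Polynomial.degree_eq_natDegree F.monic.ne_zero]; exact_mod_cast F.deg)
    letI : Field (AdjoinRoot ν) := IsField.toField (IsField.mk ⟨0, 1, zero_ne_one⟩ mul_comm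
      (fun {a} ha => (P.field a ha).exists_right_inv))
    refine ⟨AdjoinRoot ν, inferInstance, inferInstance, AdjoinRoot.root ν,
      (Algebra.IsIntegral.isIntegral _).isAlgebraic, ?_, ?_⟩
    · rw [eq_top_iff]
      intro x _
      have hx : x ∈ Algebra.adjoin k ({AdjoinRoot.root ν} : Set (AdjoinRoot ν)) :=
        AdjoinRoot.adjoinRoot_eq_top (R := k) (f := ν) ▸ Algebra.mem_top
      exact IntermediateField.algebra_adjoin_le_adjoin k _ hx
    · have hgen := AdjoinRoot.adjoinRoot_eq_top (R := k) (f := ν)
      have hu : IsUnit (AdjoinRoot.root ν) := isUnit_root F.coeff0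
      obtain ⟨w, hw⟩ := hu
      set Γ := Subgroup.closure (Set.range (fun c : k => eU (algebraMap k (AdjoinRoot ν) c)) ∪
        Set.range (fun c : k => eL (algebraMap k (AdjoinRoot ν) c * AdjoinRoot.root ν))) with hΓ
      have hΓtop : Γ = ⊤ := by
        rcases sl2_machine h2 hk3 w (by rw [hw]; exact hgen) (H := Γ)
          (fun c => Subgroup.subset_closure (Or.inl ⟨c, rfl⟩))
          (fun c => Subgroup.subset_closure (Or.inr ⟨c, by rw [hw]⟩)) 0 with ⟨r, hr, hru, -⟩ | ⟨-, hU, hL⟩
        · exact absurd (P.field r hr) hru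
        · rw [eq_top_iff, ← sl2_closure_sx_sy, Subgroup.closure_le]
          rintro _ (⟨x, rfl⟩ | ⟨x, rfl⟩)
          · exact hU x
          · exact hL (-x)
      have e : F.phi.range = Subgroup.closure (Set.range (fun c : k => ex (c • s)) ∪
          Set.range (fun c : k => ex (c • t))) := by
        have ht' : π * t = t := P.pit ht
        rw [MonoidHom.range_eq_map, ← hΓtop, hΓ, MonoidHom.map_closure, Set.image_union, ← Set.range_comp,
          ← Set.range_comp]
        congr 2 <;> refine congrArg Set.range (funext fun c => Units.ext ?_)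
        · rw [Function.comp_apply, ex_val (smul_sq hs.1.1 c), F.phi_eU_val, F.rho_algebraMap, smul_mul_assoc,
            F.pi_s1, Fit.s1, P.pis]
        · rw [Function.comp_apply, ex_val (smul_sq ht.1.1 c), F.phi_eL_val, F.rho_mul, F.rho_algebraMap,
            F.rho_root, smul_mul_assoc, smul_mul_assoc, ← mul_assoc π π, F.idem, Fit.u, mul_assoc π,
            ← mul_assoc _ wi, F.inv, ← mul_assoc, F.idem, ht']
      rw [← e]
      exact ⟨(MonoidHom.ofInjective F.phi_injective).symm⟩

end Cfsg.Agent.S5064
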