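import Cfsg.Statements.S5065
import Cfsg.Agent.H92.QP.Special

set_option autoImplicit false
universe u
open Cfsg

namespace Cfsg.Agent.S5065

/-- Let k be a field of characteristic not 2 with k not of order 3, M a finite-dimensional k-vector space and G ≤ GL(M) such that (G, M) is a quadratic pair (M irreducible for G, and G generated by its quadratically acting elements σ whose scalar family 1 + c(σ − 1), c ∈ k, lies in G). Write 𝒬_d for the quadratic elements of G of minimal commutator rank, E(σ) for the subgroup generated by the members of 𝒬_d with the same fixed space and commutator space as σ, and Σ for the set of these subgroups. For σ, τ ∈ 𝒬_d put A = E(σ), B = E(τ) and X = ⟨A, B⟩. Then either X acts unipotently on M, or A and B are the unipotent subgroups of a special rank one group X; in the latter case X contains exactly one central involution acting as −1 on the commutator space [M, X] and trivially on the fixed space C_M(X), and M is the direct sum of C_M(X) and [M, X]. -/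
theorem result {k : Type u} [Field k] (hk2 : ringChar k ≠ 2) (hk3 : Nat.card k ≠ 3)
    {M : Type u} [AddCommGroup M] [Module k M] [FiniteDimensional k M]
    {G : Subgroup (LinearMap.GeneralLinearGroup k M)} (hG : Cfsg.IsQuadraticPair G)
    {σ τ : LinearMap.GeneralLinearGroup k M} (hσ : σ ∈ Cfsg.minimalQuadraticElements G) (hτ : τ ∈ Cfsg.minimalQuadraticElements G) :
    Cfsg.IsUnipotentOn (Cfsg.sameActionSubgroup G σ ⊔ Cfsg.sameActionSubgroup G τ) ∨
    (Cfsg.IsSpecialRankOnePair (Cfsg.sameActionSubgroup G σ) (Cfsg.sameActionSubgroup G τ) ∧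
      (∃! i : LinearMap.GeneralLinearGroup k M, i ∈ Cfsg.sameActionSubgroup G σ ⊔ Cfsg.sameActionSubgroup G τ ∧ i ≠ 1 ∧ i * i = 1 ∧
        (∀ x ∈ Cfsg.sameActionSubgroup G σ ⊔ Cfsg.sameActionSubgroup G τ, i * x = x * i) ∧
        (∀ m ∈ Cfsg.commutatorSubmodule (Cfsg.sameActionSubgroup G σ ⊔ Cfsg.sameActionSubgroup G τ), (i : M →ₗ[k] M) m = -m) ∧
        (∀ m ∈ Cfsg.fixedSubmodule (Cfsg.sameActionSubgroup G σ ⊔ Cfsg.sameActionSubgroup G τ), (i : M →ₗ[k] M) m = m)) ∧
      IsCompl (Cfsg.fixedSubmodule (Cfsg.sameActionSubgroup G σ ⊔ Cfsg.sameActionSubgroup G τ))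
        (Cfsg.commutatorSubmodule (Cfsg.sameActionSubgroup G σ ⊔ Cfsg.sameActionSubgroup G τ))) := by
  open Cfsg.Agent.H92.QP in
  · have h2 := two_ne_zero_of_ringChar hk2
    have hs := mem_minimalQuadraticElements.1 hσ
    have ht := mem_minimalQuadraticElements.1 hτ
    rw [(sameActionSubgroup_eq hσ).1, (sameActionSubgroup_eq hτ).1]
    set s : Module.End k M := (σ : Module.End k M) - 1
    set t : Module.End k M := (τ : Module.End k M) - 1
    by_cases hn : Nn s t
    swap
    · exact Or.inl (isUnipotentOn_of_not_nn h2 hk3 hn hs ht)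
    right
    obtain ⟨π, i, hidem, hi, hival, hπ0, hcor, hcomm, hfix⟩ := npair_geometry h2 hk3 hn hs ht
    have hpc : ∀ x ∈ eg G s ⊔ eg G t, π * (x : Module.End k M) = (x : Module.End k M) * π := by
      intro x hx
      obtain ⟨a, b⟩ := hcor x hx
      have e := a.trans b.symm
      rw [mul_sub, sub_mul, mul_one, one_mul] at e
      exact sub_left_injective e
    refine ⟨specialPair h2 hk3 hn hs ht, ⟨i, ⟨hi, ?_, ?_, ?_, ?_, ?_⟩, ?_⟩, ?_⟩
    · intro e
      rw [e, Units.val_one] at hival
      apply hπ0
      have : (2 : k) • π = 0 := by rw [two_smul]; linear_combination (norm := abel) hival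
      exact (smul_eq_zero.1 this).resolve_left h2
    · apply Units.ext
      rw [Units.val_mul, hival, Units.val_one]
      simp only [mul_sub, sub_mul, mul_one, one_mul, hidem]
      abel
    · intro x hx
      apply Units.ext
      rw [Units.val_mul, Units.val_mul, hival]
      simp only [mul_sub, sub_mul, mul_one, one_mul, hpc x hx]
    · intro m hm
      rw [hcomm] at hm
      obtain ⟨m', rfl⟩ := hm
      rw [show (i : M →ₗ[k] M) = (1 - π) - π from hival]
      have : π (π m') = π m' := LinearMap.congr_fun hidem m'
      simp [this]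
    · intro m hm
      rw [hfix] at hm
      rw [show (i : M →ₗ[k] M) = (1 - π) - π from hival]
      simp [LinearMap.mem_ker.1 hm]
    · rintro j ⟨hj, -, -, -, hj1, hj2⟩
      apply Units.ext
      rw [hival]
      refine LinearMap.ext fun m => ?_
      have e1 : π (π m) = π m := LinearMap.congr_fun hidem m
      have a := hj1 (π m) (by rw [hcomm]; exact ⟨m, rfl⟩)
      have b := hj2 (m - π m) (by rw [hfix, LinearMap.mem_ker, map_sub, e1, sub_self])
      rw [map_sub, sub_eq_iff_eq_add] at b
      rw [b, a]
      simp [sub_eq_add_neg]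
    · rw [hfix, hcomm]
      refine (LinearMap.IsIdempotentElem.isCompl hidem).symm

end Cfsg.Agent.S5065
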