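import Cfsg.Statements.S5066
import Cfsg.Agent.H92.QP.Surj

set_option autoImplicit false
universe u
open Cfsg

namespace Cfsg.Agent.S5066

/-- Let k be a field of characteristic not 2 with k not of order 3, M a finite-dimensional k-vector space and G ≤ GL(M) such that (G, M) is a quadratic pair (M irreducible for G, and G generated by its quadratically acting elements σ whose scalar family 1 + c(σ − 1), c ∈ k, lies in G). Write 𝒬_d for the quadratic elements of G of minimal commutator rank, E(σ) for the subgroup generated by the members of 𝒬_d with the same fixed space and commutator space as σ, and Σ for the set of these subgroups. Let E, F ∈ Σ generate a subgroup that is nilpotent of class exactly two. Then D = ⁅E, F⁆ belongs to Σ, equals the subgroup generated by the commutators of e with F, and also of E with f, for every non-identity e ∈ E, f ∈ F, and ⟨E, F⟩ lies in U(D), the set of elements g of G normalizing D with (g − 1)M inside the fixed space of D, (g − 1) mapping that fixed space into the commutator space of D, and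 g acting trivially on the commutator space of D. -/
theorem result {k : Type u} [Field k] (hk2 : ringChar k ≠ 2) (hk3 : Nat.card k ≠ 3)
    {M : Type u} [AddCommGroup M] [Module k M] [FiniteDimensional k M]
    {G : Subgroup (LinearMap.GeneralLinearGroup k M)} (hG : Cfsg.IsQuadraticPair G)
    {E F : Subgroup (LinearMap.GeneralLinearGroup k M)} (hE : E ∈ Cfsg.quadraticRootSubgroups G) (hF : F ∈ Cfsg.quadraticRootSubgroups G)
    (h2 : ⁅E ⊔ F, E ⊔ F⁆ ≠ ⊥ ∧ ⁅⁅E ⊔ F, E ⊔ F⁆, E ⊔ F⁆ = ⊥) :
    ⁅E, F⁆ ∈ Cfsg.quadraticRootSubgroups G ∧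
    (∀ e ∈ E, e ≠ 1 → Subgroup.closure ((fun f : LinearMap.GeneralLinearGroup k M => e * f * e⁻¹ * f⁻¹) '' (F : Set (LinearMap.GeneralLinearGroup k M))) = ⁅E, F⁆) ∧
    (∀ f ∈ F, f ≠ 1 → Subgroup.closure ((fun e : LinearMap.GeneralLinearGroup k M => e * f * e⁻¹ * f⁻¹) '' (E : Set (LinearMap.GeneralLinearGroup k M))) = ⁅E, F⁆) ∧
    ((E ⊔ F : Subgroup (LinearMap.GeneralLinearGroup k M)) : Set (LinearMap.GeneralLinearGroup k M)) ⊆ Cfsg.quadraticUnipotentCore G ⁅E, F⁆ := by
  open Cfsg.Agent.H92.QP in
  · obtain ⟨s, hs, rfl⟩ := exists_of_root hE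
    obtain ⟨t, ht, rfl⟩ := exists_of_root hF
    have hP := pair_of_quadraticPair hk2 hk3 hG
    obtain ⟨hne, hc2⟩ := h2
    have hes : (ex s : LinearMap.GeneralLinearGroup k M) ∈ eg G s ⊔ eg G t :=
      Subgroup.mem_sup_left (ex_mem_eg hs.1.1 (mem_self hs.1))
    have key : ∀ b : k, s * conjEnd (ex (b • t)) s = conjEnd (ex (b • t)) s * s := by
      intro b
      have heb : (ex (b • t) : LinearMap.GeneralLinearGroup k M) ∈ eg G s ⊔ eg G t :=
        Subgroup.mem_sup_right (ex_mem_eg ht.1.1 ((mem_self ht.1).smul b))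
      have h1 := Subgroup.commutator_mem_commutator
        (Subgroup.commutator_mem_commutator hes heb) hes
      rw [hc2, Subgroup.mem_bot, commutatorElement_eq_one_iff_mul_comm, commutatorElement_def] at h1
      have e1 : ex (b • t) * (ex s)⁻¹ * (ex (b • t))⁻¹ * ex s = ex s * (ex (b • t) * (ex s)⁻¹ * (ex (b • t))⁻¹) := by
        have := congrArg (fun x => (ex s)⁻¹ * x) h1
        simpa [mul_assoc] using this
      rw [ex_inv hs.1.1, Cfsg.Agent.H92.QP.conj_ex _ (by simpa using hs.1.1), commute_ex_iff] at e1
      · have e2 : conjEnd (ex (b • t)) (-s) = -conjEnd (ex (b • t)) s := by simp [conjEnd]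
        rw [e2, neg_mul, mul_neg, neg_inj] at e1
        exact e1.symm
      · rw [conjEnd_mul, neg_mul_neg, hs.1.1, conjEnd_zero]
      · exact hs.1.1
    have hn : ¬ Nn s t := by
      intro hn
      apply hn
      have a1 := key 1
      have a2 := key (-1)
      rw [conjEnd_ex ht.1.1] at a1 a2
      simp only [one_smul, one_mul, mul_neg, mul_one, neg_neg, neg_smul] at a1 a2
      have : (2 : k) • ((2 : k) • (s * t * s)) = 0 := by
        simp only [mul_add, add_mul, mul_sub, sub_mul, neg_mul, mul_neg, ← mul_assoc, hs.1.1, zero_mul,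
          mul_assoc _ s s, mul_zero, sub_zero, zero_sub, zero_add, neg_neg] at a1 a2
        linear_combination (norm := module) a1 - a2
      exact (smul_eq_zero.1 ((smul_eq_zero.1 this).resolve_left hP.two)).resolve_left hP.two
    have hx : brk s t ≠ 0 := by
      intro hx
      apply hne
      have h0 := eg_commutator_eq_bot hP.two hk3 hs ht hn hx
      rw [eq_bot_iff, Subgroup.commutator_le]
      have hle : eg G s ⊔ eg G t ≤ Subgroup.centralizer ((eg G s ⊔ eg G t : Subgroup _) : Set _) := by
        refine sup_le ?_ ?_ <;> rw [Subgroup.le_centralizer_iff] <;> refine sup_le ?_ ?_ <;> intro z hz <;>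
          rw [Subgroup.mem_centralizer_iff] <;> intro w hw
        · exact eg_comm hs.1.1 hw hz
        · exact Cfsg.Agent.H92.commute_of_commutator_eq_bot h0 hw hz
        · exact (Cfsg.Agent.H92.commute_of_commutator_eq_bot h0 hz hw).symm
        · exact eg_comm ht.1.1 hw hz
      intro z hz w hw
      rw [Subgroup.mem_bot, commutatorElement_eq_one_iff_mul_comm]
      exact (Subgroup.mem_centralizer_iff.1 (hle hz) w hw).symm
    obtain ⟨hxm, hD, -, g1, g2⟩ := hP.bracket_case hs ht hn hx
    rw [hD]
    exact ⟨eg_mem_roots hxm, g1, g2, (hP.bracket_core hs ht hn hx).2.2⟩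

end Cfsg.Agent.S5066
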