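import Cfsg.Statements.S5067

set_option autoImplicit false
open Cfsg
open scoped commutatorElement

namespace Cfsg.Agent.S5067

/-- Let P be a non-abelian nilpotent p-group (every element of p-power order; P possibly infinite) generated by two abelian subgroups E and F. Then the normal closure of E in P, and likewise that of F, has nilpotency class strictly smaller than that of P. -/
theorem result {P : Type*} [Group P] {p : ℕ} [Fact p.Prime] (hP : IsPGroup p P) [Group.IsNilpotent P]
    (hna : ¬ IsMulCommutative P) {E F : Subgroup P} (hE : IsMulCommutative ↥E) (hF : IsMulCommutative ↥F) (hgen : E ⊔ F = ⊤) :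
    Group.nilpotencyClass ↥(Subgroup.normalClosure (E : Set P)) < Group.nilpotencyClass P ∧
    Group.nilpotencyClass ↥(Subgroup.normalClosure (F : Set P)) < Group.nilpotencyClass P := by
  have hc : 2 ≤ Group.nilpotencyClass P := by
    by_contra hlt
    apply hna
    have h1 : (⊤ : Subgroup P).lowerCentralSeries 1 = ⊥ :=
      Subgroup.lowerCentralSeries_eq_bot_iff_nilpotencyClass_le.2 (by omega)
    refine ⟨⟨fun x y => ?_⟩⟩
    have h2 : ⁅(⊤ : Subgroup P), (⊤ : Subgroup P)⁆ = ⊥ := by simpa using h1
    have h3 := h2 ▸ Subgroup.commutator_mem_commutator (Subgroup.mem_top x) (Subgroup.mem_top y)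
    rw [Subgroup.mem_bot, commutatorElement_eq_one_iff_mul_comm] at h3
    exact h3
  have key : ∀ E : Subgroup P, IsMulCommutative ↥E →
      Group.nilpotencyClass ↥(Subgroup.normalClosure (E : Set P)) < Group.nilpotencyClass P := by
    intro E hE
    set g1 := (⊤ : Subgroup P).lowerCentralSeries 1 with hg1
    set g2 := (⊤ : Subgroup P).lowerCentralSeries 2 with hg2
    haveI : g1.Normal := Subgroup.lowerCentralSeries_normal _ _
    haveI : g2.Normal := Subgroup.lowerCentralSeries_normal _ _
    set N := E ⊔ g1 with hN
    haveI hNn : N.Normal := by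
      refine ⟨fun x hx g => ?_⟩
      have h1 : g * x * g⁻¹ * x⁻¹ ∈ g1 := by
        rw [hg1, Subgroup.lowerCentralSeries_succ, Subgroup.lowerCentralSeries_zero]
        exact Subgroup.commutator_mem_commutator (Subgroup.mem_top g) (Subgroup.mem_top x)
      simpa using mul_mem (Subgroup.mem_sup_right (S := E) h1) hx
    have hle : Subgroup.normalClosure (E : Set P) ≤ N :=
      Subgroup.normalClosure_le_normal (SetLike.coe_subset_coe.2 le_sup_left)
    have base : ⁅N, N⁆ ≤ g2 := by
      rw [← QuotientGroup.ker_mk' g2, ← Subgroup.map_eq_bot_iff, Subgroup.map_commutator,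
        Subgroup.commutator_eq_bot_iff_le_centralizer]
      set f := QuotientGroup.mk' g2 with hf
      have hz : g1.map f ≤ Subgroup.center (P ⧸ g2) := by
        rintro _ ⟨x, hx, rfl⟩
        rw [Subgroup.mem_center_iff]
        intro q
        obtain ⟨y, rfl⟩ := QuotientGroup.mk'_surjective g2 q
        rw [← map_mul, ← map_mul, ← mul_inv_eq_one, ← map_inv, ← map_mul,
          QuotientGroup.mk'_apply, QuotientGroup.eq_one_iff, hg2, Subgroup.lowerCentralSeries_succ,
          Subgroup.commutator_comm]
        have h1 := Subgroup.commutator_mem_commutator (Subgroup.mem_top y) hx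
        simpa [commutatorElement_def, mul_assoc, hg1] using h1
      have hEc : E.map f ≤ Subgroup.centralizer (E.map f : Set (P ⧸ g2)) := by
        rintro _ ⟨x, hx, rfl⟩
        rw [Subgroup.mem_centralizer_iff]
        rintro _ ⟨y, hy, rfl⟩
        rw [← map_mul, ← map_mul]
        exact congrArg f (congrArg Subtype.val (hE.is_comm.comm (⟨y, hy⟩ : E) ⟨x, hx⟩))
      rw [hN, Subgroup.map_sup, sup_le_iff]
      refine ⟨Subgroup.le_centralizer_iff.2 (sup_le hEc (hz.trans (Subgroup.center_le_centralizer _))),
        hz.trans (Subgroup.center_le_centralizer _)⟩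
    have step : ∀ n, N.lowerCentralSeries (n + 1) ≤ (⊤ : Subgroup P).lowerCentralSeries (n + 2) := by
      intro n
      induction n with
      | zero => rw [Subgroup.lowerCentralSeries_succ, Subgroup.lowerCentralSeries_zero]; exact base
      | succ n ih =>
        rw [Subgroup.lowerCentralSeries_succ, Subgroup.lowerCentralSeries_succ ⊤ (n + 2)]
        exact Subgroup.commutator_mono ih le_top
    set c := Group.nilpotencyClass P with hcdef
    have h0 : (Subgroup.normalClosure (E : Set P)).lowerCentralSeries (c - 2 + 1) = ⊥ := by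
      rw [eq_bot_iff]
      refine ((Subgroup.lowerCentralSeries_mono _) hle).trans ((step (c - 2)).trans ?_)
      rw [show c - 2 + 2 = c by omega, Subgroup.lowerCentralSeries_eq_bot_iff_nilpotencyClass_le.2 le_rfl]
    have h1 : (⊤ : Subgroup ↥(Subgroup.normalClosure (E : Set P))).lowerCentralSeries (c - 2 + 1) = ⊥ := by
      rw [← Subgroup.map_subtype_inj, Subgroup.map_bot, Subgroup.top_subtype_lowerCentralSeries, h0]
    have h2 := Subgroup.lowerCentralSeries_eq_bot_iff_nilpotencyClass_le.1 h1
    omega
  exact ⟨key E hE, key F hF⟩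

end Cfsg.Agent.S5067
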