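import Cfsg.Statements.S5069
import Cfsg.Agent.H92.QP.Comp

set_option autoImplicit false
universe u
open Cfsg

namespace Cfsg.Agent.S5069

/-- Let k be a field of characteristic not 2 with k not of order 3, M a finite-dimensional k-vector space and G ≤ GL(M) such that (G, M) is a quadratic pair (M irreducible for G, and G generated by its quadratically acting elements σ whose scalar family 1 + c(σ − 1), c ∈ k, lies in G). Write 𝒬_d for the quadratic elements of G of minimal commutator rank, E(σ) for the subgroup generated by the members of 𝒬_d with the same fixed space and commutator space as σ, and Σ for the set of these subgroups. Then Σ is a disjoint union of finitely many parts Σ₁, …, Σ_r such that the subgroups G_i generated by the Σ_i commute pairwise, each G_i is quasisimple, and inside G_i the members of Σ_i form a class of abstract root subgroups in which every rank one pair A, B contains subgroups A₀ ≤ A, B₀ ≤ B generating an image of SL₂(k₁) with central kernel on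 unitriangular subgroups for some field k₁ with at least four elements. -/
theorem result {k : Type u} [Field k] (hk2 : ringChar k ≠ 2) (hk3 : Nat.card k ≠ 3)
    {M : Type u} [AddCommGroup M] [Module k M] [FiniteDimensional k M]
    {G : Subgroup (LinearMap.GeneralLinearGroup k M)} (hG : Cfsg.IsQuadraticPair G) :
    ∃ (r : ℕ) (part : Fin r → Set (Subgroup (LinearMap.GeneralLinearGroup k M))),
      (⋃ i, part i) = Cfsg.quadraticRootSubgroups G ∧ (∀ i j, i ≠ j → Disjoint (part i) (part j)) ∧ (∀ i, (part i).Nonempty) ∧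
      (∀ i j, i ≠ j → ⁅(⨆ A ∈ part i, A), (⨆ A ∈ part j, A)⁆ = ⊥) ∧
      (∀ i, Cfsg.IsQuasisimple ↥(⨆ A ∈ part i, A) ∧
        Cfsg.IsRootSubgroupClass ((fun A : Subgroup (LinearMap.GeneralLinearGroup k M) => A.subgroupOf (⨆ B ∈ part i, B)) '' (part i)) ∧
        ∀ A ∈ part i, ∀ B ∈ Cfsg.rankOnePartners (part i) A, ∃ A₀ B₀ : Subgroup (LinearMap.GeneralLinearGroup k M), A₀ ≤ A ∧ B₀ ≤ B ∧
          ∃ (k₁ : Type u) (_ : Field k₁), 3 < ENat.card k₁ ∧ Cfsg.IsPSL2PairOver k₁ A₀ B₀) := by
  open Cfsg.Agent.H92 Cfsg.Agent.H92.QP in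
  · have hP := pair_of_quadraticPair hk2 hk3 hG
    obtain ⟨n, rep, hrep, hne, hall⟩ := hP.exists_reps
    refine ⟨n, fun i => part G (rep i), ?_, fun i j h => hP.part_disjoint (hrep i) (hrep j) (hne i j h),
      fun i => ⟨_, part_self (rep i)⟩, fun i j h => ?_, fun i => ⟨?_, ⟨hP.part_root (hrep i), ?_⟩, ?_⟩⟩
    · refine Set.Subset.antisymm (Set.iUnion_subset fun i => part_subset (hrep i)) fun A hA => ?_
      obtain ⟨s, hs, rfl⟩ := exists_of_root hA
      obtain ⟨i, hi⟩ := hall s hs
      exact Set.mem_iUnion.2 ⟨i, s, hi, rfl⟩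
    · rw [← cgrp_eq, ← cgrp_eq]
      exact hP.cgrp_commute (hrep i) (hrep j) (hne i j h)
    · rw [← cgrp_eq]; exact hP.cgrp_quasisimple (hrep i)
    · refine ⟨⟨_, _, part_self (rep i), rfl⟩, ?_⟩
      rintro _ ⟨_, ⟨y, hy, rfl⟩, rfl⟩ _ ⟨_, ⟨z, hz, rfl⟩, rfl⟩
      obtain ⟨a, ha, ea⟩ := hP.part_conjugate (hrep i) hy
      obtain ⟨b, hb, eb⟩ := hP.part_conjugate (hrep i) hz
      rw [cgrp_eq] at ha hb
      refine ⟨⟨b, hb⟩ * ⟨a, ha⟩⁻¹, ?_⟩
      simp only [conjBy_subgroupOf, ea, eb, conjBy_conjBy, Subgroup.coe_mul, Subgroup.coe_inv, inv_mul_cancel_right]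
    · rintro _ ⟨y, hy, rfl⟩ B hB
      obtain ⟨z, hz, rfl⟩ := hB.1
      obtain ⟨A₀, B₀, h1, h2, h3, h4⟩ := exists_psl2 hP.two hP.three
        (hP.nn_of_rankOne (hy.minFam (hrep i)) (hz.minFam (hrep i)) hB.2) (hy.minFam (hrep i)) (hz.minFam (hrep i))
      exact ⟨A₀, B₀, h1, h2, k, inferInstance, h3, h4⟩

end Cfsg.Agent.S5069
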