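import Cfsg.Statements.S5073
import Cfsg.Agent.H92.QP.Commuting

set_option autoImplicit false
universe u
open Cfsg

namespace Cfsg.Agent.S5073

/-- Let k be a field of characteristic not 2 with k not of order 3, M a finite-dimensional k-vector space and G ≤ GL(M) such that (G, M) is a quadratic pair (M irreducible for G, and G generated by its quadratically acting elements σ whose scalar family 1 + c(σ − 1), c ∈ k, lies in G). Write 𝒬_d for the quadratic elements of G of minimal commutator rank, E(σ) for the subgroup generated by the members of 𝒬_d with the same fixed space and commutator space as σ, and Σ for the set of these subgroups. Let E, F ∈ Σ. If some non-identity element of E commutes with some non-identity element of F, or some non-identity element of E normalizes F, then E and F commute elementwise. -/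
theorem result {k : Type u} [Field k] (hk2 : ringChar k ≠ 2) (hk3 : Nat.card k ≠ 3)
    {M : Type u} [AddCommGroup M] [Module k M] [FiniteDimensional k M]
    {G : Subgroup (LinearMap.GeneralLinearGroup k M)} (hG : Cfsg.IsQuadraticPair G)
    {E F : Subgroup (LinearMap.GeneralLinearGroup k M)} (hE : E ∈ Cfsg.quadraticRootSubgroups G) (hF : F ∈ Cfsg.quadraticRootSubgroups G)
    (h : (∃ e ∈ E, e ≠ 1 ∧ ∃ f ∈ F, f ≠ 1 ∧ e * f = f * e) ∨ E ⊓ Subgroup.normalizer (F : Set (LinearMap.GeneralLinearGroup k M)) ≠ ⊥) :
    ⁅E, F⁆ = ⊥ := by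
  open Cfsg.Agent.H92.QP in
  · have h2 := two_ne_zero_of_ringChar hk2
    obtain ⟨s, hs, rfl⟩ := exists_of_root hE
    obtain ⟨t, ht, rfl⟩ := exists_of_root hF
    have key : ¬ Nn s t ∧ brk s t = 0 := by
      rcases h with ⟨e, he, he1, f, hf, hf1, hef⟩ | h
      · obtain ⟨a, ha, rfl⟩ := (mem_eg hs.1.1).1 he
        obtain ⟨b, hb, rfl⟩ := (mem_eg ht.1.1).1 hf
        exact commuting_of_pair h2 hk3 hs ht ha hb (fun e => he1 (by rw [e, ex_zero]))
          (fun e => hf1 (by rw [e, ex_zero])) ((commute_ex_iff ha.1.1 hb.1.1).1 hef)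
      · obtain ⟨⟨e, he⟩, he1⟩ := Subgroup.ne_bot_iff_exists_ne_one.1 h
        obtain ⟨heE, heN⟩ := Subgroup.mem_inf.1 he
        obtain ⟨a, ha, rfl⟩ := (mem_eg hs.1.1).1 heE
        exact commuting_of_normalize h2 hk3 hs ht ha (fun e => he1 (Subtype.ext (by simp [e, ex_zero]))) heN
    exact eg_commutator_eq_bot h2 hk3 hs ht key.1 key.2

end Cfsg.Agent.S5073
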