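import Cfsg.Statements.S5080
import Cfsg.Agent.H93.Essential

set_option autoImplicit false
open Cfsg

namespace Cfsg.Agent.S5080

/-- In a saturated fusion system over a finite p-group, every essential subgroup is radical (it is centric and fully normalized by definition, so it is centric-radical and fully normalized). -/
theorem result {Ω : Type*} [Group Ω] {S : Subgroup Ω} [Finite S] (p : ℕ) [Fact p.Prime] (hS : IsPGroup p S) (F : Cfsg.FusionSystem S) (hF : F.IsSaturated p) (P : Subgroup Ω) (hP : F.IsEssential p P) : F.IsRadical p P := by
  exact H93.IsEssential.isRadical hS hP

end Cfsg.Agent.S5080
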