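import Cfsg.Statements.S5084
import Cfsg.Agent.H93.Normal

set_option autoImplicit false
open Cfsg

namespace Cfsg.Agent.S5084

/-- In a saturated fusion system over a finite p-group S, a subgroup Q is central in the system if and only if Q ≤ S and no element of Q is conjugate in the system to any element other than itself. -/
theorem result {Ω : Type*} [Group Ω] {S : Subgroup Ω} [Finite S] (p : ℕ) [Fact p.Prime] (hS : IsPGroup p S) (F : Cfsg.FusionSystem S) (hF : F.IsSaturated p) (Q : Subgroup Ω) : F.IsCentral Q ↔ (Q ≤ S ∧ ∀ x ∈ Q, ∀ y : Ω, F.IsConjElt x y → y = x) := by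
  constructor
  · rintro ⟨hQS, h⟩
    refine ⟨hQS, fun x hx y hy => ?_⟩
    obtain ⟨φ, hφ, rfl⟩ := hy
    obtain ⟨ψ, -, h1, h2⟩ := h _ φ hφ
    rw [← h1]
    exact h2 ⟨x, hx⟩
  · rintro ⟨hQS, hfix⟩
    have key : ∀ (P : Subgroup Ω) (φ : P →* Ω), φ ∈ F.Hom P → ∀ x : P, (x : Ω) ∈ Q → φ x = x := by
      intro P φ hφ x hx
      exact hfix x hx _ ⟨_, H93.restrict_mem hφ (Subgroup.zpowers_le.2 x.2), rfl⟩
    have hcomm : ∀ a ∈ Q, ∀ b ∈ Q, a * b = b * a := by
      intro a ha b hb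
      have h : a * b * a⁻¹ = b := key Q _ (F.conj_mem hQS (hQS ha)) ⟨b, hb⟩ hb
      exact mul_inv_eq_iff_eq_mul.1 h
    have hsc : F.StronglyClosed Q := ⟨hQS, fun T hT φ hφ x => by
      rw [key T φ hφ x (hT x.2)]; exact hT x.2⟩
    refine ⟨hQS, fun P φ hφ => ?_⟩
    obtain ⟨ψ, hψ, h1, -⟩ := (H93.isNormal_of_stronglyClosed_abelian hS hF hsc hcomm).2 P φ hφ
    exact ⟨ψ, hψ, h1, fun x => key _ ψ hψ _ x.2⟩

end Cfsg.Agent.S5084
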