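import Cfsg.Statements.S5087
import Cfsg.Agent.H93.Normal

set_option autoImplicit false
open Cfsg

namespace Cfsg.Agent.S5087

/-- In a saturated fusion system over a finite p-group S, a subgroup Q is normal in the system if and only if every subgroup P that equals S or is essential contains Q and every element of Aut_F(P) maps Q onto itself. -/
theorem result {Ω : Type*} [Group Ω] {S : Subgroup Ω} [Finite S] (p : ℕ) [Fact p.Prime] (hS : IsPGroup p S) (F : Cfsg.FusionSystem S) (hF : F.IsSaturated p) (Q : Subgroup Ω) : F.IsNormal Q ↔ ∀ P : Subgroup Ω, (P = S ∨ F.IsEssential p P) → (Q ≤ P ∧ ∀ α ∈ F.autGroup P, (Q.subgroupOf P).map α.toMonoidHom = Q.subgroupOf P) := by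
  refine ⟨fun hQ P hP => ?_, fun h => H93.isNormal_of_essential hS hF fun U hU =>
    ⟨(h U hU).1, fun α hα x hx => ?_⟩⟩
  · have hPS : P ≤ S := by
      rcases hP with rfl | hP
      · exact le_rfl
      · exact hP.1.1
    have hle : Q ≤ P := by
      rcases hP with rfl | hP
      · exact hQ.1
      · exact H93.IsNormal.le_centric_radical hS hQ hP.1 (H93.IsEssential.isRadical hS hP)
    refine ⟨hle, fun α hα => le_antisymm ?_ fun x hx => ?_⟩
    · rintro _ ⟨x, hx, rfl⟩
      exact H93.IsNormal.aut_mem hQ hPS hα x hx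
    · exact ⟨α⁻¹ x, H93.IsNormal.aut_mem hQ hPS (Subgroup.inv_mem _ hα) x hx, by simp⟩
  · exact ((h U hU).2 α hα).le ⟨x, hx, rfl⟩

end Cfsg.Agent.S5087
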