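import Cfsg.Statements.S5096
import Cfsg.Agent.H93.Local

set_option autoImplicit false
open Cfsg

namespace Cfsg.Agent.S5096

/-- For any fusion system over a subgroup S and any Q ≤ S, the maps of the normalizer system N_F(Q) — those maps between subgroups of N_S(Q) that extend to the subgroup generated with Q carrying Q onto Q — form a fusion system over N_S(Q). -/
theorem result {Ω : Type*} [Group Ω] {S : Subgroup Ω} (F : Cfsg.FusionSystem S) (Q : Subgroup Ω) (hQ : Q ≤ S) : ∃ E : Cfsg.FusionSystem (Cfsg.FusionSystem.normalizerIn S Q), F.IsNormalizerSystem Q E := by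
  exact ⟨H93.normalizerSystem F Q hQ, fun _ => rfl⟩

end Cfsg.Agent.S5096
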