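import Cfsg.Statements.S5102
import Cfsg.Agent.H93.Group
import Cfsg.Agent.H93.Local

set_option autoImplicit false
open Cfsg

namespace Cfsg.Agent.S5102

/-- A normal p-subgroup of a finite group G is normal in the fusion system of G on a Sylow p-subgroup. -/
theorem result {G : Type*} [Group G] [Finite G] (p : ℕ) [Fact p.Prime] (S : Sylow p G) (R : Subgroup G) [R.Normal] (hR : IsPGroup p R) : (Cfsg.groupFusionSystem (S : Subgroup G)).IsNormal R := by
  have hRS : R ≤ (S : Subgroup G) := by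
    obtain ⟨T, hT⟩ := hR.exists_le_sylow
    obtain ⟨g, hg⟩ := MulAction.exists_smul_eq G T S
    intro x hx
    have h := hT (Subgroup.Normal.conj_mem inferInstance x hx g⁻¹)
    rw [← hg, Sylow.coe_subgroup_smul, Subgroup.mem_pointwise_smul_iff_inv_smul_mem, ← map_inv]
    simpa using h
  refine ⟨hRS, ?_⟩
  rintro P φ ⟨hP, hv, g, hg⟩
  have hle : (P ⊔ R).map (MulAut.conj g).toMonoidHom ≤ (S : Subgroup G) := by
    rw [Subgroup.map_sup]
    refine sup_le ?_ ?_
    · rintro _ ⟨x, hx, rfl⟩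
      have h := hv ⟨x, hx⟩
      rwa [hg] at h
    · rintro _ ⟨x, hx, rfl⟩
      exact hRS (Subgroup.Normal.conj_mem inferInstance x hx g)
  refine ⟨conjHom (P ⊔ R) g, ⟨sup_le hP hRS, fun x => hle ⟨x, x.2, rfl⟩, g, fun x => rfl⟩,
    fun x => (hg x).symm, ?_⟩
  rw [show (R.subgroupOf (P ⊔ R)).map (conjHom (P ⊔ R) g) = R.map (MulAut.conj g).toMonoidHom
    from H93.imgIn_conjHom g le_sup_right]
  ext x
  rw [H93.mem_map_conj]
  constructor
  · intro h; simpa [mul_assoc] using Subgroup.Normal.conj_mem inferInstance _ h g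
  · intro h; simpa using Subgroup.Normal.conj_mem inferInstance _ h g⁻¹

end Cfsg.Agent.S5102
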