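import Cfsg.Statements.S5104
import Cfsg.Agent.H93.Saturation

set_option autoImplicit false
open Cfsg

namespace Cfsg.Agent.S5104

/-- In a saturated fusion system over a finite p-group S, a fully centralized subgroup U with C_S(U) ≤ U is centric. -/
theorem result {Ω : Type*} [Group Ω] {S : Subgroup Ω} [Finite S] (p : ℕ) [Fact p.Prime] (hS : IsPGroup p S) (F : Cfsg.FusionSystem S) (hF : F.IsSaturated p) (U : Subgroup Ω) (hU : F.IsFullyCentralized U) (hC : Cfsg.FusionSystem.centralizerIn S U ≤ U) : F.IsCentric U := by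
  refine ⟨hU.1, fun Q hQ c hc => ?_⟩
  obtain ⟨φ, hφ, hr⟩ := H93.isConj_symm hQ
  obtain ⟨ψ, hψ, hext⟩ := H93.exists_extension hφ hr (H93.IsFullyCentralized.isReceptive hS hF hU)
  have himg : H93.imgIn ψ Q = U := by
    rw [H93.imgIn_eq_range_restrict ψ (H93.le_extender hφ), ← hr]
    congr 1
    exact MonoidHom.ext hext
  have hm := H93.centralizer_apply_mem hψ (H93.le_extender hφ)
    ⟨c, H93.centralizerIn_le_extender S Q φ hc⟩ hc.2
  rw [himg] at hm
  have hm' := hC hm
  rw [← himg] at hm'
  exact H93.mem_of_apply_mem_imgIn (F.injective_of_mem hψ) hm'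

end Cfsg.Agent.S5104
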