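import Cfsg.Statements.S5106
import Cfsg.Agent.H93.Normal

set_option autoImplicit false
open Cfsg

namespace Cfsg.Agent.S5106

/-- In a saturated fusion system over a finite p-group S, a subgroup R ≤ S is normal in the system if and only if every map of the system whose source is a subgroup of R is the restriction of an element of Aut_F(R). -/
theorem result {Ω : Type*} [Group Ω] {S : Subgroup Ω} [Finite S] (p : ℕ) [Fact p.Prime] (hS : IsPGroup p S) (F : Cfsg.FusionSystem S) (hF : F.IsSaturated p) (R : Subgroup Ω) (hRS : R ≤ S) : F.IsNormal R ↔ ∀ (P : Subgroup Ω) (hPR : P ≤ R) (φ : P →* Ω), φ ∈ F.Hom P → ∃ α ∈ F.autGroup R, ∀ x : P, ((α (Subgroup.inclusion hPR x) : R) : Ω) = φ x := by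
  refine ⟨fun hR P hPR φ hφ => ?_, fun h => H93.isNormal_of_extend_aut hS hF hRS h⟩
  obtain ⟨ψ, hψ, h1, h2⟩ := H96.exists_ext_of_normal hR hφ
  have := H93.restrict_mem hψ (le_sup_right (a := P) (b := R))
  obtain ⟨α, hα, hαe⟩ := H96.exists_autGroup_of_mem F this fun x => h2 x
  refine ⟨α, hα, fun x => ?_⟩
  rw [hαe, ← h1 x]
  rfl

end Cfsg.Agent.S5106
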