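import Cfsg.Statements.S5107
import Cfsg.Agent.H93.Normal
import Cfsg.Agent.H93.Group

set_option autoImplicit false
open Cfsg

namespace Cfsg.Agent.S5107

/-- If a Sylow p-subgroup S of a finite group G has nilpotency class at most two and its centre is strongly closed in S with respect to G, then every map of the fusion system of G on S is conjugation by an element of N_G(S), and S is the largest subgroup normal in that fusion system. -/
theorem result {G : Type*} [Group G] [Finite G] (p : ℕ) [Fact p.Prime] (S : Sylow p G) (hcl : ⁅(S : Subgroup G), (S : Subgroup G)⁆ ≤ (S : Subgroup G) ⊓ Subgroup.centralizer ((S : Subgroup G) : Set G)) (hZ : Cfsg.IsStronglyClosed ((S : Subgroup G) ⊓ Subgroup.centralizer ((S : Subgroup G) : Set G)) (S : Subgroup G)) : (∀ (P : Subgroup G) (φ : P →* G), φ ∈ (Cfsg.groupFusionSystem (S : Subgroup G)).Hom P → ∃ g ∈ Subgroup.normalizer ((S : Subgroup G) : Set G), ∀ x : P, φ x = g * (x : G) * g⁻¹) ∧ (Cfsg.groupFusionSystem (S : Subgroup G)).core = S := by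
  set Z := (S : Subgroup G) ⊓ Subgroup.centralizer ((S : Subgroup G) : Set G) with hZdef
  have hF := H93.isSaturated_groupFusionSystem S
  have hZsc : (Cfsg.groupFusionSystem (S : Subgroup G)).StronglyClosed Z := by
    refine ⟨inf_le_left, ?_⟩
    rintro R hR φ ⟨-, hv, g, hg⟩ x
    rw [hg]
    exact hZ.2 x (hR x.2) g (hg x ▸ hv x)
  have hSn : (Cfsg.groupFusionSystem (S : Subgroup G)).IsNormal (S : Subgroup G) := by
    refine H93.isNormal_of_chain S.isPGroup' hF 2
      (fun i => if i = 0 then ⊥ else if i = 1 then Z else (S : Subgroup G)) rfl rfl ?_ ?_ ?_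
    · intro i hi
      interval_cases i <;> simp [hZdef]
    · intro i hi
      interval_cases i
      · simpa using hZsc
      · simpa using H96.stronglyClosed_top _
    · intro i hi
      interval_cases i
      · simp only [Nat.zero_add, one_ne_zero, if_false, if_true, le_bot_iff]
        rw [Subgroup.commutator_eq_bot_iff_le_centralizer]
        exact fun s hs => Subgroup.mem_centralizer_iff.2 fun z hz =>
          (Subgroup.mem_centralizer_iff.1 hz.2 s hs).symm
      · simpa [hZdef] using hcl
  refine ⟨fun P φ hφ => ?_, le_antisymm (H96.isNormal_core _).1 (le_sSup hSn)⟩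
  obtain ⟨ψ, ⟨-, -, g, hg⟩, h1, h2⟩ := hSn.2 P φ hφ
  refine ⟨g, ?_, fun x => ?_⟩
  · refine Subgroup.mem_normalizer_fintype fun n hn => ?_
    rw [← hg ⟨n, le_sup_right (a := P) hn⟩]
    exact h2.le ⟨_, hn, rfl⟩
  · rw [← h1, hg]; rfl

end Cfsg.Agent.S5107
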