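import Cfsg.Statements.S5144
import Cfsg.Agent.H94.Elementary

set_option autoImplicit false
open Cfsg

namespace Cfsg.Agent.S5144

/-- For a fusion system over a finite subgroup S, the centre of the system (the join of all subgroups central in it) is itself central in the system, hence its largest central subgroup. -/
theorem result {Ω : Type*} [Group Ω] {S : Subgroup Ω} [Finite S] (F : Cfsg.FusionSystem S) : F.IsCentral F.center := by
  refine H94.sSup_mem_of_sup_closed (S := S) {Q : Subgroup Ω | F.IsCentral Q} (fun Q hQ => hQ.1) ?_ ?_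
  · refine ⟨bot_le, fun P φ hφ => ⟨_, H94.restrict_mem F hφ (sup_le le_rfl bot_le),
      fun x => congrArg φ (Subtype.ext rfl), fun x => ?_⟩⟩
    have h1 : (x : Ω) = 1 := Subgroup.mem_bot.mp x.2
    have h : Subgroup.inclusion (le_sup_right : (⊥ : Subgroup Ω) ≤ P ⊔ ⊥) x = 1 := Subtype.ext h1
    rw [h, map_one, h1]
  · rintro Q ⟨hQS, hQ⟩ R ⟨hRS, hR⟩
    refine ⟨sup_le hQS hRS, fun P φ hφ => ?_⟩
    obtain ⟨ψ₁, h₁, e₁, f₁⟩ := hQ P φ hφ
    obtain ⟨ψ₂, h₂, e₂, f₂⟩ := hR _ ψ₁ h₁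
    have hle : P ⊔ (Q ⊔ R) ≤ P ⊔ Q ⊔ R := (sup_assoc P Q R).ge
    refine ⟨_, H94.restrict_mem F h₂ hle, fun x => ?_, fun x => ?_⟩
    · exact (congrArg ψ₂ (Subtype.ext rfl)).trans ((e₂ (Subgroup.inclusion le_sup_left x)).trans (e₁ x))
    · let K : Subgroup Ω := (MonoidHom.eqLocus ψ₂ (Subgroup.subtype _)).map (Subgroup.subtype _)
      have hK : Q ⊔ R ≤ K := by
        refine sup_le (fun q hq => ?_) (fun r hr => ?_)
        · exact ⟨Subgroup.inclusion le_sup_left (Subgroup.inclusion le_sup_right ⟨q, hq⟩),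
            (e₂ _).trans (f₁ ⟨q, hq⟩), rfl⟩
        · exact ⟨Subgroup.inclusion le_sup_right ⟨r, hr⟩, f₂ ⟨r, hr⟩, rfl⟩
      obtain ⟨z, hz, hzx⟩ := hK x.2
      have : Subgroup.inclusion hle (Subgroup.inclusion le_sup_right x) = z := Subtype.ext hzx.symm
      show ψ₂ (Subgroup.inclusion hle (Subgroup.inclusion le_sup_right x)) = x
      rw [this]
      exact hz.trans hzx

end Cfsg.Agent.S5144
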