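import Cfsg.Statements.S5145
import Cfsg.Agent.H94.Elementary

set_option autoImplicit false
open Cfsg

namespace Cfsg.Agent.S5145

/-- For a fusion system over a finite subgroup S, the join of all subgroups normal in the system is itself normal in the system, hence its largest normal subgroup. -/
theorem result {Ω : Type*} [Group Ω] {S : Subgroup Ω} [Finite S] (F : Cfsg.FusionSystem S) : F.IsNormal F.core := by
  refine H94.sSup_mem_of_sup_closed (S := S) {Q : Subgroup Ω | F.IsNormal Q} (fun Q hQ => hQ.1) ?_ ?_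
  · refine ⟨bot_le, fun P φ hφ => ⟨_, H94.restrict_mem F hφ (sup_le le_rfl bot_le),
      fun x => congrArg φ (Subtype.ext rfl), ?_⟩⟩
    simp
  · rintro Q ⟨hQS, hQ⟩ R ⟨hRS, hR⟩
    refine ⟨sup_le hQS hRS, fun P φ hφ => ?_⟩
    obtain ⟨ψ₁, h₁, e₁, f₁⟩ := hQ P φ hφ
    obtain ⟨ψ₂, h₂, e₂, f₂⟩ := hR _ ψ₁ h₁
    have hle : P ⊔ (Q ⊔ R) ≤ P ⊔ Q ⊔ R := (sup_assoc P Q R).ge
    have key : ∀ U : Subgroup Ω, U ≤ Q ⊔ R →
        (U.subgroupOf (P ⊔ (Q ⊔ R))).map (ψ₂.comp (Subgroup.inclusion hle)) =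
          (U.subgroupOf (P ⊔ Q ⊔ R)).map ψ₂ := by
      intro U hU
      ext y
      constructor
      · rintro ⟨z, hz, rfl⟩
        exact ⟨_, hz, rfl⟩
      · rintro ⟨z, hz, rfl⟩
        exact ⟨⟨z, (le_sup_right : Q ⊔ R ≤ P ⊔ (Q ⊔ R)) (hU hz)⟩, hz, congrArg ψ₂ (Subtype.ext rfl)⟩
    refine ⟨_, H94.restrict_mem F h₂ hle, fun x => ?_, ?_⟩
    · exact (congrArg ψ₂ (Subtype.ext rfl)).trans ((e₂ (Subgroup.inclusion le_sup_left x)).trans (e₁ x))
    · have hQ2 : (Q.subgroupOf (P ⊔ Q ⊔ R)).map ψ₂ = Q := by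
        refine Eq.trans ?_ f₁
        ext y
        constructor
        · rintro ⟨z, hz, rfl⟩
          refine ⟨⟨z, (le_sup_right : Q ≤ P ⊔ Q) hz⟩, hz, ?_⟩
          exact ((e₂ _).symm.trans (congrArg ψ₂ (Subtype.ext rfl)))
        · rintro ⟨z, hz, rfl⟩
          exact ⟨Subgroup.inclusion le_sup_left z, hz, e₂ z⟩
      rw [key _ le_rfl, Subgroup.subgroupOf_sup (le_sup_right.trans le_sup_left) le_sup_right,
        Subgroup.map_sup, hQ2, f₂]

end Cfsg.Agent.S5145
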