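import Cfsg.Statements.S5164
import Cfsg.Agent.H94.AltSylow

set_option autoImplicit false
open Cfsg

namespace Cfsg.Agent.S5164

/-- For n ≥ 6 and a prime p, a nontrivial Sylow p-subgroup of the alternating group of degree n is abelian if and only if n < p². -/
theorem result (n p : ℕ) (hn : 6 ≤ n) [Fact p.Prime] (S : Sylow p (alternatingGroup (Fin n))) (hS : (S : Subgroup (alternatingGroup (Fin n))) ≠ ⊥) : IsMulCommutative S ↔ n < p ^ 2 := by
  exact H94.altSylow_commutative_iff n p hn S

end Cfsg.Agent.S5164
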