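import Cfsg.Statements.S5345
import Cfsg.Agent.H17.Basic

set_option autoImplicit false
open Cfsg

namespace Cfsg.Agent.S5345

/-- Let D be a conjugation-invariant generating set of 3-transpositions of a finite group G and T a Sylow 2-subgroup of G. Then the members of D lying in T generate an abelian subgroup, and their number is the width of D (the largest number of pairwise commuting members of D). -/
theorem result {G : Type*} [Group G] [Finite G] {D : Set G} (hD : Cfsg.IsThreeTranspositionGroup D) (T : Sylow 2 G) : IsMulCommutative (Subgroup.closure {d : G | d ∈ D ∧ d ∈ T}) ∧ {d : G | d ∈ D ∧ d ∈ T}.ncard = Cfsg.commutingWidth D := by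
  obtain ⟨hset, hconj, -⟩ := hD
  have hcomm : ∀ P : Sylow 2 G, ∀ a ∈ D, a ∈ P → ∀ b ∈ D, b ∈ P → Commute a b := by
    intro P a ha haP b hb hbP
    obtain ⟨k, hk⟩ := P.isPGroup' ⟨a * b, mul_mem haP hbP⟩
    exact H17.commute_of_two_pow hset ha hb (n := k) (by simpa using congrArg Subtype.val hk)
  refine ⟨Subgroup.isMulCommutative_closure
    (fun x hx y hy => hcomm T x hx.1 hx.2 y hy.1 hy.2), ?_⟩
  haveI : Fact (Nat.Prime 2) := ⟨Nat.prime_two⟩
  have hmax : IsGreatest {n : ℕ | ∃ E : Set G, E ⊆ D ∧ E.Finite ∧ (∀ a ∈ E, ∀ b ∈ E, Commute a b) ∧ E.ncard = n}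
      {d : G | d ∈ D ∧ d ∈ T}.ncard := by
    refine ⟨⟨_, fun x hx => hx.1, Set.toFinite _,
      fun a ha b hb => hcomm T a ha.1 ha.2 b hb.1 hb.2, rfl⟩, ?_⟩
    rintro n ⟨E, hED, -, hEc, rfl⟩
    -- a commuting subset of D generates a 2-group
    have hp : IsPGroup 2 (Subgroup.closure E) := by
      intro g
      refine ⟨1, ?_⟩
      obtain ⟨g, hg⟩ := g
      have hcen : Subgroup.closure E ≤ Subgroup.centralizer (Subgroup.closure E : Set G) := by
        rw [Subgroup.centralizer_closure, Subgroup.closure_le]
        exact fun x hx => Subgroup.mem_centralizer_iff.mpr fun e he => (hEc e he x hx).eq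
      have : g * g = 1 := by
        induction hg using Subgroup.closure_induction with
        | mem x hx => exact H17.sq_one hset (hED hx)
        | one => exact one_mul 1
        | mul x y hx hy ihx ihy =>
          have hyx : Commute y x := (Subgroup.mem_centralizer_iff.mp (hcen hy) x hx).symm
          rw [hyx.mul_mul_mul_comm, ihx, ihy, one_mul]
        | inv x _ ihx => rw [← mul_inv_rev, ihx, inv_one]
      exact Subtype.ext (by simpa [pow_two] using this)
    obtain ⟨P, hP⟩ := hp.exists_le_sylow
    obtain ⟨g, hg⟩ := MulAction.exists_smul_eq G P T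
    refine Set.ncard_le_ncard_of_injOn (fun x => g * x * g⁻¹) ?_ ?_ (Set.toFinite _)
    · intro x hx
      refine ⟨hconj g x (hED hx), ?_⟩
      rw [← hg]
      show g * x * g⁻¹ ∈ ((g • P : Sylow 2 G) : Subgroup G)
      rw [Sylow.coe_subgroup_smul]
      exact Subgroup.smul_mem_pointwise_smul x (MulAut.conj g) _ (hP (Subgroup.subset_closure hx))
    · intro x _ y _ hxy
      exact mul_left_cancel (mul_right_cancel hxy)
  exact hmax.csSup_eq.symm

end Cfsg.Agent.S5345
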