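import Cfsg.Statements.S5346
import Cfsg.Agent.H17.Radicals

set_option autoImplicit false
open Cfsg

namespace Cfsg.Agent.S5346

/-- Let D be a conjugation-invariant generating set of 3-transpositions of a finite group G and d a member of D. Then D has width 1 (no two different members of D commute) if and only if G is the product of the subgroup generated by d with the largest normal 3-subgroup of G. -/
theorem result {G : Type*} [Group G] [Finite G] {D : Set G} (hD : Cfsg.IsThreeTranspositionGroup D) {d : G} (hd : d ∈ D) : Cfsg.commutingWidth D = 1 ↔ Subgroup.zpowers d ⊔ Cfsg.pCore 3 G = ⊤ := by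
  obtain ⟨hset, hconj, hgen⟩ := hD
  haveI := Cfsg.Agent.H51.pCore_normal 3 G
  constructor
  · intro hw
    have heq : ∀ a ∈ D, ∀ b ∈ D, Commute a b → a = b := by
      intro a ha b hb hc
      by_contra hne
      have hle : ({a, b} : Set G).ncard ≤ Cfsg.commutingWidth D := by
        refine le_csSup ⟨D.ncard, fun n ⟨E, hE, _, _, hn⟩ => hn ▸ Set.ncard_le_ncard hE (Set.toFinite _)⟩
          ⟨{a, b}, by rintro x (rfl | rfl) <;> assumption, Set.toFinite _, ?_, rfl⟩
        rintro x (rfl | rfl) y (rfl | rfl)
        exacts [Commute.refl _, hc, hc.symm, Commute.refl _]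
      rw [hw, Set.ncard_pair hne] at hle
      omega
    rw [eq_top_iff, ← hgen, Subgroup.closure_le]
    intro x hx
    have hmem : d * x ∈ Cfsg.pCore 3 G := by
      refine H17.width_one_mem_pCore (fun e he => H17.sq_one hset he) hconj (fun a ha b hb => ?_) hd hx
      by_cases hc : Commute a b
      · rw [heq a ha b hb hc, H17.sq_one hset hb, one_pow]
      · exact H17.cube_one hset ha hb hc
    have hx' : x = d * (d * x) := by rw [← mul_assoc, H17.sq_one hset hd, one_mul]
    rw [hx', SetLike.mem_coe]
    exact mul_mem (Subgroup.mem_sup_left (Subgroup.mem_zpowers d)) (Subgroup.mem_sup_right hmem)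
  · intro htop
    have hsm : ∀ x ∈ Cfsg.pCore 3 G, x ^ 2 = 1 → x = 1 := by
      intro x hx hx2
      obtain ⟨k, hk⟩ := Cfsg.Agent.H51.pCore_isPGroup 3 G ⟨x, hx⟩
      have hk' : x ^ 3 ^ k = 1 := by simpa using congrArg Subtype.val hk
      have h1 := pow_gcd_eq_one.mpr ⟨hx2, hk'⟩
      have hco : Nat.Coprime 2 (3 ^ k) := Nat.Coprime.pow_right _ (by norm_num)
      rwa [hco, pow_one] at h1
    have hmod : ∀ x ∈ D, d * x ∈ Cfsg.pCore 3 G := by
      intro x hx
      have hxm : x ∈ Subgroup.zpowers d ⊔ Cfsg.pCore 3 G := htop ▸ Subgroup.mem_top x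
      obtain ⟨y, hy, z, hz, rfl⟩ := Subgroup.mem_sup_of_normal_right.mp hxm
      obtain ⟨k, rfl⟩ := hy
      rcases Int.even_or_odd k with ⟨l, rfl⟩ | ⟨l, rfl⟩
      · exfalso
        have h1 : d ^ (l + l) = 1 := by
          rw [zpow_add, ← ((Commute.refl d).mul_zpow l), H17.sq_one hset hd, one_zpow]
        simp only [h1, one_mul] at hx
        exact H17.ne_one_of_orderOf (hset.1 z hx)
          (hsm z hz (by rw [pow_two, H17.sq_one hset hx]))
      · have h1 : d ^ (2 * l + 1) = d := by
          rw [zpow_add_one, two_mul, zpow_add, ← ((Commute.refl d).mul_zpow l),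
            H17.sq_one hset hd, one_zpow, one_mul]
        simp only [h1, ← mul_assoc, H17.sq_one hset hd, one_mul]
        exact hz
    refine IsGreatest.csSup_eq ⟨⟨{d}, by simpa using hd, Set.toFinite _, by simp, Set.ncard_singleton d⟩, ?_⟩
    rintro n ⟨E, hED, hEf, hEc, rfl⟩
    refine (Set.ncard_le_one hEf).mpr fun a ha b hb => ?_
    have h1 := mul_mem (inv_mem (hmod a (hED ha))) (hmod b (hED hb))
    rw [mul_inv_rev, H17.inv_self hset (hED ha), H17.inv_self hset hd, mul_assoc,
      ← mul_assoc d d, H17.sq_one hset hd, one_mul] at h1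
    have h2 := hsm _ h1 ((H17.commute_iff_sq (H17.sq_one hset (hED ha))
      (H17.sq_one hset (hED hb))).mp (hEc a ha b hb))
    rw [mul_eq_one_iff_eq_inv, H17.inv_self hset (hED hb)] at h2
    exact h2

end Cfsg.Agent.S5346
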