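import Cfsg.Statements.S5349
import Cfsg.Agent.H17.Radicals

set_option autoImplicit false
open Cfsg

namespace Cfsg.Agent.S5349

/-- Let D be a conjugacy class of 3-transpositions generating the finite group G, with at least two members, and d a member of D. Then the set of members of D commuting with exactly the same members of D as d coincides with the set of members of D lying in the coset of d modulo the largest normal 2-subgroup of G, and also with the orbit of d under conjugation by that normal 2-subgroup. -/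
theorem result {G : Type*} [Group G] [Finite G] {D : Set G} (hD : Cfsg.IsThreeTranspositionClass D) (hD2 : ∃ a ∈ D, ∃ b ∈ D, a ≠ b) {d : G} (hd : d ∈ D) : {v : G | v ∈ D ∧ ∀ e ∈ D, Commute v e ↔ Commute d e} = {v : G | v ∈ D ∧ d⁻¹ * v ∈ Cfsg.pCore 2 G} ∧ {v : G | v ∈ D ∧ ∀ e ∈ D, Commute v e ↔ Commute d e} = {v : G | ∃ g ∈ Cfsg.pCore 2 G, v = g * d * g⁻¹} := by
  haveI := Cfsg.Agent.H51.pCore_normal 2 G
  have hconj := H17.class_conj hD
  have hi : d⁻¹ = d := H17.inv_self hD.1 hd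
  constructor
  · ext v
    refine ⟨fun ⟨hv, h⟩ => ⟨hv, ?_⟩, fun ⟨hv, h⟩ => ?_⟩
    · rw [hi]; exact H17.vrel_mul_mem_pCore hD.1 hconj ⟨hd, hv, h⟩
    · rw [hi] at h
      exact ⟨hv, ((H17.vrel_iff_mul_mem hD.1 hconj).mpr ⟨hd, hv, h⟩).2.2⟩
  · ext v
    refine ⟨fun ⟨hv, h⟩ => ?_, ?_⟩
    · obtain ⟨g, hg, he⟩ := H17.vrel_exists_conj hD hD2 (v := v) ⟨hd, hv, h⟩
      exact ⟨g, hg, he.symm⟩
    · rintro ⟨g, hg, rfl⟩
      refine ⟨hconj g d hd, ((H17.vrel_iff_mul_mem hD.1 hconj).mpr ⟨hd, hconj g d hd, ?_⟩).2.2⟩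
      have := mul_mem (Subgroup.Normal.conj_mem inferInstance g hg d) (inv_mem hg)
      rwa [hi, show d * g * d * g⁻¹ = d * (g * d * g⁻¹) by simp only [mul_assoc]] at this

end Cfsg.Agent.S5349
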