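import Cfsg.Statements.S5350
import Cfsg.Agent.H17.Radicals

set_option autoImplicit false
open Cfsg

namespace Cfsg.Agent.S5350

/-- Let D be a conjugacy class of 3-transpositions generating the finite group G, with at least two members, and d a member of D. Then the set of members w of D whose commuting partners in D (other than w) are exactly those of d (other than d) coincides with the set of members of D lying in the coset of d modulo the largest normal 3-subgroup of G, and also with the orbit of d under conjugation by that normal 3-subgroup. -/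
theorem result {G : Type*} [Group G] [Finite G] {D : Set G} (hD : Cfsg.IsThreeTranspositionClass D) (hD2 : ∃ a ∈ D, ∃ b ∈ D, a ≠ b) {d : G} (hd : d ∈ D) : {w : G | w ∈ D ∧ {y : G | y ∈ D ∧ y ≠ d ∧ Commute d y} = {y : G | y ∈ D ∧ y ≠ w ∧ Commute w y}} = {w : G | w ∈ D ∧ d⁻¹ * w ∈ Cfsg.pCore 3 G} ∧ {w : G | w ∈ D ∧ {y : G | y ∈ D ∧ y ≠ d ∧ Commute d y} = {y : G | y ∈ D ∧ y ≠ w ∧ Commute w y}} = {w : G | ∃ g ∈ Cfsg.pCore 3 G, w = g * d * g⁻¹} := by
  haveI := Cfsg.Agent.H51.pCore_normal 3 G
  have hconj := H17.class_conj hD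
  have hi : d⁻¹ = d := H17.inv_self hD.1 hd
  have key : ∀ w, w ∈ {w : G | w ∈ D ∧ {y : G | y ∈ D ∧ y ≠ d ∧ Commute d y} = {y : G | y ∈ D ∧ y ≠ w ∧ Commute w y}} ↔ H17.Wrel D d w := by
    intro w
    constructor
    · rintro ⟨hw, he⟩
      refine ⟨hd, hw, fun y hy => ?_⟩
      have := Set.ext_iff.mp he y
      simp only [Set.mem_setOf_eq, hy, true_and] at this
      exact this
    · rintro ⟨-, hw, h⟩
      refine ⟨hw, Set.ext fun y => ?_⟩
      simp only [Set.mem_setOf_eq]
      exact and_congr_right (h y)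
  constructor
  · ext w
    rw [key, H17.wrel_iff_mul_mem hD.1 hconj, Set.mem_setOf_eq, hi]
    exact ⟨fun h => h.2, fun h => ⟨hd, h⟩⟩
  · ext w
    rw [key]
    constructor
    · intro h
      exact ⟨_, (H17.wrel_conj_pCore hD h).1, (H17.wrel_conj_pCore hD h).2.symm⟩
    · rintro ⟨g, hg, rfl⟩
      refine (H17.wrel_iff_mul_mem hD.1 hconj).mpr ⟨hd, hconj g d hd, ?_⟩
      have := mul_mem (Subgroup.Normal.conj_mem inferInstance g hg d) (inv_mem hg)
      rwa [hi, show d * g * d * g⁻¹ = d * (g * d * g⁻¹) by simp only [mul_assoc]] at this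

end Cfsg.Agent.S5350
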