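import Cfsg.Statements.S5355
import Cfsg.Agent.H17.Core

set_option autoImplicit false
open Cfsg

namespace Cfsg.Agent.S5355

/-- Facts about S₄ used in the proof. -/
theorem perm_four_facts :
    Equiv.swap (0 : Fin 4) 1 * Equiv.swap 2 3 * (Equiv.swap 1 2 * Equiv.swap 0 3) *
        (Equiv.swap 0 1 * (Equiv.swap 1 2 * Equiv.swap 0 3) * Equiv.swap 0 1) = 1 ∧
    Equiv.swap (0 : Fin 4) 3 = Equiv.swap 0 1 * (Equiv.swap 1 2 * Equiv.swap 2 3 * Equiv.swap 1 2) * Equiv.swap 0 1 ∧
    Equiv.swap (1 : Fin 4) 2 * Equiv.swap 0 3 = Equiv.swap 0 3 * Equiv.swap 1 2 ∧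
    Equiv.swap (0 : Fin 4) 3 ≠ Equiv.swap 1 2 := by
  decide +kernel

/-- Let D be a conjugacy class of 3-transpositions generating the finite group G, with at least two members, and d a member of D. Suppose that every member of D commuting with d commutes with exactly the same members of D as d does, and that exactly one member of D other than d commutes with d. Then G is isomorphic to the symmetric group of degree 4. -/
theorem result {G : Type*} [Group G] [Finite G] {D : Set G} (hD : Cfsg.IsThreeTranspositionClass D) (hD2 : ∃ a ∈ D, ∃ b ∈ D, a ≠ b) {d : G} (hd : d ∈ D) (hV : {y : G | y ∈ D ∧ Commute d y} = {v : G | v ∈ D ∧ ∀ e ∈ D, Commute v e ↔ Commute d e}) (hm : {y : G | y ∈ D ∧ Commute d y}.ncard = 2) : Nonempty (G ≃* Equiv.Perm (Fin 4)) := by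
  have hconj := H17.class_conj hD
  have hset := hD.1
  have hmate : ∀ p ∈ D, ∃ m ∈ D, m ≠ p ∧ Commute p m ∧ ∀ y ∈ D, Commute p y → y = p ∨ y = m := by
    intro p hp
    obtain ⟨g, rfl⟩ := H17.class_transitive hD hd hp
    obtain ⟨u, v, huv, huv'⟩ := Set.ncard_eq_two.mp hm
    have hdm : d ∈ {y : G | y ∈ D ∧ Commute d y} := ⟨hd, Commute.refl d⟩
    rw [huv'] at hdm
    obtain ⟨m, hmne, hmm⟩ : ∃ m, m ≠ d ∧ {y : G | y ∈ D ∧ Commute d y} = {d, m} := by
      rcases hdm with rfl | rfl
      · exact ⟨v, huv.symm, huv'⟩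
      · exact ⟨u, huv, by rw [huv', Set.pair_comm]⟩
    have hm' : m ∈ {y : G | y ∈ D ∧ Commute d y} := by rw [hmm]; simp
    refine ⟨g * m * g⁻¹, hconj g m hm'.1, fun h => hmne (mul_left_cancel (mul_right_cancel h)),
      (H17.commute_conj g).mpr hm'.2, fun y hy hy' => ?_⟩
    have : g⁻¹ * y * g ∈ {y : G | y ∈ D ∧ Commute d y} := by
      refine ⟨by simpa using hconj g⁻¹ y hy, (H17.commute_conj g).mp ?_⟩
      rwa [show g * (g⁻¹ * y * g) * g⁻¹ = y by group]
    rw [hmm] at this
    rcases this with h | h
    · exact Or.inl (by rw [← h]; group)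
    · exact Or.inr (by rw [← show g⁻¹ * y * g = m from h]; group)
  have hcl : ∀ p ∈ D, ∀ q ∈ D, Commute p q → ∀ e ∈ D, Commute q e ↔ Commute p e := by
    intro p hp q hq hpq
    obtain ⟨g, rfl⟩ := H17.class_transitive hD hd hp
    have hq' : g⁻¹ * q * g ∈ {y : G | y ∈ D ∧ Commute d y} := by
      refine ⟨by simpa using hconj g⁻¹ q hq, (H17.commute_conj g).mp ?_⟩
      rwa [show g * (g⁻¹ * q * g) * g⁻¹ = q by group]
    rw [hV] at hq'
    have h := H17.vrel_conj hset hconj g (a := d) (b := g⁻¹ * q * g) ⟨hd, hq'.1, hq'.2⟩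
    rw [show g * (g⁻¹ * q * g) * g⁻¹ = q by group] at h
    exact h.2.2
  choose! m hmD hmne hmc hmu using hmate
  have hx1 : ∀ p ∈ D, p * m p ≠ 1 := fun p hp h => hmne p hp (by
    rw [mul_eq_one_iff_eq_inv, H17.inv_self hset (hmD p hp)] at h
    exact h.symm)
  have hxx : ∀ p ∈ D, (p * m p) * (p * m p) = 1 := fun p hp => by
    rw [(hmc p hp).symm.mul_mul_mul_comm, H17.sq_one hset hp, H17.sq_one hset (hmD p hp), one_mul]
  have line : ∀ p ∈ D, ∀ q ∈ D, ¬ Commute p q →
      p * q * p * m (p * q * p) = (p * m p) * (q * m q) ∧ ∃ φ : Equiv.Perm (Fin 4) →* G,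
        Function.Injective φ ∧ φ (Equiv.swap 0 1) = p ∧ φ (Equiv.swap 1 2) = q ∧
        φ (Equiv.swap 2 3) = m p ∧ φ (Equiv.swap 0 3) = m q := by
    intro p hp q hq hpq
    have hqm : ¬ Commute q (m p) := fun h => hpq
      ((hcl p hp (m p) (hmD p hp) (hmc p hp) q hq).mp h.symm)
    obtain ⟨φ, f1, f2, f3⟩ := H17.SymSmall.exists_hom_four (a := p) (b := q) (c := m p)
      ⟨H17.sq_one hset hp, H17.sq_one hset hq, H17.sq_one hset (hmD p hp), (hmc p hp).eq.symm,
        (H17.braid hset hp hq hpq).symm, (H17.braid hset hq (hmD p hp) hqm).symm⟩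
    have hinj := H17.SymSmall.injective_four φ (by rw [f1, f3]; exact (hmne p hp).symm)
    have f4 : φ (Equiv.swap 0 3) = m q := by
      have hwD : φ (Equiv.swap 0 3) ∈ D := by
        rw [perm_four_facts.2.1]
        simp only [map_mul, f1, f2, f3]
        exact H17.third_mem hset hconj hp (H17.third_mem hset hconj hq (hmD p hp))
      refine (hmu q hq _ hwD ?_).resolve_left fun h => ?_
      · rw [← f2]; exact (show Commute _ _ from perm_four_facts.2.2.1).map φ
      · rw [← f2] at h; exact perm_four_facts.2.2.2 (hinj h)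
    refine ⟨?_, φ, hinj, f1, f2, f3, f4⟩
    have hm' : m (p * q * p) = p * m q * p := by
      have hmem := H17.third_mem hset hconj hp (hmD q hq)
      symm
      refine (hmu _ (H17.third_mem hset hconj hp hq) _ hmem ?_).resolve_left fun h => ?_
      · have := (H17.commute_conj p).mpr (hmc q hq)
        rwa [H17.inv_self hset hp] at this
      · exact hmne q hq (mul_left_cancel (mul_right_cancel h))
    have h := congrArg φ perm_four_facts.1
    simp only [map_mul, map_one, f1, f2, f3, f4] at h
    rw [hm', show p * q * p * (p * m q * p) = p * (q * m q) * p by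
      calc p * q * p * (p * m q * p) = p * q * (p * p) * m q * p := by simp only [mul_assoc]
        _ = _ := by rw [H17.sq_one hset hp, mul_one]; simp only [mul_assoc]]
    have h2 : (p * (q * m q) * p) * (p * (q * m q) * p) = 1 := by
      calc (p * (q * m q) * p) * (p * (q * m q) * p)
          = p * (q * m q) * (p * p) * (q * m q) * p := by simp only [mul_assoc]
        _ = p * ((q * m q) * (q * m q)) * p := by
            rw [H17.sq_one hset hp, mul_one]; simp only [mul_assoc]
        _ = 1 := by rw [hxx q hq, mul_one, H17.sq_one hset hp]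
    calc p * (q * m q) * p
        = (p * m p * (q * m q) * (p * (q * m q) * p)) * (p * (q * m q) * p) := by rw [h, one_mul]
      _ = _ := by rw [mul_assoc (p * m p * (q * m q)), h2, mul_one]
  obtain ⟨c, hc, hdc⟩ := H17.exists_not_commute hD hD2 hd
  obtain ⟨hline, φ, hinj, f1, f2, f3, f4⟩ := line d hd c hc hdc
  have he : d * c * d ∈ D := H17.third_mem hset hconj hd hc
  -- every member commutes with a point of the line
  have hall : ∀ i ∈ D, Commute d i ∨ Commute c i ∨ Commute (d * c * d) i := by
    intro i hi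
    by_contra hne
    rw [not_or, not_or] at hne
    obtain ⟨hdi, hci, hei⟩ := hne
    have hdi' := H17.third_mem hset hconj hd hi
    have hei' := H17.third_mem hset hconj he hi
    have h1 : ¬ Commute c (d * i * d) := fun h => hei (by
      have := (H17.commute_conj d).mpr h
      rwa [H17.inv_self hset hd, show d * (d * i * d) * d = (d * d) * i * (d * d) by
        simp only [mul_assoc], H17.sq_one hset hd, one_mul, mul_one] at this)
    have hede : (d * c * d) * d * (d * c * d) = c := by
      calc (d * c * d) * d * (d * c * d) = d * c * (d * d) * d * c * d := by simp only [mul_assoc]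
        _ = d * (c * d * c) * d := by rw [H17.sq_one hset hd, mul_one]; simp only [mul_assoc]
        _ = d * (d * c * d) * d := by rw [H17.braid hset hc hd (fun h => hdc h.symm)]
        _ = (d * d) * c * (d * d) := by simp only [mul_assoc]
        _ = c := by rw [H17.sq_one hset hd, one_mul, mul_one]
    have h2 : ¬ Commute d ((d * c * d) * i * (d * c * d)) := fun h => hci (by
      have := (H17.commute_conj (d * c * d)).mpr h
      rwa [H17.inv_self hset he, hede,
        show (d * c * d) * ((d * c * d) * i * (d * c * d)) * (d * c * d) =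
          ((d * c * d) * (d * c * d)) * i * ((d * c * d) * (d * c * d)) by simp only [mul_assoc],
        H17.sq_one hset he, one_mul, mul_one] at this)
    -- the two evaluations of one point
    have hpt : d * ((d * c * d) * i * (d * c * d)) * d = c * (d * i * d) * c := by
      have hde : d * (d * c * d) = c * d := by
        rw [← mul_assoc, ← mul_assoc, H17.sq_one hset hd, one_mul]
      have hed : (d * c * d) * d = d * c := by rw [mul_assoc, H17.sq_one hset hd, mul_one]
      calc d * ((d * c * d) * i * (d * c * d)) * d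
          = (d * (d * c * d)) * i * ((d * c * d) * d) := by simp only [mul_assoc]
        _ = (c * d) * i * (d * c) := by rw [hde, hed]
        _ = _ := by simp only [mul_assoc]
    have l1 := (line (d * c * d) he i hi hei).1
    have l2 := (line d hd _ hei' h2).1
    have l3 := (line d hd i hi hdi).1
    have l4 := (line c hc _ hdi' h1).1
    rw [hline] at l1
    rw [l1, hpt] at l2
    rw [l3] at l4
    rw [l4] at l2
    -- `l2 : (c-part) = (d-part)`, so the mate product of `d` is trivial
    have ha := hxx d hd
    apply hx1 d hd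
    generalize d * m d = A at l2 ha
    generalize c * m c = B at l2
    generalize i * m i = C at l2
    rw [← mul_assoc, ← mul_assoc A (A * B), ← mul_assoc A A, ha, one_mul] at l2
    exact mul_eq_left.mp (mul_right_cancel l2)
  -- so `φ` is surjective
  have hrange : φ.range = ⊤ := by
    rw [eq_top_iff, ← hD.2.2, Subgroup.closure_le]
    intro y hy
    have r : ∀ σ, φ σ ∈ φ.range := fun σ => ⟨σ, rfl⟩
    have rd : d ∈ φ.range := f1 ▸ r _
    have rc : c ∈ φ.range := f2 ▸ r _
    rcases hall y hy with h | h | h
    · rcases hmu d hd y hy h with rfl | rfl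
      exacts [rd, f3 ▸ r _]
    · rcases hmu c hc y hy h with rfl | rfl
      exacts [rc, f4 ▸ r _]
    · rcases hmu _ he y hy h with rfl | rfl
      · exact mul_mem (mul_mem rd rc) rd
      · have hmm : (d * c * d) * (d * c * d * m (d * c * d)) = m (d * c * d) := by
          rw [← mul_assoc, H17.sq_one hset he, one_mul]
        rw [← hmm, hline]
        exact mul_mem (mul_mem (mul_mem rd rc) rd)
          (mul_mem (mul_mem rd (f3 ▸ r _)) (mul_mem rc (f4 ▸ r _)))
  exact ⟨((MonoidHom.ofInjective hinj).trans
    ((MulEquiv.subgroupCongr hrange).trans Subgroup.topEquiv)).symm⟩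

end Cfsg.Agent.S5355
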