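import Cfsg.Statements.S5363
import Cfsg.Agent.H17.Basic

set_option autoImplicit false
open Cfsg

namespace Cfsg.Agent.S5363

/-- Let D be a conjugation-invariant set of involutions of a finite group G. Then every product of two members of D has odd order or order 2 if and only if, for every a in D and every b in D different from a and commuting with a, the members of D commuting with a b are exactly those commuting with both a and b. -/
theorem result {G : Type*} [Group G] [Finite G] {D : Set G} (hinv : ∀ d ∈ D, orderOf d = 2) (hconj : ∀ g : G, ∀ d ∈ D, g * d * g⁻¹ ∈ D) : (∀ a ∈ D, ∀ b ∈ D, Odd (orderOf (a * b)) ∨ orderOf (a * b) = 2) ↔ ∀ a ∈ D, ∀ b ∈ D, b ≠ a → Commute a b → {y : G | y ∈ D ∧ Commute (a * b) y} = {y : G | y ∈ D ∧ Commute a y} ∩ {y : G | y ∈ D ∧ Commute b y} := by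
  have hset2 : ∀ d ∈ D, d * d = 1 := fun d hd => H17.mul_self_of_orderOf (hinv d hd)
  constructor
  · intro hord a ha b hb hne hab
    ext y
    refine ⟨fun ⟨hy, hyc⟩ => ?_, fun ⟨⟨hy, h1⟩, ⟨_, h2⟩⟩ => ⟨hy, h1.mul_left h2⟩⟩
    by_cases hya : Commute a y
    · refine ⟨⟨hy, hya⟩, hy, ?_⟩
      have hb' : b = a * (a * b) := by rw [← mul_assoc, hset2 a ha, one_mul]
      rw [hb']; exact hya.mul_left hyc
    exfalso
    obtain ⟨t, htdef⟩ : ∃ t, t = a * b := ⟨_, rfl⟩
    rw [← htdef] at hyc
    have ht2 : t * t = 1 := by
      rw [htdef, hab.symm.mul_mul_mul_comm, hset2 a ha, hset2 b hb, one_mul]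
    have ht1 : orderOf t = 2 := by
      refine orderOf_eq_prime (by rw [pow_two, ht2]) ?_
      intro h
      rw [htdef, mul_eq_one_iff_eq_inv, H17.inv_of_orderOf (hinv b hb)] at h
      exact hne h.symm
    have hat : Commute a t := htdef ▸ ((Commute.refl a).mul_right hab)
    have hb' : b = a * t := by rw [htdef, ← mul_assoc, hset2 a ha, one_mul]
    have hne1 : orderOf (y * a) ≠ 2 := by
      intro h
      exact hya ((H17.commute_iff_sq (hset2 y hy) (hset2 a ha)).mpr
        (by rw [← h]; exact pow_orderOf_eq_one _)).symm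
    have hodd : Odd (orderOf (y * a)) := (hord y hy a ha).resolve_right hne1
    have hcz : Commute (y * a) t := hyc.symm.mul_left hat
    have horder : orderOf (y * b) = orderOf (y * a) * 2 := by
      rw [hb', ← mul_assoc, hcz.orderOf_mul_eq_mul_orderOf_of_coprime, ht1]
      rw [ht1]; exact hodd.coprime_two_right
    rcases hord y hy b hb with h | h
    · rw [horder] at h
      simp [Nat.odd_mul, Nat.odd_iff] at h
    · rw [horder] at h
      have h1 : orderOf (y * a) = 1 := by omega
      rw [orderOf_eq_one_iff, mul_eq_one_iff_eq_inv, H17.inv_of_orderOf (hinv a ha)] at h1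
      exact hya (h1 ▸ Commute.refl y)
  · intro hC a ha b hb
    rcases Nat.even_or_odd (orderOf (a * b)) with heven | hodd
    swap; · exact Or.inl hodd
    right
    obtain ⟨k, hk⟩ := heven
    obtain ⟨x, hxdef⟩ : ∃ x, x = a * b := ⟨_, rfl⟩
    rw [← hxdef] at hk ⊢
    have hk0 : k ≠ 0 := by
      have := orderOf_pos x
      omega
    have hxk : x ^ k ≠ 1 := fun h => by
      have := orderOf_le_of_pow_eq_one (by omega) h
      omega
    have hx2k : x ^ k * x ^ k = 1 := by rw [← pow_add, ← hk, pow_orderOf_eq_one]
    have hai := H17.inv_of_orderOf (hinv a ha)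
    have hbi := H17.inv_of_orderOf (hinv b hb)
    have hax : ∀ n : ℕ, a * x ^ n * a = (x ^ n)⁻¹ := by
      intro n
      have : a * x * a⁻¹ = x⁻¹ := by
        rw [hxdef, mul_inv_rev, hbi, hai, ← mul_assoc a a, hset2 a ha, one_mul]
      rw [← inv_pow, ← this, conj_pow, hai]
    -- a * x ^ n is in D for all n
    have hmem : ∀ n, a * x ^ n ∈ D := by
      intro n
      induction n using Nat.strong_induction_on with
      | _ n ih =>
        match n with
        | 0 => simpa using ha
        | 1 => rw [pow_one, hxdef, ← mul_assoc, hset2 a ha, one_mul]; exact hb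
        | m + 2 =>
          have hm := ih m (by omega)
          have := hconj x⁻¹ _ hm
          rw [inv_inv] at this
          convert this using 1
          have h1 : x⁻¹ * a = a * x := by
            have := hax 1
            rw [pow_one] at this
            rw [← this, mul_assoc, hset2 a ha, mul_one]
          rw [← mul_assoc, h1, mul_assoc, mul_assoc]
          rw [pow_succ, pow_succ']
          simp only [mul_assoc]
    have hca : Commute a (a * x ^ k) := by
      refine (Commute.refl a).mul_right ?_
      show a * x ^ k = x ^ k * a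
      calc a * x ^ k = (a * x ^ k * a) * a := by rw [mul_assoc, hset2 a ha, mul_one]
        _ = x ^ k * a := by rw [hax, inv_eq_of_mul_eq_one_right hx2k]
    have key := hC a ha (a * x ^ k) (hmem k) (by simpa using hxk) hca
    rw [← mul_assoc, hset2 a ha, one_mul] at key
    have hbk : Commute (x ^ k) b := by
      have hb' : b = a * x := by rw [hxdef, ← mul_assoc, hset2 a ha, one_mul]
      rw [hb']
      refine Commute.mul_right ?_ ((Commute.refl x).pow_left k)
      show x ^ k * a = a * x ^ k
      calc x ^ k * a = (a * x ^ k * a)⁻¹ * a := by rw [hax, inv_inv]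
        _ = a * (x ^ k)⁻¹ := by simp only [mul_inv_rev, hai, mul_assoc, hset2 a ha, mul_one]
        _ = a * x ^ k := by rw [inv_eq_of_mul_eq_one_right hx2k]
    have : b ∈ {y : G | y ∈ D ∧ Commute a y} ∩ {y : G | y ∈ D ∧ Commute (a * x ^ k) y} :=
      key ▸ ⟨hb, hbk⟩
    have h2 : x ^ 2 = 1 := by
      rw [hxdef]; exact (H17.commute_iff_sq (hset2 a ha) (hset2 b hb)).mp this.1.2
    have := orderOf_le_of_pow_eq_one (by norm_num) h2
    omega

end Cfsg.Agent.S5363
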