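import Cfsg.Statements.S5364
import Cfsg.Agent.H17.Basic

set_option autoImplicit false
open Cfsg

namespace Cfsg.Agent.S5364

/-- Let D be a conjugation-invariant set of involutions of a finite group G and t an involution in the centre of G such that d t does not lie in D for any d in D. If the images of the members of D in G modulo the subgroup generated by t satisfy the 3-transposition order conditions (each has order 2 and any two have product of order at most 3), then so do the members of D. -/
theorem result {G : Type*} [Group G] [Finite G] {D : Set G} (hinv : ∀ d ∈ D, orderOf d = 2) (hconj : ∀ g : G, ∀ d ∈ D, g * d * g⁻¹ ∈ D) (t : G) (ht : orderOf t = 2) (htZ : t ∈ Subgroup.center G) (hDt : ∀ d ∈ D, d * t ∉ D) [(Subgroup.zpowers t).Normal] (himg : Cfsg.IsThreeTranspositionSet ((QuotientGroup.mk : G → G ⧸ Subgroup.zpowers t) '' D)) : Cfsg.IsThreeTranspositionSet D := by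
  obtain ⟨-, hord⟩ := himg
  refine ⟨hinv, fun d hd e he => ?_⟩
  have hd2 := H17.mul_self_of_orderOf (hinv d hd)
  have hdi := H17.inv_of_orderOf (hinv d hd)
  have hei := H17.inv_of_orderOf (hinv e he)
  obtain ⟨x, hx⟩ : ∃ x, x = d * e := ⟨_, rfl⟩
  -- d * x ^ n lies in D
  have hxd : x⁻¹ * d = d * x := by
    rw [hx, mul_inv_rev, hdi, hei, mul_assoc, hd2, mul_one, ← mul_assoc, hd2, one_mul]
  have hmem : ∀ n, d * x ^ n ∈ D := by
    intro n
    induction n using Nat.strong_induction_on with
    | _ n ih =>
      match n with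
      | 0 => simpa using hd
      | 1 => rw [pow_one, hx, ← mul_assoc, hd2, one_mul]; exact he
      | m + 2 =>
        have := hconj x⁻¹ _ (ih m (by omega))
        rw [inv_inv] at this
        convert this using 1
        rw [← mul_assoc, hxd, pow_succ, pow_succ']
        simp only [mul_assoc]
  have key : ∀ n : ℕ, x ^ n ∈ Subgroup.zpowers t → x ^ n = 1 := by
    intro n hn
    obtain ⟨k, hk⟩ := hn
    simp only at hk
    have ht2 : ∀ l : ℤ, t ^ (l + l) = 1 := fun l => by
      rw [zpow_add, ← ((Commute.refl t).mul_zpow l), H17.mul_self_of_orderOf ht, one_zpow]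
    rcases Int.even_or_odd k with ⟨l, rfl⟩ | ⟨l, rfl⟩
    · rw [← hk, ht2]
    · exfalso
      have : x ^ n = t := by
        rw [← hk, zpow_add_one, two_mul, ht2, one_mul]
      exact hDt d hd (this ▸ hmem n)
  rcases hord _ ⟨d, hd, rfl⟩ _ ⟨e, he, rfl⟩ with h | h
  · left
    rw [← hx]; exact key 2 ((QuotientGroup.eq_one_iff _).mp (by rw [hx]; exact h))
  · right
    rw [← hx]; exact key 3 ((QuotientGroup.eq_one_iff _).mp (by rw [hx]; exact h))

end Cfsg.Agent.S5364
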