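import Cfsg.Statements.S5366
import Cfsg.Agent.H17.FischerInv

set_option autoImplicit false
open Cfsg

namespace Cfsg.Agent.S5366

/-- Let L be a nondegenerate Fischer space on the point type X (every point on a line). Then for every point x the map t(x) — sending a point collinear with x to the third point of their common line and fixing every other point — is a permutation of X of order 2 and an automorphism of the line system; and the set of all t(x) satisfies the 3-transposition order conditions in the permutation group of X (any two have product of order at most 3). -/
theorem result {X : Type*} (L : Set (Set X)) (hL : Cfsg.IsFischerSpace L) (hnd : Cfsg.LineSystem.IsNondegenerate L) : (∀ x : X, ∃ σ : Equiv.Perm X, ⇑σ = Cfsg.LineSystem.lineMap L x ∧ orderOf σ = 2 ∧ Cfsg.LineSystem.IsIso L L σ) ∧ Cfsg.IsThreeTranspositionSet {σ : Equiv.Perm X | ∃ x : X, ⇑σ = Cfsg.LineSystem.lineMap L x} := by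
  exact Cfsg.Agent.H17.Planes.lineMap_facts hL hnd

end Cfsg.Agent.S5366
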