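import Cfsg.Agent.H59.HJ.Normalizer
-- import your own Cfsg.Agent.* helpers here

set_option autoImplicit false
open Cfsg

namespace Cfsg.Agent.S5382

/-- Let G be a finite group of Hall–Janko type: it has more than one class of involutions and an involution z whose centralizer C has generalized Fitting subgroup Q extraspecial of order 32 with C/Q isomorphic to the commutator subgroup of the isometry group of the elliptic quadratic form in dimension 4 over the field with two elements (the alternating group of degree 5), with z not weakly closed in Q. Then for every involution t not conjugate to z, the centralizer of t is isomorphic to the direct product of an elementary abelian group of order 4 and the alternating group of degree 5, and the normalizer of the largest normal 2-subgroup of that centralizer is isomorphic to the direct product of the alternating groups of degrees 4 and 5. -/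
theorem result {G : Type*} [Group G] [Finite G] (z : G) (hz : orderOf z = 2) (Q : Subgroup (Subgroup.centralizer ({z} : Set G))) [Q.Normal] (hF : Cfsg.generalizedFittingSubgroup (Subgroup.centralizer ({z} : Set G)) = Q) (hQ : Cfsg.IsExtraspecial 2 Q) (hcard : Nat.card Q = 2 ^ 5) (e : (Subgroup.centralizer ({z} : Set G)) ⧸ Q ≃* Cfsg.Omega (ZMod 2) (Cfsg.quadFormMinus 1 (ZMod 2) 1 1)) (hnwc : ∃ g : G, (∃ hq : g * z * g⁻¹ ∈ Subgroup.centralizer ({z} : Set G), (⟨g * z * g⁻¹, hq⟩ : Subgroup.centralizer ({z} : Set G)) ∈ Q) ∧ g * z * g⁻¹ ≠ z) (hcl : ∃ x y : G, orderOf x = 2 ∧ orderOf y = 2 ∧ ¬ IsConj x y) (t : G) (ht : orderOf t = 2) (htz : ¬ IsConj t z) : Nonempty (↥(Subgroup.centralizer ({t} : Set G)) ≃* (Multiplicative (ZMod 2) × Multiplicative (ZMod 2)) × alternatingGroup (Fin 5)) ∧ Nonempty (↥(Subgroup.normalizer (((Cfsg.pCore 2 ↥(Subgroup.centralizer ({t} : Set G))).map (Subgroup.subtype (Subgroup.centralizer ({t} : Set G))) : Subgroup G) : Set G)) ≃* alternatingGroup (Fin 4) × alternatingGroup (Fin 5)) := by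
  obtain ⟨t₀, f, k, E, A, B, W, Φ, -, d⟩ := Cfsg.Agent.H59.HJ.exists_data z hz Q hF hQ hcard e hnwc hcl
  obtain ⟨c, hc⟩ := isConj_iff.1 ((d.loc.cases t ht).resolve_left htz).symm
  -- transport by conjugation
  have hT : (Subgroup.centralizer ({t₀} : Set G)).map (MulAut.conj c).toMonoidHom =
      Subgroup.centralizer ({t} : Set G) := by
    ext x
    rw [Subgroup.mem_map, Subgroup.mem_centralizer_singleton_iff, ← hc]
    constructor
    · rintro ⟨y, hy, rfl⟩
      simp only [MulEquiv.coe_toMonoidHom, MulAut.conj_apply]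
      rw [conj_mul, conj_mul, Subgroup.mem_centralizer_singleton_iff.1 hy]
    · intro hx
      refine ⟨c⁻¹ * x * c, Subgroup.mem_centralizer_singleton_iff.2 ?_, by simp [mul_assoc]⟩
      calc c⁻¹ * x * c * t₀ = c⁻¹ * (x * (c * t₀ * c⁻¹)) * c := by group
        _ = c⁻¹ * (c * t₀ * c⁻¹ * x) * c := by rw [hx]
        _ = t₀ * (c⁻¹ * x * c) := by group
  have hW : Cfsg.pCoreOf 2 (Subgroup.centralizer ({t} : Set G)) = W.map (MulAut.conj c).toMonoidHom := by
    rw [← hT, Cfsg.Agent.H72.pCoreOf_map_equiv, d.split.pCore_eq]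
  obtain ⟨ε⟩ := d.split.nonempty_centralizer
  obtain ⟨η⟩ := d.split.nonempty_normalizer d.loc
  refine ⟨⟨(MulEquiv.subgroupCongr hT).symm.trans (((MulAut.conj c).subgroupMap _).symm.trans ε)⟩, ⟨?_⟩⟩
  have hN : (Subgroup.normalizer (W : Set G)).map (MulAut.conj c).toMonoidHom =
      Subgroup.normalizer (((Cfsg.pCore 2 ↥(Subgroup.centralizer ({t} : Set G))).map
        (Subgroup.subtype (Subgroup.centralizer ({t} : Set G))) : Subgroup G) : Set G) := by
    rw [show ((Cfsg.pCore 2 ↥(Subgroup.centralizer ({t} : Set G))).map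
        (Subgroup.subtype (Subgroup.centralizer ({t} : Set G))) : Subgroup G) =
        W.map (MulAut.conj c).toMonoidHom from hW]
    exact Subgroup.map_equiv_normalizer_eq W (MulAut.conj c)
  exact (MulEquiv.subgroupCongr hN).symm.trans (((MulAut.conj c).subgroupMap _).symm.trans η)

end Cfsg.Agent.S5382
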