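import Cfsg.Statements.S5385
import Cfsg.Agent.H41.CoType.Layer

set_option autoImplicit false
open Cfsg

namespace Cfsg.Agent.S5385

/-- Let G be a finite group of Conway type (involution z with generalized Fitting subgroup Q of its centralizer C extraspecial of order 2^9, C/Q the commutator subgroup of the isometry group of the hyperbolic quadratic form in dimension 8 over the field with two elements, z not weakly closed in Q), and let B be a subgroup of C of order 5 such that the centralizer of B in Q is extraspecial of order 32 containing no elementary abelian subgroup of order 8 (the quaternion-times-dihedral type). Then the layer L of the centralizer of B in G is isomorphic to the Hall–Janko group and the centralizer of L is isomorphic to the alternating group of degree 5. -/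
theorem result {G : Type*} [Group G] [Finite G] (z : G) (hz : orderOf z = 2) (Q : Subgroup (Subgroup.centralizer ({z} : Set G))) [Q.Normal] (hF : Cfsg.generalizedFittingSubgroup (Subgroup.centralizer ({z} : Set G)) = Q) (hQ : Cfsg.IsExtraspecial 2 Q) (hcard : Nat.card Q = 2 ^ 9) (e : (Subgroup.centralizer ({z} : Set G)) ⧸ Q ≃* Cfsg.Omega (ZMod 2) (Cfsg.quadFormPlus 4 (ZMod 2))) (hnwc : ∃ g : G, (∃ hq : g * z * g⁻¹ ∈ Subgroup.centralizer ({z} : Set G), (⟨g * z * g⁻¹, hq⟩ : Subgroup.centralizer ({z} : Set G)) ∈ Q) ∧ g * z * g⁻¹ ≠ z) (B : Subgroup (Subgroup.centralizer ({z} : Set G))) (hB : Nat.card B = 5) (hCQ : Cfsg.IsExtraspecial 2 ↥(Q ⊓ Subgroup.centralizer (B : Set (Subgroup.centralizer ({z} : Set G))))) (hCQcard : Nat.card ↥(Q ⊓ Subgroup.centralizer (B : Set (Subgroup.centralizer ({z} : Set G)))) = 32) (hminus : ∀ A : Subgroup (Subgroup.centralizer ({z} : Set G)), A ≤ Q ⊓ Subgroup.centralizer (B : Set (Subgroup.centralizer ({z} : Set G))) → Cfsg.IsElementaryAbelian 2 A → Nat.card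 A ≤ 4) : Cfsg.Spor.IsoJ2 ↥(Cfsg.layer ↥(Subgroup.centralizer ((B.map (Subgroup.subtype (Subgroup.centralizer ({z} : Set G)))) : Set G))) ∧ Nonempty (↥(Subgroup.centralizer (((Cfsg.layer ↥(Subgroup.centralizer ((B.map (Subgroup.subtype (Subgroup.centralizer ({z} : Set G)))) : Set G))).map (Subgroup.subtype _)) : Set G)) ≃* alternatingGroup (Fin 5)) := by
  classical
  obtain ⟨S, hSz, hSF⟩ := H41.CoType.exists_setting hz Q hF hQ hcard e hnwc
  subst hSz
  haveI : Fact (Nat.Prime 5) := ⟨by norm_num⟩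
  haveI : Nontrivial B := Finite.one_lt_card_iff_nontrivial.1 (by rw [hB]; norm_num)
  obtain ⟨⟨⟨β, hβC⟩, hβB⟩, hβne⟩ := exists_ne (1 : B)
  have hBgen : B = Subgroup.zpowers (⟨β, hβC⟩ : Subgroup.centralizer ({S.z} : Set G)) := by
    refine (Subgroup.eq_of_le_of_card_ge (Subgroup.zpowers_le.2 hβB) (le_of_eq ?_)).symm
    rw [hB, Nat.card_zpowers]
    exact (orderOf_eq_prime (by rw [← hB]; exact pow_card_eq_one') hβne).symm.trans
      (Subgroup.orderOf_coe (⟨⟨β, hβC⟩, hβB⟩ : B)).symm
  have h5 : β ^ 5 = 1 := by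
    have h : (⟨⟨β, hβC⟩, hβB⟩ : B) ^ 5 = 1 := by rw [← hB]; exact pow_card_eq_one'
    exact congrArg (fun b : B => ((b : Subgroup.centralizer ({S.z} : Set G)) : G)) h
  -- the centralizers
  have hK : Subgroup.centralizer ((B.map (Subgroup.subtype
      (Subgroup.centralizer ({S.z} : Set G))) : Subgroup G) : Set G) =
      Subgroup.centralizer ({β} : Set G) := by
    rw [hBgen, MonoidHom.map_zpowers, Subgroup.zpowers_eq_closure, Subgroup.centralizer_closure]
    rfl
  have hW : ∀ c : Subgroup.centralizer ({S.z} : Set G),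
      c ∈ Q ⊓ Subgroup.centralizer (B : Set (Subgroup.centralizer ({S.z} : Set G))) ↔
        (c : G) ∈ S.F ∧ β * c = c * β := by
    intro c
    rw [hBgen, Subgroup.zpowers_eq_closure, Subgroup.centralizer_closure, Subgroup.mem_inf, hSF,
      Subgroup.mem_map, Subgroup.mem_centralizer_singleton_iff]
    refine and_congr ⟨fun h => ⟨c, h, rfl⟩, fun ⟨d, hd, hdc⟩ => Subtype.ext hdc ▸ hd⟩ ?_
    rw [Subtype.ext_iff]
    exact eq_comm
  set W := Q ⊓ Subgroup.centralizer (B : Set (Subgroup.centralizer ({S.z} : Set G))) with hWdef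
  have hcard32 : Nat.card {x : G // x ∈ S.F ∧ β * x = x * β} = 32 := by
    rw [← hCQcard]
    exact Nat.card_congr
      { toFun := fun x => ⟨⟨x.1, S.F_le_C x.2.1⟩, (hW _).2 x.2⟩
        invFun := fun w => ⟨_, (hW w.1).1 w.2⟩
        left_inv := fun _ => rfl
        right_inv := fun _ => rfl }
  have hzβ : β * S.z = S.z * β := S.mem_C.1 hβC
  have hnd : ∀ x ∈ S.F, β * x = x * β →
      (∀ y ∈ S.F, β * y = y * β → x * y = y * x) → x = 1 ∨ x = S.z := by
    intro x hx hxβ hcomm
    by_contra hne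
    rw [not_or] at hne
    let x' : W := ⟨⟨x, S.F_le_C hx⟩, (hW _).2 ⟨hx, hxβ⟩⟩
    let z' : W := ⟨⟨S.z, S.F_le_C S.pt.mem⟩, (hW _).2 ⟨S.pt.mem, hzβ⟩⟩
    have hxc : x' ∈ Subgroup.center W := Subgroup.mem_center_iff.2 fun w =>
      Subtype.ext (Subtype.ext (hcomm _ ((hW w.1).1 w.2).1 ((hW w.1).1 w.2).2).symm)
    have hzc : z' ∈ Subgroup.center W := Subgroup.mem_center_iff.2 fun w =>
      Subtype.ext (Subtype.ext (S.pt.comm_x _ ((hW w.1).1 w.2).1))
    have h2 := hCQ.2
    rw [Nat.card_eq_two_iff' (1 : Subgroup.center W)] at h2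
    obtain ⟨u, -, hu⟩ := h2
    have h1 := hu ⟨x', hxc⟩ fun h =>
      hne.1 (congrArg (fun a : Subgroup.center W => (((a : W) : Subgroup.centralizer ({S.z} : Set G)) : G)) h)
    have h3 := hu ⟨z', hzc⟩ fun h =>
      S.pt.xne (congrArg (fun a : Subgroup.center W => (((a : W) : Subgroup.centralizer ({S.z} : Set G)) : G)) h)
    exact hne.2 (congrArg (fun a : Subgroup.center W => (((a : W) : Subgroup.centralizer ({S.z} : Set G)) : G))
      (h1.trans h3.symm))
  have hmin : ∀ x ∈ S.F, ∀ y ∈ S.F, β * x = x * β → β * y = y * β → x * x = 1 → y * y = 1 →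
      x * y = y * x → S.co x = 0 ∨ S.co y = 0 ∨ S.co x = S.co y := by
    intro x hx y hy hxβ hyβ hxx hyy hxy
    by_contra hne
    push Not at hne
    obtain ⟨hx0, hy0, hne⟩ := hne
    let z' : Subgroup.centralizer ({S.z} : Set G) := ⟨S.z, S.F_le_C S.pt.mem⟩
    let x' : Subgroup.centralizer ({S.z} : Set G) := ⟨x, S.F_le_C hx⟩
    let y' : Subgroup.centralizer ({S.z} : Set G) := ⟨y, S.F_le_C hy⟩
    let A : Subgroup (Subgroup.centralizer ({S.z} : Set G)) := Subgroup.closure {z', x', y'}
    have hAW : A ≤ W := (Subgroup.closure_le _).2 (by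
      rintro a (rfl | rfl | rfl)
      exacts [(hW _).2 ⟨S.pt.mem, hzβ⟩, (hW _).2 ⟨hx, hxβ⟩, (hW _).2 ⟨hy, hyβ⟩])
    have hzx : z' * x' = x' * z' := Subtype.ext (S.pt.comm_x x hx).symm
    have hzy : z' * y' = y' * z' := Subtype.ext (S.pt.comm_x y hy).symm
    have hxy' : x' * y' = y' * x' := Subtype.ext hxy
    haveI : IsMulCommutative A := Subgroup.isMulCommutative_closure (by
      rintro a (rfl | rfl | rfl) b (rfl | rfl | rfl) <;>
        first | rfl | exact hzx | exact hzx.symm | exact hzy | exact hzy.symm | exact hxy' | exact hxy'.symm)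
    have hel : IsElementaryAbelian 2 A := by
      refine ⟨inferInstance, fun a ha => ?_⟩
      induction ha using Subgroup.closure_induction with
      | mem a ha =>
        rcases ha with rfl | rfl | rfl <;> refine Subtype.ext ?_ <;> push_cast <;> rw [pow_two]
        exacts [S.pt.xx, hxx, hyy]
      | one => exact one_pow _
      | mul a b ha hb h1 h2 =>
        have hab : Commute a b := congrArg Subtype.val (mul_comm' (⟨a, ha⟩ : A) ⟨b, hb⟩)
        rw [hab.mul_pow, h1, h2, one_mul]
      | inv a _ h => rw [inv_pow, h, inv_one]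
    have h4 := hminus A hAW hel
    have hzA : z' ∈ A := Subgroup.subset_closure (Or.inl rfl)
    have hxA : x' ∈ A := Subgroup.subset_closure (Or.inr (Or.inl rfl))
    have hyA : y' ∈ A := Subgroup.subset_closure (Or.inr (Or.inr rfl))
    have hs : S.co x + S.co y ≠ 0 := fun h => hne (H41.CoType.eq_of_add8 h)
    have hco : S.co (x * y) = S.co x + S.co y := S.co_mul x hx y hy
    let v : Fin 5 → A := ![1, ⟨z', hzA⟩, ⟨x', hxA⟩, ⟨y', hyA⟩, ⟨x' * y', mul_mem hxA hyA⟩]
    have hv : Function.Injective v := by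
      intro i j h
      have hg : (((v i : A) : Subgroup.centralizer ({S.z} : Set G)) : G) = ((v j : A) : _) := by rw [h]
      have hc := congrArg S.co hg
      fin_cases i <;> fin_cases j <;>
        first
        | rfl
        | exact absurd hg S.pt.xne
        | exact absurd hg (Ne.symm S.pt.xne)
        | (exfalso
           simp [v, x', y', z', S.co_one, S.co_z, hco, hx0, hy0, hne, Ne.symm hne, hs, Ne.symm hs,
             Ne.symm hx0, Ne.symm hy0] at hc)
    have := Nat.card_le_card_of_injective v hv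
    rw [Nat.card_fin] at this
    omega
  obtain ⟨P, hPF, hPz, hPβ⟩ := H41.CoType.exists_pent S hβC h5 hcard32 hnd hmin
  subst hPβ
  have hmem : ∀ {w : Subgroup.centralizer ({S.z} : Set G)}, w ∈ W → (w : G) ∈ P.K := fun hw =>
    P.mem_K.2 ((hW _).1 hw).2.symm
  let eW : W ≃* P.QK :=
    { toFun := fun w => ⟨⟨(w.1 : G), hmem w.2⟩,
        Subgroup.mem_subgroupOf.2 (hPF.ge ((hW _).1 w.2).1)⟩
      invFun := fun q => ⟨⟨((q : P.K) : G),
          S.F_le_C (hPF.le (Subgroup.mem_subgroupOf.1 q.2))⟩,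
        (hW _).2 ⟨hPF.le (Subgroup.mem_subgroupOf.1 q.2), (P.mem_K.1 (q : P.K).2).symm⟩⟩
      left_inv := fun _ => rfl
      right_inv := fun _ => rfl
      map_mul' := fun _ _ => rfl }
  rw [hK]
  exact P.conclusion (H58.isExtraspecial_congr eW hCQ) (by rw [← Nat.card_congr eW.toEquiv, hCQcard])

end Cfsg.Agent.S5385
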