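import Cfsg.Statements.S5388
import Cfsg.Agent.H18.CoOne.Centralizer

set_option autoImplicit false
open Cfsg

namespace Cfsg.Agent.S5388

/-- The first Conway group, the automorphism group of the Leech lattice modulo its centre, satisfies the large extraspecial hypothesis of plus type in dimension 8: it has an involution z whose centralizer C has generalized Fitting subgroup Q extraspecial of order 2^9, with C/Q isomorphic to the commutator subgroup of the isometry group of the hyperbolic quadratic form in dimension 8 over the field with two elements, and some conjugate of z other than z lies in Q. -/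
theorem result : ∃ z : Cfsg.Spor.Co1, orderOf z = 2 ∧ ∃ (Q : Subgroup (Subgroup.centralizer ({z} : Set Cfsg.Spor.Co1))) (_ : Q.Normal), Cfsg.generalizedFittingSubgroup (Subgroup.centralizer ({z} : Set Cfsg.Spor.Co1)) = Q ∧ Cfsg.IsExtraspecial 2 Q ∧ Nat.card Q = 2 ^ 9 ∧ Nonempty ((Subgroup.centralizer ({z} : Set Cfsg.Spor.Co1)) ⧸ Q ≃* Cfsg.Omega (ZMod 2) (Cfsg.quadFormPlus 4 (ZMod 2))) ∧ ∃ g : Cfsg.Spor.Co1, (∃ hq : g * z * g⁻¹ ∈ Subgroup.centralizer ({z} : Set Cfsg.Spor.Co1), (⟨g * z * g⁻¹, hq⟩ : Subgroup.centralizer ({z} : Set Cfsg.Spor.Co1)) ∈ Q) ∧ g * z * g⁻¹ ≠ z := by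
  exact ⟨H18.CoOne.zel, H18.CoOne.orderOf_zel, H18.CoOne.phi.ker, inferInstance,
    H18.CoOne.fstar_C1, H18.CoOne.isExtraspecial_ker, H18.CoOne.card_phi_ker,
    ⟨QuotientGroup.quotientKerEquivOfSurjective H18.CoOne.phi H18.CoOne.phi_surjective⟩,
    H18.CoOne.exists_conj⟩

end Cfsg.Agent.S5388
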