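import Cfsg.Statements.S5394
import Cfsg.Agent.H12.ClassReps

set_option autoImplicit false
open Cfsg

namespace Cfsg.Agent.S5394

/-- The automorphism group of the length-24 code built from the squares modulo 23 has exactly two conjugacy classes of involutions: an involution either fixes exactly the eight points of an octad or has no fixed points, both kinds occur, and any two involutions of the same kind are conjugate in the group. -/
theorem result : (∀ g ∈ Cfsg.M24, orderOf g = 2 → (Finset.univ.filter fun p => g p = p) ∈ Cfsg.octads ∨ ∀ p, g p ≠ p) ∧ (∃ g ∈ Cfsg.M24, orderOf g = 2 ∧ (Finset.univ.filter fun p => g p = p) ∈ Cfsg.octads) ∧ (∃ g ∈ Cfsg.M24, orderOf g = 2 ∧ ∀ p, g p ≠ p) ∧ ∀ g ∈ Cfsg.M24, ∀ h ∈ Cfsg.M24, orderOf g = 2 → orderOf h = 2 → ((∀ p, g p ≠ p) ↔ (∀ p, h p ≠ p)) → ∃ k ∈ Cfsg.M24, k * g * k⁻¹ = h := by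
  have hcard : ∀ {g : Equiv.Perm Cfsg.GolayPt}, (∀ p, g p ≠ p) ↔ H12.fixPts g = ∅ := by
    intro g
    simp [H12.fixPts, Finset.filter_eq_empty_iff]
  refine ⟨?_, ⟨_, (H12.rep_ok H12.rep2A (by simp)).2, H12.rep_order.1, ?_⟩,
    ⟨_, (H12.rep_ok H12.rep2B (by simp)).2, H12.rep_order.2.1, hcard.mpr H12.rep_fixPts.2.1⟩, ?_⟩
  · intro g hg h2
    rcases H12.involution_cases hg h2 with ⟨h, -⟩ | ⟨h, -⟩
    · exact Or.inl h
    · exact Or.inr (hcard.mpr h)
  · show H12.fixPts _ ∈ _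
    rw [H12.rep_fixPts.1, H12.fin_mem_octads (by norm_num)]
    decide +kernel
  · intro g hg h hh hg2 hh2 hiff
    rw [hcard, hcard] at hiff
    have hoct : ∀ s ∈ Cfsg.octads, s ≠ (∅ : Finset Cfsg.GolayPt) := by
      intro s hs e
      have := hs.2
      rw [e] at this
      simp at this
    rcases H12.involution_cases hg hg2 with ⟨eg, k, hk, kg⟩ | ⟨eg, k, hk, kg⟩ <;>
      rcases H12.involution_cases hh hh2 with ⟨eh, j, hj, jh⟩ | ⟨eh, j, hj, jh⟩
    · exact ⟨j * k⁻¹, Cfsg.M24.mul_mem hj (Cfsg.M24.inv_mem hk), by rw [kg, jh]; group⟩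
    · exact absurd (hiff.mpr eh) (hoct _ eg)
    · exact absurd (hiff.mp eg) (hoct _ eh)
    · exact ⟨j * k⁻¹, Cfsg.M24.mul_mem hj (Cfsg.M24.inv_mem hk), by rw [kg, jh]; group⟩

end Cfsg.Agent.S5394
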