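import Cfsg.Statements.S5413
import Cfsg.Agent.H18.Monster.Prime.Position
import Cfsg.Agent.H18.Monster.Prime.Five

set_option autoImplicit false
open Cfsg

namespace Cfsg.Agent.S5413

/-- Let G be a finite group of Monster type at the involution z with Q the extraspecial normal subgroup of order 2^25 of C = C_G(z) (so C/Q is identified with the first Conway group with Q modulo its centre the Leech lattice modulo 2, and z is not weakly closed in Q). Let s be a conjugate of z in Q other than z and let B be a Sylow 5-subgroup of the joint centralizer of z and s. Then the centralizer of B modulo B is a group of Harada–Norton type (an involution whose centralizer D has generalized Fitting subgroup R extraspecial of order 2^9 with D/R the wreath product of the alternating group of degree 5 by a group of order 2, the involution not weakly closed in R). -/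
theorem result {G : Type*} [Group G] [Finite G] (z : G) (Q : Subgroup (Subgroup.centralizer ({z} : Set G))) [Q.Normal] (hM : Cfsg.IsOfMonsterType z Q) (s : G) (hsQ : ∃ hsc : s ∈ Subgroup.centralizer ({z} : Set G), (⟨s, hsc⟩ : Subgroup.centralizer ({z} : Set G)) ∈ Q) (hs : IsConj z s) (hs1 : s ≠ z) (B : Subgroup G) (hB : B ≤ Subgroup.centralizer ({z, s} : Set G)) (hBp : Nat.card B = 5 ^ (Nat.card ↥(Subgroup.centralizer ({z, s} : Set G))).factorization 5) [hn : (B.subgroupOf (Subgroup.centralizer (B : Set G))).Normal] : Cfsg.IsOfHaradaNortonType (↥(Subgroup.centralizer (B : Set G)) ⧸ B.subgroupOf (Subgroup.centralizer (B : Set G))) := by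
  obtain ⟨hset, e, ψ, hψ⟩ := hM
  obtain ⟨hsc, hsq⟩ := hsQ
  obtain ⟨D', b, S, rfl⟩ :=
    (Cfsg.Agent.H18.Monster.Data.mk e ψ hψ hset).exists_primeElt
      Cfsg.Agent.H18.Monster.Prime.Five.model
      (show ¬ (5 : ℕ) ^ 2 ∣ 244823040 by norm_num) (show (5 : ℕ) ∣ 244823040 by norm_num)
      ⟨Cfsg.Agent.H18.Monster.Held.pt 1, Cfsg.Agent.H18.Monster.Prime.Five.sig_moves⟩
      (q := ⟨⟨s, hsc⟩, hsq⟩) hs hs1 B hB hBp
  obtain ⟨hR, hT⟩ := S.nonempty_quotient
  exact ⟨S.zbar, S.R, hR, S.setting 4 rfl fun w h1 h2 =>
    S.norm_of_sq (show ¬ (5 : ℕ) ^ 2 ∣ 244823040 by norm_num) w h1 h2, hT⟩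

end Cfsg.Agent.S5413
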