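import Cfsg.Statements.S5414
import Cfsg.Agent.H18.Monster.Prime.ThreePosition

set_option autoImplicit false
open Cfsg

namespace Cfsg.Agent.S5414

/-- Let G be a finite group of Monster type at the involution z with Q the extraspecial normal subgroup of order 2^25 of C = C_G(z) (so C/Q is identified with the first Conway group with Q modulo its centre the Leech lattice modulo 2, and z is not weakly closed in Q). Let s be a conjugate of z in Q other than z and let Y be a subgroup of order 3 of the joint centralizer L of z and s that is not 3-central in L (Y lies in the centre of no Sylow 3-subgroup of L). Then the centralizer of Y modulo Y is a group of Thompson type (an involution whose centralizer D has generalized Fitting subgroup R extraspecial of order 2^9 with D/R the alternating group of degree 9, the involution not weakly closed in R). -/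
theorem result {G : Type*} [Group G] [Finite G] (z : G) (Q : Subgroup (Subgroup.centralizer ({z} : Set G))) [Q.Normal] (hM : Cfsg.IsOfMonsterType z Q) (s : G) (hsQ : ∃ hsc : s ∈ Subgroup.centralizer ({z} : Set G), (⟨s, hsc⟩ : Subgroup.centralizer ({z} : Set G)) ∈ Q) (hs : IsConj z s) (hs1 : s ≠ z) (Y : Subgroup G) (hY : Y ≤ Subgroup.centralizer ({z, s} : Set G)) (hY3 : Nat.card Y = 3) (hnc : ∀ P : Sylow 3 ↥(Subgroup.centralizer ({z, s} : Set G)), ¬ Y.subgroupOf (Subgroup.centralizer ({z, s} : Set G)) ≤ (Subgroup.center ↥(P : Subgroup ↥(Subgroup.centralizer ({z, s} : Set G)))).map (P : Subgroup ↥(Subgroup.centralizer ({z, s} : Set G))).subtype) [hn : (Y.subgroupOf (Subgroup.centralizer (Y : Set G))).Normal] : Cfsg.IsOfThompsonType (↥(Subgroup.centralizer (Y : Set G)) ⧸ Y.subgroupOf (Subgroup.centralizer (Y : Set G))) := by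
  obtain ⟨hset, e, ψ, hψ⟩ := hM
  obtain ⟨hsc, hsq⟩ := hsQ
  obtain ⟨D', b, S, rfl⟩ :=
    (Cfsg.Agent.H18.Monster.Data.mk e ψ hψ hset).exists_threeElt
      (q := ⟨⟨s, hsc⟩, hsq⟩) hs hs1 Y hY hY3 hnc
  obtain ⟨hR, hT⟩ := S.nonempty_quotient
  exact ⟨S.zbar, S.R, hR, S.setting 4 rfl fun w h1 h2 => S.norm_three w h1 h2, hT⟩

end Cfsg.Agent.S5414
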