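import Cfsg.Statements.S5416
import Cfsg.Agent.H18.Monster.HeldMain

set_option autoImplicit false
open Cfsg

namespace Cfsg.Agent.S5416

/-- Let G be a finite group of Monster type at the involution z with Q the extraspecial normal subgroup of order 2^25 of C = C_G(z) (so C/Q is identified with the first Conway group with Q modulo its centre the Leech lattice modulo 2, and z is not weakly closed in Q). Let s be a conjugate of z in Q other than z and let B be a Sylow 7-subgroup of the joint centralizer of z and s. Then the centralizer of B modulo B is a group of Held type (an involution whose centralizer D has generalized Fitting subgroup R extraspecial of order 2^7 with D/R isomorphic to SL(3, 2), exactly 29 of its conjugates lying in R, and the involution not weakly closed in R). -/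
theorem result {G : Type*} [Group G] [Finite G] (z : G) (Q : Subgroup (Subgroup.centralizer ({z} : Set G))) [Q.Normal] (hM : Cfsg.IsOfMonsterType z Q) (s : G) (hsQ : ∃ hsc : s ∈ Subgroup.centralizer ({z} : Set G), (⟨s, hsc⟩ : Subgroup.centralizer ({z} : Set G)) ∈ Q) (hs : IsConj z s) (hs1 : s ≠ z) (B : Subgroup G) (hB : B ≤ Subgroup.centralizer ({z, s} : Set G)) (hBp : Nat.card B = 7 ^ (Nat.card ↥(Subgroup.centralizer ({z, s} : Set G))).factorization 7) [hn : (B.subgroupOf (Subgroup.centralizer (B : Set G))).Normal] : Cfsg.IsOfHeldType (↥(Subgroup.centralizer (B : Set G)) ⧸ B.subgroupOf (Subgroup.centralizer (B : Set G))) := by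
  obtain ⟨hset, e, ψ, hψ⟩ := hM
  obtain ⟨hsc, hsq⟩ := hsQ
  obtain ⟨D', b, S, rfl⟩ := (Cfsg.Agent.H18.Monster.Data.mk e ψ hψ hset).exists_seven
    (q := ⟨⟨s, hsc⟩, hsq⟩) hs hs1 B hB hBp
  exact S.heldType

end Cfsg.Agent.S5416
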