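import Cfsg.Statements.S5418
import Cfsg.Agent.H18.Monster.HeldMain
import Cfsg.Agent.H65.Monster.Main
-- import your own Cfsg.Agent.* helpers here

set_option autoImplicit false
open Cfsg

namespace Cfsg.Agent.S5418

/-- Let G be a finite group of Monster type at the involution z with Q the extraspecial normal subgroup of order 2^25 of C = C_G(z) (so C/Q is identified with the first Conway group with Q modulo its centre the Leech lattice modulo 2, and z is not weakly closed in Q). Let s be a conjugate of z in Q other than z and let B be a Sylow 7-subgroup of the joint centralizer of z and s. Then the centralizer of B has index 6 in the normalizer of B; and some involution inverting B induces, by conjugation, a non-inner automorphism of the layer of the centralizer of B. -/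
theorem result {G : Type*} [Group G] [Finite G] (z : G) (Q : Subgroup (Subgroup.centralizer ({z} : Set G))) [Q.Normal] (hM : Cfsg.IsOfMonsterType z Q) (s : G) (hsQ : ∃ hsc : s ∈ Subgroup.centralizer ({z} : Set G), (⟨s, hsc⟩ : Subgroup.centralizer ({z} : Set G)) ∈ Q) (hs : IsConj z s) (hs1 : s ≠ z) (B : Subgroup G) (hB : B ≤ Subgroup.centralizer ({z, s} : Set G)) (hBp : Nat.card B = 7 ^ (Nat.card ↥(Subgroup.centralizer ({z, s} : Set G))).factorization 7) : (Subgroup.centralizer (B : Set G)).relIndex (Subgroup.normalizer (B : Set G)) = 6 ∧ ∃ t : G, orderOf t = 2 ∧ (∀ b ∈ B, t * b * t⁻¹ = b⁻¹) ∧ (∀ x ∈ (Cfsg.layer ↥(Subgroup.centralizer (B : Set G))).map (Subgroup.centralizer (B : Set G)).subtype, t * x * t⁻¹ ∈ (Cfsg.layer ↥(Subgroup.centralizer (B : Set G))).map (Subgroup.centralizer (B : Set G)).subtype) ∧ ¬ ∃ l ∈ (Cfsg.layer ↥(Subgroup.centralizer (B : Set G))).map (Subgroup.centralizer (B : Set G)).subtype, ∀ x ∈ (Cfsg.layer ↥(Subgroup.centralizer (B : Set G))).map (Subgroup.centralizer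 (B : Set G)).subtype, t * x * t⁻¹ = l * x * l⁻¹ := by
  obtain ⟨hset, e, ψ, hψ⟩ := hM
  obtain ⟨hsc, hsq⟩ := hsQ
  obtain ⟨D', b, S, rfl⟩ := (Cfsg.Agent.H18.Monster.Data.mk e ψ hψ hset).exists_seven
    (q := ⟨⟨s, hsc⟩, hsq⟩) hs hs1 B hB hBp
  obtain ⟨t, ht2, htb, hte⟩ := Cfsg.Agent.H65.Monster.exists_inverter S
  set CB := Subgroup.centralizer ((Subgroup.zpowers b : Subgroup G) : Set G) with hCB
  haveI hn : ((Subgroup.zpowers b).subgroupOf CB).Normal := ⟨fun x hx g => by
    have hc : g * x = x * g :=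
      Subtype.ext (Subgroup.mem_centralizer_iff.1 g.2 _ (Subgroup.mem_subgroupOf.1 hx)).symm
    rwa [hc, mul_inv_cancel_right]⟩
  have htb' : (t : G) * b * (t : G)⁻¹ = b⁻¹ := congrArg Subtype.val htb
  have htt : (t : G) * (t : G) = 1 := congrArg Subtype.val ht2
  refine ⟨Cfsg.Agent.H65.Monster.relIndex_six S, (t : G), ?_, ?_, ?_, ?_⟩
  · refine orderOf_eq_prime (by rw [pow_two]; exact htt) fun e1 => ?_
    rw [e1, one_mul, inv_one, mul_one] at htb'
    have h2 : b ^ 2 = 1 := by
      rw [pow_two]; nth_rw 1 [htb']; rw [inv_mul_cancel]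
    have h3 := orderOf_dvd_of_pow_eq_one h2
    rw [S.ord] at h3
    norm_num at h3
  · intro x hx
    obtain ⟨j, rfl⟩ := Subgroup.mem_zpowers_iff.1 hx
    rw [← conj_zpow, htb', inv_zpow]
  · have hmapB : (Subgroup.zpowers b).map (MulAut.conj (t : G)).toMonoidHom = Subgroup.zpowers b := by
      rw [MonoidHom.map_zpowers]
      show Subgroup.zpowers ((t : G) * b * (t : G)⁻¹) = _
      rw [htb', Subgroup.zpowers_inv]
    have hconj : ∀ x ∈ CB, (t : G) * x * (t : G)⁻¹ ∈ CB := by
      intro x hx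
      refine Subgroup.mem_centralizer_iff.2 fun y hy => ?_
      have hy' : y ∈ (Subgroup.zpowers b).map (MulAut.conj (t : G)).toMonoidHom := by
        rw [hmapB]; exact hy
      obtain ⟨y', hy', rfl⟩ := hy'
      have h := Subgroup.mem_centralizer_iff.1 hx y' hy'
      show (t : G) * y' * (t : G)⁻¹ * ((t : G) * x * (t : G)⁻¹) = _
      calc (t : G) * y' * (t : G)⁻¹ * ((t : G) * x * (t : G)⁻¹) = (t : G) * (y' * x) * (t : G)⁻¹ := by
            group
        _ = (t : G) * x * (t : G)⁻¹ * ((t : G) * y' * (t : G)⁻¹) := by rw [h]; group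
    have hinv : (t : G)⁻¹ = (t : G) := inv_eq_of_mul_eq_one_right htt
    have hcancel : ∀ x : G, (t : G) * ((t : G) * x * (t : G)⁻¹) * (t : G)⁻¹ = x := fun x => by
      rw [hinv]
      calc (t : G) * ((t : G) * x * (t : G)) * (t : G) = ((t : G) * (t : G)) * x * ((t : G) * (t : G)) := by
            group
        _ = x := by rw [htt, one_mul, mul_one]
    let φ : MulAut ↥CB :=
      { toFun := fun x => ⟨(t : G) * x * (t : G)⁻¹, hconj _ x.2⟩
        invFun := fun x => ⟨(t : G) * x * (t : G)⁻¹, hconj _ x.2⟩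
        left_inv := fun x => Subtype.ext (hcancel _)
        right_inv := fun x => Subtype.ext (hcancel _)
        map_mul' := fun x y => Subtype.ext (by
          show (t : G) * ((x : G) * y) * (t : G)⁻¹ =
            (t : G) * (x : G) * (t : G)⁻¹ * ((t : G) * (y : G) * (t : G)⁻¹)
          group) }
    rintro - ⟨x, hx, rfl⟩
    haveI := Cfsg.Agent.H58.layer_characteristic ↥CB
    exact ⟨φ x, Subgroup.characteristic_iff_map_le.1 inferInstance φ ⟨x, hx, rfl⟩, rfl⟩
  · rintro ⟨-, ⟨l, -, rfl⟩, h⟩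
    exact Cfsg.Agent.H65.Monster.not_inner S htb hte (l : G)
      (Subgroup.mem_centralizer_iff.1 l.2 b (Subgroup.mem_zpowers b)).symm
      fun x hx => h x ⟨x, hx, rfl⟩

end Cfsg.Agent.S5418
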