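import Cfsg.Statements.S5421
import Cfsg.Agent.H18.LargeCriterion

set_option autoImplicit false
open Cfsg

namespace Cfsg.Agent.S5421

/-- Let Q be an extraspecial 2-subgroup of the finite group G whose centralizer in G is its centre Z and which is normal in the centralizer of Z. If some involution b of Q outside Z has Z inside the largest normal 2-subgroup of the centralizer of b, then Q is a large extraspecial 2-subgroup of G. -/
theorem result {G : Type*} [Group G] [Finite G] (Q : Subgroup G) (hL1 : Cfsg.IsExtraspecial 2 ↥Q) (hL2 : Subgroup.centralizer (Q : Set G) = ((Subgroup.center ↥Q).map Q.subtype)) (hL3 : Subgroup.centralizer (((Subgroup.center ↥Q).map Q.subtype) : Set G) ≤ Subgroup.normalizer (Q : Set G)) (b : G) (hbQ : b ∈ Q) (hbZ : b ∉ ((Subgroup.center ↥Q).map Q.subtype)) (hb : orderOf b = 2) (hZ : ((Subgroup.center ↥Q).map Q.subtype) ≤ (Cfsg.pCore 2 ↥(Subgroup.centralizer ({b} : Set G))).map (Subgroup.centralizer ({b} : Set G)).subtype) : Cfsg.IsLargeExtraspecial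 Q := by
  obtain ⟨z, h, hz2, hZeq⟩ := Cfsg.Agent.H18.exists_singPt Q hL1 hL2 hL3
  haveI : Fact (Nat.Prime 2) := ⟨Nat.prime_two⟩
  rw [hZeq] at hbZ hZ
  have hb1 : b ≠ 1 := fun e => hbZ (e ▸ one_mem _)
  have hbz : b ≠ z := fun e => hbZ (e ▸ Subgroup.mem_zpowers _)
  have hbb : b * b = 1 := by rw [← pow_two, ← hb, pow_orderOf_eq_one]
  refine ⟨hL1, hL2, hL3, fun K hK hQK => h.eq_bot_of_centralizer hbQ hb1 hbz hbb K hK hQK ?_⟩
  intro k hk hkb
  refine h.commute_of_twoGroup hK hQK ((Cfsg.Agent.H18.pCore_isPGroup 2).map _)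
    (hZ (Subgroup.mem_zpowers z)) hk ?_
  rintro - ⟨p, hp, rfl⟩
  exact ⟨_, (Cfsg.Agent.H18.pCore_normal 2).conj_mem p hp
    ⟨k, Subgroup.mem_centralizer_singleton_iff.mpr hkb⟩, rfl⟩

end Cfsg.Agent.S5421
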