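import Cfsg.Statements.S5423
import Cfsg.Agent.H18.AffineLarge
-- import your own Cfsg.Agent.* helpers here

set_option autoImplicit false
open Cfsg

namespace Cfsg.Agent.S5423

/-- Let G be a finite group that is the split extension of an elementary abelian normal subgroup U of order 2^(n+1), n ≥ 1, by its full automorphism group: U has a complement M in G whose conjugation action on U is faithful and realizes every automorphism of U. Let Z be a subgroup of U of order 2 and Q the largest normal 2-subgroup of the centralizer C of Z. Then Q is extraspecial of order 2^(2n+1) with an elementary abelian subgroup of order 2^(n+1) (plus type), Q is a large extraspecial 2-subgroup of G, and C is the split extension of Q by the general linear group of degree n over the field with two elements. -/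
theorem result {G : Type*} [Group G] [Finite G] (n : ℕ) (hn : 1 ≤ n) (U M : Subgroup G) [U.Normal] (hU : Cfsg.IsElementaryAbelian 2 U) (hUcard : Nat.card ↥U = 2 ^ (n + 1)) (hUM : U ⊓ M = ⊥) (hUM' : U ⊔ M = ⊤) (hfaith : ∀ m ∈ M, (∀ u ∈ U, m * u * m⁻¹ = u) → m = 1) (hfull : ∀ φ : ↥U ≃* ↥U, ∃ m ∈ M, ∀ u : ↥U, ((φ u : ↥U) : G) = m * u * m⁻¹) (Z : Subgroup G) (hZU : Z ≤ U) (hZ : Nat.card ↥Z = 2) (Q : Subgroup G) (hQ : Q = (Cfsg.pCore 2 ↥(Subgroup.centralizer (Z : Set G))).map (Subgroup.centralizer (Z : Set G)).subtype) : Cfsg.IsExtraspecial 2 ↥Q ∧ Nat.card ↥Q = 2 ^ (2 * n + 1) ∧ (∃ E : Subgroup G, E ≤ Q ∧ Cfsg.IsElementaryAbelian 2 E ∧ Nat.card ↥E = 2 ^ (n + 1)) ∧ Cfsg.IsLargeExtraspecial Q ∧ ∃ K : Subgroup G, K ≤ Subgroup.centralizer (Z : Set G) ∧ Q ⊓ K = ⊥ ∧ Q ⊔ K = Subgroup.centralizer (Z : Set G) ∧ Nonempty (↥K ≃* Matrix.GeneralLinearGroup (Fin n) (ZMod 2)) := by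
  exact Cfsg.Agent.H18.affine_large n hn U M hU hUcard hUM' hfaith hfull Z hZU hZ Q hQ

end Cfsg.Agent.S5423
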