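import Cfsg.Statements.S5426
import Cfsg.Agent.H18.LargeStructure
-- import your own Cfsg.Agent.* helpers here

set_option autoImplicit false
open Cfsg

namespace Cfsg.Agent.S5426

/-- Let Q be a large extraspecial 2-subgroup of the finite group G (extraspecial; centralizer equal to its centre; normal in the centralizer of its centre; normalizing no non-trivial subgroup of odd order) with centre generated by z, and let M be the normal closure of z in G. Then one of the following holds: Q is normal in G; or M is abelian and the generalized Fitting subgroup of G is its largest normal 2-subgroup; or M is the generalized Fitting subgroup of G and is a non-abelian simple group; or M is the generalized Fitting subgroup of G and is the direct product of a non-abelian simple subgroup L and its conjugate u L u⁻¹ by some u in Q (the two meet trivially and commute elementwise), with z = z₁ (u z₁ u⁻¹) for some z₁ in L whose centralizer in L is a Sylow 2-subgroup of L with Frattini subgroup inside the subgroup generated by z₁, and Q is not the largest normal 2-subgroup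 of the centralizer of z. -/
theorem result {G : Type*} [Group G] [Finite G] (Q : Subgroup G) (hQ : Cfsg.IsLargeExtraspecial Q) (z : G) (hz : ((Subgroup.center ↥Q).map Q.subtype) = Subgroup.zpowers z) (M : Subgroup G) (hM : M = Subgroup.normalClosure ({z} : Set G)) : Q.Normal ∨ (IsMulCommutative ↥M ∧ Cfsg.generalizedFittingSubgroup G = Cfsg.pCore 2 G) ∨ (M = Cfsg.generalizedFittingSubgroup G ∧ IsSimpleGroup ↥M ∧ ¬ IsMulCommutative ↥M) ∨ (M = Cfsg.generalizedFittingSubgroup G ∧ ∃ (L : Subgroup G) (u : G), u ∈ Q ∧ IsSimpleGroup ↥L ∧ ¬ IsMulCommutative ↥L ∧ L ⊓ (L).map (MulAut.conj u).toMonoidHom = ⊥ ∧ (∀ x ∈ L, ∀ y ∈ (L).map (MulAut.conj u).toMonoidHom, x * y = y * x) ∧ L ⊔ (L).map (MulAut.conj u).toMonoidHom = M ∧ ∃ z₁ ∈ L, z = z₁ * (u * z₁ * u⁻¹) ∧ (∃ R : Sylow 2 ↥L, (R : Subgroup ↥L) = (Subgroup.centralizer ({z₁} : Set G)).subgroupOf L ∧ (frattini ↥(R : Subgroup ↥L)).map ((L.subtype).comp (R : Subgroup ↥L).subtype) ≤ Subgroup.zpowers z₁) ∧ Q ≠ (Cfsg.pCore 2 ↥(Subgroup.centralizer ({z} : Set G))).map (Subgroup.centralizer ({z} : Set G)).subtype) :=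 by
  right
  by_cases hzR : z ∈ Cfsg.pCore 2 G
  · exact Or.inl (hM ▸ Cfsg.Agent.H18.structure_of_mem_pCore hQ hz hzR)
  · exact Or.inr (Cfsg.Agent.H18.structure_of_not_mem_pCore hQ hz hzR M hM)

end Cfsg.Agent.S5426
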