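import Cfsg.Statements.S5427
import Cfsg.Agent.H18.LargeSimple
import Cfsg.Agent.S5421
import Cfsg.Agent.S5422
-- import your own Cfsg.Agent.* helpers here

set_option autoImplicit false
open Cfsg

namespace Cfsg.Agent.S5427

/-- Let z be an involution of the finite group G whose centralizer C has generalized Fitting subgroup Q, an extraspecial 2-group of width at least 2 (order 2^(2w+1), w ≥ 2). Let K be a subgroup of G such that the subgroup U generated by the K-conjugates of z is abelian and C is generated by the C-conjugates of U. Suppose that either some K-conjugate of z other than z lies in Q, or some element u of U ∩ Q outside the subgroup generated by z has z in the largest normal 2-subgroup of its centralizer. Then G is simple and Q is a large extraspecial 2-subgroup of G. -/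
theorem result {G : Type*} [Group G] [Finite G] (z : G) (hz : orderOf z = 2) (Q : Subgroup G) (hQC : Q ≤ Subgroup.centralizer ({z} : Set G)) (hF : (Cfsg.generalizedFittingSubgroup ↥(Subgroup.centralizer ({z} : Set G))).map (Subgroup.centralizer ({z} : Set G)).subtype = Q) (hQ : Cfsg.IsExtraspecial 2 ↥Q) (w : ℕ) (hw : 2 ≤ w) (hcard : Nat.card ↥Q = 2 ^ (2 * w + 1)) (K U : Subgroup G) (hU : U = Subgroup.closure {x : G | ∃ k ∈ K, x = k * z * k⁻¹}) (hUab : IsMulCommutative ↥U) (hgen : Subgroup.closure {x : G | ∃ c ∈ Subgroup.centralizer ({z} : Set G), ∃ u ∈ U, x = c * u * c⁻¹} = Subgroup.centralizer ({z} : Set G)) (h3 : (∃ k ∈ K, k * z * k⁻¹ ∈ Q ∧ k * z * k⁻¹ ≠ z) ∨ ∃ u ∈ U ⊓ Q, u ∉ Subgroup.zpowers z ∧ (∃ hz' : z ∈ Subgroup.centralizer ({u} : Set G), (⟨z, hz'⟩ : ↥(Subgroup.centralizer ({u} : Set G))) ∈ Cfsg.pCore 2 ↥(Subgroup.centralizer ({u} : Set G)))) : IsSimpleGroup G ∧ Cfsg.IsLargeExtraspecial Q := by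
  obtain ⟨hzQ, hZ, hC, hN⟩ := Cfsg.Agent.H18.fstar_conditions hz hF hQ
  have hz1 : z ≠ 1 := fun h => by rw [h, orderOf_one] at hz; omega
  have hzU : z ∈ U := by
    rw [hU]; exact Subgroup.subset_closure ⟨1, one_mem _, by simp⟩
  have hlarge : Cfsg.IsLargeExtraspecial Q := by
    rcases h3 with ⟨k, -, hkQ, hkne⟩ | ⟨u, hu, huZ, hz', hzu⟩
    · refine (Cfsg.Agent.S5422.result Q hQ hC hN w hw hcard k ?_ ?_).2.2
      · rw [hZ]
        intro hk
        have hm : k * z * k⁻¹ ∈ Subgroup.zpowers z :=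
          (Subgroup.mem_normalizer_iff.mp hk z).mp (Subgroup.mem_zpowers z)
        obtain ⟨c, -, -, -, hmem⟩ := Cfsg.Agent.H18.centerMap_eq_pair Q hQ
        rw [← hZ] at hm
        have hzc := ((hmem z).mp (hZ ▸ Subgroup.mem_zpowers z)).resolve_left hz1
        rcases (hmem _).mp hm with e | e
        · exact hz1 (conj_eq_one_iff.mp e)
        · exact hkne (e.trans hzc.symm)
      · rw [hZ, MonoidHom.map_zpowers]
        exact Subgroup.zpowers_le.mpr hkQ
    · have hu1 : u ≠ 1 := fun e => huZ (e ▸ one_mem _)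
      have hu2 : u * u = 1 := by
        have huU : u ∈ U := hu.1
        rw [hU] at huU
        refine (Subgroup.closure_induction (p := fun x _ => x ∈ U ∧ x * x = 1) ?_ ?_ ?_ ?_ huU).2
        · rintro x ⟨k, hk, rfl⟩
          refine ⟨hU ▸ Subgroup.subset_closure ⟨k, hk, rfl⟩, ?_⟩
          rw [conj_mul, ← pow_two, ← hz, pow_orderOf_eq_one, mul_one, mul_inv_cancel]
        · exact ⟨one_mem _, mul_one _⟩
        · rintro x y - - ⟨hx, hx'⟩ ⟨hy, hy'⟩
          refine ⟨mul_mem hx hy, ?_⟩
          have hxy : x * y = y * x :=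
            congrArg Subtype.val (hUab.is_comm.comm (⟨x, hx⟩ : U) ⟨y, hy⟩)
          calc x * y * (x * y) = x * y * (y * x) := by rw [← hxy]
            _ = x * (y * y) * x := by group
            _ = 1 := by rw [hy', mul_one, hx']
        · rintro x - ⟨hx, hx'⟩
          exact ⟨inv_mem hx, by rw [← mul_inv_rev, hx', inv_one]⟩
      refine Cfsg.Agent.S5421.result Q hQ hC hN u hu.2 (by rwa [hZ])
        (orderOf_eq_prime (by rw [pow_two, hu2]) hu1) ?_
      rw [hZ]
      exact Subgroup.zpowers_le.mpr ⟨_, hzu, rfl⟩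
  refine ⟨?_, hlarge⟩
  haveI : Nontrivial G := ⟨⟨z, 1, hz1⟩⟩
  refine ⟨fun N hNn => ?_⟩
  by_contra hcon
  push Not at hcon
  have hzN := Cfsg.Agent.H18.mem_of_normal_ne_bot hlarge hZ hz N hcon.1
  have hUN : U ≤ N := by
    rw [hU, Subgroup.closure_le]
    rintro x ⟨k, -, rfl⟩
    exact hNn.conj_mem z hzN k
  have hCN : Subgroup.centralizer ({z} : Set G) ≤ N := by
    rw [← hgen, Subgroup.closure_le]
    rintro x ⟨c, -, u, hu, rfl⟩
    exact hNn.conj_mem u (hUN hu) c
  apply hcon.2
  rw [← Cfsg.Agent.H18.eq_top_of_sup_centralizer hlarge hZ hz N (hQC.trans hCN)]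
  exact (sup_eq_left.mpr hCN).symm

end Cfsg.Agent.S5427
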