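import Cfsg.Statements.S5429
import Cfsg.Agent.H18.LargeQuotient
-- import your own Cfsg.Agent.* helpers here

set_option autoImplicit false
open Cfsg

namespace Cfsg.Agent.S5429

/-- Let z be an involution of the finite group G with centralizer C whose generalized Fitting subgroup Q is extraspecial of width at least 3 (order 2^(2w+1), w ≥ 3); let g be an element of G with g z g⁻¹ in Q but outside the centre Z of Q, and t an involution lying in both Q and g Q g⁻¹ that is not conjugate to z; write P for the centralizer of t in Q and suppose that the elements of C acting trivially by conjugation on P modulo the subgroup generated by t and z are exactly the elements of Q. Then the image of P in the centralizer of t modulo the subgroup generated by t is a large extraspecial 2-subgroup there, and g z g⁻¹ is conjugate to z inside the subgroup generated by P and the centralizer of t in g Q g⁻¹. -/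
theorem result {G : Type*} [Group G] [Finite G] (z : G) (hz : orderOf z = 2) (Q : Subgroup G) (hQC : Q ≤ Subgroup.centralizer ({z} : Set G)) (hF : (Cfsg.generalizedFittingSubgroup ↥(Subgroup.centralizer ({z} : Set G))).map (Subgroup.centralizer ({z} : Set G)).subtype = Q) (hQ : Cfsg.IsExtraspecial 2 ↥Q) (w : ℕ) (hw : 3 ≤ w) (hcard : Nat.card ↥Q = 2 ^ (2 * w + 1)) (g : G) (hgQ : g * z * g⁻¹ ∈ Q) (hgZ : g * z * g⁻¹ ∉ ((Subgroup.center ↥Q).map Q.subtype)) (t : G) (ht : orderOf t = 2) (htQ : t ∈ Q ⊓ (Q).map (MulAut.conj g).toMonoidHom) (htz : ¬ IsConj z t) (P : Subgroup G) (hP : P = Q ⊓ Subgroup.centralizer ({t} : Set G)) (hCP : ∀ c ∈ Subgroup.centralizer ({z} : Set G), (∀ x ∈ P, ∃ y ∈ Subgroup.closure ({t, z} : Set G), c * x * c⁻¹ = x * y) ↔ c ∈ Q) [hn : ((Subgroup.zpowers t).subgroupOf (Subgroup.centralizer ({t} : Set G))).Normal] : Cfsg.IsLargeExtraspecial ((P.subgroupOf (Subgroup.centralizer ({t} : Set G))).map (QuotientGroup.mk' ((Subgroup.zpowers t).subgroupOf (Subgroup.centralizer ({t} : Set G)))))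 ∧ ∃ x ∈ P ⊔ ((Q).map (MulAut.conj g).toMonoidHom ⊓ Subgroup.centralizer ({t} : Set G)), x * (g * z * g⁻¹) * x⁻¹ = z := by
  obtain ⟨h, hZ⟩ := Cfsg.Agent.H18.singPt_of_fstar hz hF hQ
  rw [hZ] at hgZ
  have hgne : g * z * g⁻¹ ≠ z := fun e => hgZ (e.symm ▸ Subgroup.mem_zpowers z)
  have hbig : 128 ≤ Nat.card ↥Q := by
    rw [hcard]
    calc (128 : ℕ) = 2 ^ 7 := by norm_num
      _ ≤ 2 ^ (2 * w + 1) := Nat.pow_le_pow_right (by norm_num) (by omega)
  refine Cfsg.Agent.H18.large_in_involution_quotient hz hF hQ hbig hgQ hgne ht htQ.1 htQ.2 htz hP ?_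
  intro c hc hx
  refine (hCP c (Subgroup.mem_centralizer_singleton_iff.mpr hc)).mp fun x hxP => ?_
  have hxt : x * t = t * x := Subgroup.mem_centralizer_singleton_iff.mp (hP ▸ hxP).2
  rcases hx x hxP with e | e
  · exact ⟨1, one_mem _, by rw [mul_one, mul_inv_eq_one.mp e]⟩
  · exact ⟨t, Subgroup.subset_closure (Or.inl rfl), by rw [hxt, ← mul_inv_eq_iff_eq_mul, e]⟩

end Cfsg.Agent.S5429
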