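import Cfsg.Statements.S5431
import Cfsg.Agent.H18.PairLocal

set_option autoImplicit false
open Cfsg

namespace Cfsg.Agent.S5431

/-- Let Q be a large extraspecial 2-subgroup of the finite group G (extraspecial; centralizer equal to its centre; normal in the centralizer of its centre; normalizing no non-trivial subgroup of odd order) with centre generated by z, an involution, of width w ≥ 2 (order 2^(2w+1)); let g be an element outside the centralizer H of z with g z g⁻¹ in Q; write V for the subgroup generated by z and g z g⁻¹, X for the subgroup generated by Q and g Q g⁻¹, R for the subgroup generated by the centralizer of z in g Q g⁻¹ and the centralizer of g z g⁻¹ in Q, and E for the intersection of Q and g Q g⁻¹. Then V is the centre of R, E lies in the second centre of R, R is nilpotent of class at most 3, E and R/E are elementary abelian, R/E is the direct product of the images of the centralizer of g z g⁻¹ in Q and of the centralizer of z in g Q g⁻¹ (R is their product and they meet in E), and the commutator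 subgroup of X and E lies in V. -/
theorem result {G : Type*} [Group G] [Finite G] (Q : Subgroup G) (hQ : Cfsg.IsLargeExtraspecial Q) (z : G) (hz : ((Subgroup.center ↥Q).map Q.subtype) = Subgroup.zpowers z) (hz2 : orderOf z = 2) (w : ℕ) (hw : 2 ≤ w) (hcard : Nat.card ↥Q = 2 ^ (2 * w + 1)) (g : G) (hgH : g ∉ Subgroup.centralizer ({z} : Set G)) (hgQ : g * z * g⁻¹ ∈ Q) (V X R E : Subgroup G) (hV : V = Subgroup.closure ({z, g * z * g⁻¹} : Set G)) (hX : X = Q ⊔ (Q).map (MulAut.conj g).toMonoidHom) (hR : R = ((Q).map (MulAut.conj g).toMonoidHom ⊓ Subgroup.centralizer ({z} : Set G)) ⊔ (Q ⊓ Subgroup.centralizer ({g * z * g⁻¹} : Set G))) (hE : E = Q ⊓ (Q).map (MulAut.conj g).toMonoidHom) : (Subgroup.center ↥R).map R.subtype = V ∧ E ≤ (Subgroup.upperCentralSeries ↥R 2).map R.subtype ∧ Subgroup.upperCentralSeries ↥R 3 = ⊤ ∧ Cfsg.IsElementaryAbelian 2 E ∧ (∀ x ∈ R, ∀ y ∈ R, x * y * x⁻¹ * y⁻¹ ∈ E ∧ x ^ 2 ∈ E) ∧ ((Q).map (MulAut.conj g).toMonoidHom ⊓ Subgroup.centralizer ({z} : Set G)) ⊓ (Q ⊓ Subgroup.centralizer ({g * z * g⁻¹} :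 Set G)) = E ∧ ⁅X, E⁆ ≤ V := by
  obtain ⟨o, hfour⟩ := Cfsg.Agent.H18.orthPair_of_large hQ hz hw hcard hgH hgQ
  rw [hfour] at hV
  subst hV hX hR hE
  refine ⟨o.R_center, o.inter_le_ucs, o.ucs_three, o.inter_elementary,
    fun x hx y hy => o.comm_mem_inter hx hy, o.inf_eq_inter, ?_⟩
  rw [Subgroup.commutator_le]
  intro x hx e he
  exact o.comm_X_inter hx he

end Cfsg.Agent.S5431
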