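import Cfsg.Statements.S5432
import Cfsg.Agent.H18.ExtraspecialForm

set_option autoImplicit false
open Cfsg

namespace Cfsg.Agent.S5432

/-- Let E be an extraspecial 2-group of order 2^(2n+1), n ≥ 1. If E contains an elementary abelian subgroup of order 2^(n+1) (plus type), then its outer automorphism group is isomorphic to the full isometry group of the hyperbolic quadratic form in dimension 2n over the field with two elements; otherwise (minus type) it is isomorphic to the full isometry group of the elliptic quadratic form in dimension 2n over that field. -/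
theorem result {E : Type*} [Group E] [Finite E] (hE : Cfsg.IsExtraspecial 2 E) (n : ℕ) (hn : 1 ≤ n) (hcard : Nat.card E = 2 ^ (2 * n + 1)) : ((∃ A : Subgroup E, Cfsg.IsElementaryAbelian 2 A ∧ Nat.card ↥A = 2 ^ (n + 1)) → Nonempty (Cfsg.Out E ≃* Cfsg.isometryGroup (ZMod 2) (Cfsg.quadFormPlus n (ZMod 2)))) ∧ ((¬ ∃ A : Subgroup E, Cfsg.IsElementaryAbelian 2 A ∧ Nat.card ↥A = 2 ^ (n + 1)) → Nonempty (Cfsg.Out E ≃* Cfsg.isometryGroup (ZMod 2) (Cfsg.quadFormMinus (n - 1) (ZMod 2) 1 1))) := by
  classical
  obtain ⟨inst, Q, hnd, hdim, hQ⟩ := H18.exists_quadSpace hE hcard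
  let π₀ : E →* Abelianization E := Abelianization.of
  have hπs : Function.Surjective π₀ := QuotientGroup.mk_surjective
  have hπk : π₀.ker = Subgroup.center E := (Abelianization.ker_of (G := E)).trans hE.1.2.2
  have hfin : Module.Finite (ZMod 2) (Additive (Abelianization E)) := Module.Finite.of_finite
  have key : (∃ W : Submodule (ZMod 2) (Additive (Abelianization E)),
      (∀ w ∈ W, Q w = 0) ∧ Module.finrank (ZMod 2) W = n) ↔
      ∃ A : Subgroup E, Cfsg.IsElementaryAbelian 2 A ∧ Nat.card ↥A = 2 ^ (n + 1) := by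
    constructor
    · rintro ⟨W, hW, hr⟩
      let A : Subgroup E := (AddSubgroup.toSubgroup' W.toAddSubgroup).comap π₀
      have hsq : ∀ a ∈ A, a * a = 1 := fun a (ha : Additive.ofMul (π₀ a) ∈ W) => by
        rw [← H18.sqForm_eq_zero_iff, ← hQ]
        exact hW _ ha
      refine ⟨A, ⟨⟨⟨fun a b => Subtype.ext ?_⟩⟩, fun a ha => by rw [pow_two]; exact hsq a ha⟩, ?_⟩
      · show (a : E) * b = (b : E) * a
        have hi : ∀ a ∈ A, a⁻¹ = a := fun a ha => inv_eq_of_mul_eq_one_right (hsq a ha)
        rw [← hi _ (A.mul_mem a.2 b.2), mul_inv_rev, hi _ a.2, hi _ b.2]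
      · have h := Subgroup.card_eq_card_quotient_mul_card_subgroup (π₀.ker.subgroupOf A)
        have hle : π₀.ker ≤ A := MonoidHom.ker_le_comap _ _
        rw [Nat.card_congr (Subgroup.subgroupOfEquivOfLe hle).toEquiv,
          show Nat.card ↥π₀.ker = 2 by rw [hπk, hE.2]] at h
        let f : ↥A →* ↥(AddSubgroup.toSubgroup' W.toAddSubgroup) :=
          (π₀.comp A.subtype).codRestrict _ fun a => a.2
        have hfk : f.ker = π₀.ker.subgroupOf A := by
          exact MonoidHom.ker_codRestrict _ _ _
        have hfs : Function.Surjective f := by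
          rintro ⟨v, hv⟩
          obtain ⟨a, rfl⟩ := hπs v
          exact ⟨⟨a, hv⟩, rfl⟩
        rw [← hfk, Nat.card_congr (QuotientGroup.quotientKerEquivOfSurjective f hfs).toEquiv,
          show Nat.card ↥(AddSubgroup.toSubgroup' W.toAddSubgroup) = Nat.card ↥W from rfl,
          Module.natCard_eq_pow_finrank (K := ZMod 2) (V := ↥W), hr, Nat.card_zmod, ← pow_succ] at h
        exact h
    · rintro ⟨A, hA, hAc⟩
      let W' : Submodule (ZMod 2) (Additive (Abelianization E)) :=
        AddSubgroup.toZModSubmodule 2 (Subgroup.toAddSubgroup (A.map π₀))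
      have hW' : ∀ w ∈ W', Q w = 0 := by
        intro w hw
        obtain ⟨a, ha, haw⟩ := Subgroup.mem_map.mp (show Additive.toMul w ∈ A.map π₀ from hw)
        rw [show w = Additive.ofMul (Abelianization.of a) from
          (congrArg Additive.ofMul haw).symm, hQ, H18.sqForm_eq_zero_iff, ← pow_two]
        exact hA.2 a ha
      have hr : n ≤ Module.finrank (ZMod 2) W' := by
        let f : ↥A →* ↥(A.map π₀) := π₀.subgroupMap A
        have hfs : Function.Surjective f := π₀.subgroupMap_surjective A
        have h := Subgroup.card_eq_card_quotient_mul_card_subgroup f.ker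
        rw [Nat.card_congr (QuotientGroup.quotientKerEquivOfSurjective f hfs).toEquiv, hAc] at h
        have hk : Nat.card ↥f.ker ≤ 2 := by
          rw [← hE.2, ← hπk]
          refine Nat.card_le_card_of_injective
            (fun a => (⟨(a : ↥A), congrArg Subtype.val (MonoidHom.mem_ker.mp a.2)⟩ : ↥π₀.ker)) ?_
          intro a b hab
          exact Subtype.ext (Subtype.ext (congrArg (fun x : ↥π₀.ker => (x : E)) hab))
        have hc : Nat.card ↥(A.map π₀) = 2 ^ Module.finrank (ZMod 2) W' := by
          rw [show Nat.card ↥(A.map π₀) = Nat.card ↥W' from rfl,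
            Module.natCard_eq_pow_finrank (K := ZMod 2), Nat.card_zmod]
        rw [hc] at h
        have h2 : 2 ^ (n + 1) ≤ 2 ^ (Module.finrank (ZMod 2) W' + 1) := by
          rw [h, pow_succ]
          exact Nat.mul_le_mul le_rfl hk
        have := (Nat.pow_le_pow_iff_right (by norm_num)).mp h2
        omega
      obtain ⟨f, hf⟩ := exists_linearIndependent_of_le_finrank hr
      refine ⟨(Submodule.span (ZMod 2) (Set.range f)).map W'.subtype, ?_, ?_⟩
      · rintro - ⟨w, -, rfl⟩
        exact hW' _ w.2
      · rw [Submodule.finrank_map_subtype_eq, finrank_span_eq_card hf,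
          Fintype.card_fin]
  have main : ∀ {ι : Type} [Fintype ι] [DecidableEq ι] (Qs : (ι → ZMod 2) → ZMod 2)
      (g : Additive (Abelianization E) ≃ₗ[ZMod 2] (ι → ZMod 2)), (∀ v, Qs (g v) = Q v) →
      Nonempty (Cfsg.Out E ≃* Cfsg.isometryGroup (ZMod 2) Qs) := by
    intro ι _ _ Qs g hg
    refine H18.Coords.out_equiv hE
      ⟨(AddMonoidHom.toMultiplicativeRight g.toLinearMap.toAddMonoidHom).comp π₀, ?_, ?_, ?_⟩
    · intro y
      obtain ⟨v, hv⟩ := g.surjective y.toAdd
      obtain ⟨x, hx⟩ := hπs (Additive.toMul v)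
      refine ⟨x, Multiplicative.toAdd.injective ?_⟩
      show g (Additive.ofMul (π₀ x)) = y.toAdd
      rw [hx]
      exact hv
    · rw [← hπk]
      ext x
      rw [MonoidHom.mem_ker, MonoidHom.mem_ker]
      constructor
      · intro h
        have h' : g (Additive.ofMul (π₀ x)) = 0 := congrArg Multiplicative.toAdd h
        exact congrArg Additive.toMul (g.map_eq_zero_iff.mp h')
      · intro h
        refine Multiplicative.toAdd.injective ?_
        show g (Additive.ofMul (π₀ x)) = 0
        rw [h]
        exact map_zero g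
    · intro x
      exact (hg _).trans (hQ x)
  refine ⟨fun hA => ?_, fun hA => ?_⟩
  · obtain ⟨W, hW, hr⟩ := key.mpr hA
    obtain ⟨g, hg⟩ := H4.isom_qPlus_of_singular hnd hdim W hW hr
    exact main _ g fun v => by rw [← H4.coe_qPlus, hg]
  · obtain ⟨ζ, g, hζ, hg⟩ :=
      H4.isom_qMinus_of_no_singular hnd hdim (fun h => hA (key.mp h))
    have h1 : ζ = 1 := by
      have h01 : ∀ a : ZMod 2, a = 0 ∨ a = 1 := by decide
      refine (h01 ζ).resolve_left fun h => hζ 0 ?_
      rw [h]; ring
    subst h1
    exact main _ g fun v => by rw [← H4.coe_qMinus, hg]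

end Cfsg.Agent.S5432
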