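import Cfsg.Statements.S5434
import Cfsg.Agent.H18.CentralFactor
-- import your own Cfsg.Agent.* helpers here

set_option autoImplicit false
open Cfsg
open scoped commutatorElement

namespace Cfsg.Agent.S5434

/-- Let Q be a large extraspecial 2-subgroup of the finite group G (extraspecial; centralizer equal to its centre; normal in the centralizer of its centre; normalizing no non-trivial subgroup of odd order), and A a non-trivial subgroup of odd order of the normalizer of Q. Then Q is the central product of the centralizer of A in Q and the commutator subgroup [Q, A] (they generate Q and commute elementwise), [Q, A] is extraspecial, and the centralizer of A in Q is either the centre of Q or extraspecial. -/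
theorem result {G : Type*} [Group G] [Finite G] (Q : Subgroup G) (hQ : Cfsg.IsLargeExtraspecial Q) (A : Subgroup G) (hA : A ≤ Subgroup.normalizer (Q : Set G)) (hAodd : Odd (Nat.card ↥A)) (hA1 : A ≠ ⊥) : (Q ⊓ Subgroup.centralizer (A : Set G)) ⊔ ⁅Q, A⁆ = Q ∧ (∀ x ∈ Q ⊓ Subgroup.centralizer (A : Set G), ∀ y ∈ ⁅Q, A⁆, x * y = y * x) ∧ Cfsg.IsExtraspecial 2 ↥⁅Q, A⁆ ∧ (Q ⊓ Subgroup.centralizer (A : Set G) = ((Subgroup.center ↥Q).map Q.subtype) ∨ Cfsg.IsExtraspecial 2 ↥(Q ⊓ Subgroup.centralizer (A : Set G))) := by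
  have : Fact (Nat.Prime 2) := ⟨Nat.prime_two⟩
  obtain ⟨hE, hC, -, -⟩ := hQ
  obtain ⟨z, hz1, hord, -, hmem⟩ := Cfsg.Agent.H18.centerMap_eq_pair Q hE
  set Z := (Subgroup.center ↥Q).map Q.subtype with hZ
  have hcop : (Nat.card ↥A).Coprime (Nat.card ↥Q) := by
    obtain ⟨k, hk⟩ := IsPGroup.iff_card.mp hE.1.1
    rw [hk]; exact (Nat.coprime_two_right.mpr hAodd).pow_right k
  have hsolv : Group.IsSolvable ↥A ∨ Group.IsSolvable ↥Q := by
    have : Group.IsNilpotent ↥Q := hE.1.1.isNilpotent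
    exact Or.inr inferInstance
  -- `A` centralizes the centre of `Q`
  have hAz : ∀ a ∈ A, a * z = z * a := by
    intro a ha
    have hzQ := (Cfsg.Agent.H18.mem_centerMap_iff Q z).mp ((hmem z).mpr (Or.inr rfl))
    have hn := Subgroup.mem_normalizer_iff.mp (hA ha)
    have hm : a * z * a⁻¹ ∈ Z := by
      refine (Cfsg.Agent.H18.mem_centerMap_iff Q _).mpr ⟨(hn z).mp hzQ.1, fun y hy => ?_⟩
      have h' : a⁻¹ * y * a ∈ Q := (hn _).mpr (by simpa [mul_assoc] using hy)
      calc y * (a * z * a⁻¹) = a * ((a⁻¹ * y * a) * z) * a⁻¹ := by group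
        _ = a * (z * (a⁻¹ * y * a)) * a⁻¹ := by rw [hzQ.2 _ h']
        _ = a * z * a⁻¹ * y := by group
    rcases (hmem _).mp hm with e | e
    · exact absurd (conj_eq_one_iff.mp e) hz1
    · exact mul_inv_eq_iff_eq_mul.mp e
  have hZA : ∀ w ∈ Z, ∀ a ∈ A, w * a = a * w := by
    intro w hw a ha
    rcases (hmem w).mp hw with rfl | rfl
    · simp
    · exact (hAz a ha).symm
  have hDQ : ⁅Q, A⁆ ≤ Q := by
    rw [Subgroup.commutator_le]
    intro q hq a ha
    have h' : a * q⁻¹ * a⁻¹ ∈ Q := (Subgroup.mem_normalizer_iff.mp (hA ha) _).mp (inv_mem hq)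
    rw [commutatorElement_def, show q * a * q⁻¹ * a⁻¹ = q * (a * q⁻¹ * a⁻¹) by group]
    exact mul_mem hq h'
  have hgen : ⁅Q, A⁆ ⊔ (Q ⊓ Subgroup.centralizer (A : Set G)) = Q :=
    Cfsg.Agent.H20.commutator_sup_centralizer hA hcop hsolv
  -- the two factors commute
  have hCC : ⁅⁅Q, A⁆, Q ⊓ Subgroup.centralizer (A : Set G)⁆ = ⊥ := by
    refine Subgroup.commutator_commutator_eq_bot_of_rotate ?_ ?_
    · have h0 : ⁅A, Q ⊓ Subgroup.centralizer (A : Set G)⁆ = ⊥ :=
        Subgroup.commutator_eq_bot_iff_le_centralizer.mpr fun a ha x hx => (hx.2 a ha).symm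
      rw [h0]
      exact Subgroup.commutator_eq_bot_iff_le_centralizer.mpr bot_le
    · refine Subgroup.commutator_eq_bot_iff_le_centralizer.mpr ?_
      refine le_trans ?_ (show Z ≤ Subgroup.centralizer (A : Set G) from
        fun w hw a ha => (hZA w hw a ha).symm)
      rw [Subgroup.commutator_le]
      intro x hx y hy
      exact ⟨⁅(⟨x, hx.1⟩ : Q), ⟨y, hy⟩⁆, Cfsg.Agent.H18.commutator_mem_center hE _ _, rfl⟩
  have hcomm : ∀ x ∈ Q ⊓ Subgroup.centralizer (A : Set G), ∀ y ∈ ⁅Q, A⁆, x * y = y * x :=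
    fun x hx y hy => (Subgroup.commutator_eq_bot_iff_le_centralizer.mp hCC hy) x hx
  have hD : ¬ ⁅Q, A⁆ ≤ Z := by
    intro h
    have hQA : A ≤ Subgroup.centralizer (Q : Set G) := by
      refine Cfsg.Agent.H20.le_centralizer_of_stabilizes_series hA hcop hsolv h ?_
      exact fun a ha w hw => hZA w hw a ha
    refine hA1 (eq_bot_iff.mpr fun a ha => ?_)
    have hw : a ∈ Z := by
      have := hQA ha
      rwa [hC] at this
    refine Subgroup.mem_bot.mpr (((hmem a).mp hw).resolve_right fun e => ?_)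
    subst e
    have h1 := Subgroup.orderOf_dvd_natCard A ha
    rw [hord] at h1
    exact (Nat.not_even_iff_odd.mpr hAodd) (even_iff_two_dvd.mpr h1)
  refine ⟨(sup_comm _ _).trans hgen, hcomm, ?_, ?_⟩
  · exact Cfsg.Agent.H18.isExtraspecial_of_central_factor hE hDQ hgen.ge
      (fun x hx y hy => (hcomm y hy x hx).symm) hD
  · by_cases h : Q ⊓ Subgroup.centralizer (A : Set G) ≤ Z
    · refine Or.inl (le_antisymm h fun w hw => ⟨((Cfsg.Agent.H18.mem_centerMap_iff Q w).mp hw).1,
        fun a ha => (hZA w hw a ha).symm⟩)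
    · exact Or.inr (Cfsg.Agent.H18.isExtraspecial_of_central_factor hE inf_le_left
        ((sup_comm _ _).trans hgen).ge hcomm h)

end Cfsg.Agent.S5434
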