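import Cfsg.Statements.S5435
import Cfsg.Agent.H18.SmallFrattini
-- import your own Cfsg.Agent.* helpers here

set_option autoImplicit false
open Cfsg

namespace Cfsg.Agent.S5435

/-- Let L be a finite non-abelian simple group with an involution z whose centralizer R is a Sylow 2-subgroup of L whose Frattini subgroup is the subgroup generated by z. Then R is dihedral of order 8. -/
theorem result {L : Type*} [Group L] [Finite L] [IsSimpleGroup L] (hL : ¬ IsMulCommutative L) (z : L) (hz : orderOf z = 2) (R : Sylow 2 L) (hR : (R : Subgroup L) = Subgroup.centralizer ({z} : Set L)) (hΦ : (frattini ↥(R : Subgroup L)).map (R : Subgroup L).subtype = Subgroup.zpowers z) : Nonempty (↥(R : Subgroup L) ≃* DihedralGroup 4) := by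
  have : Fact (Nat.Prime 2) := ⟨Nat.prime_two⟩
  have hzz : z * z = 1 := by rw [← pow_two, ← hz, pow_orderOf_eq_one]
  have hz1 : z ≠ 1 := fun h => by rw [h, orderOf_one] at hz; omega
  have hpair : ∀ w ∈ Subgroup.zpowers z, w = 1 ∨ w = z := by
    rintro w ⟨l, rfl⟩
    rcases Int.even_or_odd l with ⟨m, rfl⟩ | ⟨m, rfl⟩
    · left
      show z ^ (m + m) = 1
      rw [← two_mul, zpow_mul, zpow_two, hzz, one_zpow]
    · right
      show z ^ (2 * m + 1) = z
      rw [zpow_add_one, zpow_mul, zpow_two, hzz, one_zpow, one_mul]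
  have hsq : ∀ x ∈ R, x * x = 1 ∨ x * x = z := fun x hx => hpair _ (hΦ ▸
    ⟨(⟨x, hx⟩ : ↥(R : Subgroup L)) ^ 2, Cfsg.Agent.H24.pow_mem_frattini R.isPGroup' _,
      by simp [pow_two]⟩)
  have hcom : ∀ x ∈ R, ∀ y ∈ R, x * y * x⁻¹ * y⁻¹ = 1 ∨ x * y * x⁻¹ * y⁻¹ = z :=
    fun x hx y hy => hpair _ (hΦ ▸ ⟨_, Cfsg.Agent.H24.commutator_le_frattini R.isPGroup'
      (Subgroup.commutator_mem_commutator (Subgroup.mem_top (⟨x, hx⟩ : ↥(R : Subgroup L)))
        (Subgroup.mem_top (⟨y, hy⟩ : ↥(R : Subgroup L)))), rfl⟩)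
  refine Cfsg.Agent.H18.SmallPhi.dihedral (z := z)
    ⟨hzz, hz1, fun x => ?_, hcom, hsq, ?_⟩ hL
  · show x ∈ (R : Subgroup L) ↔ _
    rw [hR, Subgroup.mem_centralizer_singleton_iff]
  · by_contra hcon
    push Not at hcon
    have h1 : ∀ x y : ↥(R : Subgroup L), (x : L) * y * (x : L)⁻¹ * (y : L)⁻¹ = 1 ∧ (x : L) * x = 1 :=
      fun x y => ⟨(hcom x x.2 y y.2).resolve_right (hcon x x.2 y y.2).1,
        (hsq x x.2).resolve_right (hcon x x.2 y y.2).2⟩
    have hbot : frattini ↥(R : Subgroup L) = ⊥ := by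
      refine le_bot_iff.mp (Cfsg.Agent.H24.frattini_le_of (p := 2) ⊥ ?_ fun x => ?_)
      · rw [commutator_def, Subgroup.commutator_le]
        exact fun x _ y _ => Subgroup.mem_bot.mpr (Subtype.ext (h1 x y).1)
      · exact Subgroup.mem_bot.mpr (Subtype.ext (by rw [SubmonoidClass.coe_pow, pow_two]; exact (h1 x x).2))
    rw [hbot, Subgroup.map_bot] at hΦ
    exact hz1 (Subgroup.mem_bot.mp (hΦ ▸ Subgroup.mem_zpowers z))

end Cfsg.Agent.S5435
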