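import Cfsg.Statements.S5436
import Cfsg.Agent.H18.LargeSimple
import Cfsg.Agent.H58.ExtraspecialCongr
import Cfsg.Agent.S5422
-- import your own Cfsg.Agent.* helpers here

set_option autoImplicit false
open Cfsg

namespace Cfsg.Agent.S5436

/-- Let z be an involution of the finite group G with centralizer H whose generalized Fitting subgroup Q is extraspecial of width at least 2 (order 2^(2w+1), w ≥ 2); suppose some conjugate of z other than z lies in Q, H/Q is a non-abelian simple group, H acts irreducibly by conjugation on Q modulo the subgroup generated by z (the only H-invariant subgroups of Q containing z are that subgroup and Q), and Q is not the subgroup generated by the conjugates of z lying in H. Then G is simple. -/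
theorem result {G : Type*} [Group G] [Finite G] (z : G) (hz : orderOf z = 2) (Q : Subgroup (Subgroup.centralizer ({z} : Set G))) [Q.Normal] (hF : Cfsg.generalizedFittingSubgroup ↥(Subgroup.centralizer ({z} : Set G)) = Q) (hQ : Cfsg.IsExtraspecial 2 ↥Q) (w : ℕ) (hw : 2 ≤ w) (hcard : Nat.card ↥Q = 2 ^ (2 * w + 1)) (hnwc : ∃ g : G, (∃ hq : g * z * g⁻¹ ∈ Subgroup.centralizer ({z} : Set G), (⟨g * z * g⁻¹, hq⟩ : Subgroup.centralizer ({z} : Set G)) ∈ Q) ∧ g * z * g⁻¹ ≠ z) (hsimp : IsSimpleGroup (↥(Subgroup.centralizer ({z} : Set G)) ⧸ Q)) (hna : ¬ IsMulCommutative (↥(Subgroup.centralizer ({z} : Set G)) ⧸ Q)) (hirr : ∀ W : Subgroup (Subgroup.centralizer ({z} : Set G)), W.Normal → W ≤ Q → (W = Q ∨ ∀ x ∈ W, (x : G) ∈ Subgroup.zpowers z)) (hwcl : Subgroup.closure {x : Subgroup.centralizer ({z} : Set G) | IsConj z (x : G)} ≠ Q) : IsSimpleGroup G := by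
  let Q' : Subgroup G := Q.map (Subgroup.centralizer ({z} : Set G)).subtype
  let e : ↥Q ≃* ↥Q' := Q.equivMapOfInjective _ (Subgroup.centralizer ({z} : Set G)).subtype_injective
  have hQ' : Cfsg.IsExtraspecial 2 ↥Q' := Cfsg.Agent.H58.isExtraspecial_congr e hQ
  have hcard' : Nat.card ↥Q' = 2 ^ (2 * w + 1) := by rw [← Nat.card_congr e.toEquiv, hcard]
  have hF' : (Cfsg.generalizedFittingSubgroup ↥(Subgroup.centralizer ({z} : Set G))).map (Subgroup.centralizer ({z} : Set G)).subtype = Q' := by rw [hF]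
  obtain ⟨hzQ, hZ, hC, hN⟩ := Cfsg.Agent.H18.fstar_conditions hz hF' hQ'
  have hz1 : z ≠ 1 := fun h => by rw [h, orderOf_one] at hz; omega
  obtain ⟨g, ⟨hgC, hgQ⟩, hgne⟩ := hnwc
  have hgQ' : g * z * g⁻¹ ∈ Q' := ⟨_, hgQ, rfl⟩
  obtain ⟨c, -, -, -, hmem⟩ := Cfsg.Agent.H18.centerMap_eq_pair Q' hQ'
  have hzc := ((hmem z).mp (hZ ▸ Subgroup.mem_zpowers z)).resolve_left hz1
  have hbZ : g * z * g⁻¹ ∉ Subgroup.zpowers z := by
    rw [← hZ]
    intro h
    rcases (hmem _).mp h with e | e
    · exact hz1 (conj_eq_one_iff.mp e)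
    · exact hgne (e.trans hzc.symm)
  have hlarge : Cfsg.IsLargeExtraspecial Q' := by
    refine (Cfsg.Agent.S5422.result Q' hQ' hC hN w hw hcard' g ?_ ?_).2.2
    · rw [hZ]
      exact fun hg => hbZ ((Subgroup.mem_normalizer_iff.mp hg z).mp (Subgroup.mem_zpowers z))
    · rw [hZ, MonoidHom.map_zpowers]
      exact Subgroup.zpowers_le.mpr hgQ'
  haveI : Nontrivial G := ⟨⟨z, 1, hz1⟩⟩
  refine ⟨fun N hNn => ?_⟩
  by_contra hcon
  push Not at hcon
  have hzN := Cfsg.Agent.H18.mem_of_normal_ne_bot hlarge hZ hz N hcon.1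
  have hgN : g * z * g⁻¹ ∈ N := hNn.conj_mem z hzN g
  have hQN : Q ≤ N.subgroupOf (Subgroup.centralizer ({z} : Set G)) := by
    have : (N.subgroupOf (Subgroup.centralizer ({z} : Set G)) ⊓ Q).Normal := inferInstance
    rcases hirr _ this inf_le_right with h | h
    · exact h ▸ inf_le_left
    · exact absurd (h ⟨_, hgC⟩ ⟨hgN, hgQ⟩) hbZ
  have hQ'N : Q' ≤ N := by
    rintro - ⟨q, hq, rfl⟩
    exact hQN hq
  have hsup := Cfsg.Agent.H18.eq_top_of_sup_centralizer hlarge hZ hz N hQ'N
  have hmn : ((N.subgroupOf (Subgroup.centralizer ({z} : Set G))).map (QuotientGroup.mk' Q)).Normal :=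
    Subgroup.Normal.map inferInstance _ (QuotientGroup.mk'_surjective Q)
  rcases hsimp.eq_bot_or_eq_top_of_normal _ hmn with h | h
  · -- `N ∩ (Subgroup.centralizer ({z} : Set G)) = Q`
    rw [Subgroup.map_eq_bot_iff, QuotientGroup.ker_mk'] at h
    apply hwcl
    set W := Subgroup.closure {x : ↥(Subgroup.centralizer ({z} : Set G)) | IsConj z (x : G)} with hW
    have hWQ : W ≤ Q := by
      rw [hW, Subgroup.closure_le]
      intro x hx
      obtain ⟨a, ha⟩ := isConj_iff.mp hx
      exact h (show (x : G) ∈ N from ha ▸ hNn.conj_mem z hzN a)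
    have hWn : W.Normal := by
      rw [hW]
      refine ⟨fun n hn a => ?_⟩
      induction hn using Subgroup.closure_induction with
      | mem x hx =>
        refine Subgroup.subset_closure ?_
        exact (hx : IsConj z (x : G)).trans (isConj_iff.mpr ⟨(a : G), rfl⟩)
      | one => simp
      | mul x y _ _ hx hy =>
        rw [show a * (x * y) * a⁻¹ = (a * x * a⁻¹) * (a * y * a⁻¹) by group]
        exact mul_mem hx hy
      | inv x _ hx =>
        rw [show a * x⁻¹ * a⁻¹ = (a * x * a⁻¹)⁻¹ by group]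
        exact inv_mem hx
    rcases hirr W hWn hWQ with h' | h'
    · exact h'
    · exact absurd (h' ⟨_, hgC⟩ (Subgroup.subset_closure (isConj_iff.mpr ⟨g, rfl⟩))) hbZ
  · -- `(Subgroup.centralizer ({z} : Set G)) ≤ N`
    have hCN : (Subgroup.centralizer ({z} : Set G)) ≤ N := by
      have htop : N.subgroupOf (Subgroup.centralizer ({z} : Set G)) = ⊤ := by
        have := congrArg (Subgroup.comap (QuotientGroup.mk' Q)) h
        rwa [Subgroup.comap_map_eq, QuotientGroup.ker_mk', Subgroup.comap_top,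
          sup_eq_left.mpr hQN] at this
      intro x hx
      exact (htop ▸ Subgroup.mem_top (⟨x, hx⟩ : ↥(Subgroup.centralizer ({z} : Set G))) : (⟨x, hx⟩ : ↥(Subgroup.centralizer ({z} : Set G))) ∈ N.subgroupOf (Subgroup.centralizer ({z} : Set G)))
    apply hcon.2
    rw [← hsup]
    exact (sup_eq_left.mpr hCN).symm

end Cfsg.Agent.S5436
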