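import Cfsg.Statements.S5437
import Cfsg.Agent.H18.FixedCoset

set_option autoImplicit false
open Cfsg

namespace Cfsg.Agent.S5437

/-- Let I be a set of involutions of the finite group G closed under conjugation, and H a subgroup of G. The following are equivalent: (1) for every member x of I lying in H, the conjugates of x lying in H form a single H-class and the centralizer of x lies in H; (2) for every g outside H, no member of I lies in both H and g H g⁻¹; (3) every member of I lying in H fixes exactly one coset in the action of G on the cosets of H. -/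
theorem result {G : Type*} [Group G] [Finite G] (I : Set G) (hI : ∀ x ∈ I, orderOf x = 2) (hIc : ∀ g : G, ∀ x ∈ I, g * x * g⁻¹ ∈ I) (H : Subgroup G) : ((∀ x ∈ I, x ∈ H → (∀ g : G, g * x * g⁻¹ ∈ H → ∃ h ∈ H, h * x * h⁻¹ = g * x * g⁻¹) ∧ Subgroup.centralizer ({x} : Set G) ≤ H) ↔ (∀ g : G, g ∉ H → ∀ x ∈ I, ¬ (x ∈ H ∧ x ∈ (H : Subgroup G).map (MulAut.conj g).toMonoidHom))) ∧ ((∀ g : G, g ∉ H → ∀ x ∈ I, ¬ (x ∈ H ∧ x ∈ (H : Subgroup G).map (MulAut.conj g).toMonoidHom)) ↔ ∀ x ∈ I, x ∈ H → ∃! c : G ⧸ H, x • c = c) := by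
  refine ⟨⟨?_, ?_⟩, ?_, ?_⟩
  · rintro hA g hg x hxI ⟨hxH, hxg⟩
    rw [H18.mem_map_conj_iff] at hxg
    obtain ⟨hfus, hC⟩ := hA x hxI hxH
    obtain ⟨h, hh, he⟩ := hfus g⁻¹ (by rwa [inv_inv])
    rw [inv_inv] at he
    have hgh : g * h ∈ Subgroup.centralizer ({x} : Set G) := by
      rw [Subgroup.mem_centralizer_singleton_iff]
      calc g * h * x = g * (h * x * h⁻¹) * h := by group
        _ = g * (g⁻¹ * x * g) * h := by rw [he]
        _ = x * (g * h) := by group
    exact hg ((Subgroup.mul_mem_cancel_right H hh).mp (hC hgh))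
  · intro hB x hxI hxH
    refine ⟨fun g hg => ?_, fun c hc => ?_⟩
    · by_contra hcon
      push Not at hcon
      refine hB g⁻¹ (fun hgi => hcon g (by simpa using H.inv_mem hgi) rfl) x hxI ⟨hxH, ?_⟩
      rwa [H18.mem_map_conj_iff, inv_inv]
    · by_contra hcH
      refine hB c hcH x hxI ⟨hxH, ?_⟩
      rw [H18.mem_map_conj_iff]
      rw [Subgroup.mem_centralizer_singleton_iff] at hc
      have : c⁻¹ * x * c = x := by rw [mul_assoc, ← hc]; group
      rwa [this]
  · intro hB x hxI hxH
    refine ⟨((1 : G) : G ⧸ H), ?_, ?_⟩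
    · exact (H18.smul_coset_eq_iff H x 1).mpr (by simpa using hxH)
    · intro c hc
      induction c using QuotientGroup.induction_on with
      | _ g =>
        have hg : g ∈ H := by
          by_contra hg
          exact hB g hg x hxI ⟨hxH, (H18.mem_map_conj_iff H x g).mpr ((H18.smul_coset_eq_iff H x g).mp hc)⟩
        rw [QuotientGroup.eq]
        simpa using hg
  · rintro hC g hg x hxI ⟨hxH, hxg⟩
    obtain ⟨c, -, huniq⟩ := hC x hxI hxH
    have h1 := huniq ((1 : G) : G ⧸ H) ((H18.smul_coset_eq_iff H x 1).mpr (by simpa using hxH))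
    have h2 := huniq (g : G ⧸ H) ((H18.smul_coset_eq_iff H x g).mpr ((H18.mem_map_conj_iff H x g).mp hxg))
    exact hg (by simpa using QuotientGroup.eq.mp (h1.trans h2.symm))

end Cfsg.Agent.S5437
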