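import Cfsg.Statements.S5438
import Cfsg.Agent.H18.FixedCoset

set_option autoImplicit false
open Cfsg

namespace Cfsg.Agent.S5438

/-- Let z be a 2-central involution of the finite group G (an involution central in some Sylow 2-subgroup) and H a subgroup containing z such that the coset H is the only coset of H fixed by z (in the action of G on the cosets of H). Then H has odd index in G, and for every 2-element x of H the conjugates of x lying in H form a single H-class. -/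
theorem result {G : Type*} [Group G] [Finite G] (z : G) (hz : Cfsg.IsTwoCentralInvolution z) (H : Subgroup G) (hzH : z ∈ H) (hfix : ∀ g : G, g⁻¹ * z * g ∈ H → g ∈ H) : Odd H.index ∧ ∀ x ∈ H, (∃ k : ℕ, orderOf x = 2 ^ k) → ∀ g : G, g * x * g⁻¹ ∈ H → ∃ h ∈ H, h * x * h⁻¹ = g * x * g⁻¹ := by
  haveI : Fact (Nat.Prime 2) := ⟨Nat.prime_two⟩
  obtain ⟨hz2, P, hzP, hzc⟩ := hz
  have hS : ∀ S : Subgroup G, IsPGroup 2 ↥S → z ∈ S → S ≤ H := by
    intro S hS2 hzS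
    by_contra hne
    haveI := hS2.isNilpotent
    have hlt : H.subgroupOf S < ⊤ := by
      rw [lt_top_iff_ne_top, Ne, Subgroup.subgroupOf_eq_top]; exact hne
    obtain ⟨n, hn, hnH⟩ := SetLike.exists_of_lt ((normalizerCondition_of_isNilpotent (G := ↥S)) _ hlt)
    exact hnH (hfix n (((Subgroup.mem_normalizer_iff''.mp hn (⟨z, hzS⟩ : ↥S)).mp (Subgroup.mem_subgroupOf.mpr hzH))))
  have hPH : (P : Subgroup G) ≤ H := hS _ P.isPGroup' hzP
  refine ⟨?_, ?_⟩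
  · rw [Nat.odd_iff, ← Nat.two_dvd_ne_zero]
    intro h
    exact P.not_dvd_index (h.trans (Subgroup.index_dvd_of_le hPH))
  · intro x hxH hx g hgx
    have hmove : ∀ y ∈ H, (∃ k : ℕ, orderOf y = 2 ^ k) → ∃ h ∈ H, h * y * h⁻¹ ∈ (P : Subgroup G) := by
      intro y hy ⟨k, hk⟩
      obtain ⟨T, hT⟩ := (IsPGroup.of_card (p := 2) (n := k) (G := ↥(Subgroup.zpowers (⟨y, hy⟩ : ↥H)))
        (by rw [Nat.card_zpowers, Subgroup.orderOf_mk, hk])).exists_le_sylow
      obtain ⟨h, hh⟩ := MulAction.exists_smul_eq ↥H T (P.subtype hPH)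
      refine ⟨h, h.2, ?_⟩
      have : h * ⟨y, hy⟩ * h⁻¹ ∈ (P.subtype hPH : Subgroup ↥H) := by
        rw [← hh]
        exact ⟨⟨y, hy⟩, hT (Subgroup.mem_zpowers _), rfl⟩
      exact this
    obtain ⟨h₁, hh₁, hx'⟩ := hmove x hxH hx
    obtain ⟨h₂, hh₂, hy'⟩ := hmove (g * x * g⁻¹) hgx (by
      obtain ⟨k, hk⟩ := hx
      exact ⟨k, by rw [← hk]; exact MulEquiv.orderOf_eq (MulAut.conj g) x⟩)
    set y := h₂ * (g * x * g⁻¹) * h₂⁻¹ with hy
    set u := h₂ * g * h₁⁻¹ with hu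
    have hux : u * (h₁ * x * h₁⁻¹) * u⁻¹ = y := by rw [hu, hy]; group
    have hzy : z ∈ Subgroup.centralizer ({y} : Set G) :=
      Subgroup.mem_centralizer_singleton_iff.mpr (hzc y hy').symm
    have hzu : u * z * u⁻¹ ∈ Subgroup.centralizer ({y} : Set G) := by
      rw [Subgroup.mem_centralizer_singleton_iff, ← hux]
      have hc := hzc _ hx'
      calc u * z * u⁻¹ * (u * (h₁ * x * h₁⁻¹) * u⁻¹) = u * (z * (h₁ * x * h₁⁻¹)) * u⁻¹ := by group
        _ = u * ((h₁ * x * h₁⁻¹) * z) * u⁻¹ := by rw [hc]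
        _ = u * (h₁ * x * h₁⁻¹) * u⁻¹ * (u * z * u⁻¹) := by group
    have hord : ∀ w : G, ∀ hw : w * z * w⁻¹ ∈ Subgroup.centralizer ({y} : Set G),
        ∃ S : Sylow 2 ↥(Subgroup.centralizer ({y} : Set G)), (⟨_, hw⟩ : ↥(Subgroup.centralizer ({y} : Set G))) ∈ S := by
      intro w hw
      obtain ⟨S, hS⟩ := (IsPGroup.of_card (p := 2) (n := 1)
        (G := ↥(Subgroup.zpowers (⟨_, hw⟩ : ↥(Subgroup.centralizer ({y} : Set G)))))
        (by
          rw [Nat.card_zpowers, Subgroup.orderOf_mk, pow_one, ← hz2]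
          exact MulEquiv.orderOf_eq (MulAut.conj w) z)).exists_le_sylow
      exact ⟨S, hS (Subgroup.mem_zpowers _)⟩
    obtain ⟨S₀, hS₀⟩ := hord 1 (by simpa using hzy)
    obtain ⟨S₁, hS₁⟩ := hord u hzu
    obtain ⟨c, hc⟩ := MulAction.exists_smul_eq ↥(Subgroup.centralizer ({y} : Set G)) S₁ S₀
    have hS₀H : (S₀ : Subgroup ↥(Subgroup.centralizer ({y} : Set G))).map (Subgroup.subtype _) ≤ H :=
      hS _ (S₀.isPGroup'.map _) ⟨_, hS₀, by simp⟩
    have hcu : (c : G) * (u * z * u⁻¹) * (c : G)⁻¹ ∈ H := by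
      apply hS₀H
      refine ⟨c * ⟨_, hzu⟩ * c⁻¹, ?_, rfl⟩
      rw [← hc]
      exact ⟨⟨_, hzu⟩, hS₁, rfl⟩
    have hcH : ((c : G) * u)⁻¹ ∈ H := by
      apply hfix
      simpa [mul_assoc] using hcu
    refine ⟨h₂⁻¹ * ((c : G) * u) * h₁, H.mul_mem (H.mul_mem (H.inv_mem hh₂) (by simpa using H.inv_mem hcH)) hh₁, ?_⟩
    have hcy : (c : G) * y * (c : G)⁻¹ = y := by
      rw [Subgroup.mem_centralizer_singleton_iff.mp c.2]; group
    calc h₂⁻¹ * ((c : G) * u) * h₁ * x * (h₂⁻¹ * ((c : G) * u) * h₁)⁻¹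
        = h₂⁻¹ * ((c : G) * (u * (h₁ * x * h₁⁻¹) * u⁻¹) * (c : G)⁻¹) * h₂ := by group
      _ = h₂⁻¹ * y * h₂ := by rw [hux, hcy]
      _ = g * x * g⁻¹ := by rw [hy]; group

end Cfsg.Agent.S5438
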