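import Cfsg.Statements.S5439
import Cfsg.Agent.H18.FixedCoset

set_option autoImplicit false
open Cfsg

namespace Cfsg.Agent.S5439

/-- Let I and J be two different conjugacy classes of involutions of the finite group G and H a subgroup such that every member of I ∪ J fixes exactly one coset in the action on the cosets of H, and such that for every a in I ∩ H and every b in (I ∪ J) ∩ H different from a and commuting with it, the centralizer of a b lies in H. Then H = G. -/
theorem result {G : Type*} [Group G] [Finite G] (I J : Set G) (a₀ b₀ : G) (ha₀ : orderOf a₀ = 2) (hb₀ : orderOf b₀ = 2) (hI : I = {x | IsConj a₀ x}) (hJ : J = {x | IsConj b₀ x}) (hIJ : I ≠ J) (H : Subgroup G) (hfix : ∀ x ∈ I ∪ J, ∃! c : G ⧸ H, x • c = c) (hcent : ∀ a ∈ I, a ∈ H → ∀ b ∈ I ∪ J, b ∈ H → a ≠ b → a * b = b * a → Subgroup.centralizer ({a * b} : Set G) ≤ H) : H = ⊤ := by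
  subst hI hJ
  have hord : ∀ {u x : G}, orderOf u = 2 → IsConj u x → orderOf x = 2 := by
    intro u x hu h
    obtain ⟨c, rfl⟩ := isConj_iff.mp h
    rw [← hu]
    exact MulEquiv.orderOf_eq (MulAut.conj c) u
  have huniq : ∀ x ∈ ({x | IsConj a₀ x} ∪ {x | IsConj b₀ x} : Set G), x ∈ H → ∀ g : G,
      g⁻¹ * x * g ∈ H → g ∈ H := by
    intro x hx hxH g hg
    obtain ⟨c, -, hu⟩ := hfix x hx
    have h1 := hu ((1 : G) : G ⧸ H) ((H18.smul_coset_eq_iff H x 1).mpr (by simpa using hxH))
    have h2 := hu (g : G ⧸ H) ((H18.smul_coset_eq_iff H x g).mpr hg)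
    simpa using QuotientGroup.eq.mp (h1.trans h2.symm)
  obtain ⟨c, hc, -⟩ := hfix a₀ (Or.inl (IsConj.refl a₀))
  induction c using QuotientGroup.induction_on with
  | _ g₀ =>
  have haH : g₀⁻¹ * a₀ * g₀ ∈ H := (H18.smul_coset_eq_iff H a₀ g₀).mp hc
  set a := g₀⁻¹ * a₀ * g₀ with hadef
  have haI : IsConj a₀ a := isConj_iff.mpr ⟨g₀⁻¹, by rw [inv_inv]⟩
  have haC : ∀ {s : G}, Commute a s → s ∈ H := by
    intro s hs
    refine huniq a (Or.inl haI) haH s ?_
    have : s⁻¹ * a * s = a := by rw [mul_assoc, hs.eq]; group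
    rwa [this]
  have hJH : ∀ b : G, IsConj b₀ b → b ∈ H := by
    intro b hb
    have hnc : ¬ IsConj a b := by
      intro hab
      apply hIJ
      ext x
      exact ⟨fun hx => hb.trans (hab.symm.trans (haI.symm.trans hx)),
        fun hx => haI.trans (hab.trans (hb.symm.trans hx))⟩
    obtain ⟨t, hat, hbt, ht1, htt, hconj⟩ :=
      H18.exists_dihedral_central (hord ha₀ haI) (hord hb₀ hb) hnc
    have hatI : a * t ∈ ({x | IsConj a₀ x} ∪ {x | IsConj b₀ x} : Set G) :=
      hconj.elim (fun h => Or.inl (haI.trans h)) (fun h => Or.inr (hb.trans h))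
    have hle := hcent a haI haH (a * t) hatI (H.mul_mem haH (haC hat))
      (fun h => ht1 (mul_eq_left.mp h.symm)) ((Commute.refl a).mul_right hat).eq
    rw [← mul_assoc, H18.orderOf_two_mul_self (hord ha₀ haI), one_mul] at hle
    exact hle (Subgroup.mem_centralizer_singleton_iff.mpr hbt.eq)
  rw [eq_top_iff]
  intro g _
  refine huniq b₀ (Or.inr (IsConj.refl b₀)) (hJH b₀ (IsConj.refl b₀)) g (hJH _ ?_)
  exact isConj_iff.mpr ⟨g⁻¹, by rw [inv_inv]⟩

end Cfsg.Agent.S5439
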