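import Cfsg.Statements.S5440
import Cfsg.Agent.H8.LFT.LocalData

set_option autoImplicit false
open Cfsg

namespace Cfsg.Agent.S5440

/-- Let G be a finite group of large Fischer type at the involution z: the generalized Fitting subgroup Q of H = C_G(z) is extraspecial of order 2^13, H has normal subgroups Q ≤ H₁ ≤ H₂ with H₁/Q of order 3, H₂/H₁ the projective special unitary group of dimension 4 over the field with nine elements and H₂ of index 2 in H, and some conjugate of z other than z lies in Q. Then H has exactly two orbits, under conjugation, on the involutions of Q other than z. -/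
theorem result {G : Type*} [Group G] [Finite G] (z : G) (Q : Subgroup (Subgroup.centralizer ({z} : Set G))) [Q.Normal] (hF : Cfsg.IsOfLargeFischerTypeAt z Q) : ∃ s t : Subgroup.centralizer ({z} : Set G), s ∈ Q ∧ t ∈ Q ∧ orderOf s = 2 ∧ orderOf t = 2 ∧ (s : G) ≠ z ∧ (t : G) ≠ z ∧ (¬ ∃ h : Subgroup.centralizer ({z} : Set G), h * s * h⁻¹ = t) ∧ ∀ x : Subgroup.centralizer ({z} : Set G), x ∈ Q → orderOf x = 2 → (x : G) ≠ z → (∃ h : Subgroup.centralizer ({z} : Set G), h * s * h⁻¹ = x) ∨ ∃ h : Subgroup.centralizer ({z} : Set G), h * t * h⁻¹ = x := by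
  obtain ⟨D⟩ := Cfsg.Agent.H8.LFT.exists_model hF
  obtain ⟨a, a2, a1, az, ac⟩ := D.exists_rep 0
  obtain ⟨b, b2, b1, bz, bc⟩ := D.exists_rep 1
  have hord : ∀ c : Q, H8.LFT.gv c * H8.LFT.gv c = 1 → H8.LFT.gv c ≠ 1 →
      orderOf (c : Subgroup.centralizer ({z} : Set G)) = 2 := fun c h h' =>
    orderOf_eq_prime (Subtype.ext (by rw [pow_two]; exact h)) fun e => h' (congrArg Subtype.val e)
  refine ⟨a, b, a.2, b.2, hord a a2 a1, hord b b2 b1, az, bz, ?_, fun x hxQ hx2 hxz => ?_⟩
  · rintro ⟨h, e⟩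
    have e' : H8.LFT.cj h a = b := Subtype.ext e
    exact absurd (D.cls_cj h ac (e' ▸ bc)) (by decide)
  · have hx1 : H8.LFT.gv (⟨x, hxQ⟩ : Q) ≠ 1 := fun e => by
      have e' : x = 1 := Subtype.ext e
      rw [e', orderOf_one] at hx2
      omega
    have hxx : H8.LFT.gv (⟨x, hxQ⟩ : Q) * H8.LFT.gv (⟨x, hxQ⟩ : Q) = 1 := by
      have h := pow_orderOf_eq_one x
      rw [hx2, pow_two] at h
      exact congrArg Subtype.val h
    obtain ⟨o, ho⟩ := D.exists_cls hxx hx1 hxz
    fin_cases o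
    · obtain ⟨h, e⟩ := D.conj_of_cls ac ho hx1 hxz
      exact Or.inl ⟨h, congrArg Subtype.val e⟩
    · obtain ⟨h, e⟩ := D.conj_of_cls bc ho hx1 hxz
      exact Or.inr ⟨h, congrArg Subtype.val e⟩

end Cfsg.Agent.S5440
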