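import Cfsg.Statements.S5442
import Cfsg.Agent.H8.LFT.LocalData

set_option autoImplicit false
open Cfsg

namespace Cfsg.Agent.S5442

/-- Let G be a finite group of large Fischer type at the involution z: the generalized Fitting subgroup Q of H = C_G(z) is extraspecial of order 2^13, H has normal subgroups Q ≤ H₁ ≤ H₂ with H₁/Q of order 3, H₂/H₁ the projective special unitary group of dimension 4 over the field with nine elements and H₂ of index 2 in H, and some conjugate of z other than z lies in Q. Let s = g z g⁻¹ be a conjugate of z lying in Q and different from z. Then the intersection of Q and g Q g⁻¹ (as subgroups of G) is elementary abelian of order 2^7; and in H/Q, writing X for the image of the centralizer of s in H and E for the image of the intersection of g Q g⁻¹ with H, E is a normal subgroup of X, elementary abelian of order 32, with X/E isomorphic to the alternating group of degree 6. -/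
theorem result {G : Type*} [Group G] [Finite G] (z : G) (Q : Subgroup (Subgroup.centralizer ({z} : Set G))) [Q.Normal] (hF : Cfsg.IsOfLargeFischerTypeAt z Q) (s : G) (hsQ : ∃ hsc : s ∈ Subgroup.centralizer ({z} : Set G), (⟨s, hsc⟩ : Subgroup.centralizer ({z} : Set G)) ∈ Q) (hs : IsConj z s) (hs1 : s ≠ z) (g : G) (hg : g * z * g⁻¹ = s) (X E : Subgroup ((Subgroup.centralizer ({z} : Set G)) ⧸ Q)) (hX : X = ((Subgroup.centralizer ({z} : Set G) ⊓ Subgroup.centralizer ({s} : Set G)).subgroupOf (Subgroup.centralizer ({z} : Set G))).map (QuotientGroup.mk' Q)) (hE : E = ((((Q.map (Subgroup.centralizer ({z} : Set G)).subtype)).map (MulAut.conj g).toMonoidHom ⊓ Subgroup.centralizer ({z} : Set G)).subgroupOf (Subgroup.centralizer ({z} : Set G))).map (QuotientGroup.mk' Q)) : Cfsg.IsElementaryAbelian 2 ((Q.map (Subgroup.centralizer ({z} : Set G)).subtype) ⊓ ((Q.map (Subgroup.centralizer ({z} : Set G)).subtype)).map (MulAut.conj g).toMonoidHom) ∧ Nat.card ↥((Q.map (Subgroup.centralizer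 ({z} : Set G)).subtype) ⊓ ((Q.map (Subgroup.centralizer ({z} : Set G)).subtype)).map (MulAut.conj g).toMonoidHom) = 2 ^ 7 ∧ E ≤ X ∧ (∀ x ∈ X, ∀ y ∈ E, x * y * x⁻¹ ∈ E) ∧ Cfsg.IsElementaryAbelian 2 E ∧ Nat.card E = 32 ∧ ∃ _ : (E.subgroupOf X).Normal, Nonempty (↥X ⧸ E.subgroupOf X ≃* alternatingGroup (Fin 6)) := by
  obtain ⟨D⟩ := Cfsg.Agent.H8.LFT.exists_model hF
  obtain ⟨hsc, hsm⟩ := hsQ
  obtain ⟨-, hloc, hrest⟩ := D.local_structure g ⟨⟨s, hsc⟩, hsm⟩ hg hs1
  have hs0 : s ≠ 1 := fun e => (D.sing.conj g).xne (hg.trans e)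
  have hX' : X = (D.St ⟨⟨s, hsc⟩, hsm⟩).map (QuotientGroup.mk' Q) := by
    rw [hX]
    refine le_antisymm (Subgroup.map_mono fun h hh => ?_) ?_
    · refine D.mem_St.2 (congrArg D.v (H8.LFT.gv_injective ?_))
      have hh' := Subgroup.mem_centralizer_singleton_iff.1 (Subgroup.mem_inf.1 (Subgroup.mem_subgroupOf.1 hh)).2
      rw [H8.LFT.gv_cj]
      exact mul_inv_eq_iff_eq_mul.2 hh'
    · rintro _ ⟨h, hh, rfl⟩
      obtain ⟨u, hu, e⟩ := D.exists_exact (a := H8.LFT.cj h ⟨⟨s, hsc⟩, hsm⟩) (r := ⟨⟨s, hsc⟩, hsm⟩) hh hs0 hs1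
      rw [H8.LFT.cj_cj] at e
      refine ⟨u * h, Subgroup.mem_subgroupOf.2 (Subgroup.mem_inf.2 ⟨(u * h).2,
        Subgroup.mem_centralizer_singleton_iff.2 ?_⟩), ?_⟩
      · have e' := congrArg H8.LFT.gv e
        rw [H8.LFT.gv_cj] at e'
        exact mul_inv_eq_iff_eq_mul.1 e'
      · rw [map_mul, show QuotientGroup.mk' Q u = 1 from (QuotientGroup.eq_one_iff u).2 hu, one_mul]
  obtain ⟨hle, hn, hiso⟩ := hrest X hX'
  subst hE
  exact ⟨hloc.elem, hloc.card_inter, hle, hn, hloc.elem_E, hloc.card_E, hiso⟩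

end Cfsg.Agent.S5442
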