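import Cfsg.Statements.S5443
import Cfsg.Agent.H32.LargeFischer.Outer
import Cfsg.Agent.H90.LargeFischer.Assemble

set_option autoImplicit false
open Cfsg

namespace Cfsg.Agent.S5443

/-- Let G be a finite group of large Fischer type at the involution z: the generalized Fitting subgroup Q of H = C_G(z) is extraspecial of order 2^13, H has normal subgroups Q ≤ H₁ ≤ H₂ with H₁/Q of order 3, H₂/H₁ the projective special unitary group of dimension 4 over the field with nine elements and H₂ of index 2 in H, and some conjugate of z other than z lies in Q. Let t be an involution of Q not conjugate to z in G, and S the set of elements of H conjugating t to t or to t z (the stabilizer of the image of t in Q modulo its centre). Then the image of S in H/Q is isomorphic to the full isometry group of the elliptic quadratic form in dimension 6 over the field with two elements. -/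
theorem result {G : Type*} [Group G] [Finite G] (z : G) (Q : Subgroup (Subgroup.centralizer ({z} : Set G))) [Q.Normal] (hF : Cfsg.IsOfLargeFischerTypeAt z Q) (t : Subgroup.centralizer ({z} : Set G)) (htQ : t ∈ Q) (ht2 : orderOf t = 2) (ht : ¬ IsConj z (t : G)) (S : Subgroup (Subgroup.centralizer ({z} : Set G))) (hS : ∀ h : Subgroup.centralizer ({z} : Set G), h ∈ S ↔ (h * t * h⁻¹ = t ∨ ((h * t * h⁻¹ : Subgroup.centralizer ({z} : Set G)) : G) = t * z)) : Nonempty (↥(S.map (QuotientGroup.mk' Q)) ≃* Cfsg.isometryGroup (ZMod 2) (Cfsg.quadFormMinus 2 (ZMod 2) 1 1)) := by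
  classical
  letI : Fintype (GaloisField 2 2) := Fintype.ofFinite _
  have hF4 : Fintype.card (GaloisField 2 2) = 4 := by
    rw [Fintype.card_eq_nat_card, GaloisField.card 2 2 (by norm_num)]; norm_num
  letI : Cfsg.Agent.H8.U62.Setup (GaloisField 2 2) :=
    { (inferInstance : Field (GaloisField 2 2)) with
      om := (Cfsg.Agent.H8.U62.exists_om hF4).choose
      hom := (Cfsg.Agent.H8.U62.exists_om hF4).choose_spec.1
      two := (Cfsg.Agent.H8.U62.exists_om hF4).choose_spec.2
      fin := inferInstance
      card := hF4 }
  obtain ⟨D⟩ := Cfsg.Agent.H84.LF.exists_model (GaloisField 2 2) hF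
  obtain ⟨-, -, -, -, g, ⟨hq, hgQ⟩, hne⟩ := hF.1
  exact Cfsg.Agent.H90.LargeFischer.stabilizer_iso D
    (fun c hc x a b ha hb h => Cfsg.Agent.H32.LargeFischer.outer_anti D hF hc x ha hb h)
    (g := g) (s := ⟨g * z * g⁻¹, hq⟩) hgQ rfl hne t htQ ht2 ht S hS

end Cfsg.Agent.S5443
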