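import Cfsg.Statements.S5452
import Cfsg.Agent.H43.CoverLift

set_option autoImplicit false
open Cfsg

namespace Cfsg.Agent.S5452

/-- Let G be a finite group with an involution d whose centralizer C is quasisimple with C modulo the subgroup generated by d isomorphic to the projective special unitary group of dimension 6 over the field with four elements, and suppose some conjugate of d other than d commutes with d. Then every involution of C modulo the subgroup generated by d is the image of an involution of C, and d is not a square in G. -/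
theorem result {G : Type*} [Group G] [Finite G] (d : G) (hd : orderOf d = 2) (hq : Cfsg.IsQuasisimple ↥(Subgroup.centralizer ({d} : Set G))) [hzn : ((Subgroup.zpowers d).subgroupOf (Subgroup.centralizer ({d} : Set G))).Normal] (K : Type) [Field K] [Fintype K] (hK : Fintype.card K = 4) (e : ↥(Subgroup.centralizer ({d} : Set G)) ⧸ (Subgroup.zpowers d).subgroupOf (Subgroup.centralizer ({d} : Set G)) ≃* Cfsg.PSU 6 K 2) (hnwc : ∃ g : G, g * d * g⁻¹ ∈ Subgroup.centralizer ({d} : Set G) ∧ g * d * g⁻¹ ≠ d) : (∀ x : ↥(Subgroup.centralizer ({d} : Set G)) ⧸ (Subgroup.zpowers d).subgroupOf (Subgroup.centralizer ({d} : Set G)), orderOf x = 2 → ∃ y : ↥(Subgroup.centralizer ({d} : Set G)), orderOf y = 2 ∧ (QuotientGroup.mk y : ↥(Subgroup.centralizer ({d} : Set G)) ⧸ (Subgroup.zpowers d).subgroupOf (Subgroup.centralizer ({d} : Set G))) = x) ∧ ¬ ∃ g : G, g ^ 2 = d := by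
  classical
  set C := Subgroup.centralizer ({d} : Set G) with hC
  have hdd : d * d = 1 := by rw [← pow_two, ← hd, pow_orderOf_eq_one]
  have hd1 : d ≠ 1 := fun h => by rw [h, orderOf_one] at hd; exact absurd hd (by norm_num)
  let z : ↥C := ⟨d, Subgroup.mem_centralizer_singleton_iff.2 rfl⟩
  let π : ↥C →* Cfsg.PSU 6 K 2 :=
    e.toMonoidHom.comp (QuotientGroup.mk' ((Subgroup.zpowers d).subgroupOf C))
  have hπ : ∀ h : ↥C, π h = e (QuotientGroup.mk h) := fun _ => rfl
  have hmem : ∀ h : ↥C, (h : G) ∈ Subgroup.zpowers d ↔ h = 1 ∨ h = z := by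
    intro h
    constructor
    · intro hm
      obtain ⟨k, hk⟩ := Subgroup.mem_zpowers_iff.1 hm
      rcases Int.even_or_odd' k with ⟨m, rfl | rfl⟩
      · refine Or.inl (Subtype.ext ?_)
        rw [← hk, zpow_mul, zpow_two, hdd, one_zpow]; rfl
      · refine Or.inr (Subtype.ext ?_)
        rw [← hk, zpow_add, zpow_mul, zpow_two, hdd, one_zpow, one_mul, zpow_one]
    · rintro (rfl | rfl)
      · exact one_mem _
      · exact Subgroup.mem_zpowers d
  have hker : ∀ h : ↥C, π h = 1 ↔ h = 1 ∨ h = z := fun h => by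
    rw [← hmem h, hπ, e.map_eq_one_iff, QuotientGroup.eq_one_iff, Subgroup.mem_subgroupOf]
  have hzc : ∀ h : ↥C, Commute z h := fun h => Subtype.ext
    (Subgroup.mem_centralizer_singleton_iff.1 h.2).symm
  have hsur : Function.Surjective π :=
    e.surjective.comp (QuotientGroup.mk'_surjective _)
  have key : ∀ y : ↥C, π (y * y) = 1 → y * y = 1 := fun y hy =>
    Cfsg.Agent.H43.sq_eq_one_of_image hK hker hzc hsur rfl hy
  refine ⟨fun x hx => ?_, ?_⟩
  · obtain ⟨y, rfl⟩ := QuotientGroup.mk_surjective x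
    have hy := key y (by
      have h2 : (y : ↥C ⧸ (Subgroup.zpowers d).subgroupOf C) ^ 2 = 1 := orderOf_dvd_iff_pow_eq_one.1 hx.dvd
      rw [hπ, QuotientGroup.mk_mul, ← pow_two, h2, map_one])
    refine ⟨y, orderOf_eq_prime (by rw [pow_two]; exact hy) fun h => ?_, rfl⟩
    rw [h, QuotientGroup.mk_one, orderOf_one] at hx
    exact absurd hx (by norm_num)
  · rintro ⟨g, hg⟩
    have hgC : g ∈ C := Subgroup.mem_centralizer_singleton_iff.2 (by
      rw [← hg, ← pow_succ', ← pow_succ])
    have hgz : (⟨g, hgC⟩ : ↥C) * ⟨g, hgC⟩ = z := Subtype.ext ((pow_two g).symm.trans hg)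
    have h1 := key ⟨g, hgC⟩ (by rw [hgz]; exact (hker z).2 (Or.inr rfl))
    rw [hgz] at h1
    exact hd1 (congrArg Subtype.val h1)

end Cfsg.Agent.S5452
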