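import Cfsg.Statements.S5459
import Mathlib

set_option autoImplicit false
open Cfsg
open scoped commutatorElement

namespace Cfsg.Agent.S5459

/-- Let G be a finite group with a quasisimple normal subgroup L and an involution d such that G is generated by L and d, the centre of L has odd order, and d inverts every element of the centre of L. If the commuting graph on the conjugacy class of the image of d in G modulo the centre of L is connected, then the commuting graph on the conjugacy class of d is connected. -/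
theorem result {G : Type*} [Group G] [Finite G] (L : Subgroup G) [L.Normal] (hL : Cfsg.IsQuasisimple ↥L) (d : G) (hd : orderOf d = 2) (hgen : L ⊔ Subgroup.zpowers d = ⊤) (hodd : Odd (Nat.card ↥(Subgroup.center ↥L))) (hinv : ∀ c ∈ (Subgroup.center ↥L).map L.subtype, d * c * d⁻¹ = c⁻¹) [hn : ((Subgroup.center ↥L).map L.subtype).Normal] (hconn : (Cfsg.commutingGraph (conjugatesOf (QuotientGroup.mk d : G ⧸ (Subgroup.center ↥L).map L.subtype))).Connected) : (Cfsg.commutingGraph (conjugatesOf d)).Connected := by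
  classical
  obtain ⟨hperf, hsimple⟩ := hL
  set Z := (Subgroup.center ↥L).map L.subtype with hZdef
  have hZL : Z ≤ L := Subgroup.map_subtype_le _
  set C := commutingGraph (conjugatesOf d) with hC
  have hdd : d ∈ conjugatesOf d := mem_conjugatesOf_self
  let d₀ : conjugatesOf d := ⟨d, hdd⟩
  let cj : G → conjugatesOf d → conjugatesOf d := fun g x =>
    ⟨g * (x : G) * g⁻¹, (id (α := IsConj d _) x.2).trans (isConj_iff.mpr ⟨g, rfl⟩)⟩
  have hadj : ∀ g x y, C.Adj x y → C.Adj (cj g x) (cj g y) := by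
    intro g x y h
    rw [hC, commutingGraph, SimpleGraph.fromRel_adj] at h ⊢
    refine ⟨fun e => h.1 (Subtype.ext ?_), h.2.imp ?_ ?_⟩
    · exact (MulAut.conj g).injective (congrArg Subtype.val e)
    · exact fun h' => by exact h'.map (MulAut.conj g).toMonoidHom
    · exact fun h' => by exact h'.map (MulAut.conj g).toMonoidHom
  have hreach : ∀ g {x y}, C.Reachable x y → C.Reachable (cj g x) (cj g y) := by
    intro g x y h
    exact h.map (f := ⟨cj g, fun {a b} hab => hadj g a b hab⟩)
  let M : Subgroup G :=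
    { carrier := {g | C.Reachable d₀ (cj g d₀)}
      one_mem' := by
        show C.Reachable d₀ (cj 1 d₀)
        have : cj 1 d₀ = d₀ := Subtype.ext (by simp [cj, d₀])
        rw [this]
      mul_mem' := fun {a b} ha hb => by
        have h := hreach a hb
        have : cj a (cj b d₀) = cj (a * b) d₀ := Subtype.ext (by simp [cj, mul_assoc])
        rw [this] at h
        exact ha.trans h
      inv_mem' := fun {a} ha => by
        have h := hreach a⁻¹ ha
        have : cj a⁻¹ (cj a d₀) = d₀ := Subtype.ext (by simp [cj, d₀, mul_assoc])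
        rw [this] at h
        exact h.symm }
  have hM : ∀ x : conjugatesOf d, C.Reachable d₀ x → (x : G) ∈ M := by
    intro x hx
    show C.Reachable d₀ (cj x d₀)
    have h := hreach (x : G) hx
    have : cj (x : G) x = x := Subtype.ext (by simp [cj])
    rw [this] at h
    exact hx.trans h.symm
  -- squares, inversion of the centre
  have hsq : ∀ w ∈ Z, ∃ e ∈ Z, e * e = w := by
    rintro _ ⟨w, hw, rfl⟩
    obtain ⟨k, hk⟩ := hodd
    refine ⟨(((⟨w, hw⟩ : Subgroup.center ↥L) ^ (k + 1) : Subgroup.center ↥L) : ↥L), ⟨(((⟨w, hw⟩ : Subgroup.center ↥L) ^ (k + 1) : Subgroup.center ↥L) : ↥L), SetLike.coe_mem _, rfl⟩, ?_⟩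
    have h1 : (⟨w, hw⟩ : Subgroup.center ↥L) ^ (k + 1) * ⟨w, hw⟩ ^ (k + 1) = ⟨w, hw⟩ := by
      rw [← pow_add, show k + 1 + (k + 1) = Nat.card (Subgroup.center ↥L) + 1 by omega, pow_succ,
        pow_card_eq_one', one_mul]
    exact congrArg (fun v : Subgroup.center ↥L => ((v : ↥L) : G)) h1
  have hy : ∀ y : conjugatesOf d, (y : G) * y = 1 ∧ ∀ c ∈ Z, (y : G) * c * (y : G)⁻¹ = c⁻¹ := by
    rintro ⟨y, hy⟩
    obtain ⟨g, rfl⟩ := isConj_iff.mp (id (α := IsConj d _) hy)
    refine ⟨?_, fun c hc => ?_⟩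
    · have h2 : d * d = 1 := by rw [← pow_two, ← hd, pow_orderOf_eq_one]
      show g * d * g⁻¹ * (g * d * g⁻¹) = 1
      rw [conj_mul, h2]
      simp
    · show g * d * g⁻¹ * c * (g * d * g⁻¹)⁻¹ = c⁻¹
      have h := hinv (g⁻¹ * c * g) (by simpa using hn.conj_mem c hc g⁻¹)
      calc g * d * g⁻¹ * c * (g * d * g⁻¹)⁻¹ = g * (d * (g⁻¹ * c * g) * d⁻¹) * g⁻¹ := by group
        _ = c⁻¹ := by rw [h]; group
  set π := QuotientGroup.mk' Z with hπ
  have hstep : ∀ (x y : conjugatesOf d), π (x : G) ≠ π (y : G) → Commute (π (x : G)) (π (y : G)) →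
      ∃ y' : conjugatesOf d, π (y' : G) = π (y : G) ∧ C.Adj x y' := by
    intro x y hne hcomm
    obtain ⟨hxx, hxc⟩ := hy x
    obtain ⟨hyy, hyc⟩ := hy y
    have hxi : (x : G)⁻¹ = x := inv_eq_of_mul_eq_one_right hxx
    have hyi : (y : G)⁻¹ = y := inv_eq_of_mul_eq_one_right hyy
    have hw : ((x : G) * y * (x * y))⁻¹ ∈ Z := by
      rw [← QuotientGroup.eq_one_iff]
      show π _ = 1
      rw [map_inv, map_mul, map_mul, inv_eq_one]
      calc π x * π y * (π x * π y) = π x * (π y * π x) * π y := by group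
        _ = π x * (π x * π y) * π y := by rw [hcomm.eq]
        _ = π ((x : G) * x) * π ((y : G) * y) := by rw [map_mul, map_mul]; group
        _ = 1 := by rw [hxx, hyy, map_one, one_mul]
    obtain ⟨c, hc, hcc⟩ := hsq _ hw
    obtain ⟨e, he, hee⟩ := hsq c hc
    refine ⟨⟨(y : G) * c, (id (α := IsConj d _) y.2).trans (isConj_iff.mpr ⟨e⁻¹, ?_⟩)⟩, ?_, ?_⟩
    · have h := hyc e he
      calc e⁻¹ * (y : G) * e⁻¹⁻¹ = (y : G) * e * (y : G)⁻¹ * y * e := by rw [h]; group
        _ = (y : G) * (e * e) := by group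
        _ = (y : G) * c := by rw [hee]
    · show π ((y : G) * c) = π y
      rw [map_mul, show π c = 1 from (QuotientGroup.eq_one_iff c).mpr hc, mul_one]
    · rw [hC, commutingGraph, SimpleGraph.fromRel_adj]
      refine ⟨?_, Or.inl ?_⟩
      · intro h
        apply hne
        have h' := congrArg (fun v => π (Subtype.val v)) h
        simp only at h'
        rw [h', map_mul, show π c = 1 from (QuotientGroup.eq_one_iff c).mpr hc, mul_one]
      · show (x : G) * ((y : G) * c) = (y : G) * c * x
        have hcx : c * (x : G) = x * c⁻¹ := by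
          have := hxc c⁻¹ (Z.inv_mem hc)
          rw [inv_inv] at this
          conv_lhs => rw [← this]
          group
        rw [mul_assoc (y : G) c, hcx, ← mul_assoc (y : G), eq_mul_inv_iff_mul_eq]
        calc (x : G) * ((y : G) * c) * c = x * y * (c * c) := by group
          _ = (y : G)⁻¹ * (x : G)⁻¹ := by rw [hcc]; group
          _ = y * x := by rw [hxi, hyi]
  -- every conjugate agrees modulo Z with a reachable one
  have hlift : ∀ y : conjugatesOf d, ∃ x, C.Reachable d₀ x ∧ π (x : G) = π (y : G) := by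
    have hmem : ∀ y : conjugatesOf d, π (y : G) ∈ conjugatesOf (π d) := fun y =>
      π.map_isConj (id (α := IsConj d _) y.2)
    intro y
    have hw := hconn.preconnected ⟨π d, mem_conjugatesOf_self⟩ ⟨π y, hmem y⟩
    obtain ⟨w⟩ := hw
    suffices h : ∀ (a b : conjugatesOf (QuotientGroup.mk d : G ⧸ Z))
        (_ : (commutingGraph (conjugatesOf (QuotientGroup.mk d : G ⧸ Z))).Walk a b)
        (x : conjugatesOf d), C.Reachable d₀ x → π (x : G) = a →
        ∃ x' : conjugatesOf d, C.Reachable d₀ x' ∧ π (x' : G) = b from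
      h _ _ w d₀ (SimpleGraph.Reachable.refl _) rfl
    intro a b w
    induction w with
    | nil => exact fun x h1 h2 => ⟨x, h1, h2⟩
    | @cons a m b hab _ ih =>
      intro x hx hxa
      obtain ⟨g, hg⟩ := isConj_iff.mp (id (α := IsConj _ _) m.2)
      obtain ⟨g', hg'⟩ := QuotientGroup.mk'_surjective Z g
      rw [← hg'] at hg
      have hm : π ((cj g' d₀ : conjugatesOf d) : G) = m := by
        simp only [cj, d₀, map_mul, map_inv]
        exact hg
      rw [commutingGraph, SimpleGraph.fromRel_adj] at hab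
      obtain ⟨y', hy', hxy⟩ := hstep x (cj g' d₀)
        (by rw [hxa, hm]; exact fun h => hab.1 (Subtype.ext h))
        (by rw [hxa, hm]; exact hab.2.elim id fun h => h.symm)
      exact ih y' (hx.trans hxy.reachable) (hy'.trans hm)
  suffices htop : M = ⊤ by
    haveI : Nonempty (conjugatesOf d) := ⟨d₀⟩
    refine ⟨fun a b => ?_⟩
    have h : ∀ y : conjugatesOf d, C.Reachable d₀ y := by
      intro y
      obtain ⟨g, hg⟩ := isConj_iff.mp (id (α := IsConj d _) y.2)
      have hgM : g ∈ M := htop ▸ Subgroup.mem_top g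
      have : cj g d₀ = y := Subtype.ext hg
      exact this ▸ hgM
    exact (h a).symm.trans (h b)
  by_cases hZ : Z = ⊥
  · rw [eq_top_iff]
    intro g _
    show C.Reachable d₀ (cj g d₀)
    obtain ⟨x, hx, hxy⟩ := hlift (cj g d₀)
    have : x = cj g d₀ := by
      apply Subtype.ext
      have h := QuotientGroup.eq.mp hxy
      rw [hZ, Subgroup.mem_bot, inv_mul_eq_one] at h
      exact h
    exact this ▸ hx
  haveI := hn
  have hN : Subgroup.normalClosure ({d} : Set G) ≤ M ⊔ Z := by
    rw [Subgroup.normalClosure, Subgroup.closure_le]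
    intro y hy
    simp only [Group.conjugatesOfSet, Set.mem_iUnion, Set.mem_singleton_iff, exists_prop,
      exists_eq_left] at hy
    obtain ⟨x, hx, hxy⟩ := hlift ⟨y, hy⟩
    have : y = x * ((x : G)⁻¹ * y) := by group
    rw [this]
    exact Subgroup.mul_mem_sup (hM x hx) (QuotientGroup.eq.mp hxy)
  have hLM : L ≤ M ⊔ Z := by
    set N := Subgroup.normalClosure ({d} : Set G) with hNdef
    haveI : N.Normal := Subgroup.normalClosure_normal
    haveI := hsimple
    have h1 : ((N.subgroupOf L).map (QuotientGroup.mk' (Subgroup.center ↥L))).Normal :=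
      (inferInstance : (N.subgroupOf L).Normal).map _ (QuotientGroup.mk'_surjective _)
    rcases h1.eq_bot_or_eq_top with h | h
    · exfalso
      have hcom : ∀ l : ↥L, (l : G) * d * (l : G)⁻¹ * d⁻¹ ∈ Z := by
        intro l
        have hL' : (l : G) * d * (l : G)⁻¹ * d⁻¹ ∈ L := by
          simpa [mul_assoc] using L.mul_mem l.2 ((inferInstance : L.Normal).conj_mem _ (L.inv_mem l.2) d)
        have hN' : (l : G) * d * (l : G)⁻¹ * d⁻¹ ∈ N :=
          N.mul_mem ((inferInstance : N.Normal).conj_mem _ (Subgroup.subset_normalClosure rfl) _)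
            (N.inv_mem (Subgroup.subset_normalClosure rfl))
        refine ⟨⟨_, hL'⟩, ?_, rfl⟩
        rw [Subgroup.map_eq_bot_iff, QuotientGroup.ker_mk'] at h
        exact h (Subgroup.mem_subgroupOf.mpr hN')
      have hZc : ∀ c ∈ Z, ∀ l : ↥L, (l : G) * c = c * l := by
        rintro _ ⟨c, hc, rfl⟩ l
        exact congrArg Subtype.val (Subgroup.mem_center_iff.mp hc l)
      let χ : ↥L →* Z :=
        { toFun := fun l => ⟨_, hcom l⟩
          map_one' := Subtype.ext (by simp)
          map_mul' := fun a b => by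
            apply Subtype.ext
            show (a : G) * b * d * ((a : G) * b)⁻¹ * d⁻¹ = (a : G) * d * (a : G)⁻¹ * d⁻¹ * ((b : G) * d * (b : G)⁻¹ * d⁻¹)
            have hb := hZc _ (hcom b) a
            have hb' := hZc _ (hcom b) ⟨_, hZL (hcom a)⟩
            calc (a : G) * b * d * ((a : G) * b)⁻¹ * d⁻¹
                = ((a : G) * ((b : G) * d * (b : G)⁻¹ * d⁻¹)) * (d * (a : G)⁻¹ * d⁻¹) := by group
              _ = ((b : G) * d * (b : G)⁻¹ * d⁻¹) * ((a : G) * d * (a : G)⁻¹ * d⁻¹) := by rw [hb]; group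
              _ = _ := hb'.symm }
      have hker : commutator ↥L ≤ χ.ker := by
        rw [commutator_def, Subgroup.commutator_le]
        intro a _ b _
        rw [MonoidHom.mem_ker, map_commutatorElement, commutatorElement_eq_one_iff_mul_comm]
        apply Subtype.ext
        exact hZc _ (χ b).2 ⟨(χ a : G), hZL (χ a).2⟩
      have hLp : commutator ↥L = ⊤ := Group.isPerfect_def.mp hperf
      apply hZ
      rw [eq_bot_iff]
      rintro c hc
      have hcd : c * d * c⁻¹ * d⁻¹ = 1 := congrArg Subtype.val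
        (MonoidHom.mem_ker.mp (hker (hLp ▸ Subgroup.mem_top (⟨c, hZL hc⟩ : ↥L))))
      have hcc : c * c = 1 := by
        have h2 := hinv _ (Z.inv_mem hc)
        rw [inv_inv] at h2
        calc c * c = c * (d * c⁻¹ * d⁻¹) := by rw [h2]
          _ = c * d * c⁻¹ * d⁻¹ := by group
          _ = 1 := hcd
      rw [Subgroup.mem_bot]
      obtain ⟨c', hc', rfl⟩ := hc
      have h3 : (⟨c', hc'⟩ : Subgroup.center ↥L) ^ 2 = 1 := by
        apply Subtype.ext; apply Subtype.ext
        rw [pow_two]; exact hcc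
      have h4 : orderOf (⟨c', hc'⟩ : Subgroup.center ↥L) = 1 :=
        Nat.eq_one_of_dvd_coprimes (Nat.coprime_two_left.mpr hodd) (orderOf_dvd_of_pow_eq_one h3) (orderOf_dvd_natCard _)
      rw [orderOf_eq_one_iff] at h4
      exact congrArg (fun v : Subgroup.center ↥L => ((v : ↥L) : G)) h4
    · intro l hl
      have hl' : QuotientGroup.mk' (Subgroup.center ↥L) ⟨l, hl⟩ ∈
          (N.subgroupOf L).map (QuotientGroup.mk' (Subgroup.center ↥L)) := h ▸ Subgroup.mem_top _
      obtain ⟨n, hn', he⟩ := hl'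
      have hc := QuotientGroup.eq.mp he
      have : l = (n : G) * (((n⁻¹ * ⟨l, hl⟩ : ↥L) : ↥L) : G) := by simp
      rw [this]
      exact (M ⊔ Z).mul_mem (hN (Subgroup.mem_subgroupOf.mp hn')) (le_sup_right (α := Subgroup G) ⟨_, hc, rfl⟩)
  have hLM' : L ≤ M := by
    have hmul : ∀ l : ↥L, ∃ m : ↥L, (m : G) ∈ M ∧ m⁻¹ * l ∈ Subgroup.center ↥L := by
      intro l
      obtain ⟨m, hm, c, hc, he⟩ := (Subgroup.mem_sup_of_normal_right).mp (hLM l.2)
      have hmL : m ∈ L := by
        have : m = (l : G) * c⁻¹ := by rw [← he]; group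
        rw [this]; exact L.mul_mem l.2 (L.inv_mem (hZL hc))
      obtain ⟨c', hc', rfl⟩ := hc
      refine ⟨⟨m, hmL⟩, hm, ?_⟩
      have : (⟨m, hmL⟩ : ↥L)⁻¹ * l = c' := by
        apply Subtype.ext
        simp [← he]
      rw [this]; exact hc'
    have hcom : commutator ↥L ≤ M.subgroupOf L := by
      rw [commutator_def, Subgroup.commutator_le]
      intro a _ b _
      obtain ⟨a', ha', hca⟩ := hmul a
      obtain ⟨b', hb', hcb⟩ := hmul b
      have key : ⁅a, b⁆ = ⁅a', b'⁆ := by
        obtain ⟨p, hp, rfl⟩ : ∃ p, p ∈ Subgroup.center ↥L ∧ a = a' * p := ⟨_, hca, by group⟩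
        obtain ⟨q, hq, rfl⟩ : ∃ q, q ∈ Subgroup.center ↥L ∧ b = b' * q := ⟨_, hcb, by group⟩
        have hp' := Subgroup.mem_center_iff.mp hp
        have hq' := Subgroup.mem_center_iff.mp hq
        simp only [commutatorElement_def]
        calc a' * p * (b' * q) * (a' * p)⁻¹ * (b' * q)⁻¹
            = a' * (p * (b' * q)) * p⁻¹ * a'⁻¹ * (q⁻¹ * b'⁻¹) := by group
          _ = a' * b' * (q * a'⁻¹) * q⁻¹ * b'⁻¹ := by rw [← hp' (b' * q)]; group
          _ = a' * b' * a'⁻¹ * b'⁻¹ := by rw [← hq' a'⁻¹]; group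
      rw [key, Subgroup.mem_subgroupOf]
      simp only [commutatorElement_def, Subgroup.coe_mul, Subgroup.coe_inv]
      exact M.mul_mem (M.mul_mem (M.mul_mem ha' hb') (M.inv_mem ha')) (M.inv_mem hb')
    rw [Group.isPerfect_def.mp hperf, top_le_iff, Subgroup.subgroupOf_eq_top] at hcom
    exact hcom
  rw [eq_top_iff, ← hgen]
  refine sup_le hLM' (Subgroup.zpowers_le.mpr (hM d₀ (SimpleGraph.Reachable.refl _)))

end Cfsg.Agent.S5459
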