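import Cfsg.Statements.S5515
import Cfsg.Agent.H18.OutExtension
import Cfsg.Agent.S2608
import Cfsg.Agent.S0293
import Cfsg.Agent.S0296
import Cfsg.Agent.S1265
-- import your own Cfsg.Agent.* helpers here

set_option autoImplicit false
open Cfsg

namespace Cfsg.Agent.S5515

/-- Let G and G′ be finite groups whose generalized Fitting subgroups are isomorphic to PΩ⁺(8, 3) (the commutator subgroup of the isometry group of the hyperbolic quadratic form in dimension 8 over the field with three elements, modulo its centre) with quotients isomorphic to the symmetric group of degree 3. Then G and G′ are isomorphic. -/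
theorem result {G G' : Type*} [Group G] [Finite G] [Group G'] [Finite G'] (hF : Nonempty (↥(Cfsg.generalizedFittingSubgroup G) ≃* Cfsg.POmega (ZMod 3) (Cfsg.quadFormPlus 4 (ZMod 3)))) (hF' : Nonempty (↥(Cfsg.generalizedFittingSubgroup G') ≃* Cfsg.POmega (ZMod 3) (Cfsg.quadFormPlus 4 (ZMod 3)))) [hn : (Cfsg.generalizedFittingSubgroup G).Normal] [hn' : (Cfsg.generalizedFittingSubgroup G').Normal] (hq : Nonempty (G ⧸ Cfsg.generalizedFittingSubgroup G ≃* Equiv.Perm (Fin 3))) (hq' : Nonempty (G' ⧸ Cfsg.generalizedFittingSubgroup G' ≃* Equiv.Perm (Fin 3))) : Nonempty (G ≃* G') := by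
  obtain ⟨e⟩ := hF
  obtain ⟨e'⟩ := hF'
  haveI : Fact (Nat.Prime 3) := ⟨Nat.prime_three⟩
  haveI := S0296.result (F := ZMod 3) 4 le_rfl
  have h2608 := S2608.result (F := ZMod 3) (p := 3) (f := 1) (m := 4) le_rfl (by simp) (by norm_num)
    le_rfl
  rw [if_pos rfl] at h2608
  obtain ⟨o⟩ := h2608
  have hZ : Subgroup.center (Cfsg.POmega (ZMod 3) (Cfsg.quadFormPlus 4 (ZMod 3))) = ⊥ := by
    rcases (inferInstance : (Subgroup.center
      (Cfsg.POmega (ZMod 3) (Cfsg.quadFormPlus 4 (ZMod 3)))).Normal).eq_bot_or_eq_top with h | h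
    · exact h
    · exfalso
      have hc := S0293.result (F := ZMod 3) (q := 3) (ZMod.card 3) 4 le_rfl
      simp [Finset.prod_range_succ] at hc
      haveI : Finite (Cfsg.POmega (ZMod 3) (Cfsg.quadFormPlus 4 (ZMod 3))) :=
        Nat.finite_of_card_ne_zero (by omega)
      haveI : Fact (Nat.Prime 2) := ⟨Nat.prime_two⟩
      obtain ⟨x, hx⟩ := exists_prime_orderOf_dvd_card' 2
        (G := Cfsg.POmega (ZMod 3) (Cfsg.quadFormPlus 4 (ZMod 3))) (by omega)
      haveI : (Subgroup.zpowers x).Normal :=
        ⟨fun y hy g => by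
          rw [(Subgroup.mem_center_iff.1 (h ▸ Subgroup.mem_top y) g), mul_inv_cancel_right]
          exact hy⟩
      rcases (inferInstance : (Subgroup.zpowers x).Normal).eq_bot_or_eq_top with h2 | h2
      · have : Nat.card (Subgroup.zpowers x) = 1 := by rw [h2]; exact Subgroup.card_bot
        rw [Nat.card_zpowers, hx] at this
        omega
      · have : Nat.card (Subgroup.zpowers x) =
            Nat.card (Cfsg.POmega (ZMod 3) (Cfsg.quadFormPlus 4 (ZMod 3))) := by
          rw [h2]; exact Subgroup.card_top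
        rw [Nat.card_zpowers, hx] at this
        omega
  refine Cfsg.Agent.H18.extension_iso_of_out_perm_four _ _ e e' S1265.result S1265.result hZ
    ⟨o.trans ?_⟩ ?_ ?_
  · exact MulEquiv.prodUnique
  · rw [Subgroup.index, Nat.card_congr (Classical.choice hq).toEquiv, Nat.card_perm,
      Nat.card_fin]
    rfl
  · rw [Subgroup.index, Nat.card_congr (Classical.choice hq').toEquiv, Nat.card_perm,
      Nat.card_fin]
    rfl

end Cfsg.Agent.S5515
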