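import Cfsg.Statements.S5516
import Cfsg.Agent.H79.OmegaEight.Orbits
import Cfsg.Agent.S1265
-- import your own Cfsg.Agent.* helpers here

set_option autoImplicit false
open Cfsg

namespace Cfsg.Agent.S5516

/-- PΩ⁺(8, 3) (the commutator subgroup of the isometry group of the hyperbolic quadratic form in dimension 8 over the field with three elements, modulo its centre) has exactly 13 conjugacy classes of subgroups of order 3; and a finite group G whose generalized Fitting subgroup L is isomorphic to PΩ⁺(8, 3) with G/L the symmetric group of degree 3 has exactly 7 orbits, under conjugation, on the subgroups of L of order 3. -/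
theorem result {G : Type*} [Group G] [Finite G] (L : Subgroup G) (hL : L = Cfsg.generalizedFittingSubgroup G) (hF : Nonempty (↥L ≃* Cfsg.POmega (ZMod 3) (Cfsg.quadFormPlus 4 (ZMod 3)))) [hn : L.Normal] (hq : Nonempty (G ⧸ L ≃* Equiv.Perm (Fin 3))) : (∃ Y : Fin 13 → Subgroup (Cfsg.POmega (ZMod 3) (Cfsg.quadFormPlus 4 (ZMod 3))), (∀ i, Nat.card (Y i) = 3) ∧ (∀ i j, (∃ g : Cfsg.POmega (ZMod 3) (Cfsg.quadFormPlus 4 (ZMod 3)), (Y i).map (MulAut.conj g).toMonoidHom = Y j) → i = j) ∧ (∀ X : Subgroup (Cfsg.POmega (ZMod 3) (Cfsg.quadFormPlus 4 (ZMod 3))), Nat.card X = 3 → ∃ i, ∃ g : Cfsg.POmega (ZMod 3) (Cfsg.quadFormPlus 4 (ZMod 3)), X.map (MulAut.conj g).toMonoidHom = Y i)) ∧ ∃ Y : Fin 7 → Subgroup G, (∀ i, Y i ≤ L ∧ Nat.card (Y i) = 3) ∧ (∀ i j, (∃ g : G, (Y i).map (MulAut.conj g).toMonoidHom = Y j) → i = j) ∧ ∀ X : Subgroup G, X ≤ L → Nat.card X = 3 → ∃ i, ∃ g : G, X.map (MulAut.conj g).toMonoidHom = Y i := by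
  subst hL
  obtain ⟨e⟩ := hF
  obtain ⟨q⟩ := hq
  haveI : Fact (Nat.Prime 3) := ⟨Nat.prime_three⟩
  let ψ : Cfsg.POmega (ZMod 3) (Cfsg.quadFormPlus 4 (ZMod 3)) ≃* H79.OmegaEight.X8 :=
    H5.pomegaEquiv (H4.qPlus 4 (ZMod 3)) (H4.coe_qPlus 4)
  refine ⟨⟨fun j => (H79.OmegaEight.Y13 j).map ψ.symm.toMonoidHom, fun j => ?_, fun i j h => ?_,
    fun S hS => ?_⟩, ?_⟩
  · exact (Subgroup.card_map_of_injective ψ.symm.injective).trans (H79.OmegaEight.card_Y13 j)
  · have h' := H79.OmegaEight.SConj.map ψ h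
    simp only [Subgroup.map_map] at h'
    rw [show ψ.toMonoidHom.comp ψ.symm.toMonoidHom = MonoidHom.id _ by ext x; simp,
      Subgroup.map_id, Subgroup.map_id] at h'
    exact H79.OmegaEight.inj13 h'
  · obtain ⟨j, hj⟩ := H79.OmegaEight.complete (S.map ψ.toMonoidHom)
      ((Subgroup.card_map_of_injective ψ.injective).trans hS)
    have h' := hj.map ψ.symm
    rw [Subgroup.map_map, show ψ.symm.toMonoidHom.comp ψ.toMonoidHom = MonoidHom.id _ by ext x; simp,
      Subgroup.map_id] at h'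
    exact ⟨j, h'⟩
  · obtain ⟨o⟩ := H4.Oct.out_eight_odd (F := ZMod 3) (p := 3) (f := 1) le_rfl (by simp) (by norm_num)
    obtain ⟨oψ⟩ := H4.out_congr ψ
    refine H79.OmegaEight.exists_seven _ (e.trans ψ) S1265.result ?_
      ⟨oψ.symm.trans (o.trans MulEquiv.prodUnique)⟩
    rw [Subgroup.index, Nat.card_congr q.toEquiv, Nat.card_perm, Nat.card_fin]
    rfl

end Cfsg.Agent.S5516
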