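import Cfsg.Statements.S5541
import Mathlib

set_option autoImplicit false
open Cfsg

namespace Cfsg.Agent.S5541

/-- Let ρ be a representation of a group H on a finite-dimensional real vector space U whose only ρ-invariant subspaces are the zero subspace and U, and suppose U carries a non-zero ρ-invariant symmetric bilinear form. Then the following are equivalent: (1) there is a non-zero ρ-equivariant commutative bilinear product on U of which every ρ-equivariant bilinear product is a scalar multiple; (2) there is a non-zero ρ-invariant trilinear form on U that is symmetric under all permutations of its arguments and of which every ρ-invariant trilinear form is a scalar multiple. -/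
theorem result {H : Type*} [Group H] {U : Type*} [AddCommGroup U] [Module ℝ U] [FiniteDimensional ℝ U] (ρ : Representation ℝ H U) (hirr : ∀ W : Submodule ℝ U, (∀ g : H, W.map (ρ g) ≤ W) → W = ⊥ ∨ W = ⊤) (B : LinearMap.BilinForm ℝ U) (hB0 : B ≠ 0) (hBs : ∀ u v, B u v = B v u) (hBi : ∀ (g : H) (u v : U), B (ρ g u) (ρ g v) = B u v) : (∃ m : U →ₗ[ℝ] U →ₗ[ℝ] U, m ≠ 0 ∧ (∀ u v, m u v = m v u) ∧ (∀ (g : H) (u v : U), m (ρ g u) (ρ g v) = ρ g (m u v)) ∧ ∀ m' : U →ₗ[ℝ] U →ₗ[ℝ] U, (∀ (g : H) (u v : U), m' (ρ g u) (ρ g v) = ρ g (m' u v)) → ∃ c : ℝ, m' = c • m) ↔ (∃ t : U →ₗ[ℝ] U →ₗ[ℝ] U →ₗ[ℝ] ℝ, t ≠ 0 ∧ (∀ u v w, t u v w = t v u w ∧ t u v w = t u w v) ∧ (∀ (g : H) (u v w : U), t (ρ g u) (ρ g v) (ρ g w) = t u v w) ∧ ∀ t' : U →ₗ[ℝ] U →ₗ[ℝ] U →ₗ[ℝ] ℝ, (∀ (g : H) (u v w : U), t' (ρ g u) (ρ g v) (ρ g w) = t' u v w) → ∃ c : ℝ, t' = c • t) := by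
  classical
  -- the form is nondegenerate
  have hker : LinearMap.ker B = ⊥ := by
    rcases hirr (LinearMap.ker B) (by
      rintro g _ ⟨u, hu, rfl⟩
      rw [SetLike.mem_coe, LinearMap.mem_ker] at hu
      rw [LinearMap.mem_ker]
      ext v
      have h := hBi g u (ρ g⁻¹ v)
      rw [hu] at h
      have hv : ρ g (ρ g⁻¹ v) = v := by
        rw [← Module.End.mul_apply, ← map_mul, mul_inv_cancel, map_one]; rfl
      rw [hv] at h
      simpa using h) with h | h
    · exact h
    · exact absurd (LinearMap.ker_eq_top.mp h) hB0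
  have hinj : Function.Injective B := LinearMap.ker_eq_bot.mp hker
  let e : U ≃ₗ[ℝ] (U →ₗ[ℝ] ℝ) := LinearEquiv.ofBijective B
    ⟨hinj, (LinearMap.injective_iff_surjective_of_finrank_eq_finrank
      (Subspace.dual_finrank_eq (K := ℝ) (V := U)).symm).mp hinj⟩
  have he : ∀ u v, e u v = B u v := fun u v => rfl
  have hext : ∀ a b : U, (∀ w, B a w = B b w) → a = b := fun a b h => hinj (LinearMap.ext h)
  have hback : ∀ (g : H) (w : U), ρ g (ρ g⁻¹ w) = w := fun g w => by
    rw [← Module.End.mul_apply, ← map_mul, mul_inv_cancel, map_one]; rfl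
  -- from bilinear maps to trilinear forms and back
  let toT : (U →ₗ[ℝ] U →ₗ[ℝ] U) → (U →ₗ[ℝ] U →ₗ[ℝ] U →ₗ[ℝ] ℝ) := fun m => m.compr₂ (e : U →ₗ[ℝ] U →ₗ[ℝ] ℝ)
  let ofT : (U →ₗ[ℝ] U →ₗ[ℝ] U →ₗ[ℝ] ℝ) → (U →ₗ[ℝ] U →ₗ[ℝ] U) := fun t => t.compr₂ (e.symm : (U →ₗ[ℝ] ℝ) →ₗ[ℝ] U)
  have hto : ∀ m u v w, toT m u v w = B (m u v) w := fun m u v w => rfl
  have hof : ∀ t u v w, B (ofT t u v) w = t u v w := fun t u v w => by
    show e (e.symm (t u v)) w = t u v w
    rw [LinearEquiv.apply_symm_apply]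
  have hinvT : ∀ m : U →ₗ[ℝ] U →ₗ[ℝ] U, (∀ (g : H) (u v : U), m (ρ g u) (ρ g v) = ρ g (m u v)) →
      ∀ (g : H) u v w, toT m (ρ g u) (ρ g v) (ρ g w) = toT m u v w := by
    intro m hm g u v w
    rw [hto, hto, hm, hBi]
  have hequiv : ∀ t : U →ₗ[ℝ] U →ₗ[ℝ] U →ₗ[ℝ] ℝ,
      (∀ (g : H) (u v w : U), t (ρ g u) (ρ g v) (ρ g w) = t u v w) →
      ∀ (g : H) u v, ofT t (ρ g u) (ρ g v) = ρ g (ofT t u v) := by
    intro t ht g u v
    refine hext _ _ fun w => ?_
    rw [← hback g w, hBi, hof, hof, ht]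
  constructor
  · rintro ⟨m, hm0, hms, hmi, huniq⟩
    have hswap : ∀ u v w, toT m u v w = toT m u w v := by
      let t2 : U →ₗ[ℝ] U →ₗ[ℝ] U →ₗ[ℝ] ℝ :=
        ((LinearMap.lflip : (U →ₗ[ℝ] U →ₗ[ℝ] ℝ) ≃ₗ[ℝ] (U →ₗ[ℝ] U →ₗ[ℝ] ℝ)).toLinearMap).comp (toT m)
      have ht2 : ∀ u v w, t2 u v w = toT m u w v := fun u v w => rfl
      obtain ⟨c, hc⟩ := huniq (ofT t2) (hequiv t2 fun g u v w => by rw [ht2, ht2]; exact hinvT m hmi g u w v)
      have hc' : ∀ u v w, toT m u w v = c * toT m u v w := by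
        intro u v w
        rw [← ht2, ← hof t2, hc, hto]
        simp
      by_cases hc1 : c = 1
      · intro u v w; rw [hc' u v w, hc1, one_mul]
      · exfalso
        apply hm0
        ext u v
        refine hext _ _ fun w => ?_
        show toT m u v w = B 0 w
        rw [map_zero, LinearMap.zero_apply]
        by_contra hne
        have hsy : ∀ u v w, toT m u v w = toT m v u w := fun u v w => by rw [hto, hto, hms]
        have h2 : c * c = 1 := by
          have h := hc' u w v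
          rw [hc' u v w, ← mul_assoc] at h
          exact mul_right_cancel₀ hne (by rw [one_mul]; exact h.symm)
        rcases mul_self_eq_one_iff.mp h2 with h | h
        · exact hc1 h
        · subst h
          have k1 := hc' u v w
          have k2 := hc' v u w
          have k3 := hc' w u v
          have k4 := hsy u v w
          have k5 := hsy u w v
          have k6 := hsy v w u
          exact hne (by linarith)
    refine ⟨toT m, ?_, fun u v w => ⟨by rw [hto, hto, hms], hswap u v w⟩, hinvT m hmi, ?_⟩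
    · intro h
      apply hm0
      ext u v
      exact hext _ _ fun w => by rw [← hto, h]; simp
    · intro t' ht'
      obtain ⟨c, hc⟩ := huniq _ (hequiv t' ht')
      refine ⟨c, ?_⟩
      ext u v w
      rw [← hof t', hc]
      simp [hto]
  · rintro ⟨t, ht0, hts, hti, huniq⟩
    refine ⟨ofT t, ?_, fun u v => hext _ _ fun w => by rw [hof, hof, (hts u v w).1], hequiv t hti, ?_⟩
    · intro h
      apply ht0
      ext u v w
      rw [← hof t, h]; simp
    · intro m' hm'
      obtain ⟨c, hc⟩ := huniq _ (hinvT m' hm')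
      refine ⟨c, ?_⟩
      ext u v
      refine hext _ _ fun w => ?_
      rw [← hto, hc]
      simp [hof]

end Cfsg.Agent.S5541
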