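import Cfsg.Statements.S5543
import Mathlib

set_option autoImplicit false
open Cfsg

namespace Cfsg.Agent.S5543

/-- Let V be a finite-dimensional real vector space with a commutative bilinear product and a positive-definite symmetric bilinear form that associates with the product and satisfies the Norton inequality (the Majorana setting of the definitions). Let X be a group of linear automorphisms of V in which every element squares to the identity, and suppose every non-identity element x of X is a Majorana involution with an axial vector a(x) of squared length 1, such that for any two distinct non-identity x, y the product a(x) ∘ a(y) equals (1/8)(a(x) + a(y) − a(xy)) (the dihedral subalgebra of type 2A whose third axis belongs to the involution xy). Then X has order at most 4. -/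
theorem result {V : Type*} [AddCommGroup V] [Module ℝ V] [FiniteDimensional ℝ V] (mul : V →ₗ[ℝ] V →ₗ[ℝ] V) (B : LinearMap.BilinForm ℝ V) (hV : Cfsg.Axial.IsMajoranaAmbient mul B) (X : Subgroup (V ≃ₗ[ℝ] V)) (hX : ∀ x ∈ X, x * x = 1) (ax : (V ≃ₗ[ℝ] V) → V) (hax : ∀ x ∈ X, x ≠ 1 → Cfsg.Axial.IsMajoranaPair mul B x (ax x)) (h1 : ∀ x ∈ X, x ≠ 1 → B (ax x) (ax x) = 1) (h2A : ∀ x ∈ X, ∀ y ∈ X, x ≠ 1 → y ≠ 1 → x ≠ y → mul (ax x) (ax y) = (1 / 8 : ℝ) • (ax x + ax y - ax (x * y))) : Nat.card ↥X ≤ 4 := by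
  classical
  obtain ⟨hcomm, hsymm, -, hassoc, -⟩ := hV
  by_contra hgt
  rw [not_le] at hgt
  have hinv : ∀ x ∈ X, x⁻¹ = x := fun x hx => inv_eq_of_mul_eq_one_right (hX x hx)
  have hab : ∀ x ∈ X, ∀ y ∈ X, x * y = y * x := by
    intro x hx y hy
    have h := hinv _ (X.mul_mem hx hy)
    rw [mul_inv_rev, hinv x hx, hinv y hy] at h
    exact h.symm
  have hne1 : ∀ x ∈ X, ∀ y ∈ X, x ≠ y → x * y ≠ 1 := by
    intro x hx y hy hne h
    exact hne (by rw [eq_inv_of_mul_eq_one_left h, hinv y hy])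
  -- all inner products of two axes are 1/8
  have hB : ∀ x ∈ X, ∀ y ∈ X, x ≠ 1 → y ≠ 1 → x ≠ y → B (ax x) (ax y) = 1 / 8 := by
    have step : ∀ x ∈ X, ∀ y ∈ X, x ≠ 1 → y ≠ 1 → x ≠ y →
        B (ax x) (ax y) = 1 / 8 * (1 + B (ax x) (ax y) - B (ax x) (ax (x * y))) := by
      intro x hx y hy hx1 hy1 hne
      conv_lhs => rw [← (hax x hx hx1).2.2.1.1.2.1, ← hassoc, h2A x hx y hy hx1 hy1 hne]
      simp only [map_smul, map_add, map_sub, h1 x hx hx1, smul_eq_mul]
    intro x hx y hy hx1 hy1 hne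
    have e1 := step x hx y hy hx1 hy1 hne
    have e2 := step x hx (x * y) (X.mul_mem hx hy) hx1 (hne1 x hx y hy hne)
      (fun h => hy1 (mul_eq_left.mp h.symm))
    rw [← mul_assoc, hX x hx, one_mul] at e2
    linarith
  -- three independent elements
  have hsmall : ∀ S : Set (V ≃ₗ[ℝ] V), S.Finite → S.ncard ≤ 4 → ∃ w ∈ X, w ∉ S := by
    intro S hS hle
    by_contra h
    push Not at h
    have h2 := Set.ncard_le_ncard (s := (X : Set (V ≃ₗ[ℝ] V))) (fun w hw => h w hw) hS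
    have h3 : (X : Set (V ≃ₗ[ℝ] V)).ncard = Nat.card ↥X := (Nat.card_coe_set_eq _).symm
    omega
  have hc : ∀ a b c d : V ≃ₗ[ℝ] V, ({a, b, c, d} : Set _).Finite ∧ ({a, b, c, d} : Set _).ncard ≤ 4 := by
    intro a b c d
    refine ⟨Set.toFinite _, ?_⟩
    calc _ ≤ ({b, c, d} : Set (V ≃ₗ[ℝ] V)).ncard + 1 := Set.ncard_insert_le _ _
      _ ≤ ({c, d} : Set (V ≃ₗ[ℝ] V)).ncard + 1 + 1 := by gcongr; exact Set.ncard_insert_le _ _
      _ ≤ ({d} : Set (V ≃ₗ[ℝ] V)).ncard + 1 + 1 + 1 := by gcongr; exact Set.ncard_insert_le _ _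
      _ ≤ 4 := by simp
  obtain ⟨x, hx, hx'⟩ := hsmall {1, 1, 1, 1} (hc _ _ _ _).1 (hc _ _ _ _).2
  obtain ⟨y, hy, hy'⟩ := hsmall {1, x, x, x} (hc _ _ _ _).1 (hc _ _ _ _).2
  obtain ⟨w, hw, hw'⟩ := hsmall {1, x, y, x * y} (hc _ _ _ _).1 (hc _ _ _ _).2
  simp only [Set.mem_insert_iff, Set.mem_singleton_iff, not_or] at hx' hy' hw'
  obtain ⟨hw1, hwx, hwy, hwxy⟩ := hw'
  have hx1 : x ≠ 1 := hx'.1
  have hy1 : y ≠ 1 := hy'.1
  have hxy : x ≠ y := Ne.symm hy'.2.1
  have hxyX := X.mul_mem hx hy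
  have hxwX := X.mul_mem hx hw
  have hywX := X.mul_mem hy hw
  have hxywX := X.mul_mem hx hywX
  have hxy1 := hne1 x hx y hy hxy
  have hxw1 := hne1 x hx w hw (Ne.symm hwx)
  have hyw1 := hne1 y hy w hw (Ne.symm hwy)
  have hxyw1 : x * (y * w) ≠ 1 := by
    intro h
    apply hwxy
    rw [← mul_assoc] at h
    rw [eq_inv_of_mul_eq_one_right h, hinv _ hxyX]
  have hxyw_ne : x ≠ y * w := by
    intro h
    exact hxyw1 (by rw [← h, hX x hx])
  -- eigenvectors of `ax x` for the eigenvalue 1/4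
  have heig : ∀ p ∈ X, p ≠ 1 → p ≠ x →
      ax p - ax (x * p) ∈ Cfsg.Axial.eigen mul (ax x) (1 / 4) := by
    intro p hp hp1 hpx
    rw [Cfsg.Axial.eigen, Module.End.mem_eigenspace_iff, map_sub, h2A x hx p hp hx1 hp1 (Ne.symm hpx),
      h2A x hx (x * p) (X.mul_mem hx hp) hx1 (hne1 x hx p hp (Ne.symm hpx))
        (fun h => hp1 (mul_eq_left.mp h.symm))]
    rw [← mul_assoc, hX x hx, one_mul]
    module
  have hv := (hax x hx hx1).2.2.1.1.2.2.2 (1 / 4) (by simp [Cfsg.Axial.majoranaSpectrum])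
    (1 / 4) (by simp [Cfsg.Axial.majoranaSpectrum]) _ (heig y hy hy1 hy'.2.1) _ (heig w hw hw1 hwx)
  have hlaw : Cfsg.Axial.monsterLaw (1 / 4 : ℝ) (1 / 32) (1 / 4) (1 / 4) = {1, 0} := by
    unfold Cfsg.Axial.monsterLaw
    norm_num
  rw [hlaw, Cfsg.Axial.eigenSum, iSup_pair, Submodule.mem_sup] at hv
  obtain ⟨s, hs, t, ht, hst⟩ := hv
  have e : y * (x * w) = x * (y * w) := by rw [← mul_assoc, hab y hy x hx, mul_assoc]
  have e' : x * y * (x * w) = y * w := by
    rw [mul_assoc, e, ← mul_assoc, hX x hx, one_mul]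
  have hprod : mul (ax y - ax (x * y)) (ax w - ax (x * w)) =
      (-1 / 4 : ℝ) • (ax (y * w) - ax (x * (y * w))) := by
    simp only [map_sub, LinearMap.sub_apply]
    rw [h2A y hy w hw hy1 hw1 (Ne.symm hwy),
      h2A (x * y) hxyX w hw hxy1 hw1 (Ne.symm hwxy),
      h2A y hy (x * w) hxwX hy1 hxw1 (fun h => hwxy (by
        rw [h, ← mul_assoc, hX x hx, one_mul])),
      h2A (x * y) hxyX (x * w) hxwX hxy1 hxw1 (fun h => hwy (mul_left_cancel h).symm)]
    rw [e, e', mul_assoc x y w]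
    module
  rw [hprod] at hst
  have hvE := heig (y * w) hywX hyw1 (Ne.symm hxyw_ne)
  rw [Cfsg.Axial.eigen, Module.End.mem_eigenspace_iff] at hvE hs ht
  set v := ax (y * w) - ax (x * (y * w)) with hvdef
  have ha : (-1 / 4 : ℝ) • ((1 / 4 : ℝ) • v) = s := by
    have h := congrArg (mul (ax x)) hst
    rw [map_add, hs, ht, one_smul, zero_smul, add_zero, map_smul, hvE] at h
    exact h.symm
  have hb : (-1 / 4 : ℝ) • ((1 / 4 : ℝ) • ((1 / 4 : ℝ) • v)) = s := by
    have h := congrArg (mul (ax x)) ha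
    rw [hs, one_smul, map_smul, map_smul, hvE] at h
    exact h
  have hv0 : v = 0 := by
    have h : (-3 / 64 : ℝ) • v = 0 := by
      calc (-3 / 64 : ℝ) • v
          = (-1 / 4 : ℝ) • ((1 / 4 : ℝ) • v) - (-1 / 4 : ℝ) • ((1 / 4 : ℝ) • ((1 / 4 : ℝ) • v)) := by module
        _ = 0 := by rw [ha, hb, sub_self]
    exact (smul_eq_zero.mp h).resolve_left (by norm_num)
  have hne' : y * w ≠ x * (y * w) := fun h => hx1 (mul_eq_right.mp h.symm)
  have h8 := hB _ hywX _ hxywX hyw1 hxyw1 hne'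
  rw [← sub_eq_zero.mp hv0, h1 _ hywX hyw1] at h8
  norm_num at h8

end Cfsg.Agent.S5543
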