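import Cfsg.Statements.S5545
import Cfsg.Agent.H18.Majorana

set_option autoImplicit false
open Cfsg

namespace Cfsg.Agent.S5545

/-- Let V be a finite-dimensional real vector space with a commutative bilinear product and a positive-definite symmetric bilinear form that associates with the product and satisfies the Norton inequality (the Majorana setting of the definitions). Let μ₀, μ₁ be commuting Majorana involutions with distinct axial vectors a₀ ≠ a₁ of squared length 1, each involution having no other axial vector. Then either a₀ and a₁ are orthogonal with a₀ ∘ a₁ = 0 (type 2B), or their inner product is 1/8 and, with a₂ = a₀ + a₁ − 8 a₀ ∘ a₁, the vector a₂ is an idempotent and a₀ ∘ a₂ = (1/8)(a₀ + a₂ − a₁), a₁ ∘ a₂ = (1/8)(a₁ + a₂ − a₀) (type 2A: the three idempotents span a subalgebra with aᵢ ∘ aⱼ = (1/8)(aᵢ + aⱼ − aₖ)). -/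
theorem result {V : Type*} [AddCommGroup V] [Module ℝ V] [FiniteDimensional ℝ V] (mul : V →ₗ[ℝ] V →ₗ[ℝ] V) (B : LinearMap.BilinForm ℝ V) (hV : Cfsg.Axial.IsMajoranaAmbient mul B) (μ₀ μ₁ : V ≃ₗ[ℝ] V) (a₀ a₁ : V) (h₀ : Cfsg.Axial.IsMajoranaPair mul B μ₀ a₀) (h₁ : Cfsg.Axial.IsMajoranaPair mul B μ₁ a₁) (hu₀ : ∀ a : V, Cfsg.Axial.IsMajoranaPair mul B μ₀ a → a = a₀) (hu₁ : ∀ a : V, Cfsg.Axial.IsMajoranaPair mul B μ₁ a → a = a₁) (hn₀ : B a₀ a₀ = 1) (hn₁ : B a₁ a₁ = 1) (hc : μ₀ * μ₁ = μ₁ * μ₀) (hne : a₀ ≠ a₁) : (B a₀ a₁ = 0 ∧ mul a₀ a₁ = 0) ∨ (B a₀ a₁ = 1 / 8 ∧ mul (a₀ + a₁ - (8 : ℝ) • mul a₀ a₁) (a₀ + a₁ - (8 : ℝ) • mul a₀ a₁) = a₀ + a₁ - (8 : ℝ) • mul a₀ a₁ ∧ mul a₀ (a₀ + a₁ - (8 : ℝ) • mul a₀ a₁) = (1 / 8 : ℝ) • (a₀ + (a₀ + a₁ - (8 : ℝ) • mul a₀ a₁) - a₁) ∧ mul a₁ (a₀ + a₁ - (8 : ℝ) • mul a₀ a₁) = (1 / 8 : ℝ) • (a₁ + (a₀ + a₁ - (8 : ℝ) • mul a₀ a₁) - a₀)) := by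
  obtain ⟨hc01, hc10⟩ : μ₀ * μ₁ = μ₁ * μ₀ ∧ μ₁ * μ₀ = μ₀ * μ₁ := ⟨hc, hc.symm⟩
  have hfix₀ : μ₀ a₁ = a₁ := hu₁ _ (H18.isMajoranaPair_conj h₀.1 hc01 h₁)
  have hfix₁ : μ₁ a₀ = a₀ := hu₀ _ (H18.isMajoranaPair_conj h₁.1 hc10 h₀)
  obtain ⟨t, s, ht, hs, ha₁⟩ := H18.fixed_decomp hV h₀ hn₀ hfix₀
  obtain ⟨t', s', ht', hs', ha₀⟩ := H18.fixed_decomp hV h₁ hn₁ hfix₁
  set γ := B a₀ a₁ with hγ
  rw [hV.2.1 a₁ a₀, ← hγ] at ha₀
  have hcm := hV.1
  have haa₀ : mul a₀ a₀ = a₀ := h₀.2.2.1.1.2.1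
  have haa₁ : mul a₁ a₁ = a₁ := h₁.2.2.1.1.2.1
  have hlaw := h₀.2.2.1.1.2.2.2
  obtain ⟨l00, l0a, laa⟩ := H18.monsterLaw_values
  have mem : ∀ {a : V} {c : ℝ} {v : V}, mul a v = c • v → v ∈ Cfsg.Axial.eigen mul a c := by
    intro a c v h; exact Module.End.mem_eigenspace_iff.mpr h
  have h0S : (0 : ℝ) ∈ Cfsg.Axial.majoranaSpectrum := by simp [Cfsg.Axial.majoranaSpectrum]
  have haS : (1 / 4 : ℝ) ∈ Cfsg.Axial.majoranaSpectrum := by simp [Cfsg.Axial.majoranaSpectrum]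
  have ht0 : mul a₀ t = (0 : ℝ) • t := by rw [ht, zero_smul]
  have htt : mul a₀ (mul t t) = 0 := by
    have h := hlaw 0 h0S 0 h0S t (mem ht0) t (mem ht0)
    rw [l00, Cfsg.Axial.eigenSum] at h
    simpa [Cfsg.Axial.eigen] using h
  have hts : mul a₀ (mul t s) = (1 / 4 : ℝ) • mul t s := by
    have h := hlaw 0 h0S (1 / 4) haS t (mem ht0) s (mem hs)
    rw [l0a, Cfsg.Axial.eigenSum] at h
    simpa [Cfsg.Axial.eigen] using h
  obtain ⟨x, y, hx, hy, hxy⟩ : ∃ x y, mul a₀ x = x ∧ mul a₀ y = 0 ∧ mul s s = x + y := by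
    have h := hlaw (1 / 4) haS (1 / 4) haS s (mem hs) s (mem hs)
    rw [laa, Cfsg.Axial.eigenSum, iSup_pair, Submodule.mem_sup] at h
    obtain ⟨x, hx, y, hy, hxy⟩ := h
    rw [Cfsg.Axial.eigen, Module.End.mem_eigenspace_iff] at hx hy
    exact ⟨x, y, by rwa [one_smul] at hx, by rwa [zero_smul] at hy, hxy.symm⟩
  have e01 : mul a₀ a₁ = γ • a₀ + (1 / 4 : ℝ) • s := by
    rw [ha₁, map_add, map_add, map_smul, haa₀, ht, hs, add_zero]
  have e01' : mul a₀ a₁ = γ • a₁ + (1 / 4 : ℝ) • s' := by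
    rw [hcm a₀ a₁, ha₀, map_add, map_add, map_smul, haa₁, ht', hs', add_zero]
  have hsq : γ ^ 2 • a₀ + (γ / 2) • s + mul t t + (2 : ℝ) • mul t s + mul s s = γ • a₀ + t + s := by
    rw [← ha₁, ← haa₁]
    conv_rhs => rw [ha₁]
    simp only [map_add, map_smul, LinearMap.add_apply, LinearMap.smul_apply, haa₀, ht, hs, hcm t a₀,
      hcm s a₀, hcm s t]
    module
  have hts' : mul t s = (1 / 2 - γ / 4) • s := by
    have key : (γ / 2) • s + (2 : ℝ) • mul t s - s = 0 := by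
      refine H18.eigen_quarter_disjoint (mul := mul) (a := a₀) (x := (γ - γ ^ 2) • a₀ - x)
        (y := t - mul t t - y) ?_ ?_ ?_ ?_
      · simp only [map_add, map_sub, map_smul, hs, hts]; module
      · simp only [map_sub, map_smul, haa₀, hx]
      · simp only [map_sub, ht, htt, hy]; simp
      · rw [hxy] at hsq
        linear_combination (norm := module) (1 : ℝ) • hsq
    linear_combination (norm := module) (1 / 2 : ℝ) • key
  have e1s : mul a₁ s = (1 / 2 : ℝ) • s + mul s s := by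
    rw [ha₁]
    simp only [map_add, map_smul, LinearMap.add_apply, LinearMap.smul_apply, hs, hts']
    module
  have es' : s' = (4 * γ) • a₀ + s - (4 * γ) • a₁ := by
    have h := e01.symm.trans e01'
    linear_combination (norm := module) (-4 : ℝ) • h
  have hss : mul s s = (γ - 4 * γ ^ 2) • a₀ + (-1 / 4 - γ) • s + (3 * γ) • a₁ := by
    have h := hs'
    rw [es', map_sub, map_add, map_smul, map_smul, haa₁, e1s, hcm a₁ a₀, e01] at h
    linear_combination (norm := module) (1 : ℝ) • h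
  have hks : (2 * γ - 1 / 4) • s = 0 := by
    refine H18.eigen_quarter_disjoint (mul := mul) (a := a₀) (x := x - (γ - γ ^ 2) • a₀)
      (y := y - (3 * γ) • t) ?_ ?_ ?_ ?_
    · rw [map_smul, hs]; module
    · simp only [map_sub, map_smul, haa₀, hx]
    · simp only [map_sub, map_smul, ht, hy]; simp
    · have h := hss
      rw [hxy] at h
      conv at h => rhs; rw [ha₁]
      linear_combination (norm := module) (-1 : ℝ) • h
  by_cases hs0 : s = 0
  · left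
    have h1 : mul a₀ a₁ = γ • a₀ := by rw [e01, hs0, smul_zero, add_zero]
    suffices hγ0 : γ = 0 by exact ⟨hγ0, by rw [h1, hγ0, zero_smul]⟩
    by_contra hγ0
    have h := hss
    simp only [hs0, map_zero, LinearMap.zero_apply, smul_zero, add_zero] at h
    have hdep : a₁ = ((4 * γ - 1) / 3) • a₀ := by
      have h' : (3 * γ) • a₁ = (3 * γ * ((4 * γ - 1) / 3)) • a₀ := by
        linear_combination (norm := module) (-1 : ℝ) • h
      rw [mul_smul (3 * γ)] at h'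
      exact smul_right_injective V (mul_ne_zero (by norm_num) hγ0) h'
    have hB : (4 * γ - 1) / 3 = γ := by
      have := congrArg (B a₀) hdep
      rw [map_smul, hn₀, ← hγ, smul_eq_mul, mul_one] at this
      exact this.symm
    have hγ1 : γ = 1 := by linarith
    exact hne (by rw [hdep, hB, hγ1, one_smul])
  · right
    have hγ8 : γ = 1 / 8 := by
      have := (smul_eq_zero.mp hks).resolve_right hs0
      linarith
    have hr : a₀ + a₁ - (8 : ℝ) • mul a₀ a₁ = a₁ - (2 : ℝ) • s := by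
      rw [e01, hγ8]; module
    refine ⟨hγ8, ?_, ?_, ?_⟩
    · rw [hr]
      simp only [map_sub, map_smul, LinearMap.sub_apply, LinearMap.smul_apply, haa₁, hcm s a₁, e1s]
      module
    · rw [hr, map_sub, map_smul, e01, hs, hγ8]; module
    · rw [hr, map_sub, map_smul, haa₁, e1s, hss, hγ8]; module

end Cfsg.Agent.S5545
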