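import Cfsg.Statements.S5546
import Cfsg.Agent.H15.CoordRep

set_option autoImplicit false
open Cfsg

namespace Cfsg.Agent.S5546

open Matrix Cfsg.Agent.H15

/-- Embedding of the 23-dimensional orthogonal complement of `e∞ + e0`. -/
def emb : Matrix GolayPt (ZMod 23) (ZMod 13) := fun i k =>
  match i with
  | none => if k = 0 then 1 else 0
  | some j => if j = k then (if k = 0 then -1 else 1) else 0

/-- A left inverse of `emb`. -/
def proj : Matrix (ZMod 23) GolayPt (ZMod 13) := fun k i =>
  match i with
  | none => if k = 0 then 1 else 0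
  | some j => if j = k ∧ k ≠ 0 then 1 else 0

/-- The indicator of `{∞, 0}`. -/
def wvec : GolayPt → ZMod 13 := fun p => if p = none ∨ p = some 0 then 1 else 0

theorem proj_emb : proj * emb = 1 := by decide +kernel

theorem wvec_emb : wvec ᵥ* emb = 0 := by decide +kernel

theorem emb_proj (x : GolayPt → ZMod 13) (hx : wvec ⬝ᵥ x = 0) : emb *ᵥ (proj *ᵥ x) = x := by
  have h : emb * proj = 1 - Matrix.of fun i j => if i = some 0 then wvec j else 0 := by
    decide +kernel
  rw [mulVec_mulVec, h, sub_mulVec, one_mulVec, sub_eq_self]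
  funext i
  by_cases hi : i = some 0
  · subst hi
    rw [Pi.zero_apply, ← hx]
    simp [mulVec, dotProduct, -Fintype.sum_option]
  · simp [mulVec, dotProduct, hi, -Fintype.sum_option]

theorem dot_smul_eq (g : ↥Co0) (x y : ↥leechLattice) :
    dotInt (g • x : ↥leechLattice).1 (g • y : ↥leechLattice).1 = dotInt x.1 y.1 := by
  have key : ∀ a b : GolayPt → ℤ, sqNorm (a + b) = sqNorm a + sqNorm b + 2 * dotInt a b := by
    intro a b
    simp only [sqNorm, dotInt, Finset.mul_sum, ← Finset.sum_add_distrib, Pi.add_apply]
    exact Finset.sum_congr rfl fun i _ => by ring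
  have h := g.2.2 (x + y)
  rw [g.2.1] at h
  rw [AddSubgroup.coe_add, AddSubgroup.coe_add, key, key, g.2.2 x, g.2.2 y] at h
  change dotInt ((g : Equiv.Perm ↥leechLattice) x).1 ((g : Equiv.Perm ↥leechLattice) y).1 = _
  linarith

/-- The inclusion of `Co2` in `Co0`. -/
def toCo0 : ↥Cfsg.Spor.Co2 →* ↥Co0 := Subgroup.inclusion inf_le_left

theorem hc13 : (5 : ZMod 13) * 8 = 1 := by decide

/-- The coordinate matrices of `Co2` over the field with 13 elements. -/
def rep24 : ↥Cfsg.Spor.Co2 →* Matrix GolayPt GolayPt (ZMod 13) := (coordRep hc13).comp toCo0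

theorem fixes_u (g : ↥Cfsg.Spor.Co2) : toCo0 g • Spor.leechU = Spor.leechU := g.2.2

theorem wvec_fixed (g : ↥Cfsg.Spor.Co2) : wvec ᵥ* rep24 g = wvec := by
  funext j
  have h := dot_smul_eq (toCo0 g) Spor.leechU (eightL j)
  rw [fixes_u] at h
  have h2 : dotInt Spor.leechU.1 (eightL j).1 = 8 * Spor.vecU j := by
    simp [dotInt, eightL, eightE, Spor.leechU, Pi.single_apply, -Fintype.sum_option]
    ring
  rw [h2] at h
  have h3 := congrArg (fun z : ℤ => (10 : ZMod 13) * 5 * (z : ZMod 13)) h
  simp only [dotInt, Int.cast_sum, Int.cast_mul, Finset.mul_sum, Int.cast_ofNat] at h3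
  have hu : ∀ i, (Spor.vecU i : ZMod 13) = 4 * wvec i := fun i => by
    by_cases hi : i = none ∨ i = some 0 <;> simp [Spor.vecU, wvec, hi]
  simp only [Spor.leechU, hu] at h3
  have e1 : (10 : ZMod 13) * 5 * (8 * (4 * wvec j)) = wvec j := by
    rw [← mul_assoc 8, ← mul_assoc, show (10 : ZMod 13) * 5 * (8 * 4) = 1 from by decide, one_mul]
  rw [e1] at h3
  rw [← h3]
  simp only [vecMul, dotProduct]
  refine Finset.sum_congr rfl fun i _ => ?_
  change wvec i * ((5 : ZMod 13) * _) = _
  rw [mul_assoc (10 : ZMod 13) 5]
  generalize ((_ : ℤ) : ZMod 13) = t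
  have h40 : (10 : ZMod 13) * 4 = 1 := by decide
  linear_combination -(5 * wvec i * t) * h40

theorem rep_emb (g : ↥Cfsg.Spor.Co2) : emb * (proj * (rep24 g * emb)) = rep24 g * emb := by
  apply Matrix.ext_of_mulVec_single
  intro k
  rw [← mulVec_mulVec, ← mulVec_mulVec, emb_proj]
  rw [← mulVec_mulVec, dotProduct_mulVec, wvec_fixed, dotProduct_mulVec, wvec_emb, zero_dotProduct]

/-- The representation on the orthogonal complement. -/
def rep23 : ↥Cfsg.Spor.Co2 →* Matrix (ZMod 23) (ZMod 23) (ZMod 13) where
  toFun g := proj * (rep24 g * emb)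
  map_one' := by rw [map_one, Matrix.one_mul, proj_emb]
  map_mul' g h := by
    rw [map_mul]
    calc proj * (rep24 g * rep24 h * emb) = proj * (rep24 g * (rep24 h * emb)) := by
          rw [Matrix.mul_assoc]
      _ = proj * (rep24 g * (emb * (proj * (rep24 h * emb)))) := by rw [rep_emb]
      _ = _ := by simp only [Matrix.mul_assoc]

/-- An injective matrix representation gives an injective map into a general linear group. -/
theorem embed_GL {G n m R : Type*} [Group G] [Fintype n] [DecidableEq n] [Fintype m] [DecidableEq m]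
    [CommRing R] (e : n ≃ m) (r : G →* Matrix n n R) (h : Function.Injective r) :
    ∃ f : G →* GL m R, Function.Injective f := by
  refine ⟨((Matrix.reindexAlgEquiv R R e).toMulEquiv.toMonoidHom.comp r).toHomUnits, fun a b hab => h ?_⟩
  exact (Matrix.reindexAlgEquiv R R e).injective (congrArg Units.val hab)

/-- The second Conway group (the stabilizer in the Leech lattice automorphism group of the short vector fixed in the definitions) is isomorphic to a subgroup of the general linear group of degree 23 over the field with 13 elements: there is an injective homomorphism into it. -/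
theorem result : ∃ f : ↥Cfsg.Spor.Co2 →* GL (Fin 23) (ZMod 13), Function.Injective f := by
  suffices hinj : Function.Injective rep23 from
    embed_GL (Fintype.equivFinOfCardEq (ZMod.card 23)) rep23 hinj
  refine (injective_iff_map_eq_one _).2 fun g hg => ?_
  have h : proj * (rep24 g * emb) = 1 := hg
  have hB : rep24 g * emb = emb := by
    have := rep_emb g
    rw [h, Matrix.mul_one] at this
    exact this.symm
  have hw : rep24 g *ᵥ wvec = wvec := by
    have h4 := coordMat_mulVec hc13 (toCo0 g) Spor.leechU
    rw [fixes_u] at h4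
    have hu : castVec (ZMod 13) Spor.leechU.1 = (4 : ZMod 13) • wvec := funext fun i => by
      by_cases hi : i = none ∨ i = some 0 <;> simp [castVec, Spor.leechU, Spor.vecU, wvec, hi]
    rw [hu, mulVec_smul] at h4
    have := congrArg (fun v => (10 : ZMod 13) • v) h4
    simpa [smul_smul, show (10 : ZMod 13) * 4 = 1 from by decide, rep24, coordRep] using this
  have hall : rep24 g = 1 := by
    apply Matrix.ext_of_mulVec_single
    intro j
    rw [one_mulVec]
    have hdec : ∀ j : GolayPt, ∃ t : ZMod 13,
        (Pi.single j 1 : GolayPt → ZMod 13) = emb *ᵥ (proj *ᵥ (Pi.single j 1 - t • wvec)) + t • wvec := by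
      intro j
      refine ⟨7 * wvec j, ?_⟩
      rw [emb_proj, sub_add_cancel]
      rw [dotProduct_sub, dotProduct_smul, dotProduct_single]
      have h2 : wvec ⬝ᵥ wvec = 2 := by decide +kernel
      rw [h2, smul_eq_mul, mul_one, mul_comm (7 : ZMod 13), mul_assoc, show (7 : ZMod 13) * 2 = 1 from by decide,
        mul_one, sub_self]
    obtain ⟨t, ht⟩ := hdec j
    rw [ht, mulVec_add, mulVec_mulVec, hB, mulVec_smul, hw]
  have : toCo0 g = 1 := coordMat_eq_one_imp hc13 (by norm_num) hall
  exact (injective_iff_map_eq_one toCo0).1 (Subgroup.inclusion_injective inf_le_left) g this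

end Cfsg.Agent.S5546
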