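import Cfsg.Statements.S5547
import Cfsg.Agent.S1696
import Cfsg.Agent.H57.Fi22Rep.Main

set_option autoImplicit false
open Cfsg

namespace Cfsg.Agent.S5547

/-- The Fischer group Fi₂₂ (the finitely presented 3-transposition group of the definitions) is isomorphic to a subgroup of the general linear group of degree 78 over the field with 13 elements: there is an injective homomorphism into it. -/
theorem result : ∃ f : Cfsg.Spor.Fi22 →* GL (Fin 78) (ZMod 13), Function.Injective f := by
  haveI : IsSimpleGroup Spor.Fi22 := S1696.result.1
  refine ⟨H57.Fi22Rep.rep, ?_⟩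
  rw [← MonoidHom.ker_eq_bot_iff]
  rcases IsSimpleGroup.eq_bot_or_eq_top_of_normal H57.Fi22Rep.rep.ker inferInstance with h | h
  · exact h
  · exact absurd (MonoidHom.mem_ker.mp (h ▸ Subgroup.mem_top _)) H57.Fi22Rep.rep_nontrivial

end Cfsg.Agent.S5547
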