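import Cfsg.Statements.S5548
import Cfsg.Agent.H9.Invariant


set_option autoImplicit false
open Cfsg

namespace Cfsg.Agent.S5548

/-- For the automorphism group of the length-24 binary Golay code of the definitions (the Mathieu group of degree 24) acting on binary words of length 24 by permuting coordinates, the only invariant subspaces of the space of all words are: zero, the span of the all-ones word, the code itself, the even-weight words, and the whole space. (So the permutation module has a unique composition series.) -/
theorem result (W : Submodule (ZMod 2) (Cfsg.GolayPt → ZMod 2)) (hW : ∀ σ ∈ Cfsg.M24, ∀ w ∈ W, (fun p => w (σ.symm p)) ∈ W) : W = ⊥ ∨ W = Submodule.span (ZMod 2) {fun _ => (1 : ZMod 2)} ∨ W = Cfsg.golayCode ∨ (W : Set (Cfsg.GolayPt → ZMod 2)) = {w | ∑ p, w p = 0} ∨ W = ⊤ := by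
  rcases H9.invariant_cases W hW with h | h | h | h | h
  exacts [Or.inl h, Or.inr (Or.inl h), Or.inr (Or.inr (Or.inl h)),
    Or.inr (Or.inr (Or.inr (Or.inl (by rw [h]; ext w; exact H9.mem_evenWords)))),
    Or.inr (Or.inr (Or.inr (Or.inr h)))]

end Cfsg.Agent.S5548
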