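import Cfsg.Statements.S5588
import Cfsg.Agent.H47.Y555.Main
-- import your own Cfsg.Agent.* helpers here

set_option autoImplicit false
open Cfsg

namespace Cfsg.Agent.S5588

/-- In the group presented by the sixteen involutions of the Y₅₅₅ Coxeter diagram subject only to the Coxeter relations and the single spider relation (a b₁ c₁ a b₂ c₂ a b₃ c₃)^10 = 1, each of the further relators used in the definitions' presentation of the Bimonster (each end node equals the ninth power of the Coxeter element of a sub-diagram of type E₇) already holds. Equivalently, the Y₅₅₅ diagram with the spider relation alone presents the Bimonster. -/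
theorem result :
    ∀ r ∈ Cfsg.Spor.Bimonster.extra,
      (PresentedGroup.mk (Cfsg.Spor.coxRelators Cfsg.Spor.Bimonster.edges ∪ {r' | r' ∈ [(Cfsg.Spor.Bimonster.a * Cfsg.Spor.Bimonster.b1 * Cfsg.Spor.Bimonster.c1 * Cfsg.Spor.Bimonster.a * Cfsg.Spor.Bimonster.b2 * Cfsg.Spor.Bimonster.c2 * Cfsg.Spor.Bimonster.a * Cfsg.Spor.Bimonster.b3 * Cfsg.Spor.Bimonster.c3) ^ 10]}) r) = 1 := by
  intro r hr
  set rels := Cfsg.Spor.coxRelators Cfsg.Spor.Bimonster.edges ∪ {r' | r' ∈ [(Cfsg.Spor.Bimonster.a * Cfsg.Spor.Bimonster.b1 * Cfsg.Spor.Bimonster.c1 * Cfsg.Spor.Bimonster.a * Cfsg.Spor.Bimonster.b2 * Cfsg.Spor.Bimonster.c2 * Cfsg.Spor.Bimonster.a * Cfsg.Spor.Bimonster.b3 * Cfsg.Spor.Bimonster.c3) ^ 10]} with hrels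
  have hχ : ∀ q ∈ rels, FreeGroup.lift (fun _ => (-1 : ℤˣ)) q = 1 := by
    rintro q (⟨x, -, y, -, rfl⟩ | hq)
    · simp
    · have hq' := List.mem_singleton.1 hq
      subst hq'
      simp
      decide
  have hR : H47.Y555.Rel (PresentedGroup.toGroup hχ) (fun x => PresentedGroup.of (rels := rels) x) := by
    refine ⟨fun x y => ?_, ?_, fun x => PresentedGroup.toGroup.of _⟩
    · have h : PresentedGroup.mk rels
          ((FreeGroup.of x * FreeGroup.of y) ^ Cfsg.Spor.coxLabel Cfsg.Spor.Bimonster.edges x y) = 1 :=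
        PresentedGroup.one_of_mem (Or.inl ⟨x, H47.Y555.mem_nodes x, y, H47.Y555.mem_nodes y, rfl⟩)
      rw [map_pow, map_mul] at h
      exact h
    · have h : PresentedGroup.mk rels ((Cfsg.Spor.Bimonster.a * Cfsg.Spor.Bimonster.b1 * Cfsg.Spor.Bimonster.c1 * Cfsg.Spor.Bimonster.a * Cfsg.Spor.Bimonster.b2 * Cfsg.Spor.Bimonster.c2 * Cfsg.Spor.Bimonster.a * Cfsg.Spor.Bimonster.b3 * Cfsg.Spor.Bimonster.c3) ^ 10) = 1 :=
        PresentedGroup.one_of_mem (Or.inr (List.mem_singleton.2 rfl))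
      simpa [H47.Y555.spiderG, PresentedGroup.of, mul_assoc] using h
  have key : ∀ i < 6, ∀ f g1 g2 g3 g4 g5 g6 g7, H47.Y555.symms.getD i id .f1 = f →
      ([.a, .b1, .b2, .b3, .c1, .c2, .d1] : List Cfsg.Spor.Bimonster.Gen).map (H47.Y555.symms.getD i id) =
        [g1, g2, g3, g4, g5, g6, g7] →
      PresentedGroup.mk rels (FreeGroup.of f * ((FreeGroup.of g1 * FreeGroup.of g2 * FreeGroup.of g3 *
        FreeGroup.of g4 * FreeGroup.of g5 * FreeGroup.of g6 * FreeGroup.of g7) ^ 9)⁻¹) = 1 := by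
    intro i hi f g1 g2 g3 g4 g5 g6 g7 hf hg
    have h := (hR.symm hi).f1_eq
    rw [Function.comp_apply, hf, ← List.map_map, hg] at h
    rw [map_mul, map_inv, map_pow, mul_inv_eq_one]
    simpa [PresentedGroup.of, mul_assoc] using h
  simp only [Cfsg.Spor.Bimonster.extra, List.mem_cons, List.not_mem_nil, or_false] at hr
  rcases hr with rfl | rfl | rfl | rfl | rfl | rfl | rfl
  · exact PresentedGroup.one_of_mem (Or.inr (List.mem_singleton.2 rfl))
  · exact key 0 (by norm_num) _ _ _ _ _ _ _ _ rfl rfl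
  · exact key 1 (by norm_num) _ _ _ _ _ _ _ _ rfl rfl
  · exact key 2 (by norm_num) _ _ _ _ _ _ _ _ rfl rfl
  · exact key 3 (by norm_num) _ _ _ _ _ _ _ _ rfl rfl
  · exact key 4 (by norm_num) _ _ _ _ _ _ _ _ rfl rfl
  · exact key 5 (by norm_num) _ _ _ _ _ _ _ _ rfl rfl

end Cfsg.Agent.S5588
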