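import Cfsg.Statements.S5593
import Cfsg.Agent.H14.ModTwoFacts

set_option autoImplicit false
open Cfsg

namespace Cfsg.Agent.S5593

/-- The automorphism group of the Leech lattice acts transitively on the congruence classes modulo twice the lattice of the vectors of sum of squares 64 (customary norm 8): for any two such vectors some automorphism carries the first to a vector congruent to the second. -/
theorem result (v w : ↥Cfsg.leechLattice) (hv : Cfsg.sqNorm (v : Cfsg.GolayPt → ℤ) = 64) (hw : Cfsg.sqNorm (w : Cfsg.GolayPt → ℤ) = 64) :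
    ∃ g : ↥Cfsg.Co0, ∃ z ∈ Cfsg.leechLattice, ((g • v : ↥Cfsg.leechLattice) : Cfsg.GolayPt → ℤ) - (w : Cfsg.GolayPt → ℤ) = 2 • z := by
  obtain ⟨g, z, hz, e⟩ := Cfsg.Agent.H14.exists_congr64 (Cfsg.Agent.H14.IsLeech.coe v) hv (Cfsg.Agent.H14.IsLeech.coe w) hw
  exact ⟨g, z, Cfsg.Agent.H14.mem_leechLattice_iff.2 hz, by rw [← Cfsg.Agent.H14.act_coe]; exact e⟩

end Cfsg.Agent.S5593
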