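import Cfsg.Statements.S5599
import Cfsg.Agent.H12.PairStab

set_option autoImplicit false
open scoped Pointwise
open Cfsg

namespace Cfsg.Agent.S5599

/-- In the automorphism group of the length-24 code, the two-point Mathieu group (permutations of the code's group fixing the extra point and the residue 0) has index 2 in the setwise stabiliser of that pair of points, and an element of the code's group interchanging the two points normalises the two-point group and induces on it, by conjugation, an automorphism that is not inner. -/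
theorem result (g : Equiv.Perm Cfsg.GolayPt) (hg : g ∈ Cfsg.M24) (h₁ : g none = some 0) (h₂ : g (some 0) = none) : Cfsg.Spor.M22.relIndex (Cfsg.M24 ⊓ MulAction.stabilizer (Equiv.Perm Cfsg.GolayPt) ({none, some 0} : Finset Cfsg.GolayPt)) = 2 ∧ (∀ x ∈ Cfsg.Spor.M22, g * x * g⁻¹ ∈ Cfsg.Spor.M22) ∧ ¬ ∃ h ∈ Cfsg.Spor.M22, ∀ x ∈ Cfsg.Spor.M22, g * x * g⁻¹ = h * x * h⁻¹ := by
  have hpair : g • ({none, some 0} : Finset Cfsg.GolayPt) = {none, some 0} := by
    rw [Finset.smul_finset_insert, Finset.smul_finset_singleton, Equiv.Perm.smul_def,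
      Equiv.Perm.smul_def, h₁, h₂, Finset.pair_comm]
  refine ⟨?_, ?_, ?_⟩
  · rw [Subgroup.relIndex, Subgroup.index_eq_two_iff]
    refine ⟨⟨g, hg, MulAction.mem_stabilizer_iff.mpr hpair⟩, fun b => ?_⟩
    simp only [Subgroup.mem_subgroupOf, Subgroup.coe_mul, H12.mem_M22_iff, Equiv.Perm.mul_apply,
      h₁, h₂]
    rcases H12.pair_cases (MulAction.mem_stabilizer_iff.mp b.2.2) with ⟨e₁, e₂⟩ | ⟨e₁, e₂⟩
    · refine Or.inr ⟨⟨b.2.1, e₁, e₂⟩, fun h => ?_⟩
      rw [e₂] at h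
      simp at h
    · refine Or.inl ⟨⟨Cfsg.M24.mul_mem b.2.1 hg, e₂, e₁⟩, fun h => ?_⟩
      rw [e₁] at h
      simp at h
  · intro x hx
    obtain ⟨hxm, x₁, x₂⟩ := H12.mem_M22_iff.mp hx
    refine H12.mem_M22_iff.mpr ⟨Cfsg.M24.mul_mem (Cfsg.M24.mul_mem hg hxm) (Cfsg.M24.inv_mem hg), ?_, ?_⟩
    · rw [Equiv.Perm.mul_apply, Equiv.Perm.mul_apply, Equiv.Perm.inv_eq_iff_eq.mpr h₂.symm, x₂, h₂]
    · rw [Equiv.Perm.mul_apply, Equiv.Perm.mul_apply, Equiv.Perm.inv_eq_iff_eq.mpr h₁.symm, x₁, h₁]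
  · rintro ⟨h, hh, hall⟩
    obtain ⟨hhm, e₁, e₂⟩ := H12.mem_M22_iff.mp hh
    have c₁ : (h⁻¹ * g) none = some 0 := by
      rw [Equiv.Perm.mul_apply, h₁, Equiv.Perm.inv_eq_iff_eq, e₂]
    have c₂ : (h⁻¹ * g) (some 0) = none := by
      rw [Equiv.Perm.mul_apply, h₂, Equiv.Perm.inv_eq_iff_eq, e₁]
    obtain ⟨x, hx, hne⟩ := H12.not_centralize_M22 (Cfsg.M24.mul_mem (Cfsg.M24.inv_mem hhm) hg) c₁ c₂
    apply hne
    have := hall x hx
    calc h⁻¹ * g * x = h⁻¹ * (g * x * g⁻¹) * g := by group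
      _ = x * (h⁻¹ * g) := by rw [this]; group

end Cfsg.Agent.S5599
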