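import Cfsg.Statements.S5600
import Cfsg.Agent.H12.SixSets

set_option autoImplicit false
open scoped Pointwise
open Cfsg

namespace Cfsg.Agent.S5600

/-- Although the group of the length-24 code is only 5-transitive on the 24 points, it induces the full symmetric group on every 6-element subset: every permutation of a 6-set E is the restriction of an element of the group mapping E to itself. The pointwise stabiliser of E has order 16 when E lies in an octad and order 3 otherwise; in the latter case the setwise stabiliser of E has order 2160. -/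
theorem result (E : Finset Cfsg.GolayPt) (hE : E.card = 6) : (∀ σ : Equiv.Perm ↥E, ∃ g ∈ Cfsg.M24, ∀ p : ↥E, g p = σ p) ∧ ((∃ o ∈ Cfsg.octads, E ⊆ o) → Nat.card {g : Equiv.Perm Cfsg.GolayPt // g ∈ Cfsg.M24 ∧ ∀ p ∈ E, g p = p} = 16) ∧ ((¬ ∃ o ∈ Cfsg.octads, E ⊆ o) → Nat.card {g : Equiv.Perm Cfsg.GolayPt // g ∈ Cfsg.M24 ∧ ∀ p ∈ E, g p = p} = 3 ∧ Nat.card ↥(MulAction.stabilizer Cfsg.M24 E) = 2160) := by
  obtain ⟨x, hx, k, hk, rfl⟩ := H12.exists_sixBase hE
  have hx24 : x < 24 := by omega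
  have hoct : (∃ o ∈ Cfsg.octads, k • H12.sixBase x ⊆ o) ↔ x = 7 := by
    rw [← H12.sixBase_octad hx]
    constructor
    · rintro ⟨o, ho, hsub⟩
      exact ⟨k⁻¹ • o, (H12.smul_mem_octads (Cfsg.M24.inv_mem hk)).mpr ho,
        Finset.smul_finset_subset_iff.mp hsub⟩
    · rintro ⟨o, ho, hsub⟩
      exact ⟨k • o, (H12.smul_mem_octads hk).mpr ho, Finset.smul_finset_subset_smul_finset hsub⟩
  refine ⟨H12.sixArrange_smul hx hk, fun h => ?_, fun h => ?_⟩
  · rw [H12.card_fix_smul hx24 hk, hoct.mp h, H12.sixFix_lengths.1]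
  · have h5 : x = 5 := hx.resolve_left fun h7 => h (hoct.mpr h7)
    have hfix : Nat.card {g : Equiv.Perm Cfsg.GolayPt //
        g ∈ Cfsg.M24 ∧ ∀ p ∈ k • H12.sixBase x, g p = p} = 3 := by
      rw [H12.card_fix_smul hx24 hk, h5, H12.sixFix_lengths.2]
    refine ⟨hfix, ?_⟩
    rw [H11.card_stabilizer_eq_card_inf]
    set φ := H11.restrictHom (k • H12.sixBase x)
    have hsurj : φ.range = ⊤ := by
      rw [MonoidHom.range_eq_top]
      intro σ
      obtain ⟨g, hg, hgσ⟩ := H12.sixArrange_smul hx hk σ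
      have hstab : g • (k • H12.sixBase x) = k • H12.sixBase x := by
        refine Finset.eq_of_subset_of_card_le (fun q hq => ?_) (Finset.card_smul_finset g _).ge
        obtain ⟨p, hp, rfl⟩ := Finset.mem_smul_finset.mp hq
        rw [Equiv.Perm.smul_def, hgσ ⟨p, hp⟩]
        exact (σ ⟨p, hp⟩).2
      exact ⟨⟨g, hg, hstab⟩, Equiv.ext fun p => Subtype.ext (hgσ p)⟩
    have hker : Nat.card φ.ker = 3 := by
      rw [← hfix]
      refine Nat.card_congr ⟨fun g => ⟨g.1.1, ?_⟩, fun g => ⟨⟨g.1, g.2.1, ?_⟩, ?_⟩, fun g => rfl, fun g => rfl⟩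
      · exact H11.mem_fixM24.mp (H11.mem_ker_restrictHom.mp g.2)
      · exact H11.smul_eq_of_mem_fixM24 (H11.mem_fixM24.mpr g.2)
      · exact H11.mem_ker_restrictHom.mpr (H11.mem_fixM24.mpr g.2)
    have h1 := Subgroup.index_mul_card φ.ker
    rw [Subgroup.index_ker, hsurj, Subgroup.card_top, Nat.card_perm, Nat.card_eq_fintype_card,
      Fintype.card_coe, hE, hker] at h1
    exact h1.symm

end Cfsg.Agent.S5600
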