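import Cfsg.Statements.S5601
import Cfsg.Agent.H12.ClassReps

set_option autoImplicit false
open scoped Pointwise
open Cfsg

namespace Cfsg.Agent.S5601

/-- The group of the length-24 code has exactly two conjugacy classes of subgroups of order 3: a subgroup of order 3 fixes either exactly 6 of the 24 points or none of them, both cases occur, and two subgroups of order 3 with the same number of fixed points are conjugate. -/
theorem result : (∀ X : Subgroup ↥Cfsg.M24, Nat.card X = 3 → {p : Cfsg.GolayPt | ∀ x ∈ X, ((x : ↥Cfsg.M24) : Equiv.Perm Cfsg.GolayPt) p = p}.ncard = 6 ∨ {p : Cfsg.GolayPt | ∀ x ∈ X, ((x : ↥Cfsg.M24) : Equiv.Perm Cfsg.GolayPt) p = p}.ncard = 0) ∧ (∃ X : Subgroup ↥Cfsg.M24, Nat.card X = 3 ∧ {p : Cfsg.GolayPt | ∀ x ∈ X, ((x : ↥Cfsg.M24) : Equiv.Perm Cfsg.GolayPt) p = p}.ncard = 6) ∧ (∃ X : Subgroup ↥Cfsg.M24, Nat.card X = 3 ∧ {p : Cfsg.GolayPt | ∀ x ∈ X, ((x : ↥Cfsg.M24) : Equiv.Perm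 Cfsg.GolayPt) p = p}.ncard = 0) ∧ ∀ X Y : Subgroup ↥Cfsg.M24, Nat.card X = 3 → Nat.card Y = 3 → {p : Cfsg.GolayPt | ∀ x ∈ X, ((x : ↥Cfsg.M24) : Equiv.Perm Cfsg.GolayPt) p = p}.ncard = {p : Cfsg.GolayPt | ∀ x ∈ Y, ((x : ↥Cfsg.M24) : Equiv.Perm Cfsg.GolayPt) p = p}.ncard → ∃ k : ↥Cfsg.M24, MulAut.conj k • X = Y := by
  classical
  -- a subgroup of order 3 fixes what any of its non-trivial elements fixes
  have key : ∀ X : Subgroup ↥Cfsg.M24, Nat.card X = 3 → ∃ x : ↥Cfsg.M24,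
      orderOf (x : Equiv.Perm Cfsg.GolayPt) = 3 ∧ X = Subgroup.zpowers x ∧
      {p : Cfsg.GolayPt | ∀ y ∈ X, ((y : ↥Cfsg.M24) : Equiv.Perm Cfsg.GolayPt) p = p}.ncard
        = (H12.fixPts (x : Equiv.Perm Cfsg.GolayPt)).card := by
    intro X hX
    haveI := Fact.mk Nat.prime_three
    obtain ⟨x, hx⟩ := exists_prime_orderOf_dvd_card' (G := X) 3 (by rw [hX])
    have hox : orderOf ((x : ↥Cfsg.M24) : Equiv.Perm Cfsg.GolayPt) = 3 := by
      rw [Subgroup.orderOf_coe, Subgroup.orderOf_coe, hx]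
    have hXz : X = Subgroup.zpowers (x : ↥Cfsg.M24) := by
      refine (Subgroup.eq_of_le_of_card_ge (Subgroup.zpowers_le.mpr x.2) ?_).symm
      rw [Nat.card_zpowers, Subgroup.orderOf_coe, hx, hX]
    refine ⟨x, hox, hXz, ?_⟩
    rw [← Set.ncard_coe_finset]
    congr 1
    ext p
    simp only [Set.mem_ofPred_eq, H12.fixPts, Finset.coe_filter, Finset.mem_univ, true_and]
    refine ⟨fun h => h _ x.2, fun h y hy => ?_⟩
    rw [hXz, Subgroup.mem_zpowers_iff] at hy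
    obtain ⟨m, rfl⟩ := hy
    rw [Subgroup.coe_zpow]
    exact Equiv.Perm.zpow_apply_eq_self_of_apply_eq_self h m
  have ex : ∀ P n, H12.isPerm P = true ∧ H12.permOf P ∈ Cfsg.M24 →
      orderOf (H12.permOf P) = 3 → (H12.fixPts (H12.permOf P)).card = n →
      ∃ X : Subgroup ↥Cfsg.M24, Nat.card X = 3 ∧
        {p : Cfsg.GolayPt | ∀ x ∈ X, ((x : ↥Cfsg.M24) : Equiv.Perm Cfsg.GolayPt) p = p}.ncard = n := by
    intro P n hP hord hn
    let x : ↥Cfsg.M24 := ⟨H12.permOf P, hP.2⟩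
    refine ⟨Subgroup.zpowers x, ?_, ?_⟩
    · rw [Nat.card_zpowers, ← Subgroup.orderOf_coe]
      exact hord
    · rw [← hn, ← Set.ncard_coe_finset]
      congr 1
      ext p
      simp only [Set.mem_ofPred_eq, H12.fixPts, Finset.coe_filter, Finset.mem_univ, true_and]
      refine ⟨fun h => h x (Subgroup.mem_zpowers x), fun h y hy => ?_⟩
      obtain ⟨m, rfl⟩ := Subgroup.mem_zpowers_iff.mp hy
      rw [Subgroup.coe_zpow]
      exact Equiv.Perm.zpow_apply_eq_self_of_apply_eq_self h m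
  refine ⟨?_, ex H12.rep3A 6 (H12.rep_ok _ (by simp)) H12.rep_order.2.2.1 H12.rep_fix_card.2.2.1,
    ex H12.rep3B 0 (H12.rep_ok _ (by simp)) H12.rep_order.2.2.2 H12.rep_fix_card.2.2.2, ?_⟩
  · intro X hX
    obtain ⟨x, hox, -, hn⟩ := key X hX
    rw [hn]
    rcases H12.order_three_cases x.2 hox with ⟨h, -⟩ | ⟨h, -⟩
    · exact Or.inl h
    · exact Or.inr h
  · intro X Y hX hY he
    obtain ⟨x, hox, rfl, hnx⟩ := key X hX
    obtain ⟨y, hoy, rfl, hny⟩ := key Y hY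
    rw [hnx, hny] at he
    have fin : ∀ {P : Equiv.Perm Cfsg.GolayPt} {a b : Equiv.Perm Cfsg.GolayPt}, a ∈ Cfsg.M24 →
        b ∈ Cfsg.M24 → (x : Equiv.Perm Cfsg.GolayPt) = a * P * a⁻¹ →
        (y : Equiv.Perm Cfsg.GolayPt) = b * P * b⁻¹ →
        ∃ k : ↥Cfsg.M24, MulAut.conj k • Subgroup.zpowers x = Subgroup.zpowers y := by
      intro P a b ha hb hxe hye
      refine ⟨⟨b, hb⟩ * ⟨a, ha⟩⁻¹, ?_⟩
      have hk : MulAut.conj (⟨b, hb⟩ * ⟨a, ha⟩⁻¹ : ↥Cfsg.M24) x = y := by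
        apply Subtype.ext
        simp [hxe, hye, mul_assoc]
      show Subgroup.map (MulAut.conj (⟨b, hb⟩ * ⟨a, ha⟩⁻¹ : ↥Cfsg.M24)).toMonoidHom _ = _
      rw [MonoidHom.map_zpowers]
      exact congrArg Subgroup.zpowers hk
    rcases H12.order_three_cases x.2 hox with ⟨ex', a, ha, hxe⟩ | ⟨ex', a, ha, hxe⟩ <;>
      rcases H12.order_three_cases y.2 hoy with ⟨ey, b, hb, hye⟩ | ⟨ey, b, hb, hye⟩
    · exact fin ha hb hxe hye
    · omega
    · omega
    · exact fin ha hb hxe hye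

end Cfsg.Agent.S5601
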