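import Cfsg.Statements.S5602
import Cfsg.Agent.H12.ClassReps

set_option autoImplicit false
open scoped Pointwise
open Cfsg

namespace Cfsg.Agent.S5602

/-- An element of order 3 of the group of the length-24 code having exactly 6 fixed points maps to themselves exactly 21 octads, exactly 15 trios, exactly 16 sextets and exactly 20 dodecads. -/
theorem result (g : Equiv.Perm Cfsg.GolayPt) (hg : g ∈ Cfsg.M24) (h₃ : orderOf g = 3) (h₆ : (Finset.univ.filter fun p => g p = p).card = 6) : {o : Finset Cfsg.GolayPt | o ∈ Cfsg.octads ∧ g • o = o}.ncard = 21 ∧ {T : Finset (Finset Cfsg.GolayPt) | T ∈ Cfsg.trios ∧ g • T = T}.ncard = 15 ∧ {S : Finset (Finset Cfsg.GolayPt) | S ∈ Cfsg.sextets ∧ g • S = S}.ncard = 16 ∧ {d : Finset Cfsg.GolayPt | d ∈ Cfsg.dodecads ∧ g • d = d}.ncard = 20 := by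
  obtain ⟨k, hk, rfl⟩ : ∃ k ∈ Cfsg.M24, g = k * H12.permOf H12.rep3A * k⁻¹ := by
    rcases H12.order_three_cases hg h₃ with ⟨-, h⟩ | ⟨h, -⟩
    · exact h
    · exact absurd (h.symm.trans h₆) (by norm_num)
  have hT : H12.genOK (H12.rep3A, H12.rep3ATbl) = true := by decide +kernel
  refine ⟨?_, ?_, ?_, ?_⟩
  · rw [H12.fixed_ncard_conj (fun g hg x hx => (H12.smul_mem_octads hg).mpr hx) hk]
    exact H12.fixed_ncard_of_check H12.octads_eq (by norm_num) H12.octSet_injOn
      (fun _ hi => H12.octImg_iff hT hi) (by decide +kernel)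
  · rw [H12.fixed_ncard_conj (fun g hg x hx => H12.smul_mem_trios hg hx) hk]
    exact H12.fixed_ncard_of_check H12.trios_eq (by norm_num) H12.trioSet_injOn
      (fun _ hi => H12.trioImg_iff hT hi) (by decide +kernel)
  · rw [H12.fixed_ncard_conj (fun g hg x hx => H12.smul_mem_sextets hg hx) hk]
    exact H12.fixed_ncard_of_check H12.sextets_eq (by norm_num) H12.sextSet_injOn
      (fun _ hi => H12.sextImg_iff hT hi) (by decide +kernel)
  · rw [H12.fixed_ncard_conj (fun g hg x hx => (H12.smul_mem_dodecads hg).mpr hx) hk]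
    exact H12.fixed_ncard_of_check H12.dodecads_eq (by norm_num) H12.dodSet_injOn
      (fun _ hi => H12.dodImg_iff hT hi) (by decide +kernel)

end Cfsg.Agent.S5602
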