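import Cfsg.Statements.S5603
import Cfsg.Agent.H12.ClassReps

set_option autoImplicit false
open scoped Pointwise
open Cfsg

namespace Cfsg.Agent.S5603

/-- A fixed-point-free element of order 3 of the group of the length-24 code maps to themselves exactly 7 sextets and exactly 15 trios. -/
theorem result (g : Equiv.Perm Cfsg.GolayPt) (hg : g ∈ Cfsg.M24) (h₃ : orderOf g = 3) (h₀ : ∀ p, g p ≠ p) : {S : Finset (Finset Cfsg.GolayPt) | S ∈ Cfsg.sextets ∧ g • S = S}.ncard = 7 ∧ {T : Finset (Finset Cfsg.GolayPt) | T ∈ Cfsg.trios ∧ g • T = T}.ncard = 15 := by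
  obtain ⟨k, hk, rfl⟩ : ∃ k ∈ Cfsg.M24, g = k * H12.permOf H12.rep3B * k⁻¹ := by
    rcases H12.order_three_cases hg h₃ with ⟨h, -⟩ | ⟨-, h⟩
    · rw [show H12.fixPts g = ∅ by simp [H12.fixPts, Finset.filter_eq_empty_iff, h₀]] at h
      simp at h
    · exact h
  have hT : H12.genOK (H12.rep3B, H12.rep3BTbl) = true := by decide +kernel
  refine ⟨?_, ?_⟩
  · rw [H12.fixed_ncard_conj (fun g hg x hx => H12.smul_mem_sextets hg hx) hk]
    exact H12.fixed_ncard_of_check H12.sextets_eq (by norm_num) H12.sextSet_injOn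
      (fun _ hi => H12.sextImg_iff hT hi) (by decide +kernel)
  · rw [H12.fixed_ncard_conj (fun g hg x hx => H12.smul_mem_trios hg hx) hk]
    exact H12.fixed_ncard_of_check H12.trios_eq (by norm_num) H12.trioSet_injOn
      (fun _ hi => H12.trioImg_iff hT hi) (by decide +kernel)

end Cfsg.Agent.S5603
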