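import Cfsg.Statements.S5604
import Cfsg.Agent.H12.Seven

set_option autoImplicit false
open scoped Pointwise
open Cfsg

namespace Cfsg.Agent.S5604

/-- For a subgroup S of order 7 of the group of the length-24 code (a Sylow 7-subgroup): the normaliser of S has order 126, the centraliser of S has order 42 and is non-abelian, and the whole normaliser leaves some trio invariant. (These are the orders of a Frobenius group of order 21 times a symmetric group of degree 3; the isomorphism type itself is not asserted here.) -/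
theorem result (S : Subgroup ↥Cfsg.M24) (hS : Nat.card S = 7) : Nat.card ↥(Subgroup.normalizer (S : Set ↥Cfsg.M24)) = 126 ∧ Nat.card ↥(Subgroup.centralizer (S : Set ↥Cfsg.M24)) = 42 ∧ (∃ x ∈ Subgroup.centralizer (S : Set ↥Cfsg.M24), ∃ y ∈ Subgroup.centralizer (S : Set ↥Cfsg.M24), x * y ≠ y * x) ∧ ∃ T ∈ Cfsg.trios, ∀ n ∈ Subgroup.normalizer (S : Set ↥Cfsg.M24), ((n : ↥Cfsg.M24) : Equiv.Perm Cfsg.GolayPt) • T = T := by
  classical
  haveI := Fact.mk (by norm_num : Nat.Prime 7)
  obtain ⟨x, hx⟩ := exists_prime_orderOf_dvd_card' (G := S) 7 (by rw [hS])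
  have hox : orderOf ((x : ↥Cfsg.M24) : Equiv.Perm Cfsg.GolayPt) = 7 := by
    rw [Subgroup.orderOf_coe, Subgroup.orderOf_coe, hx]
  have hSx : S = Subgroup.zpowers (x : ↥Cfsg.M24) := by
    refine (Subgroup.eq_of_le_of_card_ge (Subgroup.zpowers_le.mpr x.2) ?_).symm
    rw [Nat.card_zpowers, Subgroup.orderOf_coe, hx, hS]
  obtain ⟨k, hk, he⟩ := H12.order_seven_class x.1.2 hox
  set K : ↥Cfsg.M24 := ⟨k, hk⟩
  set e : ↥Cfsg.M24 ≃* ↥Cfsg.M24 := MulAut.conj K
  have hgen : ∃ y : ↥Cfsg.M24, Subgroup.zpowers y = Subgroup.zpowers H12.rep7 ∧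
      (x : ↥Cfsg.M24) = e y := by
    rcases he with he | he
    · exact ⟨H12.rep7, rfl, Subtype.ext (he.trans (by simp [e, K, H12.rep7]))⟩
    · refine ⟨⟨_, (H12.pow7_spec 5 (by norm_num)).1.2⟩, ?_, Subtype.ext (he.trans (by simp [e, K]))⟩
      refine Subgroup.eq_of_le_of_card_ge (Subgroup.zpowers_le.mpr ?_) ?_
      · exact H12.mem_zpowers_rep7.mpr (Or.inr ⟨5, by norm_num, rfl⟩)
      · rw [Nat.card_zpowers, Nat.card_zpowers, H12.orderOf_rep7, ← Subgroup.orderOf_coe]
        show 7 ≤ orderOf (H12.permOf (H12.pow7 5))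
        rw [(H12.pow7_spec 5 (by norm_num)).2,
          Nat.Coprime.orderOf_pow (by rw [H12.rep7_order]; norm_num), H12.rep7_order]
  obtain ⟨y, hy, hxy⟩ := hgen
  have hSm : S = (Subgroup.zpowers H12.rep7).map e.toMonoidHom := by
    rw [← hy, MonoidHom.map_zpowers, hSx, hxy]
    rfl
  subst hSm
  obtain ⟨h1, h2, ⟨a, ha, b, hb, hab⟩, h4⟩ := H12.seven_base
  have hN : Subgroup.normalizer (((Subgroup.zpowers H12.rep7).map e.toMonoidHom :
      Subgroup ↥Cfsg.M24) : Set ↥Cfsg.M24) =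
      (Subgroup.normalizer ((Subgroup.zpowers H12.rep7 : Subgroup ↥Cfsg.M24) : Set ↥Cfsg.M24)).map
        e.toMonoidHom :=
    (Subgroup.map_equiv_normalizer_eq _ e).symm
  have hC : Subgroup.centralizer (((Subgroup.zpowers H12.rep7).map e.toMonoidHom :
      Subgroup ↥Cfsg.M24) : Set ↥Cfsg.M24) =
      (Subgroup.centralizer ((Subgroup.zpowers H12.rep7 : Subgroup ↥Cfsg.M24) : Set ↥Cfsg.M24)).map
        e.toMonoidHom := by
    ext c
    rw [Subgroup.mem_map_equiv, Subgroup.mem_centralizer_iff, Subgroup.mem_centralizer_iff]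
    constructor
    · intro h z hz
      apply e.injective
      simpa using h (e z) (Subgroup.mem_map_of_mem _ hz)
    · rintro h _ ⟨z, hz, rfl⟩
      have := congrArg e (h z hz)
      simpa using this
  rw [hN, hC]
  refine ⟨?_, ?_, ⟨e a, Subgroup.mem_map_of_mem _ ha, e b, Subgroup.mem_map_of_mem _ hb,
    fun h => hab (e.injective (by simpa using h))⟩, k • H12.trioSet 4,
    H12.smul_mem_trios hk (H12.trioSet_mem (by norm_num)), ?_⟩
  · rw [Subgroup.card_map_of_injective e.injective, h1]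
  · rw [Subgroup.card_map_of_injective e.injective, h2]
  · rintro _ ⟨n, hn, rfl⟩
    show (k * (n : Equiv.Perm Cfsg.GolayPt) * k⁻¹) • k • H12.trioSet 4 = _
    rw [mul_smul, mul_smul, inv_smul_smul, h4 n hn]

end Cfsg.Agent.S5604
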