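import Cfsg.Statements.S5605
import Cfsg.Agent.H12.ClassReps

set_option autoImplicit false
open scoped Pointwise
open Cfsg

namespace Cfsg.Agent.S5605

/-- An involution of the group of the length-24 code with exactly 8 fixed points maps to themselves exactly 71 octads, exactly 99 trios and exactly 91 sextets. -/
theorem result (g : Equiv.Perm Cfsg.GolayPt) (hg : g ∈ Cfsg.M24) (h₂ : orderOf g = 2) (h₈ : (Finset.univ.filter fun p => g p = p).card = 8) : {o : Finset Cfsg.GolayPt | o ∈ Cfsg.octads ∧ g • o = o}.ncard = 71 ∧ {T : Finset (Finset Cfsg.GolayPt) | T ∈ Cfsg.trios ∧ g • T = T}.ncard = 99 ∧ {S : Finset (Finset Cfsg.GolayPt) | S ∈ Cfsg.sextets ∧ g • S = S}.ncard = 91 := by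
  obtain ⟨k, hk, rfl⟩ : ∃ k ∈ Cfsg.M24, g = k * H12.permOf H12.rep2A * k⁻¹ := by
    rcases H12.involution_cases hg h₂ with ⟨-, h⟩ | ⟨h, -⟩
    · exact h
    · rw [H12.fixPts] at h
      rw [h] at h₈
      simp at h₈
  have hT : H12.genOK (H12.rep2A, H12.rep2ATbl) = true := by decide +kernel
  refine ⟨?_, ?_, ?_⟩
  · rw [H12.fixed_ncard_conj (fun g hg x hx => (H12.smul_mem_octads hg).mpr hx) hk]
    exact H12.fixed_ncard_of_check H12.octads_eq (by norm_num) H12.octSet_injOn
      (fun _ hi => H12.octImg_iff hT hi) (by decide +kernel)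
  · rw [H12.fixed_ncard_conj (fun g hg x hx => H12.smul_mem_trios hg hx) hk]
    exact H12.fixed_ncard_of_check H12.trios_eq (by norm_num) H12.trioSet_injOn
      (fun _ hi => H12.trioImg_iff hT hi) (by decide +kernel)
  · rw [H12.fixed_ncard_conj (fun g hg x hx => H12.smul_mem_sextets hg hx) hk]
    exact H12.fixed_ncard_of_check H12.sextets_eq (by norm_num) H12.sextSet_injOn
      (fun _ hi => H12.sextImg_iff hT hi) (by decide +kernel)

end Cfsg.Agent.S5605
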