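import Cfsg.Statements.S5607
import Cfsg.Agent.H12.Centralizers

set_option autoImplicit false
open scoped Pointwise
open Cfsg

namespace Cfsg.Agent.S5607

/-- For a fixed-point-free involution t of the group of the length-24 code: its centraliser in that group has order 7680, is transitive on the 24 points, and is contained, together with t, in the stabiliser of some sextet. -/
theorem result (t : Equiv.Perm Cfsg.GolayPt) (ht : t ∈ Cfsg.M24) (h₂ : orderOf t = 2) (h₀ : ∀ p, t p ≠ p) : Nat.card {c : Equiv.Perm Cfsg.GolayPt // c ∈ Cfsg.M24 ∧ c * t = t * c} = 7680 ∧ (∀ p q : Cfsg.GolayPt, ∃ c ∈ Cfsg.M24, c * t = t * c ∧ c p = q) ∧ ∃ S ∈ Cfsg.sextets, t • S = S ∧ ∀ c ∈ Cfsg.M24, c * t = t * c → c • S = S := by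
  obtain ⟨k, hk, rfl⟩ : ∃ k ∈ Cfsg.M24, t = k * H12.permOf H12.rep2B * k⁻¹ := by
    rcases H12.involution_cases ht h₂ with ⟨h, -⟩ | ⟨-, h⟩
    · have h8 := h.2
      rw [show H12.fixPts t = ∅ by simp [H12.fixPts, h₀]] at h8
      simp at h8
    · exact h
  set r := H12.permOf H12.rep2B with hr
  have hto : ∀ {c}, c * r = r * c → (k * c * k⁻¹) * (k * r * k⁻¹) = (k * r * k⁻¹) * (k * c * k⁻¹) := by
    intro c h
    calc (k * c * k⁻¹) * (k * r * k⁻¹) = k * (c * r) * k⁻¹ := by group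
      _ = k * (r * c) * k⁻¹ := by rw [h]
      _ = (k * r * k⁻¹) * (k * c * k⁻¹) := by group
  have hfrom : ∀ {c}, c * (k * r * k⁻¹) = (k * r * k⁻¹) * c → (k⁻¹ * c * k) * r = r * (k⁻¹ * c * k) := by
    intro c h
    calc (k⁻¹ * c * k) * r = k⁻¹ * (c * (k * r * k⁻¹)) * k := by group
      _ = k⁻¹ * ((k * r * k⁻¹) * c) * k := by rw [h]
      _ = r * (k⁻¹ * c * k) := by group
  have hin : ∀ {c}, c ∈ Cfsg.M24 → k * c * k⁻¹ ∈ Cfsg.M24 :=
    fun hc => Cfsg.M24.mul_mem (Cfsg.M24.mul_mem hk hc) (Cfsg.M24.inv_mem hk)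
  have hout : ∀ {c}, c ∈ Cfsg.M24 → k⁻¹ * c * k ∈ Cfsg.M24 :=
    fun hc => Cfsg.M24.mul_mem (Cfsg.M24.mul_mem (Cfsg.M24.inv_mem hk) hc) hk
  refine ⟨?_, ?_, k • H12.sextSet 1035, H12.smul_mem_sextets hk (H12.sextSet_mem (by norm_num)), ?_, ?_⟩
  · rw [← H12.card_cent2B]
    refine Nat.card_congr ⟨fun c => ⟨k⁻¹ * c.1 * k, hout c.2.1, hfrom c.2.2⟩,
      fun c => ⟨k * c.1 * k⁻¹, hin c.2.1, hto c.2.2⟩, fun c => Subtype.ext ?_, fun c => Subtype.ext ?_⟩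
    · show k * (k⁻¹ * c.1 * k) * k⁻¹ = c.1
      group
    · show k⁻¹ * (k * c.1 * k⁻¹) * k = c.1
      group
  · intro p q
    obtain ⟨a, ha, hac, hap⟩ := H12.exists_cent2B_move (k⁻¹ p)
    obtain ⟨b, hb, hbc, hbq⟩ := H12.exists_cent2B_move (k⁻¹ q)
    have hba : (b * a⁻¹) * r = r * (b * a⁻¹) := by
      have hai : a⁻¹ * r = r * a⁻¹ := (Commute.inv_left (show Commute a r from hac)).eq
      rw [mul_assoc, hai, ← mul_assoc, hbc, mul_assoc]
    refine ⟨k * (b * a⁻¹) * k⁻¹, hin (Cfsg.M24.mul_mem hb (Cfsg.M24.inv_mem ha)), hto hba, ?_⟩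
    rw [Equiv.Perm.mul_apply, Equiv.Perm.mul_apply, Equiv.Perm.mul_apply,
      Equiv.Perm.inv_eq_iff_eq.mpr hap.symm, hbq]
    simp
  · rw [mul_smul, mul_smul, inv_smul_smul, H12.rep2B_fixes_sextet]
  · intro c hc hcc
    have := H12.cent2B_fixes_sextet (hout hc) (hfrom hcc)
    rw [mul_smul, mul_smul, inv_smul_eq_iff] at this
    exact this

end Cfsg.Agent.S5607
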