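import Cfsg.Statements.S5608
import Cfsg.Agent.H12.Centralizers

set_option autoImplicit false
open scoped Pointwise
open Cfsg

namespace Cfsg.Agent.S5608

/-- If an element of order 3 and an involution of the group of the length-24 code commute, then either the element of order 3 has exactly 6 fixed points and the involution exactly 8, or both are fixed-point-free. -/
theorem result (x s : Equiv.Perm Cfsg.GolayPt) (hx : x ∈ Cfsg.M24) (hs : s ∈ Cfsg.M24) (h₃ : orderOf x = 3) (h₂ : orderOf s = 2) (hc : Commute x s) : ((Finset.univ.filter fun p => x p = p).card = 6 ∧ (Finset.univ.filter fun p => s p = p).card = 8) ∨ ((Finset.univ.filter fun p => x p = p).card = 0 ∧ (Finset.univ.filter fun p => s p = p).card = 0) := by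
  exact H12.commuting_three_two hx hs h₃ h₂ hc

end Cfsg.Agent.S5608
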