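import Cfsg.Statements.S5609
import Cfsg.Agent.H12.StabOctOct

set_option autoImplicit false
open scoped Pointwise
open Cfsg

namespace Cfsg.Agent.S5609

/-- In the graph on the 759 octads of the length-24 code in which two octads are adjacent when they are disjoint, the graph is connected (of diameter 3) and two distinct octads are at distance 1, 2 or 3 exactly when they meet in 0, 4 or 2 points respectively. -/
theorem result (o o' : Finset Cfsg.GolayPt) (ho : o ∈ Cfsg.octads) (ho' : o' ∈ Cfsg.octads) (hne : o ≠ o') : (Cfsg.blockGraph Cfsg.octads).Connected ∧ ((Cfsg.blockGraph Cfsg.octads).dist ⟨o, ho⟩ ⟨o', ho'⟩ = 1 ↔ (o ∩ o').card = 0) ∧ ((Cfsg.blockGraph Cfsg.octads).dist ⟨o, ho⟩ ⟨o', ho'⟩ = 2 ↔ (o ∩ o').card = 4) ∧ ((Cfsg.blockGraph Cfsg.octads).dist ⟨o, ho⟩ ⟨o', ho'⟩ = 3 ↔ (o ∩ o').card = 2) := by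
  set G := Cfsg.blockGraph Cfsg.octads with hG
  have hadj : ∀ a b : Cfsg.octads, G.Adj a b ↔ (a.1 ∩ b.1).card = 0 := by
    intro a b
    rw [hG, Cfsg.blockGraph, SimpleGraph.fromRel_adj, disjoint_comm (a := b.1), or_self,
      Finset.disjoint_iff_inter_eq_empty, ← Finset.card_eq_zero]
    refine ⟨fun h => h.2, fun h => ⟨fun e => ?_, h⟩⟩
    have h8 := b.2.2
    rw [e, Finset.inter_self] at h
    omega
  have step2 : ∀ a b : Cfsg.octads, (a.1 ∩ b.1).card = 4 → ∃ w : G.Walk a b, w.length = 2 := by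
    intro a b h
    obtain ⟨k, hk, k1, k2⟩ := (H12.octad_paths a.2 b.2).1 h
    rw [Finset.disjoint_iff_inter_eq_empty, ← Finset.card_eq_zero] at k1 k2
    exact ⟨.cons ((hadj a ⟨k, hk⟩).mpr k1) (.cons ((hadj ⟨k, hk⟩ b).mpr k2) .nil), rfl⟩
  have step3 : ∀ a b : Cfsg.octads, (a.1 ∩ b.1).card = 2 → ∃ w : G.Walk a b, w.length = 3 := by
    intro a b h
    obtain ⟨k, hk, k1, k2⟩ := ((H12.octad_paths a.2 b.2).2 h).2
    rw [Finset.disjoint_iff_inter_eq_empty, ← Finset.card_eq_zero] at k1
    obtain ⟨w, hw⟩ := step2 a ⟨k, hk⟩ k2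
    exact ⟨w.append (.cons ((hadj ⟨k, hk⟩ b).mpr k1) .nil), by simp [hw]⟩
  have conn : ∀ a b : Cfsg.octads, G.Reachable a b := by
    intro a b
    rcases H12.octad_meet_cases a.2 b.2 with h | h | h | h
    · have : a = b := Subtype.ext (H12.octad_unique a.2 b.2 (by omega))
      rw [this]
    · exact ⟨(step2 a b h).choose⟩
    · exact ⟨(step3 a b h).choose⟩
    · exact ⟨.cons ((hadj a b).mpr h) .nil⟩
  set a : Cfsg.octads := ⟨o, ho⟩
  set b : Cfsg.octads := ⟨o', ho'⟩
  haveI : Nonempty Cfsg.octads := ⟨a⟩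
  have hab : a ≠ b := fun e => hne (congrArg Subtype.val e)
  have d1 : G.dist a b = 1 ↔ (o ∩ o').card = 0 := by
    rw [SimpleGraph.dist_eq_one_iff_adj, hadj]
  have hne0 : G.dist a b ≠ 0 := fun e => hab ((conn a b).dist_eq_zero_iff.mp e)
  have h8 : (o ∩ o').card ≠ 8 := fun h => hne (H12.octad_unique ho ho' (by omega))
  have d4 : (o ∩ o').card = 4 → G.dist a b = 2 := by
    intro h
    obtain ⟨w, hw⟩ := step2 a b h
    have := SimpleGraph.dist_le w
    have : G.dist a b ≠ 1 := fun e => by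
      have := d1.mp e
      omega
    omega
  have d2 : (o ∩ o').card = 2 → G.dist a b = 3 := by
    intro h
    obtain ⟨w, hw⟩ := step3 a b h
    have := SimpleGraph.dist_le w
    have h1 : G.dist a b ≠ 1 := fun e => by
      have := d1.mp e
      omega
    have h2 : G.dist a b ≠ 2 := by
      intro e
      obtain ⟨w', hw'⟩ := (conn a b).exists_walk_length_eq_dist
      rw [e] at hw'
      have ha' := w'.adj_getVert_succ (i := 0) (by omega)
      have hb' := w'.adj_getVert_succ (i := 1) (by omega)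
      rw [SimpleGraph.Walk.getVert_zero] at ha'
      rw [show 1 + 1 = w'.length by omega, SimpleGraph.Walk.getVert_length] at hb'
      refine ((H12.octad_paths ho ho').2 h).1 ⟨_, (w'.getVert 1).2, ?_, ?_⟩
      · rw [Finset.disjoint_iff_inter_eq_empty, ← Finset.card_eq_zero]
        exact (hadj _ _).mp ha'
      · rw [Finset.disjoint_iff_inter_eq_empty, ← Finset.card_eq_zero]
        exact (hadj _ _).mp hb'
    omega
  refine ⟨⟨conn⟩, d1, ?_, ?_⟩
  · refine ⟨fun e => ?_, d4⟩
    rcases H12.octad_meet_cases ho ho' with h | h | h | h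
    · exact absurd h h8
    · exact h
    · have := d2 h; omega
    · have := d1.mpr h; omega
  · refine ⟨fun e => ?_, d2⟩
    rcases H12.octad_meet_cases ho ho' with h | h | h | h
    · exact absurd h h8
    · have := d4 h; omega
    · exact h
    · have := d1.mpr h; omega

end Cfsg.Agent.S5609
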