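import Cfsg.Statements.S5610
import Cfsg.Agent.H12.StabOctTrio
import Cfsg.Agent.H12.StabOctSext

set_option autoImplicit false
open scoped Pointwise
open Cfsg

namespace Cfsg.Agent.S5610

/-- The stabiliser of an octad in the group of the length-24 code has exactly three orbits on the 3795 trios, of sizes 15, 420 and 3360, and exactly three orbits on the 1771 sextets, of sizes 35, 840 and 896. -/
theorem result (o : Finset Cfsg.GolayPt) (ho : o ∈ Cfsg.octads) : (∃ X₁ ∈ Cfsg.trios, ∃ X₂ ∈ Cfsg.trios, ∃ X₃ ∈ Cfsg.trios, (MulAction.orbit ↥(MulAction.stabilizer Cfsg.M24 o) X₁).ncard = 15 ∧ (MulAction.orbit ↥(MulAction.stabilizer Cfsg.M24 o) X₂).ncard = 420 ∧ (MulAction.orbit ↥(MulAction.stabilizer Cfsg.M24 o) X₃).ncard = 3360 ∧ Cfsg.trios = MulAction.orbit ↥(MulAction.stabilizer Cfsg.M24 o) X₁ ∪ MulAction.orbit ↥(MulAction.stabilizer Cfsg.M24 o)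 X₂ ∪ MulAction.orbit ↥(MulAction.stabilizer Cfsg.M24 o) X₃) ∧ (∃ Y₁ ∈ Cfsg.sextets, ∃ Y₂ ∈ Cfsg.sextets, ∃ Y₃ ∈ Cfsg.sextets, (MulAction.orbit ↥(MulAction.stabilizer Cfsg.M24 o) Y₁).ncard = 35 ∧ (MulAction.orbit ↥(MulAction.stabilizer Cfsg.M24 o) Y₂).ncard = 840 ∧ (MulAction.orbit ↥(MulAction.stabilizer Cfsg.M24 o) Y₃).ncard = 896 ∧ Cfsg.sextets = MulAction.orbit ↥(MulAction.stabilizer Cfsg.M24 o) Y₁ ∪ MulAction.orbit ↥(MulAction.stabilizer Cfsg.M24 o) Y₂ ∪ MulAction.orbit ↥(MulAction.stabilizer Cfsg.M24 o) Y₃) := by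
  obtain ⟨g, rfl⟩ := H12.exists_octad ho
  refine ⟨?_, ?_⟩
  · obtain ⟨⟨X0, hX0, e0, c0⟩, ⟨X1, hX1, e1, c1⟩, ⟨X2, hX2, e2, c2⟩, hu⟩ := H12.stabOctTrio_orbits g
    refine ⟨X0, hX0, X1, hX1, X2, hX2, by rw [e0, c0], by rw [e1, c1], by rw [e2, c2], ?_⟩
    rw [e0, e1, e2]
    exact hu
  · obtain ⟨⟨X0, hX0, e0, c0⟩, ⟨X1, hX1, e1, c1⟩, ⟨X2, hX2, e2, c2⟩, hu⟩ := H12.stabOctSext_orbits g
    refine ⟨X0, hX0, X1, hX1, X2, hX2, by rw [e0, c0], by rw [e1, c1], by rw [e2, c2], ?_⟩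
    rw [e0, e1, e2]
    exact hu


end Cfsg.Agent.S5610
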