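import Cfsg.Statements.S5611
import Cfsg.Agent.H12.StabSextOct
import Cfsg.Agent.H12.StabSextTrio

set_option autoImplicit false
open scoped Pointwise
open Cfsg

namespace Cfsg.Agent.S5611

/-- The stabiliser of a sextet in the group of the length-24 code has exactly three orbits on the 759 octads, of sizes 15, 360 and 384, and exactly four orbits on the 3795 trios, of sizes 15, 180, 720 and 2880. -/
theorem result (S : Finset (Finset Cfsg.GolayPt)) (hS : S ∈ Cfsg.sextets) : (∃ X₁ ∈ Cfsg.octads, ∃ X₂ ∈ Cfsg.octads, ∃ X₃ ∈ Cfsg.octads, (MulAction.orbit ↥(MulAction.stabilizer Cfsg.M24 S) X₁).ncard = 15 ∧ (MulAction.orbit ↥(MulAction.stabilizer Cfsg.M24 S) X₂).ncard = 360 ∧ (MulAction.orbit ↥(MulAction.stabilizer Cfsg.M24 S) X₃).ncard = 384 ∧ Cfsg.octads = MulAction.orbit ↥(MulAction.stabilizer Cfsg.M24 S) X₁ ∪ MulAction.orbit ↥(MulAction.stabilizer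 Cfsg.M24 S) X₂ ∪ MulAction.orbit ↥(MulAction.stabilizer Cfsg.M24 S) X₃) ∧ (∃ Y₁ ∈ Cfsg.trios, ∃ Y₂ ∈ Cfsg.trios, ∃ Y₃ ∈ Cfsg.trios, ∃ Y₄ ∈ Cfsg.trios, (MulAction.orbit ↥(MulAction.stabilizer Cfsg.M24 S) Y₁).ncard = 15 ∧ (MulAction.orbit ↥(MulAction.stabilizer Cfsg.M24 S) Y₂).ncard = 180 ∧ (MulAction.orbit ↥(MulAction.stabilizer Cfsg.M24 S) Y₃).ncard = 720 ∧ (MulAction.orbit ↥(MulAction.stabilizer Cfsg.M24 S) Y₄).ncard = 2880 ∧ Cfsg.trios = MulAction.orbit ↥(MulAction.stabilizer Cfsg.M24 S) Y₁ ∪ MulAction.orbit ↥(MulAction.stabilizer Cfsg.M24 S) Y₂ ∪ MulAction.orbit ↥(MulAction.stabilizer Cfsg.M24 S) Y₃ ∪ MulAction.orbit ↥(MulAction.stabilizer Cfsg.M24 S) Y₄) := by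
  obtain ⟨g, rfl⟩ := H12.exists_sextet hS
  refine ⟨?_, ?_⟩
  · obtain ⟨⟨X0, hX0, e0, c0⟩, ⟨X1, hX1, e1, c1⟩, ⟨X2, hX2, e2, c2⟩, hu⟩ := H12.stabSextOct_orbits g
    refine ⟨X0, hX0, X1, hX1, X2, hX2, by rw [e0, c0], by rw [e1, c1], by rw [e2, c2], ?_⟩
    rw [e0, e1, e2]
    exact hu
  · obtain ⟨⟨X0, hX0, e0, c0⟩, ⟨X1, hX1, e1, c1⟩, ⟨X2, hX2, e2, c2⟩, ⟨X3, hX3, e3, c3⟩, hu⟩ := H12.stabSextTrio_orbits g
    refine ⟨X0, hX0, X1, hX1, X2, hX2, X3, hX3, by rw [e0, c0], by rw [e1, c1], by rw [e2, c2], by rw [e3, c3], ?_⟩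
    rw [e0, e1, e2, e3]
    exact hu


end Cfsg.Agent.S5611
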