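import Cfsg.Statements.S5612
import Cfsg.Agent.H12.StabTrioOct
import Cfsg.Agent.H12.StabTrioSext

set_option autoImplicit false
open scoped Pointwise
open Cfsg

namespace Cfsg.Agent.S5612

/-- The stabiliser of a trio in the group of the length-24 code has exactly three orbits on the 759 octads, of sizes 3, 84 and 672, and exactly four orbits on the 1771 sextets, of sizes 7, 84, 336 and 1344. -/
theorem result (T : Finset (Finset Cfsg.GolayPt)) (hT : T ∈ Cfsg.trios) : (∃ X₁ ∈ Cfsg.octads, ∃ X₂ ∈ Cfsg.octads, ∃ X₃ ∈ Cfsg.octads, (MulAction.orbit ↥(MulAction.stabilizer Cfsg.M24 T) X₁).ncard = 3 ∧ (MulAction.orbit ↥(MulAction.stabilizer Cfsg.M24 T) X₂).ncard = 84 ∧ (MulAction.orbit ↥(MulAction.stabilizer Cfsg.M24 T) X₃).ncard = 672 ∧ Cfsg.octads = MulAction.orbit ↥(MulAction.stabilizer Cfsg.M24 T) X₁ ∪ MulAction.orbit ↥(MulAction.stabilizer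 Cfsg.M24 T) X₂ ∪ MulAction.orbit ↥(MulAction.stabilizer Cfsg.M24 T) X₃) ∧ (∃ Y₁ ∈ Cfsg.sextets, ∃ Y₂ ∈ Cfsg.sextets, ∃ Y₃ ∈ Cfsg.sextets, ∃ Y₄ ∈ Cfsg.sextets, (MulAction.orbit ↥(MulAction.stabilizer Cfsg.M24 T) Y₁).ncard = 7 ∧ (MulAction.orbit ↥(MulAction.stabilizer Cfsg.M24 T) Y₂).ncard = 84 ∧ (MulAction.orbit ↥(MulAction.stabilizer Cfsg.M24 T) Y₃).ncard = 336 ∧ (MulAction.orbit ↥(MulAction.stabilizer Cfsg.M24 T) Y₄).ncard = 1344 ∧ Cfsg.sextets = MulAction.orbit ↥(MulAction.stabilizer Cfsg.M24 T) Y₁ ∪ MulAction.orbit ↥(MulAction.stabilizer Cfsg.M24 T) Y₂ ∪ MulAction.orbit ↥(MulAction.stabilizer Cfsg.M24 T) Y₃ ∪ MulAction.orbit ↥(MulAction.stabilizer Cfsg.M24 T) Y₄) := by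
  obtain ⟨g, rfl⟩ := H12.exists_trio hT
  refine ⟨?_, ?_⟩
  · obtain ⟨⟨X0, hX0, e0, c0⟩, ⟨X1, hX1, e1, c1⟩, ⟨X2, hX2, e2, c2⟩, hu⟩ := H12.stabTrioOct_orbits g
    refine ⟨X0, hX0, X1, hX1, X2, hX2, by rw [e0, c0], by rw [e1, c1], by rw [e2, c2], ?_⟩
    rw [e0, e1, e2]
    exact hu
  · obtain ⟨⟨X0, hX0, e0, c0⟩, ⟨X1, hX1, e1, c1⟩, ⟨X2, hX2, e2, c2⟩, ⟨X3, hX3, e3, c3⟩, hu⟩ := H12.stabTrioSext_orbits g
    refine ⟨X0, hX0, X1, hX1, X2, hX2, X3, hX3, by rw [e0, c0], by rw [e1, c1], by rw [e2, c2], by rw [e3, c3], ?_⟩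
    rw [e0, e1, e2, e3]
    exact hu


end Cfsg.Agent.S5612
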