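import Cfsg.Statements.S5614
import Cfsg.Agent.H12.SymSix

set_option autoImplicit false
open scoped Pointwise
open Cfsg

namespace Cfsg.Agent.S5614

/-- In the group of the length-24 code, the joint stabiliser of two octads meeting in exactly two points is isomorphic to the symmetric group of degree 6. -/
theorem result (o o' : Finset Cfsg.GolayPt) (ho : o ∈ Cfsg.octads) (ho' : o' ∈ Cfsg.octads) (h₂ : (o ∩ o').card = 2) : Nonempty (↥(MulAction.stabilizer Cfsg.M24 o ⊓ MulAction.stabilizer Cfsg.M24 o') ≃* Equiv.Perm (Fin 6)) := by
  exact H12.two_octads_symmetric ho ho' h₂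

end Cfsg.Agent.S5614
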