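import Cfsg.Statements.S5615
import Cfsg.Agent.H12.OctadTrios

set_option autoImplicit false
open scoped Pointwise
open Cfsg

namespace Cfsg.Agent.S5615

/-- An octad of the length-24 code lies in exactly 15 trios; the stabiliser of the octad in the code's group acts doubly transitively on these 15 trios, and the kernel of this action is the pointwise stabiliser of the octad. -/
theorem result (o : Finset Cfsg.GolayPt) (ho : o ∈ Cfsg.octads) : {T : Finset (Finset Cfsg.GolayPt) | T ∈ Cfsg.trios ∧ o ∈ T}.ncard = 15 ∧ (∀ T₁ T₂ T₁' T₂' : Finset (Finset Cfsg.GolayPt), T₁ ∈ Cfsg.trios → T₂ ∈ Cfsg.trios → T₁' ∈ Cfsg.trios → T₂' ∈ Cfsg.trios → o ∈ T₁ → o ∈ T₂ → o ∈ T₁' → o ∈ T₂' → T₁ ≠ T₂ → T₁' ≠ T₂' → ∃ g ∈ Cfsg.M24, g • o = o ∧ g • T₁ = T₁' ∧ g • T₂ = T₂') ∧ ∀ g ∈ Cfsg.M24, g • o = o → ((∀ T ∈ Cfsg.trios, o ∈ T → g • T = T) ↔ ∀ p ∈ o, g p = p) := by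
  obtain ⟨g, rfl⟩ := H12.exists_octad ho
  have hgo : ∀ x : Equiv.Perm Cfsg.GolayPt, x • (g • H12.octSet 0) = g • H12.octSet 0 ↔
      ((g : Equiv.Perm Cfsg.GolayPt)⁻¹ * x * g) • H12.octSet 0 = H12.octSet 0 := by
    intro x
    rw [mul_smul, mul_smul, inv_smul_eq_iff]
    rfl
  have hback : ∀ T, T ∈ Cfsg.trios → g • H12.octSet 0 ∈ T →
      (g : Equiv.Perm Cfsg.GolayPt)⁻¹ • T ∈ Cfsg.trios ∧
      H12.octSet 0 ∈ (g : Equiv.Perm Cfsg.GolayPt)⁻¹ • T := by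
    intro T hT h
    refine ⟨H12.smul_mem_trios (Cfsg.M24.inv_mem g.2) hT, ?_⟩
    rw [← Finset.inv_smul_mem_iff, inv_inv]
    exact h
  refine ⟨H12.trios_through_ncard g, ?_, ?_⟩
  · intro T₁ T₂ T₁' T₂' h1 h2 h1' h2' o1 o2 o1' o2' hne hne'
    obtain ⟨a1, b1⟩ := hback T₁ h1 o1
    obtain ⟨a2, b2⟩ := hback T₂ h2 o2
    obtain ⟨a1', b1'⟩ := hback T₁' h1' o1'
    obtain ⟨a2', b2'⟩ := hback T₂' h2' o2'
    obtain ⟨p, hp, po, p1, p2⟩ := H12.two_transitive_base a1 a2 b1 b2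
      (fun e => hne (smul_left_cancel _ e))
    obtain ⟨q, hq, qo, q1, q2⟩ := H12.two_transitive_base a1' a2' b1' b2'
      (fun e => hne' (smul_left_cancel _ e))
    have hp1 : p⁻¹ • H12.octSet 0 = H12.octSet 0 := inv_smul_eq_iff.mpr po.symm
    refine ⟨g * (q * p⁻¹) * (g : Equiv.Perm Cfsg.GolayPt)⁻¹,
      Cfsg.M24.mul_mem (Cfsg.M24.mul_mem g.2 (Cfsg.M24.mul_mem hq (Cfsg.M24.inv_mem hp)))
        (Cfsg.M24.inv_mem g.2), ?_, ?_, ?_⟩
    · rw [Subgroup.smul_def, mul_smul, mul_smul, inv_smul_smul, mul_smul, hp1, qo]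
    · rw [mul_smul, mul_smul, mul_smul, inv_smul_eq_iff.mpr p1.symm, q1, smul_inv_smul]
    · rw [mul_smul, mul_smul, mul_smul, inv_smul_eq_iff.mpr p2.symm, q2, smul_inv_smul]
  · intro x hx hxo
    have hx' := (hgo x).mp hxo
    have hm : (g : Equiv.Perm Cfsg.GolayPt)⁻¹ * x * g ∈ Cfsg.M24 :=
      Cfsg.M24.mul_mem (Cfsg.M24.mul_mem (Cfsg.M24.inv_mem g.2) hx) g.2
    constructor
    · intro hall p hp
      obtain ⟨q, hq, rfl⟩ := Finset.mem_smul_finset.mp hp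
      have hfix := H12.fix_of_fix_trios hm hx' (fun i hi => ?_) q hq
      · rw [Equiv.Perm.mul_apply, Equiv.Perm.mul_apply, Equiv.Perm.inv_eq_iff_eq] at hfix
        exact hfix
      · rw [mul_smul, mul_smul, inv_smul_eq_iff]
        refine hall _ (H12.smul_mem_trios g.2 (H12.trioSet_mem (by omega))) ?_
        exact Finset.smul_mem_smul_finset ((H12.octSet_zero_mem_trioSet (by omega)).mpr hi)
    · intro hfix T hT hoT
      obtain ⟨a, b⟩ := hback T hT hoT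
      obtain ⟨i, hi, he⟩ := H12.trio_through_base a b
      have hbase := H12.fix_trios_of_fix hm (fun q hq => ?_) i hi
      · rw [← he, mul_smul, mul_smul, smul_inv_smul] at hbase
        exact smul_left_cancel _ hbase
      · rw [Equiv.Perm.mul_apply, Equiv.Perm.mul_apply, Equiv.Perm.inv_eq_iff_eq]
        exact hfix _ (Finset.smul_mem_smul_finset hq)

end Cfsg.Agent.S5615
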