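import Cfsg.Statements.S5616
import Cfsg.Agent.H12.TripleSext

set_option autoImplicit false
open scoped Pointwise
open Cfsg

namespace Cfsg.Agent.S5616

/-- Let Y be a set of 3 of the 24 points. The sextets of the length-24 code whose tetrads meeting Y number 1, 2 or 3 are respectively 21, 630 and 1120 in number, and two sextets with the same number of tetrads meeting Y are conjugate under the setwise stabiliser of Y in the code's group. -/
theorem result (Y : Finset Cfsg.GolayPt) (hY : Y.card = 3) : {S : Finset (Finset Cfsg.GolayPt) | S ∈ Cfsg.sextets ∧ (S.filter fun t => (t ∩ Y).Nonempty).card = 1}.ncard = 21 ∧ {S : Finset (Finset Cfsg.GolayPt) | S ∈ Cfsg.sextets ∧ (S.filter fun t => (t ∩ Y).Nonempty).card = 2}.ncard = 630 ∧ {S : Finset (Finset Cfsg.GolayPt) | S ∈ Cfsg.sextets ∧ (S.filter fun t => (t ∩ Y).Nonempty).card = 3}.ncard = 1120 ∧ ∀ S S' : Finset (Finset Cfsg.GolayPt), S ∈ Cfsg.sextets → S' ∈ Cfsg.sextets → (S.filter fun t => (t ∩ Y).Nonempty).card = (S'.filter fun t => (t ∩ Y).Nonempty).card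 → ∃ g ∈ Cfsg.M24, g • Y = Y ∧ g • S = S' := by
  obtain ⟨k, hk, rfl⟩ := H12.exists_triple hY
  have h9 := H12.triple_orbit hk H12.tripleSext_check21
  have h5 := H12.triple_orbit hk H12.tripleSext_check630
  have h3 := H12.triple_orbit hk H12.tripleSext_check1120
  have e1 := fun S hS => H12.triple_class (n := 1) (c := 9) hk (by omega) (S := S) hS
  have e2 := fun S hS => H12.triple_class (n := 2) (c := 5) hk (by omega) (S := S) hS
  have e3 := fun S hS => H12.triple_class (n := 3) (c := 3) hk (by omega) (S := S) hS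
  refine ⟨?_, ?_, ?_, ?_⟩
  · rw [← h9.1]; congr 1; ext S
    exact and_congr_right fun hS => e1 S hS
  · rw [← h5.1]; congr 1; ext S
    exact and_congr_right fun hS => e2 S hS
  · rw [← h3.1]; congr 1; ext S
    exact and_congr_right fun hS => e3 S hS
  · intro S S' hS hS' heq
    change H12.meetNum _ S = H12.meetNum _ S' at heq
    have hcases : H12.meetNum (k • H12.fin 7) S = 1 ∨ H12.meetNum (k • H12.fin 7) S = 2 ∨
        H12.meetNum (k • H12.fin 7) S = 3 := by
      obtain ⟨i, hi, he⟩ := H12.sextets_eq ▸ H12.smul_mem_sextets (Cfsg.M24.inv_mem hk) hS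
      have hSe : S = k • H12.sextSet i := by rw [he, smul_inv_smul]
      obtain ⟨hs, hcard⟩ := H12.sextList_spec hi
      have hh := H12.allBelow_spec H12.meetCount_check hi
      simp only [H12.forceNat_eq, Bool.and_eq_true, Bool.or_eq_true, Nat.beq_eq] at hh
      rw [hSe, H12.meetNum_smul, H12.meetNum, hs, H12.filter_card_fins hcard]
      omega
    rcases hcases with h | h | h
    · exact h9.2 S S' hS hS' ((e1 S hS).mp h) ((e1 S' hS').mp (heq ▸ h))
    · exact h5.2 S S' hS hS' ((e2 S hS).mp h) ((e2 S' hS').mp (heq ▸ h))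
    · exact h3.2 S S' hS hS' ((e3 S hS).mp h) ((e3 S' hS').mp (heq ▸ h))

end Cfsg.Agent.S5616
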