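import Cfsg.Statements.S5617
import Cfsg.Agent.H12.StabDodPairSext

set_option autoImplicit false
open scoped Pointwise
open Cfsg

namespace Cfsg.Agent.S5617

/-- The setwise stabiliser, in the group of the length-24 code, of a complementary pair of dodecads has exactly three orbits on the 1771 sextets, of sizes 396, 495 and 880. -/
theorem result (d : Finset Cfsg.GolayPt) (hd : d ∈ Cfsg.dodecads) : ∃ X₁ ∈ Cfsg.sextets, ∃ X₂ ∈ Cfsg.sextets, ∃ X₃ ∈ Cfsg.sextets, (MulAction.orbit ↥(MulAction.stabilizer Cfsg.M24 ({d, Finset.univ \ d} : Finset (Finset Cfsg.GolayPt))) X₁).ncard = 396 ∧ (MulAction.orbit ↥(MulAction.stabilizer Cfsg.M24 ({d, Finset.univ \ d} : Finset (Finset Cfsg.GolayPt))) X₂).ncard = 495 ∧ (MulAction.orbit ↥(MulAction.stabilizer Cfsg.M24 ({d, Finset.univ \ d} : Finset (Finset Cfsg.GolayPt))) X₃).ncard = 880 ∧ Cfsg.sextets = MulAction.orbit ↥(MulAction.stabilizer Cfsg.M24 ({d, Finset.univ \ d} : Finset (Finset Cfsg.GolayPt)))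 X₁ ∪ MulAction.orbit ↥(MulAction.stabilizer Cfsg.M24 ({d, Finset.univ \ d} : Finset (Finset Cfsg.GolayPt))) X₂ ∪ MulAction.orbit ↥(MulAction.stabilizer Cfsg.M24 ({d, Finset.univ \ d} : Finset (Finset Cfsg.GolayPt))) X₃ := by
  obtain ⟨g, rfl⟩ := H12.exists_dodecad hd
  have hp : ({g • H12.dodSet 0, Finset.univ \ g • H12.dodSet 0} :
      Finset (Finset Cfsg.GolayPt)) = g • H12.dodPair0 := by
    change _ = (g : Equiv.Perm Cfsg.GolayPt) • H12.dodPair0
    simp only [H12.dodPair0, Finset.smul_finset_insert, Finset.smul_finset_singleton,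
      Finset.smul_finset_sdiff, Finset.smul_finset_univ]
    rfl
  rw [hp]
  obtain ⟨⟨X0, hX0, e0, c0⟩, ⟨X1, hX1, e1, c1⟩, ⟨X2, hX2, e2, c2⟩, hu⟩ := H12.stabDodPairSext_orbits g
  refine ⟨X0, hX0, X1, hX1, X2, hX2, by rw [e0, c0], by rw [e1, c1], by rw [e2, c2], ?_⟩
  rw [e0, e1, e2]
  exact hu


end Cfsg.Agent.S5617
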