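import Cfsg.Statements.S5619
import Cfsg.Agent.H13.Nine

set_option autoImplicit false
open scoped Pointwise
open Cfsg

namespace Cfsg.Agent.S5619

open Cfsg.Agent.H13 Cfsg.Agent.H13.Data MulAction Pointwise

/-- In the group of the length-24 code, the subgroup fixing a dodecad setwise and three of its points individually (a group of order 72) has a normal Sylow 3-subgroup that is elementary abelian of order 9, and its Sylow 2-subgroups are quaternion of order 8. -/
theorem result (d : Finset Cfsg.GolayPt) (hd : d ∈ Cfsg.dodecads) (p q r : Cfsg.GolayPt) (hp : p ∈ d) (hq : q ∈ d) (hr : r ∈ d) (hpq : p ≠ q) (hpr : p ≠ r) (hqr : q ≠ r) : (∀ Q : Sylow 3 ↥(MulAction.stabilizer Cfsg.M24 d ⊓ MulAction.stabilizer Cfsg.M24 p ⊓ MulAction.stabilizer Cfsg.M24 q ⊓ MulAction.stabilizer Cfsg.M24 r), (Q : Subgroup ↥(MulAction.stabilizer Cfsg.M24 d ⊓ MulAction.stabilizer Cfsg.M24 p ⊓ MulAction.stabilizer Cfsg.M24 q ⊓ MulAction.stabilizer Cfsg.M24 r)).Normal ∧ Nat.card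 ↥Q = 9 ∧ ∀ x ∈ (Q : Subgroup ↥(MulAction.stabilizer Cfsg.M24 d ⊓ MulAction.stabilizer Cfsg.M24 p ⊓ MulAction.stabilizer Cfsg.M24 q ⊓ MulAction.stabilizer Cfsg.M24 r)), x ^ 3 = 1) ∧ ∀ P : Sylow 2 ↥(MulAction.stabilizer Cfsg.M24 d ⊓ MulAction.stabilizer Cfsg.M24 p ⊓ MulAction.stabilizer Cfsg.M24 q ⊓ MulAction.stabilizer Cfsg.M24 r), Nonempty (↥P ≃* QuaternionGroup 2) := by
  obtain ⟨g, hgd, hgp, hgq, hgr⟩ := exists_map_dodecad_triple hd hp hq hr hpq hpr hqr
  have hg : MulAut.conj g • (stabilizer M24 Spor.squareDodecad ⊓ stabilizer M24 (some 0 : GolayPt) ⊓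
      stabilizer M24 (some 1 : GolayPt) ⊓ stabilizer M24 (some 2 : GolayPt)) =
      stabilizer M24 d ⊓ stabilizer M24 p ⊓ stabilizer M24 q ⊓ stabilizer M24 r := by
    simp only [Subgroup.smul_inf, conj_stabilizer, hgd, hgp, hgq, hgr]
  let e := (mapEquiv g hg).symm.trans (subgroupOfEquivGrp g9_le stab9)
  refine ⟨fun Q => ?_, fun P => ?_⟩
  · let Q' : Sylow 3 (grp g9) := Q.mapSurjective (f := e.toMonoidHom) e.surjective
    obtain ⟨h1, h2, h3⟩ := g9_sylow3 Q'
    have hmap : (Q' : Subgroup (grp g9)) = (Q : Subgroup _).map e.toMonoidHom := rfl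
    refine ⟨?_, ?_, fun x hx => ?_⟩
    · have := h1.comap e.toMonoidHom
      rw [hmap, Subgroup.comap_map_eq_self_of_injective e.injective] at this
      exact this
    · rw [← h2]
      exact Nat.card_congr ((Q : Subgroup _).equivMapOfInjective e.toMonoidHom e.injective).toEquiv
    · apply e.injective
      rw [map_pow, map_one]
      exact h3 _ (hmap ▸ Subgroup.mem_map_of_mem _ hx)
  · let P' : Sylow 2 (grp g9) := P.mapSurjective (f := e.toMonoidHom) e.surjective
    obtain ⟨f⟩ := g9_sylow2 P'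
    exact ⟨(Subgroup.equivMapOfInjective (P : Subgroup _) e.toMonoidHom e.injective).trans
      ((MulEquiv.subgroupCongr (show (P : Subgroup _).map e.toMonoidHom = (P' : Subgroup (grp g9)) from rfl)).trans f)⟩

end Cfsg.Agent.S5619
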