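import Cfsg.Statements.S5628
import Cfsg.Agent.H10.Plane4Coord

set_option autoImplicit false
open Cfsg

namespace Cfsg.Agent.S5628

/-- In a projective plane of order 4 (a Steiner system S(2, 5, 21)), every permutation of the six points of a hyperoval (a 6-set met by no line in more than two points) is the restriction of exactly one automorphism of the plane. In particular the stabiliser of a hyperoval in the automorphism group is isomorphic to the symmetric group of degree 6 acting faithfully on the hyperoval. -/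
theorem result {α : Type*} [Fintype α] [DecidableEq α] (hα : Fintype.card α = 21) (L : Set (Finset α)) (hL : Cfsg.IsSteinerSystem 2 5 L) (H : Finset α) (hH : (H.card = 6 ∧ ∀ l ∈ L, (l ∩ H).card ≤ 2)) (σ : Equiv.Perm ↥H) : ∃! g : Equiv.Perm α, g ∈ Cfsg.setSystemAut L ∧ ∀ p : ↥H, g p = σ p := by
  obtain ⟨σ₀⟩ := Cfsg.Agent.H10.exists_label_equiv hα hL hH
  obtain ⟨e, he, heσ⟩ := Cfsg.Agent.H10.exists_coord hα hL hH σ₀
  obtain ⟨f, hf, hfσ⟩ := Cfsg.Agent.H10.exists_coord hα hL hH (σ.symm.trans σ₀)
  refine ⟨e.trans f.symm, ⟨Cfsg.Agent.H10.trans_symm_mem_setSystemAut he hf, fun p => ?_⟩, ?_⟩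
  · rw [Equiv.trans_apply, Equiv.symm_apply_eq, heσ, hfσ]
    simp
  · rintro g ⟨hg, hgσ⟩
    have h : g.trans f = e := Cfsg.Agent.H10.coord_unique hα hL hH σ₀
      (by rw [Cfsg.Agent.H10.imgSys_trans, Cfsg.Agent.H10.mem_setSystemAut_iff.1 hg, hf])
      (fun p => by rw [Equiv.trans_apply, hgσ, hfσ]; simp) he heσ
    rw [← h]
    ext x
    simp

end Cfsg.Agent.S5628
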