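import Cfsg.Statements.S5630
import Cfsg.Agent.H99.Aschbacher.Linear
import Cfsg.Agent.H2.Basis

set_option autoImplicit false
open Cfsg

namespace Cfsg.Agent.S5630

/-- Aschbacher's structure theorem for subgroups of SL(n, F). -/
theorem result {F : Type*} [Field F] [Fintype F] (n : ℕ) (hn : 3 ≤ n) (H : Subgroup (Matrix.GeneralLinearGroup (Fin n) F)) (hH : H ≤ Cfsg.Geo.specialLinear (Fin n) F) (hproper : H ⊔ (Cfsg.Geo.scalars (Fin n) F ⊓ Cfsg.Geo.specialLinear (Fin n) F) ≠ Cfsg.Geo.specialLinear (Fin n) F) : (∃ M : Subgroup (Matrix.GeneralLinearGroup (Fin n) F), Cfsg.Geo.InLinearClass n F M ∧ H ≤ M) ∨ Cfsg.Geo.InLinearResidualClass H := by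
  rcases H99.Asch.aschbacher (by simpa using hn) H with ⟨W, h1, h2, h⟩ | ⟨t, m, D, hD, h⟩ | ⟨r, K, hr, hK, h⟩ |
    ⟨n₁, n₂, e, P, h1, h2, h⟩ | ⟨F₁, r, P, hr, hc, h⟩ | ⟨r, R, m, hR, hm, hm1, h⟩ | ⟨m, k, e, P, h1, h2, h⟩ | hf | h
  · exact Or.inl ⟨_, Or.inl ⟨W, h1, h2, rfl⟩, h⟩
  · exact Or.inl ⟨_, Or.inr (Or.inr (Or.inr (Or.inl ⟨t, m, D, hD, rfl⟩))), h⟩
  · exact Or.inl ⟨_, Or.inr (Or.inr (Or.inr (Or.inr (Or.inl ⟨r, K, hr, hK, rfl⟩)))), h⟩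
  · exact Or.inl ⟨_, Or.inr (Or.inr (Or.inr (Or.inr (Or.inr (Or.inl ⟨n₁, n₂, e, P, h1, h2, rfl⟩))))), h⟩
  · exact Or.inl ⟨_, Or.inr (Or.inr (Or.inr (Or.inr (Or.inr (Or.inr (Or.inl ⟨F₁, r, P, hr, hc, rfl⟩)))))), h⟩
  · exact Or.inl ⟨_, Or.inr (Or.inr (Or.inr (Or.inr (Or.inr (Or.inr (Or.inr (Or.inl ⟨r, R, hR, rfl⟩))))))), h⟩
  · exact Or.inl ⟨_, Or.inr (Or.inr (Or.inr (Or.inr (Or.inr (Or.inr (Or.inr (Or.inr (Or.inl
      ⟨m, k, e, P, h1, h2, rfl⟩)))))))), h⟩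
  · rcases hf with ⟨f, hf, h⟩ | ⟨σ, f, hf, h⟩ | ⟨Q, hQ, ho, h⟩
    · have heven : Even n := by
        let B : LinearMap.BilinForm F (Fin n → F) :=
          LinearMap.mk₂ F f hf.bilinear.add_left (fun c x v => hf.bilinear.smul_left c x v)
            hf.bilinear.add_right (fun c v x => hf.bilinear.smul_right c v x)
        obtain ⟨m, b, -⟩ := H2.exists_symplectic_basis B
          ⟨fun v hv => by
              by_contra hv0
              obtain ⟨-, ⟨y, hy⟩⟩ := hf.nondegenerate v hv0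
              exact hy (hv y),
            fun v hv => by
              by_contra hv0
              obtain ⟨⟨y, hy⟩, -⟩ := hf.nondegenerate v hv0
              exact hy (hv y)⟩ hf.alternating
        have hb := Module.finrank_eq_card_basis b
        simp at hb
        exact ⟨m, hb⟩
      refine Or.inl ⟨_, Or.inr (Or.inr (Or.inr (Or.inr (Or.inr (Or.inr (Or.inr (Or.inr (Or.inr (Or.inl
        ⟨f, hf, heven, ?_, rfl⟩))))))))), h⟩
      obtain ⟨j, hj⟩ := heven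
      omega
    · exact Or.inl ⟨_, Or.inr (Or.inr (Or.inr (Or.inr (Or.inr (Or.inr (Or.inr (Or.inr (Or.inr (Or.inr (Or.inl
        ⟨σ, f, hf, hn, rfl⟩)))))))))), h⟩
    · exact Or.inl ⟨_, Or.inr (Or.inr (Or.inr (Or.inr (Or.inr (Or.inr (Or.inr (Or.inr (Or.inr (Or.inr (Or.inr
        ⟨Q, hQ, ho, hn, rfl⟩)))))))))), h⟩
  · exact Or.inr h

end Cfsg.Agent.S5630
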