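import Cfsg.Statements.S5632
import Cfsg.Agent.H98.Transvection
-- import your own Cfsg.Agent.* helpers here

set_option autoImplicit false
set_option linter.style.haveILetI false
set_option linter.unusedSectionVars false
open Cfsg

namespace Cfsg.Agent.S5632

/-- For a finite field F and subspaces 0 < W < U of F^n with dim W + dim U = n, the elements of SL_n(F) stabilising both W and U form a subgroup that is not maximal in SL_n(F): some subgroup lies strictly between it and SL_n(F). -/
theorem result {F : Type*} [Field F] [Fintype F] (n : ℕ) (W U : Submodule F (Fin n → F)) (hW0 : W ≠ ⊥) (hWU : W < U) (hdim : Module.finrank F W + Module.finrank F U = n) : ∃ K : Subgroup (Matrix.GeneralLinearGroup (Fin n) F), Cfsg.Geo.subspaceStabilizer W ⊓ Cfsg.Geo.subspaceStabilizer U ⊓ Cfsg.Geo.specialLinear (Fin n) F < K ∧ K < Cfsg.Geo.specialLinear (Fin n) F := by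
  have hUn : Module.finrank F U < n := by
    have : 0 < Module.finrank F W := Nat.pos_of_ne_zero fun h => hW0 (Submodule.finrank_eq_zero.mp h)
    omega
  have hU1 : U ≠ ⊤ := by
    rintro rfl
    rw [finrank_top, Module.finrank_fin_fun] at hUn
    omega
  refine Cfsg.Agent.H98.stab_pair_not_maximal W U hW0 ?_ ?_
  · rintro rfl; exact not_top_lt hWU
  obtain ⟨a, -, ha⟩ := SetLike.exists_of_lt (lt_top_iff_ne_top.mpr hU1)
  obtain ⟨u, hu, huW⟩ := SetLike.exists_of_lt hWU
  have hnot : u ∉ W ⊔ Submodule.span F {a} := by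
    intro h
    obtain ⟨w, hw, z, hz, rfl⟩ := Submodule.mem_sup.mp h
    obtain ⟨c, rfl⟩ := Submodule.mem_span_singleton.mp hz
    have h1 : c • a ∈ U := by simpa using U.sub_mem hu (hWU.le hw)
    by_cases hc : c = 0
    · exact huW (by simpa [hc] using hw)
    · exact ha (by simpa [hc] using U.smul_mem c⁻¹ h1)
  obtain ⟨φ, hφ, hk⟩ := Cfsg.Agent.H98.exists_functional hnot
  exact ⟨φ, a, u, LinearMap.mem_ker.mp (hk (Submodule.mem_sup_right (Submodule.mem_span_singleton_self a))),
    hu, hφ, ha, le_sup_left.trans hk⟩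

end Cfsg.Agent.S5632
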