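import Cfsg.Statements.S5633
import Cfsg.Agent.H98.Transvection
-- import your own Cfsg.Agent.* helpers here

set_option autoImplicit false
set_option linter.style.haveILetI false
set_option linter.unusedSectionVars false
open Cfsg

namespace Cfsg.Agent.S5633

/-- For a finite field F and complementary non-zero subspaces W ⊕ U = F^n with dim W < dim U, the elements of SL_n(F) stabilising both W and U form a subgroup that is not maximal in SL_n(F): some subgroup lies strictly between it and SL_n(F). -/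
theorem result {F : Type*} [Field F] [Fintype F] (n : ℕ) (W U : Submodule F (Fin n → F)) (hW0 : W ≠ ⊥) (hWU : W ⊓ U = ⊥) (hWU' : W ⊔ U = ⊤) (hdim : Module.finrank F W < Module.finrank F U) : ∃ K : Subgroup (Matrix.GeneralLinearGroup (Fin n) F), Cfsg.Geo.subspaceStabilizer W ⊓ Cfsg.Geo.subspaceStabilizer U ⊓ Cfsg.Geo.specialLinear (Fin n) F < K ∧ K < Cfsg.Geo.specialLinear (Fin n) F := by
  have hU0 : U ≠ ⊥ := by
    rintro rfl
    simp at hdim
  have hW1 : W ≠ ⊤ := by
    rintro rfl
    exact hU0 (by simpa using hWU)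
  refine Cfsg.Agent.H98.stab_pair_not_maximal W U hW0 hW1 ?_
  obtain ⟨a, ha, ha0⟩ := Submodule.exists_mem_ne_zero_of_ne_bot hW0
  obtain ⟨u, hu, hu0⟩ := Submodule.exists_mem_ne_zero_of_ne_bot hU0
  have hd : Disjoint W U := disjoint_iff.mpr hWU
  obtain ⟨φ, hφ, hk⟩ := Cfsg.Agent.H98.exists_functional
    (fun h => hu0 (Submodule.disjoint_def.mp hd u h hu))
  exact ⟨φ, a, u, LinearMap.mem_ker.mp (hk ha), hu, hφ,
    fun h => ha0 (Submodule.disjoint_def.mp hd a ha h), hk⟩

end Cfsg.Agent.S5633
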