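import Cfsg.Statements.S5634
import Cfsg.Agent.H1.DecompMax

set_option autoImplicit false
open Cfsg

namespace Cfsg.Agent.S5634

/-- For a finite field F with q elements and n ≥ 13, let D be a decomposition of F^n into t ≥ 2 independent subspaces of equal dimension m ≥ 1 spanning F^n. Unless m = 1 and q ≤ 4, or m = 2 and q = 2, the elements of SL_n(F) permuting the members of D form a maximal subgroup of SL_n(F). -/
theorem result {F : Type*} [Field F] [Fintype F] (n : ℕ) (hn : 13 ≤ n) {t : ℕ} (m : ℕ) (D : Fin t → Submodule F (Fin n → F)) (hD : Cfsg.Geo.IsMDecomposition m D) (h1 : ¬ (m = 1 ∧ Fintype.card F ≤ 4)) (h2 : ¬ (m = 2 ∧ Fintype.card F = 2)) : Cfsg.Geo.IsMaximalIn (Cfsg.Geo.specialLinear (Fin n) F) (Cfsg.Geo.decompositionStabilizer D ⊓ Cfsg.Geo.specialLinear (Fin n) F) := by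
  exact Cfsg.Agent.H1.Decomp.decomposition_maximal hn D hD (fun h => by by_contra hc; exact h1 ⟨h, by omega⟩)
    (fun h => by have := Fintype.one_lt_card (α := F); by_contra hc; exact h2 ⟨h, by omega⟩)

end Cfsg.Agent.S5634
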