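import Cfsg.Statements.S5637
import Cfsg.Agent.H99.Tensor.Maximal
-- import your own Cfsg.Agent.* helpers here

set_option autoImplicit false
open Cfsg

namespace Cfsg.Agent.S5637

/-- For a finite field F with q elements and n = n₁ n₂ ≥ 13 with 2 ≤ n₁ < n₂, excluding n₁ = q = 2, the stabiliser in SL_n(F) of a tensor decomposition F^n ≅ F^(n₁) ⊗ F^(n₂) (the conjugate by any P of the Kronecker-product subgroup transported along any bijection Fin n ≃ Fin n₁ × Fin n₂, intersected with SL_n(F)) is a maximal subgroup of SL_n(F). -/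
theorem result {F : Type*} [Field F] [Fintype F] (n : ℕ) (hn : 13 ≤ n) (n₁ n₂ : ℕ) (h1 : 2 ≤ n₁) (h12 : n₁ < n₂) (hex : ¬ (n₁ = 2 ∧ Fintype.card F = 2)) (e : Fin n ≃ Fin n₁ × Fin n₂) (P : Matrix.GeneralLinearGroup (Fin n) F) : Cfsg.Geo.IsMaximalIn (Cfsg.Geo.specialLinear (Fin n) F) (Cfsg.Geo.tensorProductSubgroup n₁ n₂ e P ⊓ Cfsg.Geo.specialLinear (Fin n) F) := by
  exact H99.Tensor.tensor_maximal h1 h12 hex e P

end Cfsg.Agent.S5637
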