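import Cfsg.Statements.S5639
import Cfsg.Agent.H98.MaximalSLSubfield
-- import your own Cfsg.Agent.* helpers here

set_option autoImplicit false
set_option linter.style.haveILetI false
set_option linter.unusedSectionVars false
open Cfsg

namespace Cfsg.Agent.S5639

/-- For a finite field F, a subfield F₀ with |F| = |F₀| ^ r for a prime r, and n ≥ 13, the subfield group (the conjugate by any P of the product of GL_n(F₀) with the non-zero scalars of F, intersected with SL_n(F)) is a maximal subgroup of SL_n(F). -/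
theorem result {F : Type*} [Field F] [Fintype F] (n : ℕ) (hn : 13 ≤ n) (F₀ : Subfield F) (r : ℕ) (hr : r.Prime) (hcard : Fintype.card F = Nat.card F₀ ^ r) (P : Matrix.GeneralLinearGroup (Fin n) F) : Cfsg.Geo.IsMaximalIn (Cfsg.Geo.specialLinear (Fin n) F) (Cfsg.Geo.subfieldSubgroup F₀ P ⊓ Cfsg.Geo.specialLinear (Fin n) F) := by
  haveI : Nonempty (Fin n) := ⟨⟨0, by omega⟩⟩
  have h := Cfsg.Agent.H98.isMaximalIn_conj P (Cfsg.Agent.H98.sl_subfield_maximal hn hr hcard)
  have hinj : Function.Injective (MulAut.conj P).toMonoidHom := (MulAut.conj P).injective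
  have hsl : (Cfsg.Geo.specialLinear (Fin n) F).map (MulAut.conj P).toMonoidHom = Cfsg.Geo.specialLinear (Fin n) F := by
    refine le_antisymm ?_ fun g hg => ⟨P⁻¹ * g * P, ?_, ?_⟩
    · rintro _ ⟨g, hg, rfl⟩
      exact Cfsg.Agent.H98.sl_conj_mem P g hg
    · have := Cfsg.Agent.H98.sl_conj_mem P⁻¹ g hg
      rwa [inv_inv] at this
    · change P * (P⁻¹ * g * P) * P⁻¹ = g
      group
  rw [Subgroup.map_inf _ _ _ hinj, hsl, ← Cfsg.Agent.H98.subfieldSubgroup_eq_map] at h
  exact h

end Cfsg.Agent.S5639
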