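import Cfsg.Statements.S5641
import Cfsg.Agent.H5.C7.Linear

set_option autoImplicit false
open Cfsg

namespace Cfsg.Agent.S5641

/-- For a finite field F and n = m ^ t ≥ 13 with m ≥ 3 and t ≥ 2, the stabiliser in SL_n(F) of a tensor decomposition of F^n into t factors of dimension m (the conjugate by any P of the standard tensor-wreath subgroup transported along any bijection Fin n ≃ (Fin t → Fin m), intersected with SL_n(F)) is a maximal subgroup of SL_n(F). -/
theorem result {F : Type*} [Field F] [Fintype F] (n : ℕ) (hn : 13 ≤ n) (m t : ℕ) (hm : 3 ≤ m) (ht : 2 ≤ t) (e : Fin n ≃ (Fin t → Fin m)) (P : Matrix.GeneralLinearGroup (Fin n) F) : Cfsg.Geo.IsMaximalIn (Cfsg.Geo.specialLinear (Fin n) F) (Cfsg.Geo.tensorWreathSubgroup m t e P ⊓ Cfsg.Geo.specialLinear (Fin n) F) := by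
  exact Cfsg.Agent.H5.C7.tensorWreath_maximal hm ht e P

end Cfsg.Agent.S5641
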