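import Cfsg.Statements.S5644
import Cfsg.Agent.H98.MaximalSLOrth
-- import your own Cfsg.Agent.* helpers here

set_option autoImplicit false
set_option linter.style.haveILetI false
set_option linter.unusedSectionVars false
open Cfsg

namespace Cfsg.Agent.S5644

/-- For a finite field F of odd order and n ≥ 13, let Q be a non-degenerate quadratic form on F^n (its polar form is non-degenerate). Then the elements of SL_n(F) that are similarities of Q (Q(gv) = c Q(v) for a non-zero scalar c depending on g) form a maximal subgroup of SL_n(F). -/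
theorem result {F : Type*} [Field F] [Fintype F] (n : ℕ) (hn : 13 ≤ n) (hodd : Odd (Fintype.card F)) (Q : (Fin n → F) → F) (hQ : Cfsg.Geo.IsNondegenerateQuadraticForm Q) : Cfsg.Geo.IsMaximalIn (Cfsg.Geo.specialLinear (Fin n) F) (Cfsg.Geo.quadSimilarityGroup Q ⊓ Cfsg.Geo.specialLinear (Fin n) F) := by
  have h2 : (2 : F) ≠ 0 := fun h => by
    haveI : CharP F 2 := CharTwo.of_one_ne_zero_of_two_eq_zero one_ne_zero h
    exact Nat.not_even_iff_odd.mpr hodd (Nat.even_iff.mpr (FiniteField.even_card_iff_char_two.mp (ringChar.eq F 2)))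
  have := Cfsg.Agent.H98.Orth.sl_orth_maximal (q := Cfsg.Agent.H98.qOfFun Q hQ)
    ⟨h2, Cfsg.Agent.H98.qOfFun_nondeg hQ⟩ (by rw [Fintype.card_fin]; omega) (by rw [Fintype.card_fin]; omega)
  rwa [Cfsg.Agent.H98.coe_qOfFun] at this

end Cfsg.Agent.S5644
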