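import Cfsg.Statements.S5647
import Cfsg.Agent.H98.MaximalSpWreath
-- import your own Cfsg.Agent.* helpers here

set_option autoImplicit false
set_option linter.style.haveILetI false
set_option linter.unusedSectionVars false
open Cfsg

namespace Cfsg.Agent.S5647

/-- For a finite field F with q elements and m ≥ 7, let D be a decomposition of F^(2m) into t ≥ 2 pairwise orthogonal subspaces of equal dimension k on each of which the standard alternating form is non-degenerate, spanning F^(2m). Unless k = 2 and q = 2, the elements of Sp_2m(F) permuting the members of D form a maximal subgroup of Sp_2m(F). -/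
theorem result {F : Type*} [Field F] [Fintype F] (m : ℕ) (hm : 7 ≤ m) {t : ℕ} (k : ℕ) (D : Fin t → Submodule F (Fin m ⊕ Fin m → F)) (hD : Cfsg.Geo.IsNondegenerateMDecomposition (Cfsg.sympForm m F) k D) (hex : ¬ (k = 2 ∧ Fintype.card F = 2)) : Cfsg.Geo.IsMaximalIn (Cfsg.spGL m F) (Cfsg.Geo.decompositionStabilizer D ⊓ Cfsg.spGL m F) := by
  refine Cfsg.Agent.H98.sp_wreath_maximal hD.decomp (fun i u hu h => ?_) (fun i j hij u hu v hv => ?_) hex
  · by_contra h0
    obtain ⟨-, x, hx, hne⟩ := hD.nondegenerate i u hu h0
    exact hne (by rw [← Cfsg.Agent.H2.sympBilin_apply]; exact h x hx)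
  · rw [Cfsg.Agent.H2.sympBilin_apply]; exact hD.orthogonal i j hij u hu v hv

end Cfsg.Agent.S5647
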