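import Cfsg.Statements.S5652
import Cfsg.Agent.H98.MaximalSpOrth
-- import your own Cfsg.Agent.* helpers here

set_option autoImplicit false
set_option linter.style.haveILetI false
set_option linter.unusedSectionVars false
open Cfsg

namespace Cfsg.Agent.S5652

/-- For a finite field F of characteristic two and m ≥ 7, let Q be a non-degenerate quadratic form on F^(2m) whose polar form is the standard alternating form. Then the elements of Sp_2m(F) that are similarities of Q (they are exactly the isometries of Q) form a maximal subgroup of Sp_2m(F). -/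
theorem result {F : Type*} [Field F] [Fintype F] (m : ℕ) (hm : 7 ≤ m) (heven : ¬ Odd (Fintype.card F)) (Q : (Fin m ⊕ Fin m → F) → F) (hQ : Cfsg.Geo.IsNondegenerateQuadraticForm Q) (hpol : ∀ u v, QuadraticMap.polar Q u v = Cfsg.sympForm m F u v) : Cfsg.Geo.IsMaximalIn (Cfsg.spGL m F) (Cfsg.Geo.quadSimilarityGroup Q ⊓ Cfsg.spGL m F) := by
  refine Cfsg.Agent.H98.sp_orth_maximal (by omega) ?_ Q hQ fun u v => by
    rw [Cfsg.Agent.H2.sympBilin_apply]; exact hpol u v
  by_contra h2
  exact heven (Nat.odd_iff.mpr (FiniteField.odd_card_of_char_ne_two fun hc => h2 (by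
    haveI := ringChar.charP F
    have := CharP.cast_eq_zero F (ringChar F)
    rw [hc] at this
    exact_mod_cast this)))

end Cfsg.Agent.S5652
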