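import Cfsg.Statements.S5659
import Cfsg.Agent.H98.MaximalUSubOrthMain
-- import your own Cfsg.Agent.* helpers here

set_option autoImplicit false
set_option linter.style.haveILetI false
set_option linter.unusedSectionVars false
open Cfsg

namespace Cfsg.Agent.S5659

/-- Let F be the field with q² elements, q odd, n ≥ 13, and F₀ the subfield with q elements. Let P be an invertible matrix such that the standard unitary form takes values in F₀ on the F₀-span of the columns of P (so it restricts to a non-degenerate symmetric bilinear form there). Then the elements of SU_n(q) lying in the subfield group of P form a maximal subgroup of SU_n(q). -/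
theorem result {F : Type*} [Field F] [Fintype F] (n q : ℕ) (hF : Fintype.card F = q ^ 2) (hn : 13 ≤ n) (hodd : Odd q) (F₀ : Subfield F) (hcard : Fintype.card F = Nat.card F₀ ^ 2) (P : Matrix.GeneralLinearGroup (Fin n) F) (hP : Cfsg.Geo.IsFormRationalStructure (Cfsg.hermForm n F q) F₀ 1 P) : Cfsg.Geo.IsMaximalIn (Cfsg.GU n F q ⊓ Cfsg.Geo.specialLinear (Fin n) F) (Cfsg.Geo.subfieldSubgroup F₀ P ⊓ (Cfsg.GU n F q ⊓ Cfsg.Geo.specialLinear (Fin n) F)) := by
  refine Cfsg.Agent.H98.Herm.su_subfield_of_pull F₀ P ?_
  refine Cfsg.Agent.H98.Herm.OrthRat.maximal (hF := hF) ⟨hn, ?_, Cfsg.Agent.H98.Herm.frobQ_fixed_iff hF hcard,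
    fun u v hu hv => by simpa [Cfsg.Agent.H98.Herm.pullForm] using (hP u v hu hv)⟩
  intro h2
  haveI : CharP F 2 := CharTwo.of_one_ne_zero_of_two_eq_zero one_ne_zero h2
  have h := FiniteField.even_card_iff_char_two.mp (ringChar.eq F 2)
  rw [hF] at h
  exact absurd (hodd.pow (n := 2)) (Nat.not_odd_iff.mpr h)

end Cfsg.Agent.S5659
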