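import Cfsg.Statements.S5663
import Cfsg.Agent.H99.Aschbacher.Unitary

set_option autoImplicit false
open Cfsg

namespace Cfsg.Agent.S5663

/-- Subgroup structure of the finite unitary groups. Let F be the field with q² elements and n ≥ 3 with (n, q) ≠ (3, 2), and let SU_n(q) be the group of matrices of determinant one preserving the standard unitary form Σ u_i v_i^q on F^n. Let H be a subgroup of SU_n(q) whose product with the scalar matrices in SU_n(q) is not all of SU_n(q) (H does not cover PSU_n(q)). Then either H is contained in a member of one of the geometric classes of subgroups of the unitary group GU_n(q) (with the conditions built into InUnitaryClass), or H is in the residual class: modulo scalars it is almost simple, and the perfect preimage of its socle acts absolutely irreducibly, is realisable over no proper subfield of F, and fixes no non-degenerate quadratic form and no non-degenerate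 symplectic form on F^n. -/
theorem result {F : Type*} [Field F] [Fintype F] (n q : ℕ) (hF : Fintype.card F = q ^ 2) (hn : 3 ≤ n) (hex : ¬ (n = 3 ∧ q = 2)) (H : Subgroup (Matrix.GeneralLinearGroup (Fin n) F)) (hH : H ≤ (Cfsg.GU n F q ⊓ Cfsg.Geo.specialLinear (Fin n) F)) (hproper : H ⊔ (Cfsg.Geo.scalars (Fin n) F ⊓ (Cfsg.GU n F q ⊓ Cfsg.Geo.specialLinear (Fin n) F)) ≠ (Cfsg.GU n F q ⊓ Cfsg.Geo.specialLinear (Fin n) F)) : (∃ M : Subgroup (Matrix.GeneralLinearGroup (Fin n) F), Cfsg.Geo.InUnitaryClass n F q M ∧ H ≤ M) ∨ Cfsg.Geo.InUnitaryResidualClass H := by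
  have hG : H ≤ GU n F q := hH.trans inf_le_left
  have mk : ∀ S : Subgroup (Matrix.GeneralLinearGroup (Fin n) F),
      Cfsg.Geo.InUnitaryClass n F q (S ⊓ GU n F q) → H ≤ S →
      (∃ M : Subgroup (Matrix.GeneralLinearGroup (Fin n) F), Cfsg.Geo.InUnitaryClass n F q M ∧ H ≤ M) ∨
        Cfsg.Geo.InUnitaryResidualClass H := fun S hS hle => Or.inl ⟨_, hS, le_inf hle hG⟩
  rcases H99.Asch.unitary_aschbacher hF hn hG with ⟨W, hW, hts, hle⟩ | ⟨W, hW, hnd, hdim, hle⟩ |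
    ⟨t, k, V, hV, -, hle⟩ | ⟨k, V, hk, hV, hts, -, hle⟩ | ⟨r, K, hr, hodd, -, hK, hadj, -, hle⟩ |
    ⟨n₁, n₂, e, P, G₁, G₂, h1, h12, hG₁, hG₂, hform, -, hle⟩ | ⟨F₀, r, P, hr, hodd, hc, hf, -, hle⟩ |
    ⟨F₀, P, hq, hc, hf, -, hle⟩ | ⟨F₀, P, ζ, hev, hc, hζ, hζq, hf, halt, -, hle⟩ |
    ⟨r, R, p, e, k, hR, habs, hsim, hrp, hmin, -, hk, hcase, -, hle⟩ |
    ⟨k, t, e, P, G, hk, ht, hex, hG₁, hform, -, hle⟩ | ⟨hres, -⟩
  · exact mk _ (Or.inl (Or.inl ⟨W, hW, hts, rfl⟩)) hle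
  · exact mk _ (Or.inl (Or.inr (Or.inl ⟨W, hW, hnd, hdim, rfl⟩))) hle
  · exact mk _ (Or.inl (Or.inr (Or.inr (Or.inl ⟨t, k, V, hV, rfl⟩)))) hle
  · exact mk _ (Or.inl (Or.inr (Or.inr (Or.inr (Or.inl ⟨k, V, hk, hV, hts, rfl⟩))))) hle
  · exact mk _ (Or.inr (Or.inl ⟨r, K, hr, hodd, hK, hadj, rfl⟩)) hle
  · exact mk _ (Or.inr (Or.inr (Or.inl ⟨n₁, n₂, e, P, _, _, h1, h12, hG₁, hG₂, hform, rfl⟩))) hle
  · exact mk _ (Or.inl (Or.inr (Or.inr (Or.inr (Or.inr (Or.inl ⟨F₀, r, P, hr, hodd, hc, hf, rfl⟩)))))) hle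
  · exact mk _ (Or.inl (Or.inr (Or.inr (Or.inr (Or.inr (Or.inr (Or.inl ⟨F₀, P, hq, hc, hf, rfl⟩))))))) hle
  · exact mk _ (Or.inl (Or.inr (Or.inr (Or.inr (Or.inr (Or.inr (Or.inr (Or.inl
      ⟨F₀, P, ζ, hev, hc, hζ, hζq, hf, halt, rfl⟩)))))))) hle
  · refine mk _ (Or.inl (Or.inr (Or.inr (Or.inr (Or.inr (Or.inr (Or.inr (Or.inr
      ⟨r, R, p, e, k, hR, habs, hsim, hrp, hmin, ?_, rfl⟩)))))))) hle
    rcases hcase with ⟨ho, hz, hc, -⟩ | h
    · exact Or.inl ⟨ho, hz, hk, hc⟩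
    · exact Or.inr h
  · exact mk _ (Or.inr (Or.inr (Or.inr ⟨k, t, e, P, _, hk, ht, hex, hG₁, hform, rfl⟩))) hle
  · exact Or.inr hres

end Cfsg.Agent.S5663
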