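import Cfsg.Statements.S5665
import Cfsg.Agent.H98.SpUnitary
-- import your own Cfsg.Agent.* helpers here

set_option autoImplicit false
set_option linter.style.haveILetI false
set_option linter.unusedSectionVars false
open Cfsg

namespace Cfsg.Agent.S5665

/-- For a finite field F of odd order and m ≥ 7, let K be a subfield of the algebra of 2m × 2m matrices over F containing the scalars, of degree 2 over F, that is closed under adjoints for the standard alternating form on F^(2m) but whose elements are not all self-adjoint (so the adjoint map induces the automorphism of order two of K). Then the elements of Sp_2m(F) normalising K form a maximal subgroup of Sp_2m(F). -/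
theorem result {F : Type*} [Field F] [Fintype F] (m : ℕ) (hm : 7 ≤ m) (hodd : Odd (Fintype.card F)) (K : Subalgebra F (Matrix (Fin m ⊕ Fin m) (Fin m ⊕ Fin m) F)) (hK : Cfsg.Geo.IsFieldSubalgebra 2 K) (hac : Cfsg.Geo.IsAdjointClosedFor (Cfsg.sympForm m F) K) (hnsa : ¬ Cfsg.Geo.IsSelfAdjointFor (Cfsg.sympForm m F) K) : Cfsg.Geo.IsMaximalIn (Cfsg.spGL m F) (Cfsg.Geo.subalgebraNormalizer K ⊓ Cfsg.spGL m F) := by
  classical
  let β := Cfsg.Agent.H2.sympBilin m F
  have hβ : ∀ x y, Cfsg.sympForm m F x y = β x y := fun x y => (Cfsg.Agent.H2.sympBilin_apply x y).symm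
  have h2 : (2 : F) ≠ 0 := by
    intro h2
    haveI : CharP F 2 := CharTwo.of_one_ne_zero_of_two_eq_zero one_ne_zero h2
    exact (Nat.not_even_iff_odd.mpr hodd)
      (Nat.even_iff.mpr (FiniteField.even_card_iff_char_two.mp (ringChar.eq F 2)))
  haveI : Nonempty (Fin m ⊕ Fin m) := ⟨Sum.inl ⟨0, by omega⟩⟩
  -- a generator
  obtain ⟨k, hk, hkn⟩ : ∃ k ∈ K, ∀ a : F, k ≠ a • (1 : Matrix (Fin m ⊕ Fin m) (Fin m ⊕ Fin m) F) := by
    by_contra h
    push Not at h
    have h1 : Module.finrank F K ≤ 1 := finrank_le_one (1 : K) fun w => by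
      obtain ⟨a, ha⟩ := h w w.2
      exact ⟨a, Subtype.ext ha.symm⟩
    rw [hK.finrank_eq] at h1
    omega
  have hgen : ∀ y ∈ K, ∃ a b : F, y = a • 1 + b • k := by
    intro y hy
    have hli : LinearIndependent F ![(1 : K), ⟨k, hk⟩] := by
      rw [LinearIndependent.pair_iff]
      intro a b hab
      have hab' : a • (1 : Matrix (Fin m ⊕ Fin m) (Fin m ⊕ Fin m) F) + b • k = 0 := congrArg Subtype.val hab
      have hb : b = 0 := by
        by_contra hb
        refine hkn (-(b⁻¹ * a)) ?_
        have : b • k = -(a • (1 : Matrix (Fin m ⊕ Fin m) (Fin m ⊕ Fin m) F)) := eq_neg_of_add_eq_zero_right hab'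
        rw [← inv_smul_smul₀ hb k, this, smul_neg, smul_smul, neg_smul]
      refine ⟨?_, hb⟩
      rw [hb, zero_smul, add_zero] at hab'
      exact (smul_eq_zero.1 hab').resolve_right one_ne_zero
    have : (⟨y, hy⟩ : K) ∈ Submodule.span F (Set.range ![(1 : K), ⟨k, hk⟩]) :=
      (hli.span_eq_top_of_card_eq_finrank (by simp [hK.finrank_eq])) ▸ trivial
    obtain ⟨c, hc⟩ := (Submodule.mem_span_range_iff_exists_fun F).mp this
    refine ⟨c 0, c 1, ?_⟩
    have := congrArg Subtype.val hc
    simpa [Fin.sum_univ_two] using this.symm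
  -- the adjoint of the generator
  obtain ⟨k', hk', hadj⟩ := hac k hk
  obtain ⟨α, b, rfl⟩ := hgen k' hk'
  have hA : ∀ u v, β (Matrix.mulVec k u) v = α * β u v + b * β u (Matrix.mulVec k v) := fun u v => by
    rw [← hβ, hadj u v, hβ, Matrix.add_mulVec, Matrix.smul_mulVec, Matrix.smul_mulVec, Matrix.one_mulVec, map_add,
      map_smul, map_smul, smul_eq_mul, smul_eq_mul]
  have hA' : ∀ u v, β u (Matrix.mulVec k v) = α * β u v + b * β (Matrix.mulVec k u) v := fun u v => by
    have h := hA v u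
    rw [Cfsg.Agent.H98.beta_swap u (Matrix.mulVec k v), Cfsg.Agent.H98.beta_swap u v,
      Cfsg.Agent.H98.beta_swap (Matrix.mulVec k u) v] at h
    linear_combination -h
  have hnd := Cfsg.Agent.H2.sympBilin_nondegenerate m F
  have hnot : ∀ c d : F, (∀ u v, c * β (Matrix.mulVec k u) v = d * β u v) → c = 0 := by
    intro c d h
    by_contra hc
    refine hkn (c⁻¹ * d) (Matrix.ext_of_mulVec_single fun i => ?_)
    rw [← sub_eq_zero]
    refine hnd.1 _ fun y => ?_
    rw [Matrix.smul_mulVec, Matrix.one_mulVec, map_sub, map_smul, LinearMap.sub_apply, LinearMap.smul_apply,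
      smul_eq_mul, mul_assoc, ← h, inv_mul_cancel_left₀ hc, sub_self]
  have hb2 : 1 - b * b = 0 := hnot _ (α * (1 + b)) fun u v => by linear_combination hA u v + b * hA' u v
  have hb : b = -1 := by
    rcases mul_self_eq_one_iff.mp (sub_eq_zero.mp hb2).symm with hb | hb
    · exfalso
      subst hb
      have hα : α = 0 := by
        by_contra hα
        obtain ⟨u, v, huv⟩ : ∃ u v, β u v ≠ 0 := by
          by_contra hc; push Not at hc
          obtain ⟨i⟩ := (inferInstance : Nonempty (Fin m ⊕ Fin m))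
          have := congrFun (hnd.1 (Pi.single i 1) fun y => hc _ y) i
          simp at this
        refine huv ((mul_eq_zero.mp (show (2 : F) * α * β u v = 0 by linear_combination -hA u v - hA' u v)).resolve_left
          (mul_ne_zero h2 hα))
      refine hnsa fun y hy u v => ?_
      obtain ⟨p, r, rfl⟩ := hgen y hy
      rw [hβ, hβ, Matrix.add_mulVec, Matrix.smul_mulVec, Matrix.smul_mulVec, Matrix.one_mulVec, Matrix.add_mulVec,
        Matrix.smul_mulVec, Matrix.smul_mulVec, Matrix.one_mulVec]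
      simp only [map_add, map_smul, LinearMap.add_apply, LinearMap.smul_apply, smul_eq_mul]
      rw [hA u v, hα]; ring
    · exact hb
  subst hb
  -- the skew-adjoint generator
  set K₀ : Matrix (Fin m ⊕ Fin m) (Fin m ⊕ Fin m) F := k - (α / 2) • 1 with hK₀
  have hK₀m : K₀ ∈ K := K.sub_mem hk (K.smul_mem K.one_mem _)
  have hgen₀ : ∀ y ∈ K, ∃ a b : F, y = a • 1 + b • K₀ := fun y hy => by
    obtain ⟨p, r, rfl⟩ := hgen y hy
    exact ⟨p + r * (α / 2), r, by rw [hK₀]; module⟩
  set j : (Fin m ⊕ Fin m → F) →ₗ[F] (Fin m ⊕ Fin m → F) := Matrix.mulVecLin K₀ with hj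
  have hjv : ∀ v, j v = Matrix.mulVec k v - (α / 2) • v := fun v => by
    rw [hj, Matrix.mulVecLin_apply, hK₀, Matrix.sub_mulVec, Matrix.smul_mulVec, Matrix.one_mulVec]
  have hanti : ∀ x y, β (j x) y = - β x (j y) := fun x y => by
    rw [hjv, hjv, map_sub, map_sub, map_smul, map_smul, LinearMap.sub_apply, LinearMap.smul_apply, smul_eq_mul,
      hA x y]
    field_simp
    ring
  have hfree : ∀ (a : F) v, j v = a • v → v = 0 := fun a v hv => by
    have hy : K₀ - a • (1 : Matrix (Fin m ⊕ Fin m) (Fin m ⊕ Fin m) F) ≠ 0 := fun h => hkn (a + α / 2) (by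
      rw [sub_eq_zero, hK₀, sub_eq_iff_eq_add] at h
      rw [h]; module)
    have hmem := K.sub_mem hK₀m (K.smul_mem K.one_mem a)
    obtain ⟨y, hyK, hyy⟩ := hK.inv _ hmem hy
    have h0 : Matrix.mulVec (K₀ - a • (1 : Matrix (Fin m ⊕ Fin m) (Fin m ⊕ Fin m) F)) v = 0 := by
      rw [Matrix.sub_mulVec, Matrix.smul_mulVec, Matrix.one_mulVec, sub_eq_zero]
      exact hv
    have := congrArg (Matrix.mulVec y) h0
    rwa [Matrix.mulVec_mulVec, ← hK.comm _ hmem _ hyK, hyy, Matrix.one_mulVec, Matrix.mulVec_zero] at this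
  obtain ⟨ν, r₀, hsq⟩ := hgen₀ (K₀ * K₀) (K.mul_mem hK₀m hK₀m)
  have hsqv : ∀ v, j (j v) = ν • v + r₀ • j v := fun v => by
    rw [hj, Matrix.mulVecLin_apply, Matrix.mulVecLin_apply, Matrix.mulVec_mulVec, hsq, Matrix.add_mulVec,
      Matrix.smul_mulVec, Matrix.smul_mulVec, Matrix.one_mulVec]
  have hr₀ : r₀ = 0 := by
    have h : ∀ x y, r₀ * β (j x) y = 0 := fun x y => by
      have e : β (j (j x)) y = β x (j (j y)) := by rw [hanti, hanti, neg_neg]
      simp only [hsqv, map_add, map_smul, LinearMap.add_apply, LinearMap.smul_apply, smul_eq_mul] at e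
      exact (mul_eq_zero.mp (show (2 : F) * (r₀ * β (j x) y) = 0 by linear_combination e + r₀ * hanti x y)).resolve_left h2
    refine hnot r₀ (r₀ * (α / 2)) fun u v => ?_
    have := h u v
    rw [hjv, map_sub, map_smul, LinearMap.sub_apply, LinearMap.smul_apply, smul_eq_mul] at this
    linear_combination this
  have H : Cfsg.Agent.H98.SU2.SJ j ν :=
    ⟨hm, h2, hanti, fun v => by rw [hsqv, hr₀, zero_smul, add_zero], hfree⟩
  have hiff : ∀ g : GL (Fin m ⊕ Fin m) F, g ∈ Cfsg.Geo.subalgebraNormalizer K ↔ Cfsg.Agent.H98.SU2.NormM j g := by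
    intro g
    constructor
    · intro h
      obtain ⟨a, b, hab⟩ := hgen₀ _ ((h K₀).mp hK₀m)
      refine ⟨a, b, fun v => ?_⟩
      have e : (g : Matrix (Fin m ⊕ Fin m) (Fin m ⊕ Fin m) F) * K₀ = (a • 1 + b • K₀) * (g : Matrix (Fin m ⊕ Fin m) (Fin m ⊕ Fin m) F) := by
        rw [← hab, mul_assoc, Units.inv_mul, mul_one]
      rw [hj, Matrix.mulVecLin_apply, Matrix.mulVecLin_apply, Matrix.mulVec_mulVec, e, ← Matrix.mulVec_mulVec,
        Matrix.add_mulVec, Matrix.smul_mulVec, Matrix.smul_mulVec, Matrix.one_mulVec]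
    · rintro ⟨a, b, hab⟩
      have e : (g : Matrix (Fin m ⊕ Fin m) (Fin m ⊕ Fin m) F) * K₀ = (a • 1 + b • K₀) * (g : Matrix (Fin m ⊕ Fin m) (Fin m ⊕ Fin m) F) := by
        refine Matrix.ext_of_mulVec_single fun i => ?_
        rw [← Matrix.mulVec_mulVec, ← Matrix.mulVec_mulVec, Matrix.add_mulVec, Matrix.smul_mulVec, Matrix.smul_mulVec,
          Matrix.one_mulVec]
        exact hab (Pi.single i 1)
      set G : Matrix (Fin m ⊕ Fin m) (Fin m ⊕ Fin m) F := (g : Matrix (Fin m ⊕ Fin m) (Fin m ⊕ Fin m) F)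
      set G' : Matrix (Fin m ⊕ Fin m) (Fin m ⊕ Fin m) F := ((g⁻¹ : GL (Fin m ⊕ Fin m) F) : Matrix (Fin m ⊕ Fin m) (Fin m ⊕ Fin m) F)
      have hGG : G * G' = 1 := Units.mul_inv g
      have hG'G : G' * G = 1 := Units.inv_mul g
      have e' : G * K₀ * G' = a • 1 + b • K₀ := by rw [e, mul_assoc, hGG, mul_one]
      have hb : b ≠ 0 := fun hb => hkn (a + α / 2) (by
        have := congrArg (fun X => G' * X * G) e'
        simp [hb, ← mul_assoc, hG'G] at this
        rw [mul_assoc, hG'G, mul_one, hK₀, sub_eq_iff_eq_add] at this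
        rw [this]; module)
      intro y
      constructor
      · intro hy
        obtain ⟨p, r, rfl⟩ := hgen₀ y hy
        rw [mul_add, add_mul, Matrix.mul_smul, Matrix.mul_smul, Matrix.smul_mul, Matrix.smul_mul, mul_one, e', hGG]
        exact K.add_mem (K.smul_mem K.one_mem p)
          (K.smul_mem (K.add_mem (K.smul_mem K.one_mem a) (K.smul_mem hK₀m b)) r)
      · intro hy
        obtain ⟨p, r, hpr⟩ := hgen₀ _ hy
        have : y = (p - r / b * a) • 1 + (r / b) • K₀ := by
          have h2 : G * y * G' = G * ((p - r / b * a) • 1 + (r / b) • K₀) * G' := by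
            rw [hpr, mul_add, add_mul, Matrix.mul_smul, Matrix.mul_smul, Matrix.smul_mul, Matrix.smul_mul, mul_one,
              e', hGG]
            match_scalars <;> field_simp <;> ring
          have h3 := congrArg (fun X => G' * X * G) h2
          simpa [mul_assoc, hG'G, ← mul_assoc G' G] using h3
        rw [this]
        exact K.add_mem (K.smul_mem K.one_mem _) (K.smul_mem hK₀m _)
  refine Cfsg.Agent.H98.isMaximalIn_of inf_le_right ?_ ?_
  · obtain ⟨g, hg, hgn⟩ := H.exists_not_norm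
    exact ⟨g, hg, fun h => hgn ((hiff g).mp h.1)⟩
  · intro M hHM hMK g hgM hgH
    exact H.spGL_le hMK (fun x hx hxn => hHM ⟨(hiff x).mpr hxn, hx⟩) hgM
      fun h => hgH ⟨(hiff g).mpr h, hMK hgM⟩

end Cfsg.Agent.S5665
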