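import Cfsg.Statements.S5666
import Cfsg.Agent.H1.SpT.Maximal
-- import your own Cfsg.Agent.* helpers here

set_option autoImplicit false
open Cfsg

namespace Cfsg.Agent.S5666

/-- For a finite field F of odd order q and m ≥ 7, suppose the standard alternating form on F^(2m) is similar, through a change of basis P and a bijection of index sets e, to the tensor product of a non-degenerate symplectic form f₁ on F^(n₁) and a non-degenerate symmetric bilinear form f₂ on F^(n₂) with n₂ ≥ 3. Unless q = 3 and n₂ = 3, the elements of Sp_2m(F) in the stabiliser of this tensor decomposition (the conjugate by P of the Kronecker-product subgroup transported along e) form a maximal subgroup of Sp_2m(F). -/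
theorem result {F : Type*} [Field F] [Fintype F] (m : ℕ) (hm : 7 ≤ m) (hodd : Odd (Fintype.card F)) (n₁ n₂ : ℕ) (hn₂ : 3 ≤ n₂) (hex : ¬ (Fintype.card F = 3 ∧ n₂ = 3)) (e : (Fin m ⊕ Fin m) ≃ Fin n₁ × Fin n₂) (P : Matrix.GeneralLinearGroup (Fin m ⊕ Fin m) F) (f₁ : (Fin n₁ → F) → (Fin n₁ → F) → F) (f₂ : (Fin n₂ → F) → (Fin n₂ → F) → F) (hf₁ : Cfsg.Geo.IsSymplecticForm f₁) (hf₂ : Cfsg.Geo.IsSymmetricForm f₂) (hT : Cfsg.Geo.IsTensorFormStructure id (Cfsg.sympForm m F) f₁ f₂ e P) : Cfsg.Geo.IsMaximalIn (Cfsg.spGL m F) (Cfsg.Geo.tensorProductSubgroup n₁ n₂ e P ⊓ Cfsg.spGL m F) := by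
  have h2 : (2 : F) ≠ 0 := fun h => by
    haveI : CharP F 2 := CharTwo.of_one_ne_zero_of_two_eq_zero one_ne_zero h
    exact Nat.not_even_iff_odd.mpr hodd (Nat.even_iff.mpr (FiniteField.even_card_iff_char_two.mp (ringChar.eq F 2)))
  obtain ⟨k, hk⟩ := Cfsg.Agent.H1.SpT.even_of_symplectic h2 f₁ hf₁
  have hcard : m + m = n₁ * n₂ := by simpa using Fintype.card_congr e
  rcases Nat.lt_or_ge n₁ 4 with h4 | h4
  · have h1 : n₁ = 2 := by
      rcases Nat.eq_zero_or_pos n₁ with h0 | h0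
      · subst h0; rw [zero_mul] at hcard; omega
      · omega
    subst h1
    exact Cfsg.Agent.H25.GeoLists.sp_tensor_two_maximal (by omega) hodd e P f₁ f₂ hf₁ hf₂ hT
  · exact Cfsg.Agent.H1.SpT.sp_tensor_maximal h4 hn₂ hodd hex e P f₁ f₂ hf₁ hf₂ hT

end Cfsg.Agent.S5666
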