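import Cfsg.Statements.S5667
import Cfsg.Agent.H1.TensorCases
import Cfsg.Agent.H2.Form

set_option autoImplicit false
open Cfsg
open Cfsg.Agent.H1.TensorNM

namespace Cfsg.Agent.S5667

/-- Over the field with 3 elements and for m ≥ 7, suppose the standard alternating form on F^(2m) is similar, through P and e, to the tensor product of a non-degenerate symplectic form f₁ on F^(n₁) and a non-degenerate symmetric bilinear form f₂ on F^3. Then the elements of Sp_2m(3) in the stabiliser of this tensor decomposition form a subgroup that is not maximal: some subgroup lies strictly between it and Sp_2m(3). -/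
theorem result {F : Type*} [Field F] [Fintype F] (m : ℕ) (hm : 7 ≤ m) (hq : Fintype.card F = 3) (n₁ : ℕ) (e : (Fin m ⊕ Fin m) ≃ Fin n₁ × Fin 3) (P : Matrix.GeneralLinearGroup (Fin m ⊕ Fin m) F) (f₁ : (Fin n₁ → F) → (Fin n₁ → F) → F) (f₂ : (Fin 3 → F) → (Fin 3 → F) → F) (hf₁ : Cfsg.Geo.IsSymplecticForm f₁) (hf₂ : Cfsg.Geo.IsSymmetricForm f₂) (hT : Cfsg.Geo.IsTensorFormStructure id (Cfsg.sympForm m F) f₁ f₂ e P) : ∃ K : Subgroup (Matrix.GeneralLinearGroup (Fin m ⊕ Fin m) F), Cfsg.Geo.tensorProductSubgroup n₁ 3 e P ⊓ Cfsg.spGL m F < K ∧ K < Cfsg.spGL m F := by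
  obtain ⟨c, hc, hT⟩ := hT
  have hs₁ : Sesq (RingHom.id F) (-1) f₁ := ⟨hf₁.bilinear.add_left, hf₁.bilinear.smul_left,
    fun x y => by rw [hf₁.skew y x, RingHom.id_apply, neg_one_mul]⟩
  have hs₂ : Sesq (RingHom.id F) 1 f₂ := ⟨hf₂.bilinear.add_left, hf₂.bilinear.smul_left,
    fun x y => by rw [hf₂.symm y x, RingHom.id_apply, one_mul]⟩
  obtain ⟨w, ε, hε, hw, ho, hfr⟩ := three_frame hq hs₂ fun z hz => (hf₂.nondegenerate z hz).1
  have hcard : Fintype.card (Fin m ⊕ Fin m) = n₁ * 3 := by rw [Fintype.card_congr e]; simp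
  have hB := sesq_formOfGram (σ := RingHom.id F) (sg := ((-1 : F) * 1)) (fun a => rfl)
    (fun a b => kronecker_herm (gramMatrix_herm hs₁) (gramMatrix_herm hs₂) a b)
  rw [mul_one] at hB
  refine not_maximal_of_frame (tensorEquiv e P) pure hcard (Cfsg.sympForm m F)
    (fun u v => by rw [H2.sympForm_swap u v, RingHom.id_apply, neg_one_mul]) _ hB c hc
    (fun X Y => hT X Y) f₁ f₂ hs₁ (fun a => rfl) (by ring)
    (fun z hz => (hf₁.nondegenerate z hz).1) (fun x x' z z' => gram_pure hs₁ hs₂ x x' z z')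
    w ε hε hw ho hfr (by norm_num) ?_ _ _ inf_le_right ?_ inf_le_right
    (fun g hg => exists_action e P g hg.1)
    (fun f' h1 h2 => three_pick_alt hq ?_ f' h1 h2)
  · simp only [Fintype.card_sum, Fintype.card_fin] at hcard; omega
  · intro a ha b hb
    exact mul_mem (mul_mem (mul_mem ha hb) (inv_mem ha)) (inv_mem hb)
  · simp only [Fintype.card_sum, Fintype.card_fin] at hcard; omega

end Cfsg.Agent.S5667
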