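import Cfsg.Statements.S5670
import Cfsg.Agent.H99.TensorU.Maximal
-- import your own Cfsg.Agent.* helpers here

set_option autoImplicit false
open Cfsg

namespace Cfsg.Agent.S5670

/-- Let F be the field with q² elements and n = n₁ n₂ ≥ 13 with 2 ≤ n₁ < n₂ and (n₁, q) ≠ (2, 2). Suppose the standard unitary form on F^n is similar, through a change of basis P and a bijection of index sets e, to the tensor product of non-degenerate unitary forms f₁ on F^(n₁) and f₂ on F^(n₂) (forms linear in the first argument with f_i(v, w) = f_i(w, v)^q). Then the elements of SU_n(q) in the stabiliser of this tensor decomposition form a maximal subgroup of SU_n(q). -/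
theorem result {F : Type*} [Field F] [Fintype F] (n q : ℕ) (hF : Fintype.card F = q ^ 2) (hn : 13 ≤ n) (n₁ n₂ : ℕ) (h1 : 2 ≤ n₁) (h12 : n₁ < n₂) (hex : ¬ (n₁ = 2 ∧ q = 2)) (e : Fin n ≃ Fin n₁ × Fin n₂) (P : Matrix.GeneralLinearGroup (Fin n) F) (f₁ : (Fin n₁ → F) → (Fin n₁ → F) → F) (f₂ : (Fin n₂ → F) → (Fin n₂ → F) → F) (hf₁ : Cfsg.Geo.IsUnitaryFormPow q f₁) (hf₂ : Cfsg.Geo.IsUnitaryFormPow q f₂) (hT : Cfsg.Geo.IsTensorFormStructure (fun x : F => x ^ q) (Cfsg.hermForm n F q) f₁ f₂ e P) : Cfsg.Geo.IsMaximalIn (Cfsg.GU n F q ⊓ Cfsg.Geo.specialLinear (Fin n) F) (Cfsg.Geo.tensorProductSubgroup n₁ n₂ e P ⊓ (Cfsg.GU n F q ⊓ Cfsg.Geo.specialLinear (Fin n) F)) := by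
  exact H99.TensorU.su_tensor_maximal n q hF hn n₁ n₂ h1 h12 hex e P f₁ f₂ hf₁ hf₂ hT

end Cfsg.Agent.S5670
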