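import Cfsg.Statements.S5671
import Cfsg.Agent.H1.TensorCases

set_option autoImplicit false
open Cfsg
open Cfsg.Agent.H1.TensorNM

namespace Cfsg.Agent.S5671

/-- Let F be the field with 4 elements (q = 2) and n = 2 n₂ ≥ 13. Suppose the standard unitary form Σ u_i v_i² on F^n is similar, through P and e, to the tensor product of non-degenerate unitary forms f₁ on F^2 and f₂ on F^(n₂). Then the elements of SU_n(2) in the stabiliser of this tensor decomposition form a subgroup that is not maximal: some subgroup lies strictly between it and SU_n(2). -/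
theorem result {F : Type*} [Field F] [Fintype F] (n : ℕ) (hF : Fintype.card F = 4) (hn : 13 ≤ n) (n₂ : ℕ) (e : Fin n ≃ Fin 2 × Fin n₂) (P : Matrix.GeneralLinearGroup (Fin n) F) (f₁ : (Fin 2 → F) → (Fin 2 → F) → F) (f₂ : (Fin n₂ → F) → (Fin n₂ → F) → F) (hf₁ : Cfsg.Geo.IsUnitaryFormPow 2 f₁) (hf₂ : Cfsg.Geo.IsUnitaryFormPow 2 f₂) (hT : Cfsg.Geo.IsTensorFormStructure (fun x : F => x ^ 2) (Cfsg.hermForm n F 2) f₁ f₂ e P) : ∃ K : Subgroup (Matrix.GeneralLinearGroup (Fin n) F), Cfsg.Geo.tensorProductSubgroup 2 n₂ e P ⊓ (Cfsg.GU n F 2 ⊓ Cfsg.Geo.specialLinear (Fin n) F) < K ∧ K < (Cfsg.GU n F 2 ⊓ Cfsg.Geo.specialLinear (Fin n) F) := by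
  obtain ⟨c, hc, hT⟩ := hT
  obtain ⟨h2, -, hσσ, -⟩ := four_facts hF
  let σ : F →+* F :=
    { toFun := fun x => x ^ 2
      map_one' := one_pow 2
      map_mul' := fun x y => mul_pow x y 2
      map_zero' := zero_pow two_ne_zero
      map_add' := fun x y => by linear_combination (x * y) * h2 }
  have hσ : ∀ a, σ a = a ^ 2 := fun a => rfl
  have hs₁ : Sesq σ 1 f₁ := ⟨hf₁.add_left, hf₁.smul_left,
    fun x y => by rw [hf₁.herm y x, one_mul, hσ]⟩
  have hs₂ : Sesq σ 1 f₂ := ⟨hf₂.add_left, hf₂.smul_left,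
    fun x y => by rw [hf₂.herm y x, one_mul, hσ]⟩
  obtain ⟨w, ε, hε, hw, ho, hfr⟩ := four_frame hF hσ hs₁ fun z hz => (hf₁.nondegenerate z hz).1
  have hcard : Fintype.card (Fin n) = n₂ * 2 := by rw [Fintype.card_congr e]; simp [mul_comm]
  have hn₂ : 3 ≤ n₂ := by rw [Fintype.card_fin] at hcard; omega
  have hB := sesq_formOfGram (σ := σ) (sg := ((1 : F) * 1)) hσσ
    (fun a b => kronecker_herm (gramMatrix_herm hs₁) (gramMatrix_herm hs₂) a b)
  rw [one_mul] at hB
  refine not_maximal_of_frame (tensorEquiv e P) pure.flip hcard (Cfsg.hermForm n F 2)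
    (fun u v => ?_) _ hB c hc
    (fun X Y => hT X Y) f₂ f₁ hs₂ hσσ (one_mul 1)
    (fun z hz => (hf₂.nondegenerate z hz).1)
    (fun x x' z z' => (gram_pure hs₁ hs₂ z z' x x').trans (mul_comm _ _))
    w ε hε hw ho hfr le_rfl hn₂ _ _ inf_le_right ?_
    (inf_le_right.trans inf_le_left) (fun g hg => ?_)
    (fun f' h1 h2 => four_pick hF hσ hn₂ f' h1 h2)
  · rw [one_mul, Cfsg.hermForm, Cfsg.hermForm, map_sum]
    refine Finset.sum_congr rfl fun i _ => ?_
    rw [map_mul, hσ, hσ, hσσ, mul_comm]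
  · intro a ha b hb
    refine ⟨Subgroup.mul_mem _ (Subgroup.mul_mem _ (Subgroup.mul_mem _ ha hb)
      (Subgroup.inv_mem _ ha)) (Subgroup.inv_mem _ hb), ?_⟩
    exact MonoidHom.mem_ker.2 (by rw [map_commutatorElement, commutatorElement_eq_one_iff_commute];
                                  exact Commute.all _ _)
  · obtain ⟨a, b, hab⟩ := exists_action e P g hg.1
    exact ⟨b, a, fun x z => hab z x⟩

end Cfsg.Agent.S5671
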