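import Cfsg.Statements.S5672
import Cfsg.Agent.H90.TensorWreathSU.Final
import Cfsg.Agent.H66.TensorWreathSU.Bad

set_option autoImplicit false
open Cfsg

namespace Cfsg.Agent.S5672

/-- Let F be the field with q² elements and n = k^t ≥ 13 with k ≥ 3, t ≥ 2 and (q, k) ≠ (2, 3). Suppose the standard unitary form on F^n is similar, through a change of basis P and a bijection of index sets e, to the t-fold tensor power of a non-degenerate unitary form f₁ on F^k. Then the elements of SU_n(q) in the stabiliser of this decomposition (the conjugate by P of the standard tensor-wreath subgroup transported along e) form a maximal subgroup of SU_n(q). -/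
theorem result {F : Type*} [Field F] [Fintype F] (n q : ℕ) (hF : Fintype.card F = q ^ 2) (hn : 13 ≤ n) (k t : ℕ) (hk : 3 ≤ k) (ht : 2 ≤ t) (hex : ¬ (q = 2 ∧ k = 3)) (e : Fin n ≃ (Fin t → Fin k)) (P : Matrix.GeneralLinearGroup (Fin n) F) (f₁ : (Fin k → F) → (Fin k → F) → F) (hf₁ : Cfsg.Geo.IsUnitaryFormPow q f₁) (hT : Cfsg.Geo.IsTensorPowerFormStructure (fun x : F => x ^ q) (Cfsg.hermForm n F q) f₁ e P) : Cfsg.Geo.IsMaximalIn (Cfsg.GU n F q ⊓ Cfsg.Geo.specialLinear (Fin n) F) (Cfsg.Geo.tensorWreathSubgroup k t e P ⊓ (Cfsg.GU n F q ⊓ Cfsg.Geo.specialLinear (Fin n) F)) := by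
  exact H90.TensorWreathSU.wreath_maximal_of n hF hk ht hex e P f₁ hf₁ hT
    (fun _ A i hi B hB => H90.TensorWreathSU.root_split_slot A i hi B hB)
    (fun _ A i hi v hv => A.centre_of_bad hi v hv)

end Cfsg.Agent.S5672
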