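import Cfsg.Statements.S5673
import Cfsg.Agent.H99.Aschbacher.OddOrth

set_option autoImplicit false
open Cfsg

namespace Cfsg.Agent.S5673

/-- Subgroup structure of the odd-dimensional orthogonal groups. Let F be a finite field of odd order and m ≥ 3, let Q be the standard quadratic form x₀² + Σ x_i y_i on F^(2m+1), and let Ω be the commutator subgroup of its isometry group, viewed inside GL_(2m+1)(F). Let H be a subgroup of Ω whose product with the scalar matrices in Ω is not all of Ω. Then either H is contained in a member of one of the geometric classes of subgroups of the isometry group (with the conditions built into InOrthogonalOddClass), or H is in the residual class: modulo scalars it is almost simple, and the perfect preimage of its socle acts absolutely irreducibly, is realisable over no proper subfield, and fixes no non-degenerate unitary form. -/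
theorem result {F : Type*} [Field F] [Fintype F] (hodd : Odd (Fintype.card F)) (m : ℕ) (hm : 3 ≤ m) (H : Subgroup (Matrix.GeneralLinearGroup (Unit ⊕ (Fin m ⊕ Fin m)) F)) (hH : H ≤ Cfsg.Geo.omegaGL (Cfsg.quadFormOdd m F)) (hproper : H ⊔ (Cfsg.Geo.scalars (Unit ⊕ (Fin m ⊕ Fin m)) F ⊓ Cfsg.Geo.omegaGL (Cfsg.quadFormOdd m F)) ≠ Cfsg.Geo.omegaGL (Cfsg.quadFormOdd m F)) : (∃ M : Subgroup (Matrix.GeneralLinearGroup (Unit ⊕ (Fin m ⊕ Fin m)) F), Cfsg.Geo.InOrthogonalOddClass m F M ∧ H ≤ M) ∨ Cfsg.Geo.InOrthogonalResidualClass H := by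
  have hI : H ≤ Cfsg.isometryGroup F (Cfsg.quadFormOdd m F) := by
    refine hH.trans ?_
    rw [Cfsg.Geo.omegaGL]
    exact Subgroup.map_subtype_le _
  have mk : ∀ S : Subgroup (Matrix.GeneralLinearGroup (Unit ⊕ (Fin m ⊕ Fin m)) F),
      Cfsg.Geo.InOrthogonalOddClass m F (S ⊓ Cfsg.isometryGroup F (Cfsg.quadFormOdd m F)) → H ≤ S →
      (∃ M : Subgroup (Matrix.GeneralLinearGroup (Unit ⊕ (Fin m ⊕ Fin m)) F),
        Cfsg.Geo.InOrthogonalOddClass m F M ∧ H ≤ M) ∨ Cfsg.Geo.InOrthogonalResidualClass H :=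
    fun S hS hle => Or.inl ⟨_, hS, le_inf hle hI⟩
  rcases H99.Asch.oddOrth_aschbacher hodd (by omega : 1 ≤ m) hI with ⟨W, hW, hts, hle⟩ |
    ⟨W, hW, hW', -, hnd, hle⟩ | ⟨t, k, V, hk, -, hV, -, hle⟩ | ⟨V, hp, hV, hle⟩ |
    ⟨r, K, hr, -, hne, hK, hself, -, hle⟩ | ⟨n₁, n₂, e, P, f₁, f₂, h1, h12, -, -, hf₁, hf₂, hform, -, hle⟩ |
    ⟨F₀, r, P, hr, hc, hQ, -, hle⟩ | ⟨k, t, e, P, f₁, hk, -, ht, hex, hf₁, hform, -, hle⟩ | ⟨hres, -⟩
  · exact mk _ (Or.inl ⟨W, hW, hts, rfl⟩) hle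
  · exact mk _ (Or.inr (Or.inl ⟨W, hW, hW', hnd, rfl⟩)) hle
  · exact mk _ (Or.inr (Or.inr (Or.inl ⟨t, k, V, hk, hV, rfl⟩))) hle
  · exact mk _ (Or.inr (Or.inr (Or.inr (Or.inl ⟨_, V, hp, hV, rfl⟩)))) hle
  · exact mk _ (Or.inr (Or.inr (Or.inr (Or.inr (Or.inl ⟨r, K, hr, hne, hK, hself, rfl⟩))))) hle
  · exact mk _ (Or.inr (Or.inr (Or.inr (Or.inr (Or.inr (Or.inl
      ⟨n₁, n₂, e, P, f₁, f₂, h1, h12, hf₁, hf₂, hform, rfl⟩)))))) hle
  · exact mk _ (Or.inr (Or.inr (Or.inr (Or.inr (Or.inr (Or.inr (Or.inl ⟨F₀, r, P, hr, hc, hQ, rfl⟩))))))) hle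
  · exact mk _ (Or.inr (Or.inr (Or.inr (Or.inr (Or.inr (Or.inr (Or.inr
      ⟨k, t, e, P, f₁, hk, ht, hex, hf₁, hform, rfl⟩))))))) hle
  · exact Or.inr hres

end Cfsg.Agent.S5673
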