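import Cfsg.Statements.S5674
import Cfsg.Agent.H5.OmegaGL
import Cfsg.Agent.H98.QuadFun

set_option autoImplicit false
open Cfsg

namespace Cfsg.Agent.S5674

/-- Let F be a finite field of odd order, m ≥ 6, Q the standard quadratic form x₀² + Σ x_i y_i on F^(2m+1) and Ω the commutator subgroup of its isometry group inside GL_(2m+1)(F). The elements of Ω stabilising a non-zero subspace on which Q vanishes form a maximal subgroup of Ω. -/
theorem result {F : Type*} [Field F] [Fintype F] (hodd : Odd (Fintype.card F)) (m : ℕ) (hm : 6 ≤ m) (W : Submodule F (Unit ⊕ (Fin m ⊕ Fin m) → F)) (hW0 : W ≠ ⊥) (hW : Cfsg.Geo.IsTotallySingularQuad (Cfsg.quadFormOdd m F) W) : Cfsg.Geo.IsMaximalIn (Cfsg.Geo.omegaGL (Cfsg.quadFormOdd m F)) (Cfsg.Geo.subspaceStabilizer W ⊓ Cfsg.Geo.omegaGL (Cfsg.quadFormOdd m F)) := by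
  classical
  have h2 : (2 : F) ≠ 0 := fun h => by
    have := CharTwo.of_one_ne_zero_of_two_eq_zero (R := F) one_ne_zero h
    exact (Nat.not_even_iff_odd.2 hodd) (Nat.even_iff.2 (FiniteField.even_card_of_char_two (ringChar.eq F 2)))
  refine H5.isMaximalIn_stab_singular (H5.qOdd m F) (H5.coe_qOdd m) (H5.qOdd_nondegenerate m h2)
    (by simp; omega) W hW0 hW fun U _ _ _ hU => ?_
  simp at hU
  omega

end Cfsg.Agent.S5674
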