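import Cfsg.Statements.S5675
import Cfsg.Agent.H5.StabNondegGL

set_option autoImplicit false
open Cfsg

namespace Cfsg.Agent.S5675

/-- Let F be a finite field of odd order q, m ≥ 6, Q the standard quadratic form on F^(2m+1) and Ω the commutator subgroup of its isometry group. Let W be a non-zero subspace of even dimension on which the polar form of Q is non-degenerate; exclude the case q = 3, dim W = 2 with Q vanishing on some line of W (a plus-type plane). Then the elements of Ω stabilising W (equivalently, stabilising its orthogonal complement, of odd dimension) form a maximal subgroup of Ω. -/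
theorem result {F : Type*} [Field F] [Fintype F] (hodd : Odd (Fintype.card F)) (m : ℕ) (hm : 6 ≤ m) (W : Submodule F (Unit ⊕ (Fin m ⊕ Fin m) → F)) (hW0 : W ≠ ⊥) (hev : Even (Module.finrank F W)) (hW : Cfsg.Geo.IsNondegenerateOn (QuadraticMap.polar (Cfsg.quadFormOdd m F)) W) (hex : ¬ (Fintype.card F = 3 ∧ Module.finrank F W = 2 ∧ Cfsg.Geo.IsPlusTypeOn (Cfsg.quadFormOdd m F) W)) : Cfsg.Geo.IsMaximalIn (Cfsg.Geo.omegaGL (Cfsg.quadFormOdd m F)) (Cfsg.Geo.subspaceStabilizer W ⊓ Cfsg.Geo.omegaGL (Cfsg.quadFormOdd m F)) := by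
  classical
  have h2 : (2 : F) ≠ 0 := fun h => by
    have := CharTwo.of_one_ne_zero_of_two_eq_zero (R := F) one_ne_zero h
    exact (Nat.not_even_iff_odd.2 hodd) (Nat.even_iff.2 (FiniteField.even_card_of_char_two (ringChar.eq F 2)))
  have hQ := H5.qOdd_nondegenerate (F := F) m h2
  have hf := H5.coe_qOdd (F := F) m
  have hWU := H5.inf_perp_of_isNondegenerateOn (H5.qOdd m F) hf hW
  have hr : Fintype.card (Unit ⊕ (Fin m ⊕ Fin m)) = 2 * m + 1 := by simp; omega
  have hsum := H5.finrank_perp_add hQ W
  rw [Module.finrank_fintype_fun_eq_card, hr] at hsum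
  obtain ⟨j, hj⟩ := hev
  refine H5.isMaximalIn_stab_nondeg (H5.qOdd m F) hf hQ (by omega) W hW0 (fun h => ?_) hWU
    (fun h => by omega) ?_
  · rw [h, finrank_top, Module.finrank_fintype_fun_eq_card, hr] at hj
    omega
  · rintro P hP ⟨hq, hP2, x, hx, hx0, hqx⟩
    rcases hP with rfl | rfl
    · refine hex ⟨?_, hP2, ?_⟩
      · rw [Nat.card_eq_fintype_card] at hq
        have := Fintype.one_lt_card (α := F)
        obtain ⟨i, hi⟩ := hodd
        omega
      · rw [← hf]
        exact H5.isPlusTypeOn_plane (H5.qOdd m F) hP2 hx hx0 hqx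
    · omega

end Cfsg.Agent.S5675
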