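import Cfsg.Statements.S5676
import Cfsg.Agent.H5.PlanePlus

set_option autoImplicit false
open Cfsg

namespace Cfsg.Agent.S5676

/-- Let F be the field with 3 elements, m ≥ 6, Q the standard quadratic form on F^(2m+1) and Ω the commutator subgroup of its isometry group. Let W be a 2-dimensional subspace on which the polar form is non-degenerate and which contains a line on which Q vanishes. Then the elements of Ω stabilising W form a subgroup that is not maximal: some subgroup lies strictly between it and Ω. -/
theorem result {F : Type*} [Field F] [Fintype F] (hq : Fintype.card F = 3) (m : ℕ) (hm : 6 ≤ m) (W : Submodule F (Unit ⊕ (Fin m ⊕ Fin m) → F)) (hdim : Module.finrank F W = 2) (hW : Cfsg.Geo.IsNondegenerateOn (QuadraticMap.polar (Cfsg.quadFormOdd m F)) W) (hplus : Cfsg.Geo.IsPlusTypeOn (Cfsg.quadFormOdd m F) W) : ∃ K : Subgroup (Matrix.GeneralLinearGroup (Unit ⊕ (Fin m ⊕ Fin m)) F), Cfsg.Geo.subspaceStabilizer W ⊓ Cfsg.Geo.omegaGL (Cfsg.quadFormOdd m F) < K ∧ K < Cfsg.Geo.omegaGL (Cfsg.quadFormOdd m F) := by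
  classical
  have h2 : (2 : F) ≠ 0 := fun h => by
    have := CharTwo.of_one_ne_zero_of_two_eq_zero (R := F) one_ne_zero h
    have := FiniteField.even_card_of_char_two (ringChar.eq F 2)
    omega
  have hf := H5.coe_qOdd (F := F) m
  exact H5.not_maximal_stab_plane (H5.qOdd m F) hf (H5.qOdd_nondegenerate m h2) (by simp; omega)
    (by omega) W hdim (H5.inf_perp_of_isNondegenerateOn (H5.qOdd m F) hf hW) hplus

end Cfsg.Agent.S5676
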