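import Cfsg.Statements.S5677
import Cfsg.Agent.H5.DecGL

set_option autoImplicit false
open Cfsg

namespace Cfsg.Agent.S5677

/-- Let F be a finite field of odd order q, m ≥ 6, Q the standard quadratic form on F^(2m+1) and Ω the commutator subgroup of its isometry group. Let D be a decomposition of F^(2m+1) into t ≥ 2 pairwise orthogonal, pairwise Q-isometric subspaces of equal dimension k > 1 on which the polar form is non-degenerate. Unless q = 3 and k = 3, the elements of Ω permuting the members of D form a maximal subgroup of Ω. -/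
theorem result {F : Type*} [Field F] [Fintype F] (hodd : Odd (Fintype.card F)) (m : ℕ) (hm : 6 ≤ m) {t : ℕ} (k : ℕ) (hk : 1 < k) (D : Fin t → Submodule F (Unit ⊕ (Fin m ⊕ Fin m) → F)) (hD : Cfsg.Geo.IsOrthogonalMDecomposition (Cfsg.quadFormOdd m F) k D) (hex : ¬ (Fintype.card F = 3 ∧ k = 3)) : Cfsg.Geo.IsMaximalIn (Cfsg.Geo.omegaGL (Cfsg.quadFormOdd m F)) (Cfsg.Geo.decompositionStabilizer D ⊓ Cfsg.Geo.omegaGL (Cfsg.quadFormOdd m F)) := by
  classical
  have h2 : (2 : F) ≠ 0 := fun h => by
    have := CharTwo.of_one_ne_zero_of_two_eq_zero (R := F) one_ne_zero h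
    exact (Nat.not_even_iff_odd.2 hodd) (Nat.even_iff.2 (FiniteField.even_card_of_char_two (ringChar.eq F 2)))
  have hcard := H5.card_eq_mul_of_mdecomposition hD.decomp.decomp
  simp only [Fintype.card_sum, Fintype.card_unit, Fintype.card_fin] at hcard
  have hk2 : k ≠ 2 := fun h => by rw [h] at hcard; omega
  refine H5.isMaximalIn_dec_of_three_le (H5.coe_qOdd m) (H5.qOdd_nondegenerate m h2)
    (by simp; omega) hD (by omega) (fun hk3 => ?_) (fun hq => ?_)
  · obtain ⟨i, hi⟩ := hodd
    have := Fintype.one_lt_card (α := F)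
    by_contra hlt
    exact hex ⟨by omega, hk3⟩
  · obtain ⟨i, hi⟩ := hodd
    omega

end Cfsg.Agent.S5677
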