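import Cfsg.Statements.S5680
import Cfsg.Agent.H58.ExtField.OrthField
import Cfsg.Agent.H5.OmegaForms

set_option autoImplicit false
open Cfsg

namespace Cfsg.Agent.S5680

/-- Let F be a finite field of odd order, m ≥ 6, Q the standard quadratic form on F^(2m+1) and Ω the commutator subgroup of its isometry group. Let K be a subfield of the algebra of (2m+1) × (2m+1) matrices over F containing the scalars, of prime degree r over F with r ≠ 2m + 1, whose elements are self-adjoint for the polar form of Q. Then the elements of Ω normalising K form a maximal subgroup of Ω. -/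
theorem result {F : Type*} [Field F] [Fintype F] (hodd : Odd (Fintype.card F)) (m : ℕ) (hm : 6 ≤ m) (r : ℕ) (hr : r.Prime) (hrn : 2 * m + 1 ≠ r) (K : Subalgebra F (Matrix (Unit ⊕ (Fin m ⊕ Fin m)) (Unit ⊕ (Fin m ⊕ Fin m)) F)) (hK : Cfsg.Geo.IsFieldSubalgebra r K) (hsa : Cfsg.Geo.IsSelfAdjointFor (QuadraticMap.polar (Cfsg.quadFormOdd m F)) K) : Cfsg.Geo.IsMaximalIn (Cfsg.Geo.omegaGL (Cfsg.quadFormOdd m F)) (Cfsg.Geo.subalgebraNormalizer K ⊓ Cfsg.Geo.omegaGL (Cfsg.quadFormOdd m F)) := by
  classical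
  obtain ⟨a, ha⟩ : ∃ a, 2 * m + 1 = r * a := ⟨Module.finrank (Cfsg.Agent.H58.ExtField.FK hK)
      (Unit ⊕ (Fin m ⊕ Fin m) → F), by
    have := Module.finrank_mul_finrank F (Cfsg.Agent.H58.ExtField.FK hK) (Unit ⊕ (Fin m ⊕ Fin m) → F)
    rw [Cfsg.Agent.H58.ExtField.FK.finrank_eq hK, Module.finrank_fintype_fun_eq_card, Fintype.card_sum,
      Fintype.card_sum, Fintype.card_unit, Fintype.card_fin] at this
    omega⟩
  have hr2 := hr.two_le
  have h2 : (2 : F) ≠ 0 := fun h => by
    have h1 : ringChar F = 2 := CharP.ringChar_of_prime_eq_zero Nat.prime_two h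
    have := FiniteField.even_card_iff_char_two.1 h1
    rw [Nat.odd_iff] at hodd
    omega
  have ha3 : 3 ≤ a := by
    rcases a with _ | _ | _ | a
    · omega
    · omega
    · omega
    · omega
  have hcard : Fintype.card (Unit ⊕ (Fin m ⊕ Fin m)) = r * a := by
    rw [Fintype.card_sum, Fintype.card_sum, Fintype.card_unit, Fintype.card_fin]
    omega
  refine Cfsg.Agent.H58.ExtField.Orth.field_maximal_orth (Cfsg.Agent.H5.qOdd m F)
    (Cfsg.Agent.H5.coe_qOdd m) (Cfsg.Agent.H5.qOdd_nondegenerate m h2) h2 hr hK ?_ ?_ hsa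
  · rw [hcard, mul_comm r a]
    exact Nat.mul_le_mul_right r ha3
  · rcases Nat.lt_or_ge r 5 with hlt | hge
    · refine Or.inr ?_
      rw [hcard, mul_comm r a]
      refine Nat.mul_le_mul_right r ?_
      by_contra h
      have := Nat.mul_le_mul (show r ≤ 4 by omega) (show a ≤ 4 by omega)
      have hne : r ≠ 2 := by rintro rfl; omega
      have hr3 : r = 3 := by
        rcases hr.eq_two_or_odd with h' | h' <;> omega
      subst hr3
      omega
    · exact Or.inl hge

end Cfsg.Agent.S5680
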