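import Cfsg.Statements.S5683
import Cfsg.Agent.H98.OrthSubMain
import Cfsg.Agent.H5.OmegaForms
-- import your own Cfsg.Agent.* helpers here

set_option autoImplicit false
set_option linter.style.haveILetI false
set_option linter.unusedSectionVars false
open Cfsg

namespace Cfsg.Agent.S5683

/-- Let F be a finite field of odd order, m ≥ 6, Q the standard quadratic form on F^(2m+1) and Ω the commutator subgroup of its isometry group. Let F₀ be a subfield with |F| = |F₀| ^ r for a prime r and P an invertible matrix such that Q takes values in F₀ on the F₀-span of the columns of P. Then the elements of Ω lying in the subfield group of P (the conjugate by P of the product of GL_(2m+1)(F₀) with the scalars) form a maximal subgroup of Ω. -/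
theorem result {F : Type*} [Field F] [Fintype F] (hodd : Odd (Fintype.card F)) (m : ℕ) (hm : 6 ≤ m) (F₀ : Subfield F) (r : ℕ) (hr : r.Prime) (hcard : Fintype.card F = Nat.card F₀ ^ r) (P : Matrix.GeneralLinearGroup (Unit ⊕ (Fin m ⊕ Fin m)) F) (hP : Cfsg.Geo.IsQuadFormRationalStructure (Cfsg.quadFormOdd m F) F₀ P) : Cfsg.Geo.IsMaximalIn (Cfsg.Geo.omegaGL (Cfsg.quadFormOdd m F)) (Cfsg.Geo.subfieldSubgroup F₀ P ⊓ Cfsg.Geo.omegaGL (Cfsg.quadFormOdd m F)) := by
  have h2 : (2 : F) ≠ 0 := by
    intro h2
    haveI : CharP F 2 := CharTwo.of_one_ne_zero_of_two_eq_zero one_ne_zero h2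
    exact (Nat.not_even_iff_odd.mpr hodd)
      (Nat.even_iff.mpr (FiniteField.even_card_iff_char_two.mp (ringChar.eq F 2)))
  exact Cfsg.Agent.H98.OSub.subfield_maximal (Cfsg.Agent.H5.qOdd m F) (Cfsg.Agent.H5.coe_qOdd m)
    (Cfsg.Agent.H5.qOdd_nondegenerate m h2) (by simp; omega) F₀ hr
    (by rw [Nat.card_eq_fintype_card]; exact hcard) P one_ne_zero (fun u hu => by rw [one_mul]; exact hP u hu)

end Cfsg.Agent.S5683
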