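import Cfsg.Statements.S5686
import Cfsg.Agent.H5.OmegaGL
import Cfsg.Agent.H5.Families
import Cfsg.Agent.H98.QuadFun

set_option autoImplicit false
open Cfsg

namespace Cfsg.Agent.S5686

/-- Let F be a finite field with q elements, n ≥ 13 even, Q a non-degenerate quadratic form on F^n of plus type (some subspace of dimension n/2 is totally singular), and Ω the commutator subgroup of the isometry group of Q, viewed inside GL_n(F). The elements of Ω stabilising a subspace of dimension n/2 − 1 on which Q vanishes form a subgroup that is not maximal: some subgroup lies strictly between it and Ω. -/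
theorem result {F : Type*} [Field F] [Fintype F] {n : ℕ} (hn : 13 ≤ n) (heven : Even n) (Q : (Fin n → F) → F) (hQ : Cfsg.Geo.IsNondegenerateQuadraticForm Q) (hplus : Cfsg.Geo.IsPlusTypeOn Q ⊤) (W : Submodule F (Fin n → F)) (hW : Cfsg.Geo.IsTotallySingularQuad Q W) (hdim : 2 * (Module.finrank F W + 1) = n) : ∃ K : Subgroup (Matrix.GeneralLinearGroup (Fin n) F), Cfsg.Geo.subspaceStabilizer W ⊓ Cfsg.Geo.omegaGL Q < K ∧ K < Cfsg.Geo.omegaGL Q := by
  classical
  haveI : Finite (Fin n → F) := Pi.finite
  set Q' := H98.qOfFun Q hQ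
  have hQ' := H98.qOfFun_nondeg hQ
  have hf := H98.coe_qOfFun hQ
  have hr : Module.finrank F (Fin n → F) = n := by simp
  obtain ⟨j, hj⟩ : ∃ j, j = Module.finrank F W + 1 := ⟨_, rfl⟩
  have hV : Module.finrank F (Fin n → F) = 2 * j := by omega
  obtain ⟨U₀, -, hU₀, hU₀d⟩ := hplus
  rw [finrank_top] at hU₀d
  obtain ⟨U, hU, hWU⟩ := H4.exists_ge_singSub (Q := Q') hQ' hV (U := W) hW
    ⟨U₀, by omega, hU₀⟩
  have hstab : ∀ (X : Submodule F (Fin n → F)) (g : H5.orth Q'), H5.Preserves X g →
      H5.imageSub g X = X := fun X g h => Submodule.eq_of_le_of_finrank_eq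
    (Submodule.map_le_iff_le_comap.2 h) (LinearEquiv.finrank_map_eq _ _)
  rw [H5.omegaGL_eq_map Q' hf]
  refine ⟨Cfsg.Geo.subspaceStabilizer U ⊓ (commutator (H5.orth Q')).map (H5.toGLHom Q' hf), ?_, ?_⟩
  · refine lt_of_le_not_ge ?_ ?_
    · rintro x ⟨hx, g, hg, rfl⟩
      refine ⟨(H5.toGLHom_mem_stab_iff Q' hf U g).2 fun v hv => ?_, g, hg, rfl⟩
      rw [← H5.imageSub_eq_of_hyperplane hQ' hV hU hWU hj.symm hg
        (hstab W g ((H5.toGLHom_mem_stab_iff Q' hf W g).1 hx))]
      exact Submodule.mem_map_of_mem hv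
    · intro hle
      obtain ⟨u, hu, huW⟩ := H4.exists_mem_notMem_of_finrank_lt
        (show Module.finrank F W < Module.finrank F U by rw [hU.1]; omega)
      obtain ⟨w, hw, hw0⟩ := Submodule.exists_mem_ne_zero_of_ne_bot
        (show W ≠ ⊥ from fun h => by rw [h, finrank_bot] at hj; omega)
      obtain ⟨a, hua, hwa⟩ : ∃ a, QuadraticMap.polar Q' u a = 0 ∧ QuadraticMap.polar Q' w a ≠ 0 := by
        by_contra hc
        push Not at hc
        have hm : w ∈ H5.perp Q' (H5.perp Q' (Submodule.span F {u})) :=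
          H5.mem_perp.2 fun z hz => by
            rw [QuadraticMap.polar_comm]; exact hc z (H5.mem_perp_span.1 hz)
        rw [H5.perp_perp hQ'] at hm
        obtain ⟨c, rfl⟩ := Submodule.mem_span_singleton.1 hm
        have hc0 : c ≠ 0 := fun h => hw0 (by simp [h])
        refine huW ?_
        have := W.smul_mem c⁻¹ hw
        rwa [inv_smul_smul₀ hc0] at this
      have hqu : Q' u = 0 := hU.2 u hu
      have hg := H5.eich_mem_commutator hQ' (by omega) u a
      have hpU : H5.Preserves U (H5.eich Q' u a) := fun x hx => by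
        rw [H5.eich_apply hqu hua, show QuadraticMap.polar Q' u x = 0 from
          H4.polar_eq_zero_of_singular hU.2 hu hx]
        simp only [zero_smul, add_zero, mul_zero, sub_zero]
        exact sub_mem hx (U.smul_mem _ hu)
      have hmem := hle (show H5.toGLHom Q' hf (H5.eich Q' u a) ∈ _ from
        ⟨(H5.toGLHom_mem_stab_iff Q' hf U _).2 hpU, _, hg, rfl⟩)
      have h := (H5.toGLHom_mem_stab_iff Q' hf W _).1 hmem.1 w hw
      rw [H5.eich_apply hqu hua, show QuadraticMap.polar Q' u w = 0 from
          H4.polar_eq_zero_of_singular hU.2 hu (hWU hw)] at h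
      simp only [zero_smul, add_zero, mul_zero, sub_zero] at h
      have h' : QuadraticMap.polar Q' a w • u ∈ W := by simpa using sub_mem hw h
      refine huW ?_
      have := W.smul_mem (QuadraticMap.polar Q' a w)⁻¹ h'
      rwa [inv_smul_smul₀ (by rwa [QuadraticMap.polar_comm])] at this
  · refine lt_of_le_not_ge inf_le_right fun hle => ?_
    obtain ⟨g, hg, hgU⟩ := H5.exists_not_preserves_singular hQ' (by omega)
      (show U ≠ ⊥ from fun h => by have := hU.1; rw [h, finrank_bot] at this; omega) hU.2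
    exact hgU ((H5.toGLHom_mem_stab_iff Q' hf U g).1 (hle ⟨g, hg, rfl⟩).1)

end Cfsg.Agent.S5686
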