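import Cfsg.Statements.S5688
import Cfsg.Agent.H5.StabNondegGL
import Cfsg.Agent.H98.QuadFun

set_option autoImplicit false
open Cfsg

namespace Cfsg.Agent.S5688

/-- Let F be a finite field with q elements, n ≥ 13 even, Q a non-degenerate quadratic form on F^n of plus type (some subspace of dimension n/2 is totally singular), and Ω the commutator subgroup of the isometry group of Q, viewed inside GL_n(F). Let W be a non-zero proper subspace with dim W ≠ n/2 on which the polar form of Q is non-degenerate. Exclude the case q ≤ 3 in which W, or its orthogonal complement, is a plane containing a line on which Q vanishes. Then the elements of Ω stabilising W form a maximal subgroup of Ω. -/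
theorem result {F : Type*} [Field F] [Fintype F] {n : ℕ} (hn : 13 ≤ n) (heven : Even n) (Q : (Fin n → F) → F) (hQ : Cfsg.Geo.IsNondegenerateQuadraticForm Q) (hplus : Cfsg.Geo.IsPlusTypeOn Q ⊤) (W : Submodule F (Fin n → F)) (hW0 : W ≠ ⊥) (hW1 : W ≠ ⊤) (hdim : 2 * Module.finrank F W ≠ n) (hW : Cfsg.Geo.IsNondegenerateOn (QuadraticMap.polar Q) W) (hex : ¬ (Fintype.card F ≤ 3 ∧ (∃ U : Submodule F (Fin n → F), Module.finrank F U = 2 ∧ Cfsg.Geo.IsNondegenerateOn (QuadraticMap.polar Q) U ∧ Cfsg.Geo.IsPlusTypeOn Q U ∧ (U = W ∨ (Cfsg.Geo.AreOrthogonalFor (QuadraticMap.polar Q) U W ∧ Module.finrank F U + Module.finrank F W = n))))) : Cfsg.Geo.IsMaximalIn (Cfsg.Geo.omegaGL Q) (Cfsg.Geo.subspaceStabilizer W ⊓ Cfsg.Geo.omegaGL Q) := by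
  classical
  have hQ' := H98.qOfFun_nondeg hQ
  have hf := H98.coe_qOfFun hQ
  have hWU := H5.inf_perp_of_isNondegenerateOn (H98.qOfFun Q hQ) hf hW
  have hsum := H5.finrank_perp_add hQ' W
  rw [Module.finrank_fintype_fun_eq_card, Fintype.card_fin] at hsum
  refine H5.isMaximalIn_stab_nondeg (H98.qOfFun Q hQ) hf hQ' (by simpa using hn) W hW0 hW1 hWU
    (fun h => absurd (by simpa using h) hdim) ?_
  rintro P hP ⟨hq, hP2, x, hx, hx0, hqx⟩
  rw [Nat.card_eq_fintype_card] at hq
  have hp : Cfsg.Geo.IsPlusTypeOn Q P := H5.isPlusTypeOn_plane (H98.qOfFun Q hQ) hP2 hx hx0 hqx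
  rcases hP with rfl | rfl
  · exact hex ⟨hq, P, hP2, hW, hp, Or.inl rfl⟩
  · refine hex ⟨hq, _, hP2, H5.isNondegenerateOn_of_inf_perp _ hf
      (by rw [H5.perp_perp hQ', inf_comm]; exact hWU), hp, Or.inr ⟨fun u hu w hw => ?_, by omega⟩⟩
    rw [QuadraticMap.polar_comm]
    exact H5.mem_perp.1 hu w hw

end Cfsg.Agent.S5688
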