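import Cfsg.Statements.S5691
import Cfsg.Agent.H5.OmegaGL
import Cfsg.Agent.H5.StabVector
import Cfsg.Agent.H98.QuadFun

set_option autoImplicit false
open Cfsg

namespace Cfsg.Agent.S5691

/-- Let F be a finite field with q elements, n ≥ 13 even, Q a non-degenerate quadratic form on F^n (of either type), and Ω the commutator subgroup of the isometry group of Q, viewed inside GL_n(F). Suppose q is even and v is a vector with Q(v) ≠ 0. Then the elements of Ω stabilising the line spanned by v form a maximal subgroup of Ω. -/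
theorem result {F : Type*} [Field F] [Fintype F] {n : ℕ} (hn : 13 ≤ n) (heven : Even n) (Q : (Fin n → F) → F) (hQ : Cfsg.Geo.IsNondegenerateQuadraticForm Q) (hchar : ¬ Odd (Fintype.card F)) (v : (Fin n → F)) (hv : Q v ≠ 0) : Cfsg.Geo.IsMaximalIn (Cfsg.Geo.omegaGL Q) (Cfsg.Geo.subspaceStabilizer (Submodule.span F {v}) ⊓ Cfsg.Geo.omegaGL Q) := by
  classical
  have h2 : (2 : F) = 0 := by
    by_contra h2
    apply hchar
    rw [Nat.odd_iff]
    refine FiniteField.odd_card_of_char_ne_two fun hc => h2 ?_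
    haveI : CharP F 2 := (ringChar.eq_iff).1 hc
    exact CharTwo.two_eq_zero
  haveI : Finite (Fin n → F) := Pi.finite
  have hr : Module.finrank F (Fin n → F) = n := by simp
  refine H5.isMaximalIn_omegaGL (H98.qOfFun Q hQ) (H98.coe_qOfFun hQ) _ ?_ ?_
  · obtain ⟨g, hg, hgv⟩ := H5.exists_not_preserves_point (Q := H98.qOfFun Q hQ)
      (H98.qOfFun_nondeg hQ) (by omega) (v := v) hv
    exact ⟨g, hg, fun h => hgv ((H5.toGLHom_mem_stab_iff _ _ _ g).1 h)⟩
  · intro M hM g hgM _ hgS
    exact H5.commutator_le_of_point (H98.qOfFun_nondeg hQ) h2 (by omega) (v := v) hv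
      (fun k hk hkW => hM k hk ((H5.toGLHom_mem_stab_iff _ _ _ k).2 hkW)) hgM
      (fun h => hgS ((H5.toGLHom_mem_stab_iff _ _ _ g).2 h))

end Cfsg.Agent.S5691
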