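import Cfsg.Statements.S5692
import Cfsg.Agent.H5.DecTwoGL
import Cfsg.Agent.H98.QuadFun

set_option autoImplicit false
open Cfsg

namespace Cfsg.Agent.S5692

/-- Let F be a finite field with q elements, n ≥ 13 even, Q a non-degenerate quadratic form on F^n of plus type (some subspace of dimension n/2 is totally singular), and Ω the commutator subgroup of the isometry group of Q, viewed inside GL_n(F). Let D be a decomposition of F^n into t ≥ 2 pairwise orthogonal, pairwise Q-isometric subspaces of equal dimension k ≥ 2 on which the polar form is non-degenerate, such that: if k is even, either every member is of plus type or t is even; if k is odd, q is odd and the discriminant of Q is a square. Exclude the cases k = 2 with q = 3, k = 2 with plus-type members and q ∈ {2, 4, 5}, k = 3 with q = 3, and k = 4 with plus-type members and q = 2. Then the elements of Ω permuting the members of D form a maximal subgroup of Ω. -/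
theorem result {F : Type*} [Field F] [Fintype F] {n : ℕ} (hn : 13 ≤ n) (heven : Even n) (Q : (Fin n → F) → F) (hQ : Cfsg.Geo.IsNondegenerateQuadraticForm Q) (hplus : Cfsg.Geo.IsPlusTypeOn Q ⊤) {t : ℕ} (k : ℕ) (hk : 2 ≤ k) (D : Fin t → Submodule F (Fin n → F)) (hD : Cfsg.Geo.IsOrthogonalMDecomposition Q k D) (hke : Even k → ((∀ i, Cfsg.Geo.IsPlusTypeOn Q (D i)) ∨ Even t)) (hko : Odd k → (Odd (Fintype.card F) ∧ Cfsg.Geo.HasSquareDiscriminant Q)) (hex : ¬ ((k = 2 ∧ (Fintype.card F = 3 ∨ ((∀ i, Cfsg.Geo.IsPlusTypeOn Q (D i)) ∧ (Fintype.card F = 2 ∨ Fintype.card F = 4 ∨ Fintype.card F = 5)))) ∨ (k = 3 ∧ Fintype.card F = 3) ∨ (k = 4 ∧ Fintype.card F = 2 ∧ ∀ i, Cfsg.Geo.IsPlusTypeOn Q (D i)))) : Cfsg.Geo.IsMaximalIn (Cfsg.Geo.omegaGL Q) (Cfsg.Geo.decompositionStabilizer D ⊓ Cfsg.Geo.omegaGL Q) := by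
  classical
  rcases (show k = 2 ∨ 3 ≤ k by omega) with rfl | hk3
  · refine H5.isMaximalIn_dec_two (H98.coe_qOfFun hQ) (H98.qOfFun_nondeg hQ) (by simpa using hn) hD ?_
    by_cases hp : ∀ i, Cfsg.Geo.IsPlusTypeOn Q (D i)
    · refine Or.inr ?_
      have hpp : IsPrimePow (Fintype.card F) := Fintype.isPrimePow_card_of_field
      have h6 : Fintype.card F ≠ 6 := fun h6 => by
        rw [h6, isPrimePow_nat_iff_bounded] at hpp
        revert hpp
        decide
      have h1 := Fintype.one_lt_card (α := F)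
      by_contra h7
      rcases (show Fintype.card F = 2 ∨ Fintype.card F = 3 ∨ Fintype.card F = 4 ∨ Fintype.card F = 5
        by omega) with h | h | h | h
      exacts [hex (Or.inl ⟨rfl, Or.inr ⟨hp, Or.inl h⟩⟩), hex (Or.inl ⟨rfl, Or.inl h⟩),
        hex (Or.inl ⟨rfl, Or.inr ⟨hp, Or.inr (Or.inl h)⟩⟩),
        hex (Or.inl ⟨rfl, Or.inr ⟨hp, Or.inr (Or.inr h)⟩⟩)]
    · push Not at hp
      obtain ⟨i, hi⟩ := hp
      exact Or.inl ⟨fun j hj => hi (H5.forall_isPlusTypeOn hD hj i),
        fun h => hex (Or.inl ⟨rfl, Or.inl h⟩)⟩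
  · refine H5.isMaximalIn_dec_of_three_le (H98.coe_qOfFun hQ) (H98.qOfFun_nondeg hQ)
      (by simpa using hn) hD hk3 (fun h => ?_) (fun h h4 i hi => hex (Or.inr (Or.inr ⟨h4, h,
        fun j => H5.forall_isPlusTypeOn hD hi j⟩)))
    obtain ⟨m, hm⟩ := (hko (by rw [h]; decide)).1
    have h1 := Fintype.one_lt_card (α := F)
    have h3 : Fintype.card F ≠ 3 := fun h3 => hex (Or.inr (Or.inl ⟨h, h3⟩))
    omega

end Cfsg.Agent.S5692
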