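import Cfsg.Statements.S5697
import Cfsg.Agent.H98.SingPair
import Cfsg.Agent.H98.QuadFun
import Cfsg.Agent.H5.OmegaGL
-- import your own Cfsg.Agent.* helpers here

set_option autoImplicit false
set_option linter.style.haveILetI false
set_option linter.unusedSectionVars false
open Cfsg

namespace Cfsg.Agent.S5697

/-- Let F be a finite field with q elements, n ≥ 13 even, Q a non-degenerate quadratic form on F^n of plus type (some subspace of dimension n/2 is totally singular), and Ω the commutator subgroup of the isometry group of Q, viewed inside GL_n(F). Suppose n/2 is even and let D be a decomposition of F^n into two complementary subspaces of dimension n/2 on each of which Q vanishes. Then the elements of Ω preserving or interchanging the two subspaces form a maximal subgroup of Ω. -/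
theorem result {F : Type*} [Field F] [Fintype F] {n : ℕ} (hn : 13 ≤ n) (heven : Even n) (Q : (Fin n → F) → F) (hQ : Cfsg.Geo.IsNondegenerateQuadraticForm Q) (hplus : Cfsg.Geo.IsPlusTypeOn Q ⊤) (k : ℕ) (hk : 2 * k = n) (hke : Even k) (D : Fin 2 → Submodule F (Fin n → F)) (hD : Cfsg.Geo.IsMDecomposition k D) (hts : ∀ i, Cfsg.Geo.IsTotallySingularQuad Q (D i)) : Cfsg.Geo.IsMaximalIn (Cfsg.Geo.omegaGL Q) (Cfsg.Geo.decompositionStabilizer D ⊓ Cfsg.Geo.omegaGL Q) := by
  classical
  haveI : Finite (Fin n → F) := Pi.finite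
  set q := Cfsg.Agent.H98.qOfFun Q hQ
  have hf : ⇑q = Q := Cfsg.Agent.H98.coe_qOfFun hQ
  have hcompl : IsCompl (D 0) (D 1) := ⟨hD.indep.pairwiseDisjoint (show (0 : Fin 2) ≠ 1 by decide),
    codisjoint_iff.mpr (by
      refine eq_top_iff.mpr (hD.iSup_eq_top ▸ iSup_le fun i => ?_)
      fin_cases i
      · exact le_sup_left
      · exact le_sup_right)⟩
  have P : Cfsg.Agent.H98.SingPair.Pair q (D 0) (D 1) k :=
    ⟨Cfsg.Agent.H98.qOfFun_nondeg hQ, fun w hw => by rw [hf]; exact hts 0 w hw,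
      fun w hw => by rw [hf]; exact hts 1 w hw, hcompl, hD.finrank_eq 0, hD.finrank_eq 1, by omega⟩
  have hiff : ∀ g : Cfsg.Agent.H5.orth q, Cfsg.Agent.H5.toGLHom q hf g ∈ Cfsg.Geo.decompositionStabilizer D ↔
      Cfsg.Agent.H98.SingPair.KeepsPair (D 0) (D 1) g := by
    intro g
    have hmap : ∀ (i j : Fin 2), (D i).map (Matrix.toLin'
        ((Cfsg.Agent.H5.toGLHom q hf g : Matrix.GeneralLinearGroup (Fin n) F) : Matrix (Fin n) (Fin n) F)) = D j ↔
        ∀ z ∈ D i, (g : (Fin n → F) ≃ₗ[F] (Fin n → F)) z ∈ D j := by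
      intro i j
      refine ⟨fun h z hz => ?_, fun h => ?_⟩
      · rw [← Cfsg.Agent.H5.toGLHom_mulVec q hf, ← Matrix.toLin'_apply, ← h]
        exact Submodule.mem_map_of_mem hz
      · refine Submodule.eq_of_le_of_finrank_le ?_ ?_
        · rintro _ ⟨z, hz, rfl⟩
          rw [Matrix.toLin'_apply, Cfsg.Agent.H5.toGLHom_mulVec]
          exact h z hz
        · rw [← (Submodule.equivMapOfInjective _ (fun x y hxy => by
            rw [Matrix.toLin'_apply, Matrix.toLin'_apply] at hxy
            exact Cfsg.Agent.H98.gl_mulVec_injective _ hxy) (D i)).finrank_eq, hD.finrank_eq, hD.finrank_eq]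
    constructor
    · rintro ⟨σ, hσ⟩
      have key : ∀ s : Equiv.Perm (Fin 2), (s 0 = 0 ∧ s 1 = 1) ∨ (s 0 = 1 ∧ s 1 = 0) := by decide
      rcases key σ with ⟨a, b⟩ | ⟨a, b⟩
      · exact Or.inl ⟨(hmap 0 0).mp (by rw [hσ 0, a]), (hmap 1 1).mp (by rw [hσ 1, b])⟩
      · exact Or.inr ⟨(hmap 0 1).mp (by rw [hσ 0, a]), (hmap 1 0).mp (by rw [hσ 1, b])⟩
    · rintro (⟨a, b⟩ | ⟨a, b⟩)
      · refine ⟨1, fun i => ?_⟩
        fin_cases i
        · exact (hmap 0 0).mpr a
        · exact (hmap 1 1).mpr b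
      · refine ⟨Equiv.swap 0 1, fun i => ?_⟩
        fin_cases i
        · exact (hmap 0 1).mpr a
        · exact (hmap 1 0).mpr b
  refine Cfsg.Agent.H5.isMaximalIn_omegaGL q hf _ ?_ fun M hM g hg _ hgS => ?_
  · obtain ⟨g, hg, hgn⟩ := P.exists_not_keeps
    exact ⟨g, hg, fun h => hgn ((hiff g).mp h)⟩
  · exact P.commutator_le hke (fun x hx hk' => hM x hx ((hiff x).mpr hk')) hg (fun h => hgS ((hiff g).mpr h))

end Cfsg.Agent.S5697
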