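import Cfsg.Statements.S5698
import Cfsg.Agent.H5.OmegaGL
import Cfsg.Agent.H5.Families
import Cfsg.Agent.H98.QuadFun

set_option autoImplicit false
open Cfsg

namespace Cfsg.Agent.S5698

/-- Let F be a finite field with q elements, n ≥ 13 even, Q a non-degenerate quadratic form on F^n of plus type (some subspace of dimension n/2 is totally singular), and Ω the commutator subgroup of the isometry group of Q, viewed inside GL_n(F). Suppose n/2 is odd and let D be a decomposition of F^n into two complementary subspaces of dimension n/2 on each of which Q vanishes. Then the elements of Ω preserving or interchanging the two subspaces form a subgroup that is not maximal: some subgroup lies strictly between it and Ω. -/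
theorem result {F : Type*} [Field F] [Fintype F] {n : ℕ} (hn : 13 ≤ n) (heven : Even n) (Q : (Fin n → F) → F) (hQ : Cfsg.Geo.IsNondegenerateQuadraticForm Q) (hplus : Cfsg.Geo.IsPlusTypeOn Q ⊤) (k : ℕ) (hk : 2 * k = n) (hko : Odd k) (D : Fin 2 → Submodule F (Fin n → F)) (hD : Cfsg.Geo.IsMDecomposition k D) (hts : ∀ i, Cfsg.Geo.IsTotallySingularQuad Q (D i)) : ∃ K : Subgroup (Matrix.GeneralLinearGroup (Fin n) F), Cfsg.Geo.decompositionStabilizer D ⊓ Cfsg.Geo.omegaGL Q < K ∧ K < Cfsg.Geo.omegaGL Q := by
  classical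
  haveI : Finite (Fin n → F) := Pi.finite
  set Q' := H98.qOfFun Q hQ
  have hQ' : (QuadraticMap.polarBilin Q').Nondegenerate := H98.qOfFun_nondeg hQ
  have hf := H98.coe_qOfFun hQ
  have hr : Module.finrank F (Fin n → F) = n := by simp
  have hV : Module.finrank F (Fin n → F) = 2 * k := by omega
  have hU : ∀ i, H4.IsSingSub Q' k (D i) := fun i => ⟨hD.finrank_eq i, hts i⟩
  have hinf : D 0 ⊓ D 1 = ⊥ := (hD.indep.pairwiseDisjoint (show (0 : Fin 2) ≠ 1 by decide)).eq_bot
  have hlin : ∀ g : H5.orth Q',
      Matrix.toLin' ((H5.toGLHom Q' hf g : GL (Fin n) F) : Matrix (Fin n) (Fin n) F) =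
        ((g : (Fin n → F) ≃ₗ[F] (Fin n → F)) : (Fin n → F) →ₗ[F] (Fin n → F)) := fun g =>
    LinearMap.ext fun v => by rw [Matrix.toLin'_apply]; exact H5.toGLHom_mulVec Q' hf g v
  rw [H5.omegaGL_eq_map Q' hf]
  refine ⟨Cfsg.Geo.subspaceStabilizer (D 0) ⊓ (commutator (H5.orth Q')).map (H5.toGLHom Q' hf),
    ?_, ?_⟩
  · refine lt_of_le_not_ge ?_ ?_
    · rintro x ⟨⟨σ, hσ⟩, g, hg, rfl⟩
      refine ⟨(H5.toGLHom_mem_stab_iff Q' hf _ g).2 fun v hv => ?_, g, hg, rfl⟩
      have h := hσ 0
      rw [hlin] at h
      rcases Fin.exists_fin_two.1 ⟨σ 0, rfl⟩ with hs | hs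
      · rw [hs] at h
        exact h ▸ Submodule.mem_map_of_mem hv
      · rw [hs] at h
        have := H5.even_codim_of_mem_commutator hQ' hV (hU 0) hg
        rw [show H5.imageSub g (D 0) = D 1 from h, hinf, finrank_bot] at this
        exact absurd this (Nat.not_even_iff_odd.2 hko)
    · intro hle
      obtain ⟨e, he, he0⟩ := Submodule.exists_mem_ne_zero_of_ne_bot
        (show D 0 ≠ ⊥ from fun h => by have := (hU 0).1; rw [h, finrank_bot] at this; omega)
      obtain ⟨a, ha, hae⟩ := H4.exists_mem_notMem_of_finrank_lt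
        (show Module.finrank F (Submodule.span F {e}) < Module.finrank F (D 0) by
          rw [finrank_span_singleton he0, (hU 0).1]; omega)
      have hea : QuadraticMap.polar Q' e a = 0 := H4.polar_eq_zero_of_singular (hU 0).2 he ha
      have hqe : Q' e = 0 := (hU 0).2 e he
      have hqa : Q' a = 0 := (hU 0).2 a ha
      obtain ⟨f, hfD, hef⟩ : ∃ f ∈ D 1, QuadraticMap.polar Q' e f ≠ 0 := by
        by_contra hc
        push Not at hc
        have hp : D 1 = H5.perp Q' (D 1) := by
          refine Submodule.eq_of_le_of_finrank_eq (H5.le_perp_of_forall_eq_zero (hU 1).2) ?_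
          have := H5.finrank_perp_add hQ' (D 1)
          rw [(hU 1).1] at this ⊢
          omega
        have hm : e ∈ D 1 := by
          rw [hp]
          exact H5.mem_perp.2 fun z hz => by rw [QuadraticMap.polar_comm]; exact hc z hz
        have : e ∈ D 0 ⊓ D 1 := ⟨he, hm⟩
        rw [hinf, Submodule.mem_bot] at this
        exact he0 this
      have hg := H5.eich_mem_commutator hQ' (by omega) e a
      have hp0 : H5.Preserves (D 0) (H5.eich Q' e a) := fun x hx => by
        rw [H5.eich_apply hqe hea, show QuadraticMap.polar Q' e x = 0 from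
          H4.polar_eq_zero_of_singular (hU 0).2 he hx]
        simp only [zero_smul, add_zero, mul_zero, sub_zero]
        exact sub_mem hx ((D 0).smul_mem _ he)
      obtain ⟨σ, hσ⟩ := (hle (show H5.toGLHom Q' hf (H5.eich Q' e a) ∈ _ from
        ⟨(H5.toGLHom_mem_stab_iff Q' hf _ _).2 hp0, _, hg, rfl⟩)).1
      have h0 := hσ 0
      have h1 := hσ 1
      rw [hlin] at h0 h1
      have hne : D 0 ≠ D 1 := fun h => he0 <| by
        have : e ∈ D 0 ⊓ D 1 := ⟨he, h ▸ he⟩
        rwa [hinf, Submodule.mem_bot] at this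
      have hs0 : σ 0 = 0 := by
        rcases Fin.exists_fin_two.1 ⟨σ 0, rfl⟩ with hs | hs
        · exact hs
        · refine absurd ?_ hne
          rw [hs] at h0
          rw [← h0]
          exact (Submodule.eq_of_le_of_finrank_eq (Submodule.map_le_iff_le_comap.2 hp0)
            (LinearEquiv.finrank_map_eq _ _)).symm
      have hs1 : σ 1 = 1 := by
        rcases Fin.exists_fin_two.1 ⟨σ 1, rfl⟩ with hs | hs
        · exact absurd (σ.injective (hs.trans hs0.symm)) (by decide)
        · exact hs
      rw [hs1] at h1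
      have hm : (H5.eich Q' e a : (Fin n → F) ≃ₗ[F] (Fin n → F)) f ∈ D 1 :=
        h1.le (Submodule.mem_map_of_mem hfD)
      rw [H5.eich_apply hqe hea, hqa] at hm
      simp only [zero_mul, zero_smul, sub_zero] at hm
      set c := QuadraticMap.polar Q' e f
      set d := QuadraticMap.polar Q' a f
      have hmem : c • a - d • e ∈ D 0 ⊓ D 1 := by
        refine ⟨sub_mem ((D 0).smul_mem _ ha) ((D 0).smul_mem _ he), ?_⟩
        have := sub_mem hm hfD
        rwa [show f + c • a - d • e - f = c • a - d • e by abel] at this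
      rw [hinf, Submodule.mem_bot, sub_eq_zero] at hmem
      refine hae (Submodule.mem_span_singleton.2 ⟨c⁻¹ * d, ?_⟩)
      rw [mul_smul, ← hmem, inv_smul_smul₀ hef]
  · refine lt_of_le_not_ge inf_le_right fun hle => ?_
    obtain ⟨g, hg, hgU⟩ := H5.exists_not_preserves_singular hQ' (by omega)
      (show D 0 ≠ ⊥ from fun h => by have := (hU 0).1; rw [h, finrank_bot] at this; omega) (hU 0).2
    exact hgU ((H5.toGLHom_mem_stab_iff Q' hf _ g).1 (hle ⟨g, hg, rfl⟩).1)

end Cfsg.Agent.S5698
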