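import Cfsg.Statements.S5699
import Cfsg.Agent.H5.StabNondegGL
import Cfsg.Agent.H98.QuadFun

set_option autoImplicit false
open Cfsg

namespace Cfsg.Agent.S5699

/-- Let F be a finite field with q elements, n ≥ 13 even, Q a non-degenerate quadratic form on F^n (of either type), and Ω the commutator subgroup of the isometry group of Q, viewed inside GL_n(F). Let D be a decomposition of F^n into two orthogonal subspaces of odd dimension n/2 on which the polar form is non-degenerate and which are not Q-isometric to each other. Then the elements of Ω permuting (necessarily fixing) the two subspaces form a maximal subgroup of Ω. -/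
theorem result {F : Type*} [Field F] [Fintype F] {n : ℕ} (hn : 13 ≤ n) (heven : Even n) (Q : (Fin n → F) → F) (hQ : Cfsg.Geo.IsNondegenerateQuadraticForm Q) (k : ℕ) (hk : 2 * k = n) (hko : Odd k) (D : Fin 2 → Submodule F (Fin n → F)) (hD : Cfsg.Geo.IsNondegenerateMDecomposition (QuadraticMap.polar Q) k D) (hni : ¬ Cfsg.Geo.AreIsometricFor Q (D 0) (D 1)) : Cfsg.Geo.IsMaximalIn (Cfsg.Geo.omegaGL Q) (Cfsg.Geo.decompositionStabilizer D ⊓ Cfsg.Geo.omegaGL Q) := by
  classical
  have hQ' := H98.qOfFun_nondeg hQ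
  have hf := H98.coe_qOfFun hQ
  obtain ⟨hdec, hnd, horth⟩ := hD
  have hWU := H5.inf_perp_of_isNondegenerateOn (H98.qOfFun Q hQ) hf (hnd 0)
  have hsum := H5.finrank_perp_add hQ' (D 0)
  rw [Module.finrank_fintype_fun_eq_card, Fintype.card_fin] at hsum
  have h0 : Module.finrank F (D 0) = k := hdec.finrank_eq 0
  have h1 : D 1 = H5.perp (H98.qOfFun Q hQ) (D 0) :=
    Submodule.eq_of_le_of_finrank_eq
      (fun v hv => H5.mem_perp.2 fun u hu => horth 0 1 (by decide) u hu v hv)
      (by rw [hdec.finrank_eq 1]; omega)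
  have hswap : ∀ (e : (Fin n → F) ≃ₗ[F] (Fin n → F)), (∀ x, Q (e x) = Q x) →
      ¬ ∀ x ∈ D 0, e x ∈ H5.perp (H98.qOfFun Q hQ) (D 0) := by
    intro e he hmap
    have hle : (D 0).map (e : (Fin n → F) →ₗ[F] (Fin n → F)) = D 1 := by
      refine Submodule.eq_of_le_of_finrank_eq ?_
        (by rw [LinearEquiv.finrank_map_eq, h0, hdec.finrank_eq 1])
      rintro _ ⟨x, hx, rfl⟩
      rw [h1]
      exact hmap x hx
    exact hni ⟨(e.submoduleMap (D 0)).trans (LinearEquiv.ofEq _ _ hle), fun w => he w⟩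
  have hstab : Cfsg.Geo.decompositionStabilizer D ⊓ Cfsg.Geo.omegaGL Q =
      Cfsg.Geo.subspaceStabilizer (D 0) ⊓ Cfsg.Geo.omegaGL Q := by
    rw [H5.omegaGL_eq_map _ hf]
    ext x
    simp only [Subgroup.mem_inf]
    refine and_congr_left fun hx => ?_
    obtain ⟨g, -, rfl⟩ := hx
    have hlin : Matrix.toLin' ((H5.toGLHom _ hf g : GL (Fin n) F) : Matrix (Fin n) (Fin n) F) =
        ((g : (Fin n → F) ≃ₗ[F] (Fin n → F)) : (Fin n → F) →ₗ[F] (Fin n → F)) := by
      refine LinearMap.ext fun v => ?_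
      rw [Matrix.toLin'_apply]
      exact H5.toGLHom_mulVec _ hf g v
    rw [H5.toGLHom_mem_stab_iff]
    constructor
    · rintro ⟨σ, hσ⟩
      have h := hσ 0
      rw [hlin] at h
      rcases Fin.exists_fin_two.1 ⟨σ 0, rfl⟩ with hs | hs
      · rw [hs] at h
        exact fun v hv => h ▸ Submodule.mem_map_of_mem hv
      · rw [hs, h1] at h
        exact absurd (fun v hv => h ▸ Submodule.mem_map_of_mem hv) (hswap _ g.2)
    · intro hg
      refine ⟨1, fun i => ?_⟩
      rw [hlin, Equiv.Perm.one_apply]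
      refine Submodule.eq_of_le_of_finrank_eq ?_ (LinearEquiv.finrank_map_eq _ _)
      rintro _ ⟨v, hv, rfl⟩
      fin_cases i
      · exact hg v hv
      · change v ∈ D 1 at hv
        change _ ∈ D 1
        rw [h1] at hv ⊢
        exact hg.perp v hv
  rw [hstab]
  refine H5.isMaximalIn_stab_nondeg (H98.qOfFun Q hQ) hf hQ' (by simpa using hn) (D 0) ?_ ?_ hWU
    (fun _ g => hswap _ g.2) ?_
  · intro h
    rw [h, finrank_bot] at h0
    omega
  · intro h
    rw [h, finrank_top, Module.finrank_fintype_fun_eq_card, Fintype.card_fin] at h0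
    omega
  · rintro P hP ⟨-, hP2, -⟩
    rcases hP with rfl | rfl <;> omega

end Cfsg.Agent.S5699
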