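import Cfsg.Statements.S5701
import Cfsg.Agent.H58.ExtField.OrthField
import Cfsg.Agent.H98.QuadFun

set_option autoImplicit false
open Cfsg

namespace Cfsg.Agent.S5701

/-- Let F be a finite field with q elements, n ≥ 13 even, Q a non-degenerate quadratic form on F^n (of either type), and Ω the commutator subgroup of the isometry group of Q, viewed inside GL_n(F). Suppose q is odd. Let K be a subfield of the algebra of n × n matrices over F containing the scalars, of prime degree r over F with n/r ≥ 3, whose elements are self-adjoint for the polar form of Q. Then the elements of Ω normalising K form a maximal subgroup of Ω. -/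
theorem result {F : Type*} [Field F] [Fintype F] {n : ℕ} (hn : 13 ≤ n) (heven : Even n) (Q : (Fin n → F) → F) (hQ : Cfsg.Geo.IsNondegenerateQuadraticForm Q) (hodd : Odd (Fintype.card F)) (r : ℕ) (hr : r.Prime) (hnr : 3 * r ≤ n) (K : Subalgebra F (Matrix (Fin n) (Fin n) F)) (hK : Cfsg.Geo.IsFieldSubalgebra r K) (hsa : Cfsg.Geo.IsSelfAdjointFor (QuadraticMap.polar Q) K) : Cfsg.Geo.IsMaximalIn (Cfsg.Geo.omegaGL Q) (Cfsg.Geo.subalgebraNormalizer K ⊓ Cfsg.Geo.omegaGL Q) := by
  classical
  haveI : Nonempty (Fin n) := ⟨⟨0, by omega⟩⟩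
  obtain ⟨a, ha⟩ : ∃ a, n = r * a := ⟨Module.finrank (Cfsg.Agent.H58.ExtField.FK hK) (Fin n → F), by
    have := Module.finrank_mul_finrank F (Cfsg.Agent.H58.ExtField.FK hK) (Fin n → F)
    rw [Cfsg.Agent.H58.ExtField.FK.finrank_eq hK, Module.finrank_fintype_fun_eq_card, Fintype.card_fin] at this
    exact this.symm⟩
  have hr2 := hr.two_le
  have ha3 : 3 ≤ a := Nat.le_of_mul_le_mul_left (by rw [← ha, mul_comm]; exact hnr) hr.pos
  have ha4 : 4 ≤ a := by
    by_contra hlt
    obtain rfl : a = 3 := by omega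
    rcases hr.eq_two_or_odd' with rfl | ho
    · omega
    · exact Nat.not_odd_iff_even.2 heven (ha ▸ ho.mul (by decide))
  have h2 : (2 : F) ≠ 0 := fun h => by
    have h1 : ringChar F = 2 := CharP.ringChar_of_prime_eq_zero Nat.prime_two h
    have := FiniteField.even_card_iff_char_two.1 h1
    rw [Nat.odd_iff] at hodd
    omega
  refine Cfsg.Agent.H58.ExtField.Orth.field_maximal_orth (Cfsg.Agent.H98.qOfFun Q hQ)
    (Cfsg.Agent.H98.coe_qOfFun hQ) (Cfsg.Agent.H98.qOfFun_nondeg hQ) h2 hr hK ?_ ?_ hsa
  · rw [Fintype.card_fin, ha, mul_comm r a]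
    exact Nat.mul_le_mul_right r (show 3 ≤ a by omega)
  · rcases Nat.lt_or_ge r 5 with hlt | hge
    · refine Or.inr ?_
      rw [Fintype.card_fin]
      rcases Nat.lt_or_ge a 5 with ha5 | ha5
      · have := Nat.mul_le_mul (Nat.le_of_lt_succ (show r < 4 by
          by_contra h
          obtain rfl : r = 4 := by omega
          exact absurd hr (by decide))) (Nat.le_of_lt_succ ha5)
        omega
      · rw [ha, mul_comm r a]
        exact Nat.mul_le_mul_right r ha5
    · exact Or.inl hge

end Cfsg.Agent.S5701
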