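import Cfsg.Statements.S5705
import Cfsg.Agent.H1.TensorTwo

set_option autoImplicit false
open Cfsg
open Cfsg.Agent.H1.TensorNM

namespace Cfsg.Agent.S5705

/-- Let F be the field with 2 elements, n = 2 n₂ ≥ 13 even, Q a non-degenerate quadratic form on F^n of plus type and Ω the commutator subgroup of its isometry group. Suppose that, through P and e, the polar form of Q is similar to the tensor product of non-degenerate symplectic forms f₁ on F^2 and f₂ on F^(n₂), and Q vanishes on the images of all pure tensors. Then the elements of Ω in the stabiliser of this tensor decomposition form a subgroup that is not maximal: some subgroup lies strictly between it and Ω. -/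
theorem result {F : Type*} [Field F] [Fintype F] {n : ℕ} (hn : 13 ≤ n) (heven : Even n) (Q : (Fin n → F) → F) (hQ : Cfsg.Geo.IsNondegenerateQuadraticForm Q) (hplus : Cfsg.Geo.IsPlusTypeOn Q ⊤) (hq : Fintype.card F = 2) (n₂ : ℕ) (h2 : 2 < n₂) (e : (Fin n) ≃ Fin 2 × Fin n₂) (P : Matrix.GeneralLinearGroup (Fin n) F) (f₁ : (Fin 2 → F) → (Fin 2 → F) → F) (f₂ : (Fin n₂ → F) → (Fin n₂ → F) → F) (hf₁ : Cfsg.Geo.IsSymplecticForm f₁) (hf₂ : Cfsg.Geo.IsSymplecticForm f₂) (hT : Cfsg.Geo.IsTensorFormStructure id (QuadraticMap.polar Q) f₁ f₂ e P) (hpure : (∀ (x₁ : Fin 2 → F) (x₂ : Fin n₂ → F), Q (Matrix.mulVec (P : Matrix (Fin n) (Fin n) F) ((fun a : Fin 2 × Fin n₂ => x₁ a.1 * x₂ a.2) ∘ e)) = 0)) : ∃ K : Subgroup (Matrix.GeneralLinearGroup (Fin n) F), Cfsg.Geo.tensorProductSubgroup 2 n₂ e P ⊓ Cfsg.Geo.omegaGL Q < K ∧ K < Cfsg.Geo.omegaGL Q := by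
  obtain ⟨c, hc, hT⟩ := hT
  classical
  have h01 : ∀ a : F, a = 0 ∨ a = 1 := fun a => by
    rcases eq_or_ne a 0 with h | h
    · exact Or.inl h
    · have := FiniteField.pow_card_sub_one_eq_one a h
      rw [hq] at this
      exact Or.inr (by simpa using this)
  have h20 : (2 : F) = 0 := by
    have := FiniteField.cast_card_eq_zero F
    rw [hq] at this
    exact_mod_cast this
  have hs₁ : Sesq (RingHom.id F) (-1) f₁ := ⟨hf₁.bilinear.add_left, hf₁.bilinear.smul_left,
    fun x y => by rw [hf₁.skew y x, RingHom.id_apply, neg_one_mul]⟩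
  have hs₂ : Sesq (RingHom.id F) (-1) f₂ := ⟨hf₂.bilinear.add_left, hf₂.bilinear.smul_left,
    fun x y => by rw [hf₂.skew y x, RingHom.id_apply, neg_one_mul]⟩
  let E : ((Fin n₂ → F) × (Fin n₂ → F)) ≃ₗ[F] (Fin 2 × Fin n₂ → F) :=
    { toFun := fun p a => ![p.1, p.2] a.1 a.2
      map_add' := fun p p' => by
        funext ⟨i, j⟩; fin_cases i <;> simp
      map_smul' := fun r p => by
        funext ⟨i, j⟩; fin_cases i <;> simp
      invFun := fun X => (fun j => X (0, j), fun j => X (1, j))
      left_inv := fun p => rfl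
      right_inv := fun X => by funext ⟨i, j⟩; fin_cases i <;> rfl }
  let L := E.trans (tensorEquiv e P)
  have hL : ∀ (s : Fin 2 → F) (y : Fin n₂ → F),
      L (s 0 • y, s 1 • y) = tensorEquiv e P (pure s y) := by
    intro s y
    show tensorEquiv e P (E _) = _
    congr 1
    funext ⟨i, j⟩
    fin_cases i <;> rfl
  have hc1 : c = 1 := (h01 c).resolve_left hc
  have hf1 : f₁ ![1, 0] ![0, 1] = 1 := by
    refine (h01 _).resolve_left fun h0 => ?_
    obtain ⟨z, hz⟩ := (hf₁.nondegenerate ![0, 1] (fun h => by simpa using congrFun h 1)).1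
    apply hz
    rw [show z = z 0 • ![1, 0] + z 1 • ![0, 1] by funext i; fin_cases i <;> simp,
      hf₁.bilinear.add_left, hf₁.bilinear.smul_left, hf₁.bilinear.smul_left, h0,
      hf₁.alternating, mul_zero, mul_zero, add_zero]
  refine not_maximal_two h20 h01 (by omega) L Q f₂ hf₂.bilinear.add_left hf₂.bilinear.smul_left
    hf₂.bilinear.add_right hf₂.bilinear.smul_right
    (fun x y => by rw [hf₂.skew x y]; linear_combination (-(f₂ y x)) * h20)
    hf₂.alternating (fun w hw => (hf₂.nondegenerate w hw).1) (fun p => ?_) _ inf_le_right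
    (fun g hg => ?_)
  · have hsplit : L p = tensorEquiv e P (pure ![1, 0] p.1) + tensorEquiv e P (pure ![0, 1] p.2) := by
      rw [← hL, ← hL, ← map_add]; simp
    have hpu : ∀ (x : Fin 2 → F) (y : Fin n₂ → F), Q (tensorEquiv e P (pure x y)) = 0 := hpure
    have hpolar := hT (pure ![1, 0] p.1) (pure ![0, 1] p.2)
    rw [← tensorEquiv_apply, ← tensorEquiv_apply, show (id : F → F) = ⇑(RingHom.id F) from rfl, gram_pure hs₁ hs₂, hf1, hc1, one_mul, one_mul,
      QuadraticMap.polar, hpu, hpu, sub_zero, sub_zero, ← hsplit] at hpolar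
    exact hpolar
  · obtain ⟨a, b, hab⟩ := exists_action e P g hg.1
    exact ⟨a, b, fun s y => by rw [hL, hL, hab]⟩

end Cfsg.Agent.S5705
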