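import Cfsg.Statements.S5707
import Cfsg.Agent.H9.WreathTransfer
-- import your own Cfsg.Agent.* helpers here

set_option autoImplicit false
open Cfsg

namespace Cfsg.Agent.S5707

/-- Let F be a finite field with q elements, n ≥ 13 even, Q a non-degenerate quadratic form on F^n of plus type (some subspace of dimension n/2 is totally singular), and Ω the commutator subgroup of the isometry group of Q, viewed inside GL_n(F). Suppose q is even and that, through P and e, the polar form of Q is similar to the t-fold tensor power (t ≥ 2) of a non-degenerate symplectic form f₁ on F^k with k ≤ 4 and (q, k) ≠ (2, 2), Q vanishing on the images of all pure tensors. Then the elements of Ω in the stabiliser of this decomposition form a subgroup that is not maximal: some subgroup lies strictly between it and Ω. -/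
theorem result {F : Type*} [Field F] [Fintype F] {n : ℕ} (hn : 13 ≤ n) (heven : Even n) (Q : (Fin n → F) → F) (hQ : Cfsg.Geo.IsNondegenerateQuadraticForm Q) (hplus : Cfsg.Geo.IsPlusTypeOn Q ⊤) (hchar : ¬ Odd (Fintype.card F)) (k t : ℕ) (ht : 2 ≤ t) (hk : k ≤ 4) (hex1 : ¬ (Fintype.card F = 2 ∧ k = 2)) (e : (Fin n) ≃ (Fin t → Fin k)) (P : Matrix.GeneralLinearGroup (Fin n) F) (f₁ : (Fin k → F) → (Fin k → F) → F) (hf₁ : Cfsg.Geo.IsSymplecticForm f₁) (hT : Cfsg.Geo.IsTensorPowerFormStructure id (QuadraticMap.polar Q) f₁ e P) (hpure : (∀ xs : Fin t → (Fin k → F), Q (Matrix.mulVec (P : Matrix (Fin n) (Fin n) F) ((fun a : Fin t → Fin k => ∏ i, xs i (a i)) ∘ e)) = 0)) : ∃ K : Subgroup (Matrix.GeneralLinearGroup (Fin n) F), Cfsg.Geo.tensorWreathSubgroup k t e P ⊓ Cfsg.Geo.omegaGL Q < K ∧ K < Cfsg.Geo.omegaGL Q := by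
  classical
  have h2 : (2 : F) = 0 := by
    have hc : ringChar F = 2 := by
      rw [FiniteField.even_card_iff_char_two]
      exact Nat.not_odd_iff.mp hchar
    have h := ringChar.Nat.cast_ringChar (R := F)
    rw [hc] at h
    exact_mod_cast h
  obtain ⟨B, hB, hkeven⟩ := Cfsg.Agent.H9.Wreath.exists_antiBasis h2 f₁ hf₁
  have hcard : n = k ^ t := by simpa using Fintype.card_congr e
  obtain ⟨s, rfl⟩ : ∃ s, t = s + 2 := ⟨t - 2, by omega⟩
  have hk24 : k = 2 ∨ k = 4 := by
    obtain ⟨m, rfl⟩ := hkeven
    rcases m with _ | _ | _ | m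
    · simp at hcard; omega
    · left; rfl
    · right; rfl
    · omega
  rcases hk24 with rfl | rfl
  · have ht3 : 3 ≤ s + 2 := by
      by_contra h
      have : s = 0 := by omega
      subst this
      omega
    obtain ⟨l, hl0, hl1⟩ : ∃ l : F, l ≠ 0 ∧ l ≠ 1 := by
      by_contra h
      push Not at h
      apply hex1
      refine ⟨le_antisymm ?_ Fintype.one_lt_card, rfl⟩
      calc Fintype.card F = (Finset.univ : Finset F).card := Finset.card_univ.symm
        _ ≤ ({0, 1} : Finset F).card := Finset.card_le_card fun x _ => by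
          rcases eq_or_ne x 0 with hx | hx
          · simp [hx]
          · simp [h x hx]
        _ ≤ 2 := Finset.card_le_two
    exact Cfsg.Agent.H9.Wreath.exists_between_frame
      (Cfsg.Agent.H9.Wreath.locTwo (s + 2) ht3 h2 l hl0 hl1) h2 Q hQ.smul f₁ B hB e P hT hpure
  · exact Cfsg.Agent.H9.Wreath.exists_between_frame
      (Cfsg.Agent.H9.Wreath.locFour (s + 2) h2) h2 Q hQ.smul f₁ B hB e P hT hpure

end Cfsg.Agent.S5707
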