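import Cfsg.Statements.S5710
import Cfsg.Agent.H1.TensorCases

set_option autoImplicit false
open Cfsg
open Cfsg.Agent.H1.TensorNM

namespace Cfsg.Agent.S5710

/-- Let F be the field with 3 elements, n = 3 n₂ ≥ 13 even, Q a non-degenerate quadratic form on F^n of minus type and Ω the commutator subgroup of its isometry group. Suppose that, through P and e, the polar form of Q is similar to the tensor product of non-degenerate symmetric bilinear forms f₁ on F^3 and f₂ on F^(n₂), n₂ even and at least 4, of minus type. Then the elements of Ω in the stabiliser of this tensor decomposition form a subgroup that is not maximal: some subgroup lies strictly between it and Ω. -/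
theorem result {F : Type*} [Field F] [Fintype F] {n : ℕ} (hn : 13 ≤ n) (heven : Even n) (Q : (Fin n → F) → F) (hQ : Cfsg.Geo.IsNondegenerateQuadraticForm Q) (hminus : ¬ Cfsg.Geo.IsPlusTypeOn Q ⊤) (hq : Fintype.card F = 3) (n₂ : ℕ) (h2 : 4 ≤ n₂) (h2e : Even n₂) (e : (Fin n) ≃ Fin 3 × Fin n₂) (P : Matrix.GeneralLinearGroup (Fin n) F) (f₁ : (Fin 3 → F) → (Fin 3 → F) → F) (f₂ : (Fin n₂ → F) → (Fin n₂ → F) → F) (hf₁ : Cfsg.Geo.IsSymmetricForm f₁) (hf₂ : Cfsg.Geo.IsSymmetricForm f₂) (hf₂m : ¬ Cfsg.Geo.IsPlusTypeOn (fun v : Fin n₂ → F => f₂ v v) ⊤) (hT : Cfsg.Geo.IsTensorFormStructure id (QuadraticMap.polar Q) f₁ f₂ e P) : ∃ K : Subgroup (Matrix.GeneralLinearGroup (Fin n) F), Cfsg.Geo.tensorProductSubgroup 3 n₂ e P ⊓ Cfsg.Geo.omegaGL Q < K ∧ K < Cfsg.Geo.omegaGL Q := by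
  obtain ⟨c, hc, hT⟩ := hT
  have hs₁ : Sesq (RingHom.id F) 1 f₁ := ⟨hf₁.bilinear.add_left, hf₁.bilinear.smul_left,
    fun x y => by rw [hf₁.symm y x, RingHom.id_apply, one_mul]⟩
  have hs₂ : Sesq (RingHom.id F) 1 f₂ := ⟨hf₂.bilinear.add_left, hf₂.bilinear.smul_left,
    fun x y => by rw [hf₂.symm y x, RingHom.id_apply, one_mul]⟩
  obtain ⟨w, ε, hε, hw, ho, hfr⟩ := three_frame hq hs₁ fun z hz => (hf₁.nondegenerate z hz).1
  have hcard : Fintype.card (Fin n) = n₂ * 3 := by rw [Fintype.card_congr e]; simp [mul_comm]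
  have hB := sesq_formOfGram (σ := RingHom.id F) (sg := ((1 : F) * 1)) (fun a => rfl)
    (fun a b => kronecker_herm (gramMatrix_herm hs₁) (gramMatrix_herm hs₂) a b)
  rw [one_mul] at hB
  refine not_maximal_of_frame (tensorEquiv e P) pure.flip hcard (QuadraticMap.polar Q)
    (fun u v => by rw [RingHom.id_apply, one_mul, QuadraticMap.polar_comm]) _ hB c hc
    (fun X Y => hT X Y) f₂ f₁ hs₂ (fun a => rfl) (one_mul 1)
    (fun z hz => (hf₂.nondegenerate z hz).1)
    (fun x x' z z' => (gram_pure hs₁ hs₂ z z' x x').trans (mul_comm _ _))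
    w ε hε hw ho hfr (by norm_num) (by omega) _ _ inf_le_right
    (commutator_mem_omegaGL (three_facts hq).2.1 hQ.smul)
    (inf_le_right.trans omegaGL_le_iso) (fun g hg => ?_)
    (fun f' h1 h2 => three_pick_symm hq (by omega) f' h1 h2)
  obtain ⟨a, b, hab⟩ := exists_action e P g hg.1
  exact ⟨b, a, fun x z => hab z x⟩

end Cfsg.Agent.S5710
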