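import Cfsg.Statements.S5775
import Cfsg.Agent.H99.Aschbacher.Cubic
-- import your own Cfsg.Agent.* helpers here

set_option autoImplicit false
open Cfsg

namespace Cfsg.Agent.S5775

/-- Every maximal subgroup of SL_3(q) is of one of the listed geometric types or lies in the residual class. Let F be a finite field with q elements and H a maximal subgroup of SL_3(F) (viewed inside GL_3(F)). Then H is the intersection with SL_3(F) of one of: the stabiliser of a proper non-zero subspace; for q ≥ 5, the stabiliser of a decomposition of F^3 into three independent lines; for q ≠ 4, the normaliser of a degree-3 subfield of the matrix algebra; a subfield group for a subfield F₀ with |F| = |F₀|^r, r prime; for q = p ≡ 1 mod 3 prime, the normaliser of an absolutely irreducible 3-subgroup R of exponent 3 with centre of order 3, all of whose characteristic abelian subgroups are cyclic, of order 3^(1+2m) for some m ≥ 1, with F the smallest field of characteristic p containing the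 cube roots of unity (so R is extraspecial of order 27); for q odd, the similarity group of a non-degenerate quadratic form; the similarity group of a non-degenerate unitary form — or else H lies in the residual class of the linear case (modulo scalars H is almost simple, with absolutely irreducible perfect socle preimage realisable over no proper subfield and fixing no non-degenerate quadratic, symplectic or unitary form). -/
theorem result {F : Type*} [Field F] [Fintype F] (H : Subgroup (Matrix.GeneralLinearGroup (Fin 3) F)) (hH : Cfsg.Geo.IsMaximalIn (Cfsg.Geo.specialLinear (Fin 3) F) H) :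
    (∃ W : Submodule F (Fin 3 → F), W ≠ ⊥ ∧ W ≠ ⊤ ∧ H = Cfsg.Geo.subspaceStabilizer W ⊓ Cfsg.Geo.specialLinear (Fin 3) F) ∨
    (5 ≤ Fintype.card F ∧ ∃ D : Fin 3 → Submodule F (Fin 3 → F), Cfsg.Geo.IsMDecomposition 1 D ∧ H = Cfsg.Geo.decompositionStabilizer D ⊓ Cfsg.Geo.specialLinear (Fin 3) F) ∨
    (Fintype.card F ≠ 4 ∧ ∃ K : Subalgebra F (Matrix (Fin 3) (Fin 3) F), Cfsg.Geo.IsFieldSubalgebra 3 K ∧ H = Cfsg.Geo.subalgebraNormalizer K ⊓ Cfsg.Geo.specialLinear (Fin 3) F) ∨
    (∃ (F₀ : Subfield F) (r : ℕ) (P : Matrix.GeneralLinearGroup (Fin 3) F), r.Prime ∧ Fintype.card F = Nat.card F₀ ^ r ∧ H = Cfsg.Geo.subfieldSubgroup F₀ P ⊓ Cfsg.Geo.specialLinear (Fin 3) F) ∨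
    (∃ (p : ℕ) (R : Subgroup (Matrix.GeneralLinearGroup (Fin 3) F)), p.Prime ∧ Fintype.card F = p ∧ p % 3 = 1 ∧ Cfsg.Geo.IsLinearSymplecticTypeData 3 R ∧ H = Cfsg.Geo.subgroupNormalizer R ⊓ Cfsg.Geo.specialLinear (Fin 3) F) ∨
    (Odd (Fintype.card F) ∧ ∃ Q : (Fin 3 → F) → F, Cfsg.Geo.IsNondegenerateQuadraticForm Q ∧ H = Cfsg.Geo.quadSimilarityGroup Q ⊓ Cfsg.Geo.specialLinear (Fin 3) F) ∨
    (∃ (σ : F ≃+* F) (f : (Fin 3 → F) → (Fin 3 → F) → F), Cfsg.Geo.IsUnitaryForm σ f ∧ H = Cfsg.Geo.similarityGroup f ⊓ Cfsg.Geo.specialLinear (Fin 3) F) ∨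
    Cfsg.Geo.InLinearResidualClass H := by
  rcases Cfsg.Agent.H99.Asch.maximal_list (by simp) (by simp) hH with ⟨W, w1, w2, h⟩ |
    ⟨t, m, D, hD, htm, c1, c2, c3, h⟩ | ⟨r, K, hr, hrn, hK, h⟩ | ⟨n₁, n₂, e, P, h1, h2, hc, c2, h⟩ |
    ⟨F₁, r, P, hr, hc, h⟩ | ⟨r, R, m, hR, hm, hm1, h⟩ | ⟨m, e, P, h1, hc, h⟩ | ⟨he, f, hf, h⟩ |
    ⟨σ, f, hf, h⟩ | ⟨ho, Q, hQ, h⟩ | h
  · exact (Or.inl (⟨W, w1, w2, h⟩))
  · simp only [Fintype.card_fin] at htm
    have ht := hD.two_le
    have hmpos := hD.pos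
    have hcases : (t = 3 ∧ m = 1) := by
      have : t ≤ 3 := htm ▸ Nat.le_mul_of_pos_right t hmpos
      interval_cases t <;> omega
    obtain ⟨rfl, rfl⟩ := hcases
    exact (Or.inr (Or.inl (⟨c1 rfl, D, hD, h⟩)))
  · simp only [Fintype.card_fin] at hrn
    have hcases : r = 3 := by
      have := Nat.le_of_dvd (by norm_num) hrn
      have := hr.two_le
      interval_cases r <;> first | omega | (exfalso; revert hr; decide)
    subst hcases
    by_cases h4 : Fintype.card F = 4
    · obtain ⟨F₀, P, hc, hle⟩ := Cfsg.Agent.H99.Asch.cubic_four h4 hK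
      exact (Or.inr (Or.inr (Or.inr (Or.inl (⟨F₀, 2, P, Nat.prime_two, hc, Cfsg.Agent.H99.Asch.eq_inf_of_maximal hH (h.le.trans hle) (Cfsg.Agent.H99.Asch.sl_not_le_subfield (by simp) Nat.prime_two hc P)⟩)))))
    · exact (Or.inr (Or.inr (Or.inl (⟨h4, K, hK, h⟩))))
  · simp only [Fintype.card_fin] at hc
    exfalso
    have : n₁ ≤ 3 := hc.symm ▸ Nat.le_mul_of_pos_right n₁ (by omega)
    interval_cases n₁ <;> omega
  · exact (Or.inr (Or.inr (Or.inr (Or.inl (⟨F₁, r, P, hr, hc, h⟩)))))
  · simp only [Fintype.card_fin] at hm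
    obtain rfl : r = 3 := Cfsg.Agent.H99.Asch.prime_of_pow_eq hR.symplecticType.prime (by norm_num) (k := 1) (by rw [← hm]; norm_num) hm1
    obtain ⟨p, e, hp, hch, hpc, hodd, hdvd, hr1, hmin⟩ := Cfsg.Agent.H99.Asch.classSix_odd (by decide) hR
    have he : e = 1 := by
      have := Nat.le_of_dvd (by norm_num) hdvd
      obtain ⟨j, rfl⟩ := hodd
      have hj : j ≤ 5 := by omega
      interval_cases j <;> revert hdvd <;> norm_num
    subst he
    rw [pow_one] at hr1 hpc
    have h2 := hp.two_le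
    have hmod : p % 3 = 1 := by omega
    exact (Or.inr (Or.inr (Or.inr (Or.inr (Or.inl (⟨p, R, hp, hpc, hmod, hR, h⟩))))))
  · simp only [Fintype.card_fin] at hc
    exfalso
    have : m ≤ 3 := by nlinarith
    interval_cases m
    omega
  · exact absurd he (by simp; decide)
  · exact (Or.inr (Or.inr (Or.inr (Or.inr (Or.inr (Or.inr (Or.inl (⟨σ, f, hf, h⟩))))))))
  · exact (Or.inr (Or.inr (Or.inr (Or.inr (Or.inr (Or.inl (⟨ho, Q, hQ, h⟩)))))))
  · exact (Or.inr (Or.inr (Or.inr (Or.inr (Or.inr (Or.inr (Or.inr (h))))))))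

end Cfsg.Agent.S5775
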