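import Cfsg.Statements.S5778
import Cfsg.Agent.H3.UMax.FieldThreeThree
import Cfsg.Agent.H3.UMax.FieldThreeFive
import Cfsg.Agent.H3.UMax.SubfieldThree
import Cfsg.Agent.H3.UMax.TypeThree
import Cfsg.Agent.H99.Aschbacher.UnitaryDims

set_option autoImplicit false
open Cfsg

namespace Cfsg.Agent.S5778

/-- Every maximal subgroup of SU_3(q), q ≥ 3, is of one of the listed geometric types or lies in the residual class. Let F be the field with q² elements, f the standard unitary form Σ u_i v_i^q on F^3, and H a maximal subgroup of SU_3(q) (the determinant-one isometries of f, inside GL_3(F)). Then H is the intersection with SU_3(q) of one of: the stabiliser of a non-zero subspace on which f vanishes; the stabiliser of a non-degenerate 1-space; for q ≠ 5, the stabiliser of a decomposition into three mutually orthogonal non-degenerate 1-spaces; for q ≠ 3, 5, the normaliser of an adjoint-closed degree-3 subfield of the matrix algebra;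 a subfield group of odd prime index whose F₀-structure carries f; for q odd, q ≥ 7, a subfield group of index 2 whose F₀-structure carries f; for q = p ≡ 2 mod 3 prime with p ≥ 11, the normaliser of an absolutely irreducible subgroup of order 27 with centre of order 3, exponent 3 and all characteristic abelian subgroups cyclic, contained in the similarity group of f — or else H lies in the residual class of the unitary case. -/
theorem result {F : Type*} [Field F] [Fintype F] (q : ℕ) (hF : Fintype.card F = q ^ 2) (hq : 3 ≤ q) (H : Subgroup (Matrix.GeneralLinearGroup (Fin 3) F)) (hH : Cfsg.Geo.IsMaximalIn (Cfsg.GU 3 F q ⊓ Cfsg.Geo.specialLinear (Fin 3) F) H) :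
    (∃ W : Submodule F (Fin 3 → F), W ≠ ⊥ ∧ Cfsg.Geo.IsTotallySingularFor (Cfsg.hermForm 3 F q) W ∧ H = Cfsg.Geo.subspaceStabilizer W ⊓ (Cfsg.GU 3 F q ⊓ Cfsg.Geo.specialLinear (Fin 3) F)) ∨
    (∃ W : Submodule F (Fin 3 → F), W ≠ ⊥ ∧ Cfsg.Geo.IsNondegenerateOn (Cfsg.hermForm 3 F q) W ∧ 2 * Module.finrank F W < 3 ∧ H = Cfsg.Geo.subspaceStabilizer W ⊓ (Cfsg.GU 3 F q ⊓ Cfsg.Geo.specialLinear (Fin 3) F)) ∨
    (q ≠ 5 ∧ ∃ D : Fin 3 → Submodule F (Fin 3 → F), Cfsg.Geo.IsNondegenerateMDecomposition (Cfsg.hermForm 3 F q) 1 D ∧ H = Cfsg.Geo.decompositionStabilizer D ⊓ (Cfsg.GU 3 F q ⊓ Cfsg.Geo.specialLinear (Fin 3) F)) ∨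
    (q ≠ 3 ∧ q ≠ 5 ∧ ∃ K : Subalgebra F (Matrix (Fin 3) (Fin 3) F), Cfsg.Geo.IsFieldSubalgebra 3 K ∧ Cfsg.Geo.IsAdjointClosedFor (Cfsg.hermForm 3 F q) K ∧ H = Cfsg.Geo.subalgebraNormalizer K ⊓ (Cfsg.GU 3 F q ⊓ Cfsg.Geo.specialLinear (Fin 3) F)) ∨
    (∃ (F₀ : Subfield F) (r : ℕ) (P : Matrix.GeneralLinearGroup (Fin 3) F), r.Prime ∧ Odd r ∧ Fintype.card F = Nat.card F₀ ^ r ∧ Cfsg.Geo.IsFormRationalStructure (Cfsg.hermForm 3 F q) F₀ 1 P ∧ H = Cfsg.Geo.subfieldSubgroup F₀ P ⊓ (Cfsg.GU 3 F q ⊓ Cfsg.Geo.specialLinear (Fin 3) F)) ∨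
    (Odd q ∧ 7 ≤ q ∧ ∃ (F₀ : Subfield F) (P : Matrix.GeneralLinearGroup (Fin 3) F), Fintype.card F = Nat.card F₀ ^ 2 ∧ Cfsg.Geo.IsFormRationalStructure (Cfsg.hermForm 3 F q) F₀ 1 P ∧ H = Cfsg.Geo.subfieldSubgroup F₀ P ⊓ (Cfsg.GU 3 F q ⊓ Cfsg.Geo.specialLinear (Fin 3) F)) ∨
    (∃ (p : ℕ) (R : Subgroup (Matrix.GeneralLinearGroup (Fin 3) F)), p.Prime ∧ q = p ∧ p % 3 = 2 ∧ 11 ≤ p ∧ Cfsg.Geo.IsSymplecticTypeGroup 3 R ∧ Cfsg.Geo.ActsAbsolutelyIrreducibly (Cfsg.Geo.matrixSet R) ∧ R ≤ Cfsg.Geo.similarityGroup (Cfsg.hermForm 3 F q) ∧ Nat.card R = 27 ∧ Nat.card (Subgroup.center R) = 3 ∧ H = Cfsg.Geo.subgroupNormalizer R ⊓ (Cfsg.GU 3 F q ⊓ Cfsg.Geo.specialLinear (Fin 3) F)) ∨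
    Cfsg.Geo.InUnitaryResidualClass H := by
  have hG : H ≤ GU 3 F q := hH.1.le.trans inf_le_left
  have key : ∀ {S : Subgroup (Matrix.GeneralLinearGroup (Fin 3) F)}, H ≤ S → ¬ H99.Asch.suGL 3 F q ≤ S →
      H = S ⊓ H99.Asch.suGL 3 F q := fun {S} hle hS =>
    ((hH.2 _ (le_inf hle hH.1.le) inf_le_right).resolve_right fun e => hS (inf_eq_right.1 e)).symm
  rcases H99.Asch.unitary_aschbacher hF (by norm_num) hG with ⟨W, hW, hts, hle⟩ | ⟨W, hW, hnd, hdim, hle⟩ |
    ⟨t, k, V, hV, htk, hle⟩ | ⟨k, V, hk, hV, hts, -, hle⟩ | ⟨r, K, hr, hodd, hrn, hK, hadj, -, hle⟩ |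
    ⟨n₁, n₂, e, P, G₁, G₂, h1, h12, hG₁, hG₂, hform, -, hle⟩ | ⟨F₀, r, P, hr, hodd, hc, hf, -, hle⟩ |
    ⟨F₀, P, hodd, hc, hf, -, hle⟩ | ⟨F₀, P, ζ, hev, hc, hζ, hζq, hf, halt, -, hle⟩ |
    ⟨r, R, p, e, k, hR, habs, hsim, hrp, hmin, hn, hk, hcase, -, hle⟩ |
    ⟨k, t, e, P, G, hk, ht, hex, hG₁, hform, -, hle⟩ | ⟨hres, -⟩
  · refine Or.inl ⟨W, hW, hts, key hle (H99.Asch.su_not_le_subspace hF (by norm_num) hW fun e => ?_)⟩
    subst e
    have h1 := hts (Pi.single 0 1) trivial (Pi.single 0 1) trivial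
    rw [H3.hermForm_single_left, Pi.single_eq_same, one_pow, mul_one] at h1
    exact one_ne_zero h1
  · refine Or.inr (Or.inl ⟨W, hW, hnd, hdim, key hle (H99.Asch.su_not_le_subspace hF (by norm_num) hW fun e => ?_)⟩)
    subst e
    rw [finrank_top, Module.finrank_fin_fun] at hdim
    omega
  · have ht2 := hV.decomp.two_le
    obtain rfl : t = 3 := ((Nat.dvd_prime (by norm_num)).1 ⟨k, htk.symm⟩).resolve_left (by omega)
    obtain rfl : k = 1 := by omega
    exact Or.inr (Or.inr (Or.inl ⟨fun h5 => H3.UMax.mono_three_not_maximal hF h5 hV hH hle, V, hV,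
      key hle (H99.Asch.su_not_le_decomposition hF (by norm_num) hV)⟩))
  · omega
  · obtain rfl : r = 3 := (Nat.prime_dvd_prime_iff_eq hr Nat.prime_three).1 hrn
    have hsub := key hle (H99.Asch.su_not_le_field hF (by norm_num) hr hK)
    exact Or.inr (Or.inr (Or.inr (Or.inl ⟨fun h3 => H3.UMax.field_three_not_maximal_three hF h3 hK hadj hH hsub,
      fun h5 => H3.UMax.field_three_not_maximal_five hF h5 hK hadj hH hsub, K, hK, hadj, hsub⟩)))
  · exfalso
    have hcard : 3 = n₁ * n₂ := by simpa using Fintype.card_congr e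
    have : 2 * 3 ≤ n₁ * n₂ := Nat.mul_le_mul h1 (by omega)
    omega
  · exact Or.inr (Or.inr (Or.inr (Or.inr (Or.inl ⟨F₀, r, P, hr, hodd, hc, hf,
      key hle (H99.Asch.su_not_le_subfield hF (by norm_num) hr hc P)⟩))))
  · by_cases h7 : 7 ≤ q
    · exact Or.inr (Or.inr (Or.inr (Or.inr (Or.inr (Or.inl ⟨hodd, h7, F₀, P, hc, hf,
        key hle (H99.Asch.su_not_le_subfield hF (by norm_num) Nat.prime_two hc P)⟩)))))
    · obtain rfl | rfl : q = 3 ∨ q = 5 := by obtain ⟨j, rfl⟩ := hodd; omega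
      · obtain ⟨D, hD, hle'⟩ := H3.UMax.subfield_three_mono hF rfl hc hf hH.1.le hle
        exact Or.inr (Or.inr (Or.inl ⟨by norm_num, D, hD,
          key hle' (H99.Asch.su_not_le_decomposition hF (by norm_num) hD)⟩))
      · exact (H3.UMax.subfield_five_not_maximal hF rfl hc hf hH hle).elim
  · exact absurd hev (by decide)
  · obtain ⟨rfl, rfl⟩ := H99.Asch.eq_of_prime_pow (m := 1) hR.prime Nat.prime_three hn (by norm_num) (by norm_num)
    rcases hcase with ⟨-, hz, hcR, hRU⟩ | ⟨h3, -⟩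
    · rw [hz] at hmin
      obtain ⟨hqp, hres⟩ := H99.Asch.residue_three hF hmin
      obtain ⟨hp, hchar, -⟩ := hmin
      have hcR' : Nat.card R = 27 := by rw [hcR]; norm_num
      by_cases h11 : 11 ≤ p
      · have := hchar
        exact Or.inr (Or.inr (Or.inr (Or.inr (Or.inr (Or.inr (Or.inl ⟨p, R, hp, hqp, hres, h11, hR, habs, hsim,
          hcR', hz, key hle (H3.UMax.su_three_not_le_symplecticType hF hp h11 (by omega) habs hcR' hz)⟩))))))
      · have : p = 5 := by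
          have h8 : p ≠ 8 := by rintro rfl; exact absurd hp (by decide)
          have := hp.two_le
          omega
        exact (H3.UMax.typeThree_not_maximal hF (hqp.trans this) hR habs hcR' hRU hH hle).elim
    · exact absurd h3 (by decide)
  · exfalso
    have hcard : 3 = k ^ t := by simpa using Fintype.card_congr e
    have : 3 ^ 2 ≤ k ^ t := le_trans (Nat.pow_le_pow_left hk 2) (Nat.pow_le_pow_right (by omega) ht)
    omega
  · exact Or.inr (Or.inr (Or.inr (Or.inr (Or.inr (Or.inr (Or.inr hres))))))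

end Cfsg.Agent.S5778
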