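import Cfsg.Statements.S5780
import Cfsg.Agent.H98.MaximalSL
import Cfsg.Agent.H98.MaximalSLSymp
import Cfsg.Agent.H98.QuadFun
import Cfsg.Agent.H58.ExtField.Field
import Cfsg.Agent.H50.LowDim.Subfield
import Cfsg.Agent.H99.SLFour.Mono
import Cfsg.Agent.H99.SLFour.Pair
import Cfsg.Agent.H99.SLFour.Orth
import Cfsg.Agent.H99.SLFour.Unitary
import Cfsg.Agent.H66.Frame6.Klein
-- import your own Cfsg.Agent.* helpers here

set_option autoImplicit false
open Cfsg

namespace Cfsg.Agent.S5780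

/-- Maximal subgroups of SL_4(q) of geometric type, for a finite field F with q elements (any q). Each of the following subgroups of GL_4(F), intersected with SL_4(F), is a maximal subgroup of SL_4(F): (1) the stabiliser of any proper non-zero subspace of F^4; (2) for q ≥ 7, the stabiliser of any decomposition of F^4 into four independent lines; (3) for q ≥ 4, the stabiliser of any decomposition of F^4 into two independent planes; (4) the normaliser of any degree-2 subfield of the 4 × 4 matrix algebra over F; (5) every subfield group for a subfield F₀ with |F| = |F₀|^r, r prime; (6) for q = p prime with p ≡ 1 mod 4, the normaliser of any absolutely irreducible 2-subgroup R of exponent 4 with centre of order 4, all of whose characteristic abelian subgroups are cyclic, of order 2^(2+2m) for some m (here |R| = 64), with 4 dividing p − 1; (7) for q odd, the group of similarities of any non-degenerate quadratic form on F^4 (of either sign); (8) the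 group of similarities of any non-degenerate symplectic form on F^4; (9) the group of similarities of any non-degenerate unitary form on F^4. -/
theorem result {F : Type*} [Field F] [Fintype F] :
    (∀ W : Submodule F (Fin 4 → F), W ≠ ⊥ → W ≠ ⊤ → Cfsg.Geo.IsMaximalIn (Cfsg.Geo.specialLinear (Fin 4) F) (Cfsg.Geo.subspaceStabilizer W ⊓ Cfsg.Geo.specialLinear (Fin 4) F)) ∧
    (7 ≤ Fintype.card F → ∀ D : Fin 4 → Submodule F (Fin 4 → F), Cfsg.Geo.IsMDecomposition 1 D → Cfsg.Geo.IsMaximalIn (Cfsg.Geo.specialLinear (Fin 4) F) (Cfsg.Geo.decompositionStabilizer D ⊓ Cfsg.Geo.specialLinear (Fin 4) F)) ∧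
    (4 ≤ Fintype.card F → ∀ D : Fin 2 → Submodule F (Fin 4 → F), Cfsg.Geo.IsMDecomposition 2 D → Cfsg.Geo.IsMaximalIn (Cfsg.Geo.specialLinear (Fin 4) F) (Cfsg.Geo.decompositionStabilizer D ⊓ Cfsg.Geo.specialLinear (Fin 4) F)) ∧
    (∀ K : Subalgebra F (Matrix (Fin 4) (Fin 4) F), Cfsg.Geo.IsFieldSubalgebra 2 K → Cfsg.Geo.IsMaximalIn (Cfsg.Geo.specialLinear (Fin 4) F) (Cfsg.Geo.subalgebraNormalizer K ⊓ Cfsg.Geo.specialLinear (Fin 4) F)) ∧
    (∀ (F₀ : Subfield F) (r : ℕ) (P : Matrix.GeneralLinearGroup (Fin 4) F), r.Prime → Fintype.card F = Nat.card F₀ ^ r → Cfsg.Geo.IsMaximalIn (Cfsg.Geo.specialLinear (Fin 4) F) (Cfsg.Geo.subfieldSubgroup F₀ P ⊓ Cfsg.Geo.specialLinear (Fin 4) F)) ∧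
    (∀ (p : ℕ) (R : Subgroup (Matrix.GeneralLinearGroup (Fin 4) F)), p.Prime → Fintype.card F = p → p % 4 = 1 → Cfsg.Geo.IsLinearSymplecticTypeData 2 R → Cfsg.Geo.IsMaximalIn (Cfsg.Geo.specialLinear (Fin 4) F) (Cfsg.Geo.subgroupNormalizer R ⊓ Cfsg.Geo.specialLinear (Fin 4) F)) ∧
    (Odd (Fintype.card F) → ∀ Q : (Fin 4 → F) → F, Cfsg.Geo.IsNondegenerateQuadraticForm Q → Cfsg.Geo.IsMaximalIn (Cfsg.Geo.specialLinear (Fin 4) F) (Cfsg.Geo.quadSimilarityGroup Q ⊓ Cfsg.Geo.specialLinear (Fin 4) F)) ∧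
    (∀ f : (Fin 4 → F) → (Fin 4 → F) → F, Cfsg.Geo.IsSymplecticForm f → Cfsg.Geo.IsMaximalIn (Cfsg.Geo.specialLinear (Fin 4) F) (Cfsg.Geo.similarityGroup f ⊓ Cfsg.Geo.specialLinear (Fin 4) F)) ∧
    (∀ (σ : F ≃+* F) (f : (Fin 4 → F) → (Fin 4 → F) → F), Cfsg.Geo.IsUnitaryForm σ f → Cfsg.Geo.IsMaximalIn (Cfsg.Geo.specialLinear (Fin 4) F) (Cfsg.Geo.similarityGroup f ⊓ Cfsg.Geo.specialLinear (Fin 4) F)) := by
  refine ⟨fun W => Cfsg.Agent.H98.sl_stab_maximal W, ?_, ?_, ?_, ?_, ?_, ?_, ?_, ?_⟩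
  · exact fun hq D hD => Cfsg.Agent.H99.SLFour.monomial_maximal_four D hD hq
  · exact fun hq D hD => Cfsg.Agent.H99.SLFour.decomposition_maximal_four D hD hq
  · exact fun K hK => Cfsg.Agent.H58.ExtField.field_maximal_sl (r := 2) (by norm_num) (by simp) hK
  · exact fun F₀ r P hr hc => Cfsg.Agent.H50.LowDim.sl_subfield_conj_maximal₆ (by norm_num) F₀ hr hc P
  · exact fun p R hp hF hp4 hR => Cfsg.Agent.H66.Frame6.sl_four_symplecticType_maximal p R hp hF hp4 hR
  · intro hodd Q hQ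
    have h2 : (2 : F) ≠ 0 := fun h => by
      haveI : CharP F 2 := CharTwo.of_one_ne_zero_of_two_eq_zero one_ne_zero h
      exact Nat.not_even_iff_odd.mpr hodd
        (Nat.even_iff.mpr (FiniteField.even_card_iff_char_two.mp (ringChar.eq F 2)))
    have := Cfsg.Agent.H99.SLFour.Orth.sl_orth_maximal_four (q := Cfsg.Agent.H98.qOfFun Q hQ)
      ⟨h2, Cfsg.Agent.H98.qOfFun_nondeg hQ⟩ (by rw [Fintype.card_fin])
    rwa [Cfsg.Agent.H98.coe_qOfFun] at this
  · exact fun f hf => Cfsg.Agent.H98.sl_symp_maximal f hf (by simp)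
  · exact fun σ f hf => Cfsg.Agent.H99.SLFour.sl_unitary_maximal hf (by simp)

end Cfsg.Agent.S5780
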