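import Cfsg.Statements.S5781
import Cfsg.Agent.H99.Aschbacher.Pauli
-- import your own Cfsg.Agent.* helpers here

set_option autoImplicit false
open Cfsg

namespace Cfsg.Agent.S5781

/-- Every maximal subgroup of SL_4(q) is of one of the listed geometric types or lies in the residual class. Let F be a finite field with q elements and H a maximal subgroup of SL_4(F) (inside GL_4(F)). Then H is the intersection with SL_4(F) of one of: the stabiliser of a proper non-zero subspace; for q ≥ 7, the stabiliser of a decomposition into four independent lines; for q ≥ 4, the stabiliser of a decomposition into two independent planes; the normaliser of a degree-2 subfield of the matrix algebra; a subfield group for a subfield F₀ with |F| = |F₀|^r, r prime; for q = p ≡ 1 mod 4 prime, the normaliser of an absolutely irreducible 2-subgroup R of exponent 4 with centre of order 4, all of whose characteristic abelian subgroups are cyclic, of order 2^(2+2m)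 for some m (here |R| = 64), with 4 dividing p − 1; for q odd, the similarity group of a non-degenerate quadratic form; the similarity group of a non-degenerate symplectic form; the similarity group of a non-degenerate unitary form — or else H lies in the residual class of the linear case. -/
theorem result {F : Type*} [Field F] [Fintype F] (H : Subgroup (Matrix.GeneralLinearGroup (Fin 4) F)) (hH : Cfsg.Geo.IsMaximalIn (Cfsg.Geo.specialLinear (Fin 4) F) H) :
    (∃ W : Submodule F (Fin 4 → F), W ≠ ⊥ ∧ W ≠ ⊤ ∧ H = Cfsg.Geo.subspaceStabilizer W ⊓ Cfsg.Geo.specialLinear (Fin 4) F) ∨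
    (7 ≤ Fintype.card F ∧ ∃ D : Fin 4 → Submodule F (Fin 4 → F), Cfsg.Geo.IsMDecomposition 1 D ∧ H = Cfsg.Geo.decompositionStabilizer D ⊓ Cfsg.Geo.specialLinear (Fin 4) F) ∨
    (4 ≤ Fintype.card F ∧ ∃ D : Fin 2 → Submodule F (Fin 4 → F), Cfsg.Geo.IsMDecomposition 2 D ∧ H = Cfsg.Geo.decompositionStabilizer D ⊓ Cfsg.Geo.specialLinear (Fin 4) F) ∨
    (∃ K : Subalgebra F (Matrix (Fin 4) (Fin 4) F), Cfsg.Geo.IsFieldSubalgebra 2 K ∧ H = Cfsg.Geo.subalgebraNormalizer K ⊓ Cfsg.Geo.specialLinear (Fin 4) F) ∨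
    (∃ (F₀ : Subfield F) (r : ℕ) (P : Matrix.GeneralLinearGroup (Fin 4) F), r.Prime ∧ Fintype.card F = Nat.card F₀ ^ r ∧ H = Cfsg.Geo.subfieldSubgroup F₀ P ⊓ Cfsg.Geo.specialLinear (Fin 4) F) ∨
    (∃ (p : ℕ) (R : Subgroup (Matrix.GeneralLinearGroup (Fin 4) F)), p.Prime ∧ Fintype.card F = p ∧ p % 4 = 1 ∧ Cfsg.Geo.IsLinearSymplecticTypeData 2 R ∧ H = Cfsg.Geo.subgroupNormalizer R ⊓ Cfsg.Geo.specialLinear (Fin 4) F) ∨
    (Odd (Fintype.card F) ∧ ∃ Q : (Fin 4 → F) → F, Cfsg.Geo.IsNondegenerateQuadraticForm Q ∧ H = Cfsg.Geo.quadSimilarityGroup Q ⊓ Cfsg.Geo.specialLinear (Fin 4) F) ∨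
    (∃ f : (Fin 4 → F) → (Fin 4 → F) → F, Cfsg.Geo.IsSymplecticForm f ∧ H = Cfsg.Geo.similarityGroup f ⊓ Cfsg.Geo.specialLinear (Fin 4) F) ∨
    (∃ (σ : F ≃+* F) (f : (Fin 4 → F) → (Fin 4 → F) → F), Cfsg.Geo.IsUnitaryForm σ f ∧ H = Cfsg.Geo.similarityGroup f ⊓ Cfsg.Geo.specialLinear (Fin 4) F) ∨
    Cfsg.Geo.InLinearResidualClass H := by
  rcases Cfsg.Agent.H99.Asch.maximal_list (by simp) (by simp) hH with ⟨W, w1, w2, h⟩ |
    ⟨t, m, D, hD, htm, c1, c2, c3, h⟩ | ⟨r, K, hr, hrn, hK, h⟩ | ⟨n₁, n₂, e, P, h1, h2, hc, c2, h⟩ |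
    ⟨F₁, r, P, hr, hc, h⟩ | ⟨r, R, m, hR, hm, hm1, h⟩ | ⟨m, e, P, h1, hc, h⟩ | ⟨he, f, hf, h⟩ |
    ⟨σ, f, hf, h⟩ | ⟨ho, Q, hQ, h⟩ | h
  · exact (Or.inl (⟨W, w1, w2, h⟩))
  · simp only [Fintype.card_fin] at htm
    have ht := hD.two_le
    have hmpos := hD.pos
    have hcases : (t = 4 ∧ m = 1) ∨ (t = 2 ∧ m = 2) := by
      have : t ≤ 4 := htm ▸ Nat.le_mul_of_pos_right t hmpos
      interval_cases t <;> omega
    rcases hcases with ⟨rfl, rfl⟩ | ⟨rfl, rfl⟩
    · have h5 := c1 rfl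
      by_cases h7 : 7 ≤ Fintype.card F
      · exact (Or.inr (Or.inl (⟨h7, D, hD, h⟩)))
      · have hne : Fintype.card F ≠ 6 := by
          intro e6
          have hpp : IsPrimePow (Fintype.card F) := FiniteField.isPrimePow_card F
          rw [e6] at hpp
          exact absurd hpp (by decide)
        obtain ⟨R, hR, hle⟩ := Cfsg.Agent.H99.Asch.monomial_five (by omega) hD
        obtain ⟨p, hp, hpc, hp4⟩ := Cfsg.Agent.H99.Asch.classSix_two (by simp) hR
        exact (Or.inr (Or.inr (Or.inr (Or.inr (Or.inr (Or.inl (⟨p, R, hp, hpc, hp4, hR, Cfsg.Agent.H99.Asch.eq_inf_of_maximal hH (h.le.trans hle) (Cfsg.Agent.H99.Asch.sl_not_le_symplecticType (by simp) hR)⟩)))))))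
    · exact (Or.inr (Or.inr (Or.inl (⟨c3 rfl rfl, D, hD, h⟩))))
  · simp only [Fintype.card_fin] at hrn
    have hcases : r = 2 := by
      have := Nat.le_of_dvd (by norm_num) hrn
      have := hr.two_le
      interval_cases r <;> first | omega | (exfalso; revert hr; decide)
    subst hcases
    exact (Or.inr (Or.inr (Or.inr (Or.inl (⟨K, hK, h⟩)))))
  · simp only [Fintype.card_fin] at hc
    exfalso
    have : n₁ ≤ 4 := hc.symm ▸ Nat.le_mul_of_pos_right n₁ (by omega)
    interval_cases n₁ <;> omega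
  · exact (Or.inr (Or.inr (Or.inr (Or.inr (Or.inl (⟨F₁, r, P, hr, hc, h⟩))))))
  · simp only [Fintype.card_fin] at hm
    obtain rfl : r = 2 := Cfsg.Agent.H99.Asch.prime_of_pow_eq hR.symplecticType.prime (by norm_num) (k := 2) (by rw [← hm]; norm_num) hm1
    obtain ⟨p, hp, hpc, hp4⟩ := Cfsg.Agent.H99.Asch.classSix_two (by simp) hR
    exact (Or.inr (Or.inr (Or.inr (Or.inr (Or.inr (Or.inl (⟨p, R, hp, hpc, hp4, hR, h⟩)))))))
  · simp only [Fintype.card_fin] at hc
    exfalso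
    have : m ≤ 3 := by nlinarith
    interval_cases m
    omega
  · exact (Or.inr (Or.inr (Or.inr (Or.inr (Or.inr (Or.inr (Or.inr (Or.inl (⟨f, hf, h⟩)))))))))
  · exact (Or.inr (Or.inr (Or.inr (Or.inr (Or.inr (Or.inr (Or.inr (Or.inr (Or.inl (⟨σ, f, hf, h⟩))))))))))
  · exact (Or.inr (Or.inr (Or.inr (Or.inr (Or.inr (Or.inr (Or.inl (⟨ho, Q, hQ, h⟩))))))))
  · exact (Or.inr (Or.inr (Or.inr (Or.inr (Or.inr (Or.inr (Or.inr (Or.inr (Or.inr (h))))))))))

end Cfsg.Agent.S5781
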