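import Cfsg.Statements.S5784
import Cfsg.Agent.H3.UMax.MonoFour
import Cfsg.Agent.H3.UMax.HalvesFour
import Cfsg.Agent.H3.UMax.TypeFour
import Cfsg.Agent.H99.Aschbacher.UnitaryDims

set_option autoImplicit false
open Cfsg

namespace Cfsg.Agent.S5784

/-- Every maximal subgroup of SU_4(q) is of one of the listed geometric types or lies in the residual class. Let F be the field with q² elements, f the standard unitary form Σ u_i v_i^q on F^4, and H a maximal subgroup of SU_4(q) (inside GL_4(F)). Then H is the intersection with SU_4(q) of one of: the stabiliser of a non-zero subspace on which f vanishes; the stabiliser of a non-degenerate 1-space; for q ≠ 3, the stabiliser of a decomposition into four mutually orthogonal non-degenerate 1-spaces; for q ≥ 3, of a decomposition into two orthogonal non-degenerate 2-spaces; for q ≥ 4, of a decomposition into two totally isotropic 2-spaces; a subfield group of odd prime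 index whose F₀-structure carries f; a subfield group of index 2 whose F₀-structure carries ζ f, vanishing on pairs (u, u), for some non-zero ζ with ζ + ζ^q = 0; for q odd, a subfield group of index 2 whose F₀-structure carries f; for q = p ≡ 3 mod 4 prime, the normaliser of an absolutely irreducible symplectic-type 2-group of exponent 4, order 64 and centre of order 4 inside the similarity group of f — or else H lies in the residual class of the unitary case. -/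
theorem result {F : Type*} [Field F] [Fintype F] (q : ℕ) (hF : Fintype.card F = q ^ 2) (H : Subgroup (Matrix.GeneralLinearGroup (Fin 4) F)) (hH : Cfsg.Geo.IsMaximalIn (Cfsg.GU 4 F q ⊓ Cfsg.Geo.specialLinear (Fin 4) F) H) :
    (∃ W : Submodule F (Fin 4 → F), W ≠ ⊥ ∧ Cfsg.Geo.IsTotallySingularFor (Cfsg.hermForm 4 F q) W ∧ H = Cfsg.Geo.subspaceStabilizer W ⊓ (Cfsg.GU 4 F q ⊓ Cfsg.Geo.specialLinear (Fin 4) F)) ∨
    (∃ W : Submodule F (Fin 4 → F), W ≠ ⊥ ∧ Cfsg.Geo.IsNondegenerateOn (Cfsg.hermForm 4 F q) W ∧ 2 * Module.finrank F W < 4 ∧ H = Cfsg.Geo.subspaceStabilizer W ⊓ (Cfsg.GU 4 F q ⊓ Cfsg.Geo.specialLinear (Fin 4) F)) ∨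
    (q ≠ 3 ∧ ∃ D : Fin 4 → Submodule F (Fin 4 → F), Cfsg.Geo.IsNondegenerateMDecomposition (Cfsg.hermForm 4 F q) 1 D ∧ H = Cfsg.Geo.decompositionStabilizer D ⊓ (Cfsg.GU 4 F q ⊓ Cfsg.Geo.specialLinear (Fin 4) F)) ∨
    (3 ≤ q ∧ ∃ D : Fin 2 → Submodule F (Fin 4 → F), Cfsg.Geo.IsNondegenerateMDecomposition (Cfsg.hermForm 4 F q) 2 D ∧ H = Cfsg.Geo.decompositionStabilizer D ⊓ (Cfsg.GU 4 F q ⊓ Cfsg.Geo.specialLinear (Fin 4) F)) ∨
    (4 ≤ q ∧ ∃ D : Fin 2 → Submodule F (Fin 4 → F), Cfsg.Geo.IsMDecomposition 2 D ∧ (∀ i, Cfsg.Geo.IsTotallySingularFor (Cfsg.hermForm 4 F q) (D i)) ∧ H = Cfsg.Geo.decompositionStabilizer D ⊓ (Cfsg.GU 4 F q ⊓ Cfsg.Geo.specialLinear (Fin 4) F)) ∨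
    (∃ (F₀ : Subfield F) (r : ℕ) (P : Matrix.GeneralLinearGroup (Fin 4) F), r.Prime ∧ Odd r ∧ Fintype.card F = Nat.card F₀ ^ r ∧ Cfsg.Geo.IsFormRationalStructure (Cfsg.hermForm 4 F q) F₀ 1 P ∧ H = Cfsg.Geo.subfieldSubgroup F₀ P ⊓ (Cfsg.GU 4 F q ⊓ Cfsg.Geo.specialLinear (Fin 4) F)) ∨
    (∃ (F₀ : Subfield F) (P : Matrix.GeneralLinearGroup (Fin 4) F) (ζ : F), Fintype.card F = Nat.card F₀ ^ 2 ∧ ζ ≠ 0 ∧ ζ + ζ ^ q = 0 ∧ Cfsg.Geo.IsFormRationalStructure (Cfsg.hermForm 4 F q) F₀ ζ P ∧ (∀ u : Fin 4 → F, (∀ i, u i ∈ F₀) → (Cfsg.hermForm 4 F q) (Matrix.mulVec (P : Matrix (Fin 4) (Fin 4) F) u) (Matrix.mulVec (P : Matrix (Fin 4) (Fin 4) F) u) = 0) ∧ H = Cfsg.Geo.subfieldSubgroup F₀ P ⊓ (Cfsg.GU 4 F q ⊓ Cfsg.Geo.specialLinear (Fin 4) F)) ∨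
    (Odd q ∧ ∃ (F₀ : Subfield F) (P : Matrix.GeneralLinearGroup (Fin 4) F), Fintype.card F = Nat.card F₀ ^ 2 ∧ Cfsg.Geo.IsFormRationalStructure (Cfsg.hermForm 4 F q) F₀ 1 P ∧ H = Cfsg.Geo.subfieldSubgroup F₀ P ⊓ (Cfsg.GU 4 F q ⊓ Cfsg.Geo.specialLinear (Fin 4) F)) ∨
    (∃ (p : ℕ) (R : Subgroup (Matrix.GeneralLinearGroup (Fin 4) F)), p.Prime ∧ q = p ∧ p % 4 = 3 ∧ Cfsg.Geo.IsSymplecticTypeGroup 2 R ∧ Cfsg.Geo.ActsAbsolutelyIrreducibly (Cfsg.Geo.matrixSet R) ∧ R ≤ Cfsg.Geo.similarityGroup (Cfsg.hermForm 4 F q) ∧ Nat.card R = 64 ∧ Nat.card (Subgroup.center R) = 4 ∧ H = Cfsg.Geo.subgroupNormalizer R ⊓ (Cfsg.GU 4 F q ⊓ Cfsg.Geo.specialLinear (Fin 4) F)) ∨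
    Cfsg.Geo.InUnitaryResidualClass H := by
  have hq2 := H3.two_le_q hF
  have hG : H ≤ GU 4 F q := hH.1.le.trans inf_le_left
  have key : ∀ {S : Subgroup (Matrix.GeneralLinearGroup (Fin 4) F)}, H ≤ S → ¬ H99.Asch.suGL 4 F q ≤ S →
      H = S ⊓ H99.Asch.suGL 4 F q := fun {S} hle hS =>
    ((hH.2 _ (le_inf hle hH.1.le) inf_le_right).resolve_right fun e => hS (inf_eq_right.1 e)).symm
  rcases H99.Asch.unitary_aschbacher hF (by norm_num) hG with ⟨W, hW, hts, hle⟩ | ⟨W, hW, hnd, hdim, hle⟩ |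
    ⟨t, k, V, hV, htk, hle⟩ | ⟨k, V, hk, hV, hts, -, hle⟩ | ⟨r, K, hr, hodd, hrn, hK, hadj, -, hle⟩ |
    ⟨n₁, n₂, e, P, G₁, G₂, h1, h12, hG₁, hG₂, hform, -, hle⟩ | ⟨F₀, r, P, hr, hodd, hc, hf, -, hle⟩ |
    ⟨F₀, P, hq, hc, hf, -, hle⟩ | ⟨F₀, P, ζ, hev, hc, hζ, hζq, hf, halt, -, hle⟩ |
    ⟨r, R, p, e, k, hR, habs, hsim, hrp, hmin, hn, hk, hcase, -, hle⟩ |
    ⟨k, t, e, P, G, hk, ht, hex, hG₁, hform, -, hle⟩ | ⟨hres, -⟩
  · refine Or.inl ⟨W, hW, hts, key hle (H99.Asch.su_not_le_subspace hF (by norm_num) hW fun e => ?_)⟩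
    subst e
    have h1 := hts (Pi.single 0 1) trivial (Pi.single 0 1) trivial
    rw [H3.hermForm_single_left, Pi.single_eq_same, one_pow, mul_one] at h1
    exact one_ne_zero h1
  · refine Or.inr (Or.inl ⟨W, hW, hnd, hdim, key hle (H99.Asch.su_not_le_subspace hF (by norm_num) hW fun e => ?_)⟩)
    subst e
    rw [finrank_top, Module.finrank_fin_fun] at hdim
    omega
  · have mono : ∀ D : Fin 4 → Submodule F (Fin 4 → F), Geo.IsNondegenerateMDecomposition (hermForm 4 F q) 1 D →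
        H ≤ Geo.decompositionStabilizer D →
        q ≠ 3 ∧ H = Geo.decompositionStabilizer D ⊓ H99.Asch.suGL 4 F q := fun D hD hle' => by
      have hsub := key hle' (H99.Asch.su_not_le_decomposition hF (by norm_num) hD)
      exact ⟨fun hq => H3.UMax.Nine.mono_four_not_maximal hF hq hD hH hsub, hsub⟩
    have ht' : t ≤ 4 := Nat.le_of_dvd (by norm_num) ⟨k, htk.symm⟩
    have ht2 := hV.decomp.two_le
    interval_cases t
    all_goals first
      | omega
      | (obtain rfl : k = 1 := by omega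
         obtain ⟨hq3, hsub⟩ := mono V hV hle
         exact Or.inr (Or.inr (Or.inl ⟨hq3, V, hV, hsub⟩)))
      | (obtain rfl : k = 2 := by omega
         by_cases hq : 3 ≤ q
         · exact Or.inr (Or.inr (Or.inr (Or.inl ⟨hq, V, hV, key hle (H99.Asch.su_not_le_decomposition hF (by norm_num) hV)⟩)))
         · obtain ⟨V', hV', hle'⟩ := H99.Asch.decomposition_refine hF (by omega) hV htk
           obtain ⟨hq3, hsub⟩ := mono V' hV' ((le_inf hle hG).trans hle')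
           exact Or.inr (Or.inr (Or.inl ⟨hq3, V', hV', hsub⟩)))
  · obtain rfl : k = 2 := by omega
    have hsub := key hle (H99.Asch.su_not_le_halves hF (by norm_num) hV hts)
    by_cases hq : 4 ≤ q
    · exact Or.inr (Or.inr (Or.inr (Or.inr (Or.inl ⟨hq, V, hV, hts, hsub⟩))))
    · obtain ⟨F₀, P, ζ, hc, hζ, hζq, hf, halt, hle'⟩ := H3.UMax.halves_four_subfield hF (by omega) hV hts
      exact Or.inr (Or.inr (Or.inr (Or.inr (Or.inr (Or.inr (Or.inl ⟨F₀, P, ζ, hc, hζ, hζq, hf, halt, key (hsub.le.trans hle') (H99.Asch.su_not_le_subfield hF (by norm_num) Nat.prime_two hc P)⟩))))))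
  · exfalso
    have : r = 2 := Nat.prime_dvd_prime_iff_eq hr Nat.prime_two |>.1 (hr.dvd_of_dvd_pow (n := 2) (by simpa using hrn))
    subst this
    exact absurd hodd (by decide)
  · exfalso
    have hcard : 4 = n₁ * n₂ := by simpa using Fintype.card_congr e
    have : 2 * 3 ≤ n₁ * n₂ := Nat.mul_le_mul h1 (by omega)
    omega
  · exact Or.inr (Or.inr (Or.inr (Or.inr (Or.inr (Or.inl ⟨F₀, r, P, hr, hodd, hc, hf, key hle (H99.Asch.su_not_le_subfield hF (by norm_num) hr hc P)⟩)))))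
  · exact Or.inr (Or.inr (Or.inr (Or.inr (Or.inr (Or.inr (Or.inr (Or.inl ⟨hq, F₀, P, hc, hf, key hle (H99.Asch.su_not_le_subfield hF (by norm_num) Nat.prime_two hc P)⟩)))))))
  · exact Or.inr (Or.inr (Or.inr (Or.inr (Or.inr (Or.inr (Or.inl ⟨F₀, P, ζ, hc, hζ, hζq, hf, halt, key hle (H99.Asch.su_not_le_subfield hF (by norm_num) Nat.prime_two hc P)⟩))))))
  · obtain ⟨rfl, rfl⟩ := H99.Asch.eq_of_prime_pow (m := 2) hR.prime Nat.prime_two hn (by norm_num) (by norm_num)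
    rcases hcase with ⟨h2, -⟩ | ⟨-, he, hz, hcR⟩
    · exact absurd h2 (by decide)
    · rw [hz, he] at hmin
      obtain ⟨hqp, hres⟩ := H99.Asch.residue_four hF hmin
      have h2 : (2 : F) ≠ 0 := fun e2 => by
        have := hmin.2.1
        have h2' : ((2 : ℕ) : F) = 0 := by exact_mod_cast e2
        have := Nat.le_of_dvd (by norm_num) ((CharP.cast_eq_zero_iff F p 2).1 h2')
        have := hmin.1.two_le
        omega
      exact Or.inr (Or.inr (Or.inr (Or.inr (Or.inr (Or.inr (Or.inr (Or.inr (Or.inl ⟨p, R, hmin.1, hqp, hres, hR, habs, hsim, by rw [hcR]; norm_num, hz, key hle (H3.UMax.su_four_not_le_symplecticType hF h2 hR habs)⟩))))))))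
  · exfalso
    have hcard : 4 = k ^ t := by simpa using Fintype.card_congr e
    have : 3 ^ 2 ≤ k ^ t := le_trans (Nat.pow_le_pow_left hk 2) (Nat.pow_le_pow_right (by omega) ht)
    omega
  · exact Or.inr (Or.inr (Or.inr (Or.inr (Or.inr (Or.inr (Or.inr (Or.inr (Or.inr (hres)))))))))

end Cfsg.Agent.S5784
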