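import Cfsg.Statements.S5786
import Cfsg.Agent.H98.MaximalSp
import Cfsg.Agent.H98.MaximalSpWreath
import Cfsg.Agent.H25.GeoLists.SpFour.Field
import Cfsg.Agent.H99.SpFour.Subfield
import Cfsg.Agent.H99.SpFour.Pair
import Cfsg.Agent.H99.SpFour.UnitaryMain
import Cfsg.Agent.H1.SpC6.Main
-- import your own Cfsg.Agent.* helpers here

set_option autoImplicit false
open Cfsg

namespace Cfsg.Agent.S5786

/-- Maximal subgroups of Sp_4(q) of geometric type, q odd. Let F be a finite field of odd order q, f the standard alternating form on F^4 (coordinates Fin 2 ⊕ Fin 2) and Sp_4(F) its isometry group inside GL_4(F). Each of the following, intersected with Sp_4(F), is a maximal subgroup of Sp_4(F): (1) the stabiliser of any non-zero totally isotropic subspace (totally isotropic 1-spaces and 2-spaces); (2) the stabiliser of any decomposition of F^4 into two mutually orthogonal non-degenerate 2-spaces; (3) for q ≥ 5, the stabiliser of any decomposition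 of F^4 into two totally isotropic 2-spaces; (4) the normaliser of any degree-2 subfield K of the matrix algebra whose elements are self-adjoint for f with f(k v, v) = 0 for all k in K and all v (f is the trace of an alternating form over K); (5) for q ≥ 5, the normaliser of any degree-2 subfield of the matrix algebra that is closed under adjoints but not self-adjoint (f is the trace of a multiple of a unitary form over K); (6) every subfield group for a subfield F₀ with |F| = |F₀|^r, r prime, whose F₀-structure carries a non-zero scalar multiple of f; (7) for q = p prime, the normaliser of any absolutely irreducible 2-group R of symplectic type and exponent 4, of order 32 with centre of order 2 and of minus type, consisting of isometries of f. -/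
theorem result {F : Type*} [Field F] [Fintype F] (hodd : Odd (Fintype.card F)) :
    (∀ W : Submodule F (Fin 2 ⊕ Fin 2 → F), W ≠ ⊥ → Cfsg.Geo.IsTotallySingularFor (Cfsg.sympForm 2 F) W → Cfsg.Geo.IsMaximalIn (Cfsg.spGL 2 F) (Cfsg.Geo.subspaceStabilizer W ⊓ Cfsg.spGL 2 F)) ∧
    (∀ D : Fin 2 → Submodule F (Fin 2 ⊕ Fin 2 → F), Cfsg.Geo.IsNondegenerateMDecomposition (Cfsg.sympForm 2 F) 2 D → Cfsg.Geo.IsMaximalIn (Cfsg.spGL 2 F) (Cfsg.Geo.decompositionStabilizer D ⊓ Cfsg.spGL 2 F)) ∧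
    (5 ≤ Fintype.card F → ∀ D : Fin 2 → Submodule F (Fin 2 ⊕ Fin 2 → F), Cfsg.Geo.IsMDecomposition 2 D → (∀ i, Cfsg.Geo.IsTotallySingularFor (Cfsg.sympForm 2 F) (D i)) → Cfsg.Geo.IsMaximalIn (Cfsg.spGL 2 F) (Cfsg.Geo.decompositionStabilizer D ⊓ Cfsg.spGL 2 F)) ∧
    (∀ K : Subalgebra F (Matrix (Fin 2 ⊕ Fin 2) (Fin 2 ⊕ Fin 2) F), Cfsg.Geo.IsFieldSubalgebra 2 K → Cfsg.Geo.IsSelfAdjointFor (Cfsg.sympForm 2 F) K → (∀ k ∈ K, ∀ v : (Fin 2 ⊕ Fin 2 → F), (Cfsg.sympForm 2 F) (Matrix.mulVec k v) v = 0) → Cfsg.Geo.IsMaximalIn (Cfsg.spGL 2 F) (Cfsg.Geo.subalgebraNormalizer K ⊓ Cfsg.spGL 2 F)) ∧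
    (5 ≤ Fintype.card F → ∀ K : Subalgebra F (Matrix (Fin 2 ⊕ Fin 2) (Fin 2 ⊕ Fin 2) F), Cfsg.Geo.IsFieldSubalgebra 2 K → Cfsg.Geo.IsAdjointClosedFor (Cfsg.sympForm 2 F) K → ¬ Cfsg.Geo.IsSelfAdjointFor (Cfsg.sympForm 2 F) K → Cfsg.Geo.IsMaximalIn (Cfsg.spGL 2 F) (Cfsg.Geo.subalgebraNormalizer K ⊓ Cfsg.spGL 2 F)) ∧
    (∀ (F₀ : Subfield F) (r : ℕ) (P : Matrix.GeneralLinearGroup (Fin 2 ⊕ Fin 2) F) (ζ : F), r.Prime → Fintype.card F = Nat.card F₀ ^ r → ζ ≠ 0 → Cfsg.Geo.IsFormRationalStructure (Cfsg.sympForm 2 F) F₀ ζ P → Cfsg.Geo.IsMaximalIn (Cfsg.spGL 2 F) (Cfsg.Geo.subfieldSubgroup F₀ P ⊓ Cfsg.spGL 2 F)) ∧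
    (∀ (p : ℕ) (R : Subgroup (Matrix.GeneralLinearGroup (Fin 2 ⊕ Fin 2) F)), p.Prime → Fintype.card F = p → Cfsg.Geo.IsSymplecticTypeGroup 2 R → Cfsg.Geo.ActsAbsolutelyIrreducibly (Cfsg.Geo.matrixSet R) → R ≤ Cfsg.spGL 2 F → Nat.card R = 32 → Nat.card (Subgroup.center R) = 2 → Cfsg.Geo.IsOfMinusType 2 R → Cfsg.Geo.IsMaximalIn (Cfsg.spGL 2 F) (Cfsg.Geo.subgroupNormalizer R ⊓ Cfsg.spGL 2 F)) := by
  
  have h2 : (2 : F) ≠ 0 := Ring.two_ne_zero fun hc => by
    have := FiniteField.even_card_of_char_two hc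
    obtain ⟨k, hk⟩ := hodd
    omega
  have h3 : 3 ≤ Fintype.card F := by
    have := Fintype.one_lt_card (α := F)
    obtain ⟨k, hk⟩ := hodd
    omega
  refine ⟨?_, ?_, ?_, ?_, ?_, ?_, ?_⟩
  · intro W hW0 hW
    exact Cfsg.Agent.H98.sp_stab_ts_maximal W hW0 fun u hu v hv => by
      rw [Cfsg.Agent.H2.sympBilin_apply]; exact hW u hu v hv
  · intro D hD
    refine Cfsg.Agent.H98.sp_wreath_maximal hD.decomp (fun i u hu h => ?_) (fun i j hij u hu v hv => ?_) (by omega)
    · by_contra h0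
      obtain ⟨-, x, hx, hne⟩ := hD.nondegenerate i u hu h0
      exact hne (by rw [← Cfsg.Agent.H2.sympBilin_apply]; exact h x hx)
    · rw [Cfsg.Agent.H2.sympBilin_apply]; exact hD.orthogonal i j hij u hu v hv
  · exact fun hq D hD hts => Cfsg.Agent.H99.SpFour.sp_pair_maximal_two rfl h2 hq hD fun i u hu v hv => by
      rw [Cfsg.Agent.H2.sympBilin_apply]; exact hts i u hu v hv
  · exact fun K hK hsa halt =>
      Cfsg.Agent.H25.SpFour.field_maximal_sp le_rfl h3 Nat.prime_two hK hsa halt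
  · exact fun hq K hK hac hnsa => Cfsg.Agent.H99.SpFour.sp_unitary_maximal_two hodd hq K hK hac hnsa
  · exact fun F₀ r P ζ hr hc hζ hP =>
      Cfsg.Agent.H99.SpFour.sp_subfield_maximal_two' le_rfl h2 hr hc P ζ hζ hP
  · intro p R hp hc hRs hRi hR h32 hZ hm
    exact Cfsg.Agent.H1.SpC6.minus_normalizer_maximal hodd (hc ▸ hp) R hRs hRi hR (by rw [h32]; norm_num) hZ hm


end Cfsg.Agent.S5786
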