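import Cfsg.Statements.S5787
import Cfsg.Agent.H1.SpList.FourThreeUnitary

set_option autoImplicit false
open Cfsg

namespace Cfsg.Agent.S5787

/-- Every maximal subgroup of Sp_4(q), q odd, is of one of the listed geometric types or lies in the residual class. Let F be a finite field of odd order q, f the standard alternating form on F^4 (coordinates Fin 2 ⊕ Fin 2), and H a maximal subgroup of the isometry group Sp_4(F) (inside GL_4(F)). Then H is the intersection with Sp_4(F) of one of: the stabiliser of a non-zero totally isotropic subspace; the stabiliser of a decomposition into two orthogonal non-degenerate 2-spaces; for q ≥ 5, of a decomposition into two totally isotropic 2-spaces; the normaliser of a degree-2 subfield K of the matrix algebra, self-adjoint with f(k v, v) = 0; for q ≥ 5, the normaliser of a degree-2 subfield closed under adjoints but not self-adjoint; a subfield group whose F₀-structure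 carries a non-zero multiple of f, |F| = |F₀|^r with r prime; for q = p prime, the normaliser of an absolutely irreducible symplectic-type 2-group of exponent 4, order 32, centre of order 2 and minus type inside the similarity group of f — or else H lies in the residual class of the symplectic case. -/
theorem result {F : Type*} [Field F] [Fintype F] (hodd : Odd (Fintype.card F)) (H : Subgroup (Matrix.GeneralLinearGroup (Fin 2 ⊕ Fin 2) F)) (hH : Cfsg.Geo.IsMaximalIn (Cfsg.spGL 2 F) H) :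
    (∃ W : Submodule F (Fin 2 ⊕ Fin 2 → F), W ≠ ⊥ ∧ Cfsg.Geo.IsTotallySingularFor (Cfsg.sympForm 2 F) W ∧ H = Cfsg.Geo.subspaceStabilizer W ⊓ Cfsg.spGL 2 F) ∨
    (∃ D : Fin 2 → Submodule F (Fin 2 ⊕ Fin 2 → F), Cfsg.Geo.IsNondegenerateMDecomposition (Cfsg.sympForm 2 F) 2 D ∧ H = Cfsg.Geo.decompositionStabilizer D ⊓ Cfsg.spGL 2 F) ∨
    (5 ≤ Fintype.card F ∧ ∃ D : Fin 2 → Submodule F (Fin 2 ⊕ Fin 2 → F), Cfsg.Geo.IsMDecomposition 2 D ∧ (∀ i, Cfsg.Geo.IsTotallySingularFor (Cfsg.sympForm 2 F) (D i)) ∧ H = Cfsg.Geo.decompositionStabilizer D ⊓ Cfsg.spGL 2 F) ∨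
    (∃ K : Subalgebra F (Matrix (Fin 2 ⊕ Fin 2) (Fin 2 ⊕ Fin 2) F), Cfsg.Geo.IsFieldSubalgebra 2 K ∧ Cfsg.Geo.IsSelfAdjointFor (Cfsg.sympForm 2 F) K ∧ (∀ k ∈ K, ∀ v : (Fin 2 ⊕ Fin 2 → F), (Cfsg.sympForm 2 F) (Matrix.mulVec k v) v = 0) ∧ H = Cfsg.Geo.subalgebraNormalizer K ⊓ Cfsg.spGL 2 F) ∨
    (5 ≤ Fintype.card F ∧ ∃ K : Subalgebra F (Matrix (Fin 2 ⊕ Fin 2) (Fin 2 ⊕ Fin 2) F), Cfsg.Geo.IsFieldSubalgebra 2 K ∧ Cfsg.Geo.IsAdjointClosedFor (Cfsg.sympForm 2 F) K ∧ ¬ Cfsg.Geo.IsSelfAdjointFor (Cfsg.sympForm 2 F) K ∧ H = Cfsg.Geo.subalgebraNormalizer K ⊓ Cfsg.spGL 2 F) ∨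
    (∃ (F₀ : Subfield F) (r : ℕ) (P : Matrix.GeneralLinearGroup (Fin 2 ⊕ Fin 2) F) (ζ : F), r.Prime ∧ Fintype.card F = Nat.card F₀ ^ r ∧ ζ ≠ 0 ∧ Cfsg.Geo.IsFormRationalStructure (Cfsg.sympForm 2 F) F₀ ζ P ∧ H = Cfsg.Geo.subfieldSubgroup F₀ P ⊓ Cfsg.spGL 2 F) ∨
    (∃ (p : ℕ) (R : Subgroup (Matrix.GeneralLinearGroup (Fin 2 ⊕ Fin 2) F)), p.Prime ∧ Fintype.card F = p ∧ Cfsg.Geo.IsSymplecticTypeGroup 2 R ∧ Cfsg.Geo.ActsAbsolutelyIrreducibly (Cfsg.Geo.matrixSet R) ∧ R ≤ Cfsg.Geo.similarityGroup (Cfsg.sympForm 2 F) ∧ Nat.card R = 32 ∧ Nat.card (Subgroup.center R) = 2 ∧ Cfsg.Geo.IsOfMinusType 2 R ∧ H = Cfsg.Geo.subgroupNormalizer R ⊓ Cfsg.spGL 2 F) ∨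
    Cfsg.Geo.InSymplecticResidualClass H := by
  rcases H1.SpList.sp_maximal_cases (by norm_num) hH with ⟨W, hW, hts, heq⟩ | ⟨W, hW, hnd, hdim, h2W, heq⟩ |
    ⟨t, k, D, hD, ht, hk, hev, htk, hq, heq⟩ | ⟨D, hq, hD, hts, heq⟩ | ⟨r, K, hr, hrm, hK, hself, halt, heq⟩ |
    ⟨K, hq, hK, hadj, hnself, heq⟩ | ⟨n₁, n₂, e, P, f₁, f₂, hq, h1, h2, hev, hn, h53, hf₁, hf₂, hform, heq⟩ |
    ⟨F₀, r, P, ζ, hr, hc, hζ, hf, heq⟩ | ⟨R, p, k, hR, habs, hsim, hp, hodd, hc, hn, hcard, hz, hminus, heq⟩ |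
    ⟨Q, hq, hQ, hpol, heq⟩ | ⟨k, t, e, P, f₁, hq, ht3, hk, hn, h5, hf₁, hform, heq⟩ | hres
  · exact .inl ⟨W, hW, hts, heq⟩
  · omega
  · obtain ⟨rfl, rfl⟩ : k = 2 ∧ t = 2 := by
      have : 2 * k ≤ t * k := Nat.mul_le_mul_right k ht
      have : k = 2 := by omega
      subst this
      omega
    exact .inr (.inl ⟨D, hD, heq⟩)
  · by_cases h3 : Fintype.card F = 3
    · obtain ⟨K, hK, hself, halt, hle⟩ := H1.SpList.halves_le_field h3 hD hts
      refine .inr (.inr (.inr (.inl ⟨K, hK, hself, halt, H1.SpList.eq_inf_of_le hH (heq ▸ hle) (H1.SpList.sp_not_le_field le_rfl Nat.prime_two hK)⟩)))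
    · exact .inr (.inr (.inl ⟨H1.SpList.odd_five hodd Fintype.one_lt_card h3, D, hD, hts, heq⟩))
  · obtain rfl : r = 2 := le_antisymm (Nat.le_of_dvd (by norm_num) hrm) hr.two_le
    exact .inr (.inr (.inr (.inl ⟨K, hK, hself, halt, heq⟩)))
  · have h5 : 5 ≤ Fintype.card F := H1.SpList.odd_five hodd Fintype.one_lt_card fun h3 =>
      H1.SpList.not_unitary_of_maximal h3 hH hK hadj hnself heq
    exact .inr (.inr (.inr (.inr (.inl ⟨h5, K, hK, hadj, hnself, heq⟩))))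
  · exfalso
    have := Nat.mul_le_mul h1 h2
    omega
  · exact .inr (.inr (.inr (.inr (.inr (.inl ⟨F₀, r, P, ζ, hr, hc, hζ, hf, heq⟩)))))
  · obtain rfl : k = 2 := by
      rcases Nat.lt_or_ge k 3 with h | h
      · interval_cases k <;> omega
      · have := Nat.pow_le_pow_right (show 0 < 2 by norm_num) h
        omega
    exact .inr (.inr (.inr (.inr (.inr (.inr (.inl ⟨p, R, hp, hc, hR, habs, hsim, by rw [hcard]; norm_num, hz, hminus, heq⟩))))))
  · exact absurd hodd hq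
  · exfalso
    have h8 := Nat.pow_le_pow_left hk t
    have h8' := Nat.pow_le_pow_right (show 0 < 2 by norm_num) ht3
    omega
  · exact .inr (.inr (.inr (.inr (.inr (.inr (.inr (hres)))))))

end Cfsg.Agent.S5787
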