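import Cfsg.Statements.S5789
import Cfsg.Agent.H98.MaximalSp
import Cfsg.Agent.H98.MaximalSpWreath
import Cfsg.Agent.H25.GeoLists.SpFour.Subfield
import Cfsg.Agent.H25.GeoLists.SpFour.Field
import Cfsg.Agent.H25.GeoLists.SpFour.Orth

set_option autoImplicit false
open Cfsg

namespace Cfsg.Agent.S5789

/-- Maximal subgroups of Sp_4(q) of geometric type, q ≥ 4 even. Let F be a finite field of even order q ≥ 4, f the standard alternating form on F^4 (coordinates Fin 2 ⊕ Fin 2) and Sp_4(F) its isometry group inside GL_4(F). Each of the following, intersected with Sp_4(F), is a maximal subgroup of Sp_4(F): (1) the stabiliser of any non-zero totally isotropic subspace (totally isotropic 1-spaces and 2-spaces); (2) the stabiliser of any decomposition of F^4 into two mutually orthogonal non-degenerate 2-spaces; (3) the normaliser of any degree-2 subfield K of the matrix algebra whose elements are self-adjoint for f with f(k v, v) = 0 for all k in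 K and all v; (4) every subfield group for a subfield F₀ with |F| = |F₀|^r, r prime, whose F₀-structure carries a non-zero scalar multiple of f; (5) the similarity group of any non-degenerate quadratic form whose polar form is f (either Witt type); its intersection with Sp_4(F) is the orthogonal group of that form. -/
theorem result {F : Type*} [Field F] [Fintype F] (heven : ¬ Odd (Fintype.card F)) (h4 : 4 ≤ Fintype.card F) :
    (∀ W : Submodule F (Fin 2 ⊕ Fin 2 → F), W ≠ ⊥ → Cfsg.Geo.IsTotallySingularFor (Cfsg.sympForm 2 F) W → Cfsg.Geo.IsMaximalIn (Cfsg.spGL 2 F) (Cfsg.Geo.subspaceStabilizer W ⊓ Cfsg.spGL 2 F)) ∧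
    (∀ D : Fin 2 → Submodule F (Fin 2 ⊕ Fin 2 → F), Cfsg.Geo.IsNondegenerateMDecomposition (Cfsg.sympForm 2 F) 2 D → Cfsg.Geo.IsMaximalIn (Cfsg.spGL 2 F) (Cfsg.Geo.decompositionStabilizer D ⊓ Cfsg.spGL 2 F)) ∧
    (∀ K : Subalgebra F (Matrix (Fin 2 ⊕ Fin 2) (Fin 2 ⊕ Fin 2) F), Cfsg.Geo.IsFieldSubalgebra 2 K → Cfsg.Geo.IsSelfAdjointFor (Cfsg.sympForm 2 F) K → (∀ k ∈ K, ∀ v : (Fin 2 ⊕ Fin 2 → F), (Cfsg.sympForm 2 F) (Matrix.mulVec k v) v = 0) → Cfsg.Geo.IsMaximalIn (Cfsg.spGL 2 F) (Cfsg.Geo.subalgebraNormalizer K ⊓ Cfsg.spGL 2 F)) ∧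
    (∀ (F₀ : Subfield F) (r : ℕ) (P : Matrix.GeneralLinearGroup (Fin 2 ⊕ Fin 2) F) (ζ : F), r.Prime → Fintype.card F = Nat.card F₀ ^ r → ζ ≠ 0 → Cfsg.Geo.IsFormRationalStructure (Cfsg.sympForm 2 F) F₀ ζ P → Cfsg.Geo.IsMaximalIn (Cfsg.spGL 2 F) (Cfsg.Geo.subfieldSubgroup F₀ P ⊓ Cfsg.spGL 2 F)) ∧
    (∀ Q : (Fin 2 ⊕ Fin 2 → F) → F, Cfsg.Geo.IsNondegenerateQuadraticForm Q → (∀ u v : (Fin 2 ⊕ Fin 2 → F), QuadraticMap.polar Q u v = (Cfsg.sympForm 2 F) u v) → Cfsg.Geo.IsMaximalIn (Cfsg.spGL 2 F) (Cfsg.Geo.quadSimilarityGroup Q ⊓ Cfsg.spGL 2 F)) := by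
  have h2 : (2 : F) = 0 := by
    by_contra h2
    exact heven (Nat.odd_iff.mpr (FiniteField.odd_card_of_char_ne_two fun hc => h2 (by
      haveI := ringChar.charP F
      have := CharP.cast_eq_zero F (ringChar F)
      rw [hc] at this
      exact_mod_cast this)))
  refine ⟨?_, ?_, ?_, ?_, ?_⟩
  · intro W hW0 hW
    exact Cfsg.Agent.H98.sp_stab_ts_maximal W hW0 fun u hu v hv => by
      rw [Cfsg.Agent.H2.sympBilin_apply]; exact hW u hu v hv
  · intro D hD
    refine Cfsg.Agent.H98.sp_wreath_maximal hD.decomp (fun i u hu h => ?_) (fun i j hij u hu v hv => ?_) (by omega)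
    · by_contra h0
      obtain ⟨-, x, hx, hne⟩ := hD.nondegenerate i u hu h0
      exact hne (by rw [← Cfsg.Agent.H2.sympBilin_apply]; exact h x hx)
    · rw [Cfsg.Agent.H2.sympBilin_apply]; exact hD.orthogonal i j hij u hu v hv
  · exact fun K hK hsa halt =>
      Cfsg.Agent.H25.SpFour.field_maximal_sp le_rfl (by omega) Nat.prime_two hK hsa halt
  · exact fun F₀ r P ζ hr hc hζ hP => Cfsg.Agent.H25.SpFour.sp_subfield_maximal₂' le_rfl h2 hr hc P ζ hζ hP
  · exact fun Q hQ hpol => Cfsg.Agent.H25.SpFour.sp_orth_maximal₂ le_rfl h2 Q hQ fun u v => by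
      rw [Cfsg.Agent.H2.sympBilin_apply]; exact hpol u v

end Cfsg.Agent.S5789
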