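import Cfsg.Statements.S5790
import Cfsg.Agent.H1.SpList.Cases
-- import your own Cfsg.Agent.* helpers here

set_option autoImplicit false
open Cfsg

namespace Cfsg.Agent.S5790

/-- Every maximal subgroup of Sp_4(q), q ≥ 4 even, is of one of the listed geometric types or lies in the residual class. Let F be a finite field of even order q ≥ 4, f the standard alternating form on F^4 (coordinates Fin 2 ⊕ Fin 2), and H a maximal subgroup of Sp_4(F) (inside GL_4(F)). Then H is the intersection with Sp_4(F) of one of: the stabiliser of a non-zero totally isotropic subspace; the stabiliser of a decomposition into two orthogonal non-degenerate 2-spaces; the normaliser of a degree-2 subfield K of the matrix algebra, self-adjoint with f(k v, v) = 0; a subfield group whose F₀-structure carries a non-zero multiple of f, |F| = |F₀|^r with r prime; the similarity group of a non-degenerate quadratic form whose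 polar form is f — or else H lies in the residual class of the symplectic case. -/
theorem result {F : Type*} [Field F] [Fintype F] (heven : ¬ Odd (Fintype.card F)) (h4 : 4 ≤ Fintype.card F) (H : Subgroup (Matrix.GeneralLinearGroup (Fin 2 ⊕ Fin 2) F)) (hH : Cfsg.Geo.IsMaximalIn (Cfsg.spGL 2 F) H) :
    (∃ W : Submodule F (Fin 2 ⊕ Fin 2 → F), W ≠ ⊥ ∧ Cfsg.Geo.IsTotallySingularFor (Cfsg.sympForm 2 F) W ∧ H = Cfsg.Geo.subspaceStabilizer W ⊓ Cfsg.spGL 2 F) ∨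
    (∃ D : Fin 2 → Submodule F (Fin 2 ⊕ Fin 2 → F), Cfsg.Geo.IsNondegenerateMDecomposition (Cfsg.sympForm 2 F) 2 D ∧ H = Cfsg.Geo.decompositionStabilizer D ⊓ Cfsg.spGL 2 F) ∨
    (∃ K : Subalgebra F (Matrix (Fin 2 ⊕ Fin 2) (Fin 2 ⊕ Fin 2) F), Cfsg.Geo.IsFieldSubalgebra 2 K ∧ Cfsg.Geo.IsSelfAdjointFor (Cfsg.sympForm 2 F) K ∧ (∀ k ∈ K, ∀ v : (Fin 2 ⊕ Fin 2 → F), (Cfsg.sympForm 2 F) (Matrix.mulVec k v) v = 0) ∧ H = Cfsg.Geo.subalgebraNormalizer K ⊓ Cfsg.spGL 2 F) ∨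
    (∃ (F₀ : Subfield F) (r : ℕ) (P : Matrix.GeneralLinearGroup (Fin 2 ⊕ Fin 2) F) (ζ : F), r.Prime ∧ Fintype.card F = Nat.card F₀ ^ r ∧ ζ ≠ 0 ∧ Cfsg.Geo.IsFormRationalStructure (Cfsg.sympForm 2 F) F₀ ζ P ∧ H = Cfsg.Geo.subfieldSubgroup F₀ P ⊓ Cfsg.spGL 2 F) ∨
    (∃ Q : (Fin 2 ⊕ Fin 2 → F) → F, Cfsg.Geo.IsNondegenerateQuadraticForm Q ∧ (∀ u v : (Fin 2 ⊕ Fin 2 → F), QuadraticMap.polar Q u v = (Cfsg.sympForm 2 F) u v) ∧ H = Cfsg.Geo.quadSimilarityGroup Q ⊓ Cfsg.spGL 2 F) ∨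
    Cfsg.Geo.InSymplecticResidualClass H := by
  rcases H1.SpList.sp_maximal_cases (by norm_num) hH with ⟨W, hW, hts, heq⟩ | ⟨W, hW, hnd, hdim, h2W, heq⟩ |
    ⟨t, k, D, hD, ht, hk, hev, htk, hq, heq⟩ | ⟨D, hq, hD, hts, heq⟩ | ⟨r, K, hr, hrm, hK, hself, halt, heq⟩ |
    ⟨K, hq, hK, hadj, hnself, heq⟩ | ⟨n₁, n₂, e, P, f₁, f₂, hq, h1, h2, hev, hn, h53, hf₁, hf₂, hform, heq⟩ |
    ⟨F₀, r, P, ζ, hr, hc, hζ, hf, heq⟩ | ⟨R, p, k, hR, habs, hsim, hp, hodd, hc, hn, hcard, hz, hminus, heq⟩ |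
    ⟨Q, hq, hQ, hpol, heq⟩ | ⟨k, t, e, P, f₁, hq, ht3, hk, hn, h5, hf₁, hform, heq⟩ | hres
  · exact .inl ⟨W, hW, hts, heq⟩
  · omega
  · obtain ⟨rfl, rfl⟩ : k = 2 ∧ t = 2 := by
      have : 2 * k ≤ t * k := Nat.mul_le_mul_right k ht
      have : k = 2 := by omega
      subst this
      omega
    exact .inr (.inl ⟨D, hD, heq⟩)
  · exact absurd hq heven
  · obtain rfl : r = 2 := le_antisymm (Nat.le_of_dvd (by norm_num) hrm) hr.two_le
    exact .inr (.inr (.inl ⟨K, hK, hself, halt, heq⟩))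
  · exact absurd hq heven
  · exact absurd hq heven
  · exact .inr (.inr (.inr (.inl ⟨F₀, r, P, ζ, hr, hc, hζ, hf, heq⟩)))
  · exact absurd (hc ▸ hodd) heven
  · exact .inr (.inr (.inr (.inr (.inl ⟨Q, hQ, hpol, heq⟩))))
  · exact absurd hq heven
  · exact .inr (.inr (.inr (.inr (.inr hres))))

end Cfsg.Agent.S5790
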