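import Cfsg.Statements.S5796
import Cfsg.Agent.H3.UMax.FieldFive
import Cfsg.Agent.H3.UMax.Residue

set_option autoImplicit false
open Cfsg

namespace Cfsg.Agent.S5796

/-- Every maximal subgroup of SU_5(q) is of one of the listed geometric types or lies in the residual class. Let F be the field with q² elements (characteristic p), f the standard unitary form Σ u_i v_i^q on F^5, and H a maximal subgroup of SU_5(q) (inside GL_5(F)). Then H is the intersection with SU_5(q) of one of: the stabiliser of a non-zero totally isotropic subspace; the stabiliser of a non-degenerate 1-space or 2-space; the stabiliser of a decomposition into five mutually orthogonal non-degenerate 1-spaces; for q ≥ 3, the normaliser of an adjoint-closed degree-5 subfield of the matrix algebra; a subfield group of odd prime index whose F₀-structure carries f; for q odd, a subfield group of index 2 whose F₀-structure carries f; for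 q = p ≡ 4 mod 5 or q = p² with p ≡ 2, 3 mod 5, the normaliser of an absolutely irreducible 5-group of exponent 5, order 125 and centre of order 5 with all characteristic abelian subgroups cyclic inside the similarity group of f — or else H lies in the residual class of the unitary case. -/
theorem result {F : Type*} [Field F] [Fintype F] (q : ℕ) (hF : Fintype.card F = q ^ 2) (H : Subgroup (Matrix.GeneralLinearGroup (Fin 5) F)) (hH : Cfsg.Geo.IsMaximalIn (Cfsg.GU 5 F q ⊓ Cfsg.Geo.specialLinear (Fin 5) F) H) :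
    (∃ W : Submodule F (Fin 5 → F), W ≠ ⊥ ∧ Cfsg.Geo.IsTotallySingularFor (Cfsg.hermForm 5 F q) W ∧ H = Cfsg.Geo.subspaceStabilizer W ⊓ (Cfsg.GU 5 F q ⊓ Cfsg.Geo.specialLinear (Fin 5) F)) ∨
    (∃ W : Submodule F (Fin 5 → F), W ≠ ⊥ ∧ Cfsg.Geo.IsNondegenerateOn (Cfsg.hermForm 5 F q) W ∧ 2 * Module.finrank F W < 5 ∧ H = Cfsg.Geo.subspaceStabilizer W ⊓ (Cfsg.GU 5 F q ⊓ Cfsg.Geo.specialLinear (Fin 5) F)) ∨
    (∃ D : Fin 5 → Submodule F (Fin 5 → F), Cfsg.Geo.IsNondegenerateMDecomposition (Cfsg.hermForm 5 F q) 1 D ∧ H = Cfsg.Geo.decompositionStabilizer D ⊓ (Cfsg.GU 5 F q ⊓ Cfsg.Geo.specialLinear (Fin 5) F)) ∨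
    (3 ≤ q ∧ ∃ K : Subalgebra F (Matrix (Fin 5) (Fin 5) F), Cfsg.Geo.IsFieldSubalgebra 5 K ∧ Cfsg.Geo.IsAdjointClosedFor (Cfsg.hermForm 5 F q) K ∧ H = Cfsg.Geo.subalgebraNormalizer K ⊓ (Cfsg.GU 5 F q ⊓ Cfsg.Geo.specialLinear (Fin 5) F)) ∨
    (∃ (F₀ : Subfield F) (r : ℕ) (P : Matrix.GeneralLinearGroup (Fin 5) F), r.Prime ∧ Odd r ∧ Fintype.card F = Nat.card F₀ ^ r ∧ Cfsg.Geo.IsFormRationalStructure (Cfsg.hermForm 5 F q) F₀ 1 P ∧ H = Cfsg.Geo.subfieldSubgroup F₀ P ⊓ (Cfsg.GU 5 F q ⊓ Cfsg.Geo.specialLinear (Fin 5) F)) ∨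
    (Odd q ∧ ∃ (F₀ : Subfield F) (P : Matrix.GeneralLinearGroup (Fin 5) F), Fintype.card F = Nat.card F₀ ^ 2 ∧ Cfsg.Geo.IsFormRationalStructure (Cfsg.hermForm 5 F q) F₀ 1 P ∧ H = Cfsg.Geo.subfieldSubgroup F₀ P ⊓ (Cfsg.GU 5 F q ⊓ Cfsg.Geo.specialLinear (Fin 5) F)) ∨
    (∃ (p : ℕ) (R : Subgroup (Matrix.GeneralLinearGroup (Fin 5) F)), p.Prime ∧ CharP F p ∧ ((q = p ∧ p % 5 = 4) ∨ (q = p ^ 2 ∧ (p % 5 = 2 ∨ p % 5 = 3))) ∧ Cfsg.Geo.IsSymplecticTypeGroup 5 R ∧ Cfsg.Geo.ActsAbsolutelyIrreducibly (Cfsg.Geo.matrixSet R) ∧ R ≤ Cfsg.Geo.similarityGroup (Cfsg.hermForm 5 F q) ∧ Nat.card R = 125 ∧ Nat.card (Subgroup.center R) = 5 ∧ H = Cfsg.Geo.subgroupNormalizer R ⊓ (Cfsg.GU 5 F q ⊓ Cfsg.Geo.specialLinear (Fin 5) F)) ∨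
    Cfsg.Geo.InUnitaryResidualClass H := by
  rcases H99.Asch.unitary_maximal_cases hF (by norm_num) (by norm_num) hH with h | h | ⟨t, k, V, hV, htk, ht, hkq, h⟩ |
    ⟨k, V, hk, hV, hts, h⟩ | ⟨r, K, hr, hodd, hrn, hK, hadj, h⟩ |
    ⟨n₁, n₂, e, P, f₁, f₂, h1, h12, hn, hq3, hf₁, hf₂, hform, h⟩ | h | h | ⟨hev, F₀, P, ζ, hc, hζ, hζq, hf, halt, h⟩ |
    ⟨r, R, p, e, k, hR, habs, hsim, hrp, hmin, hn, hcase, h⟩ | ⟨k, e, P, f₁, hk, hn, hex, hf₁, hform, h⟩ | h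
  · exact Or.inl (h)
  · exact Or.inr (Or.inl (h))
  · obtain rfl : t = 5 := ((Nat.dvd_prime (by norm_num)).1 ⟨k, htk.symm⟩).resolve_left (by omega)
    obtain rfl : k = 1 := by omega
    exact Or.inr (Or.inr (Or.inl ⟨V, hV, h⟩))
  · omega
  · obtain rfl : r = 5 := ((Nat.dvd_prime (by norm_num)).1 hrn).resolve_left hr.one_lt.ne'
    refine Or.inr (Or.inr (Or.inr (Or.inl ⟨?_, K, hK, hadj, h⟩)))
    have h2 := H3.two_le_q hF
    by_contra hq
    exact H3.UMax.field_five_not_maximal hF (by omega) hK hadj hH h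
  · exfalso
    have hn1 : n₁ ≤ 2 := by nlinarith
    obtain rfl : n₁ = 2 := by omega
    omega
  · exact Or.inr (Or.inr (Or.inr (Or.inr (Or.inl (h)))))
  · exact Or.inr (Or.inr (Or.inr (Or.inr (Or.inr (Or.inl (h))))))
  · exact absurd hev (by decide)
  · obtain ⟨rfl, rfl⟩ := H99.Asch.eq_of_prime_pow (m := 1) hR.prime (show Nat.Prime 5 by norm_num) hn (by norm_num) le_rfl
    rcases hcase with ⟨-, hz, hcR, -⟩ | ⟨h5, -⟩
    · rw [hz] at hmin
      have hres := H3.UMax.residue_five hF hmin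
      exact Or.inr (Or.inr (Or.inr (Or.inr (Or.inr (Or.inr (Or.inl
        ⟨p, R, hmin.1, hmin.2.1, hres, hR, habs, hsim, by rw [hcR]; norm_num, hz, h⟩))))))
    · omega
  · have : 9 ≤ k ^ 2 := Nat.pow_le_pow_left hk 2
    omega
  · exact Or.inr (Or.inr (Or.inr (Or.inr (Or.inr (Or.inr (Or.inr h))))))

end Cfsg.Agent.S5796
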