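import Cfsg.Statements.S5799
import Cfsg.Agent.H99.Aschbacher.Dims
-- import your own Cfsg.Agent.* helpers here

set_option autoImplicit false
open Cfsg

namespace Cfsg.Agent.S5799

/-- Every maximal subgroup of SL_6(q) is of one of the listed geometric types or lies in the residual class. Let F be a finite field with q elements (p its characteristic) and H a maximal subgroup of SL_6(F) (inside GL_6(F)). Then H is the intersection with SL_6(F) of one of: the stabiliser of a proper non-zero subspace; for q ≥ 5, the stabiliser of a decomposition into 6 independent 1-spaces; for q ≥ 3, the stabiliser of a decomposition into 3 independent 2-spaces; the stabiliser of a decomposition into 2 independent 3-spaces; the normaliser of a degree-2 subfield of the matrix algebra; the normaliser of a degree-3 subfield of the matrix algebra; for q ≥ 3, the stabiliser of a tensor decomposition F^2 ⊗ F^3; a subfield group for a subfield F₀ with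 |F| = |F₀|^r, r prime; for q odd, the similarity group of a non-degenerate quadratic form; the similarity group of a non-degenerate symplectic form; the similarity group of a non-degenerate unitary form — or else H lies in the residual class of the linear case (modulo scalars H is almost simple, with absolutely irreducible perfect socle preimage realisable over no proper subfield and fixing no non-degenerate quadratic, symplectic or unitary form). -/
theorem result {F : Type*} [Field F] [Fintype F] (H : Subgroup (Matrix.GeneralLinearGroup (Fin 6) F)) (hH : Cfsg.Geo.IsMaximalIn (Cfsg.Geo.specialLinear (Fin 6) F) H) :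
    (∃ W : Submodule F (Fin 6 → F), W ≠ ⊥ ∧ W ≠ ⊤ ∧ H = Cfsg.Geo.subspaceStabilizer W ⊓ Cfsg.Geo.specialLinear (Fin 6) F) ∨
    (5 ≤ Fintype.card F ∧ ∃ D : Fin 6 → Submodule F (Fin 6 → F), Cfsg.Geo.IsMDecomposition 1 D ∧ H = Cfsg.Geo.decompositionStabilizer D ⊓ Cfsg.Geo.specialLinear (Fin 6) F) ∨
    (3 ≤ Fintype.card F ∧ ∃ D : Fin 3 → Submodule F (Fin 6 → F), Cfsg.Geo.IsMDecomposition 2 D ∧ H = Cfsg.Geo.decompositionStabilizer D ⊓ Cfsg.Geo.specialLinear (Fin 6) F) ∨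
    (∃ D : Fin 2 → Submodule F (Fin 6 → F), Cfsg.Geo.IsMDecomposition 3 D ∧ H = Cfsg.Geo.decompositionStabilizer D ⊓ Cfsg.Geo.specialLinear (Fin 6) F) ∨
    (∃ K : Subalgebra F (Matrix (Fin 6) (Fin 6) F), Cfsg.Geo.IsFieldSubalgebra 2 K ∧ H = Cfsg.Geo.subalgebraNormalizer K ⊓ Cfsg.Geo.specialLinear (Fin 6) F) ∨
    (∃ K : Subalgebra F (Matrix (Fin 6) (Fin 6) F), Cfsg.Geo.IsFieldSubalgebra 3 K ∧ H = Cfsg.Geo.subalgebraNormalizer K ⊓ Cfsg.Geo.specialLinear (Fin 6) F) ∨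
    (3 ≤ Fintype.card F ∧ ∃ (e : Fin 6 ≃ Fin 2 × Fin 3) (P : Matrix.GeneralLinearGroup (Fin 6) F), H = Cfsg.Geo.tensorProductSubgroup 2 3 e P ⊓ Cfsg.Geo.specialLinear (Fin 6) F) ∨
    (∃ (F₀ : Subfield F) (r : ℕ) (P : Matrix.GeneralLinearGroup (Fin 6) F), r.Prime ∧ Fintype.card F = Nat.card F₀ ^ r ∧ H = Cfsg.Geo.subfieldSubgroup F₀ P ⊓ Cfsg.Geo.specialLinear (Fin 6) F) ∨
    (Odd (Fintype.card F) ∧ ∃ Q : (Fin 6 → F) → F, Cfsg.Geo.IsNondegenerateQuadraticForm Q ∧ H = Cfsg.Geo.quadSimilarityGroup Q ⊓ Cfsg.Geo.specialLinear (Fin 6) F) ∨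
    (∃ f : (Fin 6 → F) → (Fin 6 → F) → F, Cfsg.Geo.IsSymplecticForm f ∧ H = Cfsg.Geo.similarityGroup f ⊓ Cfsg.Geo.specialLinear (Fin 6) F) ∨
    (∃ (σ : F ≃+* F) (f : (Fin 6 → F) → (Fin 6 → F) → F), Cfsg.Geo.IsUnitaryForm σ f ∧ H = Cfsg.Geo.similarityGroup f ⊓ Cfsg.Geo.specialLinear (Fin 6) F) ∨
    Cfsg.Geo.InLinearResidualClass H := by
  rcases Cfsg.Agent.H99.Asch.maximal_list (by simp) (by simp) hH with ⟨W, w1, w2, h⟩ |
    ⟨t, m, D, hD, htm, c1, c2, c3, h⟩ | ⟨r, K, hr, hrn, hK, h⟩ | ⟨n₁, n₂, e, P, h1, h2, hc, c2, h⟩ |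
    ⟨F₁, r, P, hr, hc, h⟩ | ⟨r, R, m, hR, hm, hm1, h⟩ | ⟨m, e, P, h1, hc, h⟩ | ⟨he, f, hf, h⟩ |
    ⟨σ, f, hf, h⟩ | ⟨ho, Q, hQ, h⟩ | h
  · exact (Or.inl (⟨W, w1, w2, h⟩))
  · simp only [Fintype.card_fin] at htm
    have ht := hD.two_le
    have hmpos := hD.pos
    have hcases : (t = 6 ∧ m = 1) ∨ (t = 3 ∧ m = 2) ∨ (t = 2 ∧ m = 3) := by
      have : t ≤ 6 := htm ▸ Nat.le_mul_of_pos_right t hmpos
      interval_cases t <;> omega
    rcases hcases with ⟨rfl, rfl⟩ | ⟨rfl, rfl⟩ | ⟨rfl, rfl⟩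
    · exact (Or.inr (Or.inl (⟨c1 rfl, D, hD, h⟩)))
    · exact (Or.inr (Or.inr (Or.inl (⟨c2 rfl, D, hD, h⟩))))
    · exact (Or.inr (Or.inr (Or.inr (Or.inl (⟨D, hD, h⟩)))))
  · simp only [Fintype.card_fin] at hrn
    have hcases : r = 2 ∨ r = 3 := by
      have := Nat.le_of_dvd (by norm_num) hrn
      have := hr.two_le
      interval_cases r <;> first | omega | (exfalso; revert hr; decide)
    rcases hcases with rfl | rfl
    · exact (Or.inr (Or.inr (Or.inr (Or.inr (Or.inl (⟨K, hK, h⟩))))))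
    · exact (Or.inr (Or.inr (Or.inr (Or.inr (Or.inr (Or.inl (⟨K, hK, h⟩)))))))
  · simp only [Fintype.card_fin] at hc
    have hcases : (n₁ = 2 ∧ n₂ = 3) := by
      have : n₁ ≤ 6 := hc.symm ▸ Nat.le_mul_of_pos_right n₁ (by omega)
      interval_cases n₁ <;> omega
    obtain ⟨rfl, rfl⟩ := hcases
    exact (Or.inr (Or.inr (Or.inr (Or.inr (Or.inr (Or.inr (Or.inl (⟨c2 rfl, e, P, h⟩))))))))
  · exact (Or.inr (Or.inr (Or.inr (Or.inr (Or.inr (Or.inr (Or.inr (Or.inl (⟨F₁, r, P, hr, hc, h⟩)))))))))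
  · simp only [Fintype.card_fin] at hm
    exfalso
    have hr := hR.symplecticType.prime
    have hdvd : r ∣ 6 := hm ▸ dvd_pow_self r (by omega)
    have := Nat.le_of_dvd (by norm_num) hdvd
    have := hr.two_le
    have hm4 : m < 6 + 1 := Nat.lt_succ_of_le ((Nat.lt_pow_self (by omega)).le.trans hm.symm.le)
    interval_cases r <;> interval_cases m <;> (revert hm hr hdvd; decide)
  · simp only [Fintype.card_fin] at hc
    exfalso
    have : m ≤ 3 := by nlinarith
    interval_cases m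
    omega
  · exact (Or.inr (Or.inr (Or.inr (Or.inr (Or.inr (Or.inr (Or.inr (Or.inr (Or.inr (Or.inl (⟨f, hf, h⟩)))))))))))
  · exact (Or.inr (Or.inr (Or.inr (Or.inr (Or.inr (Or.inr (Or.inr (Or.inr (Or.inr (Or.inr (Or.inl (⟨σ, f, hf, h⟩))))))))))))
  · exact (Or.inr (Or.inr (Or.inr (Or.inr (Or.inr (Or.inr (Or.inr (Or.inr (Or.inl (⟨ho, Q, hQ, h⟩))))))))))
  · exact (Or.inr (Or.inr (Or.inr (Or.inr (Or.inr (Or.inr (Or.inr (Or.inr (Or.inr (Or.inr (Or.inr (h))))))))))))

end Cfsg.Agent.S5799
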