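import Cfsg.Statements.S5802
import Cfsg.Agent.H3.UMax.FieldSix
import Cfsg.Agent.H3.UMax.MonoSix

set_option autoImplicit false
open Cfsg

namespace Cfsg.Agent.S5802

/-- Every maximal subgroup of SU_6(q) is of one of the listed geometric types or lies in the residual class. Let F be the field with q² elements, f the standard unitary form Σ u_i v_i^q on F^6, and H a maximal subgroup of SU_6(q) (inside GL_6(F)). Then H is the intersection with SU_6(q) of one of: the stabiliser of a non-zero totally isotropic subspace; the stabiliser of a non-degenerate 1- or 2-space; for q ≥ 3, the stabiliser of a decomposition into six mutually orthogonal non-degenerate 1-spaces; for q ≥ 3, of a decomposition into three mutually orthogonal non-degenerate 2-spaces; of a decomposition into two orthogonal non-degenerate 3-spaces; of a decomposition into two totally isotropic 3-spaces; for q ≥ 3, the normaliser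 of an adjoint-closed degree-3 subfield of the matrix algebra; for q ≥ 3, the stabiliser of a tensor decomposition of f into unitary forms on F^2 and F^3; a subfield group of odd prime index whose F₀-structure carries f; a subfield group of index 2 and symplectic type; for q odd, a subfield group of index 2 and orthogonal type — or else H lies in the residual class of the unitary case. -/
theorem result {F : Type*} [Field F] [Fintype F] (q : ℕ) (hF : Fintype.card F = q ^ 2) (H : Subgroup (Matrix.GeneralLinearGroup (Fin 6) F)) (hH : Cfsg.Geo.IsMaximalIn (Cfsg.GU 6 F q ⊓ Cfsg.Geo.specialLinear (Fin 6) F) H) :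
    (∃ W : Submodule F (Fin 6 → F), W ≠ ⊥ ∧ Cfsg.Geo.IsTotallySingularFor (Cfsg.hermForm 6 F q) W ∧ H = Cfsg.Geo.subspaceStabilizer W ⊓ (Cfsg.GU 6 F q ⊓ Cfsg.Geo.specialLinear (Fin 6) F)) ∨
    (∃ W : Submodule F (Fin 6 → F), W ≠ ⊥ ∧ Cfsg.Geo.IsNondegenerateOn (Cfsg.hermForm 6 F q) W ∧ 2 * Module.finrank F W < 6 ∧ H = Cfsg.Geo.subspaceStabilizer W ⊓ (Cfsg.GU 6 F q ⊓ Cfsg.Geo.specialLinear (Fin 6) F)) ∨
    (3 ≤ q ∧ ∃ D : Fin 6 → Submodule F (Fin 6 → F), Cfsg.Geo.IsNondegenerateMDecomposition (Cfsg.hermForm 6 F q) 1 D ∧ H = Cfsg.Geo.decompositionStabilizer D ⊓ (Cfsg.GU 6 F q ⊓ Cfsg.Geo.specialLinear (Fin 6) F)) ∨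
    (3 ≤ q ∧ ∃ D : Fin 3 → Submodule F (Fin 6 → F), Cfsg.Geo.IsNondegenerateMDecomposition (Cfsg.hermForm 6 F q) 2 D ∧ H = Cfsg.Geo.decompositionStabilizer D ⊓ (Cfsg.GU 6 F q ⊓ Cfsg.Geo.specialLinear (Fin 6) F)) ∨
    (∃ D : Fin 2 → Submodule F (Fin 6 → F), Cfsg.Geo.IsNondegenerateMDecomposition (Cfsg.hermForm 6 F q) 3 D ∧ H = Cfsg.Geo.decompositionStabilizer D ⊓ (Cfsg.GU 6 F q ⊓ Cfsg.Geo.specialLinear (Fin 6) F)) ∨
    (∃ D : Fin 2 → Submodule F (Fin 6 → F), Cfsg.Geo.IsMDecomposition 3 D ∧ (∀ i, Cfsg.Geo.IsTotallySingularFor (Cfsg.hermForm 6 F q) (D i)) ∧ H = Cfsg.Geo.decompositionStabilizer D ⊓ (Cfsg.GU 6 F q ⊓ Cfsg.Geo.specialLinear (Fin 6) F)) ∨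
    (3 ≤ q ∧ ∃ K : Subalgebra F (Matrix (Fin 6) (Fin 6) F), Cfsg.Geo.IsFieldSubalgebra 3 K ∧ Cfsg.Geo.IsAdjointClosedFor (Cfsg.hermForm 6 F q) K ∧ H = Cfsg.Geo.subalgebraNormalizer K ⊓ (Cfsg.GU 6 F q ⊓ Cfsg.Geo.specialLinear (Fin 6) F)) ∨
    (3 ≤ q ∧ ∃ (e : Fin 6 ≃ Fin 2 × Fin 3) (P : Matrix.GeneralLinearGroup (Fin 6) F) (f₁ : (Fin 2 → F) → (Fin 2 → F) → F) (f₂ : (Fin 3 → F) → (Fin 3 → F) → F), Cfsg.Geo.IsUnitaryFormPow q f₁ ∧ Cfsg.Geo.IsUnitaryFormPow q f₂ ∧ Cfsg.Geo.IsTensorFormStructure (fun x : F => x ^ q) (Cfsg.hermForm 6 F q) f₁ f₂ e P ∧ H = Cfsg.Geo.tensorProductSubgroup 2 3 e P ⊓ (Cfsg.GU 6 F q ⊓ Cfsg.Geo.specialLinear (Fin 6) F)) ∨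
    (∃ (F₀ : Subfield F) (r : ℕ) (P : Matrix.GeneralLinearGroup (Fin 6) F), r.Prime ∧ Odd r ∧ Fintype.card F = Nat.card F₀ ^ r ∧ Cfsg.Geo.IsFormRationalStructure (Cfsg.hermForm 6 F q) F₀ 1 P ∧ H = Cfsg.Geo.subfieldSubgroup F₀ P ⊓ (Cfsg.GU 6 F q ⊓ Cfsg.Geo.specialLinear (Fin 6) F)) ∨
    (∃ (F₀ : Subfield F) (P : Matrix.GeneralLinearGroup (Fin 6) F) (ζ : F), Fintype.card F = Nat.card F₀ ^ 2 ∧ ζ ≠ 0 ∧ ζ + ζ ^ q = 0 ∧ Cfsg.Geo.IsFormRationalStructure (Cfsg.hermForm 6 F q) F₀ ζ P ∧ (∀ u : Fin 6 → F, (∀ i, u i ∈ F₀) → (Cfsg.hermForm 6 F q) (Matrix.mulVec (P : Matrix (Fin 6) (Fin 6) F) u) (Matrix.mulVec (P : Matrix (Fin 6) (Fin 6) F) u) = 0) ∧ H = Cfsg.Geo.subfieldSubgroup F₀ P ⊓ (Cfsg.GU 6 F q ⊓ Cfsg.Geo.specialLinear (Fin 6) F)) ∨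
    (Odd q ∧ ∃ (F₀ : Subfield F) (P : Matrix.GeneralLinearGroup (Fin 6) F), Fintype.card F = Nat.card F₀ ^ 2 ∧ Cfsg.Geo.IsFormRationalStructure (Cfsg.hermForm 6 F q) F₀ 1 P ∧ H = Cfsg.Geo.subfieldSubgroup F₀ P ⊓ (Cfsg.GU 6 F q ⊓ Cfsg.Geo.specialLinear (Fin 6) F)) ∨
    Cfsg.Geo.InUnitaryResidualClass H := by
  have hq2 := H3.two_le_q hF
  rcases H99.Asch.unitary_maximal_cases hF (by norm_num) (by norm_num) hH with h | h | ⟨t, k, V, hV, htk, ht, hkq, h⟩ |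
    ⟨k, V, hk, hV, hts, h⟩ | ⟨r, K, hr, hodd, hrn, hK, hadj, h⟩ |
    ⟨n₁, n₂, e, P, f₁, f₂, h1, h12, hn, hq3, hf₁, hf₂, hform, h⟩ | h | h | ⟨hev, F₀, P, ζ, hc, hζ, hζq, hf, halt, h⟩ |
    ⟨r, R, p, e, k, hR, habs, hsim, hrp, hmin, hn, hcase, h⟩ | ⟨k, e, P, f₁, hk, hn, hex, hf₁, hform, h⟩ | h
  · exact Or.inl (h)
  · exact Or.inr (Or.inl (h))
  · have ht' : t ≤ 6 := Nat.le_of_dvd (by norm_num) ⟨k, htk.symm⟩
    interval_cases t
    all_goals first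
      | omega
      | (obtain rfl : k = 3 := by omega
         exact Or.inr (Or.inr (Or.inr (Or.inr (Or.inl (⟨V, hV, h⟩))))))
      | (obtain rfl : k = 2 := by omega
         exact Or.inr (Or.inr (Or.inr (Or.inl (⟨hkq rfl, V, hV, h⟩)))))
      | (obtain rfl : k = 1 := by omega
         refine Or.inr (Or.inr (Or.inl ⟨?_, V, hV, h⟩))
         by_contra hq
         exact H3.UMax.mono_six_not_maximal hF (by omega) hV hH h)
  · obtain rfl : k = 3 := by omega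
    exact Or.inr (Or.inr (Or.inr (Or.inr (Or.inr (Or.inl (⟨V, hV, hts, h⟩))))))
  · have hr' : r ≤ 6 := Nat.le_of_dvd (by norm_num) hrn
    obtain rfl : r = 3 := by
      interval_cases r <;> first | rfl | (exfalso; revert hr hodd hrn; decide) | omega
    by_cases hq : 3 ≤ q
    · exact Or.inr (Or.inr (Or.inr (Or.inr (Or.inr (Or.inr (Or.inl (⟨hq, K, hK, hadj, h⟩)))))))
    · obtain rfl : q = 2 := by omega
      obtain ⟨F₀, P, hc, hf, halt, hle⟩ := H3.UMax.Three.field_three_subfield hF rfl hK hadj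
      have hsub := ((hH.2 _ (le_inf ((h.le).trans hle) hH.1.le) inf_le_right).resolve_right fun e =>
        H99.Asch.su_not_le_subfield hF (by norm_num) Nat.prime_two hc P (inf_eq_right.1 e)).symm
      have h2 : (2 : F) = 0 := (H99.Asch.q_parity hF).resolve_left (by decide)
      exact Or.inr (Or.inr (Or.inr (Or.inr (Or.inr (Or.inr (Or.inr (Or.inr (Or.inr (Or.inl (⟨F₀, P, 1, hc, one_ne_zero, by rw [one_pow]; linear_combination h2, hf, halt, hsub⟩))))))))))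
  · have hn1 : n₁ ≤ 2 := by nlinarith
    obtain rfl : n₁ = 2 := by omega
    obtain rfl : n₂ = 3 := by omega
    exact Or.inr (Or.inr (Or.inr (Or.inr (Or.inr (Or.inr (Or.inr (Or.inl (⟨hq3 rfl, e, P, f₁, f₂, hf₁, hf₂, hform, h⟩))))))))
  · exact Or.inr (Or.inr (Or.inr (Or.inr (Or.inr (Or.inr (Or.inr (Or.inr (Or.inl (h)))))))))
  · exact Or.inr (Or.inr (Or.inr (Or.inr (Or.inr (Or.inr (Or.inr (Or.inr (Or.inr (Or.inr (Or.inl (h)))))))))))
  · exact Or.inr (Or.inr (Or.inr (Or.inr (Or.inr (Or.inr (Or.inr (Or.inr (Or.inr (Or.inl (⟨F₀, P, ζ, hc, hζ, hζq, hf, halt, h⟩))))))))))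
  · have hk1 : 1 ≤ k := by
      rcases Nat.eq_zero_or_pos k with rfl | hk0
      · norm_num at hn
      · exact hk0
    have h5 : ∀ s : ℕ, s.Prime → s ∣ 6 → s = r := fun s hs hd =>
      ((Nat.prime_dvd_prime_iff_eq hs hR.prime).1 (hs.dvd_of_dvd_pow (hn ▸ hd)))
    have := (h5 2 (by norm_num) (by norm_num)).trans (h5 3 (by norm_num) (by norm_num)).symm
    omega
  · have : 9 ≤ k ^ 2 := Nat.pow_le_pow_left hk 2
    omega
  · exact Or.inr (Or.inr (Or.inr (Or.inr (Or.inr (Or.inr (Or.inr (Or.inr (Or.inr (Or.inr (Or.inr ((h))))))))))))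

end Cfsg.Agent.S5802
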