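import Cfsg.Statements.S5805
import Cfsg.Agent.H1.SpList.Cases

set_option autoImplicit false
open Cfsg

namespace Cfsg.Agent.S5805

/-- Every maximal subgroup of Sp_6(q) is of one of the listed geometric types or lies in the residual class. Let F be a finite field with q elements, f the standard alternating form on F^6 (coordinates Fin 3 ⊕ Fin 3), and H a maximal subgroup of Sp_6(F) (inside GL_6(F)). Then H is the intersection with Sp_6(F) of one of: the stabiliser of a non-zero totally isotropic subspace; the stabiliser of a non-degenerate 2-space; for q ≥ 3, the stabiliser of a decomposition into three mutually orthogonal non-degenerate 2-spaces; for q odd, of a decomposition into two totally isotropic 3-spaces; the normaliser of a degree-3 subfield K of the matrix algebra, self-adjoint with f(k v, v) = 0; for q odd, the normaliser of a degree-2 subfield closed under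 adjoints but not self-adjoint; for q odd, q ≥ 5, the stabiliser of a tensor decomposition of f into an alternating form on F^2 and a symmetric form on F^3; a subfield group (|F| = |F₀|^r, r prime) whose F₀-structure carries a non-zero multiple of f; for q even, the similarity group of a non-degenerate quadratic form polarising to f — or else H lies in the residual class of the symplectic case. -/
theorem result {F : Type*} [Field F] [Fintype F] (H : Subgroup (Matrix.GeneralLinearGroup (Fin 3 ⊕ Fin 3) F)) (hH : Cfsg.Geo.IsMaximalIn (Cfsg.spGL 3 F) H) :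
    (∃ W : Submodule F (Fin 3 ⊕ Fin 3 → F), W ≠ ⊥ ∧ Cfsg.Geo.IsTotallySingularFor (Cfsg.sympForm 3 F) W ∧ H = Cfsg.Geo.subspaceStabilizer W ⊓ Cfsg.spGL 3 F) ∨
    (∃ W : Submodule F (Fin 3 ⊕ Fin 3 → F), W ≠ ⊥ ∧ Cfsg.Geo.IsNondegenerateOn (Cfsg.sympForm 3 F) W ∧ Module.finrank F W < 3 ∧ H = Cfsg.Geo.subspaceStabilizer W ⊓ Cfsg.spGL 3 F) ∨
    (3 ≤ Fintype.card F ∧ ∃ D : Fin 3 → Submodule F (Fin 3 ⊕ Fin 3 → F), Cfsg.Geo.IsNondegenerateMDecomposition (Cfsg.sympForm 3 F) 2 D ∧ H = Cfsg.Geo.decompositionStabilizer D ⊓ Cfsg.spGL 3 F) ∨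
    (Odd (Fintype.card F) ∧ ∃ D : Fin 2 → Submodule F (Fin 3 ⊕ Fin 3 → F), Cfsg.Geo.IsMDecomposition 3 D ∧ (∀ i, Cfsg.Geo.IsTotallySingularFor (Cfsg.sympForm 3 F) (D i)) ∧ H = Cfsg.Geo.decompositionStabilizer D ⊓ Cfsg.spGL 3 F) ∨
    (∃ K : Subalgebra F (Matrix (Fin 3 ⊕ Fin 3) (Fin 3 ⊕ Fin 3) F), Cfsg.Geo.IsFieldSubalgebra 3 K ∧ Cfsg.Geo.IsSelfAdjointFor (Cfsg.sympForm 3 F) K ∧ (∀ k ∈ K, ∀ v : (Fin 3 ⊕ Fin 3 → F), (Cfsg.sympForm 3 F) (Matrix.mulVec k v) v = 0) ∧ H = Cfsg.Geo.subalgebraNormalizer K ⊓ Cfsg.spGL 3 F) ∨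
    (Odd (Fintype.card F) ∧ ∃ K : Subalgebra F (Matrix (Fin 3 ⊕ Fin 3) (Fin 3 ⊕ Fin 3) F), Cfsg.Geo.IsFieldSubalgebra 2 K ∧ Cfsg.Geo.IsAdjointClosedFor (Cfsg.sympForm 3 F) K ∧ ¬ Cfsg.Geo.IsSelfAdjointFor (Cfsg.sympForm 3 F) K ∧ H = Cfsg.Geo.subalgebraNormalizer K ⊓ Cfsg.spGL 3 F) ∨
    (Odd (Fintype.card F) ∧ 5 ≤ Fintype.card F ∧ ∃ (e : (Fin 3 ⊕ Fin 3) ≃ Fin 2 × Fin 3) (P : Matrix.GeneralLinearGroup (Fin 3 ⊕ Fin 3) F) (f₁ : (Fin 2 → F) → (Fin 2 → F) → F) (f₂ : (Fin 3 → F) → (Fin 3 → F) → F), Cfsg.Geo.IsSymplecticForm f₁ ∧ Cfsg.Geo.IsSymmetricForm f₂ ∧ Cfsg.Geo.IsTensorFormStructure id (Cfsg.sympForm 3 F) f₁ f₂ e P ∧ H = Cfsg.Geo.tensorProductSubgroup 2 3 e P ⊓ Cfsg.spGL 3 F) ∨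
    (∃ (F₀ : Subfield F) (r : ℕ) (P : Matrix.GeneralLinearGroup (Fin 3 ⊕ Fin 3) F) (ζ : F), r.Prime ∧ Fintype.card F = Nat.card F₀ ^ r ∧ ζ ≠ 0 ∧ Cfsg.Geo.IsFormRationalStructure (Cfsg.sympForm 3 F) F₀ ζ P ∧ H = Cfsg.Geo.subfieldSubgroup F₀ P ⊓ Cfsg.spGL 3 F) ∨
    (¬ Odd (Fintype.card F) ∧ ∃ Q : (Fin 3 ⊕ Fin 3 → F) → F, Cfsg.Geo.IsNondegenerateQuadraticForm Q ∧ (∀ u v : (Fin 3 ⊕ Fin 3 → F), QuadraticMap.polar Q u v = (Cfsg.sympForm 3 F) u v) ∧ H = Cfsg.Geo.quadSimilarityGroup Q ⊓ Cfsg.spGL 3 F) ∨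
    Cfsg.Geo.InSymplecticResidualClass H := by
  rcases H1.SpList.sp_maximal_cases (by norm_num) hH with ⟨W, hW, hts, heq⟩ | ⟨W, hW, hnd, hdim, h2W, heq⟩ |
    ⟨t, k, D, hD, ht, hk, hev, htk, hq, heq⟩ | ⟨D, hq, hD, hts, heq⟩ | ⟨r, K, hr, hrm, hK, hself, halt, heq⟩ |
    ⟨K, hq, hK, hadj, hnself, heq⟩ | ⟨n₁, n₂, e, P, f₁, f₂, hq, h1, h2, hev, hn, h53, hf₁, hf₂, hform, heq⟩ |
    ⟨F₀, r, P, ζ, hr, hc, hζ, hf, heq⟩ | ⟨R, p, k, hR, habs, hsim, hp, hodd, hc, hn, hcard, hz, hminus, heq⟩ |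
    ⟨Q, hq, hQ, hpol, heq⟩ | ⟨k, t, e, P, f₁, hq, ht3, hk, hn, h5, hf₁, hform, heq⟩ | hres
  · exact .inl ⟨W, hW, hts, heq⟩
  · exact .inr (.inl ⟨W, hW, hnd, hdim, heq⟩)
  · obtain ⟨rfl, rfl⟩ : k = 2 ∧ t = 3 := by
      obtain ⟨j, rfl⟩ := hev
      have hj : j ≤ 1 := by nlinarith
      obtain rfl : j = 1 := by omega
      omega
    exact .inr (.inr (.inl ⟨hq rfl, D, hD, heq⟩))
  · exact .inr (.inr (.inr (.inl ⟨hq, D, hD, hts, heq⟩)))
  · obtain rfl : r = 3 := ((Nat.dvd_prime Nat.prime_three).1 hrm).resolve_left hr.ne_one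
    exact .inr (.inr (.inr (.inr (.inl ⟨K, hK, hself, halt, heq⟩))))
  · exact .inr (.inr (.inr (.inr (.inr (.inl ⟨hq, K, hK, hadj, hnself, heq⟩)))))
  · obtain ⟨rfl, rfl⟩ : n₁ = 2 ∧ n₂ = 3 := by
      obtain ⟨j, rfl⟩ := hev
      have hj : j ≤ 1 := by nlinarith
      obtain rfl : j = 1 := by omega
      omega
    exact .inr (.inr (.inr (.inr (.inr (.inr (.inl ⟨hq, h53 rfl, e, P, f₁, f₂, hf₁, hf₂, hform, heq⟩))))))
  · exact .inr (.inr (.inr (.inr (.inr (.inr (.inr (.inl ⟨F₀, r, P, ζ, hr, hc, hζ, hf, heq⟩)))))))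
  · exfalso
    rcases Nat.lt_or_ge k 3 with h | h
    · interval_cases k <;> omega
    · have := Nat.pow_le_pow_right (show 0 < 2 by norm_num) h
      omega
  · exact .inr (.inr (.inr (.inr (.inr (.inr (.inr (.inr (.inl ⟨hq, Q, hQ, hpol, heq⟩))))))))
  · exfalso
    have h8 := Nat.pow_le_pow_left hk t
    have h8' := Nat.pow_le_pow_right (show 0 < 2 by norm_num) ht3
    omega
  · exact .inr (.inr (.inr (.inr (.inr (.inr (.inr (.inr (.inr hres))))))))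

end Cfsg.Agent.S5805
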