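import Cfsg.Statements.S5808
import Cfsg.Agent.H99.Aschbacher.Dims
-- import your own Cfsg.Agent.* helpers here

set_option autoImplicit false
open Cfsg

namespace Cfsg.Agent.S5808

/-- Every maximal subgroup of SL_7(q) is of one of the listed geometric types or lies in the residual class. Let F be a finite field with q elements (p its characteristic) and H a maximal subgroup of SL_7(F) (inside GL_7(F)). Then H is the intersection with SL_7(F) of one of: the stabiliser of a proper non-zero subspace; for q ≥ 5, the stabiliser of a decomposition into 7 independent 1-spaces; the normaliser of a degree-7 subfield of the matrix algebra; a subfield group for a subfield F₀ with |F| = |F₀|^r, r prime; for q = p prime with p ≡ 1 mod 7, or q = p³ with p ≡ 2 or 4 mod 7, the normaliser of an absolutely irreducible 7-subgroup R of exponent 7 and order 7^(1+2m) with centre of order 7, all of whose characteristic abelian subgroups are cyclic, F being the smallest field of characteristic p containing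 the seventh roots of unity (here R is extraspecial of order 343); for q odd, the similarity group of a non-degenerate quadratic form; the similarity group of a non-degenerate unitary form — or else H lies in the residual class of the linear case (modulo scalars H is almost simple, with absolutely irreducible perfect socle preimage realisable over no proper subfield and fixing no non-degenerate quadratic, symplectic or unitary form). -/
theorem result {F : Type*} [Field F] [Fintype F] (H : Subgroup (Matrix.GeneralLinearGroup (Fin 7) F)) (hH : Cfsg.Geo.IsMaximalIn (Cfsg.Geo.specialLinear (Fin 7) F) H) :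
    (∃ W : Submodule F (Fin 7 → F), W ≠ ⊥ ∧ W ≠ ⊤ ∧ H = Cfsg.Geo.subspaceStabilizer W ⊓ Cfsg.Geo.specialLinear (Fin 7) F) ∨
    (5 ≤ Fintype.card F ∧ ∃ D : Fin 7 → Submodule F (Fin 7 → F), Cfsg.Geo.IsMDecomposition 1 D ∧ H = Cfsg.Geo.decompositionStabilizer D ⊓ Cfsg.Geo.specialLinear (Fin 7) F) ∨
    (∃ K : Subalgebra F (Matrix (Fin 7) (Fin 7) F), Cfsg.Geo.IsFieldSubalgebra 7 K ∧ H = Cfsg.Geo.subalgebraNormalizer K ⊓ Cfsg.Geo.specialLinear (Fin 7) F) ∨
    (∃ (F₀ : Subfield F) (r : ℕ) (P : Matrix.GeneralLinearGroup (Fin 7) F), r.Prime ∧ Fintype.card F = Nat.card F₀ ^ r ∧ H = Cfsg.Geo.subfieldSubgroup F₀ P ⊓ Cfsg.Geo.specialLinear (Fin 7) F) ∨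
    ((∃ p : ℕ, p.Prime ∧ CharP F p ∧ ((Fintype.card F = p ∧ p % 7 = 1) ∨ (Fintype.card F = p ^ 3 ∧ (p % 7 = 2 ∨ p % 7 = 4)))) ∧ ∃ R : Subgroup (Matrix.GeneralLinearGroup (Fin 7) F), Cfsg.Geo.IsLinearSymplecticTypeData 7 R ∧ H = Cfsg.Geo.subgroupNormalizer R ⊓ Cfsg.Geo.specialLinear (Fin 7) F) ∨
    (Odd (Fintype.card F) ∧ ∃ Q : (Fin 7 → F) → F, Cfsg.Geo.IsNondegenerateQuadraticForm Q ∧ H = Cfsg.Geo.quadSimilarityGroup Q ⊓ Cfsg.Geo.specialLinear (Fin 7) F) ∨
    (∃ (σ : F ≃+* F) (f : (Fin 7 → F) → (Fin 7 → F) → F), Cfsg.Geo.IsUnitaryForm σ f ∧ H = Cfsg.Geo.similarityGroup f ⊓ Cfsg.Geo.specialLinear (Fin 7) F) ∨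
    Cfsg.Geo.InLinearResidualClass H := by
  rcases Cfsg.Agent.H99.Asch.maximal_list (by simp) (by simp) hH with ⟨W, w1, w2, h⟩ |
    ⟨t, m, D, hD, htm, c1, c2, c3, h⟩ | ⟨r, K, hr, hrn, hK, h⟩ | ⟨n₁, n₂, e, P, h1, h2, hc, c2, h⟩ |
    ⟨F₁, r, P, hr, hc, h⟩ | ⟨r, R, m, hR, hm, hm1, h⟩ | ⟨m, e, P, h1, hc, h⟩ | ⟨he, f, hf, h⟩ |
    ⟨σ, f, hf, h⟩ | ⟨ho, Q, hQ, h⟩ | h
  · exact (Or.inl (⟨W, w1, w2, h⟩))
  · simp only [Fintype.card_fin] at htm
    have ht := hD.two_le
    have hmpos := hD.pos
    have hcases : (t = 7 ∧ m = 1) := by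
      have : t ≤ 7 := htm ▸ Nat.le_mul_of_pos_right t hmpos
      interval_cases t <;> omega
    obtain ⟨rfl, rfl⟩ := hcases
    exact (Or.inr (Or.inl (⟨c1 rfl, D, hD, h⟩)))
  · simp only [Fintype.card_fin] at hrn
    have hcases : r = 7 := by
      have := Nat.le_of_dvd (by norm_num) hrn
      have := hr.two_le
      interval_cases r <;> first | omega | (exfalso; revert hr; decide)
    subst hcases
    exact (Or.inr (Or.inr (Or.inl (⟨K, hK, h⟩))))
  · simp only [Fintype.card_fin] at hc
    exfalso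
    have : n₁ ≤ 7 := hc.symm ▸ Nat.le_mul_of_pos_right n₁ (by omega)
    interval_cases n₁ <;> omega
  · exact (Or.inr (Or.inr (Or.inr (Or.inl (⟨F₁, r, P, hr, hc, h⟩)))))
  · simp only [Fintype.card_fin] at hm
    obtain rfl : r = 7 := Cfsg.Agent.H99.Asch.prime_of_pow_eq hR.symplecticType.prime (by norm_num) (k := 1) (by rw [← hm]; norm_num) hm1
    obtain ⟨p, e, hp, hch, hpc, hodd, hdvd, hr1, hmin⟩ := Cfsg.Agent.H99.Asch.classSix_odd (by decide) hR
    have he : e = 1 ∨ e = 3 := by
      have := Nat.le_of_dvd (by norm_num) hdvd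
      obtain ⟨j, rfl⟩ := hodd
      have hj : j ≤ 5 := by omega
      interval_cases j <;> revert hdvd <;> norm_num
    have hside : (Fintype.card F = p ∧ p % 7 = 1) ∨ (Fintype.card F = p ^ 3 ∧ (p % 7 = 2 ∨ p % 7 = 4)) := by
      have h2 := hp.two_le
      rcases he with rfl | rfl
      · exact Or.inl ⟨by simpa using hpc, by rw [pow_one] at hr1; omega⟩
      · refine Or.inr ⟨hpc, ?_⟩
        have hm1 := hmin (by norm_num)
        have h3 : p ^ 3 % 7 = 1 := by
          have hpos : 0 < p ^ 3 := by positivity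
          omega
        rw [Nat.pow_mod] at h3
        have hne : p % 7 ≠ 1 := fun e1 => hm1 (by omega)
        have hlt : p % 7 < 7 := Nat.mod_lt _ (by norm_num)
        generalize p % 7 = x at *
        revert h3 hne; interval_cases x <;> decide
    exact (Or.inr (Or.inr (Or.inr (Or.inr (Or.inl (⟨⟨p, hp, hch, hside⟩, R, hR, h⟩))))))
  · simp only [Fintype.card_fin] at hc
    exfalso
    have : m ≤ 3 := by nlinarith
    interval_cases m
    omega
  · exact absurd he (by simp; decide)
  · exact (Or.inr (Or.inr (Or.inr (Or.inr (Or.inr (Or.inr (Or.inl (⟨σ, f, hf, h⟩))))))))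
  · exact (Or.inr (Or.inr (Or.inr (Or.inr (Or.inr (Or.inl (⟨ho, Q, hQ, h⟩)))))))
  · exact (Or.inr (Or.inr (Or.inr (Or.inr (Or.inr (Or.inr (Or.inr (h))))))))

end Cfsg.Agent.S5808
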