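import Cfsg.Statements.S5811
import Cfsg.Agent.H99.Aschbacher.UnitaryDims

set_option autoImplicit false
open Cfsg

namespace Cfsg.Agent.S5811

/-- Every maximal subgroup of SU_7(q) is of one of the listed geometric types or lies in the residual class. Let F be the field with q² elements (characteristic p), f the standard unitary form Σ u_i v_i^q on F^7, and H a maximal subgroup of SU_7(q) (inside GL_7(F)). Then H is the intersection with SU_7(q) of one of: the stabiliser of a non-zero totally isotropic subspace; the stabiliser of a non-degenerate 1-, 2- or 3-space; the stabiliser of a decomposition into seven mutually orthogonal non-degenerate 1-spaces; the normaliser of an adjoint-closed degree-7 subfield of the matrix algebra; a subfield group of odd prime index whose F₀-structure carries f; for q odd, a subfield group of index 2 whose F₀-structure carries f; for q = p prime with p ≡ 6 mod 7, or q = p³ with p ≡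 3 or 5 mod 7, the normaliser of an absolutely irreducible 7-group R of exponent 7, order 343 and centre of order 7, all of whose characteristic abelian subgroups are cyclic, contained in the similarity group of f — or else H lies in the residual class of the unitary case (modulo scalars H is almost simple, with absolutely irreducible perfect socle preimage realisable over no proper subfield and fixing no non-degenerate quadratic or symplectic form). -/
theorem result {F : Type*} [Field F] [Fintype F] (q : ℕ) (hF : Fintype.card F = q ^ 2) (H : Subgroup (Matrix.GeneralLinearGroup (Fin 7) F)) (hH : Cfsg.Geo.IsMaximalIn (Cfsg.GU 7 F q ⊓ Cfsg.Geo.specialLinear (Fin 7) F) H) :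
    (∃ W : Submodule F (Fin 7 → F), W ≠ ⊥ ∧ Cfsg.Geo.IsTotallySingularFor (Cfsg.hermForm 7 F q) W ∧ H = Cfsg.Geo.subspaceStabilizer W ⊓ (Cfsg.GU 7 F q ⊓ Cfsg.Geo.specialLinear (Fin 7) F)) ∨
    (∃ W : Submodule F (Fin 7 → F), W ≠ ⊥ ∧ Cfsg.Geo.IsNondegenerateOn (Cfsg.hermForm 7 F q) W ∧ 2 * Module.finrank F W < 7 ∧ H = Cfsg.Geo.subspaceStabilizer W ⊓ (Cfsg.GU 7 F q ⊓ Cfsg.Geo.specialLinear (Fin 7) F)) ∨
    (∃ D : Fin 7 → Submodule F (Fin 7 → F), Cfsg.Geo.IsNondegenerateMDecomposition (Cfsg.hermForm 7 F q) 1 D ∧ H = Cfsg.Geo.decompositionStabilizer D ⊓ (Cfsg.GU 7 F q ⊓ Cfsg.Geo.specialLinear (Fin 7) F)) ∨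
    (∃ K : Subalgebra F (Matrix (Fin 7) (Fin 7) F), Cfsg.Geo.IsFieldSubalgebra 7 K ∧ Cfsg.Geo.IsAdjointClosedFor (Cfsg.hermForm 7 F q) K ∧ H = Cfsg.Geo.subalgebraNormalizer K ⊓ (Cfsg.GU 7 F q ⊓ Cfsg.Geo.specialLinear (Fin 7) F)) ∨
    (∃ (F₀ : Subfield F) (r : ℕ) (P : Matrix.GeneralLinearGroup (Fin 7) F), r.Prime ∧ Odd r ∧ Fintype.card F = Nat.card F₀ ^ r ∧ Cfsg.Geo.IsFormRationalStructure (Cfsg.hermForm 7 F q) F₀ 1 P ∧ H = Cfsg.Geo.subfieldSubgroup F₀ P ⊓ (Cfsg.GU 7 F q ⊓ Cfsg.Geo.specialLinear (Fin 7) F)) ∨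
    (Odd q ∧ ∃ (F₀ : Subfield F) (P : Matrix.GeneralLinearGroup (Fin 7) F), Fintype.card F = Nat.card F₀ ^ 2 ∧ Cfsg.Geo.IsFormRationalStructure (Cfsg.hermForm 7 F q) F₀ 1 P ∧ H = Cfsg.Geo.subfieldSubgroup F₀ P ⊓ (Cfsg.GU 7 F q ⊓ Cfsg.Geo.specialLinear (Fin 7) F)) ∨
    (∃ (p : ℕ) (R : Subgroup (Matrix.GeneralLinearGroup (Fin 7) F)), p.Prime ∧ CharP F p ∧ ((q = p ∧ p % 7 = 6) ∨ (q = p ^ 3 ∧ (p % 7 = 3 ∨ p % 7 = 5))) ∧ Cfsg.Geo.IsSymplecticTypeGroup 7 R ∧ Cfsg.Geo.ActsAbsolutelyIrreducibly (Cfsg.Geo.matrixSet R) ∧ R ≤ Cfsg.Geo.similarityGroup (Cfsg.hermForm 7 F q) ∧ Nat.card R = 343 ∧ Nat.card (Subgroup.center R) = 7 ∧ H = Cfsg.Geo.subgroupNormalizer R ⊓ (Cfsg.GU 7 F q ⊓ Cfsg.Geo.specialLinear (Fin 7) F)) ∨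
    Cfsg.Geo.InUnitaryResidualClass H := by
  rcases H99.Asch.unitary_maximal_cases hF (by norm_num) (by norm_num) hH with h | h | ⟨t, k, V, hV, htk, ht, hkq, h⟩ |
    ⟨k, V, hk, hV, hts, h⟩ | ⟨r, K, hr, hodd, hrn, hK, hadj, h⟩ |
    ⟨n₁, n₂, e, P, f₁, f₂, h1, h12, hn, hq3, hf₁, hf₂, hform, h⟩ | h | h | ⟨hev, F₀, P, ζ, hc, hζ, hζq, hf, halt, h⟩ |
    ⟨r, R, p, e, k, hR, habs, hsim, hrp, hmin, hn, hcase, h⟩ | ⟨k, e, P, f₁, hk, hn, hex, hf₁, hform, h⟩ | h
  · exact Or.inl (h)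
  · exact Or.inr (Or.inl (h))
  · have hd : t ∣ 7 := ⟨k, htk.symm⟩
    rcases (Nat.dvd_prime (by norm_num)).1 hd with rfl | rfl
    · omega
    obtain rfl : k = 1 := by omega
    exact Or.inr (Or.inr (Or.inl (⟨V, hV, h⟩)))
  · omega
  · obtain rfl := (Nat.prime_dvd_prime_iff_eq hr (by norm_num)).1 hrn
    exact Or.inr (Or.inr (Or.inr (Or.inl (⟨K, hK, hadj, h⟩))))
  · have hd : n₁ ∣ 7 := ⟨n₂, hn⟩
    rcases (Nat.dvd_prime (by norm_num)).1 hd with rfl | rfl <;> omega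
  · exact Or.inr (Or.inr (Or.inr (Or.inr (Or.inl (h)))))
  · exact Or.inr (Or.inr (Or.inr (Or.inr (Or.inr (Or.inl (h))))))
  · exact absurd hev (by decide)
  · obtain ⟨rfl, rfl⟩ := H99.Asch.eq_of_prime_pow (s := 7) (m := 1) hR.prime (by norm_num) hn (by norm_num) le_rfl
    rcases hcase with ⟨-, hz, hcard, -⟩ | ⟨h2, -⟩
    · have hmin' := hmin
      obtain ⟨hp, hchar, -⟩ := hmin
      refine Or.inr (Or.inr (Or.inr (Or.inr (Or.inr (Or.inr (Or.inl (⟨p, R, hp, hchar, ?_, hR, habs, hsim, by rw [hcard]; norm_num, hz, h⟩)))))))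
      rw [hz] at hmin'
      exact H99.Asch.residue_seven hF hmin'
    · omega
  · rcases Nat.lt_or_ge k 3 with h3 | h3
    · omega
    · nlinarith
  · exact Or.inr (Or.inr (Or.inr (Or.inr (Or.inr (Or.inr (Or.inr (h)))))))

end Cfsg.Agent.S5811
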