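import Cfsg.Statements.S5813
import Cfsg.Agent.H5.OmegaForms
import Cfsg.Agent.H5.OmegaGL
import Cfsg.Agent.H5.StabNondegGL
import Cfsg.Agent.H5.FrameGL
import Cfsg.Agent.H98.OrthSubMain

set_option autoImplicit false
open Cfsg

namespace Cfsg.Agent.S5813

/-- Maximal subgroups of Ω_7(q) of geometric type, q odd. Let F be a finite field of odd order q, Q the standard quadratic form x₀² + Σ x_i y_i on F^7 (coordinates Unit ⊕ (Fin 3 ⊕ Fin 3)), and Ω = Ω_7(q) the commutator subgroup of its isometry group, inside GL_7(F). Each of the following, intersected with Ω, is a maximal subgroup of Ω: (1) the stabiliser of any non-zero subspace on which Q vanishes identically (totally singular 1-, 2- and 3-spaces); (2) the stabiliser of any non-zero even-dimensional subspace W on which the polar form of Q is non-degenerate (equivalently of its odd-dimensional orthogonal complement), except when q = 3 and W is a 2-space containing a non-zero singular vector (a plus-type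 plane); (3) for q = p prime, the stabiliser of any decomposition of F^7 into seven pairwise orthogonal, pairwise Q-isometric non-degenerate 1-spaces; (4) every subfield group for a subfield F₀ with |F| = |F₀|^r, r prime, whose F₀-structure carries Q. -/
theorem result {F : Type*} [Field F] [Fintype F] (hodd : Odd (Fintype.card F)) :
    (∀ W : Submodule F (Unit ⊕ (Fin 3 ⊕ Fin 3) → F), W ≠ ⊥ → Cfsg.Geo.IsTotallySingularQuad (Cfsg.quadFormOdd 3 F) W → Cfsg.Geo.IsMaximalIn (Cfsg.Geo.omegaGL (Cfsg.quadFormOdd 3 F)) (Cfsg.Geo.subspaceStabilizer W ⊓ Cfsg.Geo.omegaGL (Cfsg.quadFormOdd 3 F))) ∧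
    (∀ W : Submodule F (Unit ⊕ (Fin 3 ⊕ Fin 3) → F), W ≠ ⊥ → Even (Module.finrank F W) → Cfsg.Geo.IsNondegenerateOn (QuadraticMap.polar (Cfsg.quadFormOdd 3 F)) W → ¬ (Fintype.card F = 3 ∧ Module.finrank F W = 2 ∧ Cfsg.Geo.IsPlusTypeOn (Cfsg.quadFormOdd 3 F) W) → Cfsg.Geo.IsMaximalIn (Cfsg.Geo.omegaGL (Cfsg.quadFormOdd 3 F)) (Cfsg.Geo.subspaceStabilizer W ⊓ Cfsg.Geo.omegaGL (Cfsg.quadFormOdd 3 F))) ∧
    ((Fintype.card F).Prime → ∀ D : Fin 7 → Submodule F (Unit ⊕ (Fin 3 ⊕ Fin 3) → F), Cfsg.Geo.IsOrthogonalMDecomposition (Cfsg.quadFormOdd 3 F) 1 D → Cfsg.Geo.IsMaximalIn (Cfsg.Geo.omegaGL (Cfsg.quadFormOdd 3 F)) (Cfsg.Geo.decompositionStabilizer D ⊓ Cfsg.Geo.omegaGL (Cfsg.quadFormOdd 3 F))) ∧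
    (∀ (F₀ : Subfield F) (r : ℕ) (P : Matrix.GeneralLinearGroup (Unit ⊕ (Fin 3 ⊕ Fin 3)) F), r.Prime → Fintype.card F = Nat.card F₀ ^ r → Cfsg.Geo.IsQuadFormRationalStructure (Cfsg.quadFormOdd 3 F) F₀ P → Cfsg.Geo.IsMaximalIn (Cfsg.Geo.omegaGL (Cfsg.quadFormOdd 3 F)) (Cfsg.Geo.subfieldSubgroup F₀ P ⊓ Cfsg.Geo.omegaGL (Cfsg.quadFormOdd 3 F))) := by
  classical
  have h2 : (2 : F) ≠ 0 := Ring.two_ne_zero fun hc => by
    have := FiniteField.even_card_of_char_two hc
    rw [Nat.odd_iff] at hodd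
    omega
  have hf : ⇑(H5.qOdd 3 F) = Cfsg.quadFormOdd 3 F := H5.coe_qOdd 3
  have hQ : (QuadraticMap.polarBilin (H5.qOdd 3 F)).Nondegenerate := H5.qOdd_nondegenerate 3 h2
  have hι : Fintype.card (Unit ⊕ (Fin 3 ⊕ Fin 3)) = 7 := by simp
  refine ⟨fun W h0 hW => ?_, fun W h0 he hW hne => ?_, fun hp D hD => ?_, fun F₀ r P hr hc hP => ?_⟩
  · exact H5.isMaximalIn_stab_singular (H5.qOdd 3 F) hf hQ (by omega) W h0 hW (fun U _ _ _ h => by omega)
  · have hle := Submodule.finrank_le W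
    rw [Module.finrank_fintype_fun_eq_card, hι] at hle
    have hW' := H5.inf_perp_of_isNondegenerateOn (H5.qOdd 3 F) hf hW
    have hsum := H5.finrank_perp_add hQ W
    rw [Module.finrank_fintype_fun_eq_card, hι] at hsum
    obtain ⟨k, hk⟩ := he
    have hpos : Module.finrank F W ≠ 0 := fun h => h0 (Submodule.finrank_eq_zero.1 h)
    refine H5.isMaximalIn_stab_nondeg_four (H5.qOdd 3 F) hf hQ W (by omega) ?_ h0 (fun h => ?_) hW'
      (fun h => by omega) ?_
    · by_cases h6 : 5 ≤ Module.finrank F W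
      · exact Or.inl (Or.inl h6)
      · by_cases h4 : Module.finrank F W = 2
        · exact Or.inl (Or.inr (by omega))
        · exact Or.inr ⟨h2, Or.inl (by omega)⟩
    · rw [h, finrank_top, Module.finrank_fintype_fun_eq_card, hι] at hk
      omega
    · rintro Z hZ ⟨hq, hZ2, x, hx, hx0, hqx⟩
      rw [Nat.card_eq_fintype_card] at hq
      rcases hZ with rfl | rfl
      · refine hne ⟨?_, hZ2, by rw [← hf]; exact H5.isPlusTypeOn_plane _ hZ2 hx hx0 hqx⟩
        have := Fintype.one_lt_card (α := F)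
        rw [Nat.odd_iff] at hodd
        omega
      · omega
  · exact H5.isMaximalIn_frame_of hf hQ (Or.inl hι) hD hodd hp
  · exact H98.OSub.subfield_maximal_of (H5.qOdd 3 F) hf hQ (Or.inr ⟨Or.inl hι, h2⟩) F₀ hr
      (by rw [Nat.card_eq_fintype_card]; exact hc) P one_ne_zero (fun u hu => by rw [one_mul]; exact hP u hu)

end Cfsg.Agent.S5813
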