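import Cfsg.Statements.S5814
import Cfsg.Agent.H99.Aschbacher.OddOrthLists

set_option autoImplicit false
open Cfsg

namespace Cfsg.Agent.S5814

/-- Every maximal subgroup of Ω_7(q), q odd, is of one of the listed geometric types or lies in the residual class. Let F be a finite field of odd order q, Q the standard quadratic form x₀² + Σ x_i y_i on F^7 (coordinates Unit ⊕ (Fin 3 ⊕ Fin 3)), Ω the commutator subgroup of its isometry group, and H a maximal subgroup of Ω (inside GL_7(F)). Then H is the intersection with Ω of one of: the stabiliser of a non-zero totally singular subspace; the stabiliser of a non-zero non-degenerate subspace of even dimension (not a plus-type plane when q = 3); for q prime, the stabiliser of a decomposition into seven pairwise orthogonal, pairwise isometric non-degenerate 1-spaces; a subfield group (|F| = |F₀|^r, r prime) whose F₀-structure carries Q — or else H lies in the residual class of the orthogonal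 case (modulo scalars H is almost simple, with absolutely irreducible perfect socle preimage realisable over no proper subfield and fixing no non-degenerate unitary form). -/
theorem result {F : Type*} [Field F] [Fintype F] (hodd : Odd (Fintype.card F)) (H : Subgroup (Matrix.GeneralLinearGroup (Unit ⊕ (Fin 3 ⊕ Fin 3)) F)) (hH : Cfsg.Geo.IsMaximalIn (Cfsg.Geo.omegaGL (Cfsg.quadFormOdd 3 F)) H) :
    (∃ W : Submodule F (Unit ⊕ (Fin 3 ⊕ Fin 3) → F), W ≠ ⊥ ∧ Cfsg.Geo.IsTotallySingularQuad (Cfsg.quadFormOdd 3 F) W ∧ H = Cfsg.Geo.subspaceStabilizer W ⊓ Cfsg.Geo.omegaGL (Cfsg.quadFormOdd 3 F)) ∨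
    (∃ W : Submodule F (Unit ⊕ (Fin 3 ⊕ Fin 3) → F), W ≠ ⊥ ∧ Even (Module.finrank F W) ∧ Cfsg.Geo.IsNondegenerateOn (QuadraticMap.polar (Cfsg.quadFormOdd 3 F)) W ∧ ¬ (Fintype.card F = 3 ∧ Module.finrank F W = 2 ∧ Cfsg.Geo.IsPlusTypeOn (Cfsg.quadFormOdd 3 F) W) ∧ H = Cfsg.Geo.subspaceStabilizer W ⊓ Cfsg.Geo.omegaGL (Cfsg.quadFormOdd 3 F)) ∨
    ((Fintype.card F).Prime ∧ ∃ D : Fin 7 → Submodule F (Unit ⊕ (Fin 3 ⊕ Fin 3) → F), Cfsg.Geo.IsOrthogonalMDecomposition (Cfsg.quadFormOdd 3 F) 1 D ∧ H = Cfsg.Geo.decompositionStabilizer D ⊓ Cfsg.Geo.omegaGL (Cfsg.quadFormOdd 3 F)) ∨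
    (∃ (F₀ : Subfield F) (r : ℕ) (P : Matrix.GeneralLinearGroup (Unit ⊕ (Fin 3 ⊕ Fin 3)) F), r.Prime ∧ Fintype.card F = Nat.card F₀ ^ r ∧ Cfsg.Geo.IsQuadFormRationalStructure (Cfsg.quadFormOdd 3 F) F₀ P ∧ H = Cfsg.Geo.subfieldSubgroup F₀ P ⊓ Cfsg.Geo.omegaGL (Cfsg.quadFormOdd 3 F)) ∨
    Cfsg.Geo.InOrthogonalResidualClass H := by
  classical
  have h2 := H99.Asch.two_ne_zero_of_card_odd hodd
  have hle' : H ≤ Cfsg.isometryGroup F (Cfsg.quadFormOdd 3 F) := hH.1.le.trans H99.Asch.omOdd_le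
  have hm2 : 2 ≤ 3 := by omega
  have hm3 : 3 ≤ 3 := by omega
  rcases H99.Asch.oddOrth_aschbacher hodd (by omega) hle' with ⟨W, hW, hts, hle⟩ |
    ⟨W, hW, hW', hev, hnd, hle⟩ | ⟨t, k, V, hk, htk, hV, -, hle⟩ | ⟨V, hp, hV, hle⟩ |
    ⟨r, K, hr, hrn, hne, hK, hself, -, hle⟩ | ⟨n₁, n₂, e, P, f₁, f₂, h1, h12, ho₁, ho₂, -, -, -, -, -⟩ |
    ⟨F₀, r, P, hr, hc, hQ, -, hle⟩ | ⟨k, t, e, P, f₁, hk, hko, ht, hex, hf₁, hform, -, hle⟩ | ⟨hres, -⟩
  · exact .inl ⟨W, hW, hts, H99.Asch.eq_inf_of_maximalIn hH (H99.Asch.omOdd_not_le_singular h2 hm2 hW hts) hle⟩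
  · have heq := H99.Asch.eq_inf_of_maximalIn hH (H99.Asch.omOdd_not_le_nondeg h2 hm2 hW hW' hnd) hle
    exact .inr (.inl ⟨W, hW, hev, hnd, H99.Asch.plane_three h2 hm2 hH hnd heq, heq⟩)
  · have h2t := hV.decomp.decomp.two_le
    have hkn : k ∣ 7 := Dvd.intro_left t (by omega)
    rcases (Nat.dvd_prime (by norm_num)).1 hkn with rfl | rfl <;> omega
  · exact .inr (.inr (.inl ⟨hp, V, hV,
      H99.Asch.eq_inf_of_maximalIn hH (H99.Asch.omOdd_not_le_frame h2 hm3 hV) hle⟩))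
  · rcases (Nat.dvd_prime (by norm_num)).1 hrn with rfl | rfl
    · exact absurd hr Nat.not_prime_one
    · omega
  · exfalso
    have h9 := Fintype.card_congr e
    simp at h9
    nlinarith [Nat.mul_le_mul h1 (show 5 ≤ n₂ by obtain ⟨j, rfl⟩ := ho₂; omega)]
  · exact .inr (.inr (.inr (.inl ⟨F₀, r, P, hr, hc, hQ,
      H99.Asch.eq_inf_of_maximalIn hH (H99.Asch.omOdd_not_le_subfield h2 hm2 hr hc P) hle⟩)))
  · have h9 := Fintype.card_congr e
    simp at h9
    have hpow : k ^ 2 ≤ k ^ t := Nat.pow_le_pow_right (by omega) ht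
    have hk3 : k ≤ 3 := by nlinarith
    obtain rfl : k = 3 := by omega
    exfalso
    rcases Nat.lt_or_ge t 3 with h | h
    · interval_cases t; omega
    · have := Nat.pow_le_pow_right (show 0 < 3 by norm_num) h
      omega
  · exact .inr (.inr (.inr (.inr hres)))

end Cfsg.Agent.S5814
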