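import Cfsg.Statements.S5820
import Cfsg.Agent.H99.Aschbacher.UnitaryDims

set_option autoImplicit false
open Cfsg

namespace Cfsg.Agent.S5820

/-- Every maximal subgroup of SU_8(q) is of one of the listed geometric types or lies in the residual class. Let F be the field with q² elements, f the standard unitary form Σ u_i v_i^q on F^8, and H a maximal subgroup of SU_8(q) (inside GL_8(F)). Then H is the intersection with SU_8(q) of one of: the stabiliser of a non-zero totally isotropic subspace; the stabiliser of a non-degenerate 1-, 2- or 3-space; the stabiliser of a decomposition into eight mutually orthogonal non-degenerate 1-spaces; for q ≥ 3, of a decomposition into four mutually orthogonal non-degenerate 2-spaces; of a decomposition into two orthogonal non-degenerate 4-spaces; of a decomposition into two totally isotropic 4-spaces; for q ≥ 3, the stabiliser of a tensor decomposition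 of f into unitary forms on F^2 and F^4; a subfield group of odd prime index whose F₀-structure carries f; a subfield group of index 2 and symplectic type; for q odd, a subfield group of index 2 and orthogonal type; for q = p ≡ 3 mod 4 prime, the normaliser of an absolutely irreducible symplectic-type 2-group of order 2^8 with centre of order 4 inside the similarity group of f — or else H lies in the residual class of the unitary case. -/
theorem result {F : Type*} [Field F] [Fintype F] (q : ℕ) (hF : Fintype.card F = q ^ 2) (H : Subgroup (Matrix.GeneralLinearGroup (Fin 8) F)) (hH : Cfsg.Geo.IsMaximalIn (Cfsg.GU 8 F q ⊓ Cfsg.Geo.specialLinear (Fin 8) F) H) :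
    (∃ W : Submodule F (Fin 8 → F), W ≠ ⊥ ∧ Cfsg.Geo.IsTotallySingularFor (Cfsg.hermForm 8 F q) W ∧ H = Cfsg.Geo.subspaceStabilizer W ⊓ (Cfsg.GU 8 F q ⊓ Cfsg.Geo.specialLinear (Fin 8) F)) ∨
    (∃ W : Submodule F (Fin 8 → F), W ≠ ⊥ ∧ Cfsg.Geo.IsNondegenerateOn (Cfsg.hermForm 8 F q) W ∧ 2 * Module.finrank F W < 8 ∧ H = Cfsg.Geo.subspaceStabilizer W ⊓ (Cfsg.GU 8 F q ⊓ Cfsg.Geo.specialLinear (Fin 8) F)) ∨
    (∃ D : Fin 8 → Submodule F (Fin 8 → F), Cfsg.Geo.IsNondegenerateMDecomposition (Cfsg.hermForm 8 F q) 1 D ∧ H = Cfsg.Geo.decompositionStabilizer D ⊓ (Cfsg.GU 8 F q ⊓ Cfsg.Geo.specialLinear (Fin 8) F)) ∨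
    (3 ≤ q ∧ ∃ D : Fin 4 → Submodule F (Fin 8 → F), Cfsg.Geo.IsNondegenerateMDecomposition (Cfsg.hermForm 8 F q) 2 D ∧ H = Cfsg.Geo.decompositionStabilizer D ⊓ (Cfsg.GU 8 F q ⊓ Cfsg.Geo.specialLinear (Fin 8) F)) ∨
    (∃ D : Fin 2 → Submodule F (Fin 8 → F), Cfsg.Geo.IsNondegenerateMDecomposition (Cfsg.hermForm 8 F q) 4 D ∧ H = Cfsg.Geo.decompositionStabilizer D ⊓ (Cfsg.GU 8 F q ⊓ Cfsg.Geo.specialLinear (Fin 8) F)) ∨
    (∃ D : Fin 2 → Submodule F (Fin 8 → F), Cfsg.Geo.IsMDecomposition 4 D ∧ (∀ i, Cfsg.Geo.IsTotallySingularFor (Cfsg.hermForm 8 F q) (D i)) ∧ H = Cfsg.Geo.decompositionStabilizer D ⊓ (Cfsg.GU 8 F q ⊓ Cfsg.Geo.specialLinear (Fin 8) F)) ∨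
    (3 ≤ q ∧ ∃ (e : Fin 8 ≃ Fin 2 × Fin 4) (P : Matrix.GeneralLinearGroup (Fin 8) F) (f₁ : (Fin 2 → F) → (Fin 2 → F) → F) (f₂ : (Fin 4 → F) → (Fin 4 → F) → F), Cfsg.Geo.IsUnitaryFormPow q f₁ ∧ Cfsg.Geo.IsUnitaryFormPow q f₂ ∧ Cfsg.Geo.IsTensorFormStructure (fun x : F => x ^ q) (Cfsg.hermForm 8 F q) f₁ f₂ e P ∧ H = Cfsg.Geo.tensorProductSubgroup 2 4 e P ⊓ (Cfsg.GU 8 F q ⊓ Cfsg.Geo.specialLinear (Fin 8) F)) ∨
    (∃ (F₀ : Subfield F) (r : ℕ) (P : Matrix.GeneralLinearGroup (Fin 8) F), r.Prime ∧ Odd r ∧ Fintype.card F = Nat.card F₀ ^ r ∧ Cfsg.Geo.IsFormRationalStructure (Cfsg.hermForm 8 F q) F₀ 1 P ∧ H = Cfsg.Geo.subfieldSubgroup F₀ P ⊓ (Cfsg.GU 8 F q ⊓ Cfsg.Geo.specialLinear (Fin 8) F)) ∨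
    (∃ (F₀ : Subfield F) (P : Matrix.GeneralLinearGroup (Fin 8) F) (ζ : F), Fintype.card F = Nat.card F₀ ^ 2 ∧ ζ ≠ 0 ∧ ζ + ζ ^ q = 0 ∧ Cfsg.Geo.IsFormRationalStructure (Cfsg.hermForm 8 F q) F₀ ζ P ∧ (∀ u : Fin 8 → F, (∀ i, u i ∈ F₀) → (Cfsg.hermForm 8 F q) (Matrix.mulVec (P : Matrix (Fin 8) (Fin 8) F) u) (Matrix.mulVec (P : Matrix (Fin 8) (Fin 8) F) u) = 0) ∧ H = Cfsg.Geo.subfieldSubgroup F₀ P ⊓ (Cfsg.GU 8 F q ⊓ Cfsg.Geo.specialLinear (Fin 8) F)) ∨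
    (Odd q ∧ ∃ (F₀ : Subfield F) (P : Matrix.GeneralLinearGroup (Fin 8) F), Fintype.card F = Nat.card F₀ ^ 2 ∧ Cfsg.Geo.IsFormRationalStructure (Cfsg.hermForm 8 F q) F₀ 1 P ∧ H = Cfsg.Geo.subfieldSubgroup F₀ P ⊓ (Cfsg.GU 8 F q ⊓ Cfsg.Geo.specialLinear (Fin 8) F)) ∨
    (∃ (p : ℕ) (R : Subgroup (Matrix.GeneralLinearGroup (Fin 8) F)), p.Prime ∧ q = p ∧ p % 4 = 3 ∧ Cfsg.Geo.IsSymplecticTypeGroup 2 R ∧ Cfsg.Geo.ActsAbsolutelyIrreducibly (Cfsg.Geo.matrixSet R) ∧ R ≤ Cfsg.Geo.similarityGroup (Cfsg.hermForm 8 F q) ∧ Nat.card R = 256 ∧ Nat.card (Subgroup.center R) = 4 ∧ H = Cfsg.Geo.subgroupNormalizer R ⊓ (Cfsg.GU 8 F q ⊓ Cfsg.Geo.specialLinear (Fin 8) F)) ∨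
    Cfsg.Geo.InUnitaryResidualClass H := by
  rcases H99.Asch.unitary_maximal_cases hF (by norm_num) (by norm_num) hH with h | h | ⟨t, k, V, hV, htk, ht, hkq, h⟩ |
    ⟨k, V, hk, hV, hts, h⟩ | ⟨r, K, hr, hodd, hrn, hK, hadj, h⟩ |
    ⟨n₁, n₂, e, P, f₁, f₂, h1, h12, hn, hq3, hf₁, hf₂, hform, h⟩ | h | h | ⟨hev, F₀, P, ζ, hc, hζ, hζq, hf, halt, h⟩ |
    ⟨r, R, p, e, k, hR, habs, hsim, hrp, hmin, hn, hcase, h⟩ | ⟨k, e, P, f₁, hk, hn, hex, hf₁, hform, h⟩ | h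
  · exact Or.inl (h)
  · exact Or.inr (Or.inl (h))
  · have ht' : t ≤ 8 := Nat.le_of_dvd (by norm_num) ⟨k, htk.symm⟩
    interval_cases t
    all_goals first
      | omega
      | (obtain rfl : k = 4 := by omega
         exact Or.inr (Or.inr (Or.inr (Or.inr (Or.inl (⟨V, hV, h⟩))))))
      | (obtain rfl : k = 2 := by omega
         exact Or.inr (Or.inr (Or.inr (Or.inl (⟨hkq rfl, V, hV, h⟩)))))
      | (obtain rfl : k = 1 := by omega
         exact Or.inr (Or.inr (Or.inl (⟨V, hV, h⟩))))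
  · obtain rfl : k = 4 := by omega
    exact Or.inr (Or.inr (Or.inr (Or.inr (Or.inr (Or.inl (⟨V, hV, hts, h⟩))))))
  · have hr' : r ≤ 8 := Nat.le_of_dvd (by norm_num) hrn
    interval_cases r <;> first | omega | (exfalso; revert hr hodd hrn; decide)
  · have hn1 : n₁ ≤ 2 := by nlinarith
    interval_cases n₁
    obtain rfl : n₂ = 4 := by omega
    exact Or.inr (Or.inr (Or.inr (Or.inr (Or.inr (Or.inr (Or.inl (⟨hq3 rfl, e, P, f₁, f₂, hf₁, hf₂, hform, h⟩)))))))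
  · exact Or.inr (Or.inr (Or.inr (Or.inr (Or.inr (Or.inr (Or.inr (Or.inl (h))))))))
  · exact Or.inr (Or.inr (Or.inr (Or.inr (Or.inr (Or.inr (Or.inr (Or.inr (Or.inr (Or.inl (h))))))))))
  · exact Or.inr (Or.inr (Or.inr (Or.inr (Or.inr (Or.inr (Or.inr (Or.inr (Or.inl (⟨F₀, P, ζ, hc, hζ, hζq, hf, halt, h⟩)))))))))
  · obtain ⟨rfl, rfl⟩ := H99.Asch.eq_of_prime_pow (s := 2) (m := 3) hR.prime Nat.prime_two hn (by norm_num) (by norm_num)
    rcases hcase with ⟨h2, -⟩ | ⟨-, rfl, hz, hcard⟩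
    · exact absurd h2 (by decide)
    · rw [hz] at hmin
      obtain ⟨hqp, hp4⟩ := H99.Asch.residue_four hF hmin
      refine Or.inr (Or.inr (Or.inr (Or.inr (Or.inr (Or.inr (Or.inr (Or.inr (Or.inr (Or.inr (Or.inl (⟨p, R, hmin.1, hqp, hp4, hR, habs, hsim, by rw [hcard]; norm_num, hz, h⟩)))))))))))
  · have hk5 : k ≤ 2 := by nlinarith
    omega
  · exact Or.inr (Or.inr (Or.inr (Or.inr (Or.inr (Or.inr (Or.inr (Or.inr (Or.inr (Or.inr (Or.inr (h)))))))))))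

end Cfsg.Agent.S5820
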