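import Cfsg.Statements.S5835
import Cfsg.Agent.H99.Aschbacher.OddOrthLists

set_option autoImplicit false
open Cfsg

namespace Cfsg.Agent.S5835

/-- Every maximal subgroup of Ω_9(q), q odd, is of one of the listed geometric types or lies in the residual class. Let F be a finite field of odd order q, Q the standard quadratic form x₀² + Σ x_i y_i on F^9 (coordinates Unit ⊕ (Fin 4 ⊕ Fin 4)), Ω the commutator subgroup of its isometry group, and H a maximal subgroup of Ω (inside GL_9(F)). Then H is the intersection with Ω of one of: the stabiliser of a non-zero totally singular subspace; the stabiliser of a non-zero non-degenerate subspace of even dimension (not a plus-type plane when q = 3); for q prime, the stabiliser of a decomposition into nine pairwise orthogonal, pairwise isometric non-degenerate 1-spaces; for q ≥ 5, the stabiliser of a decomposition into three pairwise orthogonal, pairwise isometric non-degenerate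 3-spaces; the normaliser of a degree-3 subfield of the matrix algebra, self-adjoint for the polar form; a subfield group (|F| = |F₀|^r, r prime) whose F₀-structure carries Q; for q ≥ 5, the stabiliser of a tensor decomposition of the polar form as a tensor square of a symmetric form on F^3 — or else H lies in the residual class of the orthogonal case (modulo scalars H is almost simple, with absolutely irreducible perfect socle preimage realisable over no proper subfield and fixing no non-degenerate unitary form). -/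
theorem result {F : Type*} [Field F] [Fintype F] (hodd : Odd (Fintype.card F)) (H : Subgroup (Matrix.GeneralLinearGroup (Unit ⊕ (Fin 4 ⊕ Fin 4)) F)) (hH : Cfsg.Geo.IsMaximalIn (Cfsg.Geo.omegaGL (Cfsg.quadFormOdd 4 F)) H) :
    (∃ W : Submodule F (Unit ⊕ (Fin 4 ⊕ Fin 4) → F), W ≠ ⊥ ∧ Cfsg.Geo.IsTotallySingularQuad (Cfsg.quadFormOdd 4 F) W ∧ H = Cfsg.Geo.subspaceStabilizer W ⊓ Cfsg.Geo.omegaGL (Cfsg.quadFormOdd 4 F)) ∨
    (∃ W : Submodule F (Unit ⊕ (Fin 4 ⊕ Fin 4) → F), W ≠ ⊥ ∧ Even (Module.finrank F W) ∧ Cfsg.Geo.IsNondegenerateOn (QuadraticMap.polar (Cfsg.quadFormOdd 4 F)) W ∧ ¬ (Fintype.card F = 3 ∧ Module.finrank F W = 2 ∧ Cfsg.Geo.IsPlusTypeOn (Cfsg.quadFormOdd 4 F) W) ∧ H = Cfsg.Geo.subspaceStabilizer W ⊓ Cfsg.Geo.omegaGL (Cfsg.quadFormOdd 4 F)) ∨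
    ((Fintype.card F).Prime ∧ ∃ D : Fin 9 → Submodule F (Unit ⊕ (Fin 4 ⊕ Fin 4) → F), Cfsg.Geo.IsOrthogonalMDecomposition (Cfsg.quadFormOdd 4 F) 1 D ∧ H = Cfsg.Geo.decompositionStabilizer D ⊓ Cfsg.Geo.omegaGL (Cfsg.quadFormOdd 4 F)) ∨
    (5 ≤ Fintype.card F ∧ ∃ D : Fin 3 → Submodule F (Unit ⊕ (Fin 4 ⊕ Fin 4) → F), Cfsg.Geo.IsOrthogonalMDecomposition (Cfsg.quadFormOdd 4 F) 3 D ∧ H = Cfsg.Geo.decompositionStabilizer D ⊓ Cfsg.Geo.omegaGL (Cfsg.quadFormOdd 4 F)) ∨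
    (∃ K : Subalgebra F (Matrix (Unit ⊕ (Fin 4 ⊕ Fin 4)) (Unit ⊕ (Fin 4 ⊕ Fin 4)) F), Cfsg.Geo.IsFieldSubalgebra 3 K ∧ Cfsg.Geo.IsSelfAdjointFor (QuadraticMap.polar (Cfsg.quadFormOdd 4 F)) K ∧ H = Cfsg.Geo.subalgebraNormalizer K ⊓ Cfsg.Geo.omegaGL (Cfsg.quadFormOdd 4 F)) ∨
    (∃ (F₀ : Subfield F) (r : ℕ) (P : Matrix.GeneralLinearGroup (Unit ⊕ (Fin 4 ⊕ Fin 4)) F), r.Prime ∧ Fintype.card F = Nat.card F₀ ^ r ∧ Cfsg.Geo.IsQuadFormRationalStructure (Cfsg.quadFormOdd 4 F) F₀ P ∧ H = Cfsg.Geo.subfieldSubgroup F₀ P ⊓ Cfsg.Geo.omegaGL (Cfsg.quadFormOdd 4 F)) ∨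
    (5 ≤ Fintype.card F ∧ ∃ (e : (Unit ⊕ (Fin 4 ⊕ Fin 4)) ≃ (Fin 2 → Fin 3)) (P : Matrix.GeneralLinearGroup (Unit ⊕ (Fin 4 ⊕ Fin 4)) F) (f₁ : (Fin 3 → F) → (Fin 3 → F) → F), Cfsg.Geo.IsSymmetricForm f₁ ∧ Cfsg.Geo.IsTensorPowerFormStructure id (QuadraticMap.polar (Cfsg.quadFormOdd 4 F)) f₁ e P ∧ H = Cfsg.Geo.tensorWreathSubgroup 3 2 e P ⊓ Cfsg.Geo.omegaGL (Cfsg.quadFormOdd 4 F)) ∨
    Cfsg.Geo.InOrthogonalResidualClass H := by
  classical
  have h2 := H99.Asch.two_ne_zero_of_card_odd hodd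
  have hle' : H ≤ Cfsg.isometryGroup F (Cfsg.quadFormOdd 4 F) := hH.1.le.trans H99.Asch.omOdd_le
  have hm2 : 2 ≤ 4 := by omega
  have hm3 : 3 ≤ 4 := by omega
  rcases H99.Asch.oddOrth_aschbacher hodd (by omega) hle' with ⟨W, hW, hts, hle⟩ |
    ⟨W, hW, hW', hev, hnd, hle⟩ | ⟨t, k, V, hk, htk, hV, -, hle⟩ | ⟨V, hp, hV, hle⟩ |
    ⟨r, K, hr, hrn, hne, hK, hself, -, hle⟩ | ⟨n₁, n₂, e, P, f₁, f₂, h1, h12, ho₁, ho₂, -, -, -, -, -⟩ |
    ⟨F₀, r, P, hr, hc, hQ, -, hle⟩ | ⟨k, t, e, P, f₁, hk, hko, ht, hex, hf₁, hform, -, hle⟩ | ⟨hres, -⟩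
  · exact .inl ⟨W, hW, hts, H99.Asch.eq_inf_of_maximalIn hH (H99.Asch.omOdd_not_le_singular h2 hm2 hW hts) hle⟩
  · have heq := H99.Asch.eq_inf_of_maximalIn hH (H99.Asch.omOdd_not_le_nondeg h2 hm2 hW hW' hnd) hle
    exact .inr (.inl ⟨W, hW, hev, hnd, H99.Asch.plane_three h2 hm2 hH hnd heq, heq⟩)
  · have h2t := hV.decomp.decomp.two_le
    have hk9 : k ∣ 9 := Dvd.intro_left t (by omega)
    have : k ≤ 9 := Nat.le_of_dvd (by omega) hk9
    obtain ⟨rfl, rfl⟩ : k = 3 ∧ t = 3 := by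
      interval_cases k <;> first | omega | exact ⟨rfl, by omega⟩
    by_cases h5 : 5 ≤ Fintype.card F
    · exact .inr (.inr (.inr (.inl ⟨h5, V, hV,
        H99.Asch.eq_inf_of_maximalIn hH (H99.Asch.omOdd_not_le_blocks h2 hm2 le_rfl hV) hle⟩)))
    · have h3 : Fintype.card F = 3 := by
        obtain ⟨j, hj⟩ := hodd
        have := Fintype.one_lt_card (α := F)
        omega
      obtain ⟨W, hW, hleW⟩ := H99.Asch.blocks_three h2 (by omega) h3 hle' hV hle
      exact .inr (.inr (.inl ⟨by rw [h3]; norm_num, W, hW,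
        H99.Asch.eq_inf_of_maximalIn hH (H99.Asch.omOdd_not_le_frame h2 hm3 hW) hleW⟩))
  · exact .inr (.inr (.inl ⟨hp, V, hV,
      H99.Asch.eq_inf_of_maximalIn hH (H99.Asch.omOdd_not_le_frame h2 hm3 hV) hle⟩))
  · obtain rfl : r = 3 := by
      have : r ≤ 9 := Nat.le_of_dvd (by omega) hrn
      have := hr.two_le
      interval_cases r <;> first | omega | norm_num at hr
    exact .inr (.inr (.inr (.inr (.inl ⟨K, hK, hself,
      H99.Asch.eq_inf_of_maximalIn hH (H99.Asch.omOdd_not_le_field h2 hm3 le_rfl hr hK) hle⟩))))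
  · exfalso
    have h9 := Fintype.card_congr e
    simp at h9
    nlinarith [Nat.mul_le_mul h1 (show 5 ≤ n₂ by obtain ⟨j, rfl⟩ := ho₂; omega)]
  · exact .inr (.inr (.inr (.inr (.inr (.inl ⟨F₀, r, P, hr, hc, hQ,
      H99.Asch.eq_inf_of_maximalIn hH (H99.Asch.omOdd_not_le_subfield h2 hm2 hr hc P) hle⟩)))))
  · have h9 := Fintype.card_congr e
    simp at h9
    have hpow : k ^ 2 ≤ k ^ t := Nat.pow_le_pow_right (by omega) ht
    have hk3 : k ≤ 3 := by nlinarith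
    obtain rfl : k = 3 := by omega
    obtain rfl : t = 2 := Nat.pow_right_injective (le_refl 2 |>.trans (by norm_num) : 2 ≤ 3) (by
      show 3 ^ t = 3 ^ 2
      omega)
    have h5 : 5 ≤ Fintype.card F := by
      obtain ⟨j, hj⟩ := hodd
      have := Fintype.one_lt_card (α := F)
      have : Fintype.card F ≠ 3 := fun h => hex ⟨h, rfl⟩
      omega
    exact .inr (.inr (.inr (.inr (.inr (.inr (.inl ⟨h5, e, P, f₁, hf₁, hform,
      H99.Asch.eq_inf_of_maximalIn hH (H99.Asch.omOdd_not_le_wreath h2 hm2 le_rfl e P) hle⟩))))))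
  · exact .inr (.inr (.inr (.inr (.inr (.inr (.inr hres))))))

end Cfsg.Agent.S5835
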