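import Cfsg.Statements.S5858
import Cfsg.Agent.H99.OddGeometricMax
import Cfsg.Agent.H5.FrameGL
-- import your own Cfsg.Agent.* helpers here

set_option autoImplicit false
open Cfsg

namespace Cfsg.Agent.S5858

/-- Maximal subgroups of Ω_11(q) of geometric type, q odd. Let F be a finite field of odd order q, Q the standard quadratic form x₀² + Σ x_i y_i on F^11 (coordinates Unit ⊕ (Fin 5 ⊕ Fin 5)), and Ω = Ω_11(q) the commutator subgroup of its isometry group, inside GL_11(F). Each of the following, intersected with Ω, is a maximal subgroup of Ω: (1) the stabiliser of any non-zero subspace on which Q vanishes identically (totally singular 1- to 5-spaces); (2) the stabiliser of any non-zero even-dimensional subspace W (dimension 2 to 10) on which the polar form of Q is non-degenerate (equivalently of its odd-dimensional orthogonal complement), except when q = 3 and W is a 2-space containing a non-zero singular vector (a plus-type plane); (3) for q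 = p prime, the stabiliser of any decomposition of F^11 into eleven pairwise orthogonal, pairwise Q-isometric non-degenerate 1-spaces; (4) every subfield group for a subfield F₀ with |F| = |F₀|^r, r prime, whose F₀-structure carries Q. -/
theorem result {F : Type*} [Field F] [Fintype F] (hodd : Odd (Fintype.card F)) :
    (∀ W : Submodule F (Unit ⊕ (Fin 5 ⊕ Fin 5) → F), W ≠ ⊥ → Cfsg.Geo.IsTotallySingularQuad (Cfsg.quadFormOdd 5 F) W → Cfsg.Geo.IsMaximalIn (Cfsg.Geo.omegaGL (Cfsg.quadFormOdd 5 F)) (Cfsg.Geo.subspaceStabilizer W ⊓ Cfsg.Geo.omegaGL (Cfsg.quadFormOdd 5 F))) ∧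
    (∀ W : Submodule F (Unit ⊕ (Fin 5 ⊕ Fin 5) → F), W ≠ ⊥ → Even (Module.finrank F W) → Cfsg.Geo.IsNondegenerateOn (QuadraticMap.polar (Cfsg.quadFormOdd 5 F)) W → ¬ (Fintype.card F = 3 ∧ Module.finrank F W = 2 ∧ Cfsg.Geo.IsPlusTypeOn (Cfsg.quadFormOdd 5 F) W) → Cfsg.Geo.IsMaximalIn (Cfsg.Geo.omegaGL (Cfsg.quadFormOdd 5 F)) (Cfsg.Geo.subspaceStabilizer W ⊓ Cfsg.Geo.omegaGL (Cfsg.quadFormOdd 5 F))) ∧
    ((Fintype.card F).Prime → ∀ D : Fin 11 → Submodule F (Unit ⊕ (Fin 5 ⊕ Fin 5) → F), Cfsg.Geo.IsOrthogonalMDecomposition (Cfsg.quadFormOdd 5 F) 1 D → Cfsg.Geo.IsMaximalIn (Cfsg.Geo.omegaGL (Cfsg.quadFormOdd 5 F)) (Cfsg.Geo.decompositionStabilizer D ⊓ Cfsg.Geo.omegaGL (Cfsg.quadFormOdd 5 F))) ∧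
    (∀ (F₀ : Subfield F) (r : ℕ) (P : Matrix.GeneralLinearGroup (Unit ⊕ (Fin 5 ⊕ Fin 5)) F), r.Prime → Fintype.card F = Nat.card F₀ ^ r → Cfsg.Geo.IsQuadFormRationalStructure (Cfsg.quadFormOdd 5 F) F₀ P → Cfsg.Geo.IsMaximalIn (Cfsg.Geo.omegaGL (Cfsg.quadFormOdd 5 F)) (Cfsg.Geo.subfieldSubgroup F₀ P ⊓ Cfsg.Geo.omegaGL (Cfsg.quadFormOdd 5 F))) := by
  have h2 : (2 : F) ≠ 0 := Ring.two_ne_zero fun hc => by
    have := FiniteField.even_card_of_char_two hc
    obtain ⟨k, hk⟩ := hodd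
    omega
  refine ⟨fun W h0 hW => H99.OddMax.singular h2 (by norm_num) W h0 hW,
    fun W h0 he hW hex => H99.OddMax.nondegenerate h2 le_rfl W h0 he hW hex, fun hprime D hD => ?_,
    fun F₀ r P hr hcard hP => H99.OddMax.subfield h2 le_rfl F₀ hr hcard P hP⟩
  classical
  exact H5.isMaximalIn_frame (H5.coe_qOdd 5) (H5.qOdd_nondegenerate 5 h2) (by simp) hD hodd hprime

end Cfsg.Agent.S5858
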