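import Cfsg.Statements.S5876
import Cfsg.Agent.H89.PrimitiveFixedSpace

set_option autoImplicit false
open Cfsg

namespace Cfsg.Agent.S5876

/-- Fixed-point spaces in primitive soluble linear groups. Let F be a finite field and G a soluble subgroup of GL_n(F) that acts irreducibly on F^n and primitively (G preserves no decomposition of F^n into two or more independent subspaces of equal dimension). Then every non-identity element g of G has fixed-point space {v : g v = v} of dimension at most 3n/4. -/
theorem result {F : Type*} [Field F] [Fintype F] {n : ℕ} (G : Subgroup (Matrix.GeneralLinearGroup (Fin n) F)) (hsol : IsSolvable G) (hirr : Cfsg.Geo.ActsIrreducibly (Cfsg.Geo.matrixSet G)) (hprim : ∀ (m t : ℕ) (D : Fin t → Submodule F (Fin n → F)), 2 ≤ t → Cfsg.Geo.IsMDecomposition m D → ¬ G ≤ Cfsg.Geo.decompositionStabilizer D) (g : Matrix.GeneralLinearGroup (Fin n) F) (hg : g ∈ G) (hg1 : g ≠ 1) :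
    4 * Module.finrank F (Module.End.eigenspace (Matrix.toLin' (g : Matrix (Fin n) (Fin n) F)) 1) ≤ 3 * n := by
  exact H89.FixedSpace.four_mul_finrank_le hsol hirr
    (fun ⟨t, m, D, hd, hle⟩ => hprim m t D hd.two_le hd hle) hg hg1

end Cfsg.Agent.S5876
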