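import Cfsg.Statements.S5944
import Cfsg.Agent.H36.SymIndex
-- import your own Cfsg.Agent.* helpers here

set_option autoImplicit false
open Cfsg

namespace Cfsg.Agent.S5944

/-- For n ≠ 4, every proper subgroup of the symmetric group S_n other than the alternating group A_n has index at least n. -/
theorem result (n : ℕ) (hn : n ≠ 4) (H : Subgroup (Equiv.Perm (Fin n))) (hH : H ≠ ⊤) (hA : H ≠ alternatingGroup (Fin n)) : n ≤ H.index := by
  have h := H36.SymIndex.card_le_index (α := Fin n) (by rwa [Nat.card_fin]) H hH hA
  rwa [Nat.card_fin] at h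

end Cfsg.Agent.S5944
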