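import Cfsg.Statements.S5949
import Cfsg.Agent.H97.LinearElusive

set_option autoImplicit false
open scoped MatrixGroups
open Cfsg

namespace Cfsg.Agent.S5949

/-- Elements of prime order of PSL_n(q) with no fixed `m`-space. Here `T = PSL_n(F)` for a field `F` with `q = p^f` elements (`n ≥ 2`, `(n, q) ≠ (2, 2), (2, 3)`); an element of `T` of prime order `r` is represented by a matrix `x` of determinant 1 with `x^r` scalar and `x` not scalar; `i` denotes the multiplicative order of `q` modulo `r` (when `r ≠ p`), and `(a)_r` the `r`-part of `a`. Let `1 ≤ m ≤ n/2` and let `r` be a prime dividing the number of `m`-dimensional subspaces of `F^n`. Then every element of `T` of order `r` fixes some `m`-dimensional subspace (the action on `m`-spaces is `r`-elusive) if and only if `r ≠ p` and either (i) `i = 1` and (`r ∣ m`, or `(q−1)_r ≥ (n)_r` where in addition `q ≡ 1 (mod 4)` is required when `r = 2` and `n` is even), or (ii) `2 ≤ i ≤ m` and `n mod i ≥ m mod i`. -/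
theorem result {F : Type*} [Field F] [Fintype F] {p : ℕ} [Fact p.Prime] [CharP F p] {q : ℕ} (hq : Fintype.card F = q)
    (n m : ℕ) (hn : 2 ≤ n) (hT : (n, q) ≠ (2, 2) ∧ (n, q) ≠ (2, 3)) (hm : 1 ≤ m) (hmn : 2 * m ≤ n)
    (r : ℕ) [Fact r.Prime] (hrΩ : r ∣ Nat.card {W : Submodule F (Fin n → F) // Module.finrank F ↥W = m}) :
    (∀ x : Matrix.SpecialLinearGroup (Fin n) F,
      (∃ c : F, ((x ^ r : Matrix.SpecialLinearGroup (Fin n) F) : Matrix (Fin n) (Fin n) F) = c • (1 : Matrix (Fin n) (Fin n) F)) →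
      (∀ c : F, (x : Matrix (Fin n) (Fin n) F) ≠ c • (1 : Matrix (Fin n) (Fin n) F)) →
      ∃ W : Submodule F (Fin n → F), Module.finrank F ↥W = m ∧ W.map (Matrix.toLin' (x : Matrix (Fin n) (Fin n) F)) ≤ W) ↔
    (r ≠ p ∧
      ((orderOf (q : ZMod r) = 1 ∧ (r ∣ m ∨ (padicValNat r n ≤ padicValNat r (q - 1) ∧ (r = 2 → Even n → q % 4 = 1)))) ∨
       (2 ≤ orderOf (q : ZMod r) ∧ orderOf (q : ZMod r) ≤ m ∧ m % orderOf (q : ZMod r) ≤ n % orderOf (q : ZMod r)))) := by
  subst hq
  rw [← Nat.card_eq_fintype_card]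
  by_cases hrp : r = p
  · subst hrp
    exact absurd hrΩ (Cfsg.Agent.H97.not_dvd_card_subspace_char (by rw [Module.finrank_fin_fun]; omega))
  · exact (Cfsg.Agent.H97.elusive_subspace_iff (Cfsg.Agent.H97.cast_ne_zero_of_ne (p := p) Fact.out hrp) hm
      hmn hrΩ).trans (and_iff_right hrp).symm

end Cfsg.Agent.S5949
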