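import Cfsg.Statements.S5952
import Cfsg.Agent.H97.Basic

set_option autoImplicit false
open Cfsg

namespace Cfsg.Agent.S5952

/-- Which dimensions of invariant subspaces a semisimple linear map has. Let `V` be a finite-dimensional vector space over a field `F` and `f` an invertible semisimple linear map of `V`. Suppose `V` is the internal direct sum of the fixed space `C_V(f)` (the eigenspace for 1) and subspaces `U_1, …, U_s`, each `f`-invariant of dimension `a ≥ 1` on which `f` acts irreducibly (no `f`-invariant subspaces other than 0 and `U_j`). Let `0 < m < dim V` and `ℓ = m mod a`. Then `f` leaves some `m`-dimensional subspace invariant if and only if `dim C_V(f) ≥ m`, or `a ≤ m` and `dim C_V(f) ≥ ℓ`. -/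
theorem result {F V : Type*} [Field F] [AddCommGroup V] [Module F V]
    [FiniteDimensional F V] (f : V →ₗ[F] V) (hf : Function.Bijective f) (hss : Module.End.IsSemisimple f)
    {s a : ℕ} (ha : 1 ≤ a) (U : Fin s → Submodule F V)
    (hUinv : ∀ j, (U j).map f ≤ U j) (hUdim : ∀ j, Module.finrank F ↥(U j) = a)
    (hUirr : ∀ j, ∀ W : Submodule F V, W ≤ U j → W.map f ≤ W → W = ⊥ ∨ W = U j)
    (hdec : DirectSum.IsInternal (fun o : Option (Fin s) => o.elim (Module.End.eigenspace f 1) U))
    (m : ℕ) (hm : 0 < m) (hmV : m < Module.finrank F V) :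
    (∃ W : Submodule F V, Module.finrank F ↥W = m ∧ W.map f ≤ W) ↔
    (m ≤ Module.finrank F ↥(Module.End.eigenspace f 1) ∨
      (a ≤ m ∧ m % a ≤ Module.finrank F ↥(Module.End.eigenspace f 1))) := by
  refine Cfsg.Agent.H97.exists_inv_finrank_iff ha Finset.univ U
    (fun j _ => ⟨hUinv j, hUdim j, hUirr j⟩) (fun v hv => ?_) ?_ hmV
  · simpa using Module.End.mem_eigenspace_iff.1 hv
  · have h := hdec.submodule_iSup_eq_top
    rw [iSup_option] at h
    simpa [Finset.sup_univ_eq_iSup] using h

end Cfsg.Agent.S5952
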