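import Cfsg.Statements.S5953
import Cfsg.Agent.H97.HermScalar
import Cfsg.Agent.H3.Isotropic

set_option autoImplicit false
open scoped MatrixGroups
open Cfsg

namespace Cfsg.Agent.S5953

/-- Elements of prime order of PSU_n(q) with no fixed totally isotropic `m`-space. Here `T = PSU_n(q)` (`n ≥ 3`, `(n, q) ≠ (3, 2)`), realised through the matrices of determinant 1 over the field `F` with `q²` elements preserving the Hermitian form `h(u, v) = Σ u_i v_i^q`; an element of `T` of prime order `r` is such a matrix `x` with `x^r` scalar and `x` not scalar. For `r ≠ p` let `i` be the multiplicative order of `q` modulo `r`, `b = i/2` for `i` even and `b = i` for `i` odd, `c = i, i/2, 2i` according as `i ≡ 0, 2 (mod 4)` or `i` odd, and write `k = n mod c`, `ℓ = m mod b`, `ℓ' = m mod c`, `n' = ⌊n/b⌋`, `m' = ⌊m/b⌋`, `s = (r−1)/b`; `(a)_r` is the `r`-part of `a`. Let `1 ≤ m ≤ n/2` and let `r` be a prime dividing the number of totally isotropic `m`-spaces. Then every element of `T` of order `r` fixes a totally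 isotropic `m`-space if and only if either (i) `r = 2`, `p ≠ 2`, and (`m < n/2` or `(q+1)_2 ≤ (n)_2`); or (ii) `r ≠ p`, `r > 2`, `b ≤ m`, `k ≥ 2ℓ`, and either `i ≢ 2 (mod 4)`, or `i ≡ 2 (mod 4)`, `n' − 2m' ≥ s` and (`i > 2`, or `i = 2` and (`r ∣ m` or `(q+1)_r ≥ (n)_r`)). -/
theorem result {F : Type*} [Field F] [Fintype F] {p : ℕ} [Fact p.Prime] [CharP F p] {q : ℕ} (hq : Fintype.card F = q ^ 2)
    (n m : ℕ) (hn : 3 ≤ n) (hT : (n, q) ≠ (3, 2)) (hm : 1 ≤ m) (hmn : 2 * m ≤ n)
    (r : ℕ) [Fact r.Prime]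
    (hrΩ : r ∣ Nat.card {W : Submodule F (Fin n → F) // Module.finrank F ↥W = m ∧ (∀ u ∈ W, ∀ v ∈ W, Cfsg.hermForm n F q u v = 0)})
    (i b c : ℕ) (hi : i = orderOf (q : ZMod r)) (hb : b = if Even i then i / 2 else i)
    (hc : c = if i % 4 = 0 then i else if i % 4 = 2 then i / 2 else 2 * i) :
    (∀ x : Matrix.SpecialLinearGroup (Fin n) F, x ∈ Cfsg.SU n F q →
      (∃ z : F, ((x ^ r : Matrix.SpecialLinearGroup (Fin n) F) : Matrix (Fin n) (Fin n) F) = z • (1 : Matrix (Fin n) (Fin n) F)) →
      (∀ z : F, (x : Matrix (Fin n) (Fin n) F) ≠ z • (1 : Matrix (Fin n) (Fin n) F)) →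
      ∃ W : Submodule F (Fin n → F), Module.finrank F ↥W = m ∧ (∀ u ∈ W, ∀ v ∈ W, Cfsg.hermForm n F q u v = 0) ∧
        W.map (Matrix.toLin' (x : Matrix (Fin n) (Fin n) F)) ≤ W) ↔
    ((r = 2 ∧ p ≠ 2 ∧ (2 * m < n ∨ padicValNat 2 (q + 1) ≤ padicValNat 2 n)) ∨
     (r ≠ p ∧ 2 < r ∧ b ≤ m ∧ 2 * (m % b) ≤ n % c ∧
       (i % 4 ≠ 2 ∨ (i % 4 = 2 ∧ (r - 1) / b + 2 * (m / b) ≤ n / b ∧
         (2 < i ∨ (i = 2 ∧ (r ∣ m ∨ padicValNat r n ≤ padicValNat r (q + 1)))))))) := by
  classical
  have hrp : r.Prime := Fact.out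
  have hn1 : 1 ≤ n := by omega
  have hne : r ≠ p := fun h => Cfsg.Agent.H97.not_dvd_char_isotropic_herm hq p hmn (h ▸ hrΩ)
  have hr : (r : F) ≠ 0 := Cfsg.Agent.H67.cast_ne_zero_of_prime_ne (K := F) hrp hne
  have hq2 := Cfsg.Agent.H3.two_le_q hq
  have hfilt : (∀ x : Matrix.SpecialLinearGroup (Fin n) F, x ∈ Cfsg.SU n F q →
      (∃ z : F, ((x ^ r : Matrix.SpecialLinearGroup (Fin n) F) : Matrix (Fin n) (Fin n) F) = z • (1 : Matrix (Fin n) (Fin n) F)) →
      (∀ z : F, (x : Matrix (Fin n) (Fin n) F) ≠ z • (1 : Matrix (Fin n) (Fin n) F)) →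
      ∃ W : Submodule F (Fin n → F), Module.finrank F ↥W = m ∧ (∀ u ∈ W, ∀ v ∈ W, Cfsg.hermForm n F q u v = 0) ∧
        W.map (Matrix.toLin' (x : Matrix (Fin n) (Fin n) F)) ≤ W) ↔
      ∀ g : Cfsg.GU n F q, ((g : GL (Fin n) F) : Matrix (Fin n) (Fin n) F).det = 1 →
        ∀ z : F, ((g ^ r : Cfsg.GU n F q) : GL (Fin n) F).1 = z • 1 →
        (∀ u : F, ((g : GL (Fin n) F) : Matrix (Fin n) (Fin n) F) ≠ u • 1) →
        ∃ W : Submodule F (Fin n → F), Module.finrank F ↥W = m ∧ (∀ u ∈ W, ∀ v ∈ W, Cfsg.hermForm n F q u v = 0) ∧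
          W.map (Matrix.toLin' ((g : GL (Fin n) F) : Matrix (Fin n) (Fin n) F)) ≤ W := by
    constructor
    · intro H g hd z hz hns
      let x : Matrix.SpecialLinearGroup (Fin n) F := ⟨((g : GL (Fin n) F) : Matrix (Fin n) (Fin n) F), hd⟩
      refine H x (fun u v => g.2 u v) ⟨z, (Matrix.SpecialLinearGroup.coe_pow x r).trans ?_⟩ hns
      rw [← hz, SubgroupClass.coe_pow, Units.val_pow_eq_pow_val]
    · rintro H x hx ⟨z, hz⟩ hns
      refine H (Cfsg.Agent.H3.suToGU n F q ⟨x, hx⟩) x.2 z ?_ hns
      rw [SubgroupClass.coe_pow, Units.val_pow_eq_pow_val, ← hz, Matrix.SpecialLinearGroup.coe_pow]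
      rfl
  rw [hfilt]
  -- scaling to an element of order `r`
  have hscale : (∀ f : Cfsg.GU n F q, f ^ r = 1 → f ≠ 1 →
      ∃ W : Submodule F (Fin n → F), Module.finrank F ↥W = m ∧ (∀ u ∈ W, ∀ v ∈ W, Cfsg.hermForm n F q u v = 0) ∧
        W.map (Matrix.toLin' ((f : GL (Fin n) F) : Matrix (Fin n) (Fin n) F)) ≤ W) →
      ∀ (g : Cfsg.GU n F q) (z w : F), ((g ^ r : Cfsg.GU n F q) : GL (Fin n) F).1 = z • 1 →
        w ^ (q + 1) = 1 → w ^ r = z → (∀ u : F, ((g : GL (Fin n) F) : Matrix (Fin n) (Fin n) F) ≠ u • 1) →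
      ∃ W : Submodule F (Fin n → F), Module.finrank F ↥W = m ∧ (∀ u ∈ W, ∀ v ∈ W, Cfsg.hermForm n F q u v = 0) ∧
        W.map (Matrix.toLin' ((g : GL (Fin n) F) : Matrix (Fin n) (Fin n) F)) ≤ W := by
    intro H g z w hz hw hwz hns
    have hw0 : w ≠ 0 := fun h => by rw [h, zero_pow (by omega)] at hw; exact zero_ne_one hw
    obtain ⟨f, hf⟩ := Cfsg.Agent.H97.exists_gu_scale g (w := w⁻¹) (by rw [inv_pow, hw, inv_one])
    have hz' : ((g : GL (Fin n) F) : Matrix (Fin n) (Fin n) F) ^ r = z • 1 := by
      rw [← hz, SubgroupClass.coe_pow, Units.val_pow_eq_pow_val]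
    obtain ⟨W, h1, h2, h3⟩ := H f (Subtype.ext (Units.ext (by
        rw [SubgroupClass.coe_pow, Units.val_pow_eq_pow_val, hf, _root_.smul_pow, hz', smul_smul, ← hwz, ← mul_pow,
          inv_mul_cancel₀ hw0, one_pow, one_smul]
        rfl))) (fun h => hns w (by
        rw [h] at hf
        have h4 := congrArg (fun A : Matrix (Fin n) (Fin n) F => w • A) hf
        simp only [smul_smul, mul_inv_cancel₀ hw0, one_smul] at h4
        rw [← h4]; rfl))
    exact ⟨W, h1, h2, Cfsg.Agent.H97.map_le_of_smul (inv_ne_zero hw0) (hf ▸ h3)⟩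
  by_cases hr2 : r = 2
  · -- involutions
    subst hr2
    have hp2 : p ≠ 2 := Ne.symm hne
    constructor
    · intro H
      refine Or.inl ⟨rfl, hp2, ?_⟩
      by_contra hc'
      push Not at hc'
      obtain ⟨hm2, hv⟩ := hc'
      set a := padicValNat 2 n
      have hdvd : 2 ^ (a + 1) ∣ q + 1 := (padicValNat_dvd_iff_le (by omega : q + 1 ≠ 0)).2 hv
      obtain ⟨w, hw⟩ := Cfsg.Agent.H97.exists_orderOf_field (F := F) (N := 2 ^ (a + 1))
        (by rw [Cfsg.Agent.H97.card_sub_one_factor hq]; exact dvd_mul_of_dvd_left hdvd _)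
      have hw1 : w ^ (q + 1) = 1 := orderOf_dvd_iff_pow_eq_one.1 (hw ▸ hdvd)
      have hwn : w ^ n = -1 := by
        obtain ⟨o, ho⟩ : 2 ^ a ∣ n := pow_padicValNat_dvd
        have hodd : Odd o := by
          rw [← Nat.not_even_iff_odd]
          rintro ⟨o', rfl⟩
          exact pow_succ_padicValNat_not_dvd (p := 2) (n := n) (by omega)
            ⟨o', by rw [show padicValNat 2 n = a from rfl, pow_succ, ho]; ring⟩
        have h1 : (w ^ 2 ^ a) ^ 2 = 1 := by
          rw [← pow_mul, ← pow_succ, ← hw, pow_orderOf_eq_one]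
        have h2 : w ^ 2 ^ a = -1 := (sq_eq_one_iff.1 h1).resolve_left fun h => by
          have h3 := orderOf_dvd_of_pow_eq_one h
          rw [hw, Nat.pow_dvd_pow_iff_le_right (by norm_num)] at h3
          omega
        rw [ho, pow_mul, h2, hodd.neg_one_pow]
      have hw0 : w ≠ 0 := fun h => by rw [h, zero_pow (by omega)] at hw1; exact zero_ne_one hw1
      have h2F : (2 : F) ≠ 0 := by exact_mod_cast hr
      obtain ⟨n', rfl⟩ : ∃ n', n = n' + 1 := ⟨n - 1, by omega⟩
      have hqo : Odd q := by
        rw [← Nat.not_even_iff_odd, even_iff_two_dvd]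
        intro h
        have h2' : (2 : ℕ) ∣ q + 1 := (dvd_pow_self 2 (Nat.succ_ne_zero a)).trans hdvd
        omega
      set d : Fin (n' + 1) → F := fun i => if i = 0 then -w else w with hd
      have hdn : ∀ i, d i ^ (q + 1) = 1 := fun i => by
        by_cases hi0 : i = 0
        · simp only [hd, if_pos hi0]
          rw [neg_pow, hw1, mul_one, (hqo.add_one).neg_one_pow]
        · simp only [hd, if_neg hi0, hw1]
      have hneg : -w ≠ w := fun h => hw0 ((mul_eq_zero.1 (show (2 : F) * w = 0 by linear_combination -h)).resolve_left h2F)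
      obtain ⟨W, h1, h2, h3⟩ := H (Cfsg.Agent.H3.guDiag d hdn)
        (by
          show (Matrix.diagonal d).det = 1
          rw [Matrix.det_diagonal, Fin.prod_univ_succ]
          simp only [hd, if_true, Fin.succ_ne_zero, if_false, Finset.prod_const, Finset.card_univ, Fintype.card_fin]
          rw [neg_mul, ← pow_succ', hwn, neg_neg])
        (w ^ 2) (by
          rw [SubgroupClass.coe_pow, Units.val_pow_eq_pow_val,
            show (((Cfsg.Agent.H3.guDiag d hdn : Cfsg.GU (n' + 1) F q) : GL (Fin (n' + 1)) F) :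
              Matrix (Fin (n' + 1)) (Fin (n' + 1)) F) = Matrix.diagonal d from rfl, Matrix.diagonal_pow,
            Matrix.smul_one_eq_diagonal]
          congr 1
          funext i
          by_cases hi0 : i = 0 <;> simp [hd, hi0])
        (fun u hu => by
          have e : Matrix.diagonal d = u • (1 : Matrix (Fin (n' + 1)) (Fin (n' + 1)) F) := hu
          rw [Matrix.smul_one_eq_diagonal] at e
          have e' := Matrix.diagonal_injective e
          have h0 := congrFun e' 0
          have h1 := congrFun e' ⟨1, by omega⟩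
          simp only [hd] at h0 h1
          rw [if_pos trivial] at h0
          rw [if_neg (Fin.ne_of_val_ne (by simp))] at h1
          exact hneg (h0.trans h1.symm))
      have := Cfsg.Agent.H97.isotropic_diag_bound hq d {0} (fun j hj i hij => by
        rw [Finset.mem_singleton] at hj
        subst hj
        simp only [hd, if_neg hij, if_true]
        exact hneg.symm) h2 h3
      rw [h1, Finset.card_singleton] at this
      omega
    · intro H g hd z hz _
      rcases H with ⟨-, -, hcond⟩ | ⟨-, h, -⟩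
      · exact Cfsg.Agent.H97.exists_isotropic_sq (p := p) hq hp2 hn1 hmn hcond g hd hz
      · omega
  -- odd `r`
  have hq0 : (q : ZMod r) ≠ 0 := fun h => by
    have h' := Cfsg.Agent.H67.card_zmod_ne_zero (K := F) hr hrp
    rw [hq, Nat.cast_pow, h] at h'
    exact h' (zero_pow two_ne_zero)
  obtain ⟨hipos, hbQ, hbpos, hc2, hc4, hself, hcdvd⟩ := Cfsg.Agent.H97.herm_orders hq0 hr2 hi hb hc
  have hbig := Cfsg.Agent.H97.herm_bound hcdvd (Cfsg.Agent.H97.exists_neg_pow_of_dvd_isotropic hq hmn hrΩ)
  have hcrit := (Cfsg.Agent.H97.gu_isotropic_criterion (p := p) (r := r) hq hne hself hbQ hmn).trans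
    (Cfsg.Agent.H97.herm_iso_arith (P := i % 4 = 2) (t := (r - 1) / b) hbpos
      (by by_cases h : i % 4 = 2
          · rw [if_pos h]; exact hc2 h
          · rw [if_neg h]; exact hc4 h) hmn hbig)
  have hr3 : 2 < r := by have := hrp.two_le; omega
  have hi2 : i = 2 ↔ r ∣ q + 1 := by
    rw [← ZMod.natCast_eq_zero_iff, Nat.cast_add, Nat.cast_one, add_eq_zero_iff_eq_neg]
    have : Fact (2 < r) := ⟨hr3⟩
    constructor
    · intro h
      have h1 : (q : ZMod r) ^ 2 = 1 := by rw [← h, hi, pow_orderOf_eq_one]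
      refine (sq_eq_one_iff.1 h1).resolve_left fun h2 => ?_
      rw [h2, orderOf_one] at hi
      omega
    · intro h
      rw [hi, h]
      exact orderOf_eq_prime neg_one_sq ZMod.neg_one_ne_one
  by_cases hi2' : i = 2
  · -- `r` divides `q + 1`
    have hrq := hi2.1 hi2'
    have hrq' : ¬ r ∣ q - 1 := fun h => by
      have h2 := Nat.dvd_sub hrq h
      rw [show q + 1 - (q - 1) = 2 by omega] at h2
      exact hr2 ((Nat.prime_dvd_prime_iff_eq hrp Nat.prime_two).1 h2)
    have hb1 : b = 1 := by rw [hb, hi2']; rfl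
    have hc1 : c = 1 := by rw [hc2 (by omega), hb1]
    simp only [hb1, hc1, Nat.div_one, Nat.mod_one, hi2'] at hcrit ⊢
    constructor
    · intro H
      refine Or.inr ⟨hne, hr3, hm, by omega, Or.inr ⟨trivial, ?_, Or.inr ⟨trivial, ?_⟩⟩⟩
      · by_contra hlt
        obtain ⟨ζ, hζ⟩ := Cfsg.Agent.H97.exists_orderOf_field (F := F) (N := r)
          (by rw [Cfsg.Agent.H97.card_sub_one_factor hq]; exact dvd_mul_of_dvd_left hrq _)
        have hζ1 : ζ ^ r = 1 := by rw [← hζ, pow_orderOf_eq_one]
        have hinj : ∀ a a' : ℕ, a < r → a' < r → ζ ^ a = ζ ^ a' → a = a' := fun a a' ha ha' h =>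
          (pow_injOn_Iio_orderOf (x := ζ)) (by simpa [hζ] using ha) (by simpa [hζ] using ha') h
        have key : ∀ (e : Fin n → ℕ) (S : Finset (Fin n)), r ∣ ∑ j, e j → (∀ j, e j < r) →
            (∀ j ∈ S, ∀ l, l ≠ j → e l ≠ e j) → n < 2 * m + S.card →
            (∃ j l, e j ≠ e l) → False := by
          intro e S hsum hlt' hS hcard hns
          set d : Fin n → F := fun j => ζ ^ e j with hd
          have hdn : ∀ j, d j ^ (q + 1) = 1 := fun j => by
            obtain ⟨u, hu⟩ := hrq
            simp only [hd]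
            rw [← pow_mul, mul_comm, pow_mul, hu, pow_mul, hζ1, one_pow, one_pow]
          obtain ⟨W, h1, h2, h3⟩ := H (Cfsg.Agent.H3.guDiag d hdn)
            (by
              show (Matrix.diagonal d).det = 1
              rw [Matrix.det_diagonal]
              simp only [hd]
              rw [Finset.prod_pow_eq_pow_sum, ← orderOf_dvd_iff_pow_eq_one, hζ]
              exact hsum)
            1 (by
              rw [SubgroupClass.coe_pow, Units.val_pow_eq_pow_val,
                show (((Cfsg.Agent.H3.guDiag d hdn : Cfsg.GU n F q) : GL (Fin n) F) :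
                  Matrix (Fin n) (Fin n) F) = Matrix.diagonal d from rfl, Matrix.diagonal_pow, one_smul,
                ← Matrix.diagonal_one]
              congr 1
              funext j
              simp only [hd, Pi.pow_apply]
              rw [← pow_mul, mul_comm, pow_mul, hζ1, one_pow])
            (fun u hu => by
              have e' : Matrix.diagonal d = u • (1 : Matrix (Fin n) (Fin n) F) := hu
              rw [Matrix.smul_one_eq_diagonal] at e'
              obtain ⟨j, l, hjl⟩ := hns
              exact hjl (hinj _ _ (hlt' j) (hlt' l)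
                ((congrFun (Matrix.diagonal_injective e') j).trans (congrFun (Matrix.diagonal_injective e') l).symm)))
          have hbd := Cfsg.Agent.H97.isotropic_diag_bound hq d S
            (fun j hj l hl h => hS j hj l hl (hinj _ _ (hlt' l) (hlt' j) h)) h2 h3
          rw [h1] at hbd
          omega
        rcases le_or_gt (r - 1) n with hrn | hrn
        · let e : Fin n → ℕ := fun j => if (j : ℕ) < r - 1 then (j : ℕ) + 1 else 0
          refine key e (Finset.univ.filter fun j : Fin n => (j : ℕ) < r - 1) ?_ ?_ ?_ ?_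
            ⟨⟨0, by omega⟩, ⟨1, by omega⟩, by
              simp only [e]; rw [if_pos (by omega), if_pos (by omega)]; omega⟩
          · rw [Fin.sum_univ_eq_sum_range (fun j => if j < r - 1 then j + 1 else 0) n,
              Finset.sum_ite, Finset.sum_const_zero, add_zero,
              show (Finset.range n).filter (fun j => j < r - 1) = Finset.range (r - 1) by ext; simp; omega]
            have h1 : ∑ j ∈ Finset.range (r - 1), (j + 1) = ∑ j ∈ Finset.range r, j := by
              conv_rhs => rw [show r = r - 1 + 1 by omega, Finset.sum_range_succ']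
              rw [add_zero]
            rw [h1]
            obtain ⟨u, hu⟩ := hrp.odd_of_ne_two hr2
            refine ⟨u, Nat.eq_of_mul_eq_mul_right (show 0 < 2 by omega) ?_⟩
            rw [Finset.sum_range_id_mul_two, show r - 1 = u * 2 by omega]; ring
          · intro j; simp only [e]; split_ifs <;> omega
          · intro j hj l hl
            rw [Finset.mem_filter] at hj
            have := Fin.val_ne_of_ne hl
            simp only [e, if_pos hj.2]
            split_ifs <;> omega
          · rw [Fin.card_filter_val_lt]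
            omega
        · have : NeZero r := ⟨hrp.ne_zero⟩
          set t : ZMod r := -(∑ j : Fin n, ((j : ℕ) : ZMod r)) / (n : ZMod r)
          have hn0 : (n : ZMod r) ≠ 0 := by
            rw [Ne, ZMod.natCast_eq_zero_iff]
            exact fun h => absurd (Nat.le_of_dvd (by omega) h) (by omega)
          refine key (fun j => (((j : ℕ) : ZMod r) + t).val) Finset.univ ?_ (fun j => ZMod.val_lt _)
            (fun j _ l hl h => hl ?_) (by rw [Finset.card_univ, Fintype.card_fin]; omega)
            ⟨⟨0, by omega⟩, ⟨1, by omega⟩, fun h => ?_⟩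
          · rw [← ZMod.natCast_eq_zero_iff, Nat.cast_sum]
            simp only [ZMod.natCast_val, ZMod.cast_id, id_eq, Finset.sum_add_distrib, Finset.sum_const,
              Finset.card_univ, Fintype.card_fin, nsmul_eq_mul, t]
            field_simp
            ring
          · have h1 := congrArg ZMod.val (add_right_cancel (ZMod.val_injective r h))
            rw [ZMod.val_natCast, ZMod.val_natCast, Nat.mod_eq_of_lt (by omega), Nat.mod_eq_of_lt (by omega)] at h1
            exact Fin.ext h1
          · have h1 := congrArg ZMod.val (add_right_cancel (ZMod.val_injective r h))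
            rw [ZMod.val_natCast, ZMod.val_natCast] at h1
            simp only [Nat.zero_mod, Nat.one_mod_eq_one.2 hrp.ne_one] at h1
            exact Nat.zero_ne_one h1
      · by_contra hcon
        push Not at hcon
        obtain ⟨x, z, hd, hz, hnp, hW⟩ := Cfsg.Agent.H97.exists_nonpower_no_isotropic hq p hr2 hrq hn1
          hcon.1 hcon.2
        obtain ⟨W, h1, -, h3⟩ := H x hd z hz (fun u hu => hnp u (by
          have h := hz
          rw [SubgroupClass.coe_pow, Units.val_pow_eq_pow_val, hu, _root_.smul_pow, one_pow] at h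
          have := congrFun (congrFun h ⟨0, hn1⟩) ⟨0, hn1⟩
          simpa using this))
        exact hW W h1 h3
    · intro H g hd z hz hns
      obtain ⟨hpairs, hcond⟩ : (r - 1) + 2 * m ≤ n ∧ (r ∣ m ∨ padicValNat r n ≤ padicValNat r (q + 1)) := by
        rcases H with ⟨h, -⟩ | ⟨-, -, -, -, h | ⟨-, h, h' | ⟨-, h'⟩⟩⟩
        · exact absurd h hr2
        · omega
        · omega
        · exact ⟨h, h'⟩
      by_cases hpow : ∃ u : F, u ^ r = z
      · obtain ⟨u, hu⟩ := hpow
        refine hscale (hcrit.2 ⟨by omega, by omega, fun _ => hpairs⟩) g z u hz ?_ hu hns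
        have hz1 := Cfsg.Agent.H97.norm_of_scalar hq hn1 (g ^ r) hz
        have hu0 : u ≠ 0 := fun h => by
          rw [h, zero_pow hrp.ne_zero] at hu; rw [← hu, zero_pow (by omega)] at hz1; exact zero_ne_one hz1
        have h1 : (u ^ (q + 1)) ^ r = 1 := by rw [← pow_mul, mul_comm, pow_mul, hu, hz1]
        have h2 : (u ^ (q + 1)) ^ (q - 1) = 1 := by
          rw [← pow_mul, ← Cfsg.Agent.H97.card_sub_one_factor hq, FiniteField.pow_card_sub_one_eq_one u hu0]
        have h3 := pow_gcd_eq_one.2 ⟨h1, h2⟩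
        rwa [Nat.coprime_iff_gcd_eq_one.1 (hrp.coprime_iff_not_dvd.2 hrq'), pow_one] at h3
      · push Not at hpow
        exact Cfsg.Agent.H97.exists_isotropic_nonpower (p := p) hq hne hr2 hn1 hmn hcond g hd hz hpow
  · -- `r` prime to `q + 1`
    have hco : Nat.Coprime r (q + 1) := hrp.coprime_iff_not_dvd.2 fun h => hi2' (hi2.2 h)
    have hone : ∀ u : F, u ^ r = 1 → u ^ (q + 1) = 1 → u = 1 := fun u h1 h2 => by
      have h3 := pow_gcd_eq_one.2 ⟨h1, h2⟩
      rwa [Nat.coprime_iff_gcd_eq_one.1 hco, pow_one] at h3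
    refine Iff.trans ?_ (hcrit.trans ?_)
    · constructor
      · intro H f hf hf1
        have hfr : ((f : GL (Fin n) F) : Matrix (Fin n) (Fin n) F) ^ r = 1 := by
          rw [← Units.val_pow_eq_pow_val, ← SubgroupClass.coe_pow, hf]; rfl
        refine H f (hone _ ?_ (Cfsg.Agent.H3.det_GU hq f)) 1 (by rw [hf, one_smul]; rfl) fun u hu => hf1 ?_
        · rw [← Matrix.det_pow, hfr, Matrix.det_one]
        · have hu1 : u = 1 := by
            refine hone u ?_ (Cfsg.Agent.H97.norm_of_scalar hq hn1 f hu)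
            have h := hfr
            rw [hu, _root_.smul_pow, one_pow] at h
            have := congrFun (congrFun h ⟨0, hn1⟩) ⟨0, hn1⟩
            simpa using this
          refine Subtype.ext (Units.ext ?_)
          rw [hu, hu1, one_smul]; rfl
      · intro H g _ z hz hns
        obtain ⟨a, -, ha⟩ := Nat.exists_mul_mod_eq_one_of_coprime hco (by omega : 1 < q + 1)
        have hz1 := Cfsg.Agent.H97.norm_of_scalar hq hn1 (g ^ r) hz
        refine hscale H g z (z ^ a) hz ?_ ?_ hns
        · rw [← pow_mul, mul_comm, pow_mul, hz1, one_pow]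
        · rw [← pow_mul, mul_comm, ← Nat.div_add_mod (r * a) (q + 1), ha, pow_add, pow_mul, hz1, one_pow, one_mul,
            pow_one]
    · constructor
      · rintro ⟨h1, h2, h3⟩
        refine Or.inr ⟨hne, hr3, h1, h2, ?_⟩
        by_cases h4 : i % 4 = 2
        · exact Or.inr ⟨h4, h3 h4, Or.inl (by omega)⟩
        · exact Or.inl h4
      · rintro (⟨h, -⟩ | ⟨-, -, h1, h2, h3⟩)
        · exact absurd h hr2
        · refine ⟨h1, h2, fun h4 => ?_⟩
          rcases h3 with h | ⟨-, h, -⟩
          · exact absurd h4 h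
          · exact h

end Cfsg.Agent.S5953
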