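import Cfsg.Statements.S5954
import Cfsg.Agent.H98.UNondeg.Count
import Cfsg.Agent.H98.UNondeg.Criterion
import Cfsg.Agent.H98.UNondeg.Scalar
import Cfsg.Agent.H98.UNondeg.Unipotent
import Cfsg.Agent.H3.Isotropic
import Cfsg.Agent.H97.Unipotent

set_option autoImplicit false
set_option linter.style.haveILetI false
open scoped MatrixGroups
open Cfsg

namespace Cfsg.Agent.S5954

/-- Elements of prime order of PSU_n(q) with no fixed nondegenerate `m`-space. Here `T = PSU_n(q)` (`n ≥ 3`, `(n, q) ≠ (3, 2)`), realised through the matrices of determinant 1 over the field `F` with `q²` elements preserving the Hermitian form `h(u, v) = Σ u_i v_i^q`; an element of `T` of prime order `r` is such a matrix `x` with `x^r` scalar and `x` not scalar. For `r ≠ p` let `i` be the multiplicative order of `q` modulo `r`, `b = i/2` for `i` even and `b = i` for `i` odd, `c = i, i/2, 2i` according as `i ≡ 0, 2 (mod 4)` or `i` odd, and write `k = n mod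 c`, `ℓ = m mod b`, `ℓ' = m mod c`, `n' = ⌊n/b⌋`, `m' = ⌊m/b⌋`, `s = (r−1)/b`; `(a)_r` is the `r`-part of `a`. Let `1 ≤ m < n/2` and let `r` be a prime dividing the number of nondegenerate `m`-spaces. Then every element of `T` of order `r` fixes a nondegenerate `m`-space if and only if one of: (i) `r = p > 2` and every partition of `n` into parts of size at most `p` contains (as a sub-multiset) a partition of `m`; (ii) `r = p = 2` and (`n` is odd or `m` is even); (iii) `r = 2 ≠ p` and (`n` is odd, or `m` is even, or `(q+1)_2 ≥ (n)_2` and `q ≡ 3 (mod 4)`); (iv) `r ≠ p`, `r > 2`, and either `i ≠ 2`, `c ≤ m` and `k ≥ ℓ'`, or `i = 2` and (`r ∣ m` or `(q+1)_r ≥ (n)_r`). -/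
theorem result {F : Type*} [Field F] [Fintype F] {p : ℕ} [Fact p.Prime] [CharP F p] {q : ℕ} (hq : Fintype.card F = q ^ 2)
    (n m : ℕ) (hn : 3 ≤ n) (hT : (n, q) ≠ (3, 2)) (hm : 1 ≤ m) (hmn : 2 * m < n)
    (r : ℕ) [Fact r.Prime]
    (hrΩ : r ∣ Nat.card {W : Submodule F (Fin n → F) // Module.finrank F ↥W = m ∧ (∀ u ∈ W, u ≠ 0 → ∃ v ∈ W, Cfsg.hermForm n F q u v ≠ 0)})
    (i b c : ℕ) (hi : i = orderOf (q : ZMod r)) (hb : b = if Even i then i / 2 else i)
    (hc : c = if i % 4 = 0 then i else if i % 4 = 2 then i / 2 else 2 * i) :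
    (∀ x : Matrix.SpecialLinearGroup (Fin n) F, x ∈ Cfsg.SU n F q →
      (∃ z : F, ((x ^ r : Matrix.SpecialLinearGroup (Fin n) F) : Matrix (Fin n) (Fin n) F) = z • (1 : Matrix (Fin n) (Fin n) F)) →
      (∀ z : F, (x : Matrix (Fin n) (Fin n) F) ≠ z • (1 : Matrix (Fin n) (Fin n) F)) →
      ∃ W : Submodule F (Fin n → F), Module.finrank F ↥W = m ∧ (∀ u ∈ W, u ≠ 0 → ∃ v ∈ W, Cfsg.hermForm n F q u v ≠ 0) ∧
        W.map (Matrix.toLin' (x : Matrix (Fin n) (Fin n) F)) ≤ W) ↔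
    ((r = p ∧ 2 < p ∧ (∀ μ : Multiset ℕ, (∀ a ∈ μ, 0 < a ∧ a ≤ p) → μ.sum = n → ∃ ν : Multiset ℕ, ν ≤ μ ∧ ν.sum = m)) ∨
     (r = p ∧ p = 2 ∧ (Odd n ∨ Even m)) ∨
     (r = 2 ∧ p ≠ 2 ∧ (Odd n ∨ Even m ∨ (padicValNat 2 n ≤ padicValNat 2 (q + 1) ∧ q % 4 = 3))) ∨
     (r ≠ p ∧ 2 < r ∧ ((i ≠ 2 ∧ c ≤ m ∧ m % c ≤ n % c) ∨ (i = 2 ∧ (r ∣ m ∨ padicValNat r n ≤ padicValNat r (q + 1)))))) := by
  classical
  obtain ⟨k, rfl⟩ : ∃ k, n = m + k := ⟨n - m, by omega⟩
  have hrp : r.Prime := Fact.out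
  have hn1 : 1 ≤ m + k := by omega
  have hmk : m < k := by omega
  have hfilt : (∀ x : Matrix.SpecialLinearGroup (Fin (m + k)) F, x ∈ Cfsg.SU (m + k) F q →
      (∃ z : F, ((x ^ r : Matrix.SpecialLinearGroup (Fin (m + k)) F) : Matrix (Fin (m + k)) (Fin (m + k)) F) =
        z • (1 : Matrix (Fin (m + k)) (Fin (m + k)) F)) →
      (∀ z : F, (x : Matrix (Fin (m + k)) (Fin (m + k)) F) ≠ z • (1 : Matrix (Fin (m + k)) (Fin (m + k)) F)) →
      ∃ W : Submodule F (Fin (m + k) → F), Module.finrank F ↥W = m ∧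
        (∀ u ∈ W, u ≠ 0 → ∃ v ∈ W, Cfsg.hermForm (m + k) F q u v ≠ 0) ∧
        W.map (Matrix.toLin' (x : Matrix (Fin (m + k)) (Fin (m + k)) F)) ≤ W) ↔
      ∀ g : Cfsg.GU (m + k) F q, ((g : GL (Fin (m + k)) F) : Matrix (Fin (m + k)) (Fin (m + k)) F).det = 1 →
        ∀ z : F, ((g ^ r : Cfsg.GU (m + k) F q) : GL (Fin (m + k)) F).1 = z • 1 →
        (∀ u : F, ((g : GL (Fin (m + k)) F) : Matrix (Fin (m + k)) (Fin (m + k)) F) ≠ u • 1) →
        ∃ W : Submodule F (Fin (m + k) → F), Module.finrank F ↥W = m ∧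
          (∀ u ∈ W, u ≠ 0 → ∃ v ∈ W, Cfsg.hermForm (m + k) F q u v ≠ 0) ∧
          W.map (Matrix.toLin' ((g : GL (Fin (m + k)) F) : Matrix (Fin (m + k)) (Fin (m + k)) F)) ≤ W := by
    constructor
    · intro H g hd z hz hns
      let x : Matrix.SpecialLinearGroup (Fin (m + k)) F :=
        ⟨((g : GL (Fin (m + k)) F) : Matrix (Fin (m + k)) (Fin (m + k)) F), hd⟩
      refine H x (fun u v => g.2 u v) ⟨z, (Matrix.SpecialLinearGroup.coe_pow x r).trans ?_⟩ hns
      rw [← hz, SubgroupClass.coe_pow, Units.val_pow_eq_pow_val]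
    · rintro H x hx ⟨z, hz⟩ hns
      refine H (Cfsg.Agent.H3.suToGU (m + k) F q ⟨x, hx⟩) x.2 z ?_ hns
      rw [SubgroupClass.coe_pow, Units.val_pow_eq_pow_val, ← hz, Matrix.SpecialLinearGroup.coe_pow]
      rfl
  rw [hfilt]
  -- scaling to an element of order `r`
  have hscale : (∀ f : Cfsg.GU (m + k) F q, f ^ r = 1 → f ≠ 1 →
      ∃ W : Submodule F (Fin (m + k) → F), Module.finrank F ↥W = m ∧
        (∀ u ∈ W, u ≠ 0 → ∃ v ∈ W, Cfsg.hermForm (m + k) F q u v ≠ 0) ∧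
        W.map (Matrix.toLin' ((f : GL (Fin (m + k)) F) : Matrix (Fin (m + k)) (Fin (m + k)) F)) ≤ W) →
      ∀ (g : Cfsg.GU (m + k) F q) (z w : F), ((g ^ r : Cfsg.GU (m + k) F q) : GL (Fin (m + k)) F).1 = z • 1 →
        w ^ (q + 1) = 1 → w ^ r = z →
        (∀ u : F, ((g : GL (Fin (m + k)) F) : Matrix (Fin (m + k)) (Fin (m + k)) F) ≠ u • 1) →
      ∃ W : Submodule F (Fin (m + k) → F), Module.finrank F ↥W = m ∧
        (∀ u ∈ W, u ≠ 0 → ∃ v ∈ W, Cfsg.hermForm (m + k) F q u v ≠ 0) ∧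
        W.map (Matrix.toLin' ((g : GL (Fin (m + k)) F) : Matrix (Fin (m + k)) (Fin (m + k)) F)) ≤ W := by
    intro H g z w hz hw hwz hns
    have hw0 : w ≠ 0 := fun h => by rw [h, zero_pow (by omega)] at hw; exact zero_ne_one hw
    obtain ⟨f, hf⟩ := Cfsg.Agent.H97.exists_gu_scale g (w := w⁻¹) (by rw [inv_pow, hw, inv_one])
    have hz' : ((g : GL (Fin (m + k)) F) : Matrix (Fin (m + k)) (Fin (m + k)) F) ^ r = z • 1 := by
      rw [← hz, SubgroupClass.coe_pow, Units.val_pow_eq_pow_val]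
    obtain ⟨W, h1, h2, h3⟩ := H f (Subtype.ext (Units.ext (by
        rw [SubgroupClass.coe_pow, Units.val_pow_eq_pow_val, hf, _root_.smul_pow, hz', smul_smul, ← hwz, ← mul_pow,
          inv_mul_cancel₀ hw0, one_pow, one_smul]
        rfl))) (fun h => hns w (by
        rw [h] at hf
        have h4 := congrArg (fun A : Matrix (Fin (m + k)) (Fin (m + k)) F => w • A) hf
        simp only [smul_smul, mul_inv_cancel₀ hw0, one_smul] at h4
        rw [← h4]; rfl))
    exact ⟨W, h1, h2, Cfsg.Agent.H97.map_le_of_smul (inv_ne_zero hw0) (hf ▸ h3)⟩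
  -- elements of order `r` with determinant one
  have horder : (∀ u : F, u ^ r = 1 → u ^ (q + 1) = 1 → u = 1) →
      (∀ z : F, z ^ (q + 1) = 1 → ∃ w : F, w ^ (q + 1) = 1 ∧ w ^ r = z) →
      ((∀ g : Cfsg.GU (m + k) F q, ((g : GL (Fin (m + k)) F) : Matrix (Fin (m + k)) (Fin (m + k)) F).det = 1 →
        ∀ z : F, ((g ^ r : Cfsg.GU (m + k) F q) : GL (Fin (m + k)) F).1 = z • 1 →
        (∀ u : F, ((g : GL (Fin (m + k)) F) : Matrix (Fin (m + k)) (Fin (m + k)) F) ≠ u • 1) →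
        ∃ W : Submodule F (Fin (m + k) → F), Module.finrank F ↥W = m ∧
          (∀ u ∈ W, u ≠ 0 → ∃ v ∈ W, Cfsg.hermForm (m + k) F q u v ≠ 0) ∧
          W.map (Matrix.toLin' ((g : GL (Fin (m + k)) F) : Matrix (Fin (m + k)) (Fin (m + k)) F)) ≤ W) ↔
      ∀ f : Cfsg.GU (m + k) F q, f ^ r = 1 → f ≠ 1 →
        ∃ W : Submodule F (Fin (m + k) → F), Module.finrank F ↥W = m ∧
          (∀ u ∈ W, u ≠ 0 → ∃ v ∈ W, Cfsg.hermForm (m + k) F q u v ≠ 0) ∧
          W.map (Matrix.toLin' ((f : GL (Fin (m + k)) F) : Matrix (Fin (m + k)) (Fin (m + k)) F)) ≤ W) := by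
    intro hone hroot
    constructor
    · intro H f hf hf1
      have hfr : ((f : GL (Fin (m + k)) F) : Matrix (Fin (m + k)) (Fin (m + k)) F) ^ r = 1 := by
        rw [← Units.val_pow_eq_pow_val, ← SubgroupClass.coe_pow, hf]; rfl
      refine H f (hone _ ?_ (Cfsg.Agent.H3.det_GU hq f)) 1 (by rw [hf, one_smul]; rfl) fun u hu => hf1 ?_
      · rw [← Matrix.det_pow, hfr, Matrix.det_one]
      · have hu1 : u = 1 := by
          refine hone u ?_ (Cfsg.Agent.H97.norm_of_scalar hq hn1 f hu)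
          have h := hfr
          rw [hu, _root_.smul_pow, one_pow] at h
          have := congrFun (congrFun h ⟨0, hn1⟩) ⟨0, hn1⟩
          simpa using this
        refine Subtype.ext (Units.ext ?_)
        rw [hu, hu1, one_smul]; rfl
    · intro H g _ z hz hns
      obtain ⟨w, hw, hwz⟩ := hroot z (Cfsg.Agent.H97.norm_of_scalar hq hn1 (g ^ r) hz)
      exact hscale H g z w hz hw hwz hns
  by_cases hrpc : r = p
  · -- unipotent elements
    subst hrpc
    haveI : ExpChar F r := ExpChar.prime hrp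
    have hone : ∀ u : F, u ^ r = 1 → u ^ (q + 1) = 1 → u = 1 := fun u h _ => by
      have h' : u ^ r = 1 ^ r := by rw [h, one_pow]
      exact (PerfectRing.bijective_frobenius (R := F) (p := r)).1 h'
    rw [horder hone fun z hz => by
      obtain ⟨w, hw⟩ := (PerfectRing.bijective_frobenius (R := F) (p := r)).2 z
      have hw' : w ^ r = z := hw
      refine ⟨w, ?_, hw'⟩
      have h' : (w ^ (q + 1)) ^ r = 1 ^ r := by rw [← pow_mul, mul_comm, pow_mul, hw', hz, one_pow]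
      exact (PerfectRing.bijective_frobenius (R := F) (p := r)).1 h']
    refine (Cfsg.Agent.H98.UND.gu_nondeg_char_iff (p := r) hq hm (by omega)).trans ?_
    rcases hrp.eq_two_or_odd with h2 | hodd
    · subst h2
      refine (Cfsg.Agent.H97.partition_two_iff hmn).trans ⟨fun h => Or.inr (Or.inl ⟨rfl, rfl, h⟩), ?_⟩
      rintro (⟨-, h, -⟩ | ⟨-, -, h⟩ | ⟨-, h, -⟩ | ⟨h, -⟩)
      · omega
      · exact h
      · exact absurd rfl h
      · exact absurd rfl h
    · refine ⟨fun h => Or.inl ⟨rfl, by have := hrp.two_le; omega, h⟩, ?_⟩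
      rintro (⟨-, -, h⟩ | ⟨-, h, -⟩ | ⟨h1, h2, -⟩ | ⟨h, -⟩)
      · exact h
      · omega
      · exact absurd h1 h2
      · exact absurd rfl h
  have hne : r ≠ p := hrpc
  have hr : (r : F) ≠ 0 := Cfsg.Agent.H67.cast_ne_zero_of_prime_ne (K := F) hrp hne
  have hq2 := Cfsg.Agent.H3.two_le_q hq
  by_cases hr2 : r = 2
  · -- involutions
    subst hr2
    have hp2 : p ≠ 2 := Ne.symm hne
    constructor
    · intro H
      refine Or.inr (Or.inr (Or.inl ⟨rfl, hp2, ?_⟩))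
      by_contra hcon
      push Not at hcon
      obtain ⟨ho, hme, hv⟩ := hcon
      obtain ⟨x, z, hd, hz, hns, hW⟩ := Cfsg.Agent.H98.UND.exists_sq_no_nondeg hq hp2
        (Nat.not_even_iff_odd.1 hme) (Nat.not_odd_iff_even.1 ho) (fun h => hv h.1 h.2)
      obtain ⟨W, h1, h2, h3⟩ := H x hd z hz hns
      exact hW W h1 h2 h3
    · intro H g hd z hz _
      rcases H with ⟨h, -⟩ | ⟨h, -⟩ | ⟨-, -, hcond⟩ | ⟨-, h, -⟩
      · exact absurd h hne
      · exact absurd h hne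
      · exact Cfsg.Agent.H98.UND.exists_nondeg_sq (p := p) hq hp2 hm hcond g hd hz hmk
      · omega
  -- odd `r`
  have hr3 : 2 < r := by have := hrp.two_le; omega
  have hq0 : (q : ZMod r) ≠ 0 := fun h => by
    have h' := Cfsg.Agent.H67.card_zmod_ne_zero (K := F) hr hrp
    rw [hq, Nat.cast_pow, h] at h'
    exact h' (zero_pow two_ne_zero)
  obtain ⟨hipos, hbQ, hbpos, hc2, hc4, hself, hcdvd⟩ := Cfsg.Agent.H97.herm_orders hq0 hr2 hi hb hc
  obtain ⟨j, hj1, hj2, hj3⟩ := Cfsg.Agent.H98.UND.exists_neg_pow_of_dvd_nondeg hq hq0 hrΩ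
  have hccase : (if i % 4 = 2 then b else 2 * b) = c := by
    by_cases h : i % 4 = 2
    · rw [if_pos h, hc2 h]
    · rw [if_neg h, hc4 h]
  have hc0 : 0 < c := by
    rw [← hccase]; split_ifs <;> omega
  have hpieces := (Cfsg.Agent.H98.UND.gu_nondeg_criterion (p := p) (r := r) (m := m) (k := k) hq hne hself hbQ).trans
    Cfsg.Agent.H98.UND.pieces_iff
  rw [hccase] at hpieces
  have hcrit := hpieces.trans (Cfsg.Agent.H98.UND.nondeg_arith hc0 hmk ⟨j, hj1, hj2, hcdvd j hj3⟩)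
  have hi2 : i = 2 ↔ r ∣ q + 1 := by
    rw [← ZMod.natCast_eq_zero_iff, Nat.cast_add, Nat.cast_one, add_eq_zero_iff_eq_neg]
    have : Fact (2 < r) := ⟨hr3⟩
    constructor
    · intro h
      have h1 : (q : ZMod r) ^ 2 = 1 := by rw [← h, hi, pow_orderOf_eq_one]
      refine (sq_eq_one_iff.1 h1).resolve_left fun h2 => ?_
      rw [h2, orderOf_one] at hi
      omega
    · intro h
      rw [hi, h]
      exact orderOf_eq_prime neg_one_sq ZMod.neg_one_ne_one
  by_cases hi2' : i = 2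
  · -- `r` divides `q + 1`
    have hrq := hi2.1 hi2'
    have hrq' : ¬ r ∣ q - 1 := fun h => by
      have h2 := Nat.dvd_sub hrq h
      rw [show q + 1 - (q - 1) = 2 by omega] at h2
      exact hr2 ((Nat.prime_dvd_prime_iff_eq hrp Nat.prime_two).1 h2)
    constructor
    · intro H
      refine Or.inr (Or.inr (Or.inr ⟨hne, hr3, Or.inr ⟨hi2', ?_⟩⟩))
      by_contra hcon
      push Not at hcon
      obtain ⟨x, z, hd, hz, hnp, hW⟩ := Cfsg.Agent.H97.exists_nonpower_no_isotropic hq p hr2 hrq hn1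
        hcon.1 hcon.2
      obtain ⟨W, h1, -, h3⟩ := H x hd z hz (fun u hu => hnp u (by
        have h := hz
        rw [SubgroupClass.coe_pow, Units.val_pow_eq_pow_val, hu, _root_.smul_pow, one_pow] at h
        have := congrFun (congrFun h ⟨0, hn1⟩) ⟨0, hn1⟩
        simpa using this))
      exact hW W h1 h3
    · intro H g hd z hz hns
      have hcond : r ∣ m ∨ padicValNat r (m + k) ≤ padicValNat r (q + 1) := by
        rcases H with ⟨h, -⟩ | ⟨h, -⟩ | ⟨h, -⟩ | ⟨-, -, ⟨h, -⟩ | ⟨-, h⟩⟩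
        · exact absurd h hne
        · exact absurd h hne
        · exact absurd h hr2
        · exact absurd hi2' h
        · exact h
      by_cases hpow : ∃ u : F, u ^ r = z
      · obtain ⟨u, hu⟩ := hpow
        have hc1 : c = 1 := by
          rw [← hccase, if_pos (by omega), hb, hi2']; rfl
        refine hscale (hcrit.2 ⟨by omega, by rw [hc1]; omega⟩) g z u hz ?_ hu hns
        have hz1 := Cfsg.Agent.H97.norm_of_scalar hq hn1 (g ^ r) hz
        have hu0 : u ≠ 0 := fun h => by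
          rw [h, zero_pow hrp.ne_zero] at hu; rw [← hu, zero_pow (by omega)] at hz1; exact zero_ne_one hz1
        have h1 : (u ^ (q + 1)) ^ r = 1 := by rw [← pow_mul, mul_comm, pow_mul, hu, hz1]
        have h2 : (u ^ (q + 1)) ^ (q - 1) = 1 := by
          rw [← pow_mul, ← Cfsg.Agent.H97.card_sub_one_factor hq, FiniteField.pow_card_sub_one_eq_one u hu0]
        have h3 := pow_gcd_eq_one.2 ⟨h1, h2⟩
        rwa [Nat.coprime_iff_gcd_eq_one.1 (hrp.coprime_iff_not_dvd.2 hrq'), pow_one] at h3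
      · push Not at hpow
        exact Cfsg.Agent.H98.UND.exists_nondeg_nonpower (p := p) hq hne hr2 hm hcond g hd hz hpow
  · -- `r` prime to `q + 1`
    have hco : Nat.Coprime r (q + 1) := hrp.coprime_iff_not_dvd.2 fun h => hi2' (hi2.2 h)
    rw [horder (fun u h1 h2 => by
        have h3 := pow_gcd_eq_one.2 ⟨h1, h2⟩
        rwa [Nat.coprime_iff_gcd_eq_one.1 hco, pow_one] at h3)
      (fun z hz => by
        obtain ⟨a, -, ha⟩ := Nat.exists_mul_mod_eq_one_of_coprime hco (by omega : 1 < q + 1)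
        refine ⟨z ^ a, by rw [← pow_mul, mul_comm, pow_mul, hz, one_pow], ?_⟩
        rw [← pow_mul, mul_comm, ← Nat.div_add_mod (r * a) (q + 1), ha, pow_add, pow_mul, hz, one_pow, one_mul,
          pow_one])]
    refine hcrit.trans ⟨fun h => Or.inr (Or.inr (Or.inr ⟨hne, hr3, Or.inl ⟨hi2', h⟩⟩)), ?_⟩
    rintro (⟨h, -⟩ | ⟨h, -⟩ | ⟨h, -⟩ | ⟨-, -, ⟨-, h⟩ | ⟨h, -⟩⟩)
    · exact absurd h hne
    · exact absurd h hne
    · exact absurd h hr2
    · exact h
    · exact absurd h hi2'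

end Cfsg.Agent.S5954
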