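import Cfsg.Statements.S5955
import Cfsg.Agent.H97.SympIsotropicCriteria
import Cfsg.Agent.H97.SympNondegCriteria

set_option autoImplicit false
open scoped MatrixGroups
open Cfsg

namespace Cfsg.Agent.S5955

/-- Elements of prime order of PSp_n(q) with no fixed totally isotropic `m`-space. Here `T = PSp_n(q)` with `n = 2d ≥ 4`, `(n, q) ≠ (4, 2)`, realised through the symplectic matrices over the field `F` with `q` elements (preserving the standard alternating form); an element of `T` of prime order `r` is such a matrix `x` with `x^r` scalar and `x` not scalar. For `r ≠ p` let `i` be the multiplicative order of `q` modulo `r`, `c = i` for `i` even and `c = 2i` for `i` odd, and write `k = n mod c`, `ℓ = m mod i`, `ℓ' = m mod c`, `n' = ⌊n/i⌋`, `m' = ⌊m/i⌋`, `t = (r−1)/i`. Let `1 ≤ m ≤ n/2` and let `r` be a prime dividing the number of totally isotropic `m`-spaces. Then every element of `T` of order `r` fixes a totally isotropic `m`-space if and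 only if either (i) `r = 2 ≠ p` and (`m` is even or `q ≡ 1 (mod 4)`); or (ii) `r ≠ p`, `r > 2`, `i ≤ m`, `k ≥ 2ℓ`, and (`i` is odd or `n' − 2m' ≥ t`). -/
theorem result {F : Type*} [Field F] [Fintype F] {p : ℕ} [Fact p.Prime] [CharP F p] {q : ℕ} (hq : Fintype.card F = q)
    (d m : ℕ) (hd : 2 ≤ d) (hT : (d, q) ≠ (2, 2)) (hm : 1 ≤ m) (hmd : m ≤ d)
    (r : ℕ) [Fact r.Prime]
    (hrΩ : r ∣ Nat.card {W : Submodule F (Fin d ⊕ Fin d → F) // Module.finrank F ↥W = m ∧ (∀ u ∈ W, ∀ v ∈ W, Cfsg.sympForm d F u v = 0)})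
    (i c : ℕ) (hi : i = orderOf (q : ZMod r)) (hc : c = if Even i then i else 2 * i) :
    (∀ x : ↥(Matrix.symplecticGroup (Fin d) F),
      (∃ z : F, ((x ^ r : ↥(Matrix.symplecticGroup (Fin d) F)) : Matrix (Fin d ⊕ Fin d) (Fin d ⊕ Fin d) F) = z • (1 : Matrix (Fin d ⊕ Fin d) (Fin d ⊕ Fin d) F)) →
      (∀ z : F, (x : Matrix (Fin d ⊕ Fin d) (Fin d ⊕ Fin d) F) ≠ z • (1 : Matrix (Fin d ⊕ Fin d) (Fin d ⊕ Fin d) F)) →
      ∃ W : Submodule F (Fin d ⊕ Fin d → F), Module.finrank F ↥W = m ∧ (∀ u ∈ W, ∀ v ∈ W, Cfsg.sympForm d F u v = 0) ∧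
        W.map (Matrix.toLin' (x : Matrix (Fin d ⊕ Fin d) (Fin d ⊕ Fin d) F)) ≤ W) ↔
    ((r = 2 ∧ p ≠ 2 ∧ (Even m ∨ q % 4 = 1)) ∨
     (r ≠ p ∧ 2 < r ∧ i ≤ m ∧ 2 * (m % i) ≤ (2 * d) % c ∧ (Odd i ∨ (r - 1) / i + 2 * (m / i) ≤ (2 * d) / i))) := by
  subst hq
  have hc' := hc
  rw [← Nat.card_eq_fintype_card] at hi
  have hrp : r.Prime := Fact.out
  show Cfsg.Agent.H97.SpElusiveFor r d (fun f => ∃ W : Submodule F (Fin d ⊕ Fin d → F), Module.finrank F W = m ∧
    (∀ u ∈ W, ∀ v ∈ W, Cfsg.sympForm d F u v = 0) ∧ W.map f ≤ W) ↔ _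
  have hne : r ≠ p := fun h => Cfsg.Agent.H97.not_dvd_char_isotropic (F := F) (p := p) hmd (h ▸ hrΩ)
  by_cases h2 : r = 2
  · subst h2
    have hp2 : p ≠ 2 := Ne.symm hne
    have hF2 : ringChar F ≠ 2 := by rw [ringChar.eq F p]; exact hp2
    have h2F : (2 : F) ≠ 0 := Ring.two_ne_zero hF2
    have hodd := FiniteField.odd_card_of_char_ne_two hF2
    have hsq : IsSquare (-1 : F) ↔ Fintype.card F % 4 = 1 := by
      rw [FiniteField.isSquare_neg_one_iff]
      omega
    constructor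
    · intro H
      refine Or.inl ⟨rfl, hp2, ?_⟩
      by_contra hc2
      push Not at hc2
      obtain ⟨hm2, hq4⟩ := hc2
      let J : ↥(Matrix.symplecticGroup (Fin d) F) := ⟨Matrix.J (Fin d) F, SymplecticGroup.J_mem _ _⟩
      have hJ2 : ((J ^ 2 : ↥(Matrix.symplecticGroup (Fin d) F)) : Matrix (Fin d ⊕ Fin d) (Fin d ⊕ Fin d) F) =
          (-1 : F) • (1 : Matrix (Fin d ⊕ Fin d) (Fin d ⊕ Fin d) F) := by
        rw [pow_two, Submonoid.coe_mul, Matrix.J_squared, neg_one_smul]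
      obtain ⟨W, hWd, -, hWf⟩ := H J ⟨-1, hJ2⟩ fun z hz => by
        have h := congrFun (congrFun hz (Sum.inr ⟨0, by omega⟩)) (Sum.inl ⟨0, by omega⟩)
        simp [J, Matrix.J] at h
      refine Cfsg.Agent.H97.not_odd_invariant (fun h => hq4 (hsq.1 h)) (fun v => ?_) hWf ?_
      · rw [← LinearMap.comp_apply, ← Matrix.toLin'_mul, Matrix.toLin'_apply, Matrix.J_squared, Matrix.neg_mulVec,
          Matrix.one_mulVec]
      · rw [hWd]; exact Nat.not_even_iff_odd.1 hm2
    · rintro (⟨-, -, hcond⟩ | ⟨-, h, -⟩)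
      · intro x hx _
        obtain ⟨z, hz⟩ := hx
        obtain ⟨hB, hxx, hz0, hzz, -⟩ := Cfsg.Agent.H97.symplectic_square_setup (by omega) x hz
        obtain ⟨W, hWd, hWi, hWf⟩ := Cfsg.Agent.H97.exists_sp_isotropic_sq (by omega) h2F hB
          (mul_self_eq_one_iff.1 hzz) hxx hmd fun _ => hcond.imp_right hsq.2
        exact ⟨W, hWd, fun u hu v hv => by simpa using hWi u hu v hv, hWf⟩
      · omega
  · have hr : (r : F) ≠ 0 := Cfsg.Agent.H97.cast_ne_zero_of_ne (p := p) hrp hne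
    have hodd := hrp.odd_of_ne_two h2
    have hipos := Cfsg.Agent.H97.orderOf_pos_zmod (F := F) (r := r) hr
    have hbig : m < i → c ≤ 2 * d ∧ 2 * d % c < 2 * m := by
      intro _
      obtain ⟨j, hj, hjd⟩ := Cfsg.Agent.H97.dvd_of_dvd_card_isotropic hrp hmd hrΩ
      have h1 : i ∣ 2 * (d - j) := by
        rw [hi, orderOf_dvd_iff_pow_eq_one]
        have h := (CharP.cast_eq_zero_iff (ZMod r) r _).2 hjd
        rw [Nat.cast_sub (Nat.one_le_pow _ _ Nat.card_pos), Nat.cast_pow, Nat.cast_one, sub_eq_zero] at h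
        exact h
      have h2c : c ∣ 2 * (d - j) := by
        rw [hc']
        split_ifs with he
        · exact h1
        · exact Nat.mul_dvd_mul_left 2
            ((Nat.Coprime.dvd_mul_left (Nat.not_even_iff_odd.1 he).coprime_two_right).1 h1)
      have hle := Nat.le_of_dvd (by omega) h2c
      refine ⟨by omega, ?_⟩
      obtain ⟨e, he⟩ := h2c
      rw [show 2 * d = 2 * j + c * e by omega, Nat.add_mul_mod_self_left]
      exact (Nat.mod_le _ _).trans_lt (by omega)
    have harith := Cfsg.Agent.H97.iso_criterion_iff (N := 2 * d) (t := (r - 1) / i) (hi ▸ hipos) hc' (by omega) hbig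
    have hcrit := Cfsg.Agent.H97.sp_isotropic_criterion (F := F) (p := p) (r := r) hr h2 (d := d) hmd
    rw [← hi, harith] at hcrit
    have h2r : 2 < r := by have := hrp.two_le; omega
    simp only [h2, false_and, false_or, hne, ne_eq, not_false_eq_true, true_and, h2r, ← hcrit]
    constructor
    · intro H f hfB hfr hf1
      obtain ⟨x, hxf, hxz⟩ := Cfsg.Agent.H97.exists_sp_of_isometry f hfB hfr
      have := H x hxz fun z hz => by
        refine Cfsg.Agent.H97.nonscalar_of_isometry (by omega) hodd hfB hfr hf1 z ?_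
        rw [← hxf, hz, map_smul, Matrix.toLin'_one]
        rfl
      rwa [hxf] at this
    · intro H x hxz hxn
      obtain ⟨w, f, hw, hfr, hfB, hxf⟩ := Cfsg.Agent.H97.sp_setup (by omega) (Or.inl hodd) x hxz
      have hf1 : f ≠ 1 := fun h => hxn w (Matrix.toLin'.injective (by
        rw [hxf, h, map_smul, Matrix.toLin'_one]; rfl))
      obtain ⟨W, hWd, hWi, hWf⟩ := H f hfB hfr hf1
      refine ⟨W, hWd, hWi, ?_⟩
      rw [hxf]
      exact (Cfsg.Agent.H97.map_le_smul_iff f hw W).2 hWf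

end Cfsg.Agent.S5955
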