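import Cfsg.Statements.S5956
import Cfsg.Agent.H97.SympNondegCriteria

set_option autoImplicit false
open scoped MatrixGroups
open Cfsg

namespace Cfsg.Agent.S5956

/-- Elements of prime order of PSp_n(q) with no fixed nondegenerate `m`-space. Here `T = PSp_n(q)` with `n = 2d ≥ 4`, `(n, q) ≠ (4, 2)`, realised through the symplectic matrices over the field `F` with `q` elements (preserving the standard alternating form); an element of `T` of prime order `r` is such a matrix `x` with `x^r` scalar and `x` not scalar. For `r ≠ p` let `i` be the multiplicative order of `q` modulo `r`, `c = i` for `i` even and `c = 2i` for `i` odd, and write `k = n mod c`, `ℓ = m mod i`, `ℓ' = m mod c`, `n' = ⌊n/i⌋`, `m' = ⌊m/i⌋`, `t = (r−1)/i`. Let `m` be even with `2 ≤ m < n/2` and let `r` be a prime dividing the number of nondegenerate `m`-spaces. Then every element of `T` of order `r` fixes a nondegenerate `m`-space if and only if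 one of: (i) `r = p > 2` and every partition of `n` into parts of size at most `p` in which every odd part has even multiplicity contains (as a sub-multiset) a partition of `m` in which every odd part has even multiplicity; (ii) `r = p = 2` and (`n ≡ 2 (mod 4)` or `m ≡ 0 (mod 4)`); (iii) `r = 2 ≠ p`; (iv) `r ≠ p`, `r > 2`, `c ≤ m` and `k ≥ ℓ'`. -/
theorem result {F : Type*} [Field F] [Fintype F] {p : ℕ} [Fact p.Prime] [CharP F p] {q : ℕ} (hq : Fintype.card F = q)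
    (d m : ℕ) (hd : 2 ≤ d) (hT : (d, q) ≠ (2, 2)) (hm : 2 ≤ m) (hme : Even m) (hmd : m < d)
    (r : ℕ) [Fact r.Prime]
    (hrΩ : r ∣ Nat.card {W : Submodule F (Fin d ⊕ Fin d → F) // Module.finrank F ↥W = m ∧ (∀ u ∈ W, u ≠ 0 → ∃ v ∈ W, Cfsg.sympForm d F u v ≠ 0)})
    (i c : ℕ) (hi : i = orderOf (q : ZMod r)) (hc : c = if Even i then i else 2 * i) :
    (∀ x : ↥(Matrix.symplecticGroup (Fin d) F),
      (∃ z : F, ((x ^ r : ↥(Matrix.symplecticGroup (Fin d) F)) : Matrix (Fin d ⊕ Fin d) (Fin d ⊕ Fin d) F) = z • (1 : Matrix (Fin d ⊕ Fin d) (Fin d ⊕ Fin d) F)) →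
      (∀ z : F, (x : Matrix (Fin d ⊕ Fin d) (Fin d ⊕ Fin d) F) ≠ z • (1 : Matrix (Fin d ⊕ Fin d) (Fin d ⊕ Fin d) F)) →
      ∃ W : Submodule F (Fin d ⊕ Fin d → F), Module.finrank F ↥W = m ∧ (∀ u ∈ W, u ≠ 0 → ∃ v ∈ W, Cfsg.sympForm d F u v ≠ 0) ∧
        W.map (Matrix.toLin' (x : Matrix (Fin d ⊕ Fin d) (Fin d ⊕ Fin d) F)) ≤ W) ↔
    ((r = p ∧ 2 < p ∧ (∀ μ : Multiset ℕ, (∀ a ∈ μ, 0 < a ∧ a ≤ p) → (∀ a : ℕ, Odd a → Even (μ.count a)) → μ.sum = 2 * d →
        ∃ ν : Multiset ℕ, ν ≤ μ ∧ ν.sum = m ∧ ∀ a : ℕ, Odd a → Even (ν.count a))) ∨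
     (r = p ∧ p = 2 ∧ ((2 * d) % 4 = 2 ∨ m % 4 = 0)) ∨
     (r = 2 ∧ p ≠ 2) ∨
     (r ≠ p ∧ 2 < r ∧ c ≤ m ∧ m % c ≤ (2 * d) % c)) := by
  subst hq
  rw [← Nat.card_eq_fintype_card] at hi
  have hc' : c = Nat.lcm 2 i := by rw [hc, Cfsg.Agent.H97.lcm_two_eq]
  show Cfsg.Agent.H97.SpElusiveFor r d (fun f => ∃ W : Submodule F (Fin d ⊕ Fin d → F),
    Module.finrank F W = m ∧ (∀ u ∈ W, u ≠ 0 → ∃ v ∈ W, Cfsg.sympForm d F u v ≠ 0) ∧ W.map f ≤ W) ↔ _
  simp only [← Cfsg.Agent.H97.nondegOn_iff] at hrΩ ⊢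
  by_cases hrp : r = p
  · subst hrp
    by_cases h2 : r = 2
    · subst h2
      rw [Cfsg.Agent.H97.sp_elusive_nondeg_two_iff (p := 2) rfl hd hme (by omega)]
      simp
    · rw [Cfsg.Agent.H97.sp_elusive_nondeg_char_iff (p := r) h2 (by omega) hme (by omega)]
      have := (Fact.out : r.Prime).two_le
      simp [h2, show 2 < r by omega]
  · have hr : (r : F) ≠ 0 := Cfsg.Agent.H97.cast_ne_zero_of_ne (p := p) Fact.out hrp
    by_cases h2 : r = 2
    · subst h2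
      refine iff_of_true (fun x hx _ => ?_) (Or.inr (Or.inr (Or.inl ⟨rfl, Ne.symm hrp⟩)))
      obtain ⟨z, hz⟩ := hx
      obtain ⟨hB, hxx, hz0, -, hnd⟩ := Cfsg.Agent.H97.symplectic_square_setup (by omega) x hz
      obtain ⟨e, he⟩ := hme
      obtain ⟨W, hWd, hW, hWx⟩ := Cfsg.Agent.H97.exists_nondeg_inv_square (by exact_mod_cast hr)
        (Cfsg.Agent.H2.sympBilin_isAlt d F) hnd hB hz0 hxx (e := e) (by rw [Cfsg.Agent.H97.finrank_symp]; omega)
      exact ⟨W, by omega, hW, hWx⟩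
    · rw [Cfsg.Agent.H97.sp_elusive_nondeg_iff hr h2 (by omega) hm hme hmd hrΩ, ← hi, ← hc']
      have := (Fact.out : r.Prime).two_le
      simp [h2, hrp, show 2 < r by omega]

end Cfsg.Agent.S5956
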