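import Cfsg.Statements.S5957
import Cfsg.Agent.H97.SquareScalar

set_option autoImplicit false
open scoped MatrixGroups
open Cfsg

namespace Cfsg.Agent.S5957

/-- Involutions of PSL_n(q) and imprimitive subgroups. Here `T = PSL_n(F)` for a field `F` with `q = p^f` elements (`n ≥ 2`, `(n, q) ≠ (2, 2), (2, 3)`), `n = a·t` with `t ≥ 2`, and Ω is the set of direct-sum decompositions of `F^n` into `t` subspaces of dimension `a` (unordered; their number is the number of ordered ones divided by `t!`), whose stabilizers are the imprimitive subgroups of type GL_a(q) ≀ S_t (maximal except in some small cases; maximality is not assumed); an element of `T` of prime order `r` (a matrix `x` of determinant 1 with `x^r` scalar, `x` not scalar) fixes a point of Ω when it permutes the summands of some such decomposition. If the number of such decompositions is even, then every involution of `T` stabilizes one of them (the action is 2-elusive). -/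
theorem result {F : Type*} [Field F] [Fintype F] {p : ℕ} [Fact p.Prime] [CharP F p] {q : ℕ} (hq : Fintype.card F = q)
    (n a t : ℕ) (hn : 2 ≤ n) (hT : (n, q) ≠ (2, 2) ∧ (n, q) ≠ (2, 3)) (hat : n = a * t) (ha : 1 ≤ a) (ht : 2 ≤ t)
    (hΩ : 2 ∣ Nat.card {D : Fin t → Submodule F (Fin n → F) // Cfsg.Geo.IsMDecomposition a D} / Nat.factorial t)
    (x : Matrix.SpecialLinearGroup (Fin n) F)
    (hx1 : ∃ z : F, ((x ^ 2 : Matrix.SpecialLinearGroup (Fin n) F) : Matrix (Fin n) (Fin n) F) = z • (1 : Matrix (Fin n) (Fin n) F))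
    (hx2 : ∀ z : F, (x : Matrix (Fin n) (Fin n) F) ≠ z • (1 : Matrix (Fin n) (Fin n) F)) :
    ∃ D : Fin t → Submodule F (Fin n → F), Cfsg.Geo.IsMDecomposition a D ∧
        ∃ σ : Equiv.Perm (Fin t), ∀ j, (D j).map (Matrix.toLin' (x : Matrix (Fin n) (Fin n) F)) = D (σ j) := by
  obtain ⟨z, hz⟩ := hx1
  set f := Matrix.toLin' (x : Matrix (Fin n) (Fin n) F) with hf
  have hsq : ∀ v, f (f v) = z • v := fun v => by
    rw [hf, ← LinearMap.comp_apply, ← Matrix.toLin'_mul]
    rw [pow_two, Matrix.SpecialLinearGroup.coe_mul] at hz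
    rw [hz, Matrix.toLin'_apply, Matrix.smul_mulVec, Matrix.one_mulVec]
  have hz0 : z ≠ 0 := by
    intro h0
    have h1 : ((x ^ 2 : Matrix.SpecialLinearGroup (Fin n) F) : Matrix (Fin n) (Fin n) F).det = 1 :=
      (x ^ 2).det_coe
    haveI : Nonempty (Fin n) := ⟨⟨0, by omega⟩⟩; rw [hz, h0, zero_smul, Matrix.det_zero] at h1
    exact zero_ne_one h1
  obtain ⟨ι, _, b, π, hb, hsp, hπ, hx⟩ :=
    Cfsg.Agent.H97.hasPermutedBasis_of_sq f z hz0 hsq ⊤ fun _ _ => Submodule.mem_top
  classical
  have hcard : Fintype.card ι = a * t := by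
    have h := finrank_span_eq_card (R := F) hb
    rw [hsp, finrank_top, Module.finrank_fin_fun] at h
    omega
  obtain ⟨g, σ, hg, hσ⟩ := Cfsg.Agent.H97.exists_perm_partition π hπ ha hcard
  obtain ⟨h1, h2, h3, h4⟩ := Cfsg.Agent.H97.decomposition_of_fibres b hb hsp g hg f π hx σ hσ
  exact ⟨_, ⟨ht, ha, h1, h2, h3⟩, σ, h4⟩

end Cfsg.Agent.S5957
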