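import Cfsg.Statements.S5959
import Cfsg.Agent.H97.UnipotentDecomp

set_option autoImplicit false
open scoped MatrixGroups
open Cfsg

namespace Cfsg.Agent.S5959

/-- Elements of order `p` of PSL_n(q) and imprimitive subgroups: a necessary condition. Here `T = PSL_n(F)` for a field `F` with `q = p^f` elements (`n ≥ 2`, `(n, q) ≠ (2, 2), (2, 3)`), `n = a·t` with `t ≥ 2`, and Ω is the set of direct-sum decompositions of `F^n` into `t` subspaces of dimension `a` (unordered; their number is the number of ordered ones divided by `t!`), whose stabilizers are the imprimitive subgroups of type GL_a(q) ≀ S_t (maximal except in some small cases; maximality is not assumed); an element of `T` of prime order `r` (a matrix `x` of determinant 1 with `x^r` scalar, `x` not scalar) fixes a point of Ω when it permutes the summands of some such decomposition. Suppose `p > 2` divides the number of such decompositions. If every element of `T` of order `p` stabilizes such a decomposition, then every partition of `n` into parts of size at most `p` in which the part `p`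 occurs fewer than `a` times contains (as a sub-multiset) a partition of `a`. -/
theorem result {F : Type*} [Field F] [Fintype F] {p : ℕ} [Fact p.Prime] [CharP F p] {q : ℕ} (hq : Fintype.card F = q)
    (n a t : ℕ) (hn : 2 ≤ n) (hT : (n, q) ≠ (2, 2) ∧ (n, q) ≠ (2, 3)) (hat : n = a * t) (ha : 1 ≤ a) (ht : 2 ≤ t)
    (hp : 2 < p) (hΩ : p ∣ Nat.card {D : Fin t → Submodule F (Fin n → F) // Cfsg.Geo.IsMDecomposition a D} / Nat.factorial t)
    (h : ∀ x : Matrix.SpecialLinearGroup (Fin n) F,
      (∃ z : F, ((x ^ p : Matrix.SpecialLinearGroup (Fin n) F) : Matrix (Fin n) (Fin n) F) = z • (1 : Matrix (Fin n) (Fin n) F)) →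
      (∀ z : F, (x : Matrix (Fin n) (Fin n) F) ≠ z • (1 : Matrix (Fin n) (Fin n) F)) →
      ∃ D : Fin t → Submodule F (Fin n → F), Cfsg.Geo.IsMDecomposition a D ∧
        ∃ σ : Equiv.Perm (Fin t), ∀ j, (D j).map (Matrix.toLin' (x : Matrix (Fin n) (Fin n) F)) = D (σ j)) :
    (∀ μ : Multiset ℕ, (∀ b ∈ μ, 0 < b ∧ b ≤ p) → μ.sum = n → μ.count p < a → ∃ ν : Multiset ℕ, ν ≤ μ ∧ ν.sum = a) := by
  intro μ hμ hsum hcount
  by_cases hne : ∃ b ∈ μ, 1 < b
  · refine Cfsg.Agent.H97.decomp_char_necessary (F := F) (t := t) ha (by omega) (fun x hx hxc => ?_) μ hμ hsum hne hcount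
    obtain ⟨D, hD, hσ⟩ := h x hx hxc
    exact ⟨D, hD.finrank_eq, hD.indep, hD.iSup_eq_top, hσ⟩
  · push Not at hne
    have hall : μ = Multiset.replicate μ.card 1 :=
      Multiset.eq_replicate_card.2 fun b hb => le_antisymm (hne b hb) (hμ b hb).1
    have hcard : μ.card = n := by rw [← hsum, congrArg Multiset.sum hall]; simp
    refine ⟨Multiset.replicate a 1, by rw [hall]; exact (Multiset.replicate_le_replicate 1).2 (by rw [hcard, hat]; exact Nat.le_mul_of_pos_right a (by omega)), by simp⟩

end Cfsg.Agent.S5959
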