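import Cfsg.Statements.S5960
import Cfsg.Agent.H97.SympPlanes

set_option autoImplicit false
open scoped MatrixGroups
open Cfsg

namespace Cfsg.Agent.S5960

/-- Involutions of PSp_n(q) and imprimitive subgroups. Here `T = PSp_n(q)`, `n = 2d ≥ 4`, `(n, q) ≠ (4, 2)`, realised through the symplectic matrices over the field `F` with `q` elements and the standard alternating form; `n = a·t` with `a` even and `t ≥ 2`, and Ω is the (nonempty) set of orthogonal decompositions of `F^n` into `t` nondegenerate subspaces of dimension `a` (unordered; counted as ordered ones divided by `t!`), whose stabilizers are the imprimitive subgroups of type Sp_a(q) ≀ S_t (maximality is not assumed); an element of `T` of prime order `r` (a symplectic matrix `x` with `x^r` scalar, `x` not scalar) fixes a point of Ω when it permutes the summands of some such decomposition. If the number of such decompositions is even, then every involution of `T` stabilizes one of them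 (the action is 2-elusive). -/
theorem result {F : Type*} [Field F] [Fintype F] {p : ℕ} [Fact p.Prime] [CharP F p] {q : ℕ} (hq : Fintype.card F = q)
    (d : ℕ) (hd : 2 ≤ d) (hT : (d, q) ≠ (2, 2))
    (a t : ℕ) (hat : 2 * d = a * t) (ha : 2 ≤ a) (hae : Even a) (ht : 2 ≤ t) (hΩ : 2 ∣ Nat.card {D : Fin t → Submodule F (Fin d ⊕ Fin d → F) // (Cfsg.Geo.IsMDecomposition a D ∧ (∀ j, ∀ u ∈ D j, u ≠ 0 → ∃ v ∈ D j, Cfsg.sympForm d F u v ≠ 0) ∧
          (∀ j j', j ≠ j' → ∀ u ∈ D j, ∀ v ∈ D j', Cfsg.sympForm d F u v = 0))} / Nat.factorial t)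
    (x : ↥(Matrix.symplecticGroup (Fin d) F))
    (hx1 : ∃ z : F, ((x ^ 2 : ↥(Matrix.symplecticGroup (Fin d) F)) : Matrix (Fin d ⊕ Fin d) (Fin d ⊕ Fin d) F) = z • (1 : Matrix (Fin d ⊕ Fin d) (Fin d ⊕ Fin d) F))
    (hx2 : ∀ z : F, (x : Matrix (Fin d ⊕ Fin d) (Fin d ⊕ Fin d) F) ≠ z • (1 : Matrix (Fin d ⊕ Fin d) (Fin d ⊕ Fin d) F)) :
    ∃ D : Fin t → Submodule F (Fin d ⊕ Fin d → F), (Cfsg.Geo.IsMDecomposition a D ∧ (∀ j, ∀ u ∈ D j, u ≠ 0 → ∃ v ∈ D j, Cfsg.sympForm d F u v ≠ 0) ∧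
          (∀ j j', j ≠ j' → ∀ u ∈ D j, ∀ v ∈ D j', Cfsg.sympForm d F u v = 0)) ∧
        ∃ σ : Equiv.Perm (Fin t), ∀ j, (D j).map (Matrix.toLin' (x : Matrix (Fin d ⊕ Fin d) (Fin d ⊕ Fin d) F)) = D (σ j) := by
  obtain ⟨z, hz⟩ := hx1
  obtain ⟨h1, h2, hz0, -, hnd⟩ := Cfsg.Agent.H97.symplectic_square_setup (by omega) x hz
  obtain ⟨ι, _, u, w, π, hπ, hsp, g1, g2, g3⟩ := Cfsg.Agent.H97.hasPermutedPlanes
    (Cfsg.Agent.H2.sympBilin d F) (Cfsg.Agent.H2.sympBilin_isAlt d F) _ h1 z hz0 h2 ⊤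
    (fun _ _ => Submodule.mem_top) hnd
  classical
  obtain ⟨k, hk⟩ := hae
  have hinj : Function.Injective (Matrix.toLin' (x : Matrix (Fin d ⊕ Fin d) (Fin d ⊕ Fin d) F)) :=
    fun y y' h => smul_right_injective _ hz0
      (show z • y = z • y' by rw [← h2, ← h2, h])
  have hall := Cfsg.Agent.H97.planes_decomposition (t := 1) (k := Fintype.card ι) (Cfsg.Agent.H2.sympBilin d F)
    (Cfsg.Agent.H2.sympBilin_isAlt d F) u w hsp g1 g2 (fun _ => 0) (fun j => by simp [Subsingleton.elim j 0])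
    _ hinj π g3 1 (fun _ => rfl)
  have hcard : Fintype.card ι = k * t := by
    have h3 := hall.1 0
    have h4 := hall.2.2.1
    rw [iSup_unique, Subsingleton.elim (default : Fin 1) 0] at h4
    beta_reduce at h3 h4
    rw [h4, finrank_top, Module.finrank_fintype_fun_eq_card, Fintype.card_sum, Fintype.card_fin] at h3
    subst hk
    rw [add_mul] at hat
    omega
  obtain ⟨g, σ, hg, hσ⟩ := Cfsg.Agent.H97.exists_perm_partition π hπ (show 0 < k by omega) hcard
  obtain ⟨d1, d2, d3, d4, d5, d6⟩ := Cfsg.Agent.H97.planes_decomposition (Cfsg.Agent.H2.sympBilin d F)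
    (Cfsg.Agent.H2.sympBilin_isAlt d F) u w hsp g1 g2 g hg _ hinj π g3 σ hσ
  refine ⟨_, ⟨⟨ht, by omega, fun j => by rw [d1 j]; omega, d2, d3⟩, fun j v hv hv0 => ?_,
    fun j j' hjj v hv v' hv' => by simpa using d5 j j' hjj v hv v' hv'⟩, σ, d6⟩
  by_contra hne
  push Not at hne
  exact hv0 (d4 j v hv fun w hw => by simpa using hne w hw)

end Cfsg.Agent.S5960
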