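import Cfsg.Statements.S5961
import Cfsg.Agent.H97.SympDecomp

set_option autoImplicit false
open scoped MatrixGroups
open Cfsg

namespace Cfsg.Agent.S5961

/-- Elements of odd prime order of PSp_n(q) and imprimitive subgroups. Here `T = PSp_n(q)`, `n = 2d ≥ 4`, `(n, q) ≠ (4, 2)`, realised through the symplectic matrices over the field `F` with `q` elements and the standard alternating form; `n = a·t` with `a` even and `t ≥ 2`, and Ω is the (nonempty) set of orthogonal decompositions of `F^n` into `t` nondegenerate subspaces of dimension `a` (unordered; counted as ordered ones divided by `t!`), whose stabilizers are the imprimitive subgroups of type Sp_a(q) ≀ S_t (maximality is not assumed); an element of `T` of prime order `r` (a symplectic matrix `x` with `x^r` scalar, `x` not scalar) fixes a point of Ω when it permutes the summands of some such decomposition. Let `r ≠ p` be an odd prime dividing the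 number of such decompositions, let `i` be the multiplicative order of `q` modulo `r`, `c = i` if `i` is even and `c = 2i` if `i` is odd, and write `k = n mod c`, `ℓ = a mod c`. Then every element of `T` of order `r` stabilizes such a decomposition if and only if `c ≤ a` and `k = t·ℓ`. -/
theorem result {F : Type*} [Field F] [Fintype F] {p : ℕ} [Fact p.Prime] [CharP F p] {q : ℕ} (hq : Fintype.card F = q)
    (d : ℕ) (hd : 2 ≤ d) (hT : (d, q) ≠ (2, 2))
    (a t : ℕ) (hat : 2 * d = a * t) (ha : 2 ≤ a) (hae : Even a) (ht : 2 ≤ t)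
    (r : ℕ) [Fact r.Prime] (hr2 : r ≠ 2) (hrp : r ≠ p) (hΩ : r ∣ Nat.card {D : Fin t → Submodule F (Fin d ⊕ Fin d → F) // (Cfsg.Geo.IsMDecomposition a D ∧ (∀ j, ∀ u ∈ D j, u ≠ 0 → ∃ v ∈ D j, Cfsg.sympForm d F u v ≠ 0) ∧
          (∀ j j', j ≠ j' → ∀ u ∈ D j, ∀ v ∈ D j', Cfsg.sympForm d F u v = 0))} / Nat.factorial t)
    (i c : ℕ) (hi : i = orderOf (q : ZMod r)) (hc : c = if Even i then i else 2 * i) :
    (∀ x : ↥(Matrix.symplecticGroup (Fin d) F),
      (∃ z : F, ((x ^ r : ↥(Matrix.symplecticGroup (Fin d) F)) : Matrix (Fin d ⊕ Fin d) (Fin d ⊕ Fin d) F) = z • (1 : Matrix (Fin d ⊕ Fin d) (Fin d ⊕ Fin d) F)) →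
      (∀ z : F, (x : Matrix (Fin d ⊕ Fin d) (Fin d ⊕ Fin d) F) ≠ z • (1 : Matrix (Fin d ⊕ Fin d) (Fin d ⊕ Fin d) F)) →
      ∃ D : Fin t → Submodule F (Fin d ⊕ Fin d → F), (Cfsg.Geo.IsMDecomposition a D ∧ (∀ j, ∀ u ∈ D j, u ≠ 0 → ∃ v ∈ D j, Cfsg.sympForm d F u v ≠ 0) ∧
          (∀ j j', j ≠ j' → ∀ u ∈ D j, ∀ v ∈ D j', Cfsg.sympForm d F u v = 0)) ∧
        ∃ σ : Equiv.Perm (Fin t), ∀ j, (D j).map (Matrix.toLin' (x : Matrix (Fin d ⊕ Fin d) (Fin d ⊕ Fin d) F)) = D (σ j)) ↔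
    (c ≤ a ∧ (2 * d) % c = t * (a % c)) := by
  subst hq
  rw [← Nat.card_eq_fintype_card] at hi
  have hc' : c = Nat.lcm 2 i := by rw [hc, Cfsg.Agent.H97.lcm_two_eq]
  have hr : (r : F) ≠ 0 := Cfsg.Agent.H97.cast_ne_zero_of_ne (p := p) Fact.out hrp
  have hA := Cfsg.Agent.H2.sympBilin_isAlt d F
  have hiff : ∀ D : Fin t → Submodule F (Fin d ⊕ Fin d → F),
      (Cfsg.Geo.IsMDecomposition a D ∧ (∀ j, ∀ u ∈ D j, u ≠ 0 → ∃ v ∈ D j, Cfsg.sympForm d F u v ≠ 0) ∧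
          (∀ j j', j ≠ j' → ∀ u ∈ D j, ∀ v ∈ D j', Cfsg.sympForm d F u v = 0)) ↔
      ((∀ j, Module.finrank F (D j) = a ∧ Cfsg.Agent.H97.NondegOn (Cfsg.Agent.H2.sympBilin d F) (D j)) ∧ iSup D = ⊤ ∧
          ∀ j j', j ≠ j' → ∀ u ∈ D j, ∀ v ∈ D j', Cfsg.Agent.H2.sympBilin d F u v = 0) := by
    intro D
    simp only [Cfsg.Agent.H97.nondegOn_iff, Cfsg.Agent.H2.sympBilin_apply]
    refine ⟨fun ⟨h1, h2, h3⟩ => ⟨fun j => ⟨h1.finrank_eq j, h2 j⟩, h1.iSup_eq_top, h3⟩, fun ⟨h1, h2, h3⟩ =>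
      ⟨⟨ht, by omega, fun j => (h1 j).1, Cfsg.Agent.H97.indep_of_orth hA
        (fun j => (Cfsg.Agent.H97.nondegOn_iff (D j)).2 (h1 j).2) (by simpa using h3), h2⟩, fun j => (h1 j).2, h3⟩⟩
  have hdvd : r ∣ Nat.card (Cfsg.Agent.H2.isometries (Cfsg.Agent.H2.sympBilin d F)) := by
    have h1 := Cfsg.Agent.H97.factorial_dvd_card (a := a) (t := t) (F := F) (ι := Fin d ⊕ Fin d)
      (fun D => Cfsg.Geo.IsMDecomposition a D ∧ (∀ j, ∀ u ∈ D j, u ≠ 0 → ∃ v ∈ D j, Cfsg.sympForm d F u v ≠ 0) ∧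
          (∀ j j', j ≠ j' → ∀ u ∈ D j, ∀ v ∈ D j', Cfsg.sympForm d F u v = 0))
      (fun D h => h.1) (fun D σ h => ⟨Cfsg.Agent.H97.isMDecomposition_comp h.1 σ, fun j => h.2.1 (σ j),
        fun j j' hne => h.2.2 (σ j) (σ j') fun e => hne (σ.injective e)⟩)
    have h2 := hΩ.trans (Nat.div_dvd_of_dvd h1)
    rw [Nat.card_congr (Equiv.subtypeEquivRight hiff)] at h2
    refine h2.trans (Cfsg.Agent.H97.card_orthDecomp_dvd (Cfsg.Agent.H2.sympBilin_nondegenerate d F) hA t a ?_)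
    obtain ⟨D, h3, h4, h5⟩ := Cfsg.Agent.H97.exists_orth_parts hA hae t ⊤ Cfsg.Agent.H97.sympBilin_nondegOn_top
      (by rw [finrank_top, Cfsg.Agent.H97.finrank_symp, hat])
    exact ⟨⟨D, h4, h3, h5⟩⟩
  rw [hc', hi]
  refine Iff.trans ?_ (Cfsg.Agent.H97.sp_elusive_decomp_iff hr hr2 (by omega) hat ha hae ht hdvd)
  simp only [hiff]
  rfl

end Cfsg.Agent.S5961
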