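import Cfsg.Statements.S5962
import Cfsg.Agent.H97.LagrangianPair

set_option autoImplicit false
open scoped MatrixGroups
open Cfsg

namespace Cfsg.Agent.S5962

/-- Involutions of PSp_n(q), q odd, and the subgroups GL_{n/2}(q).2. Here `T = PSp_n(q)`, `n = 2d ≥ 4`, `q` odd, realised through the symplectic matrices over the field `F` with `q` elements; Ω is the set of unordered pairs `{U, W}` of complementary totally isotropic `d`-spaces (`F^n = U ⊕ W`), whose stabilizers are the subgroups of type GL_d(q).2 (maximal except in some small cases; maximality is not assumed); an element of `T` of prime order `r` (a symplectic matrix `x` with `x^r` scalar, `x` not scalar) fixes such a pair when it fixes or interchanges `U` and `W`. If the number of such pairs is even, every involution of `T` fixes one of them (the action is 2-elusive). -/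
theorem result {F : Type*} [Field F] [Fintype F] {p : ℕ} [Fact p.Prime] [CharP F p] {q : ℕ} (hq : Fintype.card F = q)
    (d : ℕ) (hd : 2 ≤ d) (hT : (d, q) ≠ (2, 2)) (hodd : Odd q)
    (hΩ : 2 ∣ Nat.card {P : Submodule F (Fin d ⊕ Fin d → F) × Submodule F (Fin d ⊕ Fin d → F) // IsCompl P.1 P.2 ∧ (∀ u ∈ P.1, ∀ v ∈ P.1, Cfsg.sympForm d F u v = 0) ∧ (∀ u ∈ P.2, ∀ v ∈ P.2, Cfsg.sympForm d F u v = 0)} / 2)
    (x : ↥(Matrix.symplecticGroup (Fin d) F))
    (hx1 : ∃ z : F, ((x ^ 2 : ↥(Matrix.symplecticGroup (Fin d) F)) : Matrix (Fin d ⊕ Fin d) (Fin d ⊕ Fin d) F) = z • (1 : Matrix (Fin d ⊕ Fin d) (Fin d ⊕ Fin d) F))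
    (hx2 : ∀ z : F, (x : Matrix (Fin d ⊕ Fin d) (Fin d ⊕ Fin d) F) ≠ z • (1 : Matrix (Fin d ⊕ Fin d) (Fin d ⊕ Fin d) F)) :
    ∃ U W : Submodule F (Fin d ⊕ Fin d → F), IsCompl U W ∧ (∀ u ∈ U, ∀ v ∈ U, Cfsg.sympForm d F u v = 0) ∧ (∀ u ∈ W, ∀ v ∈ W, Cfsg.sympForm d F u v = 0) ∧
        ((U.map (Matrix.toLin' (x : Matrix (Fin d ⊕ Fin d) (Fin d ⊕ Fin d) F)) = U ∧ W.map (Matrix.toLin' (x : Matrix (Fin d ⊕ Fin d) (Fin d ⊕ Fin d) F)) = W) ∨
         (U.map (Matrix.toLin' (x : Matrix (Fin d ⊕ Fin d) (Fin d ⊕ Fin d) F)) = W ∧ W.map (Matrix.toLin' (x : Matrix (Fin d ⊕ Fin d) (Fin d ⊕ Fin d) F)) = U)) := by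
  obtain ⟨z, hz⟩ := hx1
  obtain ⟨h1, h2, hz0, hzz, hnd⟩ := Cfsg.Agent.H97.symplectic_square_setup (by omega) x hz
  have h20 : (2 : F) ≠ 0 := by
    intro h
    have h2' : ((2 : ℕ) : F) = 0 := by simpa using h
    rw [CharP.cast_eq_zero_iff F p 2] at h2'
    have hp2 : p = 2 := (Nat.prime_dvd_prime_iff_eq Fact.out Nat.prime_two).1 h2'
    subst hp2
    obtain ⟨m, -, hm⟩ := FiniteField.card F 2
    rw [hq] at hm
    rw [hm, Nat.odd_pow_iff m.ne_zero] at hodd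
    exact absurd hodd (by decide)
  obtain ⟨U, W, hs, hU, hW, hf, hsw⟩ := Cfsg.Agent.H97.hasLagPair
    (Cfsg.Agent.H2.sympBilin d F) (Cfsg.Agent.H2.sympBilin_isAlt d F) h20 _ h1 z hz0 hzz h2 ⊤
    (fun _ _ => Submodule.mem_top) hnd
  have hdisj : Disjoint U W := by
    rw [Submodule.disjoint_def]
    intro v hvU hvW
    refine hnd v Submodule.mem_top fun w hw => ?_
    rw [← hs] at hw
    obtain ⟨a, ha, b, hb, rfl⟩ := Submodule.mem_sup.1 hw
    rw [map_add, hU v hvU a ha, hW v hvW b hb, add_zero]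
  refine ⟨U, W, ⟨hdisj, codisjoint_iff.2 hs⟩, fun a ha b hb => by simpa using hU a ha b hb,
    fun a ha b hb => by simpa using hW a ha b hb, ?_⟩
  have hback : ∀ {A B : Submodule F (Fin d ⊕ Fin d → F)},
      (∀ a ∈ A, Matrix.toLin' (x : Matrix (Fin d ⊕ Fin d) (Fin d ⊕ Fin d) F) a ∈ B) →
      (∀ a ∈ B, Matrix.toLin' (x : Matrix (Fin d ⊕ Fin d) (Fin d ⊕ Fin d) F) a ∈ A) →
      A.map (Matrix.toLin' (x : Matrix (Fin d ⊕ Fin d) (Fin d ⊕ Fin d) F)) = B := by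
    intro A B hA hB
    refine le_antisymm (Submodule.map_le_iff_le_comap.2 hA) fun b hb => ?_
    exact ⟨z⁻¹ • _, A.smul_mem _ (hB b hb), by rw [map_smul, h2, smul_smul, inv_mul_cancel₀ hz0, one_smul]⟩
  by_cases hz1 : z = 1
  · exact Or.inl ⟨hback (hf hz1).1 (hf hz1).1, hback (hf hz1).2 (hf hz1).2⟩
  · exact Or.inr ⟨hback (hsw hz1).1 (hsw hz1).2, hback (hsw hz1).2 (hsw hz1).1⟩

end Cfsg.Agent.S5962
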