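import Cfsg.Statements.S5963
import Cfsg.Agent.H97.LagrangianCount
import Cfsg.Agent.H97.SympElements
import Cfsg.Agent.H97.LinearCriteria

set_option autoImplicit false
open scoped MatrixGroups
open Cfsg

namespace Cfsg.Agent.S5963

/-- Derangements of odd prime order of PSp_n(q), q odd, on pairs of complementary totally isotropic subspaces. Here `T = PSp_n(q)`, `n = 2d ≥ 4`, `q` odd, realised through the symplectic matrices over the field `F` with `q` elements; Ω is the set of unordered pairs `{U, W}` of complementary totally isotropic `d`-spaces (`F^n = U ⊕ W`), whose stabilizers are the subgroups of type GL_d(q).2 (maximal except in some small cases; maximality is not assumed); an element of `T` of prime order `r` (a symplectic matrix `x` with `x^r` scalar, `x` not scalar) fixes such a pair when it fixes or interchanges `U` and `W`. For every odd prime `r ≠ p` dividing the number of such pairs, some element of `T` of order `r` fixes no such pair (the action is never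 `r`-elusive for odd `r ≠ p`). -/
theorem result {F : Type*} [Field F] [Fintype F] {p : ℕ} [Fact p.Prime] [CharP F p] {q : ℕ} (hq : Fintype.card F = q)
    (d : ℕ) (hd : 2 ≤ d) (hT : (d, q) ≠ (2, 2)) (hodd : Odd q)
    (r : ℕ) [Fact r.Prime] (hr2 : r ≠ 2) (hrp : r ≠ p) (hΩ : r ∣ Nat.card {P : Submodule F (Fin d ⊕ Fin d → F) × Submodule F (Fin d ⊕ Fin d → F) // IsCompl P.1 P.2 ∧ (∀ u ∈ P.1, ∀ v ∈ P.1, Cfsg.sympForm d F u v = 0) ∧ (∀ u ∈ P.2, ∀ v ∈ P.2, Cfsg.sympForm d F u v = 0)} / 2) :
    ∃ x : ↥(Matrix.symplecticGroup (Fin d) F),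
      (∃ z : F, ((x ^ r : ↥(Matrix.symplecticGroup (Fin d) F)) : Matrix (Fin d ⊕ Fin d) (Fin d ⊕ Fin d) F) = z • (1 : Matrix (Fin d ⊕ Fin d) (Fin d ⊕ Fin d) F)) ∧
      (∀ z : F, (x : Matrix (Fin d ⊕ Fin d) (Fin d ⊕ Fin d) F) ≠ z • (1 : Matrix (Fin d ⊕ Fin d) (Fin d ⊕ Fin d) F)) ∧
      ¬ (∃ U W : Submodule F (Fin d ⊕ Fin d → F), IsCompl U W ∧ (∀ u ∈ U, ∀ v ∈ U, Cfsg.sympForm d F u v = 0) ∧ (∀ u ∈ W, ∀ v ∈ W, Cfsg.sympForm d F u v = 0) ∧
        ((U.map (Matrix.toLin' (x : Matrix (Fin d ⊕ Fin d) (Fin d ⊕ Fin d) F)) = U ∧ W.map (Matrix.toLin' (x : Matrix (Fin d ⊕ Fin d) (Fin d ⊕ Fin d) F)) = W) ∨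
         (U.map (Matrix.toLin' (x : Matrix (Fin d ⊕ Fin d) (Fin d ⊕ Fin d) F)) = W ∧ W.map (Matrix.toLin' (x : Matrix (Fin d ⊕ Fin d) (Fin d ⊕ Fin d) F)) = U))) := by
  subst hq
  have hr : (r : F) ≠ 0 := Cfsg.Agent.H97.cast_ne_zero_of_ne (p := p) Fact.out hrp
  classical
  let T := {P : Submodule F (Fin d ⊕ Fin d → F) × Submodule F (Fin d ⊕ Fin d → F) //
    Cfsg.Agent.H97.IsLagPair P}
  have h2 : 2 ∣ Nat.card T := by
    haveI : Finite (Submodule F (Fin d ⊕ Fin d → F)) := Finite.of_injective _ SetLike.coe_injective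
    haveI := Fintype.ofFinite T
    let sw : Function.End T := fun P => ⟨(P.1.2, P.1.1), P.2.1.symm, P.2.2.2, P.2.2.1⟩
    have hsw : sw ^ 2 ^ 1 = 1 := by funext P; rfl
    have h := Equiv.Perm.card_fixedPoints_modEq hsw
    haveI : IsEmpty (Function.fixedPoints sw) := ⟨fun P => by
      have h1 : P.1.1.2 = P.1.1.1 := congrArg (fun Q : T => Q.1.1) P.2
      have h2 := P.1.2.1
      rw [h1] at h2
      have h3 := Submodule.finrank_add_eq_of_isCompl h2
      have h4 := (disjoint_self.1 h2.disjoint)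
      rw [h4, finrank_bot, Module.finrank_fintype_fun_eq_card, Fintype.card_sum, Fintype.card_fin] at h3
      omega⟩
    rw [Fintype.card_eq_zero (α := Function.fixedPoints sw)] at h
    rw [Nat.card_eq_fintype_card]
    exact Nat.modEq_zero_iff_dvd.1 h
  obtain ⟨j, hjd, hj⟩ := Cfsg.Agent.H97.even_ord_of_dvd_lagPairs hr hr2
    (show r ∣ Nat.card T from hΩ.trans (Nat.div_dvd_of_dvd h2))
  obtain ⟨x, hxr, hxd⟩ := Cfsg.Agent.H97.exists_sp_element hr hj hjd
  set f : Module.End F (Fin d ⊕ Fin d → F) :=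
    Matrix.toLin' (x : Matrix (Fin d ⊕ Fin d) (Fin d ⊕ Fin d) F) with hf
  have hfrho : f = Cfsg.Agent.H2.spRho d F x := rfl
  have hfr : f ^ r = 1 := by rw [hfrho, ← map_pow, hxr, map_one]
  have hB : ∀ u v, Cfsg.Agent.H2.sympBilin d F (f u) (f v) = Cfsg.Agent.H2.sympBilin d F u v := fun u v => by
    simp [f, Matrix.toLin'_apply]
  have hndM := (Cfsg.Agent.H97.nondegOn_fixed_moved (Cfsg.Agent.H2.sympBilin d F)
    (Cfsg.Agent.H2.sympBilin_isAlt d F).isRefl (fun v _ hv => Cfsg.Agent.H2.sympForm_eq_zero_forall fun w => by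
      simpa using hv w Submodule.mem_top) hr f hfr hB).2
  have hjpos : 0 < 2 * j := by rw [hj]; exact Cfsg.Agent.H97.orderOf_pos_zmod hr
  refine ⟨x, ⟨1, by rw [hxr, one_smul]; rfl⟩, fun z hz => ?_, ?_⟩
  · have hfz : f = z • 1 := by rw [hf, hz, map_smul, Matrix.toLin'_one]; rfl
    have hz1 : z ^ r = 1 := by
      rw [hfz, smul_pow, one_pow] at hfr
      have := congrArg (fun g : Module.End F (Fin d ⊕ Fin d → F) => g (fun _ => 1) (Sum.inl ⟨0, by omega⟩)) hfr
      simpa using this
    rw [Cfsg.Agent.H97.eq_one_of_pow_eq_one (by omega) hz1, one_smul] at hfz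
    rw [Cfsg.Agent.H97.movedSpace, hfz, sub_self, LinearMap.range_zero, finrank_bot] at hxd
    omega
  rintro ⟨U, W, hc, hU, hW, hfix⟩
  have hUx : U.map f = U ∧ W.map f = W := by
    rcases hfix with h | ⟨h1, h3⟩
    · exact h
    · exfalso
      have hp : ∀ k : ℕ, U.map (f ^ k) = if Even k then U else W := by
        intro k
        induction k with
        | zero => rw [pow_zero, Module.End.one_eq_id, Submodule.map_id, if_pos Even.zero]
        | succ k ih =>
          rw [pow_succ', Module.End.mul_eq_comp, Submodule.map_comp, ih]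
          by_cases hk : Even k
          · rw [if_pos hk, if_neg (Nat.even_add_one.not.2 (not_not.2 hk))]; exact h1
          · rw [if_neg hk, if_pos (Nat.even_add_one.2 hk)]; exact h3
      have h4 := hp r
      rw [hfr, if_neg (Nat.not_even_iff_odd.2 ((Fact.out : r.Prime).odd_of_ne_two hr2)), Module.End.one_eq_id,
        Submodule.map_id] at h4
      rw [h4] at hc
      have h5 := Submodule.finrank_add_eq_of_isCompl hc
      rw [disjoint_self.1 hc.disjoint, finrank_bot, Module.finrank_fintype_fun_eq_card] at h5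
      simp only [Fintype.card_sum, Fintype.card_fin] at h5
      omega
  let M := Cfsg.Agent.H97.movedSpace f
  have hM0 : M ≠ ⊥ := fun h => by
    have h1 : Module.finrank F M = 2 * j := hxd
    rw [h, finrank_bot] at h1
    omega
  -- the image of each part under `f - 1` is `⊥` or the whole moved space
  have key : ∀ P : Submodule F (Fin d ⊕ Fin d → F), P.map f = P →
      (∀ a ∈ P, ∀ b ∈ P, Cfsg.sympForm d F a b = 0) → P.map (f - 1) = ⊥ := by
    intro P hP hiso
    have hle : P.map (f - 1) ≤ M := LinearMap.map_le_range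
    have hleP : P.map (f - 1) ≤ P := by
      rintro _ ⟨a, ha, rfl⟩
      exact P.sub_mem (hP ▸ Submodule.mem_map_of_mem ha) ha
    have hinv : (P.map (f - 1)).map f ≤ P.map (f - 1) := by
      rintro _ ⟨_, ⟨a, ha, rfl⟩, rfl⟩
      exact ⟨f a, hP ▸ Submodule.mem_map_of_mem ha, by simp⟩
    have hd' := Cfsg.Agent.H97.dvd_finrank_fpf hr f hfr _ hinv
      ((Cfsg.Agent.H97.disjoint_fixed_moved hr f hfr).symm.mono_left hle)
    rw [← hj] at hd'
    have hdM : Module.finrank F ↥(P.map (f - 1)) ≤ 2 * j := by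
      rw [← hxd]; exact Submodule.finrank_mono hle
    rcases Nat.eq_zero_or_pos (Module.finrank F ↥(P.map (f - 1))) with h0 | h0
    · exact Submodule.finrank_eq_zero.1 h0
    · exfalso
      have h6 : P.map (f - 1) = M := Submodule.eq_of_le_of_finrank_le hle (by
        have h7 : Module.finrank F M = 2 * j := hxd
        have := Nat.le_of_dvd h0 hd'
        omega)
      obtain ⟨v, hv, hv0⟩ := (Submodule.ne_bot_iff M).1 hM0
      exact hv0 (hndM v hv fun w hw => by
        simpa using hiso v (hleP (h6.symm ▸ hv)) w (hleP (h6.symm ▸ hw)))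
  have h0 : M = ⊥ := by
    show LinearMap.range (f - 1) = ⊥
    rw [← Submodule.map_top, ← hc.sup_eq_top, Submodule.map_sup, key U hUx.1 hU, key W hUx.2 hW, bot_sup_eq]
  exact hM0 h0

end Cfsg.Agent.S5963
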