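import Cfsg.Statements.S5964
import Cfsg.Agent.H97.SubfieldConj
import Cfsg.Agent.H97.LinearCriteria

set_option autoImplicit false
open scoped MatrixGroups
open Cfsg

namespace Cfsg.Agent.S5964

/-- Involutions of PSL_n(q) and subfield subgroups. Here `T = PSL_n(F)` for a field `F` with `q = p^f` elements (`n ≥ 2`, `(n, q) ≠ (2, 2), (2, 3)`), `F₀` is the subfield with `q₀` elements where `q = q₀^k` for a prime `k`, and `H` is the subgroup of matrices of determinant 1 lying in the subfield group of `F₀` (invertible matrices over `F₀` times scalars) — a maximal subgroup of type GL_n(q₀) (the case `n = 2`, `q₀ = 2` is excluded); Ω is the set of `T`-conjugates of `H` (cosets of `H`), so an element of `T` of prime order `r` (a matrix `x` of determinant 1 with `x^r` scalar, `x` not scalar) fixes a point of Ω when some conjugate of `x` by a matrix of determinant 1 lies in `H`. Suppose the index of `H` is even. Then every involution of `T` is conjugate in `T` into `H` if and only if either `q` is even, or `k = 2` and `(n)_2 ≤ (q − 1)_2`.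 (For `q` odd and `k` odd the index of `H` is odd, so that case does not arise.) -/
theorem result {F : Type*} [Field F] [Fintype F] {p : ℕ} [Fact p.Prime] [CharP F p] {q : ℕ} (hq : Fintype.card F = q)
    (n : ℕ) (hn : 2 ≤ n) (hT : (n, q) ≠ (2, 2) ∧ (n, q) ≠ (2, 3))
    (F₀ : Subfield F) (k q₀ : ℕ) (hk : k.Prime) (hF₀ : Nat.card ↥F₀ = q₀) (hqk : q = q₀ ^ k) (hC5 : ¬ (n = 2 ∧ q₀ = 2)) (hΩ : 2 ∣ ((Cfsg.Geo.subfieldSubgroup F₀ 1).comap (Matrix.SpecialLinearGroup.toGL : Matrix.SpecialLinearGroup (Fin n) F →* GL (Fin n) F)).index) :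
    (∀ x : Matrix.SpecialLinearGroup (Fin n) F,
      (∃ z : F, ((x ^ 2 : Matrix.SpecialLinearGroup (Fin n) F) : Matrix (Fin n) (Fin n) F) = z • (1 : Matrix (Fin n) (Fin n) F)) →
      (∀ z : F, (x : Matrix (Fin n) (Fin n) F) ≠ z • (1 : Matrix (Fin n) (Fin n) F)) →
      ∃ P : Matrix.SpecialLinearGroup (Fin n) F, P⁻¹ * x * P ∈ ((Cfsg.Geo.subfieldSubgroup F₀ 1).comap (Matrix.SpecialLinearGroup.toGL : Matrix.SpecialLinearGroup (Fin n) F →* GL (Fin n) F))) ↔
    (Odd q → (k = 2 ∧ padicValNat 2 n ≤ padicValNat 2 (q - 1))) := by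
  classical
  subst hq
  have hn0 : 0 < n := by omega
  haveI : NeZero n := ⟨by omega⟩
  have hnV : Module.finrank F (Fin n → F) = n := by simp
  haveI : Fintype F₀ := Fintype.ofFinite _
  have hcard0 : Fintype.card F₀ = q₀ := by rw [← hF₀, Nat.card_eq_fintype_card]
  have hq3 : 2 ≤ Fintype.card F := Fintype.one_lt_card
  have hq03 : 2 ≤ q₀ := by rw [← hcard0]; exact Fintype.one_lt_card
  constructor
  · intro hall hodd
    have hq0odd : Odd q₀ := by
      rw [hqk, Nat.odd_pow_iff hk.ne_zero] at hodd
      exact hodd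
    by_contra hcon
    by_cases hk2 : k = 2
    · subst hk2
      have hlt : padicValNat 2 (Fintype.card F - 1) < padicValNat 2 n := by
        by_contra h
        exact hcon ⟨rfl, by omega⟩
      set a := padicValNat 2 n with ha
      set s := padicValNat 2 (Fintype.card F - 1) with hs
      obtain ⟨t, ht⟩ : 2 ^ s ∣ Fintype.card F - 1 := pow_padicValNat_dvd
      obtain ⟨n', hn'⟩ : 2 ^ a ∣ n := pow_padicValNat_dvd
      have htodd : Odd t := by
        rw [← Nat.not_even_iff_odd]
        rintro ⟨k, rfl⟩
        exact pow_succ_padicValNat_not_dvd (p := 2) (n := Fintype.card F - 1) (by omega)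
          ⟨k, by rw [← hs, pow_succ]; linarith⟩
      have hs1 : 1 ≤ s := by
        rcases Nat.eq_zero_or_pos s with h | h
        · rw [h, pow_zero, one_mul] at ht
          obtain ⟨u, hu⟩ := htodd
          obtain ⟨v, hv⟩ := hodd
          omega
        · exact h
      obtain ⟨g, hg⟩ := IsCyclic.exists_generator (α := Fˣ)
      have hord : orderOf g = Fintype.card F - 1 := by
        rw [orderOf_eq_card_of_forall_mem_zpowers hg, Nat.card_eq_fintype_card, Fintype.card_units]
      set u : F := (g : F) ^ t with hu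
      have hun : u ^ (n / 2) = 1 := by
        have h1 : n / 2 = 2 ^ s * (2 ^ (a - 1 - s) * n') := by
          rw [← mul_assoc, ← pow_add, show s + (a - 1 - s) = a - 1 by omega, hn',
            show 2 ^ a = 2 * 2 ^ (a - 1) by rw [← pow_succ']; congr 1; omega, mul_assoc,
            Nat.mul_div_cancel_left _ (by norm_num)]
        rw [hu, ← pow_mul, h1, ← mul_assoc, mul_comm t, ← ht, pow_mul,
          ← hord, ← Units.val_pow_eq_pow_val, pow_orderOf_eq_one, Units.val_one, one_pow]
      have hu0 : u ≠ 0 := pow_ne_zero _ g.ne_zero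
      have hunsq : ∀ w : F, w ^ 2 ≠ u := by
        intro w hw
        have hw0 : w ≠ 0 := fun h => hu0 (by rw [← hw, h]; ring)
        obtain ⟨e, he⟩ : Units.mk0 w hw0 ∈ Subgroup.zpowers g := hg _
        have h2 : g ^ ((e * 2 : ℤ) - t) = 1 := by
          have : g ^ (e * 2 : ℤ) = g ^ (t : ℤ) := by
            rw [zpow_mul, zpow_natCast]
            refine Units.ext ?_
            rw [show ((2 : ℤ)) = ((2 : ℕ) : ℤ) from rfl, zpow_natCast, Units.val_pow_eq_pow_val,
              Units.val_pow_eq_pow_val]
            show ((g ^ e : Fˣ) : F) ^ 2 = _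
            rw [show g ^ e = Units.mk0 w hw0 from he]
            exact hw
          rw [zpow_sub, this, mul_inv_cancel]
        have h3 := orderOf_dvd_iff_zpow_eq_one.2 h2
        rw [hord, ht] at h3
        have h4 : (2 : ℤ) ∣ (e * 2 : ℤ) - t := dvd_trans ⟨(2 ^ (s - 1) * t : ℕ), by
          push_cast; rw [← mul_assoc, ← pow_succ', Nat.sub_add_cancel hs1]⟩ h3
        obtain ⟨t', rfl⟩ := htodd
        omega
      have hev : Even n := by
        rw [hn', show 2 ^ a = 2 * 2 ^ (a - 1) by rw [← pow_succ']; congr 1; omega, mul_assoc]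
        exact even_two_mul _
      obtain ⟨l, hl⟩ := hev
      set z : F := -u with hz
      let M : Fin l → Matrix (Fin 2) (Fin 2) F := fun _ => !![0, z; 1, 0]
      let ε : (Fin n → F) ≃ₗ[F] (Fin l ⊕ Fin l → F) :=
        LinearEquiv.ofFinrankEq _ _ (by simp [hl])
      set T : Module.End F (Fin n → F) := ε.symm.conj (Agent.H97.pairMap M) with hTdef
      have hT2 : T ^ 2 = z • 1 := by
        rw [pow_two, hTdef]
        refine LinearMap.ext fun v => ε.injective ?_
        simp only [Module.End.mul_apply, LinearEquiv.conj_apply_apply, LinearEquiv.symm_symm,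
          LinearEquiv.apply_symm_apply, LinearMap.smul_apply, Module.End.one_apply, map_smul]
        rw [← Module.End.mul_apply, Agent.H97.pairMap_mul, Agent.H97.pairMap_apply]
        funext i
        rcases i with i | i <;> simp [M, Matrix.mul_apply, Fin.sum_univ_two]
      have hTd : LinearMap.det T = 1 := by
        rw [hTdef, LinearEquiv.conj_apply, LinearMap.comp_assoc,
          LinearMap.det_conj (Agent.H97.pairMap M) ε.symm, Agent.H97.det_pairMap]
        simp only [M, Matrix.det_fin_two_of, Finset.prod_const, Finset.card_univ, Fintype.card_fin]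
        rw [hz, show (0 * 0 - -u * 1 : F) = u by ring, show l = n / 2 by omega, hun]
      obtain ⟨x, hxT, hx2⟩ := Agent.H97.exists_SL T hTd hT2
      obtain ⟨P, hP⟩ := hall x ⟨z, hx2⟩ (fun w hw => by
        have h1 : T = w • 1 := by
          rw [← hxT, hw, map_smul, Matrix.toLin'_one]; rfl
        have h2 := LinearMap.congr_fun h1 (ε.symm (Pi.single (Sum.inl ⟨0, by omega⟩) 1))
        have h3 := congrFun (congrArg ε h2) (Sum.inr ⟨0, by omega⟩)
        simp [hTdef, Agent.H97.pairMap_apply, M] at h3)
      obtain ⟨c, hc, hcy⟩ := (Agent.H97.comap_subfield_mem _).1 hP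
      set Y := ((P⁻¹ * x * P : Matrix.SpecialLinearGroup (Fin n) F) : Matrix (Fin n) (Fin n) F)
      have hY2 : Y * Y = z • 1 := by
        rw [← Matrix.SpecialLinearGroup.coe_mul,
          show P⁻¹ * x * P * (P⁻¹ * x * P) = P⁻¹ * x ^ 2 * P by rw [pow_two]; group,
          Matrix.SpecialLinearGroup.coe_mul, Matrix.SpecialLinearGroup.coe_mul, hx2,
          mul_smul_comm, mul_one, smul_mul_assoc, ← Matrix.SpecialLinearGroup.coe_mul, inv_mul_cancel,
          Matrix.SpecialLinearGroup.coe_one]
      have hmem : c * c * z ∈ F₀ := by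
        have h1 : c * c * z = ∑ j, (c * Y ⟨0, hn0⟩ j) * (c * Y j ⟨0, hn0⟩) := by
          rw [show z = (Y * Y) ⟨0, hn0⟩ ⟨0, hn0⟩ by rw [hY2]; simp, Matrix.mul_apply, Finset.mul_sum]
          exact Finset.sum_congr rfl fun j _ => by ring
        rw [h1]
        exact sum_mem fun j _ => mul_mem (hcy _ _) (hcy _ _)
      have hz0 : z ≠ 0 := neg_ne_zero.2 hu0
      have hne : c * c * z ≠ 0 := mul_ne_zero (mul_ne_zero hc hc) hz0
      have hchar : ringChar F ≠ 2 := fun h => by
        have := FiniteField.even_card_of_char_two h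
        obtain ⟨v, hv⟩ := hodd
        omega
      have hsq : IsSquare (c * c * z) := by
        rw [FiniteField.isSquare_iff hchar hne]
        have h1 : (⟨c * c * z, hmem⟩ : F₀) ^ (Fintype.card F₀ - 1) = 1 :=
          FiniteField.pow_card_sub_one_eq_one _ (fun h => hne (congrArg Subtype.val h))
        have h2 := congrArg (fun y : F₀ => (y : F) ^ ((q₀ + 1) / 2)) h1
        simp only [SubmonoidClass.coe_pow, ← pow_mul, OneMemClass.coe_one, one_pow] at h2
        convert h2 using 2
        obtain ⟨v, hv⟩ := hq0odd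
        rw [hcard0, hqk, hv]
        rw [show (2 * v + 1) ^ 2 = 2 * ((2 * v) * (v + 1)) + 1 by ring, show 2 * v + 1 - 1 = 2 * v by omega,
          show (2 * v + 1 + 1) / 2 = v + 1 by omega]
        omega
      obtain ⟨w, hw⟩ := hsq
      -- minus one is a square
      have hneg : IsSquare (-1 : F) := by
        rw [FiniteField.isSquare_neg_one_iff, hqk]
        obtain ⟨v, hv⟩ := hq0odd
        rw [hv, show (2 * v + 1) ^ 2 = 4 * (v * v + v) + 1 by ring]
        omega
      obtain ⟨i, hi⟩ := hneg
      refine hunsq (i * w / c) ?_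
      have hu' : u = -z := by rw [hz, neg_neg]
      rw [hu']
      field_simp
      linear_combination (-w ^ 2) * hi + hw
    -- k odd: the index is odd
    have hkodd : Odd k := hk.odd_of_ne_two hk2
    set H := (Cfsg.Geo.subfieldSubgroup F₀ 1).comap
      (Matrix.SpecialLinearGroup.toGL : Matrix.SpecialLinearGroup (Fin n) F →* GL (Fin n) F) with hH
    let φ : Matrix.SpecialLinearGroup (Fin n) F₀ →* Matrix.SpecialLinearGroup (Fin n) F :=
      Matrix.SpecialLinearGroup.map (F₀.subtype : F₀ →+* F)
    have hφH : φ.range ≤ H := by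
      rintro _ ⟨A, rfl⟩
      refine (Agent.H97.comap_subfield_mem _).2 ⟨1, one_ne_zero, fun a b => ?_⟩
      rw [one_mul]
      exact ((A : Matrix (Fin n) (Fin n) F₀) a b).2
    have hdvd : 2 ∣ φ.range.index := hΩ.trans (Subgroup.index_dvd_of_le hφH)
    have hφinj : Function.Injective φ := fun A B h => by
      apply Subtype.ext
      ext a b
      exact congrFun (congrFun (congrArg Subtype.val h) a) b
    have hrange : Nat.card φ.range = Nat.card (Matrix.SpecialLinearGroup (Fin n) F₀) :=
      (Nat.card_congr (MonoidHom.ofInjective hφinj).toEquiv).symm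
    have hGL : ∀ (L : Type _) [Field L] [Fintype L], Nat.card (Matrix.SpecialLinearGroup (Fin n) L) *
        (Fintype.card L - 1) = ∏ i : Fin n, (Fintype.card L ^ n - Fintype.card L ^ (i : ℕ)) := by
      intro L _ _
      classical
      rw [← Matrix.card_GL_field]
      have hsurj : Function.Surjective (Matrix.GeneralLinearGroup.det : GL (Fin n) L →* Lˣ) := by
        intro v
        refine ⟨Matrix.GeneralLinearGroup.mkOfDetNeZero
          (Matrix.diagonal (Function.update (1 : Fin n → L) ⟨0, hn0⟩ (v : L))) ?_, Units.ext ?_⟩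
        · rw [Matrix.det_diagonal, Finset.prod_update_of_mem (Finset.mem_univ _)]
          simp
        · simp only [Matrix.GeneralLinearGroup.val_det_apply]
          show (Matrix.diagonal (Function.update (1 : Fin n → L) ⟨0, hn0⟩ (v : L))).det = _
          rw [Matrix.det_diagonal, Finset.prod_update_of_mem (Finset.mem_univ _)]
          simp
      have h1 := (Matrix.GeneralLinearGroup.det : GL (Fin n) L →* Lˣ).ker.card_mul_index
      rw [Subgroup.index_ker, MonoidHom.range_eq_top.2 hsurj, Subgroup.card_top,
        Nat.card_eq_fintype_card (α := Lˣ), Fintype.card_units] at h1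
      rw [← h1]
      congr 1
      refine Nat.card_congr
        { toFun := fun A => ⟨Matrix.SpecialLinearGroup.toGL A, Units.ext A.det_coe⟩
          invFun := fun A => ⟨((A : GL (Fin n) L) : Matrix (Fin n) (Fin n) L), by
            have := congrArg Units.val A.2
            simpa using this⟩
          left_inv := fun A => rfl
          right_inv := fun A => Subtype.ext (Units.ext rfl) }
    have hF := hGL F
    have h0 := hGL F₀
    rw [hcard0] at h0
    rw [← φ.range.card_mul_index, hrange] at hF
    set q := Fintype.card F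
    -- every factor changes by an odd number
    let o : ℕ → ℕ := fun m => ∑ i ∈ Finset.range k, (q₀ ^ m) ^ i
    have ho : ∀ m, Odd (o m) := fun m => Agent.H97.odd_geom_sum hq0odd.pow hkodd
    have hfac : ∀ m, q ^ m - 1 = (q₀ ^ m - 1) * o m := fun m => by
      rw [hqk, ← pow_mul, mul_comm k m, pow_mul, mul_comm, geom_sum_mul_of_one_le
        (Nat.one_le_pow _ _ (by omega))]
    have hterm : ∀ i : Fin n, ∃ c, Odd c ∧ q ^ n - q ^ (i : ℕ) = (q₀ ^ n - q₀ ^ (i : ℕ)) * c := by
      intro i
      have hi := i.2
      refine ⟨q₀ ^ ((k - 1) * (i : ℕ)) * o (n - i), hq0odd.pow.mul (ho _), ?_⟩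
      have e1 : q ^ n - q ^ (i : ℕ) = q ^ (i : ℕ) * (q ^ (n - i) - 1) := by
        rw [Nat.mul_sub, mul_one, ← pow_add, Nat.add_sub_cancel' hi.le]
      have e2 : q₀ ^ n - q₀ ^ (i : ℕ) = q₀ ^ (i : ℕ) * (q₀ ^ (n - i) - 1) := by
        rw [Nat.mul_sub, mul_one, ← pow_add, Nat.add_sub_cancel' hi.le]
      rw [e1, e2, hfac, show q ^ (i : ℕ) = q₀ ^ (i : ℕ) * q₀ ^ ((k - 1) * (i : ℕ)) by
        rw [hqk, ← pow_mul, ← pow_add]
        congr 1
        rw [Nat.sub_mul, one_mul, Nat.add_sub_cancel' (Nat.le_mul_of_pos_left _ hk.pos)]]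
      ring
    choose cs hcs hcs' using hterm
    rw [Finset.prod_congr rfl fun i _ => hcs' i, Finset.prod_mul_distrib, ← h0] at hF
    have hq1 : q - 1 = (q₀ - 1) * o 1 := by simpa using hfac 1
    rw [hq1] at hF
    have hpos : 0 < Nat.card (Matrix.SpecialLinearGroup (Fin n) F₀) * (q₀ - 1) :=
      Nat.mul_pos Nat.card_pos (by omega)
    have hidx : φ.range.index * o 1 = ∏ i, cs i :=
      Nat.eq_of_mul_eq_mul_left hpos (by rw [← hF]; ring)
    have hprod : Odd (∏ i, cs i) := Finset.prod_induction _ Odd (fun a b => Odd.mul) odd_one fun i _ => hcs i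
    rw [← hidx, Nat.odd_mul] at hprod
    exact Nat.not_even_iff_odd.2 hprod.1 (even_iff_two_dvd.2 hdvd)
  · intro hcond x ⟨z, hz⟩ hns
    obtain ⟨hx2, hz0, hdet⟩ := Agent.H97.SL_setup hn0 x hz
    set T : Module.End F (Fin n → F) := Matrix.toLin' (x : Matrix (Fin n) (Fin n) F) with hT
    rw [pow_two] at hx2
    have hTv : ∀ v, T v = (x : Matrix (Fin n) (Fin n) F).mulVec v := fun v => Matrix.toLin'_apply _ v
    by_cases h2 : (2 : F) = 0
    · haveI : CharP F 2 := (CharP.charP_iff_prime_eq_zero Nat.prime_two).2 (by exact_mod_cast h2)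
      obtain ⟨w, hw'⟩ := FiniteField.isSquare_of_char_two (ringChar.eq F 2) z
      subst hw'
      have hw : w ≠ 0 := fun h => hz0 (by rw [h]; ring)
      obtain ⟨j, m, b, hb1, hb2, hb3⟩ := Agent.H97.exists_charTwo_coords hw T hx2
      refine Agent.H97.exists_conj_subfield x b (inv_ne_zero hw) ?_ fun μ _ => ?_
      · rintro i ((l | l) | l) <;> rw [← hTv] <;> first | rw [hb1] | rw [hb2] | rw [hb3]
        all_goals
          simp only [map_smul, map_add, Module.Basis.repr_self, Finsupp.smul_apply, Finsupp.add_apply,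
            smul_eq_mul, ← mul_assoc, inv_mul_cancel₀ hw, one_mul, Finsupp.single_apply]
        · exact add_mem (by split_ifs <;> simp) (by split_ifs <;> simp)
        · split_ifs <;> simp
        · split_ifs <;> simp
      · obtain ⟨ν, hν⟩ := FiniteField.isSquare_of_char_two (ringChar.eq F 2) μ
        have hj : 0 < j := by
          by_contra h
          refine hns w ?_
          have h' : T = w • 1 := b.ext fun i => by
            rcases i with (l | l) | l
            · exact absurd l.2 (by omega)
            · exact absurd l.2 (by omega)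
            · exact hb3 l
          have := congrArg LinearMap.toMatrix' h'
          rw [hT, LinearMap.toMatrix'_toLin', map_smul, LinearMap.toMatrix'_one] at this
          exact this
        let j0 : Fin j := ⟨0, hj⟩
        let d : (Fin j ⊕ Fin j) ⊕ Fin m → F :=
          Sum.elim (Sum.elim (Function.update 1 j0 ν) (Function.update 1 j0 ν)) 1
        refine ⟨Matrix.toLin b b (Matrix.diagonal d), b.ext fun i => ?_, ?_⟩
        · have hd : ∀ i, Matrix.toLin b b (Matrix.diagonal d) (b i) = d i • b i := fun i => by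
            simp [Matrix.toLin_self, Matrix.diagonal_apply, ite_smul]
          rw [Module.End.mul_apply, Module.End.mul_apply, hd, map_smul]
          rcases i with (l | l) | l
          · rw [hb1, map_smul, map_add, hd, hd, smul_comm, smul_add]
            simp [d]
          · rw [hb2, map_smul, hd, smul_comm]
          · rw [hb3, map_smul, hd, smul_comm]
        · rw [LinearMap.det_toLin, Matrix.det_diagonal]
          simp only [d, Fintype.prod_sum_type, Sum.elim_inl, Sum.elim_inr,
            Finset.prod_update_of_mem (Finset.mem_univ _), Pi.one_apply, Finset.prod_const_one, mul_one]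
          exact hν.symm
    have hchar : ringChar F ≠ 2 := fun h => h2 (by
      haveI := ringChar.of_eq h
      exact CharTwo.two_eq_zero)
    have hodd : Odd (Fintype.card F) := Nat.odd_iff.2 (FiniteField.odd_card_of_char_ne_two hchar)
    obtain ⟨rfl, hle⟩ := hcond hodd
    by_cases hsq : ∀ w : F, w ^ 2 ≠ z
    · exfalso
      haveI : Fact (Nat.Prime 2) := ⟨Nat.prime_two⟩
      obtain ⟨l, hl, hld⟩ := Agent.H97.twisted_det (r := 2) hz0 hsq T (by rw [pow_two, hx2])
      rw [hnV] at hl
      rw [hdet, show ((-1 : F) ^ (2 - 1) * z) = -z by norm_num] at hld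
      set a := padicValNat 2 n with ha
      set s := padicValNat 2 (Fintype.card F - 1) with hs
      obtain ⟨t, ht⟩ : 2 ^ s ∣ Fintype.card F - 1 := pow_padicValNat_dvd
      obtain ⟨n', hn'⟩ : 2 ^ a ∣ n := pow_padicValNat_dvd
      have ha1 : 1 ≤ a := one_le_padicValNat_of_dvd (by omega) ⟨l, by omega⟩
      have hn'odd : Odd n' := by
        rw [← Nat.not_even_iff_odd]
        rintro ⟨k, rfl⟩
        exact pow_succ_padicValNat_not_dvd (p := 2) (n := n) (by omega)
          ⟨k, by rw [← ha, pow_succ]; linarith⟩
      have hz' : -z ≠ 0 := neg_ne_zero.2 hz0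
      have hzn : ¬ IsSquare (-z) := by
        rintro ⟨e, he⟩
        obtain ⟨i, hi⟩ : IsSquare (-1 : F) := by
          rw [FiniteField.isSquare_neg_one_iff, hqk]
          rw [hqk, Nat.odd_pow_iff two_ne_zero] at hodd
          obtain ⟨v, hv⟩ := hodd
          rw [hv, show (2 * v + 1) ^ 2 = 4 * (v * v + v) + 1 by ring]
          omega
        exact hsq (i * e) (by rw [show (i * e) ^ 2 = (i * i) * (e * e) by ring, ← hi, ← he]; ring)
      rw [FiniteField.isSquare_iff hchar hz'] at hzn
      have h1 : (-z) ^ (Fintype.card F / 2) = -1 :=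
        (sq_eq_one_iff.1 (by
          rw [← pow_mul, show Fintype.card F / 2 * 2 = Fintype.card F - 1 by
            obtain ⟨v, hv⟩ := hodd; omega]
          exact FiniteField.pow_card_sub_one_eq_one _ hz')).resolve_left hzn
      have h3 := congrArg (fun y : F => y ^ (2 ^ (s - a) * t)) hld
      simp only [one_pow, ← pow_mul] at h3
      have h5 : l = 2 ^ (a - 1) * n' := by
        have : 2 ^ a = 2 * 2 ^ (a - 1) := by rw [← pow_succ']; congr 1; omega
        rw [this, mul_assoc] at hn'
        omega
      rw [show l * (2 ^ (s - a) * t) = (Fintype.card F / 2) * n' by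
        have hq2 : Fintype.card F / 2 = 2 ^ (s - 1) * t := by
          have : 2 ^ s * t = 2 * (2 ^ (s - 1) * t) := by
            rw [← mul_assoc, ← pow_succ', Nat.sub_add_cancel (by omega : 1 ≤ s)]
          rw [this] at ht
          omega
        rw [hq2, h5, show 2 ^ (s - 1) = 2 ^ (a - 1) * 2 ^ (s - a) by rw [← pow_add]; congr 1; omega]
        ring, pow_mul, h1, hn'odd.neg_one_pow] at h3
      exact h2 (by linear_combination h3)
    push Not at hsq
    obtain ⟨w, rfl⟩ := hsq
    have hw : w ≠ 0 := fun h => hz0 (by rw [h]; ring)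
    rw [pow_two] at hx2
    have hTT : ∀ v, T (T v) = (w * w) • v := fun v => LinearMap.congr_fun hx2 v
    set Pp := LinearMap.ker (T - w • 1) with hPp
    set Nn := LinearMap.ker (T + w • 1) with hNn
    have hPv : ∀ v ∈ Pp, T v = w • v := fun v hv => sub_eq_zero.1 (LinearMap.mem_ker.1 hv)
    have hNv : ∀ v ∈ Nn, T v = -(w • v) := fun v hv =>
      eq_neg_of_add_eq_zero_left (LinearMap.mem_ker.1 hv)
    have h2w : (2 * w) ≠ 0 := mul_ne_zero h2 hw
    have hcompl : IsCompl Pp Nn := by
      refine ⟨Submodule.disjoint_def.2 fun v h1 h3 => ?_, codisjoint_iff.2 ?_⟩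
      · have h4 : (2 * w) • v = 0 := by
          have := (hPv v h1).symm.trans (hNv v h3)
          rw [mul_smul, two_smul]
          exact add_eq_zero_iff_eq_neg.2 this
        exact (smul_eq_zero.1 h4).resolve_left h2w
      · refine Submodule.eq_top_iff'.2 fun v => Submodule.mem_sup.2
          ⟨(2 * w)⁻¹ • (w • v + T v), ?_, (2 * w)⁻¹ • (w • v - T v), ?_, ?_⟩
        · rw [hPp, LinearMap.mem_ker, map_smul]
          simp only [LinearMap.sub_apply, LinearMap.smul_apply, Module.End.one_apply, map_add, map_smul, hTT]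
          module
        · rw [hNn, LinearMap.mem_ker, map_smul]
          simp only [LinearMap.add_apply, LinearMap.smul_apply, Module.End.one_apply, map_sub, map_smul, hTT]
          module
        · rw [← smul_add, show w • v + T v + (w • v - T v) = (2 * w) • v by module, smul_smul,
            inv_mul_cancel₀ h2w, one_smul]
    let b := ((Module.finBasis F Pp).prod (Module.finBasis F Nn)).map
      (Submodule.prodEquivOfIsCompl Pp Nn hcompl)
    let av : Fin (Module.finrank F Pp) ⊕ Fin (Module.finrank F Nn) → F :=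
      Sum.elim (fun _ => w) (fun _ => -w)
    have hav : ∀ i, T (b i) = av i • b i := fun i => by
      rcases i with i | i <;> simp [b, av, hPv, hNv]
    refine Agent.H97.exists_conj_subfield x b (inv_ne_zero hw) (fun i i' => ?_)
      (fun μ _ => Agent.H97.dets_of_diagonal b T av hav ?_ μ)
    · rw [← hTv, hav, map_smul, Module.Basis.repr_self, Finsupp.smul_apply, smul_eq_mul,
        Finsupp.single_apply]
      rcases i' with i' | i' <;> simp only [av, Sum.elim_inl, Sum.elim_inr] <;> split_ifs <;>
        simp [hw]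
    · have := Submodule.finrank_add_eq_of_isCompl hcompl
      rw [hnV] at this
      by_cases h : Module.finrank F Pp = 0
      · exact Sum.inr ⟨0, by omega⟩
      · exact Sum.inl ⟨0, by omega⟩

end Cfsg.Agent.S5964
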