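import Cfsg.Statements.S5965
import Cfsg.Agent.H19.SubfieldTwist
import Cfsg.Agent.H19.SubfieldIndex

set_option autoImplicit false
set_option maxHeartbeats 2000000
open scoped MatrixGroups
open Cfsg

namespace Cfsg.Agent.S5965

theorem zmod_three : ∀ a : ZMod 3, a = 0 ∨ a = 1 ∨ a = -1 := by decide

/-- Elements of odd prime order r ≠ p of PSL_n(q) and subfield subgroups. Here `T = PSL_n(F)` for a field `F` with `q = p^f` elements (`n ≥ 2`, `(n, q) ≠ (2, 2), (2, 3)`), `F₀` is the subfield with `q₀` elements where `q = q₀^k` for a prime `k`, and `H` is the subgroup of matrices of determinant 1 lying in the subfield group of `F₀` (invertible matrices over `F₀` times scalars) — a maximal subgroup of type GL_n(q₀) (the case `n = 2`, `q₀ = 2` is excluded); Ω is the set of `T`-conjugates of `H` (cosets of `H`), so an element of `T` of prime order `r` (a matrix `x` of determinant 1 with `x^r` scalar, `x` not scalar) fixes a point of Ω when some conjugate of `x` by a matrix of determinant 1 lies in `H`. Let `r ≠ p` be an odd prime dividing the index of `H`, with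 `(n, r) ≠ (6, 3)` and, when `r = k` divides `q₀ − 1`, with `(n)_r ≤ (q − 1)_r`. Then every element of `T` of order `r` is conjugate in `T` into `H` if and only if `r = k`, or `k = 2`, `r = n ∈ {3, 5}` and `(q₀ + 1)_r = r`. The two excluded cases, `(n, r) = (6, 3)` and `r = k ∣ q₀ − 1` with `(n)_r > (q − 1)_r`, are ones where this criterion can fail, so they are left out. -/
theorem result {F : Type*} [Field F] [Fintype F] {p : ℕ} [Fact p.Prime] [CharP F p] {q : ℕ} (hq : Fintype.card F = q)
    (n : ℕ) (hn : 2 ≤ n) (hT : (n, q) ≠ (2, 2) ∧ (n, q) ≠ (2, 3))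
    (F₀ : Subfield F) (k q₀ : ℕ) (hk : k.Prime) (hF₀ : Nat.card ↥F₀ = q₀) (hqk : q = q₀ ^ k) (hC5 : ¬ (n = 2 ∧ q₀ = 2)) (r : ℕ) [Fact r.Prime] (hr2 : r ≠ 2) (hrp : r ≠ p) (hgap : ¬ (n = 6 ∧ r = 3)) (hgapk : r = k → r ∣ q₀ - 1 → padicValNat r n ≤ padicValNat r (q - 1)) (hΩ : r ∣ ((Cfsg.Geo.subfieldSubgroup F₀ 1).comap (Matrix.SpecialLinearGroup.toGL : Matrix.SpecialLinearGroup (Fin n) F →* GL (Fin n) F)).index) :
    (∀ x : Matrix.SpecialLinearGroup (Fin n) F,
      (∃ z : F, ((x ^ r : Matrix.SpecialLinearGroup (Fin n) F) : Matrix (Fin n) (Fin n) F) = z • (1 : Matrix (Fin n) (Fin n) F)) →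
      (∀ z : F, (x : Matrix (Fin n) (Fin n) F) ≠ z • (1 : Matrix (Fin n) (Fin n) F)) →
      ∃ P : Matrix.SpecialLinearGroup (Fin n) F, P⁻¹ * x * P ∈ ((Cfsg.Geo.subfieldSubgroup F₀ 1).comap (Matrix.SpecialLinearGroup.toGL : Matrix.SpecialLinearGroup (Fin n) F →* GL (Fin n) F))) ↔
    (r = k ∨ (k = 2 ∧ r = n ∧ (n = 3 ∨ n = 5) ∧ padicValNat r (q₀ + 1) = 1)) := by
  classical
  subst hq
  haveI : NeZero n := ⟨by omega⟩
  have hr : r.Prime := Fact.out
  haveI : NeZero r := ⟨hr.ne_zero⟩
  haveI : Fintype F₀ := Fintype.ofFinite _
  have hr3 : 3 ≤ r := by have := hr.two_le; omega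
  obtain ⟨σ, hσ, hfix⟩ := H19.SubF.exists_frob F₀ hF₀
  have hrF : (r : F) ≠ 0 := H97.cast_ne_zero_of_ne (p := p) hr hrp
  have hQ0 := H97.natCard_ne_zero_zmod (F := F) hrF
  have hqz : (Nat.card F : ZMod r) = (q₀ : ZMod r) ^ k := by
    rw [Nat.card_eq_fintype_card, hqk, Nat.cast_pow]
  have hrq0 : ¬ r ∣ q₀ := fun hd => hQ0 (by
    rw [hqz, (ZMod.natCast_eq_zero_iff _ _).2 hd, zero_pow hk.ne_zero])
  have hq03 : 2 ≤ q₀ := by rw [← hF₀]; exact Finite.one_lt_card
  have hlast : (-1 : ZMod r) ≠ 1 := fun h => by
    have h2 : ((2 : ℕ) : ZMod r) = 0 := by push_cast; linear_combination -h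
    have := Nat.le_of_dvd two_pos ((ZMod.natCast_eq_zero_iff _ _).1 h2)
    omega
  constructor
  · intro H
    by_contra hcon
    push Not at hcon
    obtain ⟨hrk, hexc⟩ := hcon
    obtain ⟨j, hj2, hjn, hjd⟩ := H19.SubF.exists_of_dvd_index hn hk.pos hF₀ hqk hr hrq0 hΩ
    have hsum : ∑ l ∈ Finset.range k, ((q₀ : ZMod r) ^ j) ^ l = 0 := by
      have := (ZMod.natCast_eq_zero_iff _ r).2 hjd
      push_cast at this
      exact this
    have hj1 : ((q₀ : ZMod r) ^ j) ^ k = 1 := by
      have := geom_sum_mul ((q₀ : ZMod r) ^ j) k
      rw [hsum, zero_mul] at this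
      exact sub_eq_zero.1 this.symm
    have hj0 : (q₀ : ZMod r) ^ j ≠ 1 := fun h1 => by
      rw [h1] at hsum
      simp only [one_pow, Finset.sum_const, Finset.card_range, nsmul_eq_mul, mul_one] at hsum
      exact hrk ((Nat.prime_dvd_prime_iff_eq hr hk).1 ((ZMod.natCast_eq_zero_iff _ _).1 hsum))
    have hqj : (Nat.card F : ZMod r) ^ j = 1 := by rw [hqz, ← pow_mul, mul_comm, pow_mul, hj1]
    have hij := orderOf_dvd_of_pow_eq_one hqj
    have hipos : 0 < orderOf (Nat.card F : ZMod r) := H97.orderOf_pos_zmod hrF
    rcases Nat.lt_or_ge (orderOf (Nat.card F : ZMod r)) 2 with hi | hi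
    swap
    · obtain ⟨x, hx, hxs, hno⟩ := H19.SubF.exists_block_witness (n := n) hF₀ hσ hfix hrF hi
        ((Nat.le_of_dvd (by omega) hij).trans hjn) (fun m hm => hj0 (by
          rw [← hm, ← pow_mul, mul_comm, pow_mul, hqj, one_pow]))
      exact hno (H x ⟨1, hx⟩ hxs)
    have hi1 : orderOf (Nat.card F : ZMod r) = 1 := by omega
    have hq1 : (Nat.card F : ZMod r) = 1 := orderOf_eq_one_iff.1 hi1
    have hrq1 : r ∣ Nat.card F - 1 := H97.dvd_sub_one_of_orderOf_eq_one hi1
    have hqk1 : (q₀ : ZMod r) ^ k = 1 := hqz ▸ hq1
    have hq0ne : (q₀ : ZMod r) ≠ 1 := fun h => hj0 (by rw [h, one_pow])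
    have hqne0 : (q₀ : ZMod r) ≠ 0 := fun h => hrq0 ((ZMod.natCast_eq_zero_iff _ _).1 h)
    -- diagonal elements
    have mk : ∀ (ζ w : F), IsPrimitiveRoot ζ r → w ≠ 0 → ∀ (e : Fin n → ZMod r),
        w ^ n * ζ ^ (∑ i, e i).val = 1 → (∃ i i', e i ≠ e i') →
        ∃ b : ZMod r, ((∀ a, (Finset.univ.filter fun i => (q₀ : ZMod r) * e i = a).card =
          (Finset.univ.filter fun i => e i + b = a).card) ∧
          (q₀ : ZMod r) * (∑ i, e i) = (∑ i, e i) + (n : ZMod r) * b) := by
      intro ζ w hζ hw e hdet hne
      have hred : ∀ t : ℕ, ζ ^ t = ζ ^ ((t : ZMod r)).val := fun t => by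
        rw [ZMod.val_natCast, hζ.eq_orderOf, pow_mod_orderOf]
      let x : Matrix.SpecialLinearGroup (Fin n) F := ⟨w • Matrix.diagonal fun i => ζ ^ (e i).val, by
        rw [Matrix.det_smul, Fintype.card_fin, Matrix.det_diagonal, Finset.prod_pow_eq_pow_sum,
          hred (∑ i, (e i).val), Nat.cast_sum]
        simp only [ZMod.natCast_val, ZMod.cast_id', id]
        exact hdet⟩
      have hxr : ((x ^ r : Matrix.SpecialLinearGroup (Fin n) F) : Matrix (Fin n) (Fin n) F) = w ^ r • 1 := by
        rw [Matrix.SpecialLinearGroup.coe_pow]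
        show (w • Matrix.diagonal fun i => ζ ^ (e i).val) ^ r = _
        rw [smul_pow, Matrix.diagonal_pow, ← Matrix.diagonal_one]
        congr 2
        funext i
        rw [Pi.pow_apply, ← pow_mul, mul_comm, pow_mul, hζ.pow_eq_one, one_pow]
      obtain ⟨P, hP⟩ := H x ⟨_, hxr⟩ (fun z hz => by
        obtain ⟨i, i', hii⟩ := hne
        have h1 := congrFun (congrFun hz i) i
        have h2 := congrFun (congrFun hz i') i'
        simp only [x, Matrix.smul_apply, Matrix.diagonal_apply_eq, Matrix.one_apply_eq, smul_eq_mul, mul_one] at h1 h2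
        exact hii (ZMod.val_injective r (hζ.pow_inj (ZMod.val_lt _) (ZMod.val_lt _)
          (mul_left_cancel₀ hw (h1.trans h2.symm)))))
      obtain ⟨b, hb⟩ := H19.SubF.exps_of_conj hσ hfix hζ hw e x P rfl hP
      refine ⟨b, fun a => ?_, ?_⟩
      · have := congrArg (Multiset.count a) hb
        rw [Multiset.count_map, Multiset.count_map] at this
        simp only [eq_comm (a := a)] at this
        exact this
      · have := congrArg Multiset.sum hb
        rw [← Finset.sum_eq_multiset_sum, ← Finset.sum_eq_multiset_sum, ← Finset.mul_sum, Finset.sum_add_distrib,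
          Finset.sum_const, Finset.card_univ, Fintype.card_fin, nsmul_eq_mul] at this
        exact this
    obtain ⟨g, hg⟩ := exists_prime_orderOf_dvd_card' (G := Fˣ) r (by rwa [Nat.card_units])
    have hζ : IsPrimitiveRoot (g : F) r := by
      rw [← hg, ← orderOf_units]; exact IsPrimitiveRoot.orderOf _
    let i0 : Fin n := ⟨0, by omega⟩
    let i1 : Fin n := ⟨1, by omega⟩
    have h01 : i1 ≠ i0 := by simp [i0, i1, Fin.ext_iff]
    by_cases hk2 : k = 2
    · subst hk2
      have hqm : (q₀ : ZMod r) = -1 := by
        rcases sq_eq_one_iff.1 hqk1 with h | h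
        · exact absurd h hq0ne
        · exact h
      have hjodd : Odd j := Nat.not_even_iff_odd.1 fun he => hj0 (by rw [hqm, he.neg_one_pow])
      have hn3 : 3 ≤ n := by obtain ⟨c, hc⟩ := hjodd; omega
      by_cases hnr : r = n ∧ (n = 3 ∨ n = 5)
      · obtain ⟨hrn, h35⟩ := hnr
        have hv := hexc rfl hrn h35
        have hd1 : r ∣ q₀ + 1 := (ZMod.natCast_eq_zero_iff _ _).1 (by push_cast; rw [hqm]; ring)
        have hv1 := one_le_padicValNat_of_dvd (by omega) hd1
        have hd2 : r ^ 2 ∣ q₀ + 1 := (Nat.pow_dvd_pow r (by omega : 2 ≤ padicValNat r (q₀ + 1))).trans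
          pow_padicValNat_dvd
        have hdq : r ^ 2 ∣ Nat.card Fˣ := by
          rw [Nat.card_units, Nat.card_eq_fintype_card, hqk,
            show q₀ ^ 2 - 1 = (q₀ + 1) * (q₀ - 1) by rw [← Nat.sq_sub_sq, one_pow]]
          exact hd2.trans (dvd_mul_right _ _)
        obtain ⟨v, hv'⟩ : ∃ v : Fˣ, orderOf v = r ^ 2 := by
          obtain ⟨u, hu⟩ := IsCyclic.exists_generator (α := Fˣ)
          have ho := orderOf_eq_card_of_forall_mem_zpowers hu
          exact ⟨u ^ (orderOf u / r ^ 2), orderOf_pow_orderOf_div (orderOf_pos u).ne' (ho ▸ hdq)⟩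
        have hζ' : IsPrimitiveRoot ((v : F) ^ r) r := by
          have : orderOf ((v : F) ^ r) = r := by
            rw [← Units.val_pow_eq_pow_val, orderOf_units, orderOf_pow' _ hr.ne_zero, hv',
              Nat.gcd_eq_right (dvd_pow_self r two_ne_zero), pow_two, Nat.mul_div_cancel _ hr.pos]
          have h2 := IsPrimitiveRoot.orderOf ((v : F) ^ r)
          rwa [this] at h2
        let e : Fin n → ZMod r := Pi.single i0 (-1)
        have he : ∀ i, e i = if i = i0 then -1 else 0 := fun i => by simp [e, Pi.single_apply]
        have hS : ∑ i, e i = -1 := by simp [e]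
        have hvm : (-1 : ZMod r).val = r - 1 := by
          obtain ⟨c, rfl⟩ : ∃ c, r = c + 1 := ⟨r - 1, by omega⟩
          exact ZMod.val_neg_one c
        obtain ⟨b, hcnt, -⟩ := mk _ (v : F) hζ' v.ne_zero e (by
          rw [hS, hvm, show (v : F) ^ n = (v : F) ^ r by rw [hrn], ← pow_succ', Nat.sub_add_cancel (by omega),
            hζ'.pow_eq_one]) ⟨i0, i1, by simp [he, h01]⟩
        have hb0 : b = 0 := by
          by_contra hb
          have h1 := hcnt b
          have hR : (Finset.univ.filter fun i => e i + b = b) = Finset.univ.erase i0 := by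
            ext i
            by_cases hi : i = i0 <;> simp [he, hi]
          have hL : (Finset.univ.filter fun i => (q₀ : ZMod r) * e i = b) ⊆ {i0} := by
            intro i hi
            by_contra hc
            simp only [Finset.mem_singleton] at hc
            simp [he, hc, Ne.symm hb] at hi
          rw [hR, Finset.card_erase_of_mem (Finset.mem_univ _), Finset.card_univ, Fintype.card_fin] at h1
          have := Finset.card_le_card hL
          rw [Finset.card_singleton] at this
          omega
        subst hb0
        have h1 := hcnt 1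
        have hL : i0 ∈ Finset.univ.filter fun i => (q₀ : ZMod r) * e i = 1 := by simp [he, hqm]
        have hR : (Finset.univ.filter fun i => e i + (0 : ZMod r) = 1) = ∅ := by
          ext i
          by_cases hi : i = i0
          · simp [he, hi, hlast]
          · simp [he, hi]
        rw [hR, Finset.card_empty, Finset.card_eq_zero] at h1
        rw [h1] at hL
        exact Finset.notMem_empty _ hL
      · let i2 : Fin n := ⟨2, by omega⟩
        have h02 : i2 ≠ i0 := by simp [i0, i2, Fin.ext_iff]
        have h12 : i2 ≠ i1 := by simp [i1, i2, Fin.ext_iff]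
        let e : Fin n → ZMod r := Pi.single i0 1 + Pi.single i1 1 + Pi.single i2 (-2)
        have hS : ∑ i, e i = 0 := by
          simp only [e, Pi.add_apply, Finset.sum_add_distrib, Finset.sum_pi_single', Finset.mem_univ, if_true]
          norm_num
        have he : ∀ i, e i = if i = i0 then 1 else if i = i1 then 1 else if i = i2 then -2 else 0 := by
          intro i
          simp only [e, Pi.add_apply, Pi.single_apply]
          by_cases a : i = i0 <;> by_cases b : i = i1 <;> by_cases c : i = i2 <;> simp_all
        have h2ne : (2 : ZMod r) ≠ 0 := fun h => hlast (by linear_combination -h)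
        have hne : ∃ i i', e i ≠ e i' := by
          by_cases hn4 : 4 ≤ n
          · refine ⟨i0, ⟨3, by omega⟩, ?_⟩
            rw [he, he, if_pos rfl, if_neg (by simp [i0, Fin.ext_iff]), if_neg (by simp [i1, Fin.ext_iff]),
              if_neg (by simp [i2, Fin.ext_iff])]
            exact one_ne_zero
          · refine ⟨i0, i2, ?_⟩
            rw [he, he, if_pos rfl, if_neg h02, if_neg h12, if_pos rfl]
            intro h
            have h3 : ((3 : ℕ) : ZMod r) = 0 := by push_cast; linear_combination h
            have := Nat.le_of_dvd (by norm_num) ((ZMod.natCast_eq_zero_iff _ _).1 h3)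
            exact hnr ⟨by omega, Or.inl (by omega)⟩
        obtain ⟨b, hcnt, hbS⟩ := mk (g : F) 1 hζ one_ne_zero e (by rw [hS, ZMod.val_zero]; simp) hne
        rw [hS, mul_zero, zero_add, eq_comm, mul_eq_zero] at hbS
        have hsupp : ∀ i, e i ≠ 0 → i ∈ ({i0, i1, i2} : Finset (Fin n)) := fun i hi => by
          rw [he] at hi
          simp only [Finset.mem_insert, Finset.mem_singleton]
          by_contra hc
          push Not at hc
          simp [hc.1, hc.2.1, hc.2.2] at hi
        have hb0 : b = 0 := by
          by_contra hb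
          have hrn : r ∣ n := (ZMod.natCast_eq_zero_iff _ _).1 (hbS.resolve_right hb)
          have hn7 : 7 ≤ n := by
            obtain ⟨c, hc⟩ := hrn
            by_contra h7
            have hr4 : r ≠ 4 := fun h => absurd (h ▸ hr) (by decide)
            have hr6 : r ≠ 6 := fun h => absurd (h ▸ hr) (by decide)
            rcases c with _ | _ | c
            · omega
            · have : r = n := by omega
              exact hnr ⟨this, by omega⟩
            · have : r * 2 ≤ n := by rw [hc]; exact Nat.mul_le_mul le_rfl (by omega)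
              exact hgap ⟨by omega, by omega⟩
          have h1 := hcnt b
          have hL : (Finset.univ.filter fun i => (q₀ : ZMod r) * e i = b) ⊆ {i0, i1, i2} := by
            intro i hi
            refine hsupp i fun h0 => ?_
            rw [Finset.mem_filter, h0, mul_zero] at hi
            exact hb hi.2.symm
          have hR : Finset.univ \ {i0, i1, i2} ⊆ Finset.univ.filter fun i => e i + b = b := by
            intro i hi
            rw [Finset.mem_filter]
            refine ⟨Finset.mem_univ _, ?_⟩
            by_cases h0 : e i = 0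
            · rw [h0, zero_add]
            · exact absurd (hsupp i h0) (Finset.mem_sdiff.1 hi).2
          have h2 := Finset.card_le_card hL
          have h3 := Finset.card_le_card hR
          have h4 := Finset.card_le_three (a := i0) (b := i1) (c := i2)
          rw [Finset.card_sdiff_of_subset (Finset.subset_univ _), Finset.card_univ, Fintype.card_fin] at h3
          omega
        subst hb0
        have h1 := hcnt (-1)
        have hL : i0 ∈ Finset.univ.filter fun i => (q₀ : ZMod r) * e i = -1 := by simp [he, hqm]
        have hR : (Finset.univ.filter fun i => e i + (0 : ZMod r) = -1) = ∅ := by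
          ext i
          simp only [Finset.mem_filter, Finset.mem_univ, true_and, add_zero, Finset.notMem_empty, iff_false, he]
          split_ifs
          · exact hlast.symm
          · exact hlast.symm
          · intro h; exact one_ne_zero (α := ZMod r) (by linear_combination -h)
          · exact fun h => one_ne_zero (α := ZMod r) (by linear_combination h)
        rw [hR, Finset.card_empty, Finset.card_eq_zero] at h1
        rw [h1] at hL
        exact Finset.notMem_empty _ hL
    · let e : Fin n → ZMod r := Pi.single i0 1 + Pi.single i1 (-1)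
      have hS : ∑ i, e i = 0 := by
        simp [e, Finset.sum_add_distrib]
      have he : ∀ i, e i = if i = i0 then 1 else if i = i1 then -1 else 0 := by
        intro i
        simp only [e, Pi.add_apply, Pi.single_apply]
        by_cases a : i = i0 <;> by_cases b : i = i1 <;> simp_all
      have hkodd := hk.odd_of_ne_two hk2
      have hq0m : (q₀ : ZMod r) ≠ -1 := fun h => hlast (by have := hqk1; rwa [h, hkodd.neg_one_pow] at this)
      obtain ⟨b, hcnt, hbS⟩ := mk (g : F) 1 hζ one_ne_zero e (by rw [hS, ZMod.val_zero]; simp)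
        ⟨i0, i1, by rw [he, he, if_pos rfl, if_neg h01, if_pos rfl]; exact hlast.symm⟩
      rw [hS, mul_zero, zero_add, eq_comm, mul_eq_zero] at hbS
      have hb0 : b = 0 := by
        by_contra hb
        have hrn : r ∣ n := (ZMod.natCast_eq_zero_iff _ _).1 (hbS.resolve_right hb)
        have hr5 : r ≠ 3 := by
          rintro rfl
          rcases zmod_three (q₀ : ZMod 3) with h | h | h
          · exact hqne0 h
          · exact hq0ne h
          · exact hq0m h
        have hn4 : 4 ≤ n := by
          have := Nat.le_of_dvd (by omega) hrn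
          omega
        have h1 := hcnt b
        have hR : (Finset.univ.filter fun i => e i + b = b) = Finset.univ \ {i0, i1} := by
          ext i
          by_cases a : i = i0
          · simp [he, a]
          by_cases c : i = i1
          · simp [he, c, h01]
          simp [he, a, c]
        have hL : (Finset.univ.filter fun i => (q₀ : ZMod r) * e i = b) ⊆ {i0, i1} := by
          intro i hi
          by_contra hc
          simp only [Finset.mem_insert, Finset.mem_singleton, not_or] at hc
          simp [he, hc.1, hc.2, Ne.symm hb] at hi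
        have hnot : ¬ ({i0, i1} : Finset (Fin n)) ⊆ Finset.univ.filter fun i => (q₀ : ZMod r) * e i = b := by
          intro h
          have a := (Finset.mem_filter.1 (h (Finset.mem_insert_self _ _))).2
          have c := (Finset.mem_filter.1 (h (Finset.mem_insert_of_mem (Finset.mem_singleton_self _)))).2
          rw [he, if_pos rfl, mul_one] at a
          rw [he, if_neg h01, if_pos rfl, mul_neg, mul_one] at c
          have h4 : (q₀ : ZMod r) * ((-1) - 1) = 0 := by linear_combination c - a
          exact hlast (sub_eq_zero.1 ((mul_eq_zero.1 h4).resolve_left hqne0))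
        have hlt := Finset.card_lt_card (Finset.ssubset_iff_subset_ne.2 ⟨hL, fun h => hnot h.ge⟩)
        rw [Finset.card_pair h01.symm] at hlt
        rw [hR, Finset.card_sdiff_of_subset (Finset.subset_univ _), Finset.card_univ, Fintype.card_fin,
          Finset.card_pair h01.symm] at h1
        omega
      subst hb0
      have h1 := hcnt (q₀ : ZMod r)
      have hL : i0 ∈ Finset.univ.filter fun i => (q₀ : ZMod r) * e i = (q₀ : ZMod r) := by simp [he]
      have hR : (Finset.univ.filter fun i => e i + (0 : ZMod r) = (q₀ : ZMod r)) = ∅ := by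
        ext i
        simp only [Finset.mem_filter, Finset.mem_univ, true_and, add_zero, Finset.notMem_empty, iff_false, he]
        split_ifs
        · exact hq0ne.symm
        · exact hq0m.symm
        · exact hqne0.symm
      rw [hR, Finset.card_empty, Finset.card_eq_zero] at h1
      rw [h1] at hL
      exact Finset.notMem_empty _ hL
  · intro hcond x ⟨z, hz⟩ hns
    obtain ⟨hxr, hz0, hdet⟩ := H97.SL_setup (by omega) x hz
    set T : Module.End F (Fin n → F) := Matrix.toLin' (x : Matrix (Fin n) (Fin n) F) with hT
    have hnt : ∃ w : F, w ^ r = z := by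
      by_contra hno
      push Not at hno
      have hrq1 : r ∣ Nat.card F - 1 := by
        by_contra hnd
        have hco : (Nat.card Fˣ).Coprime r := by
          rw [Nat.card_units]; exact (hr.coprime_iff_not_dvd.2 hnd).symm
        exact hno (((powCoprime hco).symm (Units.mk0 z hz0) : Fˣ) : F) (by
          rw [← Units.val_pow_eq_pow_val]
          exact congrArg Units.val ((powCoprime hco).apply_symm_apply (Units.mk0 z hz0)))
      refine H97.not_cond_of_twisted (by omega) hrq1 T hz0 hno hxr hdet ⟨?_, fun h => absurd h hr2⟩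
      rcases hcond with hrk | ⟨-, hrn, -, -⟩
      · have hd : r ∣ q₀ - 1 := by
          have h1 : (Nat.card F : ZMod r) = ((1 : ℕ) : ZMod r) :=
            (ZMod.natCast_eq_natCast_iff _ _ _).2 ((Nat.modEq_iff_dvd' Nat.card_pos).2 hrq1).symm
          rw [hqz, ← hrk, ZMod.pow_card] at h1
          exact (Nat.modEq_iff_dvd' (by omega)).1 ((ZMod.natCast_eq_natCast_iff _ _ _).1 h1).symm
        rw [Nat.card_eq_fintype_card]
        exact hgapk hrk hd
      · rw [← hrn, padicValNat_self]
        exact one_le_padicValNat_of_dvd (by have := Finite.one_lt_card (α := F); omega) hrq1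
    obtain ⟨w, rfl⟩ := hnt
    have hw : w ≠ 0 := fun h => hz0 (by rw [h, zero_pow hr.ne_zero])
    have hyr : (w⁻¹ • T) ^ r = 1 := by
      rw [smul_pow, hxr, smul_smul, ← mul_pow, inv_mul_cancel₀ hw, one_pow, one_smul]
    rcases hcond with hrk | ⟨hk2, hrn, h35, hv⟩
    · haveI : CharP F₀ p := (RingHom.charP_iff_charP (F₀.subtype : F₀ →+* F) p).2 inferInstance
      obtain ⟨N, -, hN⟩ := FiniteField.card F₀ p
      rw [← Nat.card_eq_fintype_card, hF₀] at hN
      obtain ⟨m, b, hb⟩ := H19.SubF.exists_basis hrF (fun _ v => v ∈ F₀) (zero_mem _) (fun g hgi hgm hgd a c => by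
        haveI : Fact (Irreducible g) := ⟨hgi⟩
        haveI : CharP (AdjoinRoot g) p := charP_of_injective_algebraMap (algebraMap F _).injective p
        have hg0 : Polynomial.aeval (AdjoinRoot.root g) g = 0 := by
          rw [Polynomial.aeval_def, AdjoinRoot.algebraMap_eq, AdjoinRoot.eval₂_root]
        have hρr : AdjoinRoot.root g ^ r = 1 := by
          obtain ⟨d, hd⟩ := hgd
          have h1 : Polynomial.aeval (AdjoinRoot.root g) ((Polynomial.X : Polynomial F) ^ r - 1) = 0 := by
            rw [hd, map_mul, hg0, zero_mul]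
          simpa [sub_eq_zero] using h1
        have hmod : AdjoinRoot.root g ^ q₀ = AdjoinRoot.root g ^ Nat.card F := by
          have h1 : (q₀ : ZMod r) = (Nat.card F : ZMod r) := by rw [hqz, ← hrk, ZMod.pow_card]
          exact pow_eq_pow_of_modEq ((ZMod.natCast_eq_natCast_iff _ _ _).1 h1) hρr
        have h1 : Polynomial.aeval (AdjoinRoot.root g ^ q₀) g = 0 := by
          rw [hmod, ← Polynomial.expand_aeval, Nat.card_eq_fintype_card, FiniteField.expand_card, map_pow, hg0,
            zero_pow Fintype.card_ne_zero]
        have h2 : Polynomial.aeval (AdjoinRoot.root g ^ q₀) (g.map σ) = 0 := by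
          have hcomp : (algebraMap F (AdjoinRoot g)).comp σ =
              (iterateFrobenius (AdjoinRoot g) p N).comp (algebraMap F (AdjoinRoot g)) := RingHom.ext fun a => by
            rw [RingHom.comp_apply, RingHom.comp_apply, iterateFrobenius_def, hσ, map_pow, hN]
          rw [Polynomial.aeval_def, Polynomial.eval₂_map, hcomp, hN, ← iterateFrobenius_def (p := p),
            ← Polynomial.hom_eval₂, ← Polynomial.aeval_def, hg0, map_zero]
        have hgσ : g.map σ = g := by
          have e1 := minpoly.eq_of_irreducible_of_monic hgi h1 hgm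
          have e2 : minpoly F (AdjoinRoot.root g ^ q₀) ∣ g.map σ := minpoly.dvd F _ h2
          rw [← e1] at e2
          exact (Polynomial.eq_of_monic_of_dvd_of_natDegree_le hgm (hgm.map σ) e2
            Polynomial.natDegree_map_le)
        have hcoe : ∀ i, g.coeff i ∈ F₀ := fun i => (hfix _).2 (by
          conv_rhs => rw [← hgσ]
          rw [Polynomial.coeff_map])
        have hgen : AdjoinRoot.root g = (AdjoinRoot.powerBasis hgi.ne_zero).gen := rfl
        rw [hgen, PowerBasis.leftMulMatrix, Matrix.of_apply, PowerBasis.minpolyGen_eq, ← hgen,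
          ← minpoly.eq_of_irreducible_of_monic hgi hg0 hgm]
        split_ifs
        · exact neg_mem (hcoe _)
        · exact one_mem _
        · exact zero_mem _) _ (Fin n → F) (w⁻¹ • T) le_rfl hyr
      refine H97.exists_conj_subfield x b (inv_ne_zero hw) (fun i l => ?_) fun μ _ => ?_
      · have := hb i l
        rwa [LinearMap.smul_apply, map_smul, Finsupp.smul_apply, smul_eq_mul, hT, Matrix.toLin'_apply] at this
      · obtain ⟨u, hu, hud⟩ := H19.SubF.exists_det (by omega) hrF (w⁻¹ • T) hyr μ
        refine ⟨u, ?_, hud⟩
        rw [smul_mul_assoc, mul_smul_comm] at hu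
        exact smul_right_injective _ (inv_ne_zero hw) hu
    · subst hk2
      subst hrn
      have hd1 : r ∣ q₀ + 1 := dvd_of_one_le_padicValNat (by omega)
      have hqm : (q₀ : ZMod r) = -1 := by
        have := (ZMod.natCast_eq_zero_iff _ r).2 hd1
        push_cast at this
        linear_combination this
      have hq1 : (Nat.card F : ZMod r) = 1 := by rw [hqz, hqm]; ring
      -- the scalar is trivial
      have hwr : w ^ r = 1 := by
        have h1 : ((w⁻¹) ^ r) ^ r = 1 := by
          have := congrArg LinearMap.det hyr
          rw [map_pow, LinearMap.det_smul, hdet, mul_one, Module.finrank_fin_fun, map_one] at this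
          exact this
        let u := Units.mk0 w hw
        have h2 : orderOf u ∣ r ^ 2 := orderOf_dvd_of_pow_eq_one (Units.ext (by
          rw [Units.val_pow_eq_pow_val, Units.val_one, pow_two, pow_mul]
          rw [inv_pow, inv_pow, inv_eq_one] at h1
          exact h1))
        have h3 : orderOf u ∣ Nat.card Fˣ := orderOf_dvd_natCard u
        obtain ⟨i, hi, hio⟩ := (Nat.dvd_prime_pow hr).1 h2
        have hi2 : i ≠ 2 := by
          rintro rfl
          rw [hio, Nat.card_units, Nat.card_eq_fintype_card, hqk,
            show q₀ ^ 2 - 1 = (q₀ + 1) * (q₀ - 1) by rw [← Nat.sq_sub_sq, one_pow]] at h3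
          have hco : Nat.Coprime (r ^ 2) (q₀ - 1) := Nat.Coprime.pow_left _ (hr.coprime_iff_not_dvd.2 fun hd => by
            have h4 : r ∣ (q₀ + 1) - (q₀ - 1) := Nat.dvd_sub hd1 hd
            rw [show q₀ + 1 - (q₀ - 1) = 2 by omega] at h4
            have := Nat.le_of_dvd two_pos h4
            omega)
          have h5 := (padicValNat_dvd_iff_le (p := r) (by omega)).1 (hco.dvd_of_dvd_mul_right h3)
          omega
        have h4 : u ^ r = 1 := orderOf_dvd_iff_pow_eq_one.1 (by
          rw [hio]; exact (Nat.pow_dvd_pow r (show i ≤ 1 by omega)).trans (pow_one r).dvd)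
        simpa [u] using congrArg Units.val h4
      rw [hwr, one_smul] at hxr
      obtain ⟨m, b', hb'⟩ := H19.SubF.exists_basis hrF (fun s v => s = false → v = 0) (fun _ => rfl)
        (fun g hgi hgm hgd a c => by
          haveI : Fact (Irreducible g) := ⟨hgi⟩
          have hd1 : g.natDegree ∣ 1 := hgi.natDegree_dvd_of_dvd_X_pow_card_pow_sub_X (by
            have hrq : r ∣ Nat.card F - 1 := H97.dvd_sub_one_of_orderOf_eq_one (orderOf_eq_one_iff.2 hq1)
            obtain ⟨t, ht⟩ := hrq
            refine hgd.trans ?_
            rw [pow_one]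
            have hh : (Polynomial.X : Polynomial F) ^ r - 1 ∣ Polynomial.X ^ (r * t) - 1 := by
              simpa [pow_mul] using sub_dvd_pow_sub_pow ((Polynomial.X : Polynomial F) ^ r) 1 t
            rw [← ht] at hh
            refine hh.trans ⟨Polynomial.X, ?_⟩
            rw [sub_mul, one_mul, ← pow_succ, Nat.sub_add_cancel Nat.card_pos])
          intro hac
          exfalso
          have ha := a.2
          have hc := c.2
          have hdim : (AdjoinRoot.powerBasis hgi.ne_zero).dim = 1 := by
            rw [AdjoinRoot.powerBasis_dim]; exact Nat.dvd_one.1 hd1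
          exact of_decide_eq_false hac (Fin.ext (by omega))) _ (Fin r → F) T le_rfl hxr
      obtain rfl : m = r := by
        have := Module.finrank_eq_card_basis b'
        rwa [Module.finrank_fin_fun, Fintype.card_fin, eq_comm] at this
      set d : Fin m → F := fun i => b'.repr (T (b' i)) i with hd
      have hTb : ∀ i, T (b' i) = d i • b' i := fun i => b'.repr.injective (by
        ext l
        rw [map_smul, Finsupp.smul_apply, Module.Basis.repr_self, smul_eq_mul]
        by_cases hli : l = i
        · subst hli; rw [Finsupp.single_eq_same, mul_one]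
        · rw [Finsupp.single_eq_of_ne hli, mul_zero]
          exact hb' l i (decide_eq_false hli))
      have hdr : ∀ i, d i ^ m = 1 := fun i => by
        have h1 : ∀ s : ℕ, (T ^ s) (b' i) = d i ^ s • b' i := by
          intro s
          induction s with
          | zero => simp
          | succ s ih => rw [pow_succ', Module.End.mul_apply, ih, map_smul, hTb, smul_smul, ← pow_succ]
        have h2 := h1 m
        rw [hxr, Module.End.one_apply] at h2
        have h3 := congrArg (fun v => b'.repr v i) h2
        simpa using h3.symm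
      obtain ⟨g, hg⟩ := exists_prime_orderOf_dvd_card' (G := Fˣ) m (by
        rw [Nat.card_units]; exact H97.dvd_sub_one_of_orderOf_eq_one (orderOf_eq_one_iff.2 hq1))
      have hζ : IsPrimitiveRoot (g : F) m := by
        rw [← hg, ← orderOf_units]; exact IsPrimitiveRoot.orderOf _
      have hred : ∀ t : ℕ, (g : F) ^ t = (g : F) ^ ((t : ZMod m)).val := fun t => by
        rw [ZMod.val_natCast, hζ.eq_orderOf, pow_mod_orderOf]
      have hex : ∀ i, ∃ e : ZMod m, (g : F) ^ e.val = d i := fun i => by
        obtain ⟨e, -, he⟩ := hζ.eq_pow_of_pow_eq_one (hdr i)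
        exact ⟨e, by rw [← hred, he]⟩
      choose e he using hex
      have hsum : ∑ i, e i = 0 := by
        have h1 : LinearMap.det T = ∏ i, d i := by
          rw [← LinearMap.det_toMatrix b', show LinearMap.toMatrix b' b' T = Matrix.diagonal d from ?_,
            Matrix.det_diagonal]
          ext l i
          rw [LinearMap.toMatrix_apply, hTb, map_smul, Finsupp.smul_apply, Module.Basis.repr_self, smul_eq_mul]
          by_cases hli : l = i
          · subst hli; simp
          · simp [hli, Finsupp.single_eq_of_ne hli]
        rw [hdet] at h1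
        simp only [← he, Finset.prod_pow_eq_pow_sum] at h1
        have h2 := (ZMod.natCast_eq_zero_iff (∑ i, (e i).val) m).2 (hζ.dvd_of_pow_eq_one _ h1.symm)
        simpa [Nat.cast_sum] using h2
      obtain ⟨t, ht⟩ : ∃ t : ZMod m, ∀ a, (Finset.univ.filter fun i => e i = t + t - a).card =
          (Finset.univ.filter fun i => e i = a).card := by
        rcases h35 with rfl | rfl
        · exact H19.SubF.symm_three e (by rw [← hsum, Fin.sum_univ_three])
        · exact H19.SubF.symm_five e (by rw [← hsum, Fin.sum_univ_five])
      obtain ⟨π, hπ, hπe⟩ := H19.SubF.exists_pairing e t ht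
      refine H19.SubF.conj_of_involution hfix (fun a => ?_) ?_ x b' d hTb
        (c := (g : F) ^ (-t).val) (pow_ne_zero _ g.ne_zero) π hπ fun i => ?_
      · rw [hσ, hσ, ← pow_mul, ← pow_two, ← hqk, FiniteField.pow_card]
      · by_contra hall
        push Not at hall
        have h1 : Nat.card F₀ = Nat.card F :=
          Nat.card_congr (Equiv.subtypeUnivEquiv hall)
        rw [hF₀, Nat.card_eq_fintype_card, hqk, pow_two] at h1
        nlinarith
      · rw [← he, ← he, ← pow_add, ← pow_add, hσ, ← pow_mul, hred (((-t).val + (e i).val) * q₀),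
          hred ((-t).val + (e (π i)).val)]
        congr 2
        simp only [Nat.cast_mul, Nat.cast_add, ZMod.natCast_val, ZMod.cast_id', id, hqm, hπe]
        ring

end Cfsg.Agent.S5965
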