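import Cfsg.Statements.S5966
import Cfsg.Agent.H97.SubfieldUnipotent
import Cfsg.Agent.H97.LinearCriteria

set_option autoImplicit false
open scoped MatrixGroups
open Cfsg

namespace Cfsg.Agent.S5966

/-- Elements of order 3 of PSL_n(q) in characteristic 3 and subfield subgroups. Here `T = PSL_n(F)` for a field `F` with `q` elements, `q` a power of 3 (`n ≥ 2`, `(n, q) ≠ (2, 2), (2, 3)`), `F₀` is the subfield with `q₀` elements where `q = q₀^k` for a prime `k`, and `H` is the subgroup of matrices of determinant 1 lying in the subfield group of `F₀` (invertible matrices over `F₀` times scalars) — a maximal subgroup of type GL_n(q₀) (the case `n = 2`, `q₀ = 2` is excluded); Ω is the set of `T`-conjugates of `H` (cosets of `H`), so an element of `T` of prime order `r` (a matrix `x` of determinant 1 with `x^r` scalar, `x` not scalar) fixes a point of Ω when some conjugate of `x` by a matrix of determinant 1 lies in `H`. Suppose 3 divides the index of `H`. Then every element of `T` of order 3 is conjugate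 in `T` into `H` if and only if `n` is odd, or `n` is even and `k > 2`. -/
theorem result {F : Type*} [Field F] [Fintype F] [CharP F 3] {q : ℕ} (hq : Fintype.card F = q)
    (n : ℕ) (hn : 2 ≤ n) (hT : (n, q) ≠ (2, 3))
    (F₀ : Subfield F) (k q₀ : ℕ) (hk : k.Prime) (hF₀ : Nat.card ↥F₀ = q₀) (hqk : q = q₀ ^ k) (hC5 : ¬ (n = 2 ∧ q₀ = 2)) (hΩ : 3 ∣ ((Cfsg.Geo.subfieldSubgroup F₀ 1).comap (Matrix.SpecialLinearGroup.toGL : Matrix.SpecialLinearGroup (Fin n) F →* GL (Fin n) F)).index) :
    (∀ x : Matrix.SpecialLinearGroup (Fin n) F,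
      (∃ z : F, ((x ^ 3 : Matrix.SpecialLinearGroup (Fin n) F) : Matrix (Fin n) (Fin n) F) = z • (1 : Matrix (Fin n) (Fin n) F)) →
      (∀ z : F, (x : Matrix (Fin n) (Fin n) F) ≠ z • (1 : Matrix (Fin n) (Fin n) F)) →
      ∃ P : Matrix.SpecialLinearGroup (Fin n) F, P⁻¹ * x * P ∈ ((Cfsg.Geo.subfieldSubgroup F₀ 1).comap (Matrix.SpecialLinearGroup.toGL : Matrix.SpecialLinearGroup (Fin n) F →* GL (Fin n) F))) ↔
    (Odd n ∨ (Even n ∧ 2 < k)) := by
  classical
  subst hq
  haveI : NeZero n := ⟨by omega⟩
  haveI : Fintype F₀ := Fintype.ofFinite _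
  haveI : Fact (Nat.Prime 3) := ⟨Nat.prime_three⟩
  have h3 : (3 : F) = 0 := by exact_mod_cast CharP.cast_eq_zero F 3
  have hcard0 : Fintype.card F₀ = q₀ := by rw [← hF₀, Nat.card_eq_fintype_card]
  have hchar : ringChar F ≠ 2 := by rw [ringChar.eq F 3]; omega
  have hchar0 : ringChar F₀ ≠ 2 := by
    haveI : CharP F₀ 3 := (RingHom.charP_iff_charP (F₀.subtype : F₀ →+* F) 3).2 inferInstance
    rw [ringChar.eq F₀ 3]; omega
  have hcube : Function.Bijective fun a : F => a ^ 3 :=
    Finite.injective_iff_bijective.1 (frobenius_inj F 3)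
  obtain ⟨v₀, hv₀⟩ : Odd q₀ := by
    rw [← hcard0]; exact Nat.odd_iff.2 (FiniteField.odd_card_of_char_ne_two hchar0)
  have hv0pos : 0 < v₀ := by
    have : 1 < q₀ := by rw [← hcard0]; exact Fintype.one_lt_card
    omega
  set S := ∑ i ∈ Finset.range k, q₀ ^ i with hSdef
  have hhalf : Fintype.card F / 2 = v₀ * S := by
    have h1 := geom_sum_mul_of_one_le (x := q₀) (by omega) k
    rw [← hSdef, ← hqk, show q₀ - 1 = 2 * v₀ by omega,
      show S * (2 * v₀) = 2 * (v₀ * S) by ring] at h1
    have : Fintype.card F % 2 = 1 := FiniteField.odd_card_of_char_ne_two hchar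
    omega
  constructor
  · intro hall
    by_contra hcon
    obtain ⟨hev, hk2⟩ : Even n ∧ k = 2 := by
      rw [not_or] at hcon
      have hev := Nat.not_odd_iff_even.1 hcon.1
      exact ⟨hev, le_antisymm (not_lt.1 fun h => hcon.2 ⟨hev, h⟩) hk.two_le⟩
    obtain ⟨l, rfl⟩ := hev
    have hsq0 : ∀ a : F₀, a ≠ 0 → IsSquare (a : F) := by
      intro a ha
      rw [FiniteField.isSquare_iff hchar (fun h => ha (Subtype.ext h)), hhalf,
        show v₀ * S = (q₀ - 1) * (v₀ + 1) by
          rw [hSdef, hk2, Finset.sum_range_succ, Finset.sum_range_one, hv₀,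
            show 2 * v₀ + 1 - 1 = 2 * v₀ by omega]
          ring,
        pow_mul, ← SubmonoidClass.coe_pow, ← hcard0, FiniteField.pow_card_sub_one_eq_one a ha,
        OneMemClass.coe_one, one_pow]
    obtain ⟨μ, hμ⟩ := FiniteField.exists_nonsquare hchar
    have hμ0 : μ ≠ 0 := fun h => hμ (h ▸ IsSquare.zero)
    let e : Fin l ⊕ Fin l ≃ Fin (l + l) := finSumFinEquiv
    let i0 : Fin l ⊕ Fin l := .inl ⟨0, by omega⟩
    let X0 : Matrix (Fin l ⊕ Fin l) (Fin l ⊕ Fin l) F := Matrix.fromBlocks 1 0 1 1
    let K : Matrix (Fin l ⊕ Fin l) (Fin l ⊕ Fin l) F := Matrix.fromBlocks 0 0 1 0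
    let G : Matrix (Fin l ⊕ Fin l) (Fin l ⊕ Fin l) F := Matrix.diagonal (Function.update 1 i0 μ)
    let Gi : Matrix (Fin l ⊕ Fin l) (Fin l ⊕ Fin l) F := Matrix.diagonal (Function.update 1 i0 μ⁻¹)
    have hGG : G * Gi = 1 ∧ Gi * G = 1 := by
      constructor <;>
      · rw [Matrix.diagonal_mul_diagonal, ← Matrix.diagonal_one]
        congr 1
        funext i
        by_cases h : i = i0
        · subst h; simp [hμ0]
        · simp [Function.update_of_ne h]
    let r := Matrix.reindexAlgEquiv F F e
    have hX0K : X0 = 1 + K := by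
      simp only [X0, K]
      rw [← Matrix.fromBlocks_one, Matrix.fromBlocks_add]
      simp
    have hKK : K * K = 0 := by
      simp [K, Matrix.fromBlocks_multiply]
    have hdx : (r (G * X0 * Gi)).det = 1 := by
      rw [Matrix.coe_reindexAlgEquiv, Matrix.det_reindex_self, Matrix.det_mul, Matrix.det_mul,
        show X0.det = 1 by simp [X0], mul_one, ← Matrix.det_mul, hGG.1, Matrix.det_one]
    obtain ⟨x, hxm⟩ : ∃ x : Matrix.SpecialLinearGroup (Fin (l + l)) F,
        (x : Matrix (Fin (l + l)) (Fin (l + l)) F) = r (G * X0 * Gi) := ⟨⟨_, hdx⟩, rfl⟩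
    have hX3 : X0 ^ 3 = 1 := by
      have hnk : ((3 : ℕ) • K) = 0 := by
        ext a b
        rw [Matrix.smul_apply, nsmul_eq_mul]
        simp [h3]
      calc X0 ^ 3 = 1 + (3 : ℕ) • K + ((3 : ℕ) • (K * K) + K * K * K) := by rw [hX0K]; noncomm_ring
        _ = 1 := by rw [hnk, hKK]; simp
    obtain ⟨P, hP⟩ := hall x ⟨1, by
      rw [one_smul, Matrix.SpecialLinearGroup.coe_pow, hxm, ← map_pow,
        show (G * X0 * Gi) ^ 3 = G * X0 * (Gi * G) * X0 * (Gi * G) * X0 * Gi by noncomm_ring,
        hGG.2, mul_one, mul_one, show G * X0 * X0 * X0 * Gi = G * X0 ^ 3 * Gi by noncomm_ring,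
        hX3, mul_one, hGG.1, map_one]⟩ (fun w hw => by
      have h1 : G * X0 * Gi = w • 1 := r.injective (by rw [← hxm, hw, map_smul, map_one])
      have h2 : Gi * (G * X0 * Gi) * G = w • 1 := by
        rw [h1, mul_smul_comm, smul_mul_assoc, mul_one, hGG.2]
      rw [← mul_assoc, ← mul_assoc, hGG.2, one_mul, mul_assoc, hGG.2, mul_one] at h2
      have h4 := congrFun (congrFun h2 (.inr ⟨0, by omega⟩)) (.inl ⟨0, by omega⟩)
      simp [X0] at h4)
    obtain ⟨c, hc, hcy⟩ := (Agent.H97.comap_subfield_mem _).1 hP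
    set Pm := (P : Matrix (Fin (l + l)) (Fin (l + l)) F) with hPm
    set Pi' := ((P⁻¹ : Matrix.SpecialLinearGroup (Fin (l + l)) F) : Matrix (Fin (l + l)) (Fin (l + l)) F)
    have hPP : Pi' * Pm = 1 ∧ Pm * Pi' = 1 := by
      constructor <;> rw [← Matrix.SpecialLinearGroup.coe_mul] <;> simp
    set Y := Pi' * r (G * X0 * Gi) * Pm with hY
    have hcY : ∀ a b, c * Y a b ∈ F₀ := fun a b => by
      have := hcy a b
      rwa [Matrix.SpecialLinearGroup.coe_mul, Matrix.SpecialLinearGroup.coe_mul, hxm] at this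
    set C := Pi' * r G with hC
    set D := r Gi * Pm with hD
    have hCD : C * D = 1 ∧ D * C = 1 := by
      constructor
      · rw [hC, hD, mul_assoc, ← mul_assoc (r G), ← map_mul, hGG.1, map_one, one_mul, hPP.1]
      · rw [hC, hD, mul_assoc, ← mul_assoc Pm, hPP.2, one_mul, ← map_mul, hGG.2, map_one]
    have hY1 : Y - 1 = C * r K * D := by
      rw [hY, hX0K, mul_add, mul_one, add_mul, hGG.1, map_add, map_one, mul_add, mul_one, add_mul,
        hPP.1, add_sub_cancel_left, map_mul, map_mul, hC, hD]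
      simp only [mul_assoc]
    have hNN : (Y - 1) * (Y - 1) = 0 := by
      rw [hY1, show C * r K * D * (C * r K * D) = C * r K * (D * C) * r K * D by noncomm_ring,
        hCD.2, mul_one, mul_assoc C, ← map_mul, hKK, map_zero, mul_zero, zero_mul]
    have hY3 : Y * Y * Y = 1 := by
      have : Y = 1 + (Y - 1) := by abel
      calc Y * Y * Y = (1 + (Y - 1)) * (1 + (Y - 1)) * (1 + (Y - 1)) := by rw [← this]
        _ = 1 + (3 : ℕ) • (Y - 1) + ((3 : ℕ) • ((Y - 1) * (Y - 1)) + (Y - 1) * (Y - 1) * (Y - 1)) := by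
          noncomm_ring
        _ = 1 := by
          rw [hNN, show ((3 : ℕ) • (Y - 1)) = 0 by
            ext a b
            rw [Matrix.smul_apply, nsmul_eq_mul]
            simp [h3]]
          simp
    have hcF : c ∈ F₀ := by
      let i : Fin (l + l) := 0
      have h1 : c ^ 3 ∈ F₀ := by
        have h1 : ((c • Y) * (c • Y) * (c • Y)) i i = c ^ 3 := by
          rw [smul_mul_smul_comm, smul_mul_smul_comm, hY3, Matrix.smul_apply, Matrix.one_apply_eq,
            smul_eq_mul, mul_one]
          ring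
        rw [← h1, Matrix.mul_apply]
        refine sum_mem fun j _ => mul_mem ?_ (hcY _ _)
        rw [Matrix.mul_apply]
        exact sum_mem fun j' _ => mul_mem (hcY _ _) (hcY _ _)
      have h2 : Function.Bijective fun a : F₀ => a ^ 3 := Finite.injective_iff_bijective.1
        fun a b h => Subtype.ext (hcube.1 (congrArg Subtype.val h))
      obtain ⟨a, ha⟩ := h2.2 ⟨_, h1⟩
      rw [← hcube.1 (congrArg Subtype.val ha : (a : F) ^ 3 = c ^ 3)]
      exact a.2
    have hYF : ∀ a b, Y a b ∈ F₀ := fun a b => by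
      have := mul_mem (inv_mem hcF) (hcY a b)
      rwa [← mul_assoc, inv_mul_cancel₀ hc, one_mul] at this
    let Y0 : Matrix (Fin (l + l)) (Fin (l + l)) F₀ := Matrix.of fun a b => ⟨Y a b, hYF a b⟩
    let ι := (F₀.subtype : F₀ →+* F)
    have hY0 : ι.mapMatrix (Y0 - 1) = Y - 1 := by
      rw [map_sub, map_one]
      rfl
    let N0 : Module.End F₀ (Fin (l + l) → F₀) := Matrix.toLin' (Y0 - 1)
    have hN0 : ∀ v, (ι ∘ N0 v) = (Y - 1).mulVec (ι ∘ v) := fun v => by
      funext i
      rw [Function.comp_apply, Matrix.toLin'_apply, RingHom.map_mulVec, ← hY0]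
      rfl
    have hιinj : ∀ v w : Fin (l + l) → F₀, ι ∘ v = ι ∘ w → v = w := fun v w h =>
      funext fun i => Subtype.ext (congrFun h i)
    have hN0sq : ∀ v, N0 (N0 v) = 0 := fun v => hιinj _ _ (by
      rw [hN0, hN0, Matrix.mulVec_mulVec, hNN, Matrix.zero_mulVec]
      funext i; simp [ι])
    have hkerY : ∀ v, (Y - 1).mulVec v = 0 → ∃ u, (Y - 1).mulVec u = v := by
      intro v hv
      rw [hY1] at hv ⊢
      set w := D.mulVec v with hw
      have h1 : (r K).mulVec w = 0 := by
        have h := congrArg D.mulVec hv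
        rwa [Matrix.mulVec_mulVec, Matrix.mulVec_zero,
          show D * (C * r K * D) = (D * C) * r K * D by noncomm_ring, hCD.2, one_mul,
          ← Matrix.mulVec_mulVec, ← hw] at h
      rw [Matrix.coe_reindexAlgEquiv, Matrix.reindex_apply, Matrix.submatrix_mulVec_equiv,
        Equiv.symm_symm] at h1
      have hz : ∀ t, w (e (.inl t)) = 0 := fun t => by
        have := congrFun h1 (e (.inr t))
        simpa [K, Matrix.fromBlocks_mulVec] using this
      refine ⟨C.mulVec (Sum.elim (fun t => w (e (.inr t))) 0 ∘ e.symm), ?_⟩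
      rw [Matrix.mulVec_mulVec, mul_assoc, hCD.2, mul_one, ← Matrix.mulVec_mulVec]
      have h2 : (r K).mulVec (Sum.elim (fun t => w (e (.inr t))) 0 ∘ e.symm) = w := by
        rw [Matrix.coe_reindexAlgEquiv, Matrix.reindex_apply, Matrix.submatrix_mulVec_equiv,
          Equiv.symm_symm]
        funext i
        obtain ⟨s, rfl⟩ := e.surjective i
        rcases s with t | t <;> simp [K, Matrix.fromBlocks_mulVec, Function.comp_def, hz]
      rw [h2, hw, Matrix.mulVec_mulVec, hCD.1, Matrix.one_mulVec]
    obtain ⟨π, hπ⟩ := (Algebra.linearMap F₀ F).exists_leftInverse_of_injective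
      (LinearMap.ker_eq_bot.2 (FaithfulSMul.algebraMap_injective F₀ F))
    have hπ' : ∀ a : F₀, π (a : F) = a := fun a => LinearMap.congr_fun hπ a
    have hπs : ∀ (a : F₀) (b : F), π ((a : F) * b) = a * π b := fun a b => π.map_smul a b
    have hker : ∀ v, N0 v = 0 → v ∈ LinearMap.range N0 := by
      intro v hv
      obtain ⟨u, hu⟩ := hkerY (ι ∘ v) (by
        rw [← hN0, hv]; funext i; simp [ι])
      refine ⟨π ∘ u, funext fun i => ?_⟩
      have h1 := congrArg π (congrFun hu i)
      rw [Function.comp_apply, show π (ι (v i)) = v i from hπ' _] at h1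
      rw [← h1, Matrix.toLin'_apply, ← hY0]
      simp only [Matrix.mulVec, dotProduct, map_sum]
      exact Finset.sum_congr rfl fun j _ => (hπs _ _).symm
    obtain ⟨b0, hb0⟩ := Agent.H97.exists_pair_basis N0 hN0sq hker (Module.finrank_fin_fun F₀)
    let B : Matrix (Fin (l + l)) (Fin l ⊕ Fin l) F := Matrix.of fun i s => (b0 s i : F)
    have hYB : Y * B = B * X0 := by
      ext i s
      have h1 : ∀ t, ((Y - 1) * B : Matrix (Fin (l + l)) (Fin l ⊕ Fin l) F) i t = ι (N0 (b0 t) i) := fun t =>
        (congrFun (hN0 (b0 t)) i).symm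
      have h2 : (Y * B) i s = B i s + ι (N0 (b0 s) i) := by
        rw [← h1, Matrix.sub_mul, Matrix.one_mul, Matrix.sub_apply]
        ring
      rw [h2, hX0K, Matrix.mul_add, Matrix.mul_one, Matrix.add_apply]
      congr 1
      rcases s with t | t
      · simp [K, Matrix.mul_apply, Fintype.sum_sum_type, Matrix.one_apply, B, hb0, ι]
      · have := congrFun (hN0sq (b0 (.inl t))) i
        rw [hb0] at this
        simp [K, Matrix.mul_apply, Fintype.sum_sum_type, this, ι]
    let A0 : Matrix (Fin (l + l)) (Fin (l + l)) F₀ :=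
      (Pi.basisFun F₀ (Fin (l + l))).toMatrix (b0.reindex e)
    have hA0 : A0.det ≠ 0 := by
      rw [show A0 = (Pi.basisFun F₀ (Fin (l + l))).toMatrix (b0.reindex e) from rfl]
      haveI := (Pi.basisFun F₀ (Fin (l + l))).invertibleToMatrix (b0.reindex e)
      exact (Matrix.isUnit_det_of_invertible _).ne_zero
    set AF := ι.mapMatrix A0 with hAF
    have hAFB : AF = B.submatrix id e.symm := by
      ext i j
      simp [AF, A0, B, ι, Module.Basis.toMatrix_apply]
    have hYA : Y * AF = AF * r X0 := by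
      rw [hAFB, Matrix.coe_reindexAlgEquiv, Matrix.reindex_apply, Matrix.submatrix_mul_equiv, ← hYB,
        Matrix.submatrix_mul Y B id id e.symm Function.bijective_id, Matrix.submatrix_id_id]
    set U := Gi * r.symm (Pm * AF) with hU
    have hcomm : X0 * U = U * X0 := by
      have key : r (G * X0 * Gi) * (Pm * AF) = (Pm * AF) * r X0 := by
        rw [mul_assoc Pm, ← hYA, hY, show Pm * (Pi' * r (G * X0 * Gi) * Pm * AF) =
          (Pm * Pi') * r (G * X0 * Gi) * Pm * AF by noncomm_ring, hPP.2, one_mul]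
        noncomm_ring
      have key' := congrArg r.symm key
      rw [map_mul, AlgEquiv.symm_apply_apply, map_mul r.symm (Pm * AF), AlgEquiv.symm_apply_apply] at key'
      rw [hU, mul_assoc Gi, ← key', show Gi * (G * X0 * Gi * r.symm (Pm * AF)) =
        (Gi * G) * X0 * Gi * r.symm (Pm * AF) by noncomm_ring, hGG.2, one_mul, mul_assoc]
    rw [← Matrix.fromBlocks_toBlocks U] at hcomm
    simp only [X0, Matrix.fromBlocks_multiply, one_mul, mul_one, zero_mul, mul_zero, add_zero, zero_add,
      Matrix.fromBlocks_inj] at hcomm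
    have h12 : U.toBlocks₁₂ = 0 := left_eq_add.1 hcomm.1
    have h22 : U.toBlocks₂₂ = U.toBlocks₁₁ := by
      have h := hcomm.2.2.1
      rw [add_comm U.toBlocks₂₁ U.toBlocks₂₂] at h
      exact (add_right_cancel h).symm
    have hdU : U.det = U.toBlocks₁₁.det * U.toBlocks₁₁.det := by
      conv_lhs => rw [← Matrix.fromBlocks_toBlocks U, h12, h22]
      rw [Matrix.det_fromBlocks_zero₁₂]
    rw [hU, Matrix.det_mul, Matrix.reindexAlgEquiv_symm, Matrix.coe_reindexAlgEquiv,
      Matrix.det_reindex_self, Matrix.det_mul, hPm, P.det_coe, one_mul, hAF, ← RingHom.map_det,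
      Matrix.det_diagonal, Finset.prod_update_of_mem (Finset.mem_univ _)] at hdU
    simp only [Pi.one_apply, Finset.prod_const_one, mul_one] at hdU
    obtain ⟨β, hβ⟩ := hsq0 A0.det hA0
    set γ := U.toBlocks₁₁.det
    change μ⁻¹ * (A0.det : F) = γ * γ at hdU
    have hne : (A0.det : F) ≠ 0 := fun h => hA0 (Subtype.ext h)
    have hγ : γ ≠ 0 := fun h => by
      rw [h, mul_zero] at hdU
      exact mul_ne_zero (inv_ne_zero hμ0) hne hdU
    refine hμ ⟨β / γ, ?_⟩
    rw [hβ] at hdU
    field_simp at hdU ⊢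
    linear_combination -hdU
  · intro hcond x ⟨z, hz⟩ hns
    obtain ⟨hx3, hz0, -⟩ := Agent.H97.SL_setup (by omega) x hz
    obtain ⟨w, hw'⟩ := hcube.2 z
    simp only at hw'
    have hw : w ≠ 0 := fun h => hz0 (by rw [← hw', h]; ring)
    set T : Module.End F (Fin n → F) := Matrix.toLin' (x : Matrix (Fin n) (Fin n) F) with hT
    set N : Module.End F (Fin n → F) := w⁻¹ • T - 1 with hN
    have hTN : T = w • (1 + N) := by
      rw [hN, add_sub_cancel, smul_smul, mul_inv_cancel₀ hw, one_smul]
    have hN3 : N ^ 3 = 0 := by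
      refine LinearMap.ext fun v => ?_
      have h1 : T (T (T v)) = (w ^ 3) • v := by
        have := LinearMap.congr_fun hx3 v
        rw [hw']
        simpa [pow_succ, mul_assoc] using this
      simp only [hN, pow_succ, pow_zero, one_mul, Module.End.mul_apply, LinearMap.sub_apply,
        LinearMap.smul_apply, Module.End.one_apply, map_sub, map_smul, LinearMap.zero_apply, h1, smul_smul]
      match_scalars
      all_goals field_simp
      all_goals first | ring1 | linear_combination h3 | linear_combination -h3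
    obtain ⟨bl, hbl⟩ := Agent.H97.exists_blocks N hN3 ⊤ fun _ _ => trivial
    obtain ⟨t, ev, hli, hspan, hch⟩ := hbl.exists_chain
    let b := Module.Basis.mk hli hspan.ge
    let B := b.reindex (finCongr (show t = n by
      rw [← Module.finrank_fin_fun F (n := n), Module.finrank_eq_card_basis b, Fintype.card_fin]))
    have hbe : ∀ i, b i = ev i := fun i => Module.Basis.mk_apply hli hspan.ge i
    refine Agent.H97.exists_conj_subfield_twist x B (inv_ne_zero hw) (fun i j => ?_) fun μ hμ => ?_
    · rw [show (x : Matrix (Fin n) (Fin n) F).mulVec (B j) = T (B j) from (Matrix.toLin'_apply _ _).symm]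
      simp only [B, Module.Basis.reindex_apply, Module.Basis.repr_reindex_apply, hbe]
      rw [hTN, LinearMap.smul_apply, map_smul, Finsupp.smul_apply, smul_eq_mul, ← mul_assoc,
        inv_mul_cancel₀ hw, one_mul, LinearMap.add_apply, Module.End.one_apply, map_add, Finsupp.add_apply]
      refine add_mem ?_ ?_
      · rw [← hbe, Module.Basis.repr_self, Finsupp.single_apply]
        split_ifs <;> simp
      · rcases hch ((finCongr _).symm j) with h | ⟨j', h⟩
        · rw [h, map_zero]; simp
        · rw [h, ← hbe, Module.Basis.repr_self, Finsupp.single_apply]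
          split_ifs <;> simp
    · have hcomm : ∀ u : Module.End F (Fin n → F), N * u = u * N → T * u = u * T := fun u hu => by
        rw [hTN, smul_mul_assoc, mul_smul_comm, add_mul, mul_add, one_mul, mul_one, hu]
      by_cases hodd : ∃ a ∈ bl, a = 1 ∨ a = 3
      · obtain ⟨a, ha, hcases⟩ := hodd
        obtain ⟨ν, hν⟩ : ∃ ν, ν ^ a = μ := by
          rcases hcases with rfl | rfl
          · exact ⟨μ, pow_one μ⟩
          · exact hcube.2 μ
        obtain ⟨u, hu, hud⟩ := hbl.exists_det_pow ha ν
        exact ⟨u, 1, one_mem _, one_ne_zero, hcomm u hu, by rw [hud, hν, mul_one]⟩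
      push Not at hodd
      have hall2 : ∀ a ∈ bl, a = 2 := fun a ha => by
        have h1 := hodd a ha
        have h2 := hbl.pos a ha
        have h4 := hbl.le hN3 a ha
        omega
      have hsum : bl.sum = n := by
        have := hbl.finrank_eq
        rw [finrank_top, Module.finrank_fin_fun] at this
        exact this.symm
      have hrep := Multiset.eq_replicate_card.2 hall2
      rw [hrep, Multiset.sum_replicate, smul_eq_mul] at hsum
      have hev : Even n := ⟨bl.card, by omega⟩
      have h2mem : 2 ∈ bl := by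
        rw [hrep]
        exact Multiset.mem_replicate.2 ⟨by omega, rfl⟩
      have hkodd : Odd k := hk.odd_of_ne_two (by
        rcases hcond with h | h
        · exact absurd hev (Nat.not_even_iff_odd.2 h)
        · omega)
      by_cases hsq : IsSquare μ
      · obtain ⟨ν, hν⟩ := hsq
        obtain ⟨u, hu, hud⟩ := hbl.exists_det_pow h2mem ν
        exact ⟨u, 1, one_mem _, one_ne_zero, hcomm u hu, by rw [hud, hν, pow_two, mul_one]⟩
      obtain ⟨ε, hε⟩ := FiniteField.exists_nonsquare hchar0
      have hε0 : ε ≠ 0 := fun h => hε (h ▸ IsSquare.zero)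
      have hε0' : (ε : F) ≠ 0 := fun h => hε0 (Subtype.ext h)
      have h1 : (ε : F) ^ (Fintype.card F / 2) = -1 := by
        rw [FiniteField.isSquare_iff hchar0 hε0] at hε
        have h2 := (FiniteField.pow_dichotomy hchar0 hε0).resolve_left hε
        rw [hcard0, show q₀ / 2 = v₀ by omega] at h2
        have h2' := congrArg Subtype.val h2
        push_cast at h2'
        rw [hhalf, pow_mul, h2']
        exact (Agent.H97.odd_geom_sum ⟨v₀, hv₀⟩ hkodd).neg_one_pow
      rw [FiniteField.isSquare_iff hchar hμ] at hsq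
      have h2 := (FiniteField.pow_dichotomy hchar hμ).resolve_left hsq
      obtain ⟨ν, hν⟩ : IsSquare (μ * (ε : F)) := by
        rw [FiniteField.isSquare_iff hchar (mul_ne_zero hμ hε0'), mul_pow, h1, h2]
        ring
      obtain ⟨u, hu, hud⟩ := hbl.exists_det_pow h2mem ν
      exact ⟨u, (ε : F), ε.2, hε0', hcomm u hu, by rw [hud, hν, pow_two]⟩

end Cfsg.Agent.S5966
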