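import Cfsg.Statements.S5967
import Cfsg.Agent.H97.SympInvolutionSL
import Cfsg.Agent.H97.LinearCriteria

set_option autoImplicit false
open scoped MatrixGroups
open Cfsg

namespace Cfsg.Agent.S5967

/-- Involutions of PSL_n(q) and the symplectic-type subgroups. Here `T = PSL_n(F)` for a field `F` with `q` elements, `n ≥ 4` even, `f` is a nondegenerate alternating form on `F^n`, and `H` is the subgroup of matrices of determinant 1 preserving `f` up to a scalar — a maximal subgroup of type Sp_n(q); Ω is the set of `T`-conjugates of `H` (cosets of `H`), so an element of `T` of prime order `r` (a matrix `x` of determinant 1 with `x^r` scalar, `x` not scalar) fixes a point of Ω when some conjugate of `x` by a matrix of determinant 1 preserves `f` up to a scalar. Suppose the index of `H` is even. Then every involution of `T` is conjugate in `T` into `H` if and only if `(q − 1)_2 ≤ (n)_2`. -/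
theorem result {F : Type*} [Field F] [Fintype F] {p : ℕ} [Fact p.Prime] [CharP F p] {q : ℕ} (hq : Fintype.card F = q)
    (n : ℕ) (hn : 4 ≤ n) (he : Even n) (f : (Fin n → F) → (Fin n → F) → F) (hf : Cfsg.Geo.IsSymplecticForm f)
    (hΩ : 2 ∣ ((Cfsg.Geo.similarityGroup f).comap (Matrix.SpecialLinearGroup.toGL : Matrix.SpecialLinearGroup (Fin n) F →* GL (Fin n) F)).index) :
    (∀ x : Matrix.SpecialLinearGroup (Fin n) F,
      (∃ z : F, ((x ^ 2 : Matrix.SpecialLinearGroup (Fin n) F) : Matrix (Fin n) (Fin n) F) = z • (1 : Matrix (Fin n) (Fin n) F)) →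
      (∀ z : F, (x : Matrix (Fin n) (Fin n) F) ≠ z • (1 : Matrix (Fin n) (Fin n) F)) →
      ∃ P : Matrix.SpecialLinearGroup (Fin n) F, P⁻¹ * x * P ∈ ((Cfsg.Geo.similarityGroup f).comap (Matrix.SpecialLinearGroup.toGL : Matrix.SpecialLinearGroup (Fin n) F →* GL (Fin n) F))) ↔
    padicValNat 2 (q - 1) ≤ padicValNat 2 n := by
  classical
  subst hq
  have hn0 : 0 < n := by omega
  have hq2 : 2 ≤ Fintype.card F := Fintype.one_lt_card
  let Bf : LinearMap.BilinForm F (Fin n → F) := LinearMap.mk₂ F f hf.bilinear.add_left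
    hf.bilinear.smul_left hf.bilinear.add_right hf.bilinear.smul_right
  have hBf : ∀ u v, Bf u v = f u v := fun u v => rfl
  have hBfA : Bf.IsAlt := hf.alternating
  have hBfN : Bf.Nondegenerate := by
    refine ⟨fun u hu => ?_, fun v hv => ?_⟩
    · by_contra h
      obtain ⟨-, w, hw⟩ := hf.nondegenerate u h
      exact hw (hu w)
    · by_contra h
      obtain ⟨⟨w, hw⟩, -⟩ := hf.nondegenerate v h
      exact hw (hv w)
  have hcoe : ∀ y : Matrix.SpecialLinearGroup (Fin n) F,
      ((Matrix.SpecialLinearGroup.toGL y : GL (Fin n) F) : Matrix (Fin n) (Fin n) F) =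
        (y : Matrix (Fin n) (Fin n) F) := fun y => rfl
  constructor
  · intro hall
    by_contra hcon
    rw [not_le] at hcon
    set a := padicValNat 2 n with ha
    set s := padicValNat 2 (Fintype.card F - 1) with hs
    obtain ⟨t, ht⟩ : 2 ^ s ∣ Fintype.card F - 1 := pow_padicValNat_dvd
    obtain ⟨n', hn'⟩ : 2 ^ a ∣ n := pow_padicValNat_dvd
    have hn'odd : Odd n' := by
      rw [← Nat.not_even_iff_odd]
      rintro ⟨k, rfl⟩
      exact pow_succ_padicValNat_not_dvd (p := 2) (n := n) (by omega) ⟨k, by rw [← ha, pow_succ]; linarith⟩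
    obtain ⟨g, hg⟩ := IsCyclic.exists_generator (α := Fˣ)
    have hord : orderOf g = Fintype.card F - 1 := by
      rw [orderOf_eq_card_of_forall_mem_zpowers hg, Nat.card_eq_fintype_card, Fintype.card_units]
    have ht0 : 0 < t := by
      rcases Nat.eq_zero_or_pos t with h | h
      · subst h; omega
      · exact h
    have hgm : (g : F) ^ (2 ^ (s - 1) * t) = -1 := by
      have hlt : 2 ^ (s - 1) * t < orderOf g := by
        rw [hord, ht]
        exact Nat.mul_lt_mul_of_pos_right (Nat.pow_lt_pow_right (by norm_num) (by omega)) ht0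
      refine (sq_eq_one_iff.1 ?_).resolve_left fun h1 => ?_
      · rw [← pow_mul, mul_right_comm, ← pow_succ, Nat.sub_add_cancel (by omega), ← ht, ← hord,
          ← Units.val_pow_eq_pow_val, pow_orderOf_eq_one, Units.val_one]
      · have h2 : g ^ (2 ^ (s - 1) * t) = 1 := Units.ext (by rw [Units.val_pow_eq_pow_val, h1, Units.val_one])
        exact pow_ne_one_of_lt_orderOf (Nat.mul_pos (by positivity) ht0).ne' hlt h2
    set l : F := (g : F) ^ (2 ^ (s - 1 - a) * t) with hl
    have hln : l ^ n = -1 := by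
      rw [hl, ← pow_mul, hn', show 2 ^ (s - 1 - a) * t * (2 ^ a * n') = 2 ^ (s - 1) * t * n' by
        rw [show s - 1 = (s - 1 - a) + a by omega, pow_add]; simp only [Nat.add_sub_cancel]; ring,
        pow_mul, hgm, hn'odd.neg_one_pow]
    have hl0 : l ≠ 0 := pow_ne_zero _ g.ne_zero
    have h2F : (2 : F) ≠ 0 := by
      intro h
      haveI : CharP F 2 := (CharP.charP_iff_prime_eq_zero Nat.prime_two).2 (by exact_mod_cast h)
      obtain ⟨k, -, hk⟩ := FiniteField.card F 2
      have h1 : ¬ 2 ∣ Fintype.card F - 1 := by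
        have : 2 ∣ Fintype.card F := by rw [hk]; exact dvd_pow_self 2 (PNat.ne_zero k)
        omega
      exact h1 (dvd_trans (dvd_pow_self 2 (by omega : s ≠ 0)) ⟨t, ht⟩)
    let i0 : Fin n := ⟨0, hn0⟩
    let dg : Fin n → F := Function.update (fun _ => l) i0 (-l)
    have hdg : ∏ i, dg i = 1 := by
      rw [Finset.prod_update_of_mem (Finset.mem_univ _), Finset.prod_const,
        Finset.card_sdiff, Finset.inter_eq_left.2 (Finset.subset_univ _), Finset.card_singleton,
        Finset.card_univ, Fintype.card_fin, neg_mul, ← pow_succ',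
        Nat.sub_add_cancel hn0, hln, neg_neg]
    let x : Matrix.SpecialLinearGroup (Fin n) F :=
      ⟨Matrix.diagonal dg, by rw [Matrix.det_diagonal, hdg]⟩
    have hd0 : dg i0 = -l := Function.update_self _ _ _
    have hd1 : ∀ i, i ≠ i0 → dg i = l := fun i hi => Function.update_of_ne hi _ _
    obtain ⟨P, hP⟩ := hall x ⟨l * l, by
      rw [pow_two, Matrix.SpecialLinearGroup.coe_mul]
      show Matrix.diagonal dg * Matrix.diagonal dg = (l * l) • 1
      rw [Matrix.diagonal_mul_diagonal, Matrix.smul_one_eq_diagonal]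
      refine congrArg _ (funext fun i => ?_)
      by_cases h : i = i0
      · subst h; rw [hd0]; ring
      · rw [hd1 i h]⟩ (fun z hz => by
        have e0 := congrFun (congrFun hz i0) i0
        have e1 := congrFun (congrFun hz ⟨1, by omega⟩) ⟨1, by omega⟩
        change Matrix.diagonal dg i0 i0 = _ at e0
        change Matrix.diagonal dg _ _ = _ at e1
        rw [Matrix.diagonal_apply_eq, hd0] at e0
        rw [Matrix.diagonal_apply_eq, hd1 _ (by simp [i0, Fin.ext_iff])] at e1
        simp only [Matrix.smul_apply, Matrix.one_apply_eq, smul_eq_mul, mul_one] at e0 e1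
        have : (2 : F) * l = 0 := by linear_combination e1 - e0
        exact mul_ne_zero h2F hl0 this)
    obtain ⟨c, hc⟩ := hP
    -- transported form
    let Q := ((P⁻¹ : Matrix.SpecialLinearGroup (Fin n) F) : Matrix (Fin n) (Fin n) F)
    have hinv : ∀ u v, Bf (Q.mulVec ((x : Matrix (Fin n) (Fin n) F).mulVec u))
        (Q.mulVec ((x : Matrix (Fin n) (Fin n) F).mulVec v)) = (c : F) * Bf (Q.mulVec u) (Q.mulVec v) := by
      intro u v
      have h := hc (Q.mulVec u) (Q.mulVec v)
      rw [hcoe, Matrix.mulVec_mulVec, Matrix.mulVec_mulVec, ← Matrix.SpecialLinearGroup.coe_mul,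
        mul_inv_cancel_right, Matrix.SpecialLinearGroup.coe_mul, ← Matrix.mulVec_mulVec,
        ← Matrix.mulVec_mulVec] at h
      exact h
    have hQsurj : ∀ w, ∃ u, Q.mulVec u = w := fun w =>
      ⟨(P : Matrix (Fin n) (Fin n) F).mulVec w, by
        rw [Matrix.mulVec_mulVec, ← Matrix.SpecialLinearGroup.coe_mul, inv_mul_cancel,
          Matrix.SpecialLinearGroup.coe_one, Matrix.one_mulVec]⟩
    have hxs : ∀ i, (x : Matrix (Fin n) (Fin n) F).mulVec (Pi.single i 1) = dg i • Pi.single i 1 := fun i => by
      show (Matrix.diagonal dg).mulVec _ = _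
      rw [Matrix.diagonal_mulVec_single, mul_one, ← Pi.single_smul, smul_eq_mul, mul_one]
    set E : Fin n → (Fin n → F) := fun i => Q.mulVec (Pi.single i 1) with hE
    have hpair : ∀ i j, (dg i * dg j - (c : F)) * Bf (E i) (E j) = 0 := fun i j => by
      have h := hinv (Pi.single i 1) (Pi.single j 1)
      rw [hxs, hxs, Matrix.mulVec_smul, Matrix.mulVec_smul] at h
      simp only [map_smul, LinearMap.smul_apply, smul_eq_mul] at h
      show (dg i * dg j - (c : F)) * Bf (Q.mulVec (Pi.single i 1)) (Q.mulVec (Pi.single j 1)) = 0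
      linear_combination h
    have hspan : ∀ v, (∀ j, Bf v (E j) = 0) → v = 0 := fun v hv => hBfN.1 v fun w => by
      obtain ⟨u, rfl⟩ := hQsurj w
      rw [← (Pi.basisFun F (Fin n)).sum_repr u]
      simp only [Pi.basisFun_repr, Pi.basisFun_apply, Matrix.mulVec_sum, map_sum, Matrix.mulVec_smul,
        map_smul]
      exact Finset.sum_eq_zero fun j _ => by
        rw [show Bf v (Q.mulVec (Pi.single j 1)) = 0 from hv j, smul_zero]
    have hPE : ∀ i, (P : Matrix (Fin n) (Fin n) F).mulVec (E i) = Pi.single i 1 := fun i => by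
      rw [hE, Matrix.mulVec_mulVec, ← Matrix.SpecialLinearGroup.coe_mul, mul_inv_cancel,
        Matrix.SpecialLinearGroup.coe_one, Matrix.one_mulVec]
    have hE0 : E i0 ≠ 0 := fun h => by
      simpa [h] using congrFun (hPE i0) i0
    by_cases hcl : (c : F) = l * l
    · refine hE0 (hspan _ fun j => ?_)
      by_cases hj : j = i0
      · rw [hj]; exact hBfA _
      · have h := hpair i0 j
        rw [hd0, hd1 j hj, hcl] at h
        refine (mul_eq_zero.1 h).resolve_left ?_
        rw [show -l * l - l * l = -((2 : F) * (l * l)) by ring]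
        exact neg_ne_zero.2 (mul_ne_zero h2F (mul_ne_zero hl0 hl0))
    · have hiso : ∀ i j, i ≠ i0 → j ≠ i0 → Bf (E i) (E j) = 0 := fun i j hi hj => by
        have h := hpair i j
        rw [hd1 i hi, hd1 j hj] at h
        exact (mul_eq_zero.1 h).resolve_left (sub_ne_zero.2 (Ne.symm hcl))
      let i1 : Fin n := ⟨1, by omega⟩
      let i2 : Fin n := ⟨2, by omega⟩
      have h10 : i1 ≠ i0 := by simp [i1, i0, Fin.ext_iff]
      have h20 : i2 ≠ i0 := by simp [i2, i0, Fin.ext_iff]
      set v := Bf (E i2) (E i0) • E i1 - Bf (E i1) (E i0) • E i2 with hv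
      have hv0 : v = 0 := hspan v fun j => by
        rw [hv, map_sub, map_smul, map_smul, LinearMap.sub_apply, LinearMap.smul_apply,
          LinearMap.smul_apply, smul_eq_mul, smul_eq_mul]
        by_cases hj : j = i0
        · rw [hj]; ring
        · rw [hiso _ j h10 hj, hiso _ j h20 hj, mul_zero, mul_zero, sub_zero]
      have hco : Bf (E i2) (E i0) = 0 := by
        have h1 := congrArg ((P : Matrix (Fin n) (Fin n) F).mulVec) hv0
        rw [hv, Matrix.mulVec_sub, Matrix.mulVec_smul, Matrix.mulVec_smul, hPE, hPE,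
          Matrix.mulVec_zero] at h1
        simpa [i1, i2] using congrFun h1 i1
      have hE2 : E i2 = 0 := hspan _ fun j => by
        by_cases hj : j = i0
        · rw [hj]; exact hco
        · exact hiso _ j h20 hj
      simpa [hE2] using congrFun (hPE i2) i2
  · rintro hle x ⟨z, hz⟩ hns
    obtain ⟨hx2, hz0, hdet⟩ := Agent.H97.SL_setup hn0 x hz
    set T : Module.End F (Fin n → F) := Matrix.toLin' (x : Matrix (Fin n) (Fin n) F) with hT
    have hnV : Module.finrank F (Fin n → F) = n := by simp
    rw [pow_two] at hx2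
    have hgood : Agent.H97.GoodSymp T := by
      by_cases hsq : ∀ w : F, w ^ 2 ≠ z
      · exact Agent.H97.goodSymp_twisted hz0 hsq T hx2 (by rw [hnV]; omega)
      push Not at hsq
      obtain ⟨w, rfl⟩ := hsq
      have hw : w ≠ 0 := fun h => hz0 (by rw [h]; ring)
      rw [pow_two] at hx2
      by_cases h2 : (2 : F) = 0
      · haveI : CharP F 2 := (CharP.charP_iff_prime_eq_zero Nat.prime_two).2 (by exact_mod_cast h2)
        refine Agent.H97.goodSymp_charTwo hw T hx2 (fun h => hns w ?_) (by rw [hnV]; exact he)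
        have := congrArg LinearMap.toMatrix' h
        rw [hT, LinearMap.toMatrix'_toLin', map_smul, LinearMap.toMatrix'_one] at this
        exact this
      · refine Agent.H97.goodSymp_split h2 hw T hx2 (by rw [hnV]; exact he) (by rw [hnV]; omega) hdet ?_
        rw [hnV]
        intro u hu
        have hu0 : u ≠ 0 := fun h => by
          rw [h, zero_pow (by omega)] at hu
          exact one_ne_zero (neg_eq_zero.1 hu.symm)
        set a := padicValNat 2 n with ha
        set s := padicValNat 2 (Fintype.card F - 1) with hs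
        obtain ⟨t, ht⟩ : 2 ^ s ∣ Fintype.card F - 1 := pow_padicValNat_dvd
        obtain ⟨n', hn'⟩ : 2 ^ a ∣ n := pow_padicValNat_dvd
        have htodd : Odd t := by
          rw [← Nat.not_even_iff_odd]
          rintro ⟨k, rfl⟩
          exact pow_succ_padicValNat_not_dvd (p := 2) (n := Fintype.card F - 1) (by omega)
            ⟨k, by rw [← hs, pow_succ]; linarith⟩
        have h1 : u ^ (n * t) = -1 := by rw [pow_mul, hu, htodd.neg_one_pow]
        rw [show n * t = (Fintype.card F - 1) * (2 ^ (a - s) * n') by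
          rw [ht, hn', show 2 ^ a = 2 ^ s * 2 ^ (a - s) by rw [← pow_add]; congr 1; omega]; ring,
          pow_mul, FiniteField.pow_card_sub_one_eq_one u hu0, one_pow] at h1
        exact h2 (by linear_combination h1)
    obtain ⟨⟨B, c, hBA, hBN, hc0, hBT⟩, hdets⟩ := hgood
    obtain ⟨m1, e1, hm1, he1⟩ := Agent.H2.exists_equiv_std Bf hBfN hBfA
    obtain ⟨m2, e2, hm2, he2⟩ := Agent.H2.exists_equiv_std B hBN hBA
    obtain rfl : m1 = m2 := by omega
    set g : (Fin n → F) ≃ₗ[F] (Fin n → F) := e2.trans e1.symm with hg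
    have hgB : ∀ u v, Bf (g u) (g v) = B u v := fun u v => by
      rw [← he1, ← he2]
      simp [hg]
    have hgd : LinearMap.det (g.toLinearMap) ≠ 0 := (LinearEquiv.isUnit_det' g).ne_zero
    obtain ⟨s, hs, hsd⟩ := hdets (LinearMap.det g.toLinearMap)⁻¹ (inv_ne_zero hgd)
    set G : Module.End F (Fin n → F) := g.toLinearMap ∘ₗ s with hG
    have hGd : LinearMap.det G = 1 := by
      rw [hG, LinearMap.det_comp, hsd, mul_inv_cancel₀ hgd]
    let R : Matrix.SpecialLinearGroup (Fin n) F :=
      ⟨LinearMap.toMatrix' G, by rw [LinearMap.det_toMatrix', hGd]⟩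
    refine ⟨R⁻¹, Units.mk0 c hc0, fun u v => ?_⟩
    rw [hcoe, inv_inv, Units.val_mk0]
    set u' := ((R⁻¹ : Matrix.SpecialLinearGroup (Fin n) F) : Matrix (Fin n) (Fin n) F).mulVec u
    set v' := ((R⁻¹ : Matrix.SpecialLinearGroup (Fin n) F) : Matrix (Fin n) (Fin n) F).mulVec v
    have hRG : ∀ w, ((R : Matrix.SpecialLinearGroup (Fin n) F) : Matrix (Fin n) (Fin n) F).mulVec w = G w :=
      fun w => LinearMap.toMatrix'_mulVec G w
    have hu' : G u' = u := by
      rw [← hRG, Matrix.mulVec_mulVec, ← Matrix.SpecialLinearGroup.coe_mul, mul_inv_cancel,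
        Matrix.SpecialLinearGroup.coe_one, Matrix.one_mulVec]
    have hv' : G v' = v := by
      rw [← hRG, Matrix.mulVec_mulVec, ← Matrix.SpecialLinearGroup.coe_mul, mul_inv_cancel,
        Matrix.SpecialLinearGroup.coe_one, Matrix.one_mulVec]
    simp only [Matrix.SpecialLinearGroup.coe_mul, ← Matrix.mulVec_mulVec]
    rw [hRG, hRG, show (x : Matrix (Fin n) (Fin n) F).mulVec u' = T u' from (Matrix.toLin'_apply _ _).symm,
      show (x : Matrix (Fin n) (Fin n) F).mulVec v' = T v' from (Matrix.toLin'_apply _ _).symm]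
    conv_rhs => rw [← hu', ← hv', ← hBf]
    rw [← hBf]
    show Bf (g (s (T u'))) (g (s (T v'))) = c * Bf (g (s u')) (g (s v'))
    rw [hgB, hgB, ← hBT]
    have hst : ∀ w, s (T w) = T (s w) := fun w => (LinearMap.congr_fun hs w).symm
    rw [hst, hst]

end Cfsg.Agent.S5967
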