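import Cfsg.Statements.S5968
import Cfsg.Agent.H97.SympTypeOdd
import Cfsg.Agent.H97.LinearCriteria

set_option autoImplicit false
open scoped MatrixGroups
open Cfsg

namespace Cfsg.Agent.S5968

/-- Derangements of odd prime order of PSL_n(q) on the cosets of a symplectic-type subgroup. Here `T = PSL_n(F)` for a field `F` with `q` elements, `n ≥ 4` even, `f` is a nondegenerate alternating form on `F^n`, and `H` is the subgroup of matrices of determinant 1 preserving `f` up to a scalar — a maximal subgroup of type Sp_n(q); Ω is the set of `T`-conjugates of `H` (cosets of `H`), so an element of `T` of prime order `r` (a matrix `x` of determinant 1 with `x^r` scalar, `x` not scalar) fixes a point of Ω when some conjugate of `x` by a matrix of determinant 1 preserves `f` up to a scalar. For every odd prime `r` dividing the index of `H`, with `(n, r) ≠ (6, 3)`, there is an element of `T` of order `r` with no conjugate in `H`. (For `n = 6`, `r = 3` this can fail: when `(q − 1)_3 = 3` every element of order 3 is conjugate into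 `H`.) -/
theorem result {F : Type*} [Field F] [Fintype F] {p : ℕ} [Fact p.Prime] [CharP F p] {q : ℕ} (hq : Fintype.card F = q)
    (n : ℕ) (hn : 4 ≤ n) (he : Even n) (f : (Fin n → F) → (Fin n → F) → F) (hf : Cfsg.Geo.IsSymplecticForm f)
    (r : ℕ) [Fact r.Prime] (hr2 : r ≠ 2) (hgap : ¬ (n = 6 ∧ r = 3)) (hΩ : r ∣ ((Cfsg.Geo.similarityGroup f).comap (Matrix.SpecialLinearGroup.toGL : Matrix.SpecialLinearGroup (Fin n) F →* GL (Fin n) F)).index) :
    ∃ x : Matrix.SpecialLinearGroup (Fin n) F,
      (∃ z : F, ((x ^ r : Matrix.SpecialLinearGroup (Fin n) F) : Matrix (Fin n) (Fin n) F) = z • (1 : Matrix (Fin n) (Fin n) F)) ∧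
      (∀ z : F, (x : Matrix (Fin n) (Fin n) F) ≠ z • (1 : Matrix (Fin n) (Fin n) F)) ∧
      ∀ P : Matrix.SpecialLinearGroup (Fin n) F, P⁻¹ * x * P ∉ ((Cfsg.Geo.similarityGroup f).comap (Matrix.SpecialLinearGroup.toGL : Matrix.SpecialLinearGroup (Fin n) F →* GL (Fin n) F)) := by
  classical
  subst hq
  obtain ⟨m, hnm⟩ : ∃ m, n = 2 * m := by obtain ⟨m, hm⟩ := he; exact ⟨m, by omega⟩
  have hn0 : 0 < n := by omega
  have hrp' : r.Prime := Fact.out
  haveI : Nontrivial (Fin n → F) := Function.nontrivial (h := ⟨⟨0, hn0⟩⟩)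
  let Bf : LinearMap.BilinForm F (Fin n → F) := LinearMap.mk₂ F f hf.bilinear.add_left
    hf.bilinear.smul_left hf.bilinear.add_right hf.bilinear.smul_right
  have hBf : ∀ u v, Bf u v = f u v := fun u v => rfl
  have hBfA : Bf.IsAlt := hf.alternating
  have hBfN : Bf.Nondegenerate := by
    refine ⟨fun u hu => ?_, fun v hv => ?_⟩
    · by_contra h
      obtain ⟨-, w, hw⟩ := hf.nondegenerate u h
      exact hw (hu w)
    · by_contra h
      obtain ⟨⟨w, hw⟩, -⟩ := hf.nondegenerate v h
      exact hw (hv w)
  -- it suffices that the operator is a similitude of no alternating form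
  suffices h : ∃ x : Matrix.SpecialLinearGroup (Fin n) F,
      ((x ^ r : Matrix.SpecialLinearGroup (Fin n) F) : Matrix (Fin n) (Fin n) F) = 1 ∧
      (∀ z : F, (x : Matrix (Fin n) (Fin n) F) ≠ z • (1 : Matrix (Fin n) (Fin n) F)) ∧
      ∀ (B : LinearMap.BilinForm F (Fin n → F)) (c : F), B.Nondegenerate → B.IsAlt →
        (Matrix.toLin' (x : Matrix (Fin n) (Fin n) F) : Module.End F (Fin n → F)) ^ r = 1 →
        ¬ ∀ u v, B ((x : Matrix (Fin n) (Fin n) F).mulVec u) ((x : Matrix (Fin n) (Fin n) F).mulVec v) =
          c * B u v by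
    obtain ⟨x, hx, hns, hbad⟩ := h
    refine ⟨x, ⟨1, by rw [hx, one_smul]⟩, hns, fun P hP => ?_⟩
    obtain ⟨c, hc⟩ := hP
    let Q : Matrix.SpecialLinearGroup (Fin n) F := P⁻¹
    let L : (Fin n → F) →ₗ[F] (Fin n → F) := Matrix.toLin' (Q : Matrix (Fin n) (Fin n) F)
    have hL : ∀ v, L v = (Q : Matrix (Fin n) (Fin n) F).mulVec v := fun v => Matrix.toLin'_apply _ v
    have hLs : Function.Surjective L := fun w => ⟨(P : Matrix (Fin n) (Fin n) F).mulVec w, by
      rw [hL, Matrix.mulVec_mulVec, ← Matrix.SpecialLinearGroup.coe_mul, inv_mul_cancel,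
        Matrix.SpecialLinearGroup.coe_one, Matrix.one_mulVec]⟩
    have hLi : Function.Injective L := LinearMap.injective_iff_surjective.2 hLs
    refine hbad (Bf.compl₁₂ L L) c ⟨fun u hu => ?_, fun v hv => ?_⟩ (fun u => hBfA _) ?_ fun u v => ?_
    · exact hLi (by rw [map_zero]; exact hBfN.1 _ fun w => by obtain ⟨w, rfl⟩ := hLs w; exact hu w)
    · exact hLi (by rw [map_zero]; exact hBfN.2 _ fun w => by obtain ⟨w, rfl⟩ := hLs w; exact hv w)
    · rw [(Agent.H97.SL_setup hn0 x (z := 1) (by rw [hx, one_smul])).1, one_smul]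
    · simp only [LinearMap.compl₁₂_apply, hL, hBf]
      refine Eq.trans ?_ (hc _ _)
      simp only [Matrix.SpecialLinearGroup.coe_GL_coe_matrix, Matrix.mulVec_mulVec,
        ← Matrix.SpecialLinearGroup.coe_mul]
      simp [Q]
  by_cases hrF : (r : F) = 0
  · -- the characteristic
    haveI : CharP F r := (CharP.charP_iff_prime_eq_zero hrp').2 hrF
    let i0 : Fin n := ⟨0, hn0⟩
    let i1 : Fin n := ⟨1, by omega⟩
    let i2 : Fin n := ⟨2, by omega⟩
    have h01 : i0 ≠ i1 := by simp [i0, i1, Fin.ext_iff]
    have h12 : i1 ≠ i2 := by simp [i1, i2, Fin.ext_iff]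
    have h02 : i0 ≠ i2 := by simp [i0, i2, Fin.ext_iff]
    set N : Matrix (Fin n) (Fin n) F := Matrix.single i1 i0 1 + Matrix.single i2 i1 1 with hN
    have hN2 : N * N = Matrix.single i2 i0 1 := by
      simp [hN, mul_add, add_mul, h01, h01.symm, h12, h12.symm, h02, h02.symm]
    have hN3 : N ^ r = 0 := by
      rw [show r = 3 + (r - 3) by have := hrp'.two_le; omega, pow_add,
        show N ^ 3 = N * N * N by noncomm_ring, hN2,
        show Matrix.single i2 i0 (1 : F) * N = 0 by simp [hN, mul_add, h01, h02], zero_mul]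
    have hA : (1 + N : Matrix (Fin n) (Fin n) F) = Matrix.transvection i1 i0 1 * Matrix.transvection i2 i1 1 := by
      simp only [Matrix.transvection, add_mul, mul_add, one_mul, mul_one, hN]
      rw [Matrix.single_mul_single_of_ne (h := h02) ..]
      abel
    obtain ⟨x, hx⟩ : ∃ x : Matrix.SpecialLinearGroup (Fin n) F, (x : Matrix (Fin n) (Fin n) F) = 1 + N :=
      ⟨⟨1 + N, by
        rw [hA, Matrix.det_mul, Matrix.det_transvection_of_ne _ _ h01.symm,
          Matrix.det_transvection_of_ne _ _ h12.symm, one_mul]⟩, rfl⟩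
    haveI : ExpChar (Matrix (Fin n) (Fin n) F) r := by
      haveI : Nonempty (Fin n) := ⟨i0⟩
      exact ExpChar.prime hrp'
    refine ⟨x, ?_, fun z hz => ?_, fun B c hB hBA hT h => ?_⟩
    · rw [Matrix.SpecialLinearGroup.coe_pow, hx, add_pow_expChar_of_commute _ (Commute.one_left N),
        one_pow, hN3, add_zero]
    · have := congrFun (congrFun hz i1) i0
      rw [hx] at this
      simp [hN, Matrix.single_apply, h01, h01.symm, h12, h12.symm, h02, h02.symm] at this
    · have hcr := Agent.H97.factor_pow_eq_one hT hB (c := c) (by simpa [Matrix.toLin'_apply] using h)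
      have hc1 : c = 1 := frobenius_inj F r (by simpa [frobenius_def] using hcr)
      subst hc1
      have hT' : ∀ i, Matrix.toLin' (x : Matrix (Fin n) (Fin n) F) (Pi.basisFun F (Fin n) i) =
          Pi.basisFun F (Fin n) i + N.mulVec (Pi.single i 1) := fun i => by
        rw [Matrix.toLin'_apply, hx, Matrix.add_mulVec, Matrix.one_mulVec, Pi.basisFun_apply]
      refine Agent.H97.no_isometry_of_block_three (Pi.basisFun F (Fin n))
        (Matrix.toLin' (x : Matrix (Fin n) (Fin n) F)) (i0 := i0) (i1 := i1) (i2 := i2) ?_ ?_ ?_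
        (fun i hi0 hi1 => ?_) hB hBA (by simpa [Matrix.toLin'_apply] using h)
      all_goals rw [hT', hN, Matrix.add_mulVec, Matrix.single_mulVec, Matrix.single_mulVec]
      all_goals simp [Pi.basisFun_apply, Pi.single_apply, Function.update, funext_iff,
        h01, h01.symm, h12, h12.symm, h02, h02.symm, *]
      all_goals (intro j; split_ifs <;> simp_all)
  by_cases hi1 : r ∣ Fintype.card F - 1
  · -- diagonal elements
    haveI : NeZero r := ⟨hrp'.ne_zero⟩
    obtain ⟨g, hg⟩ := exists_prime_orderOf_dvd_card (G := Fˣ) r (by rwa [Fintype.card_units])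
    set ζ : F := (g : F) with hζdef
    have hζr : ζ ^ r = 1 := by
      rw [← Units.val_pow_eq_pow_val, ← hg, pow_orderOf_eq_one, Units.val_one]
    have hζo : ∀ k, 0 < k → k < r → ζ ^ k ≠ 1 := fun k h0 hk h => by
      rw [← Units.val_pow_eq_pow_val, Units.val_eq_one] at h
      exact pow_ne_one_of_lt_orderOf h0.ne' (by rwa [hg]) h
    have hr3 : 3 ≤ r := by have := hrp'.two_le; omega
    have hζ0 : ζ ≠ 0 := g.ne_zero
    have hζ1 : ζ ≠ 1 := fun h => hζo 1 one_pos (by omega) (by rw [pow_one, h])
    set η : F := ζ ^ (r - 2) with hη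
    have hη1 : η ≠ 1 := hζo _ (by omega) (by omega)
    have hη2 : ζ * ζ * η = 1 := by
      rw [hη, ← pow_two, ← pow_add, show 2 + (r - 2) = r by omega, hζr]
    have hηζ : η = ζ → r = 3 := fun h => by
      by_contra hne
      refine hζo 3 (by omega) (by omega) ?_
      calc ζ ^ 3 = ζ * ζ * η := by rw [h]; ring
        _ = 1 := hη2
    obtain ⟨k, rfl⟩ : ∃ k, n = 3 + k := ⟨n - 3, by omega⟩
    let a : Fin (3 + k) → F := fun s => if (s : ℕ) < 2 then ζ else if (s : ℕ) = 2 then η else 1
    let mult : F → ℕ := fun v => (Finset.univ.filter fun s => a s = v).card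
    have ha : ∀ t : Fin k, a (Fin.natAdd 3 t) = 1 := fun t => by
      simp only [a, Fin.val_natAdd]
      rw [if_neg (by omega), if_neg (by omega)]
    have ha0 : a (Fin.castAdd k 0) = ζ ∧ a (Fin.castAdd k 1) = ζ ∧ a (Fin.castAdd k 2) = η := by
      simp [a]
    have hmult : ∀ v, mult v = ((if ζ = v then 2 else 0) + (if η = v then 1 else 0)) +
        (if (1 : F) = v then k else 0) := fun v => by
      simp only [mult, Finset.card_filter, Fin.sum_univ_add, Fin.sum_univ_three, ha, ha0.1, ha0.2.1, ha0.2.2,
        Finset.sum_const, Finset.card_univ, Fintype.card_fin, smul_eq_mul, mul_ite, mul_one, mul_zero]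
      split_ifs <;> omega
    obtain ⟨x, hx⟩ : ∃ x : Matrix.SpecialLinearGroup (Fin (3 + k)) F,
        (x : Matrix (Fin (3 + k)) (Fin (3 + k)) F) = Matrix.diagonal a :=
      ⟨⟨Matrix.diagonal a, by
        rw [Matrix.det_diagonal, Fin.prod_univ_add, Fin.prod_univ_three]
        simp only [ha, ha0.1, ha0.2.1, ha0.2.2, Finset.prod_const_one, hη2, one_mul]⟩, rfl⟩
    refine ⟨x, ?_, fun z hz => ?_, fun B c hB hBA hT h => ?_⟩
    · rw [Matrix.SpecialLinearGroup.coe_pow, hx, Matrix.diagonal_pow, ← Matrix.diagonal_one]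
      congr 1
      funext s
      simp only [Pi.pow_apply, a]
      split_ifs
      · exact hζr
      · rw [hη, ← pow_mul, mul_comm, pow_mul, hζr, one_pow]
      · exact one_pow r
    · have e0 := congrFun (congrFun hz ⟨0, by omega⟩) ⟨0, by omega⟩
      have e1 := congrFun (congrFun hz ⟨3, by omega⟩) ⟨3, by omega⟩
      rw [hx] at e0 e1
      simp [a] at e0 e1
      exact hζ1 (e0.trans e1.symm)
    · have hcr := Agent.H97.factor_pow_eq_one hT hB (c := c) (by simpa [Matrix.toLin'_apply] using h)
      have hc0 : c ≠ 0 := fun h0 => by rw [h0, zero_pow hrp'.ne_zero] at hcr; exact zero_ne_one hcr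
      have hsym : ∀ v w, v ≠ 0 → v * w = c → mult v ≤ mult w := fun v w hv hvw =>
        Agent.H97.card_eigen_symm (Pi.basisFun F (Fin (3 + k))) a
          (Matrix.toLin' (x : Matrix (Fin (3 + k)) (Fin (3 + k)) F)) (fun i => by
            rw [Matrix.toLin'_apply, hx, Pi.basisFun_apply, Matrix.diagonal_mulVec_single, mul_one,
              ← Pi.single_smul, smul_eq_mul, mul_one])
          hB (c := c) (by simpa [Matrix.toLin'_apply] using h) hv hvw
      have h1 := hsym 1 c one_ne_zero (one_mul c)
      have hz := hsym ζ (c / ζ) hζ0 (by field_simp)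
      rw [hmult, hmult] at h1 hz
      simp only [if_true, if_neg hζ1, if_neg hη1, if_neg (Ne.symm hζ1), if_neg (Ne.symm hη1)] at h1 hz
      have hk : k = 1 ∨ 3 ≤ k := by obtain ⟨m', hm'⟩ := he; omega
      rcases hk with rfl | hk
      · -- dimension four
        have hcz : c / ζ = ζ := by
          by_contra hne
          rw [if_neg (Ne.symm hne)] at hz
          by_cases h' : η = c / ζ
          · rw [if_pos h'] at hz
            by_cases h'' : (1 : F) = c / ζ
            · exact hη1 (h'.trans h''.symm)
            · rw [if_neg h''] at hz; split_ifs at hz <;> omega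
          · rw [if_neg h'] at hz; split_ifs at hz <;> omega
        have hc2 : c = ζ * ζ := by field_simp at hcz; linear_combination hcz
        have n1 : ζ ≠ c := fun h => hζ1 (mul_eq_left₀ hζ0 |>.1 (hc2.symm.trans h.symm))
        have n2 : (1 : F) ≠ c := fun h => hζo 2 (by omega) (by omega) (by rw [pow_two, ← hc2, ← h])
        have n3 : η ≠ c := fun h => by
          have h4 : ζ ^ 4 = 1 := by
            calc ζ ^ 4 = ζ * ζ * c := by rw [hc2]; ring
              _ = 1 := by rw [← h, hη2]
          have : r = 3 ∨ 5 ≤ r := by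
            rcases Nat.eq_or_lt_of_le hr3 with e | e
            · exact Or.inl e.symm
            · refine Or.inr ?_
              by_contra h5
              have : r = 4 := by omega
              subst this; norm_num at hrp'
          rcases this with rfl | h5
          · exact hζo 1 one_pos (by omega) (by rw [pow_one]; linear_combination h4 - ζ * hζr)
          · exact hζo 4 (by omega) (by omega) h4
        rw [if_neg n1, if_neg n2, if_neg n3] at h1
        omega
      · -- dimension at least six
        have hc1 : c = 1 := by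
          by_contra hne
          rw [if_neg (Ne.symm hne)] at h1
          by_cases hζη : η = ζ
          · have hr' := hηζ hζη
            have : k ≠ 3 := fun h => hgap ⟨by omega, hr'⟩
            split_ifs at h1 <;> omega
          · by_cases h' : ζ = c
            · rw [if_pos h', if_neg (fun h'' : η = c => hζη (h''.trans h'.symm))] at h1; omega
            · rw [if_neg h'] at h1; split_ifs at h1 <;> omega
        subst hc1
        have n1 : ζ ≠ 1 / ζ := fun h => hζo 2 (by omega) (by omega) (by
          rw [pow_two]; nth_rewrite 2 [h]; field_simp)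
        have n2 : (1 : F) ≠ 1 / ζ := fun h => hζ1 (by field_simp at h; linear_combination h)
        have n3 : η ≠ 1 / ζ := fun h => hζ1 (by
          calc ζ = ζ * ζ * (1 / ζ) := by field_simp
            _ = 1 := by rw [← h, hη2])
        rw [if_neg n1, if_neg n2, if_neg n3] at hz
        omega
  · -- order of the field modulo r at least two
    set i := orderOf (Nat.card F : ZMod r) with hidef
    have hNF : Nat.card F = Fintype.card F := Nat.card_eq_fintype_card
    have hrq : ¬ r ∣ Fintype.card F := fun h => by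
      obtain ⟨e, hp, hqe⟩ := FiniteField.card F p
      have hrp : r = p := (Nat.prime_dvd_prime_iff_eq hrp' hp).1 (hrp'.dvd_of_dvd_pow (hqe ▸ h))
      exact hrF (by rw [hrp]; exact CharP.cast_eq_zero F p)
    obtain ⟨j, hjm, hj⟩ := Agent.H97.exists_odd_dvd_of_dvd_index hnm (by omega) hrq f hf hΩ
    have hij : i ∣ 2 * j + 1 := by
      refine Agent.H97.orderOf_dvd_of_modEq ?_
      rw [hNF]
      exact ((Nat.modEq_iff_dvd' (Nat.one_le_pow _ _ Fintype.card_pos)).2 hj).symm
    have hiodd : Odd i := Odd.of_dvd_nat ⟨j, rfl⟩ hij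
    have hin : i ≤ n := le_trans (Nat.le_of_dvd (by omega) hij) (by omega)
    have hi2 : 2 ≤ i := by
      by_contra hlt
      have hi1' : i = 1 := by have := hiodd.pos; omega
      refine hi1 ?_
      rw [hidef, orderOf_eq_one_iff, hNF] at hi1'
      rw [← Nat.cast_one, ZMod.natCast_eq_natCast_iff] at hi1'
      exact (Nat.modEq_iff_dvd' Fintype.card_pos).1 hi1'.symm
    obtain ⟨T, hT, hTe⟩ := Agent.H97.exists_element (F := F) (r := r) hrF (Fin n → F) (n - i) 1
      (by rw [Module.finrank_fin_fun]; omega)
    obtain ⟨x, hxT, hxr⟩ := Agent.H97.exists_SL T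
      (Agent.H97.eq_one_of_pow_eq_one hi2 (by rw [← map_pow, hT, map_one])) (z := 1)
      (by rw [hT, one_smul])
    refine ⟨x, by rw [hxr, one_smul], fun z hz => ?_, fun B c hB hBA hT' h => ?_⟩
    · have hTz : T = z • 1 := by rw [← hxT, hz, map_smul, Matrix.toLin'_one]; rfl
      have hzr : z ^ r = 1 := by
        rw [hTz, smul_pow, one_pow] at hT
        simpa using congrArg (fun g : Module.End F (Fin n → F) => g (fun _ => 1) ⟨0, hn0⟩) hT
      rw [Agent.H97.eq_one_of_pow_eq_one hi2 hzr, one_smul] at hTz
      have htop : Agent.H97.fixedSpace T = ⊤ :=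
        Submodule.eq_top_iff'.2 fun v => by rw [Agent.H97.mem_fixedSpace, hTz]; rfl
      rw [htop, finrank_top, Module.finrank_fin_fun] at hTe
      omega
    · have hh : ∀ u v, B (T u) (T v) = c * B u v := by
        intro u v
        rw [← hxT, Matrix.toLin'_apply, Matrix.toLin'_apply]
        exact h u v
      have hc1 := Agent.H97.eq_one_of_pow_eq_one hi2 (Agent.H97.factor_pow_eq_one hT hB hh)
      obtain ⟨e, he'⟩ := Agent.H97.even_finrank_fixed_of_isometry hrF hT hB hBA (fun u v => by
        rw [hh, hc1, one_mul])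
      rw [hTe] at he'
      obtain ⟨u, hu⟩ := hiodd
      omega

end Cfsg.Agent.S5968
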