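import Cfsg.Statements.S5969
import Cfsg.Agent.H97.ExtFieldQuad
import Cfsg.Agent.H97.LinearCriteria

set_option autoImplicit false
open scoped MatrixGroups
open Cfsg

namespace Cfsg.Agent.S5969

/-- Involutions of PSL_n(q) and extension-field subgroups of degree 2. Here `T = PSL_n(F)` for a field `F` with `q = p^f` elements (`n ≥ 2`, `(n, q) ≠ (2, 2), (2, 3)`), `k` is a prime dividing `n`, `K` is a subalgebra of the `n × n` matrices that is a field of degree `k` over `F` (an extension-field structure F_{q^k} on `F^n`), and `H` is the subgroup of matrices of determinant 1 normalizing `K` — a subgroup of type GL_{n/k}(q^k) (maximal except in some small cases; maximality is not assumed); Ω is the set of cosets of `H` in `T`, so an element of `T` of prime order `r` (a matrix `x` of determinant 1 with `x^r` scalar, `x` not scalar) fixes a point of Ω when some conjugate of `x` by a matrix of determinant 1 normalizes `K`. Take `k = 2` and suppose the index of `H` is even. Then every involution of `T` is conjugate in `T` into `H` if and only if `n = 2`, or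 `q` is odd and `(q − 1)_2 ≤ (n)_2`. -/
theorem result {F : Type*} [Field F] [Fintype F] {p : ℕ} [Fact p.Prime] [CharP F p] {q : ℕ} (hq : Fintype.card F = q)
    (n : ℕ) (hn : 2 ≤ n) (hT : (n, q) ≠ (2, 2) ∧ (n, q) ≠ (2, 3))
    (k : ℕ) (hk : k.Prime) (hkn : k ∣ n) (K : Subalgebra F (Matrix (Fin n) (Fin n) F)) (hK : Cfsg.Geo.IsFieldSubalgebra k K) (hk2 : k = 2) (hΩ : 2 ∣ ((Cfsg.Geo.subalgebraNormalizer K).comap (Matrix.SpecialLinearGroup.toGL : Matrix.SpecialLinearGroup (Fin n) F →* GL (Fin n) F)).index) :
    (∀ x : Matrix.SpecialLinearGroup (Fin n) F,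
      (∃ z : F, ((x ^ 2 : Matrix.SpecialLinearGroup (Fin n) F) : Matrix (Fin n) (Fin n) F) = z • (1 : Matrix (Fin n) (Fin n) F)) →
      (∀ z : F, (x : Matrix (Fin n) (Fin n) F) ≠ z • (1 : Matrix (Fin n) (Fin n) F)) →
      ∃ P : Matrix.SpecialLinearGroup (Fin n) F, P⁻¹ * x * P ∈ ((Cfsg.Geo.subalgebraNormalizer K).comap (Matrix.SpecialLinearGroup.toGL : Matrix.SpecialLinearGroup (Fin n) F →* GL (Fin n) F))) ↔
    (n = 2 ∨ (Odd q ∧ padicValNat 2 (q - 1) ≤ padicValNat 2 n)) := by
  classical
  subst hq hk2
  have hn0 : 0 < n := by omega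
  obtain ⟨k0, hk0, hkn0, ⟨s0, t0, hst0⟩, hgen0⟩ := Agent.H97.exists_generator_quad hn0 hK
  have hirr : ∀ a : F, a * a - s0 * a - t0 ≠ 0 := by
    intro a ha
    have h1 : (k0 - a • 1) * (k0 - (s0 - a) • 1) = 0 := by
      simp only [sub_mul, mul_sub, smul_mul_assoc, mul_smul_comm, one_mul, mul_one, hst0, smul_smul]
      rw [show t0 = a * a - s0 * a by linear_combination -ha]
      module
    obtain ⟨z, hz, hyz⟩ := hK.inv _ (K.sub_mem hk0 (K.smul_mem K.one_mem a)) (sub_ne_zero.2 (hkn0 a))
    rw [hK.comm _ (K.sub_mem hk0 (K.smul_mem K.one_mem a)) _ hz] at hyz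
    have h2 := congrArg (fun A => z * A) h1
    simp only [← mul_assoc, hyz, one_mul, mul_zero, sub_eq_zero] at h2
    exact hkn0 _ h2
  -- rescaling and translating the generator
  have hmove : ∀ c d : F, c ≠ 0 → (c • k0 + d • 1) ∈ K ∧ (∀ a : F, c • k0 + d • 1 ≠ a • 1) ∧
      ((c • k0 + d • 1) * (c • k0 + d • 1) =
        (c * s0 + 2 * d) • (c • k0 + d • 1) + (c * c * t0 - c * s0 * d - d * d) • 1) ∧
      (∀ y ∈ K, ∃ a b : F, y = a • 1 + b • (c • k0 + d • 1)) := by
    intro c d hc
    refine ⟨K.add_mem (K.smul_mem hk0 c) (K.smul_mem K.one_mem d), fun a h => hkn0 ((a - d) / c) ?_, ?_, ?_⟩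
    · have : c • k0 = (a - d) • (1 : Matrix (Fin n) (Fin n) F) := by
        rw [sub_smul, eq_sub_iff_add_eq]; exact h
      rw [← inv_smul_smul₀ hc k0, this, smul_smul, div_eq_inv_mul]
    · simp only [add_mul, mul_add, smul_mul_assoc, mul_smul_comm, one_mul, mul_one, hst0, smul_smul,
        smul_add]
      module
    · intro y hy
      obtain ⟨a, b, rfl⟩ := hgen0 y hy
      refine ⟨a - b / c * d, b / c, ?_⟩
      rw [smul_add, smul_smul, smul_smul, div_mul_cancel₀ _ hc]
      module
  constructor
  · intro hall
    by_contra hcon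
    push Not at hcon
    obtain ⟨hn2, hq2⟩ := hcon
    have hn4 : 4 ≤ n := by
      obtain ⟨m, hm⟩ := hkn
      omega
    let i0 : Fin n := ⟨0, hn0⟩
    let i1 : Fin n := ⟨1, by omega⟩
    have h10 : i1 ≠ i0 := by simp [i1, i0, Fin.ext_iff]
    let E : Submodule F (Fin n → F) := LinearMap.ker (LinearMap.proj i0)
    have hEd : n ≤ Module.finrank F E + 1 := by
      have h1 := LinearMap.finrank_range_add_finrank_ker (LinearMap.proj i0 : (Fin n → F) →ₗ[F] F)
      have h2 := (LinearMap.range (LinearMap.proj i0 : (Fin n → F) →ₗ[F] F)).finrank_le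
      rw [Module.finrank_self] at h2
      rw [Module.finrank_fintype_fun_eq_card, Fintype.card_fin] at h1
      show n ≤ Module.finrank F (LinearMap.ker (LinearMap.proj i0 : (Fin n → F) →ₗ[F] F)) + 1
      omega
    obtain ⟨x, w, z, hxx, hxE, hxn⟩ : ∃ (x : Matrix.SpecialLinearGroup (Fin n) F) (w z : F),
        ((x ^ 2 : Matrix.SpecialLinearGroup (Fin n) F) : Matrix (Fin n) (Fin n) F) = z • 1 ∧
        (∀ v ∈ E, (x : Matrix (Fin n) (Fin n) F).mulVec v = w • v) ∧
        ∀ a : F, (x : Matrix (Fin n) (Fin n) F) ≠ a • 1 := by
      by_cases hodd : Odd (Fintype.card F)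
      · have hlt := hq2 hodd
        set a := padicValNat 2 n with ha
        set s := padicValNat 2 (Fintype.card F - 1) with hs
        have hq3 : 2 ≤ Fintype.card F := Fintype.one_lt_card
        obtain ⟨t, ht⟩ : 2 ^ s ∣ Fintype.card F - 1 := pow_padicValNat_dvd
        obtain ⟨n', hn'⟩ : 2 ^ a ∣ n := pow_padicValNat_dvd
        have hn'odd : Odd n' := by
          rw [← Nat.not_even_iff_odd]
          rintro ⟨k, rfl⟩
          exact pow_succ_padicValNat_not_dvd (p := 2) (n := n) (by omega)
            ⟨k, by rw [← ha, pow_succ]; linarith⟩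
        obtain ⟨g, hg⟩ := IsCyclic.exists_generator (α := Fˣ)
        have hord : orderOf g = Fintype.card F - 1 := by
          rw [orderOf_eq_card_of_forall_mem_zpowers hg, Nat.card_eq_fintype_card, Fintype.card_units]
        have ht0 : 0 < t := by
          rcases Nat.eq_zero_or_pos t with h | h
          · subst h; omega
          · exact h
        have hgm : (g : F) ^ (2 ^ (s - 1) * t) = -1 := by
          have hlt : 2 ^ (s - 1) * t < orderOf g := by
            rw [hord, ht]
            exact Nat.mul_lt_mul_of_pos_right (Nat.pow_lt_pow_right (by norm_num) (by omega)) ht0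
          refine (sq_eq_one_iff.1 ?_).resolve_left fun h1 => ?_
          · rw [← pow_mul, mul_right_comm, ← pow_succ, Nat.sub_add_cancel (by omega), ← ht, ← hord,
              ← Units.val_pow_eq_pow_val, pow_orderOf_eq_one, Units.val_one]
          · have h2 : g ^ (2 ^ (s - 1) * t) = 1 :=
              Units.ext (by rw [Units.val_pow_eq_pow_val, h1, Units.val_one])
            exact pow_ne_one_of_lt_orderOf (Nat.mul_pos (by positivity) ht0).ne' hlt h2
        set l : F := (g : F) ^ (2 ^ (s - 1 - a) * t) with hl
        have hln : l ^ n = -1 := by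
          rw [hl, ← pow_mul, hn', show 2 ^ (s - 1 - a) * t * (2 ^ a * n') = 2 ^ (s - 1) * t * n' by
            rw [show s - 1 = (s - 1 - a) + a by omega, pow_add]; simp only [Nat.add_sub_cancel]; ring,
            pow_mul, hgm, hn'odd.neg_one_pow]
        have h2F : (2 : F) ≠ 0 :=
          Ring.two_ne_zero fun hc => Nat.not_even_iff_odd.2 hodd
            (Nat.even_iff.2 (FiniteField.even_card_of_char_two hc))
        have hl0 : l ≠ 0 := pow_ne_zero _ g.ne_zero
        let dg : Fin n → F := Function.update (fun _ => l) i0 (-l)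
        have hdg : ∏ i, dg i = 1 := by
          rw [Finset.prod_update_of_mem (Finset.mem_univ _), Finset.prod_const,
            Finset.card_sdiff, Finset.inter_eq_left.2 (Finset.subset_univ _), Finset.card_singleton,
            Finset.card_univ, Fintype.card_fin, neg_mul, ← pow_succ',
            Nat.sub_add_cancel hn0, hln, neg_neg]
        have hd0 : dg i0 = -l := Function.update_self _ _ _
        have hd1 : ∀ i, i ≠ i0 → dg i = l := fun i hi => Function.update_of_ne hi _ _
        obtain ⟨X, hX⟩ : ∃ X : Matrix.SpecialLinearGroup (Fin n) F,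
            (X : Matrix (Fin n) (Fin n) F) = Matrix.diagonal dg :=
          ⟨⟨Matrix.diagonal dg, by rw [Matrix.det_diagonal, hdg]⟩, rfl⟩
        refine ⟨X, l, l * l, ?_, ?_, ?_⟩
        · rw [pow_two, Matrix.SpecialLinearGroup.coe_mul, hX]
          rw [Matrix.diagonal_mul_diagonal, Matrix.smul_one_eq_diagonal]
          refine congrArg _ (funext fun i => ?_)
          by_cases h : i = i0
          · subst h; rw [hd0]; ring
          · rw [hd1 i h]
        · intro v hv
          rw [hX]
          funext i
          rw [Matrix.mulVec_diagonal, Pi.smul_apply, smul_eq_mul]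
          by_cases h : i = i0
          · subst h
            rw [show v i0 = 0 from hv, mul_zero, mul_zero]
          · rw [hd1 i h]
        · intro z hz
          rw [hX] at hz
          have e0 := congrFun (congrFun hz i0) i0
          have e1 := congrFun (congrFun hz i1) i1
          change Matrix.diagonal dg i0 i0 = _ at e0
          change Matrix.diagonal dg _ _ = _ at e1
          rw [Matrix.diagonal_apply_eq, hd0] at e0
          rw [Matrix.diagonal_apply_eq, hd1 _ h10] at e1
          simp only [Matrix.smul_apply, Matrix.one_apply_eq, smul_eq_mul, mul_one] at e0 e1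
          have : (2 : F) * l = 0 := by linear_combination e1 - e0
          exact mul_ne_zero h2F hl0 this
      · have h2F : (2 : F) = 0 := by
          by_contra h
          refine hodd ?_
          rw [Nat.odd_iff]
          exact FiniteField.odd_card_of_char_ne_two fun hc => h (by
            haveI := ringChar.of_eq hc
            exact CharTwo.two_eq_zero)
        obtain ⟨X, hX⟩ : ∃ X : Matrix.SpecialLinearGroup (Fin n) F,
            (X : Matrix (Fin n) (Fin n) F) = Matrix.transvection i1 i0 1 :=
          ⟨⟨Matrix.transvection i1 i0 1, Matrix.det_transvection_of_ne i1 i0 h10 1⟩, rfl⟩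
        refine ⟨X, 1, 1, ?_, ?_, ?_⟩
        · rw [pow_two, Matrix.SpecialLinearGroup.coe_mul, one_smul, hX]
          rw [Matrix.transvection_mul_transvection_same i1 i0 h10, show (1 : F) + 1 = 0 by rw [one_add_one_eq_two, h2F],
            Matrix.transvection_zero]
        · intro v hv
          rw [hX]
          rw [one_smul, Matrix.transvection, Matrix.add_mulVec, Matrix.one_mulVec, Matrix.single_mulVec,
            one_mul, show v i0 = 0 from hv, Function.update_eq_self_iff.2 (by simp)]
          simp
        · intro z hz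
          rw [hX] at hz
          have e0 := congrFun (congrFun hz i1) i0
          change Matrix.transvection i1 i0 1 i1 i0 = _ at e0
          simp [Matrix.transvection, h10] at e0
    obtain ⟨P, hP⟩ := hall x ⟨z, hxx⟩ hxn
    set PM := (P : Matrix (Fin n) (Fin n) F)
    set PI := ((P⁻¹ : Matrix.SpecialLinearGroup (Fin n) F) : Matrix (Fin n) (Fin n) F)
    have hPI : PI * PM = 1 := by
      rw [← Matrix.SpecialLinearGroup.coe_mul, inv_mul_cancel, Matrix.SpecialLinearGroup.coe_one]
    have hPM : PM * PI = 1 := by
      rw [← Matrix.SpecialLinearGroup.coe_mul, mul_inv_cancel, Matrix.SpecialLinearGroup.coe_one]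
    let Pe : (Fin n → F) ≃ₗ[F] (Fin n → F) :=
      LinearEquiv.ofLinear (Matrix.toLin' PM) (Matrix.toLin' PI)
        (by rw [← Matrix.toLin'_mul, hPM, Matrix.toLin'_one])
        (by rw [← Matrix.toLin'_mul, hPI, Matrix.toLin'_one])
    refine Agent.H97.not_normalizer_of_hyperplane (by omega) hK
      (Matrix.SpecialLinearGroup.toGL (P⁻¹ * x * P)) (w := w) (E.map Pe.symm.toLinearMap) ?_ ?_ ?_ hP
    · rw [LinearEquiv.finrank_map_eq]; exact hEd
    · rintro _ ⟨v, hv, rfl⟩
      show ((P⁻¹ * x * P : Matrix.SpecialLinearGroup (Fin n) F) : Matrix (Fin n) (Fin n) F).mulVec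
        (Pe.symm v) = w • Pe.symm v
      rw [Matrix.SpecialLinearGroup.coe_mul, Matrix.SpecialLinearGroup.coe_mul, ← Matrix.mulVec_mulVec,
        ← Matrix.mulVec_mulVec]
      show PI.mulVec ((x : Matrix (Fin n) (Fin n) F).mulVec (Pe (Pe.symm v))) = w • PI.mulVec v
      rw [Pe.apply_symm_apply, hxE v hv, Matrix.mulVec_smul]
    · show PI * (x : Matrix (Fin n) (Fin n) F) * PM ≠ w • 1
      intro h
      refine hxn w ?_
      have := congrArg (fun A => PM * A * PI) h
      simp only [mul_smul_comm, smul_mul_assoc, mul_one, hPM, ← mul_assoc, one_mul] at this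
      rwa [mul_assoc, hPM, mul_one] at this
  · intro hcond x ⟨z, hz⟩ hns
    obtain ⟨hx2, hz0, hdet⟩ := Agent.H97.SL_setup hn0 x hz
    set T : Module.End F (Fin n → F) := Matrix.toLin' (x : Matrix (Fin n) (Fin n) F) with hT
    rw [pow_two] at hx2
    have hnV : Module.finrank F (Fin n → F) = n := by simp
    have hTv : ∀ v, T v = (x : Matrix (Fin n) (Fin n) F).mulVec v := fun v => Matrix.toLin'_apply _ v
    have heven : Even n := by
      obtain ⟨m, hm⟩ := hkn
      exact ⟨m, by omega⟩
    by_cases hsq : ∀ w : F, w ^ 2 ≠ z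
    · -- non-square
      have h2 : (2 : F) ≠ 0 := by
        intro h
        haveI : CharP F 2 := (CharP.charP_iff_prime_eq_zero Nat.prime_two).2 (by exact_mod_cast h)
        obtain ⟨s, hs⟩ := FiniteField.isSquare_of_char_two (ringChar.eq F 2) z
        exact hsq s (by rw [pow_two, hs])
      haveI : Fact (Nat.Prime 2) := ⟨Nat.prime_two⟩
      -- a generator with square z
      set d0 := t0 + s0 * s0 / 4
      have h4 : (4 : F) ≠ 0 := by rw [show (4 : F) = 2 * 2 by norm_num]; exact mul_ne_zero h2 h2
      have hd0 : ¬ IsSquare d0 := by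
        rintro ⟨e, he⟩
        refine hirr (e + s0 / 2) ?_
        simp only [d0] at he
        field_simp at he ⊢
        linear_combination -he
      have hchar : ringChar F ≠ 2 := fun h => h2 (by
        haveI := ringChar.of_eq h
        exact CharTwo.two_eq_zero)
      have hzsq : ¬ IsSquare z := fun ⟨s, hs⟩ => hsq s (by rw [pow_two, hs])
      obtain ⟨c, hc⟩ : IsSquare (z / d0) := by
        by_contra hn'
        have ha := (quadraticChar_neg_one_iff_not_isSquare (F := F)).2 hn'
        have hb := (quadraticChar_neg_one_iff_not_isSquare (F := F)).2 hd0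
        have hc := (quadraticChar_neg_one_iff_not_isSquare (F := F)).2 hzsq
        have : quadraticChar F (z / d0 * d0) = -1 := by
          rw [div_mul_cancel₀ _ fun h : d0 = 0 => hd0 (h ▸ ⟨0, by simp⟩), hc]
        rw [map_mul, ha, hb] at this
        norm_num at this
      have hd00 : d0 ≠ 0 := fun h : d0 = 0 => hd0 (h ▸ ⟨0, by simp⟩)
      have hzc : z = c * c * d0 := by rw [← hc, div_mul_cancel₀ _ hd00]
      have hc0 : c ≠ 0 := fun h => hz0 (by rw [hzc, h]; ring)
      obtain ⟨hk, hkn', hst, hgen⟩ := hmove c (-(c * s0) / 2) hc0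
      have hs' : c * s0 + 2 * (-(c * s0) / 2) = 0 := by field_simp; ring
      have ht' : c * c * t0 - c * s0 * (-(c * s0) / 2) - -(c * s0) / 2 * (-(c * s0) / 2) = z := by
        rw [hzc]; simp only [d0]; field_simp; ring
      rw [hs', ht'] at hst
      obtain ⟨l, w, b0, hb0⟩ := Agent.H97.exists_twisted_basis (r := 2) hz0 hsq T
        (by rw [pow_two, hx2])
      let i2 : Fin l × Fin 2 ≃ Fin l ⊕ Fin l :=
        { toFun := fun p => if p.2 = 0 then .inl p.1 else .inr p.1
          invFun := Sum.elim (fun i => (i, 0)) (fun i => (i, 1))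
          left_inv := fun p => by
            obtain ⟨i, a⟩ := p
            fin_cases a <;> simp
          right_inv := fun u => by rcases u with i | i <;> simp }
      have hbl : ∀ i, b0.reindex i2 (.inl i) = w i := fun i => by simp [i2, hb0]
      have hbr : ∀ i, b0.reindex i2 (.inr i) = T (w i) := fun i => by simp [i2, hb0]
      exact Agent.H97.exists_conj_normalizer hn0 hK hk hkn' hgen hst x (b0.reindex i2)
        (fun _ => !![0, z; 1, 0])
        (fun i => by simp [hbl, hbr, hTv])
        (fun i => by
          have h1 : (x : Matrix (Fin n) (Fin n) F).mulVec (T (w i)) = z • w i := by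
            rw [← hTv]; exact LinearMap.congr_fun hx2 (w i)
          simp [hbl, hbr, h1])
        (Or.inl fun i => rfl)
        (Agent.H97.goodSymp_twisted hz0 hsq T hx2 (by rw [hnV]; omega)).2
    push Not at hsq
    obtain ⟨w, rfl⟩ := hsq
    rw [pow_two] at hx2 hz0
    have hw : w ≠ 0 := fun h => hz0 (by rw [h]; ring)
    have hTT : ∀ v, T (T v) = (w * w) • v := fun v => LinearMap.congr_fun hx2 v
    have hTns : T ≠ w • 1 := fun h => hns w (by
      have := congrArg LinearMap.toMatrix' h
      rw [hT, LinearMap.toMatrix'_toLin', map_smul, LinearMap.toMatrix'_one] at this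
      exact this)
    by_cases h2 : (2 : F) = 0
    · haveI : CharP F 2 := (CharP.charP_iff_prime_eq_zero Nat.prime_two).2 (by exact_mod_cast h2)
      have hn2 : n = 2 := hcond.resolve_right fun h => by
        have := FiniteField.even_card_of_char_two (ringChar.eq F 2)
        obtain ⟨j, hj⟩ := h.1
        omega
      have hs0 : s0 ≠ 0 := by
        intro h
        obtain ⟨e, he⟩ := FiniteField.isSquare_of_char_two (ringChar.eq F 2) t0
        exact hirr e (by rw [h, he]; ring)
      obtain ⟨hk, hkn', hst, hgen⟩ := hmove s0⁻¹ 0 (inv_ne_zero hs0)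
      rw [inv_mul_cancel₀ hs0, mul_zero, add_zero] at hst
      obtain ⟨v, hv⟩ : ∃ v, T v ≠ w • v := by
        by_contra h
        push Not at h
        exact hTns (LinearMap.ext h)
      set u := w⁻¹ • T v - v with hu
      have hu0 : u ≠ 0 := fun h => hv (by
        conv_rhs => rw [← sub_eq_zero.1 h]
        rw [smul_smul, mul_inv_cancel₀ hw, one_smul])
      have hdbl : ∀ a : Fin n → F, a + a = 0 := fun a => by
        rw [← two_smul F a, h2, zero_smul]
      have hTu : T u = w • u := by
        rw [hu, map_sub, map_smul, hTT, smul_smul, show w⁻¹ * (w * w) = w by field_simp, smul_sub,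
          smul_smul, mul_inv_cancel₀ hw, one_smul]
        exact sub_eq_sub_iff_add_eq_add.2 (by rw [hdbl, hdbl])
      have hTv' : T v = w • u + w • v := by
        rw [hu, smul_sub, sub_add_cancel, smul_smul, mul_inv_cancel₀ hw, one_smul]
      have hli : LinearIndependent F ![u, v] := by
        rw [LinearIndependent.pair_iff]
        intro a b hab
        have hb : b = 0 := by
          by_contra hb
          have hvu : v = (-(b⁻¹ * a)) • u := by
            have : b • v = -(a • u) := eq_neg_of_add_eq_zero_right hab
            rw [← inv_smul_smul₀ hb v, this, smul_neg, smul_smul, neg_smul]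
          refine hv ?_
          rw [hvu, map_smul, hTu, smul_comm]
        refine ⟨?_, hb⟩
        rw [hb, zero_smul, add_zero] at hab
        exact (smul_eq_zero.1 hab).resolve_right hu0
      let b0 : Module.Basis (Fin 2) F (Fin n → F) :=
        basisOfLinearIndependentOfCardEqFinrank hli (by simp [hn2])
      let i2 : Fin 2 ≃ Fin 1 ⊕ Fin 1 :=
        { toFun := fun a => if a = 0 then .inl 0 else .inr 0
          invFun := Sum.elim (fun _ => 0) (fun _ => 1)
          left_inv := fun a => by fin_cases a <;> simp
          right_inv := fun u => by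
            rcases u with i | i <;> fin_cases i <;> simp }
      have hbl : ∀ i, b0.reindex i2 (.inl i) = u := fun i => by simp [i2, b0]
      have hbr : ∀ i, b0.reindex i2 (.inr i) = v := fun i => by simp [i2, b0]
      refine Agent.H97.exists_conj_normalizer hn0 hK hk hkn' hgen hst x (b0.reindex i2)
        (fun _ => !![w, w; 0, w])
        (fun i => by rw [hbl, ← hTv, hTu]; simp [hbr])
        (fun i => by rw [hbr, ← hTv, hTv']; simp [hbl])
        (Or.inr fun i => ?_)
        (Agent.H97.goodSymp_charTwo hw T hx2 hTns (by rw [hnV]; exact heven)).2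
      ext a c
      fin_cases a <;> fin_cases c <;> simp [Matrix.mul_apply, Fin.sum_univ_two, Matrix.one_apply] <;>
        (try ring_nf) <;> (try simp [h2, CharTwo.sub_eq_add, CharTwo.neg_eq])
    -- split case
    have hchar : ringChar F ≠ 2 := fun h => h2 (by
      haveI := ringChar.of_eq h
      exact CharTwo.two_eq_zero)
    set Pp := LinearMap.ker (T - w • 1) with hPp
    set Nn := LinearMap.ker (T + w • 1) with hNn
    have hPv : ∀ v ∈ Pp, T v = w • v := fun v hv => sub_eq_zero.1 (LinearMap.mem_ker.1 hv)
    have hNv : ∀ v ∈ Nn, T v = -(w • v) := fun v hv =>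
      eq_neg_of_add_eq_zero_left (LinearMap.mem_ker.1 hv)
    have h2w : (2 * w) ≠ 0 := mul_ne_zero h2 hw
    have hcompl : IsCompl Pp Nn := by
      refine ⟨Submodule.disjoint_def.2 fun v h1 h3 => ?_, codisjoint_iff.2 ?_⟩
      · have h4 : (2 * w) • v = 0 := by
          have := (hPv v h1).symm.trans (hNv v h3)
          rw [mul_smul, two_smul]
          exact add_eq_zero_iff_eq_neg.2 this
        exact (smul_eq_zero.1 h4).resolve_left h2w
      · refine Submodule.eq_top_iff'.2 fun v => Submodule.mem_sup.2
          ⟨(2 * w)⁻¹ • (w • v + T v), ?_, (2 * w)⁻¹ • (w • v - T v), ?_, ?_⟩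
        · rw [hPp, LinearMap.mem_ker, map_smul]
          simp only [LinearMap.sub_apply, LinearMap.smul_apply, Module.End.one_apply, map_add, map_smul, hTT]
          module
        · rw [hNn, LinearMap.mem_ker, map_smul]
          simp only [LinearMap.add_apply, LinearMap.smul_apply, Module.End.one_apply, map_sub, map_smul, hTT]
          module
        · rw [← smul_add, show w • v + T v + (w • v - T v) = (2 * w) • v by module, smul_smul,
            inv_mul_cancel₀ h2w, one_smul]
    have hdim : Module.finrank F Pp + Module.finrank F Nn = n := by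
      rw [Submodule.finrank_add_eq_of_isCompl hcompl, hnV]
    have hNpos : 0 < Module.finrank F Nn := by
      by_contra h
      refine hTns (LinearMap.ext fun v => hPv v ?_)
      have := hcompl.sup_eq_top
      rw [Submodule.finrank_eq_zero.1 (show Module.finrank F Nn = 0 by omega), sup_bot_eq] at this
      rw [this]; trivial
    have hPpos : 0 < Module.finrank F Pp := by
      by_contra h
      refine hns (-w) ?_
      have h' : T = (-w) • 1 := LinearMap.ext fun v => by
        have := hcompl.sup_eq_top
        rw [Submodule.finrank_eq_zero.1 (show Module.finrank F Pp = 0 by omega), bot_sup_eq] at this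
        rw [LinearMap.smul_apply, neg_smul]
        exact hNv v (this ▸ trivial)
      have := congrArg LinearMap.toMatrix' h'
      rw [hT, LinearMap.toMatrix'_toLin', map_smul, LinearMap.toMatrix'_one] at this
      exact this
    set d0 := t0 + s0 * s0 / 4
    obtain ⟨hk, hkn', hst, hgen⟩ := hmove 1 (-s0 / 2) one_ne_zero
    have hs' : 1 * s0 + 2 * (-s0 / 2) = 0 := by field_simp; ring
    have h4 : (4 : F) ≠ 0 := by rw [show (4 : F) = 2 * 2 by norm_num]; exact mul_ne_zero h2 h2
    have ht' : 1 * 1 * t0 - 1 * s0 * (-s0 / 2) - -s0 / 2 * (-s0 / 2) = d0 := by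
      simp only [d0]; field_simp; ring
    rw [hs', ht'] at hst
    let bP := Module.finBasis F Pp
    let bN := Module.finBasis F Nn
    let bV := (bP.prod bN).map (Submodule.prodEquivOfIsCompl Pp Nn hcompl)
    have hvl : ∀ i, bV (.inl i) = (bP i : Fin n → F) := fun i => by simp [bV]
    have hvr : ∀ i, bV (.inr i) = (bN i : Fin n → F) := fun i => by simp [bV]
    -- shape of the two eigenspaces
    have hshape : (Module.finrank F Pp = 1 ∧ Module.finrank F Nn = 1) ∨
        (Even (Module.finrank F Pp) ∧ Even (Module.finrank F Nn)) := by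
      by_cases hn2 : n = 2
      · exact Or.inl ⟨by omega, by omega⟩
      · obtain ⟨hodd, hle⟩ := hcond.resolve_left hn2
        have hne : ∀ u : F, u ^ n ≠ -1 := by
          intro u hu
          have hu0 : u ≠ 0 := fun h => by
            rw [h, zero_pow (by omega)] at hu
            exact one_ne_zero (neg_eq_zero.1 hu.symm)
          set a := padicValNat 2 n with ha
          set s := padicValNat 2 (Fintype.card F - 1) with hs
          have hq3 : 2 ≤ Fintype.card F := Fintype.one_lt_card
          obtain ⟨t, ht⟩ : 2 ^ s ∣ Fintype.card F - 1 := pow_padicValNat_dvd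
          obtain ⟨n', hn'⟩ : 2 ^ a ∣ n := pow_padicValNat_dvd
          have htodd : Odd t := by
            rw [← Nat.not_even_iff_odd]
            rintro ⟨k, rfl⟩
            exact pow_succ_padicValNat_not_dvd (p := 2) (n := Fintype.card F - 1) (by omega)
              ⟨k, by rw [← hs, pow_succ]; linarith⟩
          have h1 : u ^ (n * t) = -1 := by rw [pow_mul, hu, htodd.neg_one_pow]
          rw [show n * t = (Fintype.card F - 1) * (2 ^ (a - s) * n') by
            rw [ht, hn', show 2 ^ a = 2 ^ s * 2 ^ (a - s) by rw [← pow_add]; congr 1; omega]; ring,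
            pow_mul, FiniteField.pow_card_sub_one_eq_one u hu0, one_pow] at h1
          exact h2 (by linear_combination h1)
        have hdN : Even (Module.finrank F Nn) := by
          rw [← Nat.not_odd_iff_even]
          intro hNo
          refine hne w ?_
          let y : Module.End F (Pp × Nn) := LinearMap.prodMap (w • LinearMap.id) ((-w) • LinearMap.id)
          let e := Submodule.prodEquivOfIsCompl Pp Nn hcompl
          have hy : LinearMap.det y = 1 := by
            rw [← hdet, ← LinearMap.det_conj y e]
            congr 1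
            refine LinearMap.ext fun v => ?_
            obtain ⟨⟨a, c⟩, rfl⟩ := e.surjective v
            rw [LinearMap.comp_apply, LinearMap.comp_apply, LinearEquiv.coe_coe, LinearEquiv.coe_coe,
              LinearEquiv.symm_apply_apply]
            show e (y (a, c)) = (Matrix.toLin' (x : Matrix (Fin n) (Fin n) F)) (e (a, c))
            rw [← hT]
            simp [e, y, hPv _ a.2, hNv _ c.2]
          rw [LinearMap.det_prodMap, LinearMap.det_smul, LinearMap.det_smul, LinearMap.det_id,
            LinearMap.det_id, mul_one, mul_one, neg_pow, mul_left_comm, ← pow_add, hdim,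
            hNo.neg_one_pow, neg_one_mul] at hy
          exact neg_eq_iff_eq_neg.1 hy
        refine Or.inr ⟨?_, hdN⟩
        rw [← hdim] at heven
        exact (Nat.even_add.1 heven).2 hdN
    rcases hshape with ⟨hP1, hN1⟩ | ⟨⟨a, ha⟩, ⟨c, hc⟩⟩
    · -- dimension two
      let b := bV.reindex (Equiv.sumCongr (finCongr hP1) (finCongr hN1))
      have hbl : ∀ i, T (b (.inl i)) = w • b (.inl i) := fun i => by
        simp only [b, Module.Basis.reindex_apply, Equiv.sumCongr_symm, Equiv.sumCongr_apply, Sum.map_inl, hvl]
        exact hPv _ (bP _).2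
      have hbr : ∀ i, T (b (.inr i)) = -(w • b (.inr i)) := fun i => by
        simp only [b, Module.Basis.reindex_apply, Equiv.sumCongr_symm, Equiv.sumCongr_apply, Sum.map_inr, hvr]
        exact hNv _ (bN _).2
      refine Agent.H97.exists_conj_normalizer hn0 hK hk hkn' hgen hst x b
        (fun _ => !![w, 0; 0, -w])
        (fun i => by rw [← hTv, hbl]; simp)
        (fun i => by rw [← hTv, hbr]; simp)
        (Or.inr fun i => ?_) (fun μ _ => ?_)
      · ext u v
        fin_cases u <;> fin_cases v <;> simp <;> ring
      · obtain ⟨u, hu, hud⟩ := Agent.H97.dets_of_coords b T (fun _ => !![w, 0; 0, -w])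
          (Agent.H97.coords_of_basis b T _ (fun i => by rw [hbl]; simp) (fun i => by rw [hbr]; simp))
          0 !![μ, 0; 0, 1] (by ext u v; fin_cases u <;> fin_cases v <;> simp [mul_comm])
        exact ⟨u, hu, hud.trans (by simp [Matrix.det_fin_two])⟩
    · let ι := (((Equiv.sumCongr ((finCongr ha).trans finSumFinEquiv.symm)
        ((finCongr hc).trans finSumFinEquiv.symm)).trans (Equiv.sumSumSumComm _ _ _ _)).trans
        (Equiv.sumCongr finSumFinEquiv finSumFinEquiv))
      let b := bV.reindex ι
      let μi : Fin (a + c) → F := fun i => Sum.elim (fun _ : Fin a => w) (fun _ : Fin c => -w) (finSumFinEquiv.symm i)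
      have hbl : ∀ i, T (b (.inl i)) = μi i • b (.inl i) := fun i => by
        obtain ⟨i, rfl⟩ := finSumFinEquiv.surjective i
        rcases i with i | i
        · simp only [b, ι, μi, Module.Basis.reindex_apply, Equiv.symm_trans_apply, Equiv.sumCongr_symm, Equiv.sumCongr_apply,
            Sum.map_inl, Equiv.symm_apply_apply, Equiv.sumSumSumComm_symm, Equiv.sumSumSumComm_apply,
            Sum.elim_inl, Sum.map_inr, Sum.elim_inr]
          simp [hvl, hPv]
        · simp only [b, ι, μi, Module.Basis.reindex_apply, Equiv.symm_trans_apply, Equiv.sumCongr_symm, Equiv.sumCongr_apply,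
            Sum.map_inl, Equiv.symm_apply_apply, Equiv.sumSumSumComm_symm, Equiv.sumSumSumComm_apply,
            Sum.elim_inl, Sum.map_inr, Sum.elim_inr]
          simp [hvr, hNv]
      have hbr : ∀ i, T (b (.inr i)) = μi i • b (.inr i) := fun i => by
        obtain ⟨i, rfl⟩ := finSumFinEquiv.surjective i
        rcases i with i | i
        · simp only [b, ι, μi, Module.Basis.reindex_apply, Equiv.symm_trans_apply, Equiv.sumCongr_symm, Equiv.sumCongr_apply,
            Sum.map_inl, Equiv.symm_apply_apply, Equiv.sumSumSumComm_symm, Equiv.sumSumSumComm_apply,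
            Sum.elim_inl, Sum.map_inr, Sum.elim_inr]
          simp [hvl, hPv]
        · simp only [b, ι, μi, Module.Basis.reindex_apply, Equiv.symm_trans_apply, Equiv.sumCongr_symm, Equiv.sumCongr_apply,
            Sum.map_inl, Equiv.symm_apply_apply, Equiv.sumSumSumComm_symm, Equiv.sumSumSumComm_apply,
            Sum.elim_inl, Sum.map_inr, Sum.elim_inr]
          simp [hvr, hNv]
      refine Agent.H97.exists_conj_normalizer hn0 hK hk hkn' hgen hst x b
        (fun i => μi i • 1)
        (fun i => by rw [← hTv, hbl]; simp)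
        (fun i => by rw [← hTv, hbr]; simp)
        (Or.inl fun i => by rw [smul_mul_assoc, one_mul, mul_smul_comm, mul_one]) (fun μ _ => ?_)
      obtain ⟨u, hu, hud⟩ := Agent.H97.dets_of_coords b T (fun i => μi i • 1)
        (Agent.H97.coords_of_basis b T _ (fun i => by rw [hbl]; simp) (fun i => by rw [hbr]; simp))
        ⟨0, by omega⟩ !![μ, 0; 0, 1] (by rw [smul_mul_assoc, one_mul, mul_smul_comm, mul_one])
      exact ⟨u, hu, hud.trans (by simp [Matrix.det_fin_two])⟩

end Cfsg.Agent.S5969
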