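import Cfsg.Statements.S5970
import Cfsg.Agent.H97.SingerNormalizer
import Cfsg.Agent.H97.LinearCriteria

set_option autoImplicit false
open scoped MatrixGroups
open Cfsg

namespace Cfsg.Agent.S5970

/-- Elements of order `n` of PSL_n(q), `n` prime, and the normalizer of a Singer cycle. Here `T = PSL_n(F)` for a field `F` with `q = p^f` elements (`n ≥ 2`, `(n, q) ≠ (2, 2), (2, 3)`), `k` is a prime dividing `n`, `K` is a subalgebra of the `n × n` matrices that is a field of degree `k` over `F` (an extension-field structure F_{q^k} on `F^n`), and `H` is the subgroup of matrices of determinant 1 normalizing `K` — a subgroup of type GL_{n/k}(q^k) (maximal except in some small cases; maximality is not assumed); Ω is the set of cosets of `H` in `T`, so an element of `T` of prime order `r` (a matrix `x` of determinant 1 with `x^r` scalar, `x` not scalar) fixes a point of Ω when some conjugate of `x` by a matrix of determinant 1 normalizes `K`. Take `k = n > 3` prime with `n ≠ p` (so `H` is the normalizer of a Singer cycle),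 and suppose `n` divides the index of `H`. Then every element of `T` of order `n` is conjugate in `T` into `H` if and only if the multiplicative order of `q` modulo `n` is `n − 1`. -/
theorem result {F : Type*} [Field F] [Fintype F] {p : ℕ} [Fact p.Prime] [CharP F p] {q : ℕ} (hq : Fintype.card F = q)
    (n : ℕ) (hn : 2 ≤ n) (hT : (n, q) ≠ (2, 2) ∧ (n, q) ≠ (2, 3))
    (k : ℕ) (hk : k.Prime) (hkn : k ∣ n) (K : Subalgebra F (Matrix (Fin n) (Fin n) F)) (hK : Cfsg.Geo.IsFieldSubalgebra k K) (hkn' : k = n) (hn3 : 3 < n) (hnp : n ≠ p) (hΩ : n ∣ ((Cfsg.Geo.subalgebraNormalizer K).comap (Matrix.SpecialLinearGroup.toGL : Matrix.SpecialLinearGroup (Fin n) F →* GL (Fin n) F)).index) :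
    (∀ x : Matrix.SpecialLinearGroup (Fin n) F,
      (∃ z : F, ((x ^ n : Matrix.SpecialLinearGroup (Fin n) F) : Matrix (Fin n) (Fin n) F) = z • (1 : Matrix (Fin n) (Fin n) F)) →
      (∀ z : F, (x : Matrix (Fin n) (Fin n) F) ≠ z • (1 : Matrix (Fin n) (Fin n) F)) →
      ∃ P : Matrix.SpecialLinearGroup (Fin n) F, P⁻¹ * x * P ∈ ((Cfsg.Geo.subalgebraNormalizer K).comap (Matrix.SpecialLinearGroup.toGL : Matrix.SpecialLinearGroup (Fin n) F →* GL (Fin n) F))) ↔
    orderOf (q : ZMod n) = n - 1 := by
  classical
  subst hq hkn'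
  haveI : Fact k.Prime := ⟨hk⟩
  have hn0 : 0 < k := by omega
  have hkF : (k : F) ≠ 0 := fun h => by
    rw [CharP.cast_eq_zero_iff F p] at h
    exact hnp ((Nat.prime_dvd_prime_iff_eq Fact.out hk).1 h).symm
  have hNF : Nat.card F = Fintype.card F := Nat.card_eq_fintype_card
  set i := orderOf (Nat.card F : ZMod k) with hidef
  rw [← hNF, ← hidef]
  have hidvd : i ∣ k - 1 := orderOf_dvd_of_pow_eq_one
    (ZMod.pow_card_sub_one_eq_one (Agent.H97.natCard_ne_zero_zmod hkF))
  constructor
  · intro hall
    by_contra hcon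
    have hi : i + 2 ≤ k := by
      have := Nat.le_of_dvd (by omega) hidvd
      omega
    -- an element of order `k` with a large eigenspace
    obtain ⟨T, hT, hTd, E, hE, hEd, hne⟩ : ∃ T : Module.End F (Fin k → F), T ^ k = 1 ∧
        LinearMap.det T = 1 ∧ ∃ E : Submodule F (Fin k → F), (∀ v ∈ E, T v = v) ∧
          2 ≤ Module.finrank F E ∧ T ≠ 1 := by
      by_cases hi1 : i = 1
      · haveI : NeZero k := ⟨hk.ne_zero⟩
        obtain ⟨g, hg⟩ := exists_prime_orderOf_dvd_card (G := Fˣ) k (by
          rw [Fintype.card_units, ← hNF]; exact Agent.H97.dvd_sub_one_of_orderOf_eq_one hi1)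
        have hg0 : (g : F) ≠ 0 := g.ne_zero
        have hgk : (g : F) ^ k = 1 := by
          rw [← Units.val_pow_eq_pow_val, ← hg, pow_orderOf_eq_one, Units.val_one]
        let i0 : Fin k := ⟨0, hn0⟩
        let i1 : Fin k := ⟨1, by omega⟩
        have h01 : i0 ≠ i1 := by simp [i0, i1, Fin.ext_iff]
        let a : Fin k → F := Function.update (Function.update 1 i1 (g : F)⁻¹) i0 (g : F)
        have ha : ∀ j, j ≠ i0 → j ≠ i1 → a j = 1 := fun j h0 h1 => by
          simp [a, Function.update_of_ne h0, Function.update_of_ne h1]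
        have ha0 : a i0 = (g : F) := by simp [a]
        have ha1 : a i1 = (g : F)⁻¹ := by simp [a, Function.update_of_ne h01.symm]
        refine ⟨Matrix.toLinAlgEquiv' (Matrix.diagonal a), ?_, ?_,
          Submodule.span F ((fun j => (Pi.single j 1 : Fin k → F)) '' {j | j ≠ i0 ∧ j ≠ i1}), ?_, ?_, ?_⟩
        · rw [← map_pow, Matrix.diagonal_pow, ← map_one Matrix.toLinAlgEquiv', ← Matrix.diagonal_one]
          congr 2
          funext j
          by_cases h0 : j = i0
          · subst h0; rw [Pi.pow_apply, ha0, hgk]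
          by_cases h1 : j = i1
          · subst h1; rw [Pi.pow_apply, ha1, inv_pow, hgk, inv_one]
          rw [Pi.pow_apply, ha j h0 h1, one_pow]
        · show LinearMap.det (Matrix.toLin' (Matrix.diagonal a)) = 1
          rw [LinearMap.det_toLin', Matrix.det_diagonal, Finset.prod_eq_mul i0 i1 h01
            (fun j _ hj => ha j hj.1 hj.2) (by simp) (by simp), ha0, ha1, mul_inv_cancel₀ hg0]
        · intro v hv
          induction hv using Submodule.span_induction with
          | mem u hu =>
            obtain ⟨j, hj, rfl⟩ := hu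
            rw [Matrix.toLinAlgEquiv'_apply, Matrix.diagonal_mulVec_single, mul_one, ha j hj.1 hj.2]
          | zero => rw [map_zero]
          | add u w _ _ hu hw => rw [map_add, hu, hw]
          | smul c u _ hu => rw [map_smul, hu]
        · let f : Fin 2 → (Fin k → F) := fun t => Pi.single ⟨2 + (t : ℕ), by omega⟩ 1
          have hf : LinearIndependent F f := by
            have := (Pi.basisFun F (Fin k)).linearIndependent.comp
              (fun t : Fin 2 => (⟨2 + (t : ℕ), by omega⟩ : Fin k)) (fun a b h => by simp [Fin.ext_iff] at h ⊢; omega)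
            simpa [f, Function.comp_def] using this
          have hle : Submodule.span F (Set.range f) ≤ Submodule.span F
              ((fun j => (Pi.single j 1 : Fin k → F)) '' {j | j ≠ i0 ∧ j ≠ i1}) := by
            refine Submodule.span_mono ?_
            rintro _ ⟨t, rfl⟩
            exact ⟨_, ⟨fun h => absurd (congrArg Fin.val h) (show 2 + (t : ℕ) ≠ 0 by omega),
              fun h => absurd (congrArg Fin.val h) (show 2 + (t : ℕ) ≠ 1 by omega)⟩, rfl⟩
          have h2 := Submodule.finrank_mono hle
          rwa [finrank_span_eq_card hf, Fintype.card_fin] at h2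
        · intro h
          have := congrArg (fun A : Module.End F (Fin k → F) => A (Pi.single i0 1) i0) h
          simp [Matrix.toLinAlgEquiv'_apply, ha0] at this
          exact hk.one_lt.ne' (by rw [← hg, this, orderOf_one])
      · have hi2 : 2 ≤ i := by
          have := Agent.H97.orderOf_pos_zmod (F := F) (r := k) hkF
          omega
        obtain ⟨T, hT, hTe⟩ := Agent.H97.exists_element (F := F) (r := k) hkF (Fin k → F) (k - i) 1
          (by rw [Module.finrank_fin_fun, ← hidef]; omega)
        refine ⟨T, hT, Agent.H97.eq_one_of_pow_eq_one hi2 (by rw [← map_pow, hT, map_one]),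
          Agent.H97.fixedSpace T, fun v hv => Agent.H97.mem_fixedSpace.1 hv, by rw [hTe]; omega, fun h => ?_⟩
        have htop : Agent.H97.fixedSpace T = ⊤ :=
          Submodule.eq_top_iff'.2 fun v => by rw [Agent.H97.mem_fixedSpace, h]; rfl
        rw [htop, finrank_top, Module.finrank_fin_fun] at hTe
        omega
    obtain ⟨x, hxT, hxk⟩ := Agent.H97.exists_SL T hTd (z := 1) (by rw [hT, one_smul])
    have hxv : ∀ v, (x : Matrix (Fin k) (Fin k) F).mulVec v = T v := fun v => by
      rw [← hxT, Matrix.toLin'_apply]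
    obtain ⟨v, hv, hv0⟩ : ∃ v ∈ E, v ≠ 0 := Submodule.exists_mem_ne_zero_of_ne_bot fun h => by
      rw [h, finrank_bot] at hEd; omega
    obtain ⟨P, hP⟩ := hall x ⟨1, hxk⟩ (fun z hz => hne (by
      have hTz : T = z • 1 := by rw [← hxT, hz, map_smul, Matrix.toLin'_one]; rfl
      have h1 := hE v hv
      rw [hTz, LinearMap.smul_apply, Module.End.one_apply] at h1
      rw [hTz, smul_left_injective F hv0 (h1.trans (one_smul F v).symm), one_smul]))
    refine hne (LinearMap.ext fun w => ?_)
    set Pm := (P : Matrix (Fin k) (Fin k) F) with hPm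
    set Pi' := ((P⁻¹ : Matrix.SpecialLinearGroup (Fin k) F) : Matrix (Fin k) (Fin k) F) with hPi
    have hPP : Pm * Pi' = 1 := by rw [← Matrix.SpecialLinearGroup.coe_mul]; simp
    have hPP' : Pi' * Pm = 1 := by rw [← Matrix.SpecialLinearGroup.coe_mul]; simp
    let e : (Fin k → F) ≃ₗ[F] (Fin k → F) :=
      LinearEquiv.ofLinear (Matrix.toLin' Pi') (Matrix.toLin' Pm)
        (by rw [← Matrix.toLin'_mul, hPP', Matrix.toLin'_one]) (by rw [← Matrix.toLin'_mul, hPP, Matrix.toLin'_one])
    have he : ∀ u, e u = Pi'.mulVec u := fun u => Matrix.toLin'_apply _ u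
    have hg : ∀ u, ((Matrix.SpecialLinearGroup.toGL (P⁻¹ * x * P) : GL (Fin k) F) :
        Matrix (Fin k) (Fin k) F).mulVec (e u) = e (T u) := fun u => by
      rw [he, he, ← hxv]
      show ((P⁻¹ * x * P : Matrix.SpecialLinearGroup (Fin k) F) : Matrix (Fin k) (Fin k) F).mulVec _ = _
      rw [Matrix.SpecialLinearGroup.coe_mul, Matrix.SpecialLinearGroup.coe_mul, Matrix.mulVec_mulVec,
        Matrix.mulVec_mulVec, mul_assoc, hPP, mul_one]
    have h1 := Agent.H97.scalar_of_eigen hk hK _ hP (a := (1 : F)) (E := E.map (e : (Fin k → F) →ₗ[F] (Fin k → F)))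
      (by
        rintro _ ⟨u, hu, rfl⟩
        rw [LinearEquiv.coe_coe, hg, hE u hu, one_smul])
      (by rw [LinearEquiv.finrank_map_eq]; exact hEd) (e w)
    rw [hg, one_smul] at h1
    exact e.injective h1
  · intro hik x ⟨z, hz⟩ hns
    obtain ⟨hxk, hz0, -⟩ := Agent.H97.SL_setup hn0 x hz
    have hi2 : 2 ≤ i := by omega
    obtain ⟨w, rfl⟩ := Agent.H97.exists_pow_eq (F := F) (r := k) hi2 z
    have hw : w ≠ 0 := fun h => hz0 (by rw [h, zero_pow hk.ne_zero])
    set T : Module.End F (Fin k → F) := w⁻¹ • Matrix.toLin' (x : Matrix (Fin k) (Fin k) F) with hTdef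
    have hT : T ^ k = 1 := Agent.H97.pow_smul_inv_eq_one _ hw hxk
    have hxT : Matrix.toLin' (x : Matrix (Fin k) (Fin k) F) = w • T := by
      rw [hTdef, smul_smul, mul_inv_cancel₀ hw, one_smul]
    have hTne : T ≠ 1 := fun h => hns w (Matrix.toLin'.injective (by
      rw [hxT, h, map_smul, Matrix.toLin'_one]; rfl))
    obtain ⟨g, hgN, hgk, hgns⟩ := Agent.H97.exists_frobenius hn hK
    set S : Module.End F (Fin k → F) := Matrix.toLinAlgEquiv' (g : Matrix (Fin k) (Fin k) F) with hSdef
    have hS : S ^ k = 1 := by rw [hSdef, ← map_pow, ← Units.val_pow_eq_pow_val, hgk, Units.val_one, map_one]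
    have hSne : S ≠ 1 := fun h => hgns 1 (by
      rw [one_smul]; exact Matrix.toLinAlgEquiv'.injective (h.trans (map_one _).symm))
    obtain ⟨s, hs⟩ := Agent.H97.exists_cyclic_moved (n := k) hkF hik (by omega) rfl
      (Module.finrank_fin_fun F) S hS hSne
    obtain ⟨t, ht⟩ := Agent.H97.exists_cyclic_moved (n := k) hkF hik (by omega) rfl
      (Module.finrank_fin_fun F) T hT hTne
    obtain ⟨Φ, hΦ⟩ := Agent.H97.exists_intertwine_cyclic hn0 (Module.finrank_fin_fun F) T S
      (z := 1) (by rw [hT, one_smul]) (by rw [hS, one_smul]) ht hs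
    let wu : GL (Fin k) F := Matrix.GeneralLinearGroup.scalar (Fin k) (Units.mk0 w hw)
    have hwu : wu * g ∈ Cfsg.Geo.subalgebraNormalizer K := by
      refine mul_mem (fun m => ?_) hgN
      have h1 : (wu : Matrix (Fin k) (Fin k) F) * m * ((wu⁻¹ : GL (Fin k) F) : Matrix (Fin k) (Fin k) F) = m := by
        have hcomm : (wu : Matrix (Fin k) (Fin k) F) * m = m * wu :=
          (Matrix.scalar_commute w (fun _ => mul_comm _ _) m).eq
        rw [hcomm, mul_assoc, Units.mul_inv, mul_one]
      rw [h1]
    refine Agent.H97.exists_conj_of_intertwine _ x (wu * g) hwu Φ (fun v => ?_) fun μ _ => ?_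
    · rw [← Matrix.toLin'_apply, hxT, LinearMap.smul_apply, map_smul, hΦ, Units.val_mul, ← Matrix.mulVec_mulVec]
      show w • S (Φ v) = (Matrix.scalar (Fin k) w).mulVec _
      rw [Matrix.scalar_apply, ← Matrix.smul_one_eq_diagonal, Matrix.smul_mulVec, Matrix.one_mulVec]
      rfl
    · have hc := Agent.H97.isCompl_fixed_moved hkF T hT
      have hd := Agent.H97.dvd_finrank_fpf hkF T hT _ (Agent.H97.movedSpace_inv T)
        (Agent.H97.disjoint_fixed_moved hkF T hT).symm
      rw [← hidef, hik] at hd
      have hM0 : Module.finrank F (Agent.H97.movedSpace T) ≠ 0 := fun h => hTne (sub_eq_zero.1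
        (LinearMap.range_eq_bot.1 (Submodule.finrank_eq_zero.1 h)))
      have hsum := Submodule.finrank_add_eq_of_isCompl hc
      rw [Module.finrank_fin_fun] at hsum
      have hA1 : Module.finrank F (Agent.H97.fixedSpace T) = 1 := by
        obtain ⟨l, hl⟩ := hd
        rcases l with _ | _ | l
        · omega
        · omega
        · rw [show (k - 1) * (l + 1 + 1) = (k - 1) * l + (k - 1) + (k - 1) by ring] at hl; omega
      obtain ⟨u, hu, hud⟩ := Agent.H97.dets_of_isCompl T hc
        (fun v hv => Agent.H97.fixedSpace_inv T ⟨v, hv, rfl⟩)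
        (fun v hv => Agent.H97.movedSpace_inv T ⟨v, hv, rfl⟩) hA1 μ
      refine ⟨u, ?_, hud⟩
      rw [hxT, smul_mul_assoc, mul_smul_comm, hu]

end Cfsg.Agent.S5970
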