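import Cfsg.Statements.S5971
import Cfsg.Agent.H97.SingerNormalizer
import Cfsg.Agent.H97.LinearCriteria
import Cfsg.Agent.H1.Orders

set_option autoImplicit false
open scoped MatrixGroups
open Cfsg

namespace Cfsg.Agent.S5971

/-- Elements of order 3 of PSL_3(q) and the normalizer of a Singer cycle. Here `T = PSL_n(F)` for a field `F` with `q = p^f` elements (`n ≥ 2`, `(n, q) ≠ (2, 2), (2, 3)`), `k` is a prime dividing `n`, `K` is a subalgebra of the `n × n` matrices that is a field of degree `k` over `F` (an extension-field structure F_{q^k} on `F^n`), and `H` is the subgroup of matrices of determinant 1 normalizing `K` — a subgroup of type GL_{n/k}(q^k) (maximal except in some small cases; maximality is not assumed); Ω is the set of cosets of `H` in `T`, so an element of `T` of prime order `r` (a matrix `x` of determinant 1 with `x^r` scalar, `x` not scalar) fixes a point of Ω when some conjugate of `x` by a matrix of determinant 1 normalizes `K`. Take `n = k = 3` and suppose 3 divides the index of `H`. Then every element of `T` of order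 3 is conjugate in `T` into `H` if and only if `q ≡ 4, 7` or `8 (mod 9)`. -/
theorem result {F : Type*} [Field F] [Fintype F] {p : ℕ} [Fact p.Prime] [CharP F p] {q : ℕ} (hq : Fintype.card F = q)
    (n : ℕ) (hn : n = 3) (k : ℕ) (hk : k.Prime) (hkn : k ∣ n) (K : Subalgebra F (Matrix (Fin n) (Fin n) F)) (hK : Cfsg.Geo.IsFieldSubalgebra k K) (hk3 : k = 3) (hΩ : 3 ∣ ((Cfsg.Geo.subalgebraNormalizer K).comap (Matrix.SpecialLinearGroup.toGL : Matrix.SpecialLinearGroup (Fin n) F →* GL (Fin n) F)).index) :
    (∀ x : Matrix.SpecialLinearGroup (Fin n) F,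
      (∃ z : F, ((x ^ 3 : Matrix.SpecialLinearGroup (Fin n) F) : Matrix (Fin n) (Fin n) F) = z • (1 : Matrix (Fin n) (Fin n) F)) →
      (∀ z : F, (x : Matrix (Fin n) (Fin n) F) ≠ z • (1 : Matrix (Fin n) (Fin n) F)) →
      ∃ P : Matrix.SpecialLinearGroup (Fin n) F, P⁻¹ * x * P ∈ ((Cfsg.Geo.subalgebraNormalizer K).comap (Matrix.SpecialLinearGroup.toGL : Matrix.SpecialLinearGroup (Fin n) F →* GL (Fin n) F))) ↔
    (q % 9 = 4 ∨ q % 9 = 7 ∨ q % 9 = 8) := by
  classical
  subst hq hn hk3
  haveI : Fact (Nat.Prime 3) := ⟨Nat.prime_three⟩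
  set q := Fintype.card F with hqdef
  have hq2 : 2 ≤ q := Fintype.one_lt_card
  have hNF : Nat.card F = q := Nat.card_eq_fintype_card
  set H := (Cfsg.Geo.subalgebraNormalizer K).comap
    (Matrix.SpecialLinearGroup.toGL : Matrix.SpecialLinearGroup (Fin 3) F →* GL (Fin 3) F) with hHdef
  -- an element with a two-dimensional eigenspace
  have hbad : ∀ (x : Matrix.SpecialLinearGroup (Fin 3) F) (a : F) (u v : Fin 3 → F),
      (x : Matrix (Fin 3) (Fin 3) F).mulVec u = a • u → (x : Matrix (Fin 3) (Fin 3) F).mulVec v = a • v →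
      LinearIndependent F ![u, v] → (∃ w, (x : Matrix (Fin 3) (Fin 3) F).mulVec w ≠ a • w) →
      ∀ P : Matrix.SpecialLinearGroup (Fin 3) F, P⁻¹ * x * P ∉ H := by
    intro x a u v hu hv hli ⟨w, hw⟩ P hP
    set Pm := (P : Matrix (Fin 3) (Fin 3) F)
    set Pi' := ((P⁻¹ : Matrix.SpecialLinearGroup (Fin 3) F) : Matrix (Fin 3) (Fin 3) F)
    have hPP : Pm * Pi' = 1 := by rw [← Matrix.SpecialLinearGroup.coe_mul]; simp
    have hg : ∀ t, ((Matrix.SpecialLinearGroup.toGL (P⁻¹ * x * P) : GL (Fin 3) F) :
        Matrix (Fin 3) (Fin 3) F).mulVec (Pi'.mulVec t) = Pi'.mulVec ((x : Matrix (Fin 3) (Fin 3) F).mulVec t) := by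
      intro t
      show ((P⁻¹ * x * P : Matrix.SpecialLinearGroup (Fin 3) F) : Matrix (Fin 3) (Fin 3) F).mulVec _ = _
      rw [Matrix.SpecialLinearGroup.coe_mul, Matrix.SpecialLinearGroup.coe_mul, Matrix.mulVec_mulVec,
        Matrix.mulVec_mulVec, mul_assoc, hPP, mul_one]
    clear_value Pm Pi'
    have key : ∀ t, Pm.mulVec (Pi'.mulVec t) = t := fun t => by
      rw [Matrix.mulVec_mulVec, hPP, Matrix.one_mulVec]
    have hli' : LinearIndependent F ![Pi'.mulVec u, Pi'.mulVec v] := by
      have := hli.map' (Matrix.toLin' Pi') (by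
        refine LinearMap.ker_eq_bot.2 fun s t hst => ?_
        have := congrArg Pm.mulVec hst
        rwa [Matrix.toLin'_apply, Matrix.toLin'_apply, key, key] at this)
      have e : ![Pi'.mulVec u, Pi'.mulVec v] = (Matrix.toLin' Pi') ∘ ![u, v] := by
        funext i
        fin_cases i <;> simp [Matrix.toLin'_apply]
      rw [e]; exact this
    have h1 := Agent.H97.scalar_of_eigen hk hK _ hP (a := a)
      (E := Submodule.span F (Set.range ![Pi'.mulVec u, Pi'.mulVec v])) (fun t ht => by
        induction ht using Submodule.span_induction with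
        | mem s hs =>
          obtain ⟨i, rfl⟩ := hs
          fin_cases i
          · simp only [Fin.zero_eta, Matrix.cons_val_zero]
            rw [hg, hu, Matrix.mulVec_smul]
          · simp only [Fin.mk_one, Matrix.cons_val_one, Matrix.cons_val_fin_one]
            rw [hg, hv, Matrix.mulVec_smul]
        | zero => simp
        | add s t _ _ hs ht => rw [Matrix.mulVec_add, hs, ht, smul_add]
        | smul c s _ hs => rw [Matrix.mulVec_smul, hs, smul_comm])
      (by rw [finrank_span_eq_card hli']; simp) (Pi'.mulVec w)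
    rw [hg, ← Matrix.mulVec_smul] at h1
    apply hw
    have h2 := congrArg Pm.mulVec h1
    rwa [key, key] at h2
  have hli01 : LinearIndependent F ![(Pi.single 0 1 : Fin 3 → F), Pi.single 1 1] := by
    have := (Pi.basisFun F (Fin 3)).linearIndependent.comp ![(0 : Fin 3), 1] (by decide)
    convert this using 1
    funext i
    fin_cases i <;> simp
  obtain ⟨g, hgN, hgk, hgns⟩ := Agent.H97.exists_frobenius (by norm_num) hK
  constructor
  · intro hall
    by_cases hq3 : 3 ∣ q
    · -- characteristic three: a transvection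
      exfalso
      have h3 : (3 : F) = 0 := by
        obtain ⟨e, hp, hqe⟩ := FiniteField.card F p
        have h3p : 3 = p := (Nat.prime_dvd_prime_iff_eq Nat.prime_three hp).1
          (Nat.prime_three.dvd_of_dvd_pow (by rw [← hqe]; exact hq3))
        have := CharP.cast_eq_zero F p
        rw [← h3p] at this
        exact_mod_cast this
      let x : Matrix.SpecialLinearGroup (Fin 3) F :=
        ⟨Matrix.transvection 0 2 1, Matrix.det_transvection_of_ne _ _ (by decide) _⟩
      have hx : (x : Matrix (Fin 3) (Fin 3) F) = Matrix.transvection 0 2 1 := rfl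
      have T2 : ∀ c d : F, Matrix.transvection (0 : Fin 3) 2 c * Matrix.transvection 0 2 d =
          Matrix.transvection 0 2 (c + d) := fun c d => Matrix.transvection_mul_transvection_same _ _ (by decide) c d
      obtain ⟨P, hP⟩ := hall x ⟨1, by
        rw [Matrix.SpecialLinearGroup.coe_pow, hx, one_smul, pow_succ, pow_two, T2, T2,
          show (1 : F) + 1 + 1 = 0 by linear_combination h3, Matrix.transvection_zero]⟩ (fun z hz => by
        have := congrFun (congrFun hz 0) 2
        rw [hx] at this
        simp [Matrix.transvection] at this)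
      refine hbad x 1 _ _ ?_ ?_ hli01 ⟨Pi.single 2 1, ?_⟩ P hP
      · funext i; rw [hx]; fin_cases i <;> simp [Matrix.transvection, Matrix.single, Matrix.add_mulVec, Matrix.one_apply]
      · funext i; rw [hx]; fin_cases i <;> simp [Matrix.transvection, Matrix.single, Matrix.add_mulVec, Matrix.one_apply]
      · intro h
        have := congrFun h 0
        rw [hx] at this
        simp [Matrix.transvection, Matrix.one_apply] at this
    by_cases hq1 : q % 9 = 1
    · exfalso
      obtain ⟨γ, hγ⟩ := IsCyclic.exists_generator (α := Fˣ)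
      have hord : orderOf γ = q - 1 := by
        rw [orderOf_eq_card_of_forall_mem_zpowers hγ, Nat.card_eq_fintype_card, Fintype.card_units]
      obtain ⟨t, ht⟩ : 9 ∣ q - 1 := by omega
      set η : F := (γ : F) ^ t with hη
      have h9 : η ^ 9 = 1 := by
        rw [hη, ← pow_mul, mul_comm, ← ht, ← hord, ← Units.val_pow_eq_pow_val, pow_orderOf_eq_one, Units.val_one]
      have h3 : η ^ 3 ≠ 1 := fun h => by
        rw [hη, ← pow_mul, ← Units.val_pow_eq_pow_val, Units.val_eq_one] at h
        have := Nat.le_of_dvd (by omega) (orderOf_dvd_of_pow_eq_one h)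
        omega
      have hη0 : η ≠ 0 := pow_ne_zero _ γ.ne_zero
      let a : Fin 3 → F := ![η, η, η⁻¹ * η⁻¹]
      let x : Matrix.SpecialLinearGroup (Fin 3) F := ⟨Matrix.diagonal a, by
        rw [Matrix.det_diagonal, Fin.prod_univ_three]; simp [a]; field_simp⟩
      have hx : (x : Matrix (Fin 3) (Fin 3) F) = Matrix.diagonal a := rfl
      obtain ⟨P, hP⟩ := hall x ⟨η ^ 3, by
        rw [Matrix.SpecialLinearGroup.coe_pow, hx, Matrix.diagonal_pow, Matrix.smul_one_eq_diagonal]
        congr 1
        funext i
        fin_cases i <;> simp [a]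
        field_simp
        linear_combination -h9⟩ (fun z hz => by
        have e0 := congrFun (congrFun hz 0) 0
        have e2 := congrFun (congrFun hz 2) 2
        rw [hx] at e0 e2
        simp [a] at e0 e2
        apply h3
        have : η = η⁻¹ * η⁻¹ := e0.trans e2.symm
        field_simp at this
        linear_combination this)
      refine hbad x η _ _ ?_ ?_ hli01 ⟨Pi.single 2 1, ?_⟩ P hP
      · rw [hx, Matrix.diagonal_mulVec_single, mul_one, ← Pi.single_smul, smul_eq_mul, mul_one]; simp [a]
      · rw [hx, Matrix.diagonal_mulVec_single, mul_one, ← Pi.single_smul, smul_eq_mul, mul_one]; simp [a]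
      · intro h
        have := congrFun h 2
        rw [hx, Matrix.diagonal_mulVec_single] at this
        simp [a] at this
        apply h3
        field_simp at this
        linear_combination -this
    by_cases hq8 : q % 9 = 4 ∨ q % 9 = 7 ∨ q % 9 = 8
    · exact hq8
    -- the index is not divisible by three
    exfalso
    have h25 : q % 9 = 2 ∨ q % 9 = 5 := by omega
    have hdetg : ((g : Matrix (Fin 3) (Fin 3) F)).det = 1 := by
      have h1 : (g : Matrix (Fin 3) (Fin 3) F).det ^ 3 = 1 := by
        rw [← Matrix.det_pow, ← Units.val_pow_eq_pow_val, hgk, Units.val_one, Matrix.det_one]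
      by_contra hne
      have hord : orderOf ((g : Matrix (Fin 3) (Fin 3) F).det) = 3 := orderOf_eq_prime h1 hne
      have hdvd : 3 ∣ q - 1 := hord ▸ orderOf_dvd_of_pow_eq_one
        (FiniteField.pow_card_sub_one_eq_one _ (fun h => by rw [h] at h1; simp at h1))
      omega
    let G : Matrix.SpecialLinearGroup (Fin 3) F := ⟨(g : Matrix (Fin 3) (Fin 3) F), hdetg⟩
    have hGH : G ∈ H := by
      rw [hHdef, Subgroup.mem_comap, show Matrix.SpecialLinearGroup.toGL G = g from Units.ext rfl]
      exact hgN
    have hGord : orderOf G = 3 := orderOf_eq_prime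
      (Subtype.ext (by rw [Matrix.SpecialLinearGroup.coe_pow]; show (g : Matrix (Fin 3) (Fin 3) F) ^ 3 = _
                       rw [← Units.val_pow_eq_pow_val, hgk]; rfl))
      (fun h => hgns 1 (by
        rw [one_smul]; exact congrArg (fun A : Matrix.SpecialLinearGroup (Fin 3) F =>
          (A : Matrix (Fin 3) (Fin 3) F)) h))
    have h9 : 9 ∣ Nat.card (Matrix.SpecialLinearGroup (Fin 3) F) := by
      rw [← H.card_mul_index, show 9 = 3 * 3 from rfl]
      refine Nat.mul_dvd_mul ?_ hΩ
      have hh := Subgroup.orderOf_dvd_natCard H hGH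
      rwa [hGord] at hh
    have hprod := Agent.H1.sub_one_mul_card_SL (F := F) hqdef.symm 3 (by norm_num)
    have h9' : 9 ∣ ∏ i : Fin 3, (q ^ 3 - q ^ (i : ℕ)) := hprod ▸ h9.mul_left _
    rw [← ZMod.natCast_eq_zero_iff, Nat.cast_prod, Fin.prod_univ_three,
      Nat.cast_sub (Nat.pow_le_pow_right (by omega) (by norm_num)),
      Nat.cast_sub (Nat.pow_le_pow_right (by omega) (by norm_num)),
      Nat.cast_sub (Nat.pow_le_pow_right (by omega) (by norm_num))] at h9'
    simp only [Nat.cast_pow, Fin.val_zero, Fin.val_one, Fin.val_two] at h9'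
    have hcast : (q : ZMod 9) = ((q % 9 : ℕ) : ZMod 9) := (ZMod.natCast_mod q 9).symm
    rw [hcast] at h9'
    rcases h25 with h | h <;> rw [h] at h9' <;> revert h9' <;> decide
  · intro hq9 x ⟨z, hz⟩ hns
    obtain ⟨hx3, hz0, hdet⟩ := Agent.H97.SL_setup (by norm_num) x hz
    have h3F : ((3 : ℕ) : F) ≠ 0 := fun h => by
      obtain ⟨e, hp, hqe⟩ := FiniteField.card F p
      rw [CharP.cast_eq_zero_iff F p] at h
      have h3p := (Nat.prime_dvd_prime_iff_eq hp Nat.prime_three).1 h
      subst h3p
      have : 3 ∣ q := hqdef ▸ hqe ▸ dvd_pow_self 3 (PNat.ne_zero e)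
      omega
    set S : Module.End F (Fin 3 → F) := Matrix.toLinAlgEquiv' (g : Matrix (Fin 3) (Fin 3) F) with hSdef
    have hSv : ∀ v, S v = (g : Matrix (Fin 3) (Fin 3) F).mulVec v := fun v => Matrix.toLinAlgEquiv'_apply _ v
    have hS : S ^ 3 = 1 := by rw [hSdef, ← map_pow, ← Units.val_pow_eq_pow_val, hgk, Units.val_one, map_one]
    have hSne : S ≠ 1 := fun h => hgns 1 (by
      rw [one_smul]; exact Matrix.toLinAlgEquiv'.injective (h.trans (map_one _).symm))
    set X : Module.End F (Fin 3 → F) := Matrix.toLin' (x : Matrix (Fin 3) (Fin 3) F) with hXdef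
    have hXv : ∀ v, X v = (x : Matrix (Fin 3) (Fin 3) F).mulVec v := fun v => Matrix.toLin'_apply _ v
    have hscal : ∀ (w : F) (hw : w ≠ 0), Matrix.GeneralLinearGroup.scalar (Fin 3) (Units.mk0 w hw) * g ∈
        Cfsg.Geo.subalgebraNormalizer K := by
      intro w hw
      refine mul_mem (fun m => ?_) hgN
      set wu := Matrix.GeneralLinearGroup.scalar (Fin 3) (Units.mk0 w hw)
      have hcomm : (wu : Matrix (Fin 3) (Fin 3) F) * m = m * wu :=
        (Matrix.scalar_commute w (fun _ => mul_comm _ _) m).eq
      rw [hcomm, mul_assoc, Units.mul_inv, mul_one]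
    have hscalv : ∀ (w : F) (hw : w ≠ 0) v,
        ((Matrix.GeneralLinearGroup.scalar (Fin 3) (Units.mk0 w hw) * g : GL (Fin 3) F) :
          Matrix (Fin 3) (Fin 3) F).mulVec v = w • S v := fun w hw v => by
      rw [hSv, Units.val_mul, ← Matrix.mulVec_mulVec]
      show (Matrix.scalar (Fin 3) w).mulVec _ = _
      rw [Matrix.scalar_apply, ← Matrix.smul_one_eq_diagonal, Matrix.smul_mulVec, Matrix.one_mulVec]
    by_cases hq8 : q % 9 = 8
    · -- `q` of order two modulo three
      have hord : orderOf (Nat.card F : ZMod 3) = 3 - 1 := by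
        rw [hNF, show (q : ZMod 3) = ((q % 3 : ℕ) : ZMod 3) from (ZMod.natCast_mod q 3).symm,
          show q % 3 = 2 by omega]
        show orderOf ((2 : ℕ) : ZMod 3) = 2
        exact orderOf_eq_prime (p := 2) (show ((2 : ℕ) : ZMod 3) ^ 2 = 1 from rfl) (fun h => by rw [← Nat.cast_one, ZMod.natCast_eq_natCast_iff'] at h; omega)
      have hi2 : 2 ≤ orderOf (Nat.card F : ZMod 3) := by rw [hord]
      obtain ⟨w, rfl⟩ := Agent.H97.exists_pow_eq (F := F) (r := 3) hi2 z
      have hw : w ≠ 0 := fun h => hz0 (by rw [h]; ring)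
      set T : Module.End F (Fin 3 → F) := w⁻¹ • X with hTdef
      have hT : T ^ 3 = 1 := Agent.H97.pow_smul_inv_eq_one _ hw hx3
      have hXT : X = w • T := by rw [hTdef, smul_smul, mul_inv_cancel₀ hw, one_smul]
      have hTne : T ≠ 1 := fun h => hns w (Matrix.toLin'.injective (by
        rw [← hXdef, hXT, h, map_smul, Matrix.toLin'_one]; rfl))
      obtain ⟨s, hs⟩ := Agent.H97.exists_cyclic_moved (n := 3) h3F hord le_rfl rfl
        (Module.finrank_fin_fun F) S hS hSne
      obtain ⟨t, ht⟩ := Agent.H97.exists_cyclic_moved (n := 3) h3F hord le_rfl rfl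
        (Module.finrank_fin_fun F) T hT hTne
      obtain ⟨Φ, hΦ⟩ := Agent.H97.exists_intertwine_cyclic (n := 3) (by norm_num) (Module.finrank_fin_fun F) T S
        (z := 1) (by rw [hT, one_smul]) (by rw [hS, one_smul]) ht hs
      refine Agent.H97.exists_conj_of_intertwine _ x _ (hscal w hw) Φ (fun v => ?_) fun μ _ => ?_
      · rw [← hXv, hXT, LinearMap.smul_apply, map_smul, hΦ, hscalv]
      · have hc := Agent.H97.isCompl_fixed_moved h3F T hT
        have hd := Agent.H97.dvd_finrank_fpf h3F T hT _ (Agent.H97.movedSpace_inv T)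
          (Agent.H97.disjoint_fixed_moved h3F T hT).symm
        rw [hord] at hd
        have hM0 : Module.finrank F (Agent.H97.movedSpace T) ≠ 0 := fun h => hTne (sub_eq_zero.1
          (LinearMap.range_eq_bot.1 (Submodule.finrank_eq_zero.1 h)))
        have hsum := Submodule.finrank_add_eq_of_isCompl hc
        rw [Module.finrank_fin_fun] at hsum
        obtain ⟨u, hu, hud⟩ := Agent.H97.dets_of_isCompl T hc
          (fun v hv => Agent.H97.fixedSpace_inv T ⟨v, hv, rfl⟩)
          (fun v hv => Agent.H97.movedSpace_inv T ⟨v, hv, rfl⟩) (by omega) μ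
        refine ⟨u, ?_, hud⟩
        show X * u = u * X
        rw [hXT, smul_mul_assoc, mul_smul_comm, hu]
    · -- `q` congruent to one modulo three but not modulo nine
      have h31 : 3 ∣ q - 1 := by omega
      obtain ⟨γ, hγ⟩ := exists_prime_orderOf_dvd_card (G := Fˣ) 3 (by rwa [Fintype.card_units])
      have hζ : IsPrimitiveRoot (γ : F) 3 := by
        rw [IsPrimitiveRoot.iff_orderOf, orderOf_units, hγ]
      set ζ : F := (γ : F)
      have hz3 : z ^ 3 = 1 := by
        have h1 : z ^ 3 = LinearMap.det X ^ 3 := by
          rw [← map_pow, hXdef, hx3, LinearMap.det_smul, map_one, mul_one, Module.finrank_fin_fun]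
        rw [h1, hdet, one_pow]
      by_cases hcube : ∃ w : F, w ^ 3 = z
      · -- then `z = 1`
        obtain ⟨w, rfl⟩ := hcube
        have hz1 : w ^ 3 = 1 := by
          by_contra hne
          have h9 : orderOf w = 9 := orderOf_eq_prime_pow (p := 3) (n := 1) (by simpa using hne)
            (by rw [show 3 ^ (1 + 1) = 3 * 3 from rfl, pow_mul]; exact hz3)
          have hdvd : 9 ∣ q - 1 := h9 ▸ orderOf_dvd_of_pow_eq_one
            (FiniteField.pow_card_sub_one_eq_one w (fun h => hz0 (by rw [h]; ring)))
          omega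
        rw [hz1, one_smul] at hx3
        obtain ⟨b, e, he, hb⟩ := Agent.H97.exists_eigenbasis h3F hζ (Module.finrank_fin_fun F) X hx3
        obtain ⟨b', e', he', hb'⟩ := Agent.H97.exists_eigenbasis h3F hζ (Module.finrank_fin_fun F) S hS
        have hinj : Function.Injective e := by
          have hprod : ζ ^ (e 0 + e 1 + e 2) = 1 := by
            rw [← hdet, ← LinearMap.det_toMatrix b, show LinearMap.toMatrix b b X = Matrix.diagonal fun i => ζ ^ e i by
              ext i j
              rw [LinearMap.toMatrix_apply, hb, map_smul, b.repr_self, Finsupp.smul_apply, Matrix.diagonal_apply,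
                Finsupp.single_apply]
              by_cases hij : i = j
              · subst hij; simp
              · simp [hij, Ne.symm hij], Matrix.det_diagonal, Fin.prod_univ_three, pow_add, pow_add]
          have hd := (hζ.pow_eq_one_iff_dvd _).1 hprod
          have hnall : ¬ (e 0 = e 1 ∧ e 1 = e 2) := fun h => hns (ζ ^ e 0) (by
            have hX : X = ζ ^ e 0 • 1 := b.ext fun i => by
              rw [hb]; fin_cases i <;> simp [h.1, h.2]
            exact Matrix.toLin'.injective (by rw [← hXdef, hX, map_smul, Matrix.toLin'_one]; rfl))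
          have b0 := he 0
          have b1 := he 1
          have b2 := he 2
          intro i j hij
          fin_cases i <;> fin_cases j <;> simp at hij ⊢ <;> omega
        have hinj' : Function.Injective e' := by
          intro i j hij
          by_contra hne
          have h1 := Agent.H97.scalar_of_eigen hk hK g hgN (a := ζ ^ e' i)
            (E := Submodule.span F (Set.range ![b' i, b' j])) (fun t ht => by
              induction ht using Submodule.span_induction with
              | mem s hs =>
                obtain ⟨l, rfl⟩ := hs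
                fin_cases l
                · simp only [Fin.zero_eta, Matrix.cons_val_zero]; rw [← hSv, hb']
                · simp only [Fin.mk_one, Matrix.cons_val_one, Matrix.cons_val_fin_one]; rw [← hSv, hb', hij]
              | zero => simp
              | add s t _ _ hs ht => rw [Matrix.mulVec_add, hs, ht, smul_add]
              | smul c s _ hs => rw [Matrix.mulVec_smul, hs, smul_comm])
            (by
              rw [finrank_span_eq_card]
              · simp
              · have := b'.linearIndependent.comp ![i, j] (by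
                  intro s t; fin_cases s <;> fin_cases t <;> simp [hne, Ne.symm hne])
                have e : ![b' i, b' j] = b' ∘ ![i, j] := by funext l; fin_cases l <;> simp
                rw [e]; exact this)
          exact hgns _ (Matrix.ext_of_mulVec_single fun l => by
            rw [h1, Matrix.smul_mulVec, Matrix.one_mulVec])
        obtain ⟨σ, hσ⟩ : ∃ σ : Equiv.Perm (Fin 3), ∀ i, e' (σ i) = e i := by
          let f : Fin 3 → Fin 3 := fun i => ⟨e i, he i⟩
          let f' : Fin 3 → Fin 3 := fun i => ⟨e' i, he' i⟩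
          have hf : Function.Bijective f := Finite.injective_iff_bijective.1
            fun a c h => hinj (congrArg Fin.val h)
          have hf' : Function.Bijective f' := Finite.injective_iff_bijective.1
            fun a c h => hinj' (congrArg Fin.val h)
          exact ⟨(Equiv.ofBijective f hf).trans (Equiv.ofBijective f' hf').symm, fun i =>
            congrArg Fin.val ((Equiv.ofBijective f' hf').apply_symm_apply (f i))⟩
        let Φ := b.equiv b' σ
        refine Agent.H97.exists_conj_of_intertwine _ x g hgN Φ (fun v => ?_)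
          (fun μ _ => Agent.H97.dets_of_diagonal b X _ hb 0 μ)
        rw [← hXv, ← hSv]
        suffices h : Φ.toLinearMap ∘ₗ X = S ∘ₗ Φ.toLinearMap from LinearMap.congr_fun h v
        exact b.ext fun i => by simp [Φ, hb, hb', hσ]
      · push Not at hcube
        obtain ⟨y, hy, hy3⟩ := Agent.H97.exists_pow_eq_smul (by norm_num) hK h31 hz0
        let Y : GL (Fin 3) F := Matrix.GeneralLinearGroup.mkOfDetNeZero y (fun h => by
          have := congrArg Matrix.det hy3
          rw [Matrix.det_pow, h, zero_pow (by norm_num), Matrix.det_smul, Matrix.det_one, mul_one] at this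
          exact pow_ne_zero _ hz0 this.symm)
        have hYN : Y ∈ Cfsg.Geo.subalgebraNormalizer K := by
          intro m
          have hcomm : ∀ m ∈ K, (Y : Matrix (Fin 3) (Fin 3) F) * m * ((Y⁻¹ : GL (Fin 3) F) : Matrix (Fin 3) (Fin 3) F) = m := by
            intro m hm
            show y * m * _ = m
            rw [hK.comm y hy m hm, mul_assoc, show y * ((Y⁻¹ : GL (Fin 3) F) : Matrix (Fin 3) (Fin 3) F) = 1 from
              Units.mul_inv Y, mul_one]
          refine ⟨fun hm => by rwa [hcomm m hm], fun hm => ?_⟩
          have h1 := hK.comm y hy _ hm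
          change (Y : Matrix (Fin 3) (Fin 3) F) * _ = _ * (Y : Matrix (Fin 3) (Fin 3) F) at h1
          conv at h1 => rhs; rw [mul_assoc _ ((Y⁻¹ : GL (Fin 3) F) : Matrix (Fin 3) (Fin 3) F), Units.inv_mul, mul_one]
          rw [← (Units.mul_right_inj Y).1 h1]
          exact hm
        set T : Module.End F (Fin 3 → F) := Matrix.toLinAlgEquiv' y with hTdef
        have hT : T ^ 3 = z • 1 := by rw [hTdef, ← map_pow, hy3, map_smul, map_one]
        obtain ⟨s, hs⟩ := Agent.H97.twisted_cyclic hz0 hcube (Module.finrank_fin_fun F) X hx3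
        obtain ⟨t, ht⟩ := Agent.H97.twisted_cyclic hz0 hcube (Module.finrank_fin_fun F) T hT
        obtain ⟨Φ, hΦ⟩ := Agent.H97.exists_intertwine_cyclic (n := 3) (by norm_num) (Module.finrank_fin_fun F)
          X T hx3 hT hs ht
        refine Agent.H97.exists_conj_of_intertwine _ x Y hYN Φ (fun v => ?_) fun μ _ => ?_
        · rw [← hXv, hΦ]; rfl
        · obtain ⟨m, hm, hmd⟩ := Agent.H97.exists_det_field (by norm_num) hK μ
          refine ⟨Φ.symm.conj (Matrix.toLin' m), LinearMap.ext fun v => ?_, ?_⟩
          · have hXΦ : ∀ u, X (Φ.symm u) = Φ.symm (T u) := fun u => Φ.injective (by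
              rw [hΦ, Φ.apply_symm_apply, Φ.apply_symm_apply])
            show X ((Φ.symm.conj (Matrix.toLin' m)) v) = (Φ.symm.conj (Matrix.toLin' m)) (X v)
            simp only [LinearEquiv.conj_apply_apply, LinearEquiv.symm_symm]
            rw [hXΦ, hΦ, Matrix.toLin'_apply, Matrix.toLin'_apply]
            show Φ.symm (y.mulVec (m.mulVec _)) = Φ.symm (m.mulVec (y.mulVec _))
            rw [Matrix.mulVec_mulVec, Matrix.mulVec_mulVec, hK.comm y hy m hm]
          · rw [LinearEquiv.conj_apply, LinearMap.comp_assoc, LinearMap.det_conj (Matrix.toLin' m) Φ.symm,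
              LinearMap.det_toLin', hmd]

end Cfsg.Agent.S5971
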