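import Cfsg.Statements.S5972
import Cfsg.Agent.H97.OrthIsotropicCriteria
import Cfsg.Agent.H97.OrthIsotropicTwo

set_option autoImplicit false
open scoped MatrixGroups
open Cfsg

namespace Cfsg.Agent.S5972

/-- Elements of prime order of Ω_n(q), n = 2d+1 ≥ 7, q odd, with no fixed totally singular `m`-space. Here `T = Ω_n(q)` is realised as the commutator subgroup of the isometry group of the quadratic form `x₀² + Σ xᵢyᵢ` over the field `F` with `q` elements (it has trivial centre, so its elements of prime order `r` are used directly); let `1 ≤ m ≤ d` and let `r` be a prime dividing the number of totally singular `m`-spaces. For `r ≠ p` let `i` be the multiplicative order of `q` modulo `r`, `c = i` for `i` even and `c = 2i` for `i` odd, and write `k = n mod c`, `ℓ = m mod i`, `n' = ⌊n/i⌋`, `m' = ⌊m/i⌋`, `t = (r−1)/i`. Then every element of `T` of order `r` fixes some totally singular `m`-space if and only if either (i) `r = 2` and (`m < (n−1)/2` or `q ≡ 1 (mod 4)`); or (ii) `r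 ≠ p` is odd, `i ≤ m`, `k > 2ℓ`, and (`i` is odd or `n' − 2m' ≥ t`). -/
theorem result {F : Type*} [Field F] [Fintype F] {p : ℕ} [Fact p.Prime] [CharP F p] {q : ℕ} (hq : Fintype.card F = q) (hqodd : Odd q)
    (d m : ℕ) (hd : 3 ≤ d) (hm : 1 ≤ m) (hmd : m ≤ d)
    (r : ℕ) [Fact r.Prime]
    (hrΩ : r ∣ Nat.card {W : Submodule F (Unit ⊕ (Fin d ⊕ Fin d) → F) // Module.finrank F ↥W = m ∧ (∀ w ∈ W, Cfsg.quadFormOdd d F w = 0)})
    (i c : ℕ) (hi : i = orderOf (q : ZMod r)) (hc : c = if Even i then i else 2 * i) :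
    (∀ x : GL (Unit ⊕ (Fin d ⊕ Fin d)) F, x ∈ Cfsg.Geo.omegaGL (Cfsg.quadFormOdd d F) → orderOf x = r →
      ∃ W : Submodule F (Unit ⊕ (Fin d ⊕ Fin d) → F), Module.finrank F ↥W = m ∧ (∀ w ∈ W, Cfsg.quadFormOdd d F w = 0) ∧
        W.map (Matrix.toLin' (x : Matrix (Unit ⊕ (Fin d ⊕ Fin d)) (Unit ⊕ (Fin d ⊕ Fin d)) F)) ≤ W) ↔
    ((r = 2 ∧ (m < d ∨ q % 4 = 1)) ∨
     (r ≠ p ∧ 2 < r ∧ i ≤ m ∧ 2 * (m % i) < (2 * d + 1) % c ∧ (Odd i ∨ (r - 1) / i + 2 * (m / i) ≤ (2 * d + 1) / i))) := by
  have hF2 : (2 : F) ≠ 0 := Agent.H4.two_ne_zero_of_odd_card (hq ▸ hqodd)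
  have hp2 : p ≠ 2 := fun h => hF2 (by subst h; exact CharTwo.two_eq_zero)
  set Q := Agent.H4.qOdd d F with hQdef
  have hcoe : ⇑Q = Cfsg.quadFormOdd d F := Agent.H4.coe_qOdd d
  rw [← hcoe] at hrΩ ⊢
  have hQ : (QuadraticMap.polarBilin Q).Nondegenerate := Agent.H4.qOdd_nondegenerate hF2 d
  have hI : Fintype.card (Unit ⊕ (Fin d ⊕ Fin d)) = 2 * d + 1 := by simp; omega
  have hV : Module.finrank F (Unit ⊕ (Fin d ⊕ Fin d) → F) = 2 * d + 1 := by
    rw [Module.finrank_fintype_fun_eq_card, hI]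
  have hrp' : r.Prime := Fact.out
  have hne : r ≠ p := fun h => Agent.H97.not_dvd_char_singular (p := p) hQ (m := m) (by omega) (h ▸ hrΩ)
  by_cases hr2 : r = 2
  · subst hr2
    simp only [lt_irrefl, false_and, and_false, or_false, true_and]
    have hsq : IsSquare (-1 : F) ↔ q % 4 = 1 := by
      rw [Agent.H97.isSquare_neg_one_iff' hq]
      have := Nat.odd_iff.1 hqodd
      omega
    constructor
    · intro H
      by_contra hc'
      push Not at hc'
      obtain ⟨x, hx, hxx, hx1, -, hW⟩ :=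
        Agent.H97.exists_omega_minus_plane hF2 hQ (by omega) (fun h => hc'.2 (hsq.1 h))
      obtain ⟨W, hWd, hWs, hWf⟩ := H x hx (orderOf_eq_prime hxx hx1)
      have := (hW W hWs hWf).1
      omega
    · intro hcond x hx ho
      obtain ⟨A, B, hA, hB, hc2, hAB, hAn, hBn, k, hk, hkp⟩ := Agent.H97.omega_involution_parts hF2 hQ hx
        (fun v => by
          rw [Matrix.toLin'_apply, Matrix.toLin'_apply, Matrix.mulVec_mulVec, ← Units.val_mul, ← pow_two, ← ho,
            pow_orderOf_eq_one, Units.val_one, Matrix.one_mulVec])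
      have hdim := Submodule.finrank_add_eq_of_isCompl hc2
      rw [hV, hk] at hdim
      rcases lt_or_ge m d with hlt | hge
      · obtain ⟨W, h1, h2, h3⟩ := Agent.H97.exists_singular_pair hF2 hA hB hc2.disjoint hAB hAn hBn
          (eA := d - k) (eB := k - 1) (Or.inl (by omega))
          (if hk0 : k = 0 then Or.inr ⟨by omega, ⟨⊥, bot_le, by rw [finrank_bot, hk, hk0], by simp⟩⟩
            else Or.inl (by omega)) (m := m) (by omega)
        exact ⟨W, h1, h2, h3⟩
      · have hsq1 := hsq.2 (hcond.resolve_left (by omega))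
        obtain ⟨W, h1, h2, h3⟩ := Agent.H97.exists_singular_pair hF2 hA hB hc2.disjoint hAB hAn hBn
          (eA := d - k) (eB := k) (Or.inl (by omega)) (Or.inr ⟨by omega, hkp.2 (hsq1.pow k)⟩) (m := m) (by omega)
        exact ⟨W, h1, h2, h3⟩
  · have hr2' : 2 < r := by have := hrp'.two_le; omega
    simp only [hr2, false_and, false_or, ne_eq, hne, not_false_eq_true, hr2', true_and, ← and_assoc]
    rw [Agent.H97.forall_omega_orderOf_iff hr2 hne hQ
      (fun W => Module.finrank F W = m ∧ ∀ w ∈ W, Q w = 0) |>.trans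
      (Agent.H97.orth_singular_prime_iff hrp' hne hr2 hQ hI (by omega) (i := i)
        (by rw [Agent.H97.natCard_eq hq]; exact hi) hrΩ)]
    rcases Nat.even_or_odd i with he | ho
    · have h1 : ¬ Odd i := Nat.not_odd_iff_even.2 he
      rw [if_pos he] at hc
      subst hc
      have hk : (2 * d + 1) % c % 2 = 1 := by
        rw [Nat.mod_mod_of_dvd _ he.two_dvd]; omega
      simp only [h1, he, false_and, false_or, true_and]
      constructor
      · rintro ⟨a, b, h | h | h⟩
        · exact absurd h.2.1 (by omega)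
        · exact ⟨⟨a, h⟩, b⟩
        · exact absurd h.1 (by omega)
      · rintro ⟨⟨a, h⟩, b⟩
        exact ⟨a, b, Or.inr (Or.inl h)⟩
    · have h1 : ¬ Even i := Nat.not_even_iff_odd.2 ho
      rw [if_neg h1] at hc
      subst hc
      have hk : (2 * d + 1) % (2 * i) % 2 = 1 := by
        rw [Nat.mod_mod_of_dvd _ (dvd_mul_right 2 i)]; omega
      simp only [ho, h1, false_and, or_false, true_and, true_or, and_true]
      refine and_congr_right fun _ => ⟨?_, Or.inl⟩
      rintro (h | h | h)
      · exact h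
      · exact absurd h.1 (by omega)
      · exact absurd h.1 (by omega)

end Cfsg.Agent.S5972
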