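import Cfsg.Statements.S5973
import Cfsg.Agent.H97.OrthIsotropicCriteria
import Cfsg.Agent.H97.OrthIsotropicTwo

set_option autoImplicit false
open scoped MatrixGroups
open Cfsg

namespace Cfsg.Agent.S5973

/-- Elements of prime order of PΩ⁺_n(q), n = 2d ≥ 8, with no fixed totally singular `m`-space, `m < n/2`. Here `T = PΩ⁺_n(q)` is realised through `Ω⁺_n(q)`, the commutator subgroup of the isometry group of the quadratic form `Σ xᵢyᵢ` over the field `F` with `q` elements; an element of `T` of prime order `r` is an element `x` of `Ω⁺_n(q)` with `x^r` scalar and `x` not scalar. Let `1 ≤ m < d` and let `r` be a prime dividing the number of totally singular `m`-spaces. For `r ≠ p` let `i` be the multiplicative order of `q` modulo `r`, `c = i` for `i` even and `c = 2i` for `i` odd, and write `k = n mod c`, `ℓ = m mod i`, `n' = ⌊n/i⌋`, `m' = ⌊m/i⌋`, `t = (r−1)/i`. Then every element of `T` of order `r` fixes some totally singular `m`-space if and only if one of: (i)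 `r = 2 ≠ p` and either `q ≡ 1 (mod 4)`, or `q ≡ 3 (mod 4)`, `m ≤ n/2 − 2` and (`m` even or `n ≡ 2 (mod 4)`); (ii) `r ≠ p` odd, `i` odd, `i ≤ m` and `k ≥ 2ℓ`; (iii) `r ≠ p` odd, `i` even, `i ≤ m`, `n' − 2m' ≥ t`, and one of: `i ≥ 2ℓ`, `k = 0`, `n/i` odd and `n' − 2m' > t`; or `k ≥ 2ℓ` and `n'` even; or `k > 2ℓ` and `n'` odd. -/
theorem result {F : Type*} [Field F] [Fintype F] {p : ℕ} [Fact p.Prime] [CharP F p] {q : ℕ} (hq : Fintype.card F = q)
    (d m : ℕ) (hd : 4 ≤ d) (hm : 1 ≤ m) (hmd : m < d)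
    (r : ℕ) [Fact r.Prime]
    (hrΩ : r ∣ Nat.card {W : Submodule F (Fin d ⊕ Fin d → F) // Module.finrank F ↥W = m ∧ (∀ w ∈ W, Cfsg.quadFormPlus d F w = 0)})
    (i c : ℕ) (hi : i = orderOf (q : ZMod r)) (hc : c = if Even i then i else 2 * i) :
    (∀ x : GL (Fin d ⊕ Fin d) F, x ∈ Cfsg.Geo.omegaGL (Cfsg.quadFormPlus d F) →
      (∃ z : F, ((x ^ r : GL (Fin d ⊕ Fin d) F) : Matrix (Fin d ⊕ Fin d) (Fin d ⊕ Fin d) F) = z • (1 : Matrix (Fin d ⊕ Fin d) (Fin d ⊕ Fin d) F)) →
      (∀ z : F, (x : Matrix (Fin d ⊕ Fin d) (Fin d ⊕ Fin d) F) ≠ z • (1 : Matrix (Fin d ⊕ Fin d) (Fin d ⊕ Fin d) F)) →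
      ∃ W : Submodule F (Fin d ⊕ Fin d → F), Module.finrank F ↥W = m ∧ (∀ w ∈ W, Cfsg.quadFormPlus d F w = 0) ∧
        W.map (Matrix.toLin' (x : Matrix (Fin d ⊕ Fin d) (Fin d ⊕ Fin d) F)) ≤ W) ↔
    ((r = 2 ∧ p ≠ 2 ∧ (q % 4 = 1 ∨ (q % 4 = 3 ∧ m + 2 ≤ d ∧ (Even m ∨ (2 * d) % 4 = 2)))) ∨
     (r ≠ p ∧ 2 < r ∧ Odd i ∧ i ≤ m ∧ 2 * (m % i) ≤ (2 * d) % c) ∨
     (r ≠ p ∧ 2 < r ∧ Even i ∧ i ≤ m ∧ (r - 1) / i + 2 * (m / i) ≤ (2 * d) / i ∧
       ((2 * (m % i) ≤ i ∧ (2 * d) % c = 0 ∧ Odd ((2 * d) / i) ∧ (r - 1) / i + 2 * (m / i) < (2 * d) / i) ∨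
        (2 * (m % i) ≤ (2 * d) % c ∧ Even ((2 * d) / i)) ∨
        (2 * (m % i) < (2 * d) % c ∧ Odd ((2 * d) / i))))) := by
  have hrp' : r.Prime := Fact.out
  set Q := Agent.H4.qPlus d F with hQdef
  have hcoe : ⇑Q = Cfsg.quadFormPlus d F := Agent.H4.coe_qPlus d
  rw [← hcoe] at hrΩ ⊢
  have hQ : (QuadraticMap.polarBilin Q).Nondegenerate := Agent.H4.qPlus_nondegenerate d
  have hI : Fintype.card (Fin d ⊕ Fin d) = 2 * d := by simp; omega
  have hplus : Agent.H67.HasSing Q d := Agent.H67.hasSing_qPlus d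
  have : Nonempty (Fin d ⊕ Fin d) := Fintype.card_pos_iff.1 (by omega)
  have hne : r ≠ p := fun h => Agent.H97.not_dvd_char_singular (p := p) hQ (m := m)
    (by rw [Module.finrank_fintype_fun_eq_card, hI]; omega) (h ▸ hrΩ)
  by_cases hr2 : r = 2
  · subst hr2
    have hp2 : p ≠ 2 := Ne.symm hne
    have hF2 : (2 : F) ≠ 0 := Ring.two_ne_zero (ringChar.eq F p ▸ hp2)
    have hqodd : q % 2 = 1 := hq ▸ Agent.H4.odd_card_of_two_ne_zero hF2
    have hsq : IsSquare (-1 : F) ↔ q % 4 = 1 := by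
      rw [Agent.H97.isSquare_neg_one_iff' hq]; omega
    simp only [lt_irrefl, false_and, and_false, or_false, true_and, ne_eq, hp2, not_false_eq_true]
    constructor
    · intro H
      by_cases h1 : q % 4 = 1
      · exact Or.inl h1
      have hns : ¬ IsSquare (-1 : F) := fun h => h1 (hsq.1 h)
      refine Or.inr ⟨by omega, ?_, ?_⟩
      · obtain ⟨x, hx, hxx, -, hxn, hW⟩ := Agent.H97.exists_omega_minus_plane hF2 hQ (by omega) hns
        obtain ⟨W, hWd, hWs, hWf⟩ := H x hx ⟨1, by rw [hxx, one_smul]; rfl⟩ hxn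
        have := (hW W hWs hWf).2 d hI hplus
        omega
      · by_contra hc'
        push Not at hc'
        have hde : Even d := Nat.even_iff.2 (by omega)
        obtain ⟨x, hx, hxx⟩ := Agent.H97.exists_omega_sq hF2 hQ hI (iff_of_true hplus (Or.inr hde)) (Or.inl hde)
        have hxQ := Agent.H97.isometry_of_mem_omegaGL hx
        obtain ⟨W, hWd, -, hWf⟩ := H x hx ⟨-1, by
            apply Matrix.toLin'.injective
            refine LinearMap.ext fun v => ?_
            rw [pow_two, Units.val_mul, Matrix.toLin'_mul, LinearMap.comp_apply, hxx, map_smul, Matrix.toLin'_one]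
            simp⟩ (Agent.H97.nonscalar_of_sq_neg hF2 hQ hxQ hxx)
        exact Agent.H97.not_odd_invariant hns hxx hWf (by rw [hWd]; exact Nat.not_even_iff_odd.1 hc'.1)
    · intro hcond x hx hz _
      obtain ⟨z, hz⟩ := hz
      rcases Agent.H97.sq_cases hQ hx hz with hxx | hxx
      · obtain ⟨W, h1, h2, h3⟩ := Agent.H97.exists_singular_omega_involution hF2 hQ hx hxx hI hmd
          (hcond.elim (fun h => Or.inr (Or.inl (hsq.2 h))) (fun h => Or.inl h.2.1))
        exact ⟨W, h1, h2, h3⟩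
      · have hxQ := Agent.H97.isometry_of_mem_omegaGL hx
        obtain ⟨W, h1, h2, h3⟩ := Agent.H97.exists_singular_sq hF2 hQ hxQ hxx (m := m)
          (by rw [Module.finrank_fintype_fun_eq_card, hI]; omega) (by
            rcases hcond with h | ⟨h1, h2, h | h⟩
            · exact Or.inr (hsq.2 h)
            · exact Or.inl h
            · obtain ⟨k, hk, hkp⟩ := Agent.H97.sq_inv_shape hF2 hxQ hxx (P := ⊤) le_top (Agent.H97.nondegOn_top hQ)
              rw [finrank_top, Module.finrank_fintype_fun_eq_card, hI] at hk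
              obtain rfl : k = d := by omega
              rw [Agent.H97.plusOn_top Q (by rw [Module.finrank_fintype_fun_eq_card, hI])] at hkp
              rcases hkp.1 hplus with h' | h'
              · exact Or.inr h'
              · exact absurd (Nat.even_iff.1 h') (by omega))
        exact ⟨W, h1, h2, h3⟩
  · have hr2' : 2 < r := by have := hrp'.two_le; omega
    simp only [hr2, false_and, false_or, ne_eq, hne, not_false_eq_true, hr2', true_and]
    simp only [← and_assoc]
    rw [Agent.H97.forall_omega_elements_iff hr2 hne hQ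
      (fun W => Module.finrank F W = m ∧ ∀ w ∈ W, Q w = 0) |>.trans
      (Agent.H97.orth_singular_prime_iff hrp' hne hr2 hQ hI (by omega) (i := i)
        (by rw [Agent.H97.natCard_eq hq]; exact hi) hrΩ), show 2 * d / 2 = d by omega]
    rcases Nat.even_or_odd i with he | ho
    · have h1 : ¬ Odd i := Nat.not_odd_iff_even.2 he
      rw [if_pos he] at hc
      subst hc
      simp only [h1, he, false_and, false_or, true_and, hplus, true_iff, not_true_eq_false, and_false,
        Nat.not_even_iff_odd, and_assoc]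
      refine and_congr_right fun _ => and_congr_right fun _ => or_congr Iff.rfl ⟨?_, ?_⟩
      · rintro (h | ⟨h, h'⟩)
        · rcases Nat.even_or_odd (2 * d / c) with h' | h'
          · exact Or.inl ⟨h.le, h'⟩
          · exact Or.inr ⟨h, h'⟩
        · exact Or.inl ⟨h.le, h'⟩
      · rintro (⟨h, h'⟩ | ⟨h, -⟩)
        · rcases h.lt_or_eq with h | h
          · exact Or.inl h
          · exact Or.inr ⟨h, h'⟩
        · exact Or.inl h
    · have h1 : ¬ Even i := Nat.not_even_iff_odd.2 ho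
      rw [if_neg h1] at hc
      subst hc
      simp only [ho, h1, false_and, or_false, true_and, hplus, not_true_eq_false, and_false, and_true, and_assoc]
      exact and_congr_right fun _ => le_iff_lt_or_eq.symm

end Cfsg.Agent.S5973
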