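import Cfsg.Statements.S5974
import Cfsg.Agent.H97.OrthTwoElements
import Cfsg.Agent.H97.OrthTwoEven

set_option autoImplicit false
open scoped MatrixGroups
open Cfsg

namespace Cfsg.Agent.S5974

/-- Elements of prime order of PΩ⁺_n(q), n = 2d ≥ 8, with no fixed nondegenerate hyperbolic `m`-space. Here `T = PΩ⁺_n(q)` is realised through `Ω⁺_n(q)`, the commutator subgroup of the isometry group of `Q = Σ xᵢyᵢ` over the field `F` with `q` elements; an element of `T` of prime order `r` is an element `x` of `Ω⁺_n(q)` with `x^r` scalar and `x` not scalar. A hyperbolic `m`-space is a subspace `W` of even dimension `m` on which the polar form of `Q` is nondegenerate and which contains a totally singular subspace of dimension `m/2`. Let `m` be even with `2 ≤ m < n/2`, and let `r` be a prime dividing the number of hyperbolic `m`-spaces, with `r = 2` or `r ≠ p`. For `r ≠ p` let `i` be the multiplicative order of `q` modulo `r`, `c = i` for `i` even and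 `c = 2i` for `i` odd, and write `k = n mod c`, `ℓ' = m mod c`. Then every element of `T` of order `r` fixes some hyperbolic `m`-space if and only if one of: (i) `r = 2` and (`n ≡ 2 (mod 4)`, or `m ≡ 0 (mod 4)`, or `q ≡ 1 (mod 4)`); (ii) `r ≠ p` odd, `i` odd, `c ≤ m` and `k ≥ ℓ'`; (iii) `r ≠ p` odd, `i` even, and either `k = 0` and (`n/i` odd, or `ℓ' = 0` and `m/i` even), or `i ≤ m` and (`k > ℓ' > 0`, or `k = ℓ' > 0` and `(n + m − 2k)/i` even, or `k > ℓ' = 0` and `m/i` even). -/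
theorem result {F : Type*} [Field F] [Fintype F] {p : ℕ} [Fact p.Prime] [CharP F p] {q : ℕ} (hq : Fintype.card F = q)
    (d m : ℕ) (hd : 4 ≤ d) (hm : 2 ≤ m) (hme : Even m) (hmd : m < d)
    (r : ℕ) [Fact r.Prime] (hr : r = 2 ∨ r ≠ p)
    (hrΩ : r ∣ Nat.card {W : Submodule F (Fin d ⊕ Fin d → F) // (Module.finrank F ↥W = m ∧ (∀ u ∈ W, u ≠ 0 → ∃ v ∈ W, QuadraticMap.polar (Cfsg.quadFormPlus d F) u v ≠ 0) ∧
          ∃ U : Submodule F (Fin d ⊕ Fin d → F), U ≤ W ∧ 2 * Module.finrank F ↥U = m ∧ ∀ u ∈ U, Cfsg.quadFormPlus d F u = 0)})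
    (i c : ℕ) (hi : i = orderOf (q : ZMod r)) (hc : c = if Even i then i else 2 * i) :
    (∀ x : GL (Fin d ⊕ Fin d) F, x ∈ Cfsg.Geo.omegaGL (Cfsg.quadFormPlus d F) →
      (∃ z : F, ((x ^ r : GL (Fin d ⊕ Fin d) F) : Matrix (Fin d ⊕ Fin d) (Fin d ⊕ Fin d) F) = z • (1 : Matrix (Fin d ⊕ Fin d) (Fin d ⊕ Fin d) F)) →
      (∀ z : F, (x : Matrix (Fin d ⊕ Fin d) (Fin d ⊕ Fin d) F) ≠ z • (1 : Matrix (Fin d ⊕ Fin d) (Fin d ⊕ Fin d) F)) →
      ∃ W : Submodule F (Fin d ⊕ Fin d → F), (Module.finrank F ↥W = m ∧ (∀ u ∈ W, u ≠ 0 → ∃ v ∈ W, QuadraticMap.polar (Cfsg.quadFormPlus d F) u v ≠ 0) ∧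
          ∃ U : Submodule F (Fin d ⊕ Fin d → F), U ≤ W ∧ 2 * Module.finrank F ↥U = m ∧ ∀ u ∈ U, Cfsg.quadFormPlus d F u = 0) ∧
        W.map (Matrix.toLin' (x : Matrix (Fin d ⊕ Fin d) (Fin d ⊕ Fin d) F)) ≤ W) ↔
    ((r = 2 ∧ ((2 * d) % 4 = 2 ∨ m % 4 = 0 ∨ q % 4 = 1)) ∨
     (r ≠ p ∧ 2 < r ∧ Odd i ∧ c ≤ m ∧ m % c ≤ (2 * d) % c) ∨
     (r ≠ p ∧ 2 < r ∧ Even i ∧
       (((2 * d) % c = 0 ∧ (Odd ((2 * d) / i) ∨ (m % c = 0 ∧ Even (m / i)))) ∨
        (i ≤ m ∧ ((m % c < (2 * d) % c ∧ 0 < m % c) ∨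
                  ((2 * d) % c = m % c ∧ 0 < m % c ∧ Even ((2 * d + m - 2 * ((2 * d) % c)) / i)) ∨
                  (0 < (2 * d) % c ∧ m % c = 0 ∧ Even (m / i))))))) := by
  classical
  obtain ⟨a, rfl⟩ := hme
  rw [← two_mul] at hrΩ hm hmd ⊢
  have hrp' : r.Prime := Fact.out
  set Q := Agent.H4.qPlus d F with hQdef
  have hcoe : ⇑Q = Cfsg.quadFormPlus d F := Agent.H4.coe_qPlus d
  rw [← hcoe] at hrΩ ⊢
  have hQ : (QuadraticMap.polarBilin Q).Nondegenerate := Agent.H4.qPlus_nondegenerate d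
  have hI : Fintype.card (Fin d ⊕ Fin d) = 2 * d := by simp; omega
  have hV : Module.finrank F (Fin d ⊕ Fin d → F) = 2 * d := by rw [Module.finrank_fintype_fun_eq_card, hI]
  have hplus : Agent.H67.HasSing Q d := Agent.H67.hasSing_qPlus d
  have : Nonempty (Fin d ⊕ Fin d) := Fintype.card_pos_iff.1 (by omega)
  have hC : ∀ W : Submodule F (Fin d ⊕ Fin d → F),
      (Module.finrank F W = 2 * a ∧ (∀ u ∈ W, u ≠ 0 → ∃ v ∈ W, QuadraticMap.polar ⇑Q u v ≠ 0) ∧
        ∃ U : Submodule F (Fin d ⊕ Fin d → F), U ≤ W ∧ 2 * Module.finrank F U = 2 * a ∧ ∀ u ∈ U, Q u = 0) ↔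
      (Module.finrank F W = 2 * a ∧ Agent.H97.NondegOn (QuadraticMap.polarBilin Q) W ∧
        (Agent.H97.PlusOn Q W ↔ True)) := fun W => by
    rw [iff_true]
    constructor
    · rintro ⟨h1, h2, U, h3, h4, h5⟩
      refine ⟨h1, fun v hv h0 => ?_, U, h3, h4.trans h1.symm, h5⟩
      by_contra hne
      obtain ⟨y, hy, hvy⟩ := h2 v hv hne
      exact hvy (h0 y hy)
    · rintro ⟨h1, h2, U, h3, h4, h5⟩
      refine ⟨h1, fun u hu hu0 => ?_, U, h3, h4.trans h1, h5⟩
      by_contra h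
      push Not at h
      exact hu0 (h2 u hu h)
  rw [Nat.card_congr (Equiv.subtypeEquivRight hC)] at hrΩ
  simp only [hC]
  by_cases hr2 : r = 2
  · subst hr2
    simp only [lt_irrefl, false_and, and_false, or_false, true_and]
    by_cases hp : p = 2
    · subst hp
      have hq2 : ¬ q % 4 = 1 := by
        have h := FiniteField.even_card_of_char_two (F := F) (ringChar.eq F 2)
        omega
      constructor
      · intro hall
        by_contra hcon
        obtain ⟨k, rfl⟩ : ∃ k, d = 2 * k := ⟨d / 2, by omega⟩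
        obtain ⟨x, hx, hxx, hns, halt, hN⟩ :=
          Agent.H97.exists_alt_element hQ hI (k := k) (by omega) le_rfl fun _ => hplus
        obtain ⟨W, ⟨hWd, hWn, -⟩, hWx⟩ := hall x hx ⟨1, by rw [hxx, one_smul]; rfl⟩ hns
        have hinv : ∀ v : Fin (2 * k) ⊕ Fin (2 * k) → F,
            Matrix.toLin' (x : Matrix (Fin (2 * k) ⊕ Fin (2 * k)) (Fin (2 * k) ⊕ Fin (2 * k)) F)
              (Matrix.toLin' (x : Matrix (Fin (2 * k) ⊕ Fin (2 * k)) (Fin (2 * k) ⊕ Fin (2 * k)) F) v) = v :=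
          fun v => by
            rw [Matrix.toLin'_apply, Matrix.toLin'_apply, Matrix.mulVec_mulVec, ← Units.val_mul, ← pow_two, hxx,
              Units.val_one, Matrix.one_mulVec]
        obtain ⟨j, hj⟩ := (Agent.H97.alt_inv_type hQ (Agent.H97.isometry_of_mem_omegaGL hx) hinv halt hV hN
          (by omega) hWx hWn hWd).1 rfl
        omega
      · intro hcond x hx hz hns
        obtain ⟨z, hz⟩ := hz
        have hxQ := Agent.H97.isometry_of_mem_omegaGL hx
        have hτ : (True ∧ (Odd d ∨ Even a)) := by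
          refine ⟨trivial, ?_⟩
          rcases hcond with h | h | h
          · exact Or.inl (Nat.odd_iff.2 (by omega))
          · exact Or.inr (Nat.even_iff.2 (by omega))
          · exact absurd h hq2
        refine Agent.H97.exists_inv_two hQ hxQ ?_ hV (by omega) (by omega) True (iff_of_true trivial hplus)
          (Or.inl hτ)
        rcases Agent.H97.sq_cases hQ hx hz with h | h
        · exact h
        · exact fun v => (h v).trans (by rw [← neg_one_smul F v, CharTwo.neg_eq (1 : F), one_smul])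
    · have h2 : (2 : F) ≠ 0 := Ring.two_ne_zero (ringChar.eq F p ▸ hp)
      have hqodd : q % 2 = 1 := hq ▸ Agent.H4.odd_card_of_two_ne_zero h2
      rw [Agent.H97.two_odd_criterion h2 hQ (by omega) hI
        (fun W => Module.finrank F W = 2 * a ∧ Agent.H97.NondegOn (QuadraticMap.polarBilin Q) W ∧
          (Agent.H97.PlusOn Q W ↔ True)) ((IsSquare (-1 : F) ∨ Even a) ↔ True)
        (fun y hyQ hy => Agent.H97.exists_involution_type h2 hQ hyQ hy (by omega) (by omega) True)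
        (fun y hyQ hy => Agent.H97.sq_fix_type h2 hQ hI (by omega) True y hyQ hy),
        Agent.H97.isSquare_neg_one_iff' hq, Agent.H97.isSquare_two_iff' hq]
      simp only [iff_true, hplus, true_iff, Nat.even_iff]
      omega
  have hrp : r ≠ p := hr.resolve_left hr2
  have hqc : Nat.card F = q := Agent.H97.natCard_eq hq
  rw [Agent.H97.forall_omega_elements_iff hr2 hrp hQ,
    Agent.H97.criterion_even_even hr2 hrp hQ hV (by omega) (by omega) True (i := i) (c := c)
      (by rw [hqc]; exact hi) hc hrΩ]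
  have hr2' : 2 < r := by have := hrp'.two_le; omega
  simp only [hr2, false_and, false_or, ne_eq, hrp, not_false_eq_true, hr2', true_and, hplus, true_iff, iff_true]
  rcases Nat.even_or_odd i with he | ho
  · simp only [he, if_true] at hc
    subst hc
    simp only [Agent.H97.SgnPlus, Nat.not_odd_iff_even.2 he, he, false_or, false_and, true_and, Nat.not_even_iff_odd]
    have hdiv : c ≤ 2 * a → (2 * a) % c = (2 * d) % c →
        (2 * d + 2 * a - 2 * ((2 * d) % c)) / c = 2 * d / c + 2 * a / c := fun _ heq => by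
      have h0 : 0 < c := by
        rcases Nat.eq_zero_or_pos c with h | h
        · subst h; simp at heq; omega
        · exact h
      have hn := Nat.div_add_mod (2 * d) c
      have hm := Nat.div_add_mod (2 * a) c
      rw [show 2 * d + 2 * a - 2 * ((2 * d) % c) = c * (2 * d / c + 2 * a / c) by rw [mul_add]; omega,
        Nat.mul_div_cancel_left _ h0]
    constructor
    · rintro (h | ⟨h1, h0, ⟨h2, h3⟩ | ⟨h2, h3⟩ | ⟨h2, h3⟩⟩)
      · exact Or.inl h
      · exact Or.inr ⟨h1, Or.inl ⟨h3, h2⟩⟩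
      · exact Or.inr ⟨h1, Or.inr (Or.inl ⟨h2.symm, h2 ▸ h0, by rw [hdiv h1 h2]; exact h3⟩)⟩
      · exact Or.inr ⟨h1, Or.inr (Or.inr ⟨h0, h2, h3⟩)⟩
    · rintro (h | ⟨h1, ⟨h2, h3⟩ | ⟨h2, h3, h4⟩ | ⟨h2, h3, h4⟩⟩)
      · exact Or.inl h
      · exact Or.inr ⟨h1, by omega, Or.inl ⟨h3, h2⟩⟩
      · exact Or.inr ⟨h1, h2 ▸ h3, Or.inr (Or.inl ⟨h2.symm, by rw [← hdiv h1 h2.symm]; exact h4⟩)⟩
      · exact Or.inr ⟨h1, h2, Or.inr (Or.inr ⟨h3, h4⟩)⟩
  · simp only [Agent.H97.SgnPlus, ho, Nat.not_even_iff_odd.2 ho, false_and, or_false, true_and, true_or,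
      not_true_eq_false, false_or, and_true]
    constructor
    · rintro (⟨h1, h2⟩ | ⟨h1, h2, h3⟩)
      · refine ⟨?_, by omega⟩
        by_contra h
        rw [Nat.mod_eq_of_lt (not_le.1 h)] at h2
        omega
      · exact ⟨h1, by omega⟩
    · rintro ⟨h1, h2⟩
      omega

end Cfsg.Agent.S5974
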