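import Cfsg.Statements.S5979
import Cfsg.Agent.H19.TensorConj
import Cfsg.Agent.H19.TensorArith
import Cfsg.Agent.H97.LinearCriteria

set_option autoImplicit false
open scoped MatrixGroups
open Cfsg

namespace Cfsg.Agent.S5979

/-- Elements of prime order of PSL_n(q) and the stabilizers of tensor decompositions with factors of different dimensions. Here `T = PSL_n(F)` for a field `F` with `q` elements and `n = a·b` with `2 ≤ a < b`; a tensor decomposition `F^n ≅ F^a ⊗ F^b` is given by a bijection `e` of index sets and a change of basis `P`, and `H` is the subgroup of matrices of determinant 1 in its stabilizer (the conjugate by `P` of the group of Kronecker products `g₁ ⊗ g₂`) — a subgroup of type GL_a(q) ⊗ GL_b(q) (maximality is not assumed); Ω is the set of cosets of `H` in `T`, so an element of `T` of prime order `r` (a matrix `x` of determinant 1 with `x^r` scalar, `x` not scalar) fixes a point of Ω exactly when some conjugate of `x` by a matrix of determinant 1 lies in `H`. Let `r` be a prime dividing the index of `H`. Then every element of `T` of order `r` fixes a point of Ω if and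 only if `r = 2`, `a = 2`, `q` is odd and `(q − 1)_2 ≤ (n)_2` (2-parts). -/
theorem result {F : Type*} [Field F] [Fintype F] {p : ℕ} [Fact p.Prime] [CharP F p] {q : ℕ} (hq : Fintype.card F = q)
    (n a b : ℕ) (hab : n = a * b) (ha : 2 ≤ a) (hlt : a < b) (e : Fin n ≃ Fin a × Fin b) (P : GL (Fin n) F)
    (r : ℕ) [Fact r.Prime]
    (hΩ : r ∣ (Cfsg.Geo.tensorProductSubgroup a b e P).relIndex (Cfsg.Geo.specialLinear (Fin n) F)) :
    (∀ x ∈ Cfsg.Geo.specialLinear (Fin n) F, (∃ z : F, ((x ^ r : GL (Fin n) F) : Matrix (Fin n) (Fin n) F) = z • (1 : Matrix (Fin n) (Fin n) F)) →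
      (∀ z : F, (x : Matrix (Fin n) (Fin n) F) ≠ z • (1 : Matrix (Fin n) (Fin n) F)) →
      ∃ g ∈ Cfsg.Geo.specialLinear (Fin n) F, g⁻¹ * x * g ∈ Cfsg.Geo.tensorProductSubgroup a b e P) ↔
    (r = 2 ∧ a = 2 ∧ Odd q ∧ padicValNat 2 (q - 1) ≤ padicValNat 2 n) := by
  classical
  subst hq
  have hn0 : 0 < n := by rw [hab]; exact Nat.mul_pos (by omega) (by omega)
  have hrp : r.Prime := Fact.out
  constructor
  · intro hall
    by_contra hcon
    -- a matrix with scalar `r`th power gives a fixed point
    have hex : ∀ M : Matrix (Fin n) (Fin n) F, M.det = 1 → ∀ z : F, M ^ r = z • 1 → (∀ z : F, M ≠ z • 1) →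
        H19.TensorRank.ConjKron e M := by
      intro M hM z hz hns
      let x : GL (Fin n) F := Matrix.SpecialLinearGroup.toGL ⟨M, hM⟩
      have hxm : x ∈ Cfsg.Geo.specialLinear (Fin n) F := by
        rw [Cfsg.Geo.specialLinear, MonoidHom.mem_ker]
        ext
        exact hM
      obtain ⟨g, -, hg⟩ := hall x hxm ⟨z, by rw [Units.val_pow_eq_pow_val]; exact hz⟩ hns
      exact H19.TensorRank.ConjKron.of_mem hg
    have h2n : 2 ≤ n := by rw [hab]; nlinarith
    let i0 : Fin n := ⟨0, hn0⟩
    let i1 : Fin n := ⟨1, h2n⟩
    have h01 : i0 ≠ i1 := by simp [i0, i1, Fin.ext_iff]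
    by_cases hrF : (r : F) = 0
    · -- transvections
      haveI : CharP F r := (CharP.charP_iff_prime_eq_zero hrp).2 hrF
      haveI : Nonempty (Fin n) := ⟨i0⟩
      haveI : ExpChar (Matrix (Fin n) (Fin n) F) r := ExpChar.prime hrp
      refine H19.TensorRank.not_conjKron_of_rank_lt hlt.le (x := Matrix.transvection i1 i0 (1 : F))
        (c := 1) ?_ ?_ (hex _ (Matrix.det_transvection_of_ne _ _ h01.symm _) 1 ?_ ?_)
      pick_goal 3
      · rw [Matrix.transvection, add_pow_expChar_of_commute _ (Commute.one_left _), one_pow, one_smul]
        obtain ⟨k, hk⟩ : ∃ k, r = k + 2 := ⟨r - 2, by have := hrp.two_le; omega⟩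
        rw [hk, pow_add, pow_two, Matrix.single_mul_single_of_ne (h := h01) .., mul_zero, add_zero]
      rotate_left
      · have : (Matrix.transvection i1 i0 (1 : F) - (1 : F) • 1) =
            Matrix.vecMulVec (Pi.single i1 1) (Pi.single i0 1) := by
          rw [Matrix.transvection, one_smul, add_sub_cancel_left]
          ext i j
          simp [Matrix.vecMulVec, Matrix.single_apply, Pi.single_apply, eq_comm]
          split_ifs <;> simp_all
        rw [this]
        exact lt_of_le_of_lt (Matrix.rank_vecMulVec_le _ _) (by omega)
      all_goals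
        intro z hz
        have := congrFun (congrFun hz i1) i0
        simp [Matrix.transvection, h01, h01.symm] at this
    · rcases Nat.lt_or_ge (orderOf (Nat.card F : ZMod r)) 2 with hi | hi
      · -- `r` divides `q - 1`
        have hi1 : orderOf (Nat.card F : ZMod r) = 1 := by
          have := H97.orderOf_pos_zmod (F := F) (r := r) hrF; omega
        have hdvd := H97.dvd_sub_one_of_orderOf_eq_one hi1
        rw [Nat.card_eq_fintype_card] at hdvd
        by_cases h22 : r = 2 ∧ a = 2
        · obtain ⟨rfl, rfl⟩ := h22
          have hodd : Odd (Fintype.card F) := by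
            obtain ⟨c, hc⟩ := hdvd
            exact ⟨c, by have := Fintype.card_pos (α := F); omega⟩
          have hv : padicValNat 2 n < padicValNat 2 (Fintype.card F - 1) := by
            by_contra hle; exact hcon ⟨rfl, rfl, hodd, not_lt.1 hle⟩
          obtain ⟨l, hl⟩ := H19.TensorArith.exists_pow_eq_neg_one (F := F) hn0 hv
          have hl0 : l ≠ 0 := fun h => by
            rw [h, zero_pow hn0.ne'] at hl; exact one_ne_zero (neg_eq_zero.1 hl.symm)
          have h2F : (2 : F) ≠ 0 := by exact_mod_cast hrF
          have hne : -l ≠ l := fun h => mul_ne_zero h2F hl0 (by linear_combination -h)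
          let d : Fin n → F := fun s => if s = i0 then -l else l
          have hns : ∀ z : F, Matrix.diagonal d ≠ z • 1 := by
            intro z hz
            have e0 := congrFun (congrFun hz i0) i0
            have e1 := congrFun (congrFun hz i1) i1
            simp [d, h01.symm] at e0 e1
            exact hne (e0.trans e1.symm)
          refine H19.TensorRank.not_conjKron_of_rank_lt hlt.le (c := l) hns ?_
            (hex (Matrix.diagonal d) ?_ (l * l) ?_ hns)
          · rw [← Matrix.diagonal_one, ← Matrix.diagonal_smul, Matrix.diagonal_sub, Matrix.rank_diagonal]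
            rw [Fintype.card_congr (Equiv.subtypeEquivRight (q := fun s => s = i0) fun s => ?_)]
            · simp only [Fintype.card_subtype_eq]
              omega
            · simp only [d, Pi.smul_apply, smul_eq_mul, mul_one, sub_ne_zero]
              split_ifs <;> simp_all
          · rw [Matrix.det_diagonal, ← Finset.mul_prod_erase _ _ (Finset.mem_univ i0),
              Finset.prod_congr rfl (fun s hs => if_neg (Finset.ne_of_mem_erase hs))]
            simp only [d, if_true, Finset.prod_const, Finset.card_erase_of_mem (Finset.mem_univ i0),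
              Finset.card_univ, Fintype.card_fin]
            rw [neg_mul, ← pow_succ', Nat.sub_add_cancel hn0, hl, neg_neg]
          · rw [Matrix.diagonal_pow, ← Matrix.diagonal_one, ← Matrix.diagonal_smul]
            congr 1
            funext s
            simp only [Pi.pow_apply, d, pow_two]
            split_ifs <;> simp
        · obtain ⟨g, hg⟩ := exists_prime_orderOf_dvd_card (G := Fˣ) r (by rwa [Fintype.card_units])
          set ζ : F := (g : F) with hζdef
          have hζr : ζ ^ r = 1 := by
            rw [← Units.val_pow_eq_pow_val, ← hg, pow_orderOf_eq_one, Units.val_one]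
          have hζ1 : ζ ≠ 1 := fun h => by
            rw [Units.val_eq_one] at h; rw [h, orderOf_one] at hg; exact hrp.one_lt.ne hg
          have hζi : ζ⁻¹ ≠ 1 := fun h => hζ1 (inv_eq_one.1 h)
          let d : Fin n → F := fun s => if s = i0 then ζ else if s = i1 then ζ⁻¹ else 1
          have hd1 : ∀ s, d s ≠ 1 ↔ s = i0 ∨ s = i1 := by
            intro s; simp only [d]; split_ifs <;> simp_all
          have hns : ∀ z : F, Matrix.diagonal d ≠ z • 1 := by
            intro z hz
            have h3 : 3 ≤ n := by rw [hab]; nlinarith
            have e0 := congrFun (congrFun hz i0) i0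
            have e2 := congrFun (congrFun hz ⟨2, h3⟩) ⟨2, h3⟩
            simp [d, i0, i1, Fin.ext_iff] at e0 e2
            exact hζ1 (e0.trans e2.symm)
          have hK := hex (Matrix.diagonal d) (by
            rw [Matrix.det_diagonal, ← Finset.mul_prod_erase _ _ (Finset.mem_univ i0),
              ← Finset.mul_prod_erase _ _ (Finset.mem_erase.2 ⟨h01.symm, Finset.mem_univ i1⟩),
              Finset.prod_eq_one (fun s hs => ?_)]
            · simp [d, h01.symm, ζ]
            · simp only [Finset.mem_erase] at hs
              simp [d, hs.1, hs.2.1]) 1 (by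
            rw [Matrix.diagonal_pow, one_smul, ← Matrix.diagonal_one]
            congr 1
            funext s
            simp only [Pi.pow_apply, d]
            split_ifs <;> simp [inv_pow, hζr]) hns
          have hr2 : (Matrix.diagonal d - (1 : F) • 1).rank = 2 := by
            rw [← Matrix.diagonal_one, one_smul, Matrix.diagonal_sub, Matrix.rank_diagonal,
              ← Finset.card_pair h01, ← Fintype.card_coe]
            refine Fintype.card_congr (Equiv.subtypeEquivRight fun s => ?_)
            rw [sub_ne_zero, hd1]
            simp
          have hdv := H19.TensorRank.dvd_rank_of_rank_lt (c := 1) (by omega) hK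
          have ha2 : a = 2 := le_antisymm (Nat.le_of_dvd two_pos (hr2 ▸ hdv 1)) ha
          subst ha2
          have hζζ : ζ⁻¹ ≠ ζ := fun h => by
            have hsq : ζ ^ 2 = 1 := by
              rw [pow_two]; nth_rewrite 1 [← h]; exact inv_mul_cancel₀ g.ne_zero
            have h2 : g ^ 2 = 1 := Units.ext (by rw [Units.val_pow_eq_pow_val, hsq, Units.val_one])
            have := Nat.le_of_dvd two_pos (hg ▸ orderOf_dvd_of_pow_eq_one h2)
            exact h22 ⟨le_antisymm this hrp.two_le, rfl⟩
          have hr3 : (Matrix.diagonal d - ζ • 1).rank = n - 1 := by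
            rw [← Matrix.diagonal_one, ← Matrix.diagonal_smul, Matrix.diagonal_sub, Matrix.rank_diagonal]
            rw [Fintype.card_congr (Equiv.subtypeEquivRight (q := fun s => s ≠ i0) fun s => ?_)]
            · simp
            · simp only [d, Pi.smul_apply, smul_eq_mul, mul_one, sub_ne_zero]
              split_ifs <;> simp_all [eq_comm]
          have h5 := hdv ζ
          rw [hr3] at h5
          omega
      · -- minimal moved space
        have hin : orderOf (Nat.card F : ZMod r) ≤ n := by
          refine H19.TensorArith.orderOf_le_of_dvd_card (H97.natCard_ne_zero_zmod hrF) ?_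
          exact (hΩ.trans (Subgroup.relIndex_dvd_card _ _)).trans (Subgroup.card_subgroup_dvd_card _)
        obtain ⟨T, hT, hTe⟩ := H97.exists_element (F := F) (r := r) hrF (Fin n → F)
          (n - orderOf (Nat.card F : ZMod r)) 1 (by rw [Module.finrank_fin_fun]; omega)
        obtain ⟨x, hxT, hxr⟩ := H97.exists_SL T
          (H97.eq_one_of_pow_eq_one hi (by rw [← map_pow, hT, map_one])) (z := 1) (by rw [hT, one_smul])
        rw [Matrix.SpecialLinearGroup.coe_pow] at hxr
        have hrk : ((x : Matrix (Fin n) (Fin n) F) - (1 : F) • 1).rank = orderOf (Nat.card F : ZMod r) := by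
          have he : ((x : Matrix (Fin n) (Fin n) F) - (1 : F) • 1).mulVecLin = T - 1 := by
            rw [← hxT]
            refine LinearMap.ext fun v => ?_
            simp [Matrix.sub_mulVec]
          have hc := Submodule.finrank_add_eq_of_isCompl (H97.isCompl_fixed_moved hrF T hT)
          rw [Module.finrank_fin_fun, hTe] at hc
          rw [Matrix.rank, he]
          change Module.finrank F (H97.movedSpace T) = _
          omega
        refine H19.TensorRank.not_conjKron_of_min_moved hrF ha hlt hi
          (by rw [hxr, one_smul]) hrk (hex _ x.det_coe 1 hxr fun z hz => ?_)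
        -- not scalar
        have hzr : z ^ r = 1 := by
          have h1 := congrFun (congrFun hxr i0) i0
          rw [hz, smul_pow, one_pow] at h1
          simpa using h1
        rw [hz, H97.eq_one_of_pow_eq_one hi hzr, sub_self, Matrix.rank_zero] at hrk
        omega
  · rintro ⟨rfl, rfl, hodd, hv⟩ x hxm ⟨z, hz⟩ -
    exact H19.TensorConj.exists_conj_mem hab (by omega) (Nat.odd_iff.1 hodd)
      (H19.TensorArith.pow_ne_neg_one hodd n hv) x hxm hz P

end Cfsg.Agent.S5979
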