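import Cfsg.Statements.S5980
import Cfsg.Agent.H19.SympElem
import Cfsg.Agent.H19.TensorOrbit
import Cfsg.Agent.H19.TensorArith
import Cfsg.Agent.H97.LinearCriteria
import Cfsg.Agent.H97.SympElements
import Cfsg.Agent.H2.Card
import Cfsg.Agent.H2.SpGL

set_option autoImplicit false
set_option maxHeartbeats 4000000
open scoped MatrixGroups
open Cfsg

namespace Cfsg.Agent.S5980

/-- Elements of prime order of PSp_n(q), q odd, and the stabilizers of tensor decompositions Sp_a(q) ⊗ O_b(q). Here `T = PSp_{2d}(F)` for a field `F` with `q` elements, `q` odd, `d ≥ 2`, realised through the matrices preserving the standard alternating form `f`; `2d = a·b` with `a` even, `b ≥ 3`, and the bijection `e` and change of basis `P` exhibit `f` as a non-zero scalar multiple of the tensor product of a non-degenerate alternating form `f₁` on `F^a` and a non-degenerate symmetric bilinear form `f₂` on `F^b`; `H` is the subgroup of `T` stabilizing this tensor decomposition (the elements of `T` in the conjugate by `P` of the group of Kronecker products) — a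 subgroup of type Sp_a(q) ⊗ O^ε_b(q) (maximality is not assumed). Ω is the set of cosets of `H` in `T`, so an element of `T` of prime order `r` (`x ∈ T` with `x^r` scalar, `x` not scalar) fixes a point of Ω exactly when some `T`-conjugate of `x` lies in `H`. Let `r` be a prime dividing the index of `H`. Then every element of `T` of order `r` fixes a point of Ω if and only if `r = 2` and `a = 2`. -/
theorem result {F : Type*} [Field F] [Fintype F] {p : ℕ} [Fact p.Prime] [CharP F p] {q : ℕ} (hq : Fintype.card F = q)
    (hodd : Odd q) (d : ℕ) (hd : 2 ≤ d) (a b : ℕ) (hab : 2 * d = a * b) (ha : Even a) (ha2 : 2 ≤ a) (hb : 3 ≤ b)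
    (e : (Fin d ⊕ Fin d) ≃ Fin a × Fin b) (P : GL (Fin d ⊕ Fin d) F)
    (f₁ : (Fin a → F) → (Fin a → F) → F) (f₂ : (Fin b → F) → (Fin b → F) → F)
    (hf₁ : Cfsg.Geo.IsSymplecticForm f₁) (hf₂ : Cfsg.Geo.IsSymmetricForm f₂)
    (hS : Cfsg.Geo.IsTensorFormStructure id (Cfsg.sympForm d F) f₁ f₂ e P)
    (r : ℕ) [Fact r.Prime]
    (hΩ : r ∣ (Cfsg.Geo.tensorProductSubgroup a b e P).relIndex (Cfsg.spGL d F)) :
    (∀ x ∈ Cfsg.spGL d F, (∃ z : F, ((x ^ r : GL (Fin d ⊕ Fin d) F) : Matrix (Fin d ⊕ Fin d) (Fin d ⊕ Fin d) F) = z • (1 : Matrix (Fin d ⊕ Fin d) (Fin d ⊕ Fin d) F)) →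
      (∀ z : F, (x : Matrix (Fin d ⊕ Fin d) (Fin d ⊕ Fin d) F) ≠ z • (1 : Matrix (Fin d ⊕ Fin d) (Fin d ⊕ Fin d) F)) →
      ∃ g ∈ Cfsg.spGL d F, g⁻¹ * x * g ∈ Cfsg.Geo.tensorProductSubgroup a b e P) ↔ (r = 2 ∧ a = 2) := by
  classical
  subst hq
  have hd0 : 0 < d := by omega
  have hn : Fintype.card (Fin d ⊕ Fin d) = a * b := by simp; omega
  have hF : Fintype.card F % 2 = 1 := Nat.odd_iff.1 hodd
  have h2 : (2 : F) ≠ 0 := by
    intro h
    have hr : ringChar F = 2 := CharP.ringChar_of_prime_eq_zero Nat.prime_two (by exact_mod_cast h)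
    have := (FiniteField.even_card_iff_char_two (F := F)).1 hr
    omega
  have hrp : r.Prime := Fact.out
  constructor
  · intro hall
    by_contra hcon
    obtain ⟨c, hc, hgram⟩ := H19.SympTensor.gram_of_structure hS
    let i0 : Fin d := ⟨0, hd0⟩
    let i1 : Fin d := ⟨1, by omega⟩
    have h01 : i0 ≠ i1 := by simp [i0, i1, Fin.ext_iff]
    -- a fixed point of an element gives a conjugate Kronecker product
    have hex : ∀ x : GL (Fin d ⊕ Fin d) F, x ∈ Cfsg.spGL d F → ∀ z : F,
        (x : Matrix (Fin d ⊕ Fin d) (Fin d ⊕ Fin d) F) ^ r = z • 1 →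
        (∀ z : F, (x : Matrix (Fin d ⊕ Fin d) (Fin d ⊕ Fin d) F) ≠ z • 1) →
        ∃ (g₁ : GL (Fin a) F) (g₂ : GL (Fin b) F) (A : GL (Fin d ⊕ Fin d) F),
          (x : Matrix (Fin d ⊕ Fin d) (Fin d ⊕ Fin d) F) = (A : Matrix (Fin d ⊕ Fin d) (Fin d ⊕ Fin d) F) *
            (Matrix.kronecker (g₁ : Matrix (Fin a) (Fin a) F) (g₂ : Matrix (Fin b) (Fin b) F)).submatrix e e *
            ((A⁻¹ : GL (Fin d ⊕ Fin d) F) : Matrix (Fin d ⊕ Fin d) (Fin d ⊕ Fin d) F) ∧
          (Matrix.kronecker (g₁ : Matrix (Fin a) (Fin a) F) (g₂ : Matrix (Fin b) (Fin b) F)).transpose *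
              Matrix.kronecker (Cfsg.Geo.gramMatrix f₁) (Cfsg.Geo.gramMatrix f₂) *
            Matrix.kronecker (g₁ : Matrix (Fin a) (Fin a) F) (g₂ : Matrix (Fin b) (Fin b) F) =
          Matrix.kronecker (Cfsg.Geo.gramMatrix f₁) (Cfsg.Geo.gramMatrix f₂) := by
      intro x hx z hz hns
      obtain ⟨g, hg, h⟩ := hall x hx ⟨z, by rw [Units.val_pow_eq_pow_val]; exact hz⟩ hns
      exact H19.SympTensor.exists_gram_invariant hc hgram hx hg h
    -- ranks
    have hrank : ∀ (x : Matrix (Fin d ⊕ Fin d) (Fin d ⊕ Fin d) F) (A : GL (Fin d ⊕ Fin d) F)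
        (N : Matrix (Fin a × Fin b) (Fin a × Fin b) F),
        x = (A : Matrix _ _ F) * N.submatrix e e * ((A⁻¹ : GL (Fin d ⊕ Fin d) F) : Matrix _ _ F) →
        ∀ c : F, (x - c • 1).rank = (N - c • 1).rank := by
      intro x A N hx c
      have hA : IsUnit (A : Matrix (Fin d ⊕ Fin d) (Fin d ⊕ Fin d) F).det :=
        (Matrix.isUnit_iff_isUnit_det _).1 A.isUnit
      have hAi : IsUnit ((A⁻¹ : GL (Fin d ⊕ Fin d) F) : Matrix (Fin d ⊕ Fin d) (Fin d ⊕ Fin d) F).det :=
        (Matrix.isUnit_iff_isUnit_det _).1 (A⁻¹).isUnit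
      have h1 : x - c • 1 = (A : Matrix _ _ F) * (N - c • 1).submatrix e e *
          ((A⁻¹ : GL (Fin d ⊕ Fin d) F) : Matrix _ _ F) := by
        rw [Matrix.submatrix_sub, Pi.sub_apply, Pi.sub_apply, Matrix.submatrix_smul, Pi.smul_apply, Pi.smul_apply,
          Matrix.submatrix_one_equiv, Matrix.mul_sub, Matrix.sub_mul, ← hx, Matrix.mul_smul, Matrix.mul_one,
          Matrix.smul_mul, ← Units.val_mul, mul_inv_cancel, Units.val_one]
      rw [h1, Matrix.rank_mul_eq_left_of_isUnit_det _ _ hAi, Matrix.rank_mul_eq_right_of_isUnit_det _ _ hA,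
        Matrix.rank_submatrix]
    -- small rank excludes Kronecker products
    have hsmall : ∀ x : GL (Fin d ⊕ Fin d) F, x ∈ Cfsg.spGL d F → ∀ z : F,
        (x : Matrix (Fin d ⊕ Fin d) (Fin d ⊕ Fin d) F) ^ r = z • 1 →
        (∀ z : F, (x : Matrix (Fin d ⊕ Fin d) (Fin d ⊕ Fin d) F) ≠ z • 1) → ∀ c : F,
        ((x : Matrix (Fin d ⊕ Fin d) (Fin d ⊕ Fin d) F) - c • 1).rank < b →
        ∃ (M : Matrix (Fin b) (Fin b) F) (A : GL (Fin d ⊕ Fin d) F),
          (x : Matrix (Fin d ⊕ Fin d) (Fin d ⊕ Fin d) F) = (A : Matrix _ _ F) *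
            (Matrix.kronecker (1 : Matrix (Fin a) (Fin a) F) M).submatrix e e *
            ((A⁻¹ : GL (Fin d ⊕ Fin d) F) : Matrix _ _ F) ∧
          a ≤ ((x : Matrix (Fin d ⊕ Fin d) (Fin d ⊕ Fin d) F) - c • 1).rank ∧
          ∀ c : F, ((x : Matrix (Fin d ⊕ Fin d) (Fin d ⊕ Fin d) F) - c • 1).rank = a * (M - c • 1).rank := by
      intro x hx z hz hns c' hc'
      obtain ⟨g₁, g₂, A, hA, -⟩ := hex x hx z hz hns
      rw [hrank _ A _ hA] at hc'
      obtain ⟨s, hs⟩ : H19.TensorRank.IsScalarMat (g₁ : Matrix (Fin a) (Fin a) F) := by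
        by_contra hn
        have := H19.TensorRank.le_rank_of_left _ _ ((Matrix.isUnit_iff_isUnit_det _).1 g₂.isUnit) hn c'
        exact absurd this (not_le.2 hc')
      have hg2 : ¬ H19.TensorRank.IsScalarMat (g₂ : Matrix (Fin b) (Fin b) F) := by
        rintro ⟨t, ht⟩
        refine hns (s * t) ?_
        rw [hA, hs, ht, Matrix.kronecker, Matrix.smul_kronecker, Matrix.kronecker_smul, Matrix.one_kronecker_one,
          smul_smul, Matrix.submatrix_smul, Pi.smul_apply, Pi.smul_apply, Matrix.submatrix_one_equiv,
          Matrix.mul_smul, Matrix.mul_one, Matrix.smul_mul, ← Units.val_mul, mul_inv_cancel, Units.val_one]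
      have hA' : (x : Matrix (Fin d ⊕ Fin d) (Fin d ⊕ Fin d) F) = (A : Matrix _ _ F) *
            (Matrix.kronecker (1 : Matrix (Fin a) (Fin a) F) (s • (g₂ : Matrix (Fin b) (Fin b) F))).submatrix e e *
            ((A⁻¹ : GL (Fin d ⊕ Fin d) F) : Matrix _ _ F) := by
        rw [hA, hs, Matrix.kronecker, Matrix.smul_kronecker, Matrix.kronecker_smul]
      refine ⟨_, A, hA', ?_, fun c => ?_⟩
      · rw [hrank _ A _ hA]
        exact H19.TensorRank.le_rank_of_right _ ((Matrix.isUnit_iff_isUnit_det _).1 g₁.isUnit) _ hg2 c'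
      · rw [hrank _ A _ hA', ← H19.TensorRank.rank_one_kron]
        congr 1
        ext ⟨i, j⟩ ⟨k, l⟩
        simp [Matrix.one_apply]
        split_ifs <;> simp_all
    by_cases hrF : (r : F) = 0
    · -- a transvection
      haveI : CharP F r := (CharP.charP_iff_prime_eq_zero hrp).2 hrF
      set N := Matrix.single i0 i0 (1 : F) with hN
      set X := Matrix.fromBlocks (1 : Matrix (Fin d) (Fin d) F) N (0 : Matrix (Fin d) (Fin d) F) (1 : Matrix (Fin d) (Fin d) F) with hX
      let x : GL (Fin d ⊕ Fin d) F := Matrix.GeneralLinearGroup.mkOfDetNeZero X (by simp [hX])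
      have hx : x ∈ Cfsg.spGL d F := H19.SympElem.shear_mem x rfl (by simp [hN])
      have hpow : ∀ k : ℕ, X ^ k = Matrix.fromBlocks 1 (k • N) 0 1 := by
        intro k
        induction k with
        | zero => simp
        | succ k ih =>
          rw [pow_succ, ih, hX, Matrix.fromBlocks_multiply, succ_nsmul]
          simp only [Matrix.one_mul, Matrix.mul_one, Matrix.mul_zero, Matrix.zero_mul, add_zero, zero_add]
          rw [add_comm]
      have hxr : (x : Matrix (Fin d ⊕ Fin d) (Fin d ⊕ Fin d) F) ^ r = (1 : F) • 1 := by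
        show X ^ r = _
        rw [hpow, one_smul, ← Nat.cast_smul_eq_nsmul F, hrF, zero_smul, Matrix.fromBlocks_one]
      have hns : ∀ z : F, (x : Matrix (Fin d ⊕ Fin d) (Fin d ⊕ Fin d) F) ≠ z • 1 := by
        intro z hz
        have := congrFun (congrFun (show X = z • 1 from hz) (Sum.inl i0)) (Sum.inr i0)
        simp [hX, hN] at this
      have hrk : ((x : Matrix (Fin d ⊕ Fin d) (Fin d ⊕ Fin d) F) - (1 : F) • 1).rank ≤ 1 := by
        show (X - (1 : F) • 1).rank ≤ 1
        rw [one_smul, hX, hN]
        exact H19.SympElem.rank_shear_sub_one_le i0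
      obtain ⟨M, A, -, hle, -⟩ := hsmall x hx 1 hxr hns 1 (by omega)
      omega
    · rcases Nat.lt_or_ge (orderOf (Nat.card F : ZMod r)) 2 with hi | hi
      · have hi1 : orderOf (Nat.card F : ZMod r) = 1 := by
          have := H97.orderOf_pos_zmod (F := F) (r := r) hrF; omega
        have hdvd := H97.dvd_sub_one_of_orderOf_eq_one hi1
        rw [Nat.card_eq_fintype_card] at hdvd
        obtain ⟨g, hg⟩ := exists_prime_orderOf_dvd_card (G := Fˣ) r (by rwa [Fintype.card_units])
        set ζ : F := (g : F) with hζdef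
        have hζr : ζ ^ r = 1 := by
          rw [← Units.val_pow_eq_pow_val, ← hg, pow_orderOf_eq_one, Units.val_one]
        have hζ1 : ζ ≠ 1 := fun h => by
          rw [Units.val_eq_one] at h; rw [h, orderOf_one] at hg; exact hrp.one_lt.ne hg
        have hζi : ζ⁻¹ ≠ 1 := fun h => hζ1 (inv_eq_one.1 h)
        let u : Fin d → F := fun s => if s = i0 then ζ else 1
        let w : Fin d → F := fun s => if s = i0 then ζ⁻¹ else 1
        have huw : ∀ s, u s * w s = 1 := fun s => by simp only [u, w]; split_ifs <;> simp [ζ]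
        set X := Matrix.fromBlocks (Matrix.diagonal u) 0 0 (Matrix.diagonal w) with hX
        have hX' : X = Matrix.diagonal (Sum.elim u w) := Matrix.fromBlocks_diagonal u w
        let x : GL (Fin d ⊕ Fin d) F := Matrix.GeneralLinearGroup.mkOfDetNeZero X (by
          rw [hX', Matrix.det_diagonal, Finset.prod_ne_zero_iff]
          rintro (s | s) - <;> simp only [Sum.elim_inl, Sum.elim_inr, u, w] <;> split_ifs <;> simp [ζ])
        have hx : x ∈ Cfsg.spGL d F := H19.SympElem.blocks_mem x rfl (by
          rw [Matrix.diagonal_transpose, Matrix.diagonal_mul_diagonal, ← Matrix.diagonal_one]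
          exact congrArg _ (funext huw))
        have hxr : (x : Matrix (Fin d ⊕ Fin d) (Fin d ⊕ Fin d) F) ^ r = (1 : F) • 1 := by
          show X ^ r = _
          rw [hX', Matrix.diagonal_pow, one_smul, ← Matrix.diagonal_one]
          congr 1
          funext s
          rcases s with s | s <;> simp only [Pi.pow_apply, Sum.elim_inl, Sum.elim_inr, u, w] <;> split_ifs <;>
            simp [inv_pow, hζr]
        have hns : ∀ z : F, (x : Matrix (Fin d ⊕ Fin d) (Fin d ⊕ Fin d) F) ≠ z • 1 := by
          intro z hz
          have hz' : X = z • 1 := hz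
          rw [hX'] at hz'
          have e0 := congrFun (congrFun hz' (Sum.inl i0)) (Sum.inl i0)
          have e1 := congrFun (congrFun hz' (Sum.inl i1)) (Sum.inl i1)
          simp [u, h01.symm] at e0 e1
          exact hζ1 (e0.trans e1.symm)
        have hr2 : (X - (1 : F) • 1).rank = 2 := by
          rw [hX', ← Matrix.diagonal_one, one_smul, Matrix.diagonal_sub, Matrix.rank_diagonal,
            ← Finset.card_pair (show (Sum.inl i0 : Fin d ⊕ Fin d) ≠ Sum.inr i0 by simp), ← Fintype.card_coe]
          refine Fintype.card_congr (Equiv.subtypeEquivRight fun s => ?_)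
          rw [sub_ne_zero]
          rcases s with s | s <;> simp only [Sum.elim_inl, Sum.elim_inr, u, w] <;> split_ifs <;> simp_all
        obtain ⟨M, A, -, hle, hrkM⟩ := hsmall x hx 1 hxr hns 1 (by
          show (X - (1 : F) • 1).rank < b; omega)
        have hle' : a ≤ (X - (1 : F) • 1).rank := hle
        have ha' : a = 2 := le_antisymm (by omega) ha2
        have hr' : r ≠ 2 := fun h => hcon ⟨h, ha'⟩
        have hζζ : ζ⁻¹ ≠ ζ := fun h => by
          have hsq : ζ ^ 2 = 1 := by
            rw [pow_two]; nth_rewrite 1 [← h]; exact inv_mul_cancel₀ g.ne_zero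
          have h2 : g ^ 2 = 1 := Units.ext (by rw [Units.val_pow_eq_pow_val, hsq, Units.val_one])
          have := Nat.le_of_dvd two_pos (hg ▸ orderOf_dvd_of_pow_eq_one h2)
          exact hr' (le_antisymm this hrp.two_le)
        have h5 : (X - ζ • 1).rank = a * (M - ζ • 1).rank := hrkM ζ
        have hr3 : (X - ζ • 1).rank = 2 * d - 1 := by
          rw [hX', ← Matrix.diagonal_one, ← Matrix.diagonal_smul, Matrix.diagonal_sub, Matrix.rank_diagonal]
          rw [Fintype.card_congr (Equiv.subtypeEquivRight (q := fun s => s ≠ Sum.inl i0) fun s => ?_)]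
          · simp; omega
          · simp only [Pi.smul_apply, smul_eq_mul, mul_one, sub_ne_zero]
            rcases s with s | s <;> simp only [Sum.elim_inl, Sum.elim_inr, u, w] <;> split_ifs with hs
            · exact iff_of_false (fun h => h rfl) (fun h => h (congrArg Sum.inl hs))
            · exact iff_of_true (Ne.symm hζ1) (fun h => hs (Sum.inl.inj h))
            · exact iff_of_true hζζ (fun h => Sum.inr_ne_inl h)
            · exact iff_of_true (Ne.symm hζ1) (fun h => Sum.inr_ne_inl h)
        rw [hr3, ha'] at h5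
        omega
      · have hr2 : r ≠ 2 := by
          rintro rfl
          have hd2 : 2 ∣ Fintype.card F - 1 := ⟨Fintype.card F / 2, by omega⟩
          have : orderOf (Nat.card F : ZMod 2) = 1 := by
            rw [orderOf_eq_one_iff, Nat.card_eq_fintype_card, ← Nat.cast_one, ZMod.natCast_eq_natCast_iff]
            exact ((Nat.modEq_iff_dvd' Fintype.card_pos).2 hd2).symm
          omega
        set i := orderOf (Nat.card F : ZMod r) with hidef
        -- `ord_r q ≤ 2d`, and `≤ d` when odd
        haveI : Finite (Matrix.symplecticGroup (Fin d) F) := Finite.of_injective _ Subtype.val_injective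
        obtain ⟨k, hk, hik⟩ : ∃ k < d, i ∣ 2 * (k + 1) := by
          have h1 : r ∣ Nat.card (Cfsg.spGL d F) := hΩ.trans (Subgroup.relIndex_dvd_card _ _)
          rw [← Nat.card_congr (H2.spEquivSpGL d F).toEquiv, H2.card_sp] at h1
          rcases hrp.dvd_mul.1 h1 with h | h
          · exact absurd ((ZMod.natCast_eq_zero_iff _ _).2 (hrp.dvd_of_dvd_pow h))
              (H97.natCard_ne_zero_zmod hrF)
          · obtain ⟨k, hk, hkd⟩ := hrp.prime.exists_mem_finset_dvd h
            exact ⟨k, Finset.mem_range.1 hk, H97.orderOf_dvd_of_modEq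
              ((Nat.modEq_iff_dvd' (Nat.one_le_pow _ _ Nat.card_pos)).2 hkd).symm⟩
        -- the element
        obtain ⟨m, hm, x, hx, hxr, hrk⟩ : ∃ m : ℕ, (m = i ∨ (Odd i ∧ m = 2 * i)) ∧
            ∃ x : GL (Fin d ⊕ Fin d) F, x ∈ Cfsg.spGL d F ∧
              (x : Matrix (Fin d ⊕ Fin d) (Fin d ⊕ Fin d) F) ^ r = 1 ∧
              ((x : Matrix (Fin d ⊕ Fin d) (Fin d ⊕ Fin d) F) - (1 : F) • 1).rank = m := by
          rcases Nat.even_or_odd i with hev | hodd'
          · obtain ⟨j, hj⟩ := hev
            have hile : i ≤ 2 * (k + 1) := Nat.le_of_dvd (by omega) hik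
            obtain ⟨y, hyr, hym⟩ := H97.exists_sp_element (F := F) (r := r) hrF (d := d) (j := j) (by omega) (by omega)
            refine ⟨i, Or.inl rfl, (H2.spEquivSpGL d F y : Cfsg.spGL d F).1, (H2.spEquivSpGL d F y).2, ?_, ?_⟩
            · exact congrArg Subtype.val hyr
            · show ((y : Matrix (Fin d ⊕ Fin d) (Fin d ⊕ Fin d) F) - (1 : F) • 1).rank = i
              have he : ((y : Matrix (Fin d ⊕ Fin d) (Fin d ⊕ Fin d) F) - (1 : F) • 1).mulVecLin =
                  Matrix.toLin' (y : Matrix (Fin d ⊕ Fin d) (Fin d ⊕ Fin d) F) - 1 := by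
                refine LinearMap.ext fun v => ?_
                simp
              rw [Matrix.rank, he]
              exact hym.trans (by omega)
          · have hik' : i ∣ k + 1 :=
              ((Nat.coprime_two_right.2 hodd').dvd_of_dvd_mul_left hik)
            have hid : i ≤ d := (Nat.le_of_dvd (by omega) hik').trans (by omega)
            obtain ⟨T, hT, hTe⟩ := H97.exists_element (F := F) (r := r) hrF (Fin d → F) (d - i) 1
              (by rw [Module.finrank_fin_fun, ← hidef]; omega)
            set A := LinearMap.toMatrix' T with hA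
            have hTA : Matrix.toLinAlgEquiv' A = T := Matrix.toLin'_toMatrix' T
            have hAr : A ^ r = 1 := Matrix.toLinAlgEquiv'.injective (by rw [map_pow, hTA, hT, map_one])
            set D := ((A ^ (r - 1)).transpose) with hD
            have hAD : A.transpose * D = 1 := by
              rw [hD, ← Matrix.transpose_mul, ← pow_succ, Nat.sub_add_cancel hrp.pos, hAr, Matrix.transpose_one]
            have hDr : D ^ r = 1 := by
              rw [hD, ← Matrix.transpose_pow, ← pow_mul, mul_comm, pow_mul, hAr, one_pow, Matrix.transpose_one]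
            have hrA : (A - (1 : F) • 1).rank = i := by
              have he : (A - (1 : F) • 1).mulVecLin = T - 1 := by
                rw [← hTA]
                refine LinearMap.ext fun v => ?_
                simp
              have hcd := Submodule.finrank_add_eq_of_isCompl (H97.isCompl_fixed_moved hrF T hT)
              rw [Module.finrank_fin_fun, hTe] at hcd
              rw [Matrix.rank, he]
              change Module.finrank F (H97.movedSpace T) = _
              omega
            have hrD : (D - (1 : F) • 1).rank = i := by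
              have h1 : A.transpose * (D - (1 : F) • 1) = -((A - (1 : F) • 1).transpose) := by
                rw [Matrix.mul_sub, hAD, Matrix.mul_smul, Matrix.mul_one, Matrix.transpose_sub,
                  Matrix.transpose_smul, Matrix.transpose_one, one_smul, one_smul, neg_sub]
              have hAu : IsUnit A.transpose.det := Matrix.isUnit_det_of_right_inverse hAD
              rw [← Matrix.rank_mul_eq_right_of_isUnit_det A.transpose _ hAu, h1, ← neg_one_smul F,
                Matrix.rank_smul_of_mem_nonZeroDivisors _ (mem_nonZeroDivisors_of_ne_zero (neg_ne_zero.2 one_ne_zero)),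
                Matrix.rank_transpose, hrA]
            have hXr : Matrix.fromBlocks A 0 0 D ^ r = 1 := by
              rw [H19.SympElem.blocks_pow, hAr, hDr, Matrix.fromBlocks_one]
            refine ⟨2 * i, Or.inr ⟨hodd', rfl⟩, Matrix.GeneralLinearGroup.mkOfDetNeZero
              (Matrix.fromBlocks A 0 0 D) (fun h0 => ?_), H19.SympElem.blocks_mem _ rfl hAD, hXr, ?_⟩
            · have h1 := congrArg Matrix.det hXr
              rw [Matrix.det_pow, h0, zero_pow hrp.ne_zero, Matrix.det_one] at h1
              exact zero_ne_one h1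
            · show (Matrix.fromBlocks A 0 0 D - (1 : F) • 1).rank = 2 * i
              rw [one_smul, show Matrix.fromBlocks A 0 0 D - 1 = Matrix.fromBlocks (A - 1) 0 0 (D - 1) by
                ext (i' | i') (j' | j') <;> simp [Matrix.one_apply], H19.SympElem.rank_blocks]
              rw [one_smul] at hrA hrD
              omega
        have hns : ∀ z : F, (x : Matrix (Fin d ⊕ Fin d) (Fin d ⊕ Fin d) F) ≠ z • 1 := by
          intro z hz
          have hzr : z ^ r = 1 := by
            have h1 := congrFun (congrFun hxr (Sum.inl i0)) (Sum.inl i0)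
            rw [hz, smul_pow, one_pow] at h1
            simpa using h1
          rw [hz, H97.eq_one_of_pow_eq_one hi hzr, sub_self, Matrix.rank_zero] at hrk
          omega
        have hz1 : (x : Matrix (Fin d ⊕ Fin d) (Fin d ⊕ Fin d) F) ^ r = (1 : F) • 1 := by rw [hxr, one_smul]
        rcases Nat.lt_or_ge i 3 with hi3 | hi3
        · -- `ord_r q = 2`
          have hi2 : i = 2 := by omega
          have hm2 : m = 2 := by
            rcases hm with h | ⟨ho, -⟩
            · omega
            · rw [hi2] at ho; exact absurd ho (by decide)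
          obtain ⟨M, A, hA, hle, hrkM⟩ := hsmall x hx 1 hz1 hns 1 (by omega)
          have ha' : a = 2 := le_antisymm (by omega) ha2
          have h5 := hrkM 1
          rw [hrk, hm2, ha'] at h5
          have hMr : M ^ r = 1 := by
            have hp : ∀ n : ℕ, (x : Matrix (Fin d ⊕ Fin d) (Fin d ⊕ Fin d) F) ^ n = (A : Matrix _ _ F) *
                (Matrix.kronecker (1 : Matrix (Fin a) (Fin a) F) (M ^ n)).submatrix e e *
                ((A⁻¹ : GL (Fin d ⊕ Fin d) F) : Matrix _ _ F) := by
              intro n
              induction n with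
              | zero => simp [Matrix.kronecker]
              | succ n ih =>
                rw [pow_succ, ih, hA, pow_succ,
                  show Matrix.kronecker (1 : Matrix (Fin a) (Fin a) F) (M ^ n * M) =
                    Matrix.kronecker (1 : Matrix (Fin a) (Fin a) F) (M ^ n) * Matrix.kronecker 1 M by
                    simp only [Matrix.kronecker]
                    rw [← Matrix.mul_kronecker_mul, Matrix.one_mul],
                  ← Matrix.submatrix_mul_equiv _ _ e e e]
                simp only [Matrix.mul_assoc]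
                rw [← Matrix.mul_assoc _ (A : Matrix (Fin d ⊕ Fin d) (Fin d ⊕ Fin d) F), ← Units.val_mul,
                  inv_mul_cancel, Units.val_one, Matrix.one_mul]
            have h1 := hp r
            rw [hxr] at h1
            have h2' := congrArg (fun N => ((A⁻¹ : GL (Fin d ⊕ Fin d) F) : Matrix _ _ F) * N *
              (A : Matrix (Fin d ⊕ Fin d) (Fin d ⊕ Fin d) F)) h1
            simp [Matrix.mul_assoc] at h2'
            refine Matrix.ext fun p q => ?_
            have h3 := congrFun (congrFun h2' (e.symm (⟨0, by omega⟩, p))) (e.symm (⟨0, by omega⟩, q))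
            simpa [Matrix.one_apply, Matrix.submatrix_apply, Matrix.kronecker, eq_comm] using h3.symm
          have h6 := H19.TensorOrbit.dvd_rank_of_pow hrF M hMr
          rw [show (M - (1 : F) • 1).rank = 1 by omega, ← hidef, hi2] at h6
          exact absurd (Nat.le_of_dvd one_pos h6) (by norm_num)
        · obtain ⟨g₁, g₂, A, hA, hgr⟩ := hex x hx 1 hz1 hns
          set K := Matrix.kronecker (g₁ : Matrix (Fin a) (Fin a) F) (g₂ : Matrix (Fin b) (Fin b) F) with hKdef
          have hKr : K ^ r = 1 := by
            have hp : ∀ n : ℕ, (x : Matrix (Fin d ⊕ Fin d) (Fin d ⊕ Fin d) F) ^ n = (A : Matrix _ _ F) *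
                (K ^ n).submatrix e e * ((A⁻¹ : GL (Fin d ⊕ Fin d) F) : Matrix _ _ F) := by
              intro n
              induction n with
              | zero => simp
              | succ n ih =>
                rw [pow_succ, ih, hA, pow_succ, ← Matrix.submatrix_mul_equiv _ _ e e e]
                simp only [Matrix.mul_assoc]
                rw [← Matrix.mul_assoc _ (A : Matrix (Fin d ⊕ Fin d) (Fin d ⊕ Fin d) F), ← Units.val_mul,
                  inv_mul_cancel, Units.val_one, Matrix.one_mul]
            have h1 := hp r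
            rw [hxr] at h1
            have h2' := congrArg (fun N => ((A⁻¹ : GL (Fin d ⊕ Fin d) F) : Matrix _ _ F) * N *
              (A : Matrix (Fin d ⊕ Fin d) (Fin d ⊕ Fin d) F)) h1
            simp [Matrix.mul_assoc] at h2'
            refine Matrix.ext fun p q => ?_
            have h3 := congrFun (congrFun h2' (e.symm p)) (e.symm q)
            simp only [Matrix.submatrix_apply, Equiv.apply_symm_apply] at h3
            rw [← h3]
            simp [Matrix.one_apply]
          rw [hrank _ A _ hA] at hrk
          obtain ⟨M, hKM, hMr, hodd', hMrk⟩ := H19.TensorOrbit.structure_of_small_moved hrF ha ha2 hb hi3 _ _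
            hKr hrk hm
          have hgr' : K.transpose * Matrix.kronecker (Cfsg.Geo.gramMatrix f₁) (Cfsg.Geo.gramMatrix f₂) * K =
              Matrix.kronecker (Cfsg.Geo.gramMatrix f₁) (Cfsg.Geo.gramMatrix f₂) := hgr
          have hK1 : K = Matrix.kronecker (1 : Matrix (Fin a) (Fin a) F) M := hKM
          rw [hK1, Matrix.kronecker, ← Matrix.kroneckerMap_transpose, Matrix.transpose_one,
            ← Matrix.mul_kronecker_mul, ← Matrix.mul_kronecker_mul, Matrix.one_mul, Matrix.mul_one] at hgr'
          obtain ⟨s, t, hst⟩ : ∃ s t, Cfsg.Geo.gramMatrix f₁ s t ≠ 0 := by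
            by_contra h
            push Not at h
            obtain ⟨-, v, hv⟩ := hf₁.nondegenerate (Pi.single (⟨0, by omega⟩ : Fin a) 1) (by simp)
            let L : (Fin a → F) →ₗ[F] F :=
              { toFun := f₁ (Pi.single ⟨0, by omega⟩ 1)
                map_add' := hf₁.bilinear.add_right _
                map_smul' := fun c x => hf₁.bilinear.smul_right c _ x }
            have hL : L = 0 := (Pi.basisFun F (Fin a)).ext fun j => by
              rw [Pi.basisFun_apply]; exact h ⟨0, by omega⟩ j
            exact hv (LinearMap.congr_fun hL v)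
          refine H19.SympTensor.not_orth_moved_odd hrF hr2 h2 hodd' (Cfsg.Geo.gramMatrix f₂) ?_ ?_ M hMr ?_ hMrk
          · ext p q; exact hf₂.symm _ _
          · intro h0
            obtain ⟨v, hv, hGv⟩ := Matrix.exists_mulVec_eq_zero_iff.2 h0
            obtain ⟨⟨y, hy⟩, -⟩ := hf₂.nondegenerate v hv
            let L : (Fin b → F) →ₗ[F] F :=
              { toFun := fun y => f₂ y v
                map_add' := fun p q => hf₂.bilinear.add_left p q v
                map_smul' := fun c p => hf₂.bilinear.smul_left c p v }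
            have hL : L = 0 := (Pi.basisFun F (Fin b)).ext fun j => by
              rw [Pi.basisFun_apply]
              let R : (Fin b → F) →ₗ[F] F :=
                { toFun := f₂ (Pi.single j 1)
                  map_add' := hf₂.bilinear.add_right _
                  map_smul' := fun c x => hf₂.bilinear.smul_right c _ x }
              show R v = 0
              rw [← (Pi.basisFun F (Fin b)).sum_repr v, map_sum]
              have h1 := congrFun hGv j
              rw [Matrix.mulVec, dotProduct, Pi.zero_apply] at h1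
              rw [← h1]
              refine Finset.sum_congr rfl fun i' _ => ?_
              rw [map_smul, Pi.basisFun_repr, Pi.basisFun_apply, smul_eq_mul, mul_comm]
              rfl
            exact hy (LinearMap.congr_fun hL y)
          · refine Matrix.ext fun p q => ?_
            have h1 := congrFun (congrFun hgr' (s, p)) (t, q)
            simp only [Matrix.kroneckerMap_apply] at h1
            exact mul_left_cancel₀ hst h1
  · rintro ⟨rfl, rfl⟩ x hx ⟨z, hz⟩ -
    exact H19.SympTensor.exists_conj_mem hF h2 hd0 hf₁ hf₂ hS x hx hz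

end Cfsg.Agent.S5980
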