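import Cfsg.Statements.S5983
import Cfsg.Agent.H97.InvariantQuad
import Cfsg.Agent.H97.FullMoved
import Cfsg.Agent.H98.QuadFun
import Cfsg.Agent.H2.SpGL
import Cfsg.Agent.H2.Card
import Cfsg.Agent.H4.Orders

set_option autoImplicit false
open scoped MatrixGroups
open Cfsg

namespace Cfsg.Agent.S5983

/-- Elements of prime order of PSp_n(q), q even, and the subgroups of orthogonal type. Here `T = Sp_{2d}(F)` for a field `F` of characteristic 2 with `q` elements (`d ≥ 2`, `(d, q) ≠ (2, 2)`), realised as the invertible matrices preserving the standard alternating form; `Q` is a non-degenerate quadratic form on `F^{2d}` whose polar form is that alternating form, and `H` is the subgroup of `T` preserving `Q` up to a scalar (equivalently preserving `Q`) — a subgroup of type O^±_{2d}(q) (maximality is not assumed); `Q` is of plus type when `F^{2d}` contains a `d`-dimensional subspace on which `Q` vanishes, of minus type otherwise. Ω is the set of cosets of `H` in `T`, so an element of `T` of prime order `r`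 (`x ∈ T` with `x^r` scalar, `x` not scalar) fixes a point of Ω exactly when some `T`-conjugate of `x` preserves `Q`. Let `r` be a prime dividing the index of `H`. Then every element of `T` of order `r` fixes a point of Ω if and only if `r = 2` and either `Q` is of plus type or `d` is odd. -/
theorem result {F : Type*} [Field F] [Fintype F] {p : ℕ} [Fact p.Prime] [CharP F p] {q : ℕ} (hq : Fintype.card F = q)
    (hp : p = 2) (d : ℕ) (hd : 2 ≤ d) (hT : (d, q) ≠ (2, 2)) (Q : (Fin d ⊕ Fin d → F) → F) (hQ : Cfsg.Geo.IsNondegenerateQuadraticForm Q)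
    (hQf : ∀ u v, QuadraticMap.polar Q u v = Cfsg.sympForm d F u v)
    (r : ℕ) [Fact r.Prime]
    (hΩ : r ∣ (Cfsg.Geo.quadSimilarityGroup Q).relIndex (Cfsg.spGL d F)) :
    (∀ x ∈ Cfsg.spGL d F, (∃ z : F, ((x ^ r : GL (Fin d ⊕ Fin d) F) : Matrix (Fin d ⊕ Fin d) (Fin d ⊕ Fin d) F) = z • (1 : Matrix (Fin d ⊕ Fin d) (Fin d ⊕ Fin d) F)) →
      (∀ z : F, (x : Matrix (Fin d ⊕ Fin d) (Fin d ⊕ Fin d) F) ≠ z • (1 : Matrix (Fin d ⊕ Fin d) (Fin d ⊕ Fin d) F)) →
      ∃ g ∈ Cfsg.spGL d F, g⁻¹ * x * g ∈ Cfsg.Geo.quadSimilarityGroup Q) ↔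
    (r = 2 ∧ (Cfsg.Geo.IsPlusTypeOn Q ⊤ ∨ Odd d)) := by
  classical
  subst hp
  have hrp : r.Prime := Fact.out
  set Q' := Agent.H98.qOfFun Q hQ with hQ'def
  have hQ'nd : (QuadraticMap.polarBilin Q').Nondegenerate := Agent.H98.qOfFun_nondeg hQ
  have hI : Fintype.card (Fin d ⊕ Fin d) = 2 * d := by simp; omega
  have hV : Module.finrank F (Fin d ⊕ Fin d → F) = 2 * d := by
    rw [Module.finrank_fintype_fun_eq_card, hI]
  have hQ'B : ∀ u v, QuadraticMap.polar Q' u v = Cfsg.sympForm d F u v := hQf
  have hplus : Cfsg.Geo.IsPlusTypeOn Q ⊤ ↔ Agent.H67.HasSing Q' d := by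
    constructor
    · rintro ⟨U, -, hU, hd'⟩
      rw [finrank_top, hV] at hd'
      exact ⟨U, hU, by omega⟩
    · rintro ⟨U, hU, hd'⟩
      exact ⟨U, le_top, hU, by rw [finrank_top, hV, hd']⟩
  obtain ⟨v0, hv0⟩ : ∃ v, Q' v ≠ 0 := by
    by_contra hc
    push Not at hc
    have h1 : Q' = 0 := QuadraticMap.ext hc
    have h0 : (Pi.single (Sum.inl ⟨0, by omega⟩) 1 : Fin d ⊕ Fin d → F) = 0 :=
      hQ'nd.1 _ fun v => by rw [h1]; simp [QuadraticMap.polar]
    simpa using congrFun h0 (Sum.inl ⟨0, by omega⟩)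
  -- the stabiliser
  have hmemH : ∀ g ∈ Cfsg.spGL d F, g ∈ Cfsg.Geo.quadSimilarityGroup Q ↔
      g ∈ Cfsg.isometryGroup F Q := by
    intro g hg
    constructor
    · rintro ⟨c, hc⟩
      have hc1 : (c : F) = 1 := by
        obtain ⟨w, hw⟩ : ∃ w, Q w ≠ 0 := ⟨v0, hv0⟩
        have hne : ∃ u v, Cfsg.sympForm d F u v ≠ 0 := by
          by_contra h
          push Not at h
          refine hw ?_
          have h1 : w = 0 := hQ'nd.1 w fun v => (hQ'B w v).trans (h w v)
          exact (congrArg Q' h1).trans (map_zero Q')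
        obtain ⟨u, v, huv⟩ := hne
        have h2 : Cfsg.sympForm d F ((g : Matrix _ _ F).mulVec u) ((g : Matrix _ _ F).mulVec v) =
            Cfsg.sympForm d F u v := hg u v
        rw [← hQf, ← hQf, QuadraticMap.polar, QuadraticMap.polar, ← Matrix.mulVec_add, hc, hc, hc,
          ← mul_sub, ← mul_sub] at h2
        rw [← hQf] at huv
        exact (mul_eq_right₀ huv).1 h2
      intro v _
      show Q ((g : Matrix _ _ F).mulVec v) = Q v
      rw [hc, hc1, one_mul]
    · intro h
      exact ⟨1, fun v => by rw [Units.val_one, one_mul]; exact h v v⟩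
  have hiso_sp : ∀ g ∈ Cfsg.isometryGroup F Q, g ∈ Cfsg.spGL d F := by
    intro g hg u v
    show Cfsg.sympForm d F ((g : Matrix _ _ F).mulVec u) ((g : Matrix _ _ F).mulVec v) = _
    rw [← hQf, ← hQf]
    have h : ∀ w, Q ((g : Matrix _ _ F).mulVec w) = Q w := fun w => hg w w
    simp only [QuadraticMap.polar, ← Matrix.mulVec_add, h]
  -- forms with the same polar form and type are conjugate
  have hconj : ∀ (x : GL (Fin d ⊕ Fin d) F) (R : QuadraticForm F (Fin d ⊕ Fin d → F)),
      x ∈ Cfsg.spGL d F → QuadraticMap.polarBilin R = QuadraticMap.polarBilin Q' →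
      (∀ v, R ((x : Matrix _ _ F).mulVec v) = R v) →
      (Agent.H67.HasSing R d ↔ Agent.H67.HasSing Q' d) →
      ∃ g ∈ Cfsg.spGL d F, g⁻¹ * x * g ∈ Cfsg.Geo.quadSimilarityGroup Q := by
    intro x R hx hR hxR htype
    obtain ⟨e, he⟩ := Agent.H67.isom_of_type hQ'nd (hR ▸ hQ'nd) hV hV htype.symm
    obtain ⟨G, hG⟩ := (Agent.H67.glEquiv (Fin d ⊕ Fin d) F).surjective e
    have hGv : ∀ v, R ((G : Matrix _ _ F).mulVec v) = Q v := fun v => by
      rw [← Agent.H67.glEquiv_apply, hG, he]; rfl
    have hGsp : G ∈ Cfsg.spGL d F := fun u v => by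
      show Cfsg.sympForm d F ((G : Matrix _ _ F).mulVec u) ((G : Matrix _ _ F).mulVec v) = _
      rw [← hQ'B, ← QuadraticMap.polarBilin_apply_apply, ← hR, QuadraticMap.polarBilin_apply_apply]
      rw [QuadraticMap.polar, ← Matrix.mulVec_add, hGv, hGv, hGv]
      exact hQf u v
    refine ⟨G, hGsp, ⟨1, fun v => ?_⟩⟩
    rw [Units.val_one, one_mul, ← hGv, Matrix.mulVec_mulVec, ← Units.val_mul, ← mul_assoc,
      mul_inv_cancel_left, Units.val_mul, ← Matrix.mulVec_mulVec, hxR, hGv]
  constructor
  · intro hall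
    by_contra hcon
    by_cases hr2 : r = 2
    · subst hr2
      have hmin : ¬ Agent.H67.HasSing Q' d := fun h => hcon ⟨rfl, Or.inl (hplus.2 h)⟩
      obtain ⟨k, rfl⟩ : Even d := Nat.not_odd_iff_even.1 fun h => hcon ⟨rfl, Or.inr h⟩
      set A : Matrix (Fin (k + k)) (Fin (k + k)) F := Agent.H97.altStd k with hA
      set x := Agent.H97.shearU A with hxdef
      have hxQ := Agent.H97.shearU_mem A (Agent.H97.altStd_alt k)
      have hpolar : ∀ u v, QuadraticMap.polar (Agent.H4.qPlus (k + k) F) u v =
          Cfsg.sympForm (k + k) F u v := fun u v => by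
        rw [Agent.H4.polar_qPlus]
        simp only [Cfsg.sympForm, Matrix.J, Matrix.fromBlocks_mulVec, dotProduct,
          Fintype.sum_sum_type, Finset.sum_add_distrib]
        simp [CharTwo.neg_eq, Matrix.zero_mulVec, Matrix.neg_mulVec]
      have hxsp : x ∈ Cfsg.spGL (k + k) F := fun u v => by
        show Cfsg.sympForm (k + k) F ((x : Matrix _ _ F).mulVec u) ((x : Matrix _ _ F).mulVec v) = _
        rw [← hpolar, ← hpolar]
        have h : ∀ w, Agent.H4.qPlus (k + k) F ((x : Matrix _ _ F).mulVec w) =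
            Agent.H4.qPlus (k + k) F w := fun w => by
          rw [Agent.H4.coe_qPlus]; exact hxQ w w
        simp only [QuadraticMap.polar, ← Matrix.mulVec_add, h]
      have hx2 : x ^ 2 = 1 := by
        rw [pow_two, hxdef, Agent.H97.shearU_mul]
        convert Agent.H97.shearU_zero (F := F) (n := k + k)
        ext i j
        exact CharTwo.add_self_eq_zero _
      have hns : ∀ z : F, (x : Matrix (Fin (k + k) ⊕ Fin (k + k)) (Fin (k + k) ⊕ Fin (k + k)) F) ≠
          z • 1 := by
        intro z hz
        have h1 := congrArg (fun M => M.mulVec (Sum.elim (0 : Fin (k + k) → F)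
          (Pi.single ⟨0, by omega⟩ 1)) ∘ Sum.inl) hz
        simp only [hxdef, Agent.H97.shearU_mulVec, Matrix.smul_mulVec, Matrix.one_mulVec,
          Sum.elim_comp_inr, Sum.elim_comp_inl, zero_add] at h1
        have h2 := Agent.H97.altStd_injective k _ (h1.trans (by ext i; simp))
        simpa using congrFun h2 ⟨0, by omega⟩
      obtain ⟨g, hg, hgH⟩ := hall x hxsp ⟨1, by rw [hx2, one_smul]; rfl⟩ hns
      have hgQ := (hmemH _ (mul_mem (mul_mem (inv_mem hg) hxsp) hg)).1 hgH
      let G := ((g⁻¹ : GL (Fin (k + k) ⊕ Fin (k + k)) F) :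
        Matrix (Fin (k + k) ⊕ Fin (k + k)) (Fin (k + k) ⊕ Fin (k + k)) F)
      have hR : ∀ v, Q' (G.mulVec ((x : Matrix _ _ F).mulVec v)) = Q' (G.mulVec v) := fun v => by
        have h : Q (((g⁻¹ * x * g : GL _ F) : Matrix _ _ F).mulVec (G.mulVec v)) = Q (G.mulVec v) :=
          hgQ _ (G.mulVec v)
        rw [Matrix.mulVec_mulVec, ← Units.val_mul, mul_inv_cancel_right, Units.val_mul,
          ← Matrix.mulVec_mulVec] at h
        exact h
      refine hmin ?_
      let f : (Fin (k + k) → F) →ₗ[F] (Fin (k + k) ⊕ Fin (k + k) → F) :=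
        Matrix.toLin' G ∘ₗ
          { toFun := fun y => Sum.elim (A.mulVec y) 0
            map_add' := fun y z => funext fun i => by rcases i with i | i <;> simp [Matrix.mulVec_add]
            map_smul' := fun c y => funext fun i => by
              rcases i with i | i <;> simp [Matrix.mulVec_smul] }
      have hfinj : Function.Injective f := by
        intro y z h
        have h1 : Sum.elim (A.mulVec y) 0 = Sum.elim (A.mulVec z) (0 : Fin (k + k) → F) := by
          have := congrArg ((g : Matrix (Fin (k + k) ⊕ Fin (k + k)) (Fin (k + k) ⊕ Fin (k + k)) F).mulVec) h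
          simpa [f, G, Matrix.mulVec_mulVec, ← Units.val_mul] using this
        refine sub_eq_zero.1 (Agent.H97.altStd_injective k _ ?_)
        rw [← hA, Matrix.mulVec_sub, sub_eq_zero]
        exact congrArg (· ∘ Sum.inl) h1
      have := Agent.H67.hasSing_of_range (Q := Q') f hfinj fun y => by
        set v := Sum.elim (0 : Fin (k + k) → F) y with hvdef
        have hxv : (x : Matrix _ _ F).mulVec v = v + Sum.elim (A.mulVec y) 0 := by
          rw [hxdef, Agent.H97.shearU_mulVec, hvdef]
          funext i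
          rcases i with i | i <;> simp
        have h1 := hR v
        rw [hxv, Matrix.mulVec_add, QuadraticMap.map_add Q'] at h1
        have h2 : QuadraticMap.polar Q' (G.mulVec v) (G.mulVec (Sum.elim (A.mulVec y) 0)) = 0 := by
          rw [hQ'B]
          refine ((inv_mem hg : g⁻¹ ∈ Cfsg.spGL (k + k) F) v _).trans ?_
          simp only [Cfsg.sympForm, Matrix.J, Matrix.fromBlocks_mulVec, dotProduct,
            Fintype.sum_sum_type, hvdef]
          simp [CharTwo.neg_eq]
          simpa [dotProduct] using Agent.H97.altStd_alt k y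
        rw [h2] at h1
        show Q' (G.mulVec (Sum.elim (A.mulVec y) 0)) = 0
        linear_combination h1
      rwa [Module.finrank_fintype_fun_eq_card, Fintype.card_fin] at this
    have hne : r ≠ 2 := hr2
    have hr : (r : F) ≠ 0 := Agent.H67.cast_ne_zero_of_prime_ne (K := F) hrp hne
    haveI : Fact (2 < r) := ⟨by have := hrp.two_le; omega⟩
    -- the index
    have hidx : Nat.card (Cfsg.isometryGroup F Q) *
        (Cfsg.Geo.quadSimilarityGroup Q).relIndex (Cfsg.spGL d F) =
        Nat.card (Matrix.symplecticGroup (Fin d) F) := by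
      rw [Nat.card_congr (Agent.H2.spEquivSpGL d F).toEquiv]
      have h1 := ((Cfsg.Geo.quadSimilarityGroup Q).subgroupOf (Cfsg.spGL d F)).card_mul_index
      have h2 : Nat.card ↥((Cfsg.Geo.quadSimilarityGroup Q).subgroupOf (Cfsg.spGL d F)) =
          Nat.card (Cfsg.isometryGroup F Q) :=
        Nat.card_congr
          { toFun := fun g => ⟨g.1.1, (hmemH _ g.1.2).1 g.2⟩
            invFun := fun g => ⟨⟨g.1, hiso_sp _ g.2⟩, (hmemH _ (hiso_sp _ g.2)).2 g.2⟩
            left_inv := fun g => rfl
            right_inv := fun g => rfl }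
      rw [h2] at h1
      exact h1
    rw [Agent.H2.card_sp, Nat.card_eq_fintype_card (α := F),
      Agent.H4.card_isometryGroup Q' (Agent.H98.coe_qOfFun hQ)] at hidx
    obtain ⟨e, rfl⟩ : ∃ e, d = e + 1 := ⟨d - 1, by omega⟩
    set idx := (Cfsg.Geo.quadSimilarityGroup Q).relIndex (Cfsg.spGL (e + 1) F)
    have hidx' := congrArg (fun n : ℕ => (n : ℤ)) hidx
    simp only [Nat.cast_mul, Nat.cast_pow, Agent.H4.cast_prod_sub_one] at hidx'
    rw [Finset.prod_range_succ] at hidx'
    have hq2 : (2 : ℤ) ≤ Fintype.card F := by exact_mod_cast Fintype.one_lt_card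
    have hP : ∏ i ∈ Finset.range e, ((Fintype.card F : ℤ) ^ (2 * (i + 1)) - 1) ≠ 0 :=
      Finset.prod_ne_zero_iff.2 fun i _ => by
        have : (Fintype.card F : ℤ) ≤ (Fintype.card F : ℤ) ^ (2 * (i + 1)) :=
          le_self_pow₀ (by omega) (by omega)
        omega
    have hidx0 : (idx : ZMod r) = 0 := by
      rw [ZMod.natCast_eq_zero_iff]; exact hΩ
    have hqne := Agent.H67.card_zmod_ne_zero (K := F) hr hrp
    have hderange : ∀ m : Agent.H67.CycFac r F → ℕ,
        (∀ P, m (Agent.H67.dualId (p := 2) hrp hne P) = m P) →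
        orderOf (Fintype.card F : ZMod r) * ∑ P, m P = 2 * (e + 1) →
        (Agent.H67.HasSing Q' (e + 1) ↔ Agent.H67.mvPlus m) := by
      intro m hm hfull
      obtain ⟨A, hA, hAc⟩ := Agent.H67.exists_sp_polyOf (p := 2) hrp hne hne Agent.H67.hσ_id
        (m := e + 1) m hm hfull.le
      set x : GL (Fin (e + 1) ⊕ Fin (e + 1)) F := (Agent.H2.spEquivSpGL (e + 1) F A).1
      have hxsp : x ∈ Cfsg.spGL (e + 1) F := (Agent.H2.spEquivSpGL (e + 1) F A).2
      have hxr : x ^ r = 1 := by
        show ((Agent.H2.spEquivSpGL (e + 1) F A).1) ^ r = 1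
        rw [← SubmonoidClass.coe_pow, ← map_pow, hA, map_one]; rfl
      have hxc : (x : Matrix (Fin (e + 1) ⊕ Fin (e + 1)) (Fin (e + 1) ⊕ Fin (e + 1)) F).charpoly =
          Agent.H67.polyOf (Fintype.card (Fin (e + 1) ⊕ Fin (e + 1))) m := by
        rw [hI]; exact hAc
      have hfpf := Agent.H97.fpf_of_polyOf hr hrp hxc (by rw [hfull, hI])
      have hns : ∀ z : F, (x : Matrix (Fin (e + 1) ⊕ Fin (e + 1)) (Fin (e + 1) ⊕ Fin (e + 1)) F) ≠
          z • 1 := by
        intro z hz
        -- a scalar in the symplectic group is one in characteristic two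
        obtain ⟨w, hw⟩ : ∃ w, Cfsg.sympForm (e + 1) F v0 w ≠ 0 := by
          by_contra h
          push Not at h
          have h1 : v0 = 0 := hQ'nd.1 v0 fun v => (hQ'B v0 v).trans (h v)
          exact hv0 (by rw [h1, map_zero])
        have h2 := hxsp v0 w
        change Cfsg.sympForm (e + 1) F ((x : Matrix _ _ F).mulVec v0) ((x : Matrix _ _ F).mulVec w) = _ at h2
        rw [hz, Matrix.smul_mulVec, Matrix.one_mulVec, Matrix.smul_mulVec, Matrix.one_mulVec] at h2
        simp only [← hQ'B, QuadraticMap.polar_smul_left, QuadraticMap.polar_smul_right,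
          smul_eq_mul, ← mul_assoc] at h2
        rw [← hQ'B] at hw
        have hz1 : z = 1 := by
          rcases mul_self_eq_one_iff.1 ((mul_eq_right₀ hw).1 h2) with h3 | h3
          · exact h3
          · rw [h3, CharTwo.neg_eq]
        rw [hz1, one_smul] at hz
        exact hv0 (by rw [hfpf v0 (by rw [hz, Matrix.one_mulVec]), map_zero])
      obtain ⟨g, hg, hgH⟩ := hall x hxsp ⟨1, by rw [hxr, one_smul]; rfl⟩ hns
      have hgQ := (hmemH _ (mul_mem (mul_mem (inv_mem hg) hxsp) hg)).1 hgH
      exact Agent.H97.type_of_conj (p := 2) hrp hne hne Q' hQ'nd (Agent.H98.coe_qOfFun hQ) hI x g hgQ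
        hxr m hxc hm hfull
    by_cases hs : Agent.H67.HasSing Q' (e + 1)
    · have hxd : (Fintype.card F : ZMod r) ^ (e + 1) = -1 := by
        obtain ⟨g, hg⟩ := Agent.H67.isom_of_type hQ'nd (Agent.H4.qPlus_nondegenerate (e + 1)) hV hV
          (iff_of_true hs (Agent.H67.hasSing_qPlus _))
        have hc : Nat.card (Agent.H4.qIsoms Q') = Nat.card (Agent.H4.qIsoms (Agent.H4.qPlus (e + 1) F)) := by
          refine Nat.card_congr
            { toFun := fun f => ⟨(g.symm.trans f.1).trans g, fun z => by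
                show Agent.H4.qPlus (e + 1) F (g (f.1 (g.symm z))) = _
                rw [hg, f.2, ← hg, g.apply_symm_apply]⟩
              invFun := fun f => ⟨(g.trans f.1).trans g.symm, fun z => by
                show Q' (g.symm (f.1 (g z))) = _
                rw [← hg, g.apply_symm_apply, f.2, hg]⟩
              left_inv := fun f => Subtype.ext (LinearEquiv.ext fun z => by simp)
              right_inv := fun f => Subtype.ext (LinearEquiv.ext fun z => by simp) }
        rw [hc, Agent.H4.card_qIsoms_qPlus] at hidx'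
        have hkey : 2 * (idx : ℤ) = (Fintype.card F : ℤ) ^ (e + 1) * ((Fintype.card F : ℤ) ^ (e + 1) + 1) := by
          have hne1 : (Fintype.card F : ℤ) ^ (e + 1) - 1 ≠ 0 := by
            have : (Fintype.card F : ℤ) ≤ (Fintype.card F : ℤ) ^ (e + 1) :=
              le_self_pow₀ (by omega) (by omega)
            omega
          refine mul_right_cancel₀ (mul_ne_zero (mul_ne_zero (pow_ne_zero ((e + 1) * e) (by omega :
            (Fintype.card F : ℤ) ≠ 0)) hne1) hP) (Eq.trans ?_ (Eq.trans hidx' ?_))
          · ring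
          · rw [show (e + 1) ^ 2 = (e + 1) * e + (e + 1) by ring, pow_add, two_mul (e + 1), pow_add]
            ring
        have h5 := congrArg (fun z : ℤ => (z : ZMod r)) hkey
        simp only [Int.cast_mul, Int.cast_ofNat, Int.cast_natCast, hidx0, mul_zero] at h5
        push_cast at h5
        exact eq_neg_of_add_eq_zero_left ((mul_eq_zero.1 h5.symm).resolve_left (pow_ne_zero _ hqne))
      obtain ⟨m, hm, hfull, hmv⟩ := Agent.H97.exists_full_minus (p := 2) hrp hne hne hxd
      exact hmv ((hderange m hm hfull).1 hs)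
    · have hxd : (Fintype.card F : ZMod r) ^ (e + 1) = 1 := by
        obtain ⟨-, ζ, hζ, g, hg⟩ := Agent.H67.exists_isom_qMinus hQ'nd hV hs
        have hc : Nat.card (Agent.H4.qIsoms Q') =
            Nat.card (Agent.H4.qIsoms (Agent.H4.qMinus (e + 1 - 1) F 1 ζ)) := by
          refine Nat.card_congr
            { toFun := fun f => ⟨(g.symm.trans f.1).trans g, fun z => by
                show Agent.H4.qMinus (e + 1 - 1) F 1 ζ (g (f.1 (g.symm z))) = _
                rw [hg, f.2, ← hg, g.apply_symm_apply]⟩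
              invFun := fun f => ⟨(g.trans f.1).trans g.symm, fun z => by
                show Q' (g.symm (f.1 (g z))) = _
                rw [← hg, g.apply_symm_apply, f.2, hg]⟩
              left_inv := fun f => Subtype.ext (LinearEquiv.ext fun z => by simp)
              right_inv := fun f => Subtype.ext (LinearEquiv.ext fun z => by simp) }
        have hab := Agent.H67.aniso_of_one hζ
        rw [hc, Agent.H4.card_qIsoms_qMinus hab (Agent.H4.disc_ne_zero_of_anisotropic hab
          fun c h2 => Agent.H4.exists_sq_eq h2 c)] at hidx'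
        simp only [Nat.add_sub_cancel] at hidx'
        have hkey : 2 * (idx : ℤ) = (Fintype.card F : ℤ) ^ (e + 1) * ((Fintype.card F : ℤ) ^ (e + 1) - 1) := by
          have hne1 : (Fintype.card F : ℤ) ^ (e + 1) + 1 ≠ 0 := by positivity
          refine mul_right_cancel₀ (mul_ne_zero (mul_ne_zero (pow_ne_zero ((e + 1) * e) (by omega :
            (Fintype.card F : ℤ) ≠ 0)) hne1) hP) (Eq.trans ?_ (Eq.trans hidx' ?_))
          · ring
          · rw [show (e + 1) ^ 2 = (e + 1) * e + (e + 1) by ring, pow_add, two_mul (e + 1), pow_add]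
            ring
        have h5 := congrArg (fun z : ℤ => (z : ZMod r)) hkey
        simp only [Int.cast_mul, Int.cast_ofNat, Int.cast_natCast, hidx0, mul_zero] at h5
        push_cast at h5
        exact sub_eq_zero.1 ((mul_eq_zero.1 h5.symm).resolve_left (pow_ne_zero _ hqne))
      obtain ⟨m, hm, hfull, hmv⟩ := Agent.H97.exists_full_plus (p := 2) hrp hne hxd
      exact hs ((hderange m hm hfull).2 hmv)
  · rintro ⟨rfl, hPd⟩ x hx ⟨z, hz⟩ -
    set M := (x : Matrix (Fin d ⊕ Fin d) (Fin d ⊕ Fin d) F) with hM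
    have hpolM : ∀ u v, QuadraticMap.polar Q' (M.mulVec u) (M.mulVec v) = QuadraticMap.polar Q' u v :=
      fun u v => by rw [hQ'B, hQ'B]; exact hx u v
    have hM2 : M * M = z • 1 := by
      have hz' : M ^ 2 = z • 1 := by rw [hM, ← Units.val_pow_eq_pow_val]; exact hz
      rwa [pow_two] at hz'
    have hz1 : z = 1 := by
      obtain ⟨w, hw⟩ : ∃ w, QuadraticMap.polar Q' v0 w ≠ 0 := by
        by_contra h
        push Not at h
        have h1 : v0 = 0 := hQ'nd.1 v0 h
        exact hv0 (by rw [h1, map_zero])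
      have h2 := (hpolM (M.mulVec v0) (M.mulVec w)).trans (hpolM v0 w)
      rw [Matrix.mulVec_mulVec, Matrix.mulVec_mulVec, hM2, Matrix.smul_mulVec, Matrix.smul_mulVec,
        Matrix.one_mulVec, Matrix.one_mulVec, QuadraticMap.polar_smul_left,
        QuadraticMap.polar_smul_right, smul_eq_mul, smul_eq_mul, ← mul_assoc] at h2
      rcases mul_self_eq_one_iff.1 ((mul_eq_right₀ hw).1 h2) with h3 | h3
      · exact h3
      · rw [h3, CharTwo.neg_eq]
    have hT : Matrix.toLin' M * Matrix.toLin' M = 1 := by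
      rw [Module.End.mul_eq_comp, ← Matrix.toLin'_mul, hM2, hz1, one_smul, Matrix.toLin'_one]
      rfl
    obtain ⟨R, hR, hRT, hRs⟩ := Agent.H97.exists_invariant_plus Q' hQ'nd hV (Matrix.toLin' M) hT
      (fun u v => by rw [Matrix.toLin'_apply, Matrix.toLin'_apply]; exact hpolM u v)
    by_cases hs : Agent.H67.HasSing Q' d
    · exact hconj x R hx hR (fun v => by rw [← hM, ← Matrix.toLin'_apply]; exact hRT v)
        (iff_of_true hRs hs)
    · have hodd : Odd d := hPd.resolve_left fun h => hs (hplus.1 h)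
      obtain ⟨R', hR', hRT', hRs'⟩ := Agent.H97.exists_invariant_minus R (hR ▸ hQ'nd) hodd hV
        (Matrix.toLin' M) hT hRT
      exact hconj x R' hx (hR'.trans hR) (fun v => by rw [← hM, ← Matrix.toLin'_apply]; exact hRT' v)
        (iff_of_false hRs' hs)

end Cfsg.Agent.S5983
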