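import Cfsg.Statements.S5984
import Cfsg.Agent.H19.UnitaryPairFix

set_option autoImplicit false
open scoped MatrixGroups
open Cfsg

namespace Cfsg.Agent.S5984

/-- Elements of prime order of PSU_n(q) and the stabilizers of pairs of complementary totally singular subspaces. Here `T = PSU_n(q)` is realised through `SU_n(q)`, the matrices of determinant 1 over the field `F` with `q²` elements preserving the hermitian form `Σ uᵢ vᵢ^q`, with `n ≥ 4` even; `D` is a pair of complementary subspaces of dimension `n/2` on each of which the form vanishes identically, and `H` is the subgroup of `SU_n(q)` fixing or interchanging the two members — a subgroup of type GL_{n/2}(q²).2 (maximality is not assumed). Ω is the set of cosets of `H`, so an element of `T` of prime order `r` (`x ∈ SU_n(q)` with `x^r` scalar, `x` not scalar) fixes a point of Ω exactly when some `SU_n(q)`-conjugate of `x` lies in `H`. Let `r` be a prime dividing the index of `H`. Then every element of `T`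 of order `r` fixes a point of Ω if and only if `r = 2`, `q` is odd and `(q + 1)_2 ≤ (n)_2` (2-parts). -/
theorem result {F : Type*} [Field F] [Fintype F] {p : ℕ} [Fact p.Prime] [CharP F p] {q : ℕ} (hq : Fintype.card F = q ^ 2)
    (n : ℕ) (hn : 4 ≤ n) (he : Even n) (D : Fin 2 → Submodule F (Fin n → F)) (hD : Cfsg.Geo.IsMDecomposition (n / 2) D)
    (hDs : ∀ i, Cfsg.Geo.IsTotallySingularFor (Cfsg.hermForm n F q) (D i))
    (r : ℕ) [Fact r.Prime]
    (hΩ : r ∣ (Cfsg.Geo.decompositionStabilizer D).relIndex (Cfsg.GU n F q ⊓ Cfsg.Geo.specialLinear (Fin n) F)) :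
    (∀ x ∈ Cfsg.GU n F q ⊓ Cfsg.Geo.specialLinear (Fin n) F, (∃ z : F, ((x ^ r : GL (Fin n) F) : Matrix (Fin n) (Fin n) F) = z • (1 : Matrix (Fin n) (Fin n) F)) →
      (∀ z : F, (x : Matrix (Fin n) (Fin n) F) ≠ z • (1 : Matrix (Fin n) (Fin n) F)) →
      ∃ g ∈ Cfsg.GU n F q ⊓ Cfsg.Geo.specialLinear (Fin n) F, g⁻¹ * x * g ∈ Cfsg.Geo.decompositionStabilizer D) ↔
    (r = 2 ∧ Odd q ∧ padicValNat 2 (q + 1) ≤ padicValNat 2 n) := by
  classical
  obtain ⟨k, hk2⟩ := he
  obtain rfl : n = k + k := hk2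
  have hkd : (k + k) / 2 = k := by omega
  have P : H19.UPair.IsPair (D 0) (D 1) k q := by
    refine ⟨⟨hD.indep.pairwiseDisjoint (show (0 : Fin 2) ≠ 1 by decide), ?_⟩, hDs 0, hDs 1,
      (hD.finrank_eq 0).trans hkd, (hD.finrank_eq 1).trans hkd⟩
    rw [codisjoint_iff, eq_top_iff, ← hD.iSup_eq_top]
    refine iSup_le fun i => ?_
    fin_cases i
    · exact le_sup_left
    · exact le_sup_right
  have hk : 0 < k := by omega
  have hne : Even (k + k) := ⟨k, rfl⟩
  have hr : r.Prime := Fact.out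
  have hp : p.Prime := Fact.out
  constructor
  · intro H
    -- an element with a difference of odd rank is impossible
    have no : ∀ (x : Cfsg.GU (k + k) F q) (c : F), x.1 ∈ Cfsg.Geo.specialLinear (Fin (k + k)) F →
        (∃ z : F, ((x.1 ^ r : GL (Fin (k + k)) F) : Matrix (Fin (k + k)) (Fin (k + k)) F) = z • 1) →
        c ^ (q + 1) = 1 → Odd ((x.1 : Matrix (Fin (k + k)) (Fin (k + k)) F) - c • 1).rank →
        (((x.1 : Matrix (Fin (k + k)) (Fin (k + k)) F) - c • 1).rank < k ∨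
          ∃ s, Odd s ∧ (x.1 : GL (Fin (k + k)) F) ^ s = 1) → False := by
      intro x c hx hz hc hodd hsw
      exact H19.UPair.not_conj hq P hk x hc hodd hsw
        (H x.1 ⟨x.2, hx⟩ hz (H19.UPair.ne_scalar_of_odd_rank hne _ hodd))
    have hrp : r ≠ p := by
      rintro rfl
      obtain ⟨x, hx, hxp, hrk⟩ := H19.UPair.witness_char hq (show 2 ≤ k + k by omega) (p := r)
      exact no x 1 hx ⟨1, by rw [hxp, Units.val_one, one_smul]⟩ (one_pow _) (hrk ▸ odd_one)
        (Or.inl (hrk ▸ (show 1 < k by omega)))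
    have hrF : (r : F) ≠ 0 := fun h0 =>
      hrp ((Nat.prime_dvd_prime_iff_eq hp hr).1 ((CharP.cast_eq_zero_iff F p r).1 h0)).symm
    have hrq : ¬ r ∣ q := fun hd => by
      obtain ⟨e, -, he'⟩ := FiniteField.card F p
      obtain ⟨m, -, hm⟩ := (Nat.dvd_prime_pow hp).1 (show q ∣ p ^ (e : ℕ) by
        rw [← he', hq]; exact dvd_pow_self q two_ne_zero)
      rw [hm] at hd
      exact absurd ((Nat.prime_dvd_prime_iff_eq hr hp).1 (hr.dvd_of_dvd_pow hd)) hrp
    rcases eq_or_ne r 2 with rfl | hr2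
    · have hqodd : Odd q := Nat.odd_iff.2 (by omega)
      refine ⟨rfl, hqodd, not_lt.1 fun hlt => ?_⟩
      obtain ⟨x, c, hx, hz, hc, hrk⟩ := H19.UPair.witness_two hq (show 2 ≤ k + k by omega) hne hqodd hlt
      exact no x c hx hz hc (hrk ▸ odd_one) (Or.inl (hrk ▸ (show 1 < k by omega)))
    · exfalso
      have hrodd : Odd r := hr.odd_of_ne_two hr2
      by_cases hrq1 : r ∣ q + 1
      · obtain ⟨x, c, hx, hxr, hc, hodd⟩ := H19.UPair.witness_torus hq (show 2 ≤ k + k by omega) hne hr hr2 hrq1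
        exact no x c hx ⟨1, by rw [hxr, Units.val_one, one_smul]⟩ hc hodd (Or.inr ⟨r, hrodd, hxr⟩)
      · obtain ⟨i, hi, hri⟩ := H19.UPair.dvd_of_dvd_relIndex hq P hk hr hrq hΩ
        have h0 : (q : ZMod r) ^ (2 * i + 1) = -1 := by
          have := (ZMod.natCast_eq_zero_iff _ _).2 hri
          push_cast at this
          linear_combination this
        have hpow : (-(q : ZMod r)) ^ (2 * i + 1) = 1 := by
          rw [Odd.neg_pow ⟨i, rfl⟩, h0, neg_neg]
        obtain ⟨j, hj⟩ : ∃ j, j = orderOf (-(q : ZMod r)) := ⟨_, rfl⟩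
        have hjd : j ∣ 2 * i + 1 := hj ▸ orderOf_dvd_of_pow_eq_one hpow
        have hjodd : Odd j := Odd.of_dvd_nat ⟨i, rfl⟩ hjd
        have hjn : j ≤ k + k := (Nat.le_of_dvd (by omega) hjd).trans (by omega)
        obtain ⟨m, hm⟩ : ∃ m, k + k = j + m := ⟨k + k - j, by omega⟩
        have hw := H19.UPair.witness_block hq m hr hr2 hrF hrq1 hj hjodd
        rw [← hm] at hw
        obtain ⟨x, hx, hxr, hrk⟩ := hw
        exact no x 1 hx ⟨1, by rw [hxr, Units.val_one, one_smul]⟩ (one_pow _) (hrk ▸ hjodd)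
          (Or.inr ⟨r, hrodd, hxr⟩)
  · rintro ⟨rfl, hqodd, hv⟩ x ⟨hxG, hxS⟩ ⟨z, hz⟩ -
    exact H19.UPair.conj_of_sq hq P hk hqodd hv ⟨x, hxG⟩ hxS hz

end Cfsg.Agent.S5984
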