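import Cfsg.Statements.S5985
import Cfsg.Agent.H97.OrthInvolution

set_option autoImplicit false
open scoped MatrixGroups
open Cfsg

namespace Cfsg.Agent.S5985

/-- Elements of prime order of Ω⁺_n(q), q even, with no fixed nonsingular 1-space. Here `T = PΩ⁺_n(F)`, `n = 2d ≥ 8`, realised through `Ω⁺_n(q)`, the commutator subgroup of the isometry group of `Q = Σ xᵢyᵢ` over the field `F` with `q` elements; an element of `T` of prime order `r` is an element `x` of `Ω⁺_n(q)` with `x^r` scalar and `x` not scalar; `q` is even (so the centre is trivial). Let Ω be the set of 1-dimensional subspaces spanned by a vector `v` with `Q(v) ≠ 0`, and let `r` be a prime dividing their number. Then every element of `T` of order `r` fixes some nonsingular 1-space if and only if `r = 2` and `n ≡ 2 (mod 4)` (that is, `d` is odd). -/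
theorem result {F : Type*} [Field F] [Fintype F] {p : ℕ} [Fact p.Prime] [CharP F p] {q : ℕ} (hq : Fintype.card F = q)
    (hp : p = 2) (d : ℕ) (hd : 4 ≤ d) (r : ℕ) [Fact r.Prime]
    (hrΩ : r ∣ Nat.card {W : Submodule F (Fin d ⊕ Fin d → F) // Module.finrank F ↥W = 1 ∧ ∃ v ∈ W, Cfsg.quadFormPlus d F v ≠ 0}) :
    (∀ x : GL (Fin d ⊕ Fin d) F, x ∈ Cfsg.Geo.omegaGL (Cfsg.quadFormPlus d F) →
      (∃ z : F, ((x ^ r : GL (Fin d ⊕ Fin d) F) : Matrix (Fin d ⊕ Fin d) (Fin d ⊕ Fin d) F) = z • (1 : Matrix (Fin d ⊕ Fin d) (Fin d ⊕ Fin d) F)) →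
      (∀ z : F, (x : Matrix (Fin d ⊕ Fin d) (Fin d ⊕ Fin d) F) ≠ z • (1 : Matrix (Fin d ⊕ Fin d) (Fin d ⊕ Fin d) F)) →
      ∃ W : Submodule F (Fin d ⊕ Fin d → F), (Module.finrank F ↥W = 1 ∧ ∃ v ∈ W, Cfsg.quadFormPlus d F v ≠ 0) ∧ W.map (Matrix.toLin' (x : Matrix (Fin d ⊕ Fin d) (Fin d ⊕ Fin d) F)) ≤ W) ↔ (r = 2 ∧ Odd d) := by
  classical
  subst hp
  have hrp : r.Prime := Fact.out
  set Q := Agent.H4.qPlus d F with hQdef
  have hcoe : ⇑Q = Cfsg.quadFormPlus d F := Agent.H4.coe_qPlus _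
  rw [← hcoe] at hrΩ ⊢
  have hQnd : (QuadraticMap.polarBilin Q).Nondegenerate := Agent.H4.qPlus_nondegenerate d
  have hI : Fintype.card (Fin d ⊕ Fin d) = 2 * d := by simp; omega
  obtain ⟨v0, hv0⟩ : ∃ v, Q v ≠ 0 := by
    refine ⟨Sum.elim (Pi.single ⟨0, by omega⟩ 1) (Pi.single ⟨0, by omega⟩ 1), ?_⟩
    rw [hcoe]
    simp [Cfsg.quadFormPlus, Pi.single_apply]
  have hns : ∀ M : Matrix (Fin d ⊕ Fin d) (Fin d ⊕ Fin d) F,
      (∀ (v : Fin d ⊕ Fin d → F) (c : F), Q v ≠ 0 → M.mulVec v ≠ c • v) →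
      (∀ W : Submodule F (Fin d ⊕ Fin d → F), (Module.finrank F ↥W = 1 ∧ ∃ v ∈ W, Q v ≠ 0) →
        ¬ W.map (Matrix.toLin' M) ≤ W) ∧ ∀ z : F, M ≠ z • 1 := by
    refine fun M h => ⟨?_, fun z hz => h v0 z hv0 (by
      rw [hz, Matrix.smul_mulVec, Matrix.one_mulVec])⟩
    rintro W ⟨hW1, v, hvW, hQv⟩ hWmap
    have hv' : (⟨v, hvW⟩ : ↥W) ≠ 0 := fun h' => hQv (by
      rw [show v = 0 from congrArg Subtype.val h', map_zero])
    obtain ⟨c, hc⟩ := exists_smul_eq_of_finrank_eq_one hW1 hv'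
      ⟨Matrix.toLin' M v, hWmap (Submodule.mem_map_of_mem hvW)⟩
    exact h v c hQv ((congrArg Subtype.val hc).symm)
  constructor
  · intro hall
    by_contra hcon
    by_cases hr2 : r = 2
    · subst hr2
      obtain ⟨k, rfl⟩ : Even d := Nat.not_odd_iff_even.1 fun h => hcon ⟨rfl, h⟩
      set A : Matrix (Fin (k + k)) (Fin (k + k)) F := Agent.H97.altStd k with hA
      set x := Agent.H97.shearU A with hxdef
      have hxΩ : x ∈ Cfsg.Geo.omegaGL ⇑Q := by
        rw [hcoe]
        refine Agent.H97.shearU_sum_mem_omega (by omega) _ _ _ fun s _ h => ?_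
        have := congrArg Fin.val h
        simp at this
        omega
      have hx2 : x ^ 2 = 1 := by
        rw [pow_two, hxdef, Agent.H97.shearU_mul]
        convert Agent.H97.shearU_zero (F := F) (n := k + k)
        ext i j
        exact CharTwo.add_self_eq_zero _
      have hxQ : ∀ v, Q ((x : Matrix (Fin _ ⊕ Fin _) (Fin _ ⊕ Fin _) F).mulVec v) = Q v := fun v => by
        rw [hcoe]
        exact Agent.H97.shearU_mem A (Agent.H97.altStd_alt k) v v
      obtain ⟨hW, hz⟩ := hns _ (fun v c hv hc => by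
        have hc1 : c = 1 := Agent.H97.scalar_eq_one Q (by rw [← hc]; exact hxQ v) hv
        rw [hc1, one_smul, Agent.H97.shearU_mulVec] at hc
        have hy : v ∘ Sum.inr = 0 := Agent.H97.altStd_injective k _ (funext fun i => by
          have := congrFun hc (Sum.inl i)
          simpa using this)
        refine hv ?_
        rw [hcoe]
        exact Finset.sum_eq_zero fun i _ => by
          rw [show v (Sum.inr i) = 0 from congrFun hy i, mul_zero])
      obtain ⟨W, hW1, hWm⟩ := hall x hxΩ ⟨1, by rw [hx2, one_smul]; rfl⟩ hz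
      exact hW W hW1 hWm
    have hne : r ≠ 2 := hr2
    have hr : (r : F) ≠ 0 := Agent.H67.cast_ne_zero_of_prime_ne (K := F) hrp hne
    have hq2 : 2 ≤ Fintype.card F := Fintype.one_lt_card
    have hpts : (Nat.card {W : Submodule F (Fin d ⊕ Fin d → F) //
        Module.finrank F ↥W = 1 ∧ ∃ v ∈ W, Q v ≠ 0} : ℤ) * (Fintype.card F : ℤ) =
        (Fintype.card F : ℤ) ^ d * ((Fintype.card F : ℤ) ^ d - 1) := by
      have h1 := Agent.H97.card_nonsing_lines Q
      have h2 : (Nat.card {v : Fin d ⊕ Fin d → F // Q v ≠ 0} : ℤ) =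
          (Fintype.card F : ℤ) ^ (2 * d) - (Nat.card {v // Q v = 0} : ℤ) := by
        have h3 := Nat.card_congr (Equiv.sumCompl (fun v : Fin d ⊕ Fin d → F => Q v = 0))
        rw [Nat.card_sum, Nat.card_fun] at h3
        simp only [Nat.card_eq_fintype_card, hI] at h3 ⊢
        rw [show ((Fintype.card F : ℤ) ^ (2 * d)) = ((Fintype.card F ^ (2 * d) : ℕ) : ℤ) by push_cast; ring,
          ← h3]
        push_cast
        ring
      have h4 := Agent.H4.card_qPlus_zeros (F := F) d
      rw [← hcoe] at h4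
      have h5 := congrArg (fun n : ℕ => (n : ℤ)) h1
      simp only [Nat.cast_mul, Nat.cast_sub (by omega : 1 ≤ Fintype.card F), Nat.cast_one] at h5
      have hq' : ((Fintype.card F : ℤ) - 1) ≠ 0 := by omega
      refine mul_right_cancel₀ hq' ?_
      linear_combination (Fintype.card F : ℤ) * h5 + (Fintype.card F : ℤ) * h2 - h4
    haveI : Fact (2 < r) := ⟨by have := hrp.two_le; omega⟩
    have hxd : (Fintype.card F : ZMod r) ^ d = 1 := by
      have h6 : ((Nat.card {W : Submodule F (Fin d ⊕ Fin d → F) //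
          Module.finrank F ↥W = 1 ∧ ∃ v ∈ W, Q v ≠ 0} : ℤ) : ZMod r) = 0 := by
        rw [Int.cast_natCast, ZMod.natCast_eq_zero_iff]
        exact hrΩ
      have h7 := congrArg (fun z : ℤ => (z : ZMod r)) hpts
      simp only [Int.cast_mul, h6, zero_mul] at h7
      push_cast at h7
      exact sub_eq_zero.1 ((mul_eq_zero.1 h7.symm).resolve_left
        (pow_ne_zero _ (Agent.H67.card_zmod_ne_zero hr hrp)))
    obtain ⟨k, hk⟩ : orderOf (Fintype.card F : ZMod r) ∣ d := orderOf_dvd_of_pow_eq_one hxd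
    obtain ⟨P0⟩ : Nonempty (Agent.H67.CycFac r F) := by
      by_contra hc
      rw [not_nonempty_iff] at hc
      have := Agent.H67.card_cycFac (K := F) hr hrp
      rw [Fintype.card_eq_zero, zero_mul] at this
      have := hrp.two_le
      omega
    let D := Agent.H67.dualId (K := F) (p := 2) hrp hne
    have hDD : ∀ P, D (D P) = P := Agent.H67.cycDual_cycDual _ _ _ _
    let m : Agent.H67.CycFac r F → ℕ := fun P =>
      (if P = P0 then k else 0) + if P = D P0 then k else 0
    have hsum : ∑ P, m P = k + k := by simp [m, Finset.sum_add_distrib]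
    have hm : ∀ P, m (D P) = m P := fun P => by
      have e1 : D P = P0 ↔ P = D P0 := ⟨fun h => by rw [← h, hDD], fun h => by rw [h, hDD]⟩
      have e2 : D P = D P0 ↔ P = P0 :=
        ⟨fun h => by rw [← hDD P, h, hDD], fun h => by rw [h]⟩
      simp only [m, e1, e2]
      exact add_comm _ _
    have hfull : orderOf (Fintype.card F : ZMod r) * ∑ P, m P = 2 * d := by
      rw [hsum, mul_add, ← hk, two_mul]
    obtain ⟨A, hA, hAc⟩ := Agent.H67.exists_orth_polyOf_even (p := 2) hrp hne hne Q hQnd hI m hm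
      hfull.le (fun _ => iff_of_true (Agent.H67.hasSing_qPlus d) (Or.inr (hsum ▸ ⟨k, rfl⟩)))
    have hxΩ := Agent.H97.mem_omegaGL_of_semisimple (p := 2) hrp hne hne Q hQnd A hA
    have hfpf : ∀ v, ((A : GL (Fin d ⊕ Fin d) F) : Matrix (Fin d ⊕ Fin d) (Fin d ⊕ Fin d) F).mulVec v = v → v = 0 :=
      Agent.H97.fpf_of_polyOf hr hrp hAc (by rw [hfull, hI])
    obtain ⟨hW, hz⟩ := hns _ (fun v c hv hc => by
      have hc1 : c = 1 := Agent.H97.scalar_eq_one Q (by rw [← hc]; exact A.2 v v) hv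
      rw [hc1, one_smul] at hc
      exact hv (by rw [hfpf v hc, map_zero]))
    obtain ⟨W, hW1, hWm⟩ := hall _ hxΩ ⟨1, by
      rw [one_smul, ← SubmonoidClass.coe_pow, hA]; rfl⟩ hz
    exact hW W hW1 hWm
  · rintro ⟨rfl, hodd⟩ x hx ⟨z, hz⟩ -
    obtain ⟨y, -, rfl⟩ := hx
    set M := ((y : GL (Fin d ⊕ Fin d) F) : Matrix (Fin d ⊕ Fin d) (Fin d ⊕ Fin d) F)
    have hMQ : ∀ v, Q (M.mulVec v) = Q v := fun v => y.2 v v
    have hM2 : M * M = z • 1 := by
      have hz' : M ^ 2 = z • 1 := by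
        rw [← Units.val_pow_eq_pow_val]
        exact hz
      rwa [pow_two] at hz'
    have hz1 : z = 1 := by
      refine Agent.H97.scalar_eq_one Q (v := v0) ?_ hv0
      have := (hMQ (M.mulVec v0)).trans (hMQ v0)
      rwa [Matrix.mulVec_mulVec, hM2, Matrix.smul_mulVec, Matrix.one_mulVec] at this
    have hT : Matrix.toLin' M * Matrix.toLin' M = 1 := by
      rw [Module.End.mul_eq_comp, ← Matrix.toLin'_mul, hM2, hz1, one_smul, Matrix.toLin'_one]
      rfl
    obtain ⟨v, hv, hQv⟩ : ∃ v ∈ LinearMap.ker (Matrix.toLin' M - 1), Q v ≠ 0 := by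
      by_contra hc
      push Not at hc
      exact Nat.not_even_iff_odd.2 hodd (Agent.H97.even_of_fixed_singular Q hQnd
        (by rw [Module.finrank_fintype_fun_eq_card, hI]) (Matrix.toLin' M) hT
        (fun v => by rw [Matrix.toLin'_apply]; exact hMQ v) hc)
    have hv1 : M.mulVec v = v := sub_eq_zero.1 (LinearMap.mem_ker.1 hv)
    refine ⟨F ∙ v, ⟨finrank_span_singleton (fun h => hQv (by rw [h, map_zero])), v,
      Submodule.mem_span_singleton_self _, hQv⟩, ?_⟩
    rw [Submodule.map_span, Set.image_singleton]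
    show Submodule.span F {Matrix.toLin' M v} ≤ F ∙ v
    rw [Matrix.toLin'_apply, hv1]

end Cfsg.Agent.S5985
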