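import Cfsg.Statements.S5986
import Cfsg.Agent.H97.OrthBasic
import Cfsg.Agent.H97.LinearCriteria

set_option autoImplicit false
open scoped MatrixGroups
open Cfsg

namespace Cfsg.Agent.S5986

/-- Elements of prime order of Ω⁻_n(q), q even, with no fixed nonsingular 1-space. Here `T = PΩ⁻_n(F)`, `n = 2d ≥ 8`, realised through `Ω⁻_n(q)`, the commutator subgroup of the isometry group of `Q = Σ_{i<d−1} xᵢyᵢ + z₁² + a z₁z₂ + b z₂²` with `z₁² + a z₁z₂ + b z₂²` anisotropic, over the field `F` with `q` elements; an element of `T` of prime order `r` is an element `x` of `Ω⁻_n(q)` with `x^r` scalar and `x` not scalar; `q` is even (so the centre is trivial). Let Ω be the set of 1-dimensional subspaces spanned by a vector `v` with `Q(v) ≠ 0`, and let `r` be a prime dividing their number. Then every element of `T` of order `r` fixes some nonsingular 1-space if and only if `r = 2`. -/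
theorem result {F : Type*} [Field F] [Fintype F] {p : ℕ} [Fact p.Prime] [CharP F p] {q : ℕ} (hq : Fintype.card F = q)
    (hp : p = 2) (d : ℕ) (hd : 4 ≤ d) (a b : F) (hab : ∀ x y : F, x ^ 2 + a * x * y + b * y ^ 2 = 0 → x = 0 ∧ y = 0) (r : ℕ) [Fact r.Prime]
    (hrΩ : r ∣ Nat.card {W : Submodule F ((Fin (d - 1) ⊕ Fin (d - 1)) ⊕ Fin 2 → F) // Module.finrank F ↥W = 1 ∧ ∃ v ∈ W, Cfsg.quadFormMinus (d - 1) F a b v ≠ 0}) :
    (∀ x : GL ((Fin (d - 1) ⊕ Fin (d - 1)) ⊕ Fin 2) F, x ∈ Cfsg.Geo.omegaGL (Cfsg.quadFormMinus (d - 1) F a b) →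
      (∃ z : F, ((x ^ r : GL ((Fin (d - 1) ⊕ Fin (d - 1)) ⊕ Fin 2) F) : Matrix ((Fin (d - 1) ⊕ Fin (d - 1)) ⊕ Fin 2) ((Fin (d - 1) ⊕ Fin (d - 1)) ⊕ Fin 2) F) = z • (1 : Matrix ((Fin (d - 1) ⊕ Fin (d - 1)) ⊕ Fin 2) ((Fin (d - 1) ⊕ Fin (d - 1)) ⊕ Fin 2) F)) →
      (∀ z : F, (x : Matrix ((Fin (d - 1) ⊕ Fin (d - 1)) ⊕ Fin 2) ((Fin (d - 1) ⊕ Fin (d - 1)) ⊕ Fin 2) F) ≠ z • (1 : Matrix ((Fin (d - 1) ⊕ Fin (d - 1)) ⊕ Fin 2) ((Fin (d - 1) ⊕ Fin (d - 1)) ⊕ Fin 2) F)) →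
      ∃ W : Submodule F ((Fin (d - 1) ⊕ Fin (d - 1)) ⊕ Fin 2 → F), (Module.finrank F ↥W = 1 ∧ ∃ v ∈ W, Cfsg.quadFormMinus (d - 1) F a b v ≠ 0) ∧ W.map (Matrix.toLin' (x : Matrix ((Fin (d - 1) ⊕ Fin (d - 1)) ⊕ Fin 2) ((Fin (d - 1) ⊕ Fin (d - 1)) ⊕ Fin 2) F)) ≤ W) ↔ r = 2 := by
  classical
  have hp2 : p = 2 := hp
  subst hp2
  haveI : CharP F 2 := inferInstance
  have hrp : r.Prime := Fact.out
  set Q := Agent.H4.qMinus (d - 1) F a b with hQdef
  have hcoe : ⇑Q = Cfsg.quadFormMinus (d - 1) F a b := Agent.H4.coe_qMinus _ _ _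
  rw [← hcoe] at hrΩ ⊢
  have hQnd : (QuadraticMap.polarBilin Q).Nondegenerate :=
    Agent.H4.qMinus_nondegenerate (Agent.H4.disc_ne_zero_of_anisotropic hab
      fun c h2 => Agent.H4.exists_sq_eq h2 c) _
  have hI : Fintype.card ((Fin (d - 1) ⊕ Fin (d - 1)) ⊕ Fin 2) = 2 * d := by
    simp; omega
  have hminus : ¬ Agent.H67.HasSing Q d := by
    have := Agent.H67.not_hasSing_qMinus (d - 1) hab
    rwa [show d - 1 + 1 = d by omega] at this
  -- involutions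
  have hinv : r = 2 → ∀ x : GL ((Fin (d - 1) ⊕ Fin (d - 1)) ⊕ Fin 2) F,
      x ∈ Cfsg.Geo.omegaGL ⇑Q →
      (∃ z : F, ((x ^ r : GL ((Fin (d - 1) ⊕ Fin (d - 1)) ⊕ Fin 2) F) : Matrix ((Fin (d - 1) ⊕ Fin (d - 1)) ⊕ Fin 2) ((Fin (d - 1) ⊕ Fin (d - 1)) ⊕ Fin 2) F) = z • (1 : Matrix ((Fin (d - 1) ⊕ Fin (d - 1)) ⊕ Fin 2) ((Fin (d - 1) ⊕ Fin (d - 1)) ⊕ Fin 2) F)) →
      ∃ W : Submodule F ((Fin (d - 1) ⊕ Fin (d - 1)) ⊕ Fin 2 → F),
        (Module.finrank F ↥W = 1 ∧ ∃ v ∈ W, Q v ≠ 0) ∧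
          W.map (Matrix.toLin' (x : Matrix ((Fin (d - 1) ⊕ Fin (d - 1)) ⊕ Fin 2) ((Fin (d - 1) ⊕ Fin (d - 1)) ⊕ Fin 2) F)) ≤ W := by
    rintro rfl x hx ⟨z, hz⟩
    obtain ⟨y, -, rfl⟩ := hx
    set M := ((y : GL ((Fin (d - 1) ⊕ Fin (d - 1)) ⊕ Fin 2) F) :
      Matrix ((Fin (d - 1) ⊕ Fin (d - 1)) ⊕ Fin 2) ((Fin (d - 1) ⊕ Fin (d - 1)) ⊕ Fin 2) F)
    have hMQ : ∀ v, Q (M.mulVec v) = Q v := fun v => y.2 v v
    have hM2 : M * M = z • 1 := by
      have hz' : M ^ 2 = z • 1 := by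
        rw [← Units.val_pow_eq_pow_val]
        exact hz
      rwa [pow_two] at hz'
    obtain ⟨v0, hv0⟩ : ∃ v, Q v ≠ 0 := by
      by_contra hc
      push Not at hc
      refine hminus ?_
      obtain ⟨W, -, hW⟩ := Agent.H97.exists_le_finrank_eq (e := d) ((⊤ : Submodule F ((Fin (d - 1) ⊕ Fin (d - 1)) ⊕ Fin 2 → F)))
        (by rw [finrank_top, Module.finrank_fintype_fun_eq_card, hI]; omega)
      exact ⟨W, fun w _ => hc w, hW⟩
    have hz1 : z = 1 := by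
      refine Agent.H97.scalar_eq_one Q (v := v0) ?_ hv0
      have := (hMQ (M.mulVec v0)).trans (hMQ v0)
      rwa [Matrix.mulVec_mulVec, hM2, Matrix.smul_mulVec, Matrix.one_mulVec] at this
    have hT : Matrix.toLin' M * Matrix.toLin' M = 1 := by
      rw [Module.End.mul_eq_comp, ← Matrix.toLin'_mul, hM2, hz1, one_smul, Matrix.toLin'_one]
      rfl
    have hker := Agent.H97.finrank_fixed_of_involution (Matrix.toLin' M) hT
    rw [Module.finrank_fintype_fun_eq_card, hI] at hker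
    obtain ⟨v, hv, hQv⟩ : ∃ v ∈ LinearMap.ker (Matrix.toLin' M - 1), Q v ≠ 0 := by
      by_contra hc
      push Not at hc
      refine hminus ?_
      obtain ⟨W, hWle, hW⟩ := Agent.H97.exists_le_finrank_eq (e := d) (LinearMap.ker (Matrix.toLin' M - 1)) (by omega)
      exact ⟨W, fun w hw => hc w (hWle hw), hW⟩
    have hv1 : M.mulVec v = v := by
      have := sub_eq_zero.1 (LinearMap.mem_ker.1 hv)
      exact this
    refine ⟨F ∙ v, ⟨finrank_span_singleton (fun h => hQv (by rw [h, map_zero])), v,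
      Submodule.mem_span_singleton_self _, hQv⟩, ?_⟩
    rw [Submodule.map_span, Set.image_singleton]
    show Submodule.span F {Matrix.toLin' M v} ≤ F ∙ v
    rw [Matrix.toLin'_apply, hv1]
  constructor
  · intro hall
    by_contra hr2
    have hne : r ≠ 2 := hr2
    have hr : (r : F) ≠ 0 := Agent.H67.cast_ne_zero_of_prime_ne (K := F) hrp hne
    have hq2 : 2 ≤ Fintype.card F := Fintype.one_lt_card
    -- the number of points
    have hpts : (Nat.card {W : Submodule F ((Fin (d - 1) ⊕ Fin (d - 1)) ⊕ Fin 2 → F) //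
        Module.finrank F ↥W = 1 ∧ ∃ v ∈ W, Q v ≠ 0} : ℤ) =
        (Fintype.card F : ℤ) ^ (d - 1) * ((Fintype.card F : ℤ) ^ d + 1) := by
      have h1 := Agent.H97.card_nonsing_lines Q
      have h2 : (Nat.card {v : (Fin (d - 1) ⊕ Fin (d - 1)) ⊕ Fin 2 → F // Q v ≠ 0} : ℤ) =
          (Fintype.card F : ℤ) ^ (2 * d) - (Nat.card {v // Q v = 0} : ℤ) := by
        have h3 := Nat.card_congr (Equiv.sumCompl
          (fun v : (Fin (d - 1) ⊕ Fin (d - 1)) ⊕ Fin 2 → F => Q v = 0))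
        rw [Nat.card_sum, Nat.card_fun] at h3
        simp only [Nat.card_eq_fintype_card, hI] at h3 ⊢
        rw [show ((Fintype.card F : ℤ) ^ (2 * d)) = ((Fintype.card F ^ (2 * d) : ℕ) : ℤ) by push_cast; ring,
          ← h3]
        push_cast
        ring
      have h4 := Agent.H4.card_qMinus_zeros (d - 1) a b hab
      rw [← hcoe] at h4
      rw [h4] at h2
      have h5 := congrArg (fun n : ℕ => (n : ℤ)) h1
      simp only [Nat.cast_mul, Nat.cast_sub (by omega : 1 ≤ Fintype.card F), Nat.cast_one, h2] at h5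
      have hq' : ((Fintype.card F : ℤ) - 1) ≠ 0 := by omega
      refine mul_right_cancel₀ hq' (h5.trans ?_)
      have hd1 : ∀ x : ℤ, x ^ d = x ^ (d - 1) * x := fun x => by
        rw [← pow_succ, show d - 1 + 1 = d by omega]
      rw [pow_mul', hd1]
      ring
    haveI : Fact (2 < r) := ⟨by have := hrp.two_le; omega⟩
    have hxd : (Fintype.card F : ZMod r) ^ d = -1 := by
      have h6 : ((Nat.card {W : Submodule F ((Fin (d - 1) ⊕ Fin (d - 1)) ⊕ Fin 2 → F) //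
          Module.finrank F ↥W = 1 ∧ ∃ v ∈ W, Q v ≠ 0} : ℤ) : ZMod r) = 0 := by
        rw [Int.cast_natCast, ZMod.natCast_eq_zero_iff]
        exact hrΩ
      rw [hpts] at h6
      push_cast at h6
      exact eq_neg_of_add_eq_zero_left ((mul_eq_zero.1 h6).resolve_left
        (pow_ne_zero _ (Agent.H67.card_zmod_ne_zero hr hrp)))
    set i := orderOf (Fintype.card F : ZMod r) with hidef
    have hipos : 0 < i := Agent.H67.orderOf_card_pos (K := F) hr hrp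
    have hiev : ¬ Odd i := (Agent.H67.exists_pow_eq_neg_one_iff hrp hne hipos).1 ⟨d, hxd⟩
    have hnd : ¬ i ∣ d := fun h => ZMod.neg_one_ne_one
      (hxd.symm.trans (orderOf_dvd_iff_pow_eq_one.1 h))
    obtain ⟨L, hL⟩ : i ∣ 2 * d :=
      orderOf_dvd_of_pow_eq_one (by rw [mul_comm, pow_mul, hxd]; ring)
    have hLodd : ¬ Even L := by
      rintro ⟨L', rfl⟩
      refine hnd ⟨L', ?_⟩
      rw [mul_add] at hL
      omega
    obtain ⟨P0⟩ : Nonempty (Agent.H67.CycFac r F) := by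
      by_contra hc
      rw [not_nonempty_iff] at hc
      have := Agent.H67.card_cycFac (K := F) hr hrp
      rw [Fintype.card_eq_zero, zero_mul] at this
      have := hrp.two_le
      omega
    let m : Agent.H67.CycFac r F → ℕ := fun P => if P = P0 then L else 0
    have hsum : ∑ P, m P = L := by simp [m]
    have hdual : ∀ P, Agent.H67.dualId (p := 2) hrp hne P = P := fun P =>
      (Agent.H67.dualId_eq_self_iff hrp hne hne P).2 hiev
    obtain ⟨A, hA, hAc⟩ := Agent.H67.exists_orth_polyOf_even (p := 2) hrp hne hne Q hQnd hI m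
      (fun P => by rw [hdual]) (by rw [hsum, ← hL]) (fun _ => iff_of_false hminus (by
        rintro (h | h)
        · exact hiev h
        · exact hLodd (hsum ▸ h)))
    set x : GL ((Fin (d - 1) ⊕ Fin (d - 1)) ⊕ Fin 2) F :=
      (A : GL ((Fin (d - 1) ⊕ Fin (d - 1)) ⊕ Fin 2) F)
    have hxΩ := Agent.H97.mem_omegaGL_of_semisimple (p := 2) hrp hne hne Q hQnd A hA
    have hfpf : ∀ v, (x : Matrix ((Fin (d - 1) ⊕ Fin (d - 1)) ⊕ Fin 2) ((Fin (d - 1) ⊕ Fin (d - 1)) ⊕ Fin 2) F).mulVec v = v → v = 0 :=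
      Agent.H97.fpf_of_polyOf hr hrp hAc (by rw [hsum, hI, ← hL])
    have hline : ∀ (v : (Fin (d - 1) ⊕ Fin (d - 1)) ⊕ Fin 2 → F) (c : F), Q v ≠ 0 →
        (x : Matrix ((Fin (d - 1) ⊕ Fin (d - 1)) ⊕ Fin 2) ((Fin (d - 1) ⊕ Fin (d - 1)) ⊕ Fin 2) F).mulVec v ≠ c • v := by
      intro v c hv hc
      have hc1 : c = 1 := Agent.H97.scalar_eq_one Q (by rw [← hc]; exact A.2 v v) hv
      rw [hc1, one_smul] at hc
      exact hv (by rw [hfpf v hc, map_zero])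
    have hxr : ((x ^ r : GL ((Fin (d - 1) ⊕ Fin (d - 1)) ⊕ Fin 2) F) :
        Matrix ((Fin (d - 1) ⊕ Fin (d - 1)) ⊕ Fin 2) ((Fin (d - 1) ⊕ Fin (d - 1)) ⊕ Fin 2) F) =
        (1 : F) • 1 := by
      rw [one_smul]
      show ((((A ^ r : ↥(Cfsg.isometryGroup F ⇑Q))) :
        GL ((Fin (d - 1) ⊕ Fin (d - 1)) ⊕ Fin 2) F) : Matrix ((Fin (d - 1) ⊕ Fin (d - 1)) ⊕ Fin 2) ((Fin (d - 1) ⊕ Fin (d - 1)) ⊕ Fin 2) F) = 1
      rw [hA]; rfl
    have hxns : ∀ z : F, (x : Matrix ((Fin (d - 1) ⊕ Fin (d - 1)) ⊕ Fin 2) ((Fin (d - 1) ⊕ Fin (d - 1)) ⊕ Fin 2) F) ≠ z • (1 : Matrix ((Fin (d - 1) ⊕ Fin (d - 1)) ⊕ Fin 2) ((Fin (d - 1) ⊕ Fin (d - 1)) ⊕ Fin 2) F) := by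
      intro z hz
      obtain ⟨v, hv⟩ : ∃ v, Q v ≠ 0 := by
        by_contra hc
        push Not at hc
        refine hminus ?_
        obtain ⟨W, -, hW⟩ := Agent.H97.exists_le_finrank_eq (e := d) ((⊤ : Submodule F ((Fin (d - 1) ⊕ Fin (d - 1)) ⊕ Fin 2 → F)))
          (by rw [finrank_top, Module.finrank_fintype_fun_eq_card, hI]; omega)
        exact ⟨W, fun w _ => hc w, hW⟩
      exact hline v z hv (by rw [hz, Matrix.smul_mulVec, Matrix.one_mulVec])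
    obtain ⟨W, ⟨hW1, v, hvW, hQv⟩, hWmap⟩ := hall x hxΩ ⟨1, hxr⟩ hxns
    have hv0 : (⟨v, hvW⟩ : ↥W) ≠ 0 := fun h => hQv (by
      rw [show v = 0 from congrArg Subtype.val h, map_zero])
    obtain ⟨c, hc⟩ := exists_smul_eq_of_finrank_eq_one hW1 hv0
      ⟨Matrix.toLin' (x : Matrix ((Fin (d - 1) ⊕ Fin (d - 1)) ⊕ Fin 2) ((Fin (d - 1) ⊕ Fin (d - 1)) ⊕ Fin 2) F) v, hWmap (Submodule.mem_map_of_mem hvW)⟩
    exact hline v c hQv ((congrArg Subtype.val hc).symm)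
  · intro h x hx hxr _
    exact hinv h x hx hxr

end Cfsg.Agent.S5986
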