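import Cfsg.Statements.S5987
import Cfsg.Agent.H97.OrthIsotropicCriteria
import Cfsg.Agent.H97.OrthIsotropicTwo

set_option autoImplicit false
open scoped MatrixGroups
open Cfsg

namespace Cfsg.Agent.S5987

/-- Elements of prime order of PΩ⁻_n(q) with no fixed totally singular `m`-space. Here `T = PΩ⁻_n(F)`, `n = 2d ≥ 8`, realised through `Ω⁻_n(q)`, the commutator subgroup of the isometry group of `Q = Σ_{i<d−1} xᵢyᵢ + z₁² + a z₁z₂ + b z₂²` with `z₁² + a z₁z₂ + b z₂²` anisotropic, over the field `F` with `q` elements; an element of `T` of prime order `r` is an element `x` of `Ω⁻_n(q)` with `x^r` scalar and `x` not scalar. Let `1 ≤ m ≤ d − 1` and let `r` be a prime dividing the number of totally singular `m`-spaces (subspaces of dimension `m` on which `Q` vanishes); for `r ≠ p` let `i` be the multiplicative order of `q` modulo `r`, `c = i` for `i` even and `c = 2i` for `i` odd, and write `k = n mod c`, `ℓ = m mod i`, `n' = ⌊n/i⌋`, `m'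 = ⌊m/i⌋`, `t = (r−1)/i`. Then every element of `T` of order `r` fixes some totally singular `m`-space if and only if one of: (i) `r = 2 ≠ p` and (`n ≡ 0 (mod 4)`, or `m` is even, or `q ≢ 7 (mod 8)`); (ii) `r ≠ p` odd, `i` odd, `i ≤ m` and (`k = 0` or `k > 2ℓ`); (iii) `r ≠ p` odd, `i` even, `i ≤ m`, `n' − 2m' ≥ t`, and one of: (a) `i ≥ 2ℓ`, `k = 0`, `n/i` even and `n' − 2m' > t` (all four); (b) `k ≥ 2ℓ` and `n'` odd; (c) `k > 2ℓ` and `n'` even. -/
theorem result {F : Type*} [Field F] [Fintype F] {p : ℕ} [Fact p.Prime] [CharP F p] {q : ℕ} (hq : Fintype.card F = q)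
    (d m : ℕ) (hd : 4 ≤ d) (hm : 1 ≤ m) (hmd : m + 1 ≤ d) (a b : F) (hab : ∀ x y : F, x ^ 2 + a * x * y + b * y ^ 2 = 0 → x = 0 ∧ y = 0)
    (r : ℕ) [Fact r.Prime]
    (hrΩ : r ∣ Nat.card {W : Submodule F ((Fin (d - 1) ⊕ Fin (d - 1)) ⊕ Fin 2 → F) // Module.finrank F ↥W = m ∧ Cfsg.Geo.IsTotallySingularQuad (Cfsg.quadFormMinus (d - 1) F a b) W})
    (i c : ℕ) (hi : i = orderOf (q : ZMod r)) (hc : c = if Even i then i else 2 * i) :
    (∀ x : GL ((Fin (d - 1) ⊕ Fin (d - 1)) ⊕ Fin 2) F, x ∈ Cfsg.Geo.omegaGL (Cfsg.quadFormMinus (d - 1) F a b) →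
      (∃ z : F, ((x ^ r : GL ((Fin (d - 1) ⊕ Fin (d - 1)) ⊕ Fin 2) F) : Matrix ((Fin (d - 1) ⊕ Fin (d - 1)) ⊕ Fin 2) ((Fin (d - 1) ⊕ Fin (d - 1)) ⊕ Fin 2) F) = z • (1 : Matrix ((Fin (d - 1) ⊕ Fin (d - 1)) ⊕ Fin 2) ((Fin (d - 1) ⊕ Fin (d - 1)) ⊕ Fin 2) F)) →
      (∀ z : F, (x : Matrix ((Fin (d - 1) ⊕ Fin (d - 1)) ⊕ Fin 2) ((Fin (d - 1) ⊕ Fin (d - 1)) ⊕ Fin 2) F) ≠ z • (1 : Matrix ((Fin (d - 1) ⊕ Fin (d - 1)) ⊕ Fin 2) ((Fin (d - 1) ⊕ Fin (d - 1)) ⊕ Fin 2) F)) →
      ∃ W : Submodule F ((Fin (d - 1) ⊕ Fin (d - 1)) ⊕ Fin 2 → F), (Module.finrank F ↥W = m ∧ Cfsg.Geo.IsTotallySingularQuad (Cfsg.quadFormMinus (d - 1) F a b) W) ∧ W.map (Matrix.toLin' (x : Matrix ((Fin (d - 1) ⊕ Fin (d - 1)) ⊕ Fin 2) ((Fin (d - 1) ⊕ Fin (d - 1)) ⊕ Fin 2) F)) ≤ W) ↔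
    ((r = 2 ∧ p ≠ 2 ∧ (Even d ∨ Even m ∨ q % 8 ≠ 7)) ∨
     (r ≠ p ∧ 2 < r ∧ Odd i ∧ i ≤ m ∧ ((2 * d) % c = 0 ∨ 2 * (m % i) < (2 * d) % c)) ∨
     (r ≠ p ∧ 2 < r ∧ Even i ∧ i ≤ m ∧ (r - 1) / i + 2 * (m / i) ≤ (2 * d) / i ∧
       ((2 * (m % i) ≤ i ∧ (2 * d) % c = 0 ∧ Even ((2 * d) / i) ∧ (r - 1) / i + 2 * (m / i) < (2 * d) / i) ∨
        (2 * (m % i) ≤ (2 * d) % c ∧ Odd ((2 * d) / i)) ∨
        (2 * (m % i) < (2 * d) % c ∧ Even ((2 * d) / i))))) := by
  have hrp' : r.Prime := Fact.out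
  set Q := Agent.H4.qMinus (d - 1) F a b with hQdef
  have hcoe : ⇑Q = Cfsg.quadFormMinus (d - 1) F a b := Agent.H4.coe_qMinus (d - 1) a b
  rw [← hcoe] at hrΩ ⊢
  simp only [Cfsg.Geo.IsTotallySingularQuad] at hrΩ ⊢
  have hQ : (QuadraticMap.polarBilin Q).Nondegenerate :=
    Agent.H4.qMinus_nondegenerate (Agent.H4.disc_ne_zero_of_anisotropic hab fun c h2 => Agent.H4.exists_sq_eq h2 c) _
  have hI : Fintype.card ((Fin (d - 1) ⊕ Fin (d - 1)) ⊕ Fin 2) = 2 * d := by simp; omega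
  have hminus : ¬ Agent.H67.HasSing Q d := by
    have := Agent.H67.not_hasSing_qMinus (d - 1) hab
    rwa [show d - 1 + 1 = d by omega] at this
  have hne : r ≠ p := fun h => Agent.H97.not_dvd_char_singular (p := p) hQ (m := m)
    (by rw [Module.finrank_fintype_fun_eq_card, hI]; omega) (h ▸ hrΩ)
  by_cases hr2 : r = 2
  · subst hr2
    have hp2 : p ≠ 2 := Ne.symm hne
    have hF2 : (2 : F) ≠ 0 := Ring.two_ne_zero (ringChar.eq F p ▸ hp2)
    have hqodd : q % 2 = 1 := hq ▸ Agent.H4.odd_card_of_two_ne_zero hF2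
    have hsq : IsSquare (-1 : F) ↔ q % 4 = 1 := by
      rw [Agent.H97.isSquare_neg_one_iff' hq]; omega
    have hsq2 : IsSquare (2 : F) ↔ (q % 8 = 1 ∨ q % 8 = 7) := by
      rw [Agent.H97.isSquare_two_iff' hq]; omega
    simp only [lt_irrefl, false_and, and_false, or_false, true_and, ne_eq, hp2, not_false_eq_true]
    constructor
    · intro H
      by_contra hc'
      simp only [not_or, not_not] at hc'
      obtain ⟨hd1, hm1, hq8⟩ := hc'
      have hns : ¬ IsSquare (-1 : F) := fun h => by have := hsq.1 h; omega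
      obtain ⟨x, hx, hxx⟩ := Agent.H97.exists_omega_sq hF2 hQ hI
        (iff_of_false hminus (by rintro (h | h); exacts [hns h, hd1 h])) (Or.inr (hsq2.2 (Or.inr hq8)))
      have hxQ := Agent.H97.isometry_of_mem_omegaGL hx
      obtain ⟨W, ⟨hWd, -⟩, hWf⟩ := H x hx ⟨-1, by
          apply Matrix.toLin'.injective
          refine LinearMap.ext fun v => ?_
          rw [pow_two, Units.val_mul, Matrix.toLin'_mul, LinearMap.comp_apply, hxx, map_smul, Matrix.toLin'_one]
          simp⟩ (Agent.H97.nonscalar_of_sq_neg hF2 hQ hxQ hxx)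
      exact Agent.H97.not_odd_invariant hns hxx hWf (by rw [hWd]; exact Nat.not_even_iff_odd.1 hm1)
    · intro hcond x hx hz _
      obtain ⟨z, hz⟩ := hz
      rcases Agent.H97.sq_cases hQ hx hz with hxx | hxx
      · obtain ⟨W, h1, h2, h3⟩ := Agent.H97.exists_singular_omega_involution hF2 hQ hx hxx hI (m := m) (by omega)
          (Or.inr (Or.inr hminus))
        exact ⟨W, ⟨h1, h2⟩, h3⟩
      · have hxQ := Agent.H97.isometry_of_mem_omegaGL hx
        obtain ⟨W, h1, h2, h3⟩ := Agent.H97.exists_singular_sq hF2 hQ hxQ hxx (m := m)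
          (by rw [Module.finrank_fintype_fun_eq_card, hI]; omega) (by
            obtain ⟨k, hk, hkp⟩ := Agent.H97.sq_inv_shape hF2 hxQ hxx (P := ⊤) le_top (Agent.H97.nondegOn_top hQ)
            rw [finrank_top, Module.finrank_fintype_fun_eq_card, hI] at hk
            obtain rfl : k = d := by omega
            rw [Agent.H97.plusOn_top Q (by rw [Module.finrank_fintype_fun_eq_card, hI])] at hkp
            have hnot := fun h => hminus (hkp.2 h)
            have hs2 := hsq2.1 ((Agent.H97.omega_sq_spin hF2 hQ hI hx hxx).resolve_left fun h => hnot (Or.inr h))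
            have h4 : ¬ q % 4 = 1 := fun h => hnot (Or.inl (hsq.2 h))
            rcases hcond with h | h | h
            · exact absurd (Or.inr h) hnot
            · exact Or.inl h
            · exact absurd h (by omega))
        exact ⟨W, ⟨h1, h2⟩, h3⟩
  · have hr2' : 2 < r := by have := hrp'.two_le; omega
    simp only [hr2, false_and, false_or, ne_eq, hne, not_false_eq_true, hr2', true_and]
    rw [Agent.H97.forall_omega_elements_iff hr2 hne hQ
      (fun W => Module.finrank F W = m ∧ ∀ w ∈ W, Q w = 0) |>.trans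
      (Agent.H97.orth_singular_prime_iff hrp' hne hr2 hQ hI (by omega) (i := i)
        (by rw [Agent.H97.natCard_eq hq]; exact hi) hrΩ), show 2 * d / 2 = d by omega]
    rcases Nat.even_or_odd i with he | ho
    · have h1 : ¬ Odd i := Nat.not_odd_iff_even.2 he
      rw [if_pos he] at hc
      subst hc
      simp only [h1, he, false_and, false_or, true_and, hminus, false_iff, Nat.not_even_iff_odd, Nat.not_odd_iff_even]
      refine and_congr_right fun _ => and_congr_right fun _ => or_congr Iff.rfl ⟨?_, ?_⟩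
      · rintro (h | ⟨h, h'⟩)
        · rcases Nat.even_or_odd (2 * d / c) with h' | h'
          · exact Or.inr ⟨h, h'⟩
          · exact Or.inl ⟨h.le, h'⟩
        · exact Or.inl ⟨h.le, h'⟩
      · rintro (⟨h, h'⟩ | ⟨h, -⟩)
        · rcases h.lt_or_eq with h | h
          · exact Or.inl h
          · exact Or.inr ⟨h, h'⟩
        · exact Or.inl h
    · have h1 : ¬ Even i := Nat.not_even_iff_odd.2 ho
      rw [if_neg h1] at hc
      subst hc
      simp only [ho, h1, false_and, or_false, true_and, hminus, and_false, false_or, not_false_eq_true, and_true]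
      exact and_congr_right fun _ => or_comm

end Cfsg.Agent.S5987
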