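import Cfsg.Statements.S5988
import Cfsg.Agent.H97.OrthTwoEven
import Cfsg.Agent.H97.OrthTwoElements
import Cfsg.Agent.H97.OrthCriteria
import Cfsg.Agent.H97.OrthNondeg
import Cfsg.Agent.H97.OrthUnipotentOdd

set_option autoImplicit false
open scoped MatrixGroups
open Cfsg

namespace Cfsg.Agent.S5988

/-- Elements of prime order of PΩ⁺_n(q) with no fixed elliptic `m`-space. Here `T = PΩ⁺_n(F)`, `n = 2d ≥ 8`, realised through `Ω⁺_n(q)`, the commutator subgroup of the isometry group of `Q = Σ xᵢyᵢ` over the field `F` with `q` elements; an element of `T` of prime order `r` is an element `x` of `Ω⁺_n(q)` with `x^r` scalar and `x` not scalar; a nondegenerate `m`-space (even `m`) is a subspace on which the polar form of `Q` is nondegenerate; it is hyperbolic if it contains an `m/2`-dimensional subspace on which `Q` vanishes, elliptic otherwise. Let `m` be even with `2 ≤ m < n/2` and let `r` be a prime dividing the number of elliptic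 `m`-spaces; for `r ≠ p` let `i` be the multiplicative order of `q` modulo `r`, `c = i` for `i` even and `c = 2i` for `i` odd, and write `k = n mod c`, `ℓ = m mod i`, `ℓ' = m mod c`, `n' = ⌊n/i⌋`, `m' = ⌊m/i⌋`, `t = (r−1)/i`. Then every element of `T` of order `r` fixes some elliptic `m`-space if and only if one of: (i) `r = 2 ≠ p` and either `n ≡ 0 (mod 4)`, `q ≡ 3 (mod 4)` and `m ≡ 2 (mod 4)`, or `n ≡ 2 (mod 4)` and `q ≢ 1 (mod 8)`; (ii) `r ≠ p` odd, `i` odd, `c ≤ m` and `k > ℓ' > 0`; (iii) `r ≠ p` odd, `i` even, and either `k = 0` and (`n/i` odd, or `ℓ' = 0` and `m/i` odd), or `i ≤ m` and (`k > ℓ' > 0`, or `k = ℓ' > 0` and `(n + m − 2k)/i` odd, or `k > ℓ' = 0` and `m/i` odd). (For `r = p` there is always an element of order `p` fixing no elliptic `m`-space.) -/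
theorem result {F : Type*} [Field F] [Fintype F] {p : ℕ} [Fact p.Prime] [CharP F p] {q : ℕ} (hq : Fintype.card F = q)
    (d m : ℕ) (hd : 4 ≤ d) (hm : 2 ≤ m) (hme : Even m) (hmd : m < d)
    (r : ℕ) [Fact r.Prime]
    (hrΩ : r ∣ Nat.card {W : Submodule F (Fin d ⊕ Fin d → F) // Module.finrank F ↥W = m ∧ Cfsg.Geo.IsNondegenerateOn (QuadraticMap.polar (Cfsg.quadFormPlus d F)) W ∧ ¬ Cfsg.Geo.IsPlusTypeOn (Cfsg.quadFormPlus d F) W})
    (i c : ℕ) (hi : i = orderOf (q : ZMod r)) (hc : c = if Even i then i else 2 * i) :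
    (∀ x : GL (Fin d ⊕ Fin d) F, x ∈ Cfsg.Geo.omegaGL (Cfsg.quadFormPlus d F) →
      (∃ z : F, ((x ^ r : GL (Fin d ⊕ Fin d) F) : Matrix (Fin d ⊕ Fin d) (Fin d ⊕ Fin d) F) = z • (1 : Matrix (Fin d ⊕ Fin d) (Fin d ⊕ Fin d) F)) →
      (∀ z : F, (x : Matrix (Fin d ⊕ Fin d) (Fin d ⊕ Fin d) F) ≠ z • (1 : Matrix (Fin d ⊕ Fin d) (Fin d ⊕ Fin d) F)) →
      ∃ W : Submodule F (Fin d ⊕ Fin d → F), (Module.finrank F ↥W = m ∧ Cfsg.Geo.IsNondegenerateOn (QuadraticMap.polar (Cfsg.quadFormPlus d F)) W ∧ ¬ Cfsg.Geo.IsPlusTypeOn (Cfsg.quadFormPlus d F) W) ∧ W.map (Matrix.toLin' (x : Matrix (Fin d ⊕ Fin d) (Fin d ⊕ Fin d) F)) ≤ W) ↔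
    ((r = 2 ∧ p ≠ 2 ∧ ((Even d ∧ q % 4 = 3 ∧ m % 4 = 2) ∨ (Odd d ∧ q % 8 ≠ 1))) ∨
     (r ≠ p ∧ 2 < r ∧ Odd i ∧ c ≤ m ∧ 0 < m % c ∧ m % c < (2 * d) % c) ∨
     (r ≠ p ∧ 2 < r ∧ Even i ∧
       (((2 * d) % c = 0 ∧ (Odd ((2 * d) / i) ∨ (m % c = 0 ∧ Odd (m / i)))) ∨
        (i ≤ m ∧ ((0 < m % c ∧ m % c < (2 * d) % c) ∨
                  (0 < m % c ∧ m % c = (2 * d) % c ∧ Odd ((2 * d + m - 2 * ((2 * d) % c)) / i)) ∨
                  (m % c = 0 ∧ 0 < (2 * d) % c ∧ Odd (m / i))))))) := by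
  classical
  obtain ⟨e, rfl⟩ := hme
  rw [← two_mul] at hrΩ hm hmd ⊢
  have hrp' : r.Prime := Fact.out
  set Q := Agent.H4.qPlus d F with hQdef
  have hcoe : ⇑Q = Cfsg.quadFormPlus d F := Agent.H4.coe_qPlus d
  rw [← hcoe] at hrΩ ⊢
  have hQ : (QuadraticMap.polarBilin Q).Nondegenerate := Agent.H4.qPlus_nondegenerate d
  have hI : Fintype.card (Fin d ⊕ Fin d) = 2 * d := by simp; omega
  have hV : Module.finrank F (Fin d ⊕ Fin d → F) = 2 * d := by rw [Module.finrank_fintype_fun_eq_card, hI]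
  have hplus : Agent.H67.HasSing Q d := Agent.H67.hasSing_qPlus d
  haveI : Nonempty (Fin d ⊕ Fin d) := Fintype.card_pos_iff.1 (by omega)
  have hC : ∀ W : Submodule F (Fin d ⊕ Fin d → F),
      (Module.finrank F W = 2 * e ∧ Cfsg.Geo.IsNondegenerateOn (QuadraticMap.polar ⇑Q) W ∧
        ¬ Cfsg.Geo.IsPlusTypeOn ⇑Q W) ↔
      (Module.finrank F W = 2 * e ∧ Agent.H97.NondegOn (QuadraticMap.polarBilin Q) W ∧
        (Agent.H97.PlusOn Q W ↔ False)) := fun W => by
    rw [Agent.H97.isNondegenerateOn_iff_nondegOn, Agent.H97.isPlusTypeOn_iff_plusOn, iff_false]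
  rw [Nat.card_congr (Equiv.subtypeEquivRight hC)] at hrΩ
  simp only [hC]
  by_cases hr2 : r = 2
  · subst hr2
    simp only [lt_irrefl, false_and, and_false, or_false, true_and]
    by_cases hp : p = 2
    · subst hp
      simp only [ne_eq, not_true_eq_false, false_and, iff_false]
      intro hall
      obtain ⟨x, hx, hxx, hns, halt, hN⟩ :=
        Agent.H97.exists_alt_element hQ hI (k := d / 2) (by omega) (by omega) fun _ => hplus
      obtain ⟨W, ⟨hWd, hWn, hWp⟩, hWx⟩ := hall x hx ⟨1, by rw [hxx, one_smul]; rfl⟩ hns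
      refine hWp ((Agent.H97.alt_inv_type hQ (Agent.H97.isometry_of_mem_omegaGL hx) ?_ halt hV hN
        (by omega) hWx hWn hWd).2.2 hplus)
      intro v
      rw [Matrix.toLin'_apply, Matrix.toLin'_apply, Matrix.mulVec_mulVec, ← Units.val_mul, ← pow_two, hxx,
        Units.val_one, Matrix.one_mulVec]
    · have h2 : (2 : F) ≠ 0 := Ring.two_ne_zero (ringChar.eq F p ▸ hp)
      have hqodd : q % 2 = 1 := hq ▸ Agent.H4.odd_card_of_two_ne_zero h2
      rw [Agent.H97.two_odd_criterion h2 hQ (by omega) hI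
        (fun W => Module.finrank F W = 2 * e ∧ Agent.H97.NondegOn (QuadraticMap.polarBilin Q) W ∧
          (Agent.H97.PlusOn Q W ↔ False)) ((IsSquare (-1 : F) ∨ Even e) ↔ False)
        (fun y hyQ hy => Agent.H97.exists_involution_type h2 hQ hyQ hy (by omega) (by omega) False)
        (fun y hyQ hy => Agent.H97.sq_fix_type h2 hQ hI (by omega) False y hyQ hy),
        Agent.H97.isSquare_neg_one_iff' hq, Agent.H97.isSquare_two_iff' hq]
      simp only [hplus, hp, iff_false, true_iff, ne_eq, not_false_eq_true, true_and, Nat.even_iff, Nat.odd_iff]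
      omega
  by_cases hrp : r = p
  · subst hrp
    refine iff_of_false (fun hall => ?_) (by simp [hr2])
    obtain ⟨x, hx, hxp, hns, hW⟩ := Agent.H97.exists_all_plus (p := r) hr2 hQ hI (by omega) hplus
    obtain ⟨W, ⟨hWd, hWn, hWp⟩, hWx⟩ := hall x hx ⟨1, by rw [hxp, one_smul]; rfl⟩ hns
    exact hWp.1 (hW W ⟨e, by omega⟩ hWn hWx)
  have hqc : Nat.card F = q := Agent.H97.natCard_eq hq
  rw [Agent.H97.forall_omega_elements_iff hr2 hrp hQ,
    Agent.H97.criterion_even_even hr2 hrp hQ hV (by omega) (by omega) False (i := i) (c := c)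
      (by rw [hqc]; exact hi) hc hrΩ]
  have hr2' : 2 < r := by have := hrp'.two_le; omega
  simp only [hr2, false_and, false_or, ne_eq, hrp, not_false_eq_true, hr2', true_and, hplus, true_iff, iff_false]
  rcases Nat.even_or_odd i with he | ho
  · simp only [he, if_true] at hc
    subst hc
    simp only [Agent.H97.SgnPlus, Nat.not_odd_iff_even.2 he, he, false_or, false_and, true_and, Nat.not_even_iff_odd]
    have hdiv : c ≤ 2 * e → (2 * e) % c = (2 * d) % c →
        (2 * d + 2 * e - 2 * ((2 * d) % c)) / c = 2 * d / c + 2 * e / c := fun _ heq => by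
      have h0 : 0 < c := by
        rcases Nat.eq_zero_or_pos c with h | h
        · subst h; simp at heq; omega
        · exact h
      have hn := Nat.div_add_mod (2 * d) c
      have hm := Nat.div_add_mod (2 * e) c
      rw [show 2 * d + 2 * e - 2 * ((2 * d) % c) = c * (2 * d / c + 2 * e / c) by rw [mul_add]; omega,
        Nat.mul_div_cancel_left _ h0]
    constructor
    · rintro (⟨h0, h⟩ | ⟨h1, h0, ⟨h2, h3⟩ | ⟨h2, h3⟩ | ⟨h2, h3⟩⟩)
      · exact Or.inl ⟨h0, h⟩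
      · exact Or.inr ⟨h1, Or.inl ⟨h2, h3⟩⟩
      · exact Or.inr ⟨h1, Or.inr (Or.inl ⟨h2 ▸ h0, h2, by rw [hdiv h1 h2]; exact h3⟩)⟩
      · exact Or.inr ⟨h1, Or.inr (Or.inr ⟨h2, h0, h3⟩)⟩
    · rintro (⟨h0, h⟩ | ⟨h1, ⟨h2, h3⟩ | ⟨h2, h3, h4⟩ | ⟨h2, h3, h4⟩⟩)
      · exact Or.inl ⟨h0, h⟩
      · exact Or.inr ⟨h1, by omega, Or.inl ⟨h2, h3⟩⟩
      · exact Or.inr ⟨h1, h3 ▸ h2, Or.inr (Or.inl ⟨h3, by rw [← hdiv h1 h3]; exact h4⟩)⟩
      · exact Or.inr ⟨h1, h3, Or.inr (Or.inr ⟨h2, h4⟩)⟩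
  · simp only [Agent.H97.SgnPlus, ho, Nat.not_even_iff_odd.2 ho, false_and, or_false, true_and, true_or,
      not_true_eq_false, and_false, false_or, and_true]
    omega

end Cfsg.Agent.S5988
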