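import Cfsg.Statements.S5989
import Cfsg.Agent.H97.OrthTwoElements
import Cfsg.Agent.H97.OrthCriteria
import Cfsg.Agent.H97.OrthNondeg
import Cfsg.Agent.H97.OrthUnipotentOdd

set_option autoImplicit false
open scoped MatrixGroups
open Cfsg

namespace Cfsg.Agent.S5989

/-- Elements of prime order of PΩ⁺_n(q), q odd, with no fixed nondegenerate `m`-space of odd dimension. Here `T = PΩ⁺_n(F)`, `n = 2d ≥ 8`, realised through `Ω⁺_n(q)`, the commutator subgroup of the isometry group of `Q = Σ xᵢyᵢ` over the field `F` with `q` elements; an element of `T` of prime order `r` is an element `x` of `Ω⁺_n(q)` with `x^r` scalar and `x` not scalar; `q` and `m` are odd, `1 ≤ m < n/2`. The nondegenerate `m`-spaces (subspaces on which the polar form is nondegenerate) fall into two isometry classes, each an orbit of `T`, and the two actions are equivalent; fix one such space `W₀` and let Ω be the set of nondegenerate `m`-spaces isometric to `W₀`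 (some linear isomorphism preserves `Q`). Let `r` be a prime dividing the size of Ω; for `r ≠ p` let `i` be the multiplicative order of `q` modulo `r`, `c = i` for `i` even and `c = 2i` for `i` odd, and write `k = n mod c`, `ℓ = m mod i`, `ℓ' = m mod c`, `n' = ⌊n/i⌋`, `m' = ⌊m/i⌋`, `t = (r−1)/i`. Then every element of `T` of order `r` fixes a member of Ω if and only if one of: (i) `r = 2`, `n ≡ 2 (mod 4)` and `q ≢ 1 (mod 8)`; (ii) `r ≠ p` odd, `i` odd, `c ≤ m` and `k > ℓ' > 0`; (iii) `r ≠ p` odd, `i` even, and either `k = 0` and `n/i` odd, or `i ≤ m` and `k > ℓ' > 0`. (For `r = p` there is always an element of order `p` fixing no member of Ω.) -/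
theorem result {F : Type*} [Field F] [Fintype F] {p : ℕ} [Fact p.Prime] [CharP F p] {q : ℕ} (hq : Fintype.card F = q)
    (hodd : Odd q) (d m : ℕ) (hd : 4 ≤ d) (hm : Odd m) (hmd : m < d)
    (W₀ : Submodule F (Fin d ⊕ Fin d → F)) (hW₀ : Module.finrank F ↥W₀ = m ∧ Cfsg.Geo.IsNondegenerateOn (QuadraticMap.polar (Cfsg.quadFormPlus d F)) W₀)
    (r : ℕ) [Fact r.Prime]
    (hrΩ : r ∣ Nat.card {W : Submodule F (Fin d ⊕ Fin d → F) // Module.finrank F ↥W = m ∧ Cfsg.Geo.IsNondegenerateOn (QuadraticMap.polar (Cfsg.quadFormPlus d F)) W ∧ Cfsg.Geo.AreIsometricFor (Cfsg.quadFormPlus d F) W W₀})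
    (i c : ℕ) (hi : i = orderOf (q : ZMod r)) (hc : c = if Even i then i else 2 * i) :
    (∀ x : GL (Fin d ⊕ Fin d) F, x ∈ Cfsg.Geo.omegaGL (Cfsg.quadFormPlus d F) →
      (∃ z : F, ((x ^ r : GL (Fin d ⊕ Fin d) F) : Matrix (Fin d ⊕ Fin d) (Fin d ⊕ Fin d) F) = z • (1 : Matrix (Fin d ⊕ Fin d) (Fin d ⊕ Fin d) F)) →
      (∀ z : F, (x : Matrix (Fin d ⊕ Fin d) (Fin d ⊕ Fin d) F) ≠ z • (1 : Matrix (Fin d ⊕ Fin d) (Fin d ⊕ Fin d) F)) →
      ∃ W : Submodule F (Fin d ⊕ Fin d → F), (Module.finrank F ↥W = m ∧ Cfsg.Geo.IsNondegenerateOn (QuadraticMap.polar (Cfsg.quadFormPlus d F)) W ∧ Cfsg.Geo.AreIsometricFor (Cfsg.quadFormPlus d F) W W₀) ∧ W.map (Matrix.toLin' (x : Matrix (Fin d ⊕ Fin d) (Fin d ⊕ Fin d) F)) ≤ W) ↔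
    ((r = 2 ∧ Odd d ∧ q % 8 ≠ 1) ∨
     (r ≠ p ∧ 2 < r ∧ Odd i ∧ c ≤ m ∧ 0 < m % c ∧ m % c < (2 * d) % c) ∨
     (r ≠ p ∧ 2 < r ∧ Even i ∧ (((2 * d) % c = 0 ∧ Odd ((2 * d) / i)) ∨ (i ≤ m ∧ 0 < m % c ∧ m % c < (2 * d) % c)))) := by
  classical
  obtain ⟨a, rfl⟩ := hm
  have hrp' : r.Prime := Fact.out
  set Q := Agent.H4.qPlus d F with hQdef
  have hcoe : ⇑Q = Cfsg.quadFormPlus d F := Agent.H4.coe_qPlus d
  rw [← hcoe] at hrΩ hW₀ ⊢
  have hQ : (QuadraticMap.polarBilin Q).Nondegenerate := Agent.H4.qPlus_nondegenerate d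
  have hplus : Agent.H67.HasSing Q d := Agent.H67.hasSing_qPlus d
  have hI : Fintype.card (Fin d ⊕ Fin d) = 2 * d := by simp; omega
  have hV : Module.finrank F (Fin d ⊕ Fin d → F) = 2 * d := by rw [Module.finrank_fintype_fun_eq_card, hI]
  have : Nonempty (Fin d ⊕ Fin d) := Fintype.card_pos_iff.1 (by omega)
  have hn₀ : Agent.H97.NondegOn (QuadraticMap.polarBilin Q) W₀ :=
    (Agent.H97.isNondegenerateOn_iff_nondegOn Q W₀).1 hW₀.2
  have hC : ∀ W : Submodule F (Fin d ⊕ Fin d → F),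
      (Module.finrank F W = 2 * a + 1 ∧ Cfsg.Geo.IsNondegenerateOn (QuadraticMap.polar ⇑Q) W ∧
        Cfsg.Geo.AreIsometricFor ⇑Q W W₀) ↔
      (Module.finrank F W = 2 * a + 1 ∧ Agent.H97.NondegOn (QuadraticMap.polarBilin Q) W ∧
        ∃ e : W ≃ₗ[F] W₀, ∀ w : W, Q ((e w : W₀) : Fin d ⊕ Fin d → F) = Q (w : Fin d ⊕ Fin d → F)) := fun W => by
    rw [Agent.H97.isNondegenerateOn_iff_nondegOn, Cfsg.Geo.AreIsometricFor]
  rw [Nat.card_congr (Equiv.subtypeEquivRight hC)] at hrΩ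
  simp only [hC]
  have hqodd : q % 2 = 1 := Nat.odd_iff.1 hodd
  have h2 : (2 : F) ≠ 0 := Agent.H4.two_ne_zero_of_odd_card (hq ▸ hodd)
  by_cases hr2 : r = 2
  · subst hr2
    simp only [lt_irrefl, false_and, and_false, or_false, true_and]
    rw [Agent.H97.two_odd_criterion h2 hQ (by omega) hI
      (fun W => Module.finrank F W = 2 * a + 1 ∧ Agent.H97.NondegOn (QuadraticMap.polarBilin Q) W ∧
        ∃ e : W ≃ₗ[F] W₀, ∀ w : W, Q ((e w : W₀) : Fin d ⊕ Fin d → F) = Q (w : Fin d ⊕ Fin d → F)) False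
      (fun y hyQ hy => by
        obtain ⟨W, h1, h3, h4, h5⟩ := Agent.H97.exists_involution_inv h2 hQ (by omega) hyQ hy hn₀ (by omega) (by omega)
        exact ⟨W, ⟨h1.trans hW₀.1, h3, h5⟩, h4⟩)
      (fun y hyQ hy => Agent.H97.sq_fix_odd h2 ⟨a, rfl⟩ _ y hyQ hy),
      Agent.H97.isSquare_neg_one_iff' hq, Agent.H97.isSquare_two_iff' hq]
    simp only [hplus, true_iff, iff_false, iff_true, Nat.even_iff, Nat.odd_iff, imp_false, imp_iff_not_or]
    omega
  by_cases hrp : r = p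
  · subst hrp
    refine iff_of_false (fun hall => ?_) (by simp [hr2])
    obtain ⟨x, hx, hxp, hns, hW⟩ := Agent.H97.exists_elusive_odd (p := r) hr2 hQ hI (by omega) ⟨a, rfl⟩ hn₀ hW₀.1
    obtain ⟨W, ⟨hWd, hWn, he⟩, hWx⟩ := hall x hx ⟨1, by rw [hxp, one_smul]; rfl⟩ hns
    exact hW W hWd hWn hWx he
  have hqc : Nat.card F = q := Agent.H97.natCard_eq hq
  rw [Agent.H97.forall_omega_elements_iff hr2 hrp hQ,
    Agent.H97.criterion_even_odd hr2 hrp h2 hQ hV (by omega) hW₀.1 hn₀ (i := i) (c := c)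
      (by rw [hqc]; exact hi) hc hrΩ]
  have hr2' : 2 < r := by have := hrp'.two_le; omega
  simp only [hr2, false_and, false_or, ne_eq, hrp, not_false_eq_true, hr2', true_and, hplus, true_iff, iff_false, iff_true]
  have hcE : Even c := hc ▸ Agent.H97.even_c i
  have hpos : 0 < (2 * a + 1) % c := Agent.H97.mod_pos_of_odd ⟨a, rfl⟩ hcE
  rcases Nat.even_or_odd i with he | ho
  · simp only [he, if_true] at hc
    subst hc
    simp only [Agent.H97.SgnPlus, Nat.not_odd_iff_even.2 he, he, false_or, false_and, true_and, Nat.not_even_iff_odd]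
    refine or_congr Iff.rfl ⟨fun h => ?_, fun h => ?_⟩
    · simp only [h, hpos, and_self]
    · exact ⟨by omega, by omega, by omega⟩
  · simp only [Agent.H97.SgnPlus, ho, Nat.not_even_iff_odd.2 ho, false_and, or_false, true_and, true_or,
      not_true_eq_false, and_false, false_or, not_false_eq_true, and_true]
    omega

end Cfsg.Agent.S5989
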