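import Cfsg.Statements.S5990
import Cfsg.Agent.H97.OrthTwoElements
import Cfsg.Agent.H97.OrthTwoEven

set_option autoImplicit false
open scoped MatrixGroups
open Cfsg

namespace Cfsg.Agent.S5990

/-- Elements of prime order of PΩ⁻_n(q) with no fixed elliptic `m`-space. Here `T = PΩ⁻_n(F)`, `n = 2d ≥ 8`, realised through `Ω⁻_n(q)`, the commutator subgroup of the isometry group of `Q = Σ_{i<d−1} xᵢyᵢ + z₁² + a z₁z₂ + b z₂²` with `z₁² + a z₁z₂ + b z₂²` anisotropic, over the field `F` with `q` elements; an element of `T` of prime order `r` is an element `x` of `Ω⁻_n(q)` with `x^r` scalar and `x` not scalar; a nondegenerate `m`-space (even `m`) is a subspace on which the polar form of `Q` is nondegenerate; it is hyperbolic if it contains an `m/2`-dimensional subspace on which `Q` vanishes, elliptic otherwise. Let `m` be even with `2 ≤ m ≤ n − 2` (no restriction `m < n/2`: fixing an elliptic `m`-space is the same as fixing its hyperbolic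 orthogonal complement) and let `r` be a prime dividing the number of elliptic `m`-spaces, with `r = 2` or `r ≠ p`; for `r ≠ p` let `i` be the multiplicative order of `q` modulo `r`, `c = i` for `i` even and `c = 2i` for `i` odd, and write `k = n mod c`, `ℓ = m mod i`, `ℓ' = m mod c`, `n' = ⌊n/i⌋`, `m' = ⌊m/i⌋`, `t = (r−1)/i`. Then every element of `T` of order `r` fixes some elliptic `m`-space if and only if one of: (i) `r = p = 2` and (`n ≡ 0 (mod 4)` or `m ≡ 2 (mod 4)`); (ii) `r = 2 ≠ p` and (`n ≡ 0 (mod 4)`, or `q ≢ 7 (mod 8)`, or `m ≡ 2 (mod 4)`); (iii) `r ≠ p` odd, `i` odd, and `k = 0` or (`c ≤ m` and `k ≥ ℓ' > 0`); (iv) `r ≠ p` odd, `i` even, and either `k = 0` and (`n/i` even, or `ℓ' = 0` and `m/i` odd), or `k > 0`, `i ≤ m` and (`k > ℓ' > 0`, or `ℓ' = 0` and `m/i` odd, or `k = ℓ'` and `(n + m − 2k)/i` even). (Odd `r = p` is not covered by this statement.) -/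
theorem result {F : Type*} [Field F] [Fintype F] {p : ℕ} [Fact p.Prime] [CharP F p] {q : ℕ} (hq : Fintype.card F = q)
    (d m : ℕ) (hd : 4 ≤ d) (hm : 2 ≤ m) (hme : Even m) (hmn : m + 2 ≤ 2 * d) (a b : F) (hab : ∀ x y : F, x ^ 2 + a * x * y + b * y ^ 2 = 0 → x = 0 ∧ y = 0)
    (r : ℕ) [Fact r.Prime] (hr : r = 2 ∨ r ≠ p)
    (hrΩ : r ∣ Nat.card {W : Submodule F ((Fin (d - 1) ⊕ Fin (d - 1)) ⊕ Fin 2 → F) // Module.finrank F ↥W = m ∧ Cfsg.Geo.IsNondegenerateOn (QuadraticMap.polar (Cfsg.quadFormMinus (d - 1) F a b)) W ∧ ¬ Cfsg.Geo.IsPlusTypeOn (Cfsg.quadFormMinus (d - 1) F a b) W})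
    (i c : ℕ) (hi : i = orderOf (q : ZMod r)) (hc : c = if Even i then i else 2 * i) :
    (∀ x : GL ((Fin (d - 1) ⊕ Fin (d - 1)) ⊕ Fin 2) F, x ∈ Cfsg.Geo.omegaGL (Cfsg.quadFormMinus (d - 1) F a b) →
      (∃ z : F, ((x ^ r : GL ((Fin (d - 1) ⊕ Fin (d - 1)) ⊕ Fin 2) F) : Matrix ((Fin (d - 1) ⊕ Fin (d - 1)) ⊕ Fin 2) ((Fin (d - 1) ⊕ Fin (d - 1)) ⊕ Fin 2) F) = z • (1 : Matrix ((Fin (d - 1) ⊕ Fin (d - 1)) ⊕ Fin 2) ((Fin (d - 1) ⊕ Fin (d - 1)) ⊕ Fin 2) F)) →
      (∀ z : F, (x : Matrix ((Fin (d - 1) ⊕ Fin (d - 1)) ⊕ Fin 2) ((Fin (d - 1) ⊕ Fin (d - 1)) ⊕ Fin 2) F) ≠ z • (1 : Matrix ((Fin (d - 1) ⊕ Fin (d - 1)) ⊕ Fin 2) ((Fin (d - 1) ⊕ Fin (d - 1)) ⊕ Fin 2) F)) →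
      ∃ W : Submodule F ((Fin (d - 1) ⊕ Fin (d - 1)) ⊕ Fin 2 → F), (Module.finrank F ↥W = m ∧ Cfsg.Geo.IsNondegenerateOn (QuadraticMap.polar (Cfsg.quadFormMinus (d - 1) F a b)) W ∧ ¬ Cfsg.Geo.IsPlusTypeOn (Cfsg.quadFormMinus (d - 1) F a b) W) ∧ W.map (Matrix.toLin' (x : Matrix ((Fin (d - 1) ⊕ Fin (d - 1)) ⊕ Fin 2) ((Fin (d - 1) ⊕ Fin (d - 1)) ⊕ Fin 2) F)) ≤ W) ↔
    ((r = 2 ∧ p = 2 ∧ (Even d ∨ m % 4 = 2)) ∨
     (r = 2 ∧ p ≠ 2 ∧ (Even d ∨ q % 8 ≠ 7 ∨ m % 4 = 2)) ∨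
     (r ≠ p ∧ 2 < r ∧ Odd i ∧ ((2 * d) % c = 0 ∨ (c ≤ m ∧ 0 < m % c ∧ m % c ≤ (2 * d) % c))) ∨
     (r ≠ p ∧ 2 < r ∧ Even i ∧
       (((2 * d) % c = 0 ∧ (Even ((2 * d) / i) ∨ (m % c = 0 ∧ Odd (m / i)))) ∨
        (0 < (2 * d) % c ∧ i ≤ m ∧ ((0 < m % c ∧ m % c < (2 * d) % c) ∨ (m % c = 0 ∧ Odd (m / i)) ∨
                                    (m % c = (2 * d) % c ∧ Even ((2 * d + m - 2 * ((2 * d) % c)) / i))))))) := by
  classical
  obtain ⟨e, rfl⟩ := hme
  rw [← two_mul] at hrΩ hm hmn ⊢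
  have hrp' : r.Prime := Fact.out
  set Q := Agent.H4.qMinus (d - 1) F a b with hQdef
  have hcoe : ⇑Q = Cfsg.quadFormMinus (d - 1) F a b := Agent.H4.coe_qMinus _ _ _
  rw [← hcoe] at hrΩ ⊢
  have hQ : (QuadraticMap.polarBilin Q).Nondegenerate :=
    Agent.H4.qMinus_nondegenerate (Agent.H4.disc_ne_zero_of_anisotropic hab
      fun c h2 => Agent.H4.exists_sq_eq h2 c) _
  have hI : Fintype.card ((Fin (d - 1) ⊕ Fin (d - 1)) ⊕ Fin 2) = 2 * d := by simp; omega
  have hV : Module.finrank F ((Fin (d - 1) ⊕ Fin (d - 1)) ⊕ Fin 2 → F) = 2 * d := by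
    rw [Module.finrank_fintype_fun_eq_card, hI]
  have hminus : ¬ Agent.H67.HasSing Q d := by
    have := Agent.H67.not_hasSing_qMinus (d - 1) hab
    rwa [show d - 1 + 1 = d by omega] at this
  have : Nonempty ((Fin (d - 1) ⊕ Fin (d - 1)) ⊕ Fin 2) := ⟨Sum.inr 0⟩
  have hC : ∀ W : Submodule F ((Fin (d - 1) ⊕ Fin (d - 1)) ⊕ Fin 2 → F),
      (Module.finrank F W = 2 * e ∧ Cfsg.Geo.IsNondegenerateOn (QuadraticMap.polar ⇑Q) W ∧
        ¬ Cfsg.Geo.IsPlusTypeOn ⇑Q W) ↔
      (Module.finrank F W = 2 * e ∧ Agent.H97.NondegOn (QuadraticMap.polarBilin Q) W ∧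
        (Agent.H97.PlusOn Q W ↔ False)) := fun W => by
    rw [Agent.H97.isNondegenerateOn_iff_nondegOn, Agent.H97.isPlusTypeOn_iff_plusOn, iff_false]
  rw [Nat.card_congr (Equiv.subtypeEquivRight hC)] at hrΩ
  simp only [hC]
  by_cases hr2 : r = 2
  · subst hr2
    simp only [lt_irrefl, false_and, and_false, or_false, true_and]
    by_cases hp : p = 2
    · subst hp
      simp only [ne_eq, not_true_eq_false, false_and, or_false, true_and]
      constructor
      · intro hall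
        by_contra hcon
        simp only [not_or, Nat.not_even_iff_odd] at hcon
        obtain ⟨⟨k, rfl⟩, he2⟩ := hcon
        obtain ⟨x, hx, hxx, hns, halt, hN⟩ :=
          Agent.H97.exists_alt_element hQ hI (k := k) (by omega) (by omega) fun h => by omega
        obtain ⟨W, ⟨hWd, hWn, hWp⟩, hWx⟩ := hall x hx ⟨1, by rw [hxx, one_smul]; rfl⟩ hns
        refine hWp.1 ((Agent.H97.alt_inv_type hQ (Agent.H97.isometry_of_mem_omegaGL hx) ?_ halt hV hN
          (by omega) hWx hWn hWd).2.1 ?_)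
        · intro v
          rw [Matrix.toLin'_apply, Matrix.toLin'_apply, Matrix.mulVec_mulVec, ← Units.val_mul, ← pow_two, hxx,
            Units.val_one, Matrix.one_mulVec]
        · exact Nat.even_iff.2 (by omega)
      · intro hcond x hx hz hns
        obtain ⟨z, hz⟩ := hz
        refine Agent.H97.exists_inv_two hQ (Agent.H97.isometry_of_mem_omegaGL hx) ?_ hV (by omega) (by omega) False
          (iff_of_false not_false hminus) (Or.inr ⟨not_false, hcond.imp id fun h => Nat.odd_iff.2 (by omega)⟩)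
        rcases Agent.H97.sq_cases hQ hx hz with h | h
        · exact h
        · exact fun v => (h v).trans (by rw [← neg_one_smul F v, CharTwo.neg_eq (1 : F), one_smul])
    · have h2 : (2 : F) ≠ 0 := Ring.two_ne_zero (ringChar.eq F p ▸ hp)
      have hqodd : q % 2 = 1 := hq ▸ Agent.H4.odd_card_of_two_ne_zero h2
      rw [Agent.H97.two_odd_criterion h2 hQ (by omega) hI
        (fun W => Module.finrank F W = 2 * e ∧ Agent.H97.NondegOn (QuadraticMap.polarBilin Q) W ∧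
          (Agent.H97.PlusOn Q W ↔ False)) ((IsSquare (-1 : F) ∨ Even e) ↔ False)
        (fun y hyQ hy => Agent.H97.exists_involution_type h2 hQ hyQ hy (by omega) (by omega) False)
        (fun y hyQ hy => Agent.H97.sq_fix_type h2 hQ hI (by omega) False y hyQ hy),
        Agent.H97.isSquare_neg_one_iff' hq, Agent.H97.isSquare_two_iff' hq]
      simp only [hminus, hp, iff_false, false_iff, false_and, false_or, ne_eq, not_false_eq_true, true_and,
        Nat.even_iff]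
      omega
  have hrp : r ≠ p := hr.resolve_left hr2
  have hqc : Nat.card F = q := Agent.H97.natCard_eq hq
  rw [Agent.H97.forall_omega_elements_iff hr2 hrp hQ,
    Agent.H97.criterion_even_even hr2 hrp hQ hV (by omega) (by omega) False (i := i) (c := c)
      (by rw [hqc]; exact hi) hc hrΩ]
  have hr2' : 2 < r := by have := hrp'.two_le; omega
  simp only [hr2, false_and, false_or, ne_eq, hrp, not_false_eq_true, hr2', true_and, hminus, false_iff, iff_false,
    not_not]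
  rcases Nat.even_or_odd i with he | ho
  · simp only [he, if_true] at hc
    subst hc
    simp only [Agent.H97.SgnPlus, Nat.not_odd_iff_even.2 he, he, false_or, false_and, true_and, Nat.not_even_iff_odd]
    have hdiv : c ≤ 2 * e → (2 * e) % c = (2 * d) % c →
        (2 * d + 2 * e - 2 * ((2 * d) % c)) / c = 2 * d / c + 2 * e / c := fun _ heq => by
      have h0 : 0 < c := by
        rcases Nat.eq_zero_or_pos c with h | h
        · subst h; simp at heq; omega
        · exact h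
      have hn := Nat.div_add_mod (2 * d) c
      have hm := Nat.div_add_mod (2 * e) c
      rw [show 2 * d + 2 * e - 2 * ((2 * d) % c) = c * (2 * d / c + 2 * e / c) by rw [mul_add]; omega,
        Nat.mul_div_cancel_left _ h0]
    constructor
    · rintro (h | ⟨h1, h0, h2 | ⟨h2, h3⟩ | h2⟩)
      · exact Or.inl h
      · exact Or.inr ⟨h0, h1, Or.inl h2⟩
      · exact Or.inr ⟨h0, h1, Or.inr (Or.inr ⟨h2, by rw [hdiv h1 h2]; simpa [Nat.not_odd_iff_even] using h3⟩)⟩
      · exact Or.inr ⟨h0, h1, Or.inr (Or.inl h2)⟩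
    · rintro (h | ⟨h0, h1, h2 | h2 | ⟨h2, h3⟩⟩)
      · exact Or.inl h
      · exact Or.inr ⟨h1, h0, Or.inl h2⟩
      · exact Or.inr ⟨h1, h0, Or.inr (Or.inr h2)⟩
      · exact Or.inr ⟨h1, h0, Or.inr (Or.inl ⟨h2, by rw [← hdiv h1 h2]; simpa [Nat.not_odd_iff_even] using h3⟩)⟩
  · simp only [Agent.H97.SgnPlus, ho, Nat.not_even_iff_odd.2 ho, false_and, or_false, true_and, true_or,
      not_true_eq_false, and_false, and_true]
    omega

end Cfsg.Agent.S5990
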