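import Cfsg.Statements.S5992
import Cfsg.Agent.H97.OrthNondeg

set_option autoImplicit false
open scoped MatrixGroups
open Cfsg

namespace Cfsg.Agent.S5992

/-- Elements of prime order r ≠ p of Ω_n(q), nq odd, with no fixed hyperbolic `m`-space. Here `T = Ω_n(F)`, `n = 2d+1 ≥ 7`, `q` odd, realised as the commutator subgroup of the isometry group of `Q = x₀² + Σ xᵢyᵢ` over the field `F` with `q` elements (trivial centre, so its elements of prime order `r` are used directly); a nondegenerate `m`-space (even `m`) is a subspace on which the polar form of `Q` is nondegenerate; it is hyperbolic if it contains an `m/2`-dimensional subspace on which `Q` vanishes, elliptic otherwise. Let `m` be even with `2 ≤ m ≤ n − 1` (no restriction `m < n/2`) and let `r ≠ p` be a prime dividing the number of hyperbolic `m`-spaces; for `r ≠ p` let `i` be the multiplicative order of `q` modulo `r`, `c = i` for `i` even and `c = 2i` for `i` odd, and write `k = n mod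 c`, `ℓ' = m mod c`. Then every element of `T` of order `r` fixes some hyperbolic `m`-space if and only if `r = 2`, or `r` is odd and one of: (i) `i` odd, `c ≤ m` and either `k > ℓ' > 0` or `ℓ' = 0`; (ii) `i` even, `i ≤ m`, `k > ℓ'`, and `m/i` even whenever `ℓ' = 0`. (`r = p` is not covered by this statement.) -/
theorem result {F : Type*} [Field F] [Fintype F] {p : ℕ} [Fact p.Prime] [CharP F p] {q : ℕ} (hq : Fintype.card F = q) (hqodd : Odd q)
    (d m : ℕ) (hd : 3 ≤ d) (hm : 2 ≤ m) (hme : Even m) (hmn : m ≤ 2 * d)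
    (r : ℕ) [Fact r.Prime] (hrp : r ≠ p)
    (hrΩ : r ∣ Nat.card {W : Submodule F (Unit ⊕ (Fin d ⊕ Fin d) → F) // Module.finrank F ↥W = m ∧ Cfsg.Geo.IsNondegenerateOn (QuadraticMap.polar (Cfsg.quadFormOdd d F)) W ∧ Cfsg.Geo.IsPlusTypeOn (Cfsg.quadFormOdd d F) W})
    (i c : ℕ) (hi : i = orderOf (q : ZMod r)) (hc : c = if Even i then i else 2 * i) :
    (∀ x : GL (Unit ⊕ (Fin d ⊕ Fin d)) F, x ∈ Cfsg.Geo.omegaGL (Cfsg.quadFormOdd d F) → orderOf x = r →
      ∃ W : Submodule F (Unit ⊕ (Fin d ⊕ Fin d) → F), (Module.finrank F ↥W = m ∧ Cfsg.Geo.IsNondegenerateOn (QuadraticMap.polar (Cfsg.quadFormOdd d F)) W ∧ Cfsg.Geo.IsPlusTypeOn (Cfsg.quadFormOdd d F) W) ∧ W.map (Matrix.toLin' (x : Matrix (Unit ⊕ (Fin d ⊕ Fin d)) (Unit ⊕ (Fin d ⊕ Fin d)) F)) ≤ W) ↔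
    (r = 2 ∨
     (2 < r ∧ Odd i ∧ c ≤ m ∧ (m % c = 0 ∨ (0 < m % c ∧ m % c < (2 * d + 1) % c))) ∨
     (2 < r ∧ Even i ∧ i ≤ m ∧ m % c < (2 * d + 1) % c ∧ (0 < m % c ∨ Even (m / i)))) := by
  classical
  have hF2 : (2 : F) ≠ 0 := Agent.H4.two_ne_zero_of_odd_card (hq ▸ hqodd)
  obtain ⟨a, rfl⟩ := hme
  rw [← two_mul] at hrΩ hm hmn ⊢
  set Q := Agent.H4.qOdd d F with hQdef
  have hcoe : ⇑Q = Cfsg.quadFormOdd d F := Agent.H4.coe_qOdd d
  rw [← hcoe] at hrΩ ⊢
  have hQ : (QuadraticMap.polarBilin Q).Nondegenerate := Agent.H4.qOdd_nondegenerate hF2 d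
  have hI : Fintype.card (Unit ⊕ (Fin d ⊕ Fin d)) = 2 * d + 1 := by simp; omega
  have hC : ∀ W : Submodule F (Unit ⊕ (Fin d ⊕ Fin d) → F),
      (Module.finrank F W = 2 * a ∧ Cfsg.Geo.IsNondegenerateOn (QuadraticMap.polar ⇑Q) W ∧
        Cfsg.Geo.IsPlusTypeOn ⇑Q W) ↔
      (Module.finrank F W = 2 * a ∧ Agent.H97.NondegOn (QuadraticMap.polarBilin Q) W ∧
        (Agent.H97.PlusOn Q W ↔ True)) := fun W => by
    rw [Agent.H97.isNondegenerateOn_iff_nondegOn, Agent.H97.isPlusTypeOn_iff_plusOn, iff_true]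
  rw [Nat.card_congr (Equiv.subtypeEquivRight hC)] at hrΩ
  simp only [hC]
  have hrp' : r.Prime := Fact.out
  by_cases hr2 : r = 2
  · subst hr2
    refine iff_of_true (fun x hx ho => ?_) (Or.inl rfl)
    have hxx : ∀ v : Unit ⊕ (Fin d ⊕ Fin d) → F,
        Matrix.toLin' (x : Matrix (Unit ⊕ (Fin d ⊕ Fin d)) (Unit ⊕ (Fin d ⊕ Fin d)) F)
          (Matrix.toLin' (x : Matrix (Unit ⊕ (Fin d ⊕ Fin d)) (Unit ⊕ (Fin d ⊕ Fin d)) F) v) = v := fun v => by
      rw [Matrix.toLin'_apply, Matrix.toLin'_apply, Matrix.mulVec_mulVec, ← Units.val_mul, ← pow_two, ← ho,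
        pow_orderOf_eq_one, Units.val_one, Matrix.one_mulVec]
    exact Agent.H97.exists_involution_type hF2 hQ (Agent.H97.isometry_of_mem_omegaGL hx) hxx (by omega)
      (by rw [hI]; omega) True
  have hqc := Agent.H97.natCard_eq hq
  rw [Agent.H97.forall_omega_orderOf_iff hr2 hrp hQ,
    Agent.H97.criterion_odd_even hr2 hrp hQ (d := d) (a := a)
      (by rw [Module.finrank_fintype_fun_eq_card, hI]) (by omega) (by omega) True
      (i := i) (c := c) (by rw [hqc]; exact hi) hc hrΩ]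
  have hr2' : 2 < r := by have := hrp'.two_le; omega
  have hk := Agent.H97.mod_pos_of_odd (n := 2 * d + 1) ⟨d, rfl⟩ (hc ▸ Agent.H97.even_c i)
  simp only [hr2, false_or, hr2', true_and, iff_true]
  rcases Nat.even_or_odd i with he | ho
  · simp only [he, if_true] at hc
    subst hc
    have h1 : ¬ Odd c := Nat.not_odd_iff_even.2 he
    simp only [Agent.H97.SgnPlus, he, h1, false_and, false_or, true_and]
  · have h1 : ¬ Even i := Nat.not_even_iff_odd.2 ho
    simp only [Agent.H97.SgnPlus, ho, h1, false_and, or_false, true_and, true_or, or_true, and_true]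
    constructor
    · rintro ⟨h2, h3⟩; exact ⟨h2, by omega⟩
    · rintro ⟨h2, h3⟩; exact ⟨h2, by omega⟩

end Cfsg.Agent.S5992
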