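import Cfsg.Statements.S5994
import Cfsg.Agent.H97.OrthUnipotent
import Cfsg.Agent.H4.SquareClass

set_option autoImplicit false
open scoped MatrixGroups
open Cfsg

namespace Cfsg.Agent.S5994

/-- A necessary condition for every element of order p of PΩ⁻_n(q), q odd, to fix an elliptic `m`-space. Here `T = PΩ⁻_n(F)`, `n = 2d ≥ 8`, realised through `Ω⁻_n(q)`, the commutator subgroup of the isometry group of `Q = Σ_{i<d−1} xᵢyᵢ + z₁² + a z₁z₂ + b z₂²` with `z₁² + a z₁z₂ + b z₂²` anisotropic, over the field `F` with `q` elements; an element of `T` of prime order `r` is an element `x` of `Ω⁻_n(q)` with `x^r` scalar and `x` not scalar; `q` is odd; a nondegenerate `m`-space (even `m`) is a subspace on which the polar form of `Q` is nondegenerate; it is hyperbolic if it contains an `m/2`-dimensional subspace on which `Q` vanishes, elliptic otherwise. Let `m` be even with `2 ≤ m ≤ n − 2` and suppose `p` divides the number of elliptic `m`-spaces. If every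 element of `T` of order `p` fixes some elliptic `m`-space, then `n ≡ m (mod 4)` and every partition of `n` into parts of size at most `p` in which every even part has even multiplicity contains (as a sub-multiset) a partition of `m` in which every even part has even multiplicity. -/
theorem result {F : Type*} [Field F] [Fintype F] {p : ℕ} [Fact p.Prime] [CharP F p] {q : ℕ} (hq : Fintype.card F = q) (hqodd : Odd q)
    (d m : ℕ) (hd : 4 ≤ d) (hm : 2 ≤ m) (hme : Even m) (hmn : m + 2 ≤ 2 * d) (a b : F) (hab : ∀ x y : F, x ^ 2 + a * x * y + b * y ^ 2 = 0 → x = 0 ∧ y = 0)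
    (hpΩ : p ∣ Nat.card {W : Submodule F ((Fin (d - 1) ⊕ Fin (d - 1)) ⊕ Fin 2 → F) // Module.finrank F ↥W = m ∧ Cfsg.Geo.IsNondegenerateOn (QuadraticMap.polar (Cfsg.quadFormMinus (d - 1) F a b)) W ∧ ¬ Cfsg.Geo.IsPlusTypeOn (Cfsg.quadFormMinus (d - 1) F a b) W}) :
    (∀ x : GL ((Fin (d - 1) ⊕ Fin (d - 1)) ⊕ Fin 2) F, x ∈ Cfsg.Geo.omegaGL (Cfsg.quadFormMinus (d - 1) F a b) →
      (∃ z : F, ((x ^ p : GL ((Fin (d - 1) ⊕ Fin (d - 1)) ⊕ Fin 2) F) : Matrix ((Fin (d - 1) ⊕ Fin (d - 1)) ⊕ Fin 2) ((Fin (d - 1) ⊕ Fin (d - 1)) ⊕ Fin 2) F) = z • (1 : Matrix ((Fin (d - 1) ⊕ Fin (d - 1)) ⊕ Fin 2) ((Fin (d - 1) ⊕ Fin (d - 1)) ⊕ Fin 2) F)) →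
      (∀ z : F, (x : Matrix ((Fin (d - 1) ⊕ Fin (d - 1)) ⊕ Fin 2) ((Fin (d - 1) ⊕ Fin (d - 1)) ⊕ Fin 2) F) ≠ z • (1 : Matrix ((Fin (d - 1) ⊕ Fin (d - 1)) ⊕ Fin 2) ((Fin (d - 1) ⊕ Fin (d - 1)) ⊕ Fin 2) F)) →
      ∃ W : Submodule F ((Fin (d - 1) ⊕ Fin (d - 1)) ⊕ Fin 2 → F), (Module.finrank F ↥W = m ∧ Cfsg.Geo.IsNondegenerateOn (QuadraticMap.polar (Cfsg.quadFormMinus (d - 1) F a b)) W ∧ ¬ Cfsg.Geo.IsPlusTypeOn (Cfsg.quadFormMinus (d - 1) F a b) W) ∧ W.map (Matrix.toLin' (x : Matrix ((Fin (d - 1) ⊕ Fin (d - 1)) ⊕ Fin 2) ((Fin (d - 1) ⊕ Fin (d - 1)) ⊕ Fin 2) F)) ≤ W) →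
    ((2 * d) % 4 = m % 4 ∧ (∀ μ : Multiset ℕ, (∀ e ∈ μ, 0 < e ∧ e ≤ p) → (∀ e : ℕ, Even e → Even (μ.count e)) → μ.sum = 2 * d →
        ∃ ν : Multiset ℕ, ν ≤ μ ∧ ν.sum = m ∧ ∀ e : ℕ, Even e → Even (ν.count e))) := by
  classical
  intro hall
  have hp : p ≠ 2 := fun h => by
    subst h
    have := FiniteField.even_card_of_char_two (ringChar.eq F 2)
    rw [hq] at this
    exact Nat.not_even_iff_odd.2 hqodd (Nat.even_iff.2 this)
  have h2 : (2 : F) ≠ 0 := Agent.H4.two_ne_zero_of_odd_card (hq ▸ hqodd)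
  have hQ : (QuadraticMap.polarBilin (Agent.H4.qMinus (d - 1) F a b)).Nondegenerate :=
    Agent.H4.qMinus_nondegenerate (Agent.H4.disc_ne_zero hab) (d - 1)
  have hI : Fintype.card ((Fin (d - 1) ⊕ Fin (d - 1)) ⊕ Fin 2) = 2 * d := by simp; omega
  have hcl : ∀ x : GL ((Fin (d - 1) ⊕ Fin (d - 1)) ⊕ Fin 2) F,
      x ∈ Cfsg.Geo.omegaGL ⇑(Agent.H4.qMinus (d - 1) F a b) → x ^ p = 1 →
      (∀ c : F, (x : Matrix ((Fin (d - 1) ⊕ Fin (d - 1)) ⊕ Fin 2) ((Fin (d - 1) ⊕ Fin (d - 1)) ⊕ Fin 2) F) ≠ c • (1 : Matrix _ _ F)) →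
      ∃ W : Submodule F ((Fin (d - 1) ⊕ Fin (d - 1)) ⊕ Fin 2 → F), Module.finrank F W = m ∧
        Cfsg.Geo.IsNondegenerateOn (QuadraticMap.polar ⇑(Agent.H4.qMinus (d - 1) F a b)) W ∧
        ¬ Cfsg.Geo.IsPlusTypeOn ⇑(Agent.H4.qMinus (d - 1) F a b) W ∧
        W.map (Matrix.toLin' (x : Matrix ((Fin (d - 1) ⊕ Fin (d - 1)) ⊕ Fin 2) ((Fin (d - 1) ⊕ Fin (d - 1)) ⊕ Fin 2) F)) ≤ W := by
    intro x hx hxp hns
    rw [Agent.H4.coe_qMinus] at hx ⊢
    obtain ⟨W, ⟨h1, h2, h3⟩, h4⟩ := hall x hx ⟨1, by rw [hxp, Units.val_one, one_smul]⟩ hns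
    exact ⟨W, h1, h2, h3, h4⟩
  have key := Agent.H97.partition_cond hp _ hQ (by omega) hme (by omega) (fun x hx hxp _ hns => by
    obtain ⟨W, h1, h2, -, h4⟩ := hcl x hx hxp hns
    exact ⟨W, h1, h2, h4⟩)
  rw [hI] at key
  refine ⟨?_, key⟩
  by_contra hmod
  have hp3 : 3 ≤ p := by have := (Fact.out : p.Prime).two_le; omega
  rcases Nat.even_or_odd' d with ⟨k, rfl | rfl⟩
  · -- no sub-type of sum congruent to two modulo four
    obtain ⟨k', rfl⟩ : ∃ k', k = k' + 1 := ⟨k - 1, by omega⟩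
    obtain ⟨ν, hν, hνs, hνe⟩ := key (3 ::ₘ 1 ::ₘ Multiset.replicate (2 * k') 2) (fun e he => by
      rcases Multiset.mem_cons.1 he with rfl | he
      · omega
      rcases Multiset.mem_cons.1 he with rfl | he
      · omega
      rw [Multiset.eq_of_mem_replicate he]; omega) (fun e he => by
      rw [Multiset.count_cons_of_ne (by rintro rfl; exact absurd he (by decide)),
        Multiset.count_cons_of_ne (by rintro rfl; exact Nat.not_even_one he), Multiset.count_replicate]
      split_ifs <;> simp) (by simp; ring)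
    have hrest : ∀ ρ : Multiset ℕ, ρ ≤ Multiset.replicate (2 * k') 2 → ρ = Multiset.replicate ρ.card 2 :=
      fun ρ hρ => Multiset.eq_replicate_card.2 fun a ha => Multiset.eq_of_mem_replicate (Multiset.mem_of_le hρ ha)
    obtain ⟨r, hr⟩ := hme
    by_cases h3 : 3 ∈ ν
    · obtain ⟨ν', rfl⟩ := Multiset.exists_cons_of_mem h3
      have hν' := (Multiset.cons_le_cons_iff _).1 hν
      by_cases h1 : 1 ∈ ν'
      · obtain ⟨ν'', rfl⟩ := Multiset.exists_cons_of_mem h1
        have he := hνe 2 even_two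
        rw [Multiset.count_cons_of_ne (by decide), Multiset.count_cons_of_ne (by decide),
          hrest ν'' ((Multiset.cons_le_cons_iff _).1 hν'), Multiset.count_replicate_self] at he
        rw [hrest ν'' ((Multiset.cons_le_cons_iff _).1 hν')] at hνs
        simp at hνs
        obtain ⟨c, hc⟩ := he
        omega
      · rw [hrest ν' ((Multiset.le_cons_of_notMem h1).1 hν')] at hνs
        simp at hνs
        omega
    · have hν' := (Multiset.le_cons_of_notMem h3).1 hν
      by_cases h1 : 1 ∈ ν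
      · obtain ⟨ν', rfl⟩ := Multiset.exists_cons_of_mem h1
        rw [hrest ν' ((Multiset.cons_le_cons_iff _).1 hν')] at hνs
        simp at hνs
        omega
      · have he := hνe 2 even_two
        have hn := hrest ν ((Multiset.le_cons_of_notMem h1).1 hν')
        rw [hn, Multiset.count_replicate_self] at he
        rw [hn] at hνs
        simp at hνs
        obtain ⟨c, hc⟩ := he
        omega
  · -- the type is forced to be hyperbolic
    obtain ⟨x, hx, hxp, -, hns, hW⟩ := Agent.H97.exists_unipotent_witness hp _ hQ (by omega)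
      (1 ::ₘ 1 ::ₘ Multiset.replicate (2 * k) 2) (fun e he => by
        rcases Multiset.mem_cons.1 he with rfl | he
        · omega
        rcases Multiset.mem_cons.1 he with rfl | he
        · omega
        rw [Multiset.eq_of_mem_replicate he]; omega) (fun e he => by
        rw [Multiset.count_cons_of_ne (by rintro rfl; exact Nat.not_even_one he),
          Multiset.count_cons_of_ne (by rintro rfl; exact Nat.not_even_one he), Multiset.count_replicate]
        split_ifs <;> simp) (Multiset.mem_cons_self 1 _) odd_one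
      ⟨2, Multiset.mem_cons_of_mem (Multiset.mem_cons_of_mem (Multiset.mem_replicate.2 ⟨by omega, rfl⟩)),
        by omega⟩ (by rw [hI]; simp; ring)
    obtain ⟨W, hWd, hWn, hWm, hWx⟩ := hcl x hx hxp hns
    obtain ⟨ν, hν, hνs, hνe, hplus⟩ := hW W hWn hWx
    rw [hWd] at hνs
    refine hWm (hplus ?_)
    obtain ⟨r, hr⟩ := hme
    have hrest : ∀ ρ : Multiset ℕ, ρ ≤ Multiset.replicate (2 * k) 2 → ρ = Multiset.replicate ρ.card 2 :=
      fun ρ hρ => Multiset.eq_replicate_card.2 fun a ha => Multiset.eq_of_mem_replicate (Multiset.mem_of_le hρ ha)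
    by_cases h1 : 1 ∈ ν
    · exfalso
      obtain ⟨ν', rfl⟩ := Multiset.exists_cons_of_mem h1
      have hν' := (Multiset.cons_le_cons_iff _).1 hν
      by_cases h1' : 1 ∈ ν'
      · obtain ⟨ν'', rfl⟩ := Multiset.exists_cons_of_mem h1'
        have hn := hrest ν'' ((Multiset.cons_le_cons_iff _).1 hν')
        have he := hνe 2 even_two
        rw [Multiset.count_cons_of_ne (by decide), Multiset.count_cons_of_ne (by decide), hn,
          Multiset.count_replicate_self] at he
        rw [hn] at hνs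
        simp at hνs
        obtain ⟨c, hc⟩ := he
        omega
      · rw [hrest ν' ((Multiset.le_cons_of_notMem h1').1 hν')] at hνs
        simp at hνs
        omega
    · intro e he
      exact Multiset.eq_of_mem_replicate (Multiset.mem_of_le
        ((Multiset.le_cons_of_notMem h1).1 ((Multiset.le_cons_of_notMem h1).1 hν)) he)

end Cfsg.Agent.S5994
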