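import Cfsg.Statements.S5995
import Cfsg.Agent.H97.OrthUnipotent
import Cfsg.Agent.H4.SquareClass

set_option autoImplicit false
open scoped MatrixGroups
open Cfsg

namespace Cfsg.Agent.S5995

/-- A necessary condition for every element of order p of Ω_n(q), nq odd, to fix a hyperbolic `m`-space. Here `T = Ω_n(F)`, `n = 2d+1 ≥ 7`, `q` odd, realised as the commutator subgroup of the isometry group of `Q = x₀² + Σ xᵢyᵢ` over the field `F` with `q` elements (trivial centre, so its elements of prime order `r` are used directly); a nondegenerate `m`-space (even `m`) is a subspace on which the polar form of `Q` is nondegenerate; it is hyperbolic if it contains an `m/2`-dimensional subspace on which `Q` vanishes, elliptic otherwise. Let `m` be even with `2 ≤ m ≤ n − 1` and suppose `p` divides the number of hyperbolic `m`-spaces. If every element of `T` of order `p` fixes some hyperbolic `m`-space, then `m ≡ 0 (mod 4)` and every partition of `n` into parts of size at most `p` in which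 every even part has even multiplicity contains (as a sub-multiset) a partition of `m` in which every even part has even multiplicity. -/
theorem result {F : Type*} [Field F] [Fintype F] {p : ℕ} [Fact p.Prime] [CharP F p] {q : ℕ} (hq : Fintype.card F = q) (hqodd : Odd q)
    (d m : ℕ) (hd : 3 ≤ d) (hm : 2 ≤ m) (hme : Even m) (hmn : m ≤ 2 * d)
    (hpΩ : p ∣ Nat.card {W : Submodule F (Unit ⊕ (Fin d ⊕ Fin d) → F) // Module.finrank F ↥W = m ∧ Cfsg.Geo.IsNondegenerateOn (QuadraticMap.polar (Cfsg.quadFormOdd d F)) W ∧ Cfsg.Geo.IsPlusTypeOn (Cfsg.quadFormOdd d F) W}) :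
    (∀ x : GL (Unit ⊕ (Fin d ⊕ Fin d)) F, x ∈ Cfsg.Geo.omegaGL (Cfsg.quadFormOdd d F) → orderOf x = p →
      ∃ W : Submodule F (Unit ⊕ (Fin d ⊕ Fin d) → F), (Module.finrank F ↥W = m ∧ Cfsg.Geo.IsNondegenerateOn (QuadraticMap.polar (Cfsg.quadFormOdd d F)) W ∧ Cfsg.Geo.IsPlusTypeOn (Cfsg.quadFormOdd d F) W) ∧ W.map (Matrix.toLin' (x : Matrix (Unit ⊕ (Fin d ⊕ Fin d)) (Unit ⊕ (Fin d ⊕ Fin d)) F)) ≤ W) →
    (m % 4 = 0 ∧ (∀ μ : Multiset ℕ, (∀ e ∈ μ, 0 < e ∧ e ≤ p) → (∀ e : ℕ, Even e → Even (μ.count e)) → μ.sum = 2 * d + 1 →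
        ∃ ν : Multiset ℕ, ν ≤ μ ∧ ν.sum = m ∧ ∀ e : ℕ, Even e → Even (ν.count e))) := by
  classical
  intro hall
  have hp : p ≠ 2 := fun h => by
    subst h
    haveI := CharP.charP_iff_prime_eq_zero (R := F) Nat.prime_two
    have := FiniteField.even_card_of_char_two (ringChar.eq F 2)
    rw [hq] at this
    exact Nat.not_even_iff_odd.2 hqodd (Nat.even_iff.2 this)
  have h2 : (2 : F) ≠ 0 := Agent.H4.two_ne_zero_of_odd_card (hq ▸ hqodd)
  have hQ := Agent.H4.qOdd_nondegenerate (F := F) h2 d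
  have hI : Fintype.card (Unit ⊕ (Fin d ⊕ Fin d)) = 2 * d + 1 := by simp; omega
  have key := Agent.H97.partition_cond hp (Agent.H4.qOdd d F) hQ (by omega) hme (by omega) (fun x hx _ hxo _ => by
    rw [Agent.H4.coe_qOdd] at hx ⊢
    obtain ⟨W, ⟨h1, h2, -⟩, h3⟩ := hall x hx hxo
    exact ⟨W, h1, h2, h3⟩)
  rw [hI] at key
  refine ⟨?_, key⟩
  by_contra hm4
  have hp3 : 3 ≤ p := by have := (Fact.out : p.Prime).two_le; omega
  obtain ⟨μ, hμ, hev, hsum, hmod⟩ : ∃ μ : Multiset ℕ, (∀ e ∈ μ, 0 < e ∧ e ≤ p) ∧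
      (∀ e : ℕ, Even e → Even (μ.count e)) ∧ μ.sum = 2 * d + 1 ∧
      ∃ (k c : ℕ), Odd c ∧ μ = c ::ₘ Multiset.replicate (2 * k) 2 := by
    rcases Nat.even_or_odd' d with ⟨k, rfl | rfl⟩
    · refine ⟨1 ::ₘ Multiset.replicate (2 * k) 2, fun e he => ?_, fun e he => ?_, by simp; ring, k, 1, odd_one, rfl⟩
      · rcases Multiset.mem_cons.1 he with rfl | he
        · omega
        · rw [Multiset.eq_of_mem_replicate he]; omega
      · rw [Multiset.count_cons_of_ne (by rintro rfl; exact Nat.not_even_one he), Multiset.count_replicate]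
        split_ifs <;> simp
    · refine ⟨3 ::ₘ Multiset.replicate (2 * k) 2, fun e he => ?_, fun e he => ?_, by simp; ring, k, 3, by decide, rfl⟩
      · rcases Multiset.mem_cons.1 he with rfl | he
        · omega
        · rw [Multiset.eq_of_mem_replicate he]; omega
      · rw [Multiset.count_cons_of_ne (by rintro rfl; exact absurd he (by decide)), Multiset.count_replicate]
        split_ifs <;> simp
  obtain ⟨k, c, hc, rfl⟩ := hmod
  obtain ⟨ν, hν, hνs, hνe⟩ := key _ hμ hev hsum
  have hc2 : c ≠ 2 := by rintro rfl; exact absurd hc (by decide)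
  by_cases hcν : c ∈ ν
  · obtain ⟨ν', rfl⟩ := Multiset.exists_cons_of_mem hcν
    have h := Multiset.eq_replicate_card.2 fun a ha =>
      Multiset.eq_of_mem_replicate (Multiset.mem_of_le ((Multiset.cons_le_cons_iff _).1 hν) ha)
    rw [h, Multiset.sum_cons, Multiset.sum_replicate, smul_eq_mul] at hνs
    obtain ⟨a, ha⟩ := hme
    obtain ⟨b, hb⟩ := hc
    omega
  · have h := Multiset.eq_replicate_card.2 fun a ha =>
      Multiset.eq_of_mem_replicate (Multiset.mem_of_le ((Multiset.le_cons_of_notMem hcν).1 hν) ha)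
    have he := hνe 2 even_two
    rw [h, Multiset.count_replicate_self] at he
    rw [h, Multiset.sum_replicate, smul_eq_mul] at hνs
    obtain ⟨a, ha⟩ := he
    omega

end Cfsg.Agent.S5995
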