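import Cfsg.Statements.S5997
import Cfsg.Agent.H66.QuaternionNormalizer
-- import your own Cfsg.Agent.* helpers here

set_option autoImplicit false
open scoped MatrixGroups
open Cfsg

namespace Cfsg.Agent.S5997

/-- Elements of prime order of PSL_2(p) and the normalizer of a quaternion subgroup. Here `T = PSL_2(F)` for the field `F` with `p` elements, `p ≥ 5` prime; `R` is a subgroup of GL_2(F) isomorphic to the quaternion group of order 8 (an absolutely irreducible 2-group of symplectic type), and `H` is the subgroup of matrices of determinant 1 normalizing `R` — a subgroup of type 2^{1+2}.O₂⁻(2), isomorphic modulo scalars to A₄ or S₄ (maximality is not assumed). Ω is the set of cosets of `H` in `T`, so an element of `T` of prime order `r` (a matrix `x` of determinant 1 with `x^r` scalar, `x` not scalar) fixes a point of Ω exactly when some conjugate of `x` by a matrix of determinant 1 normalizes `R`. Let `r` be a prime dividing the index of `H`. Then every element of `T` of order `r` fixes a point of Ω if and only if `r = 2` or `r = 3`.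 -/
theorem result {F : Type*} [Field F] [Fintype F] {p : ℕ} [Fact p.Prime] [CharP F p] (hF : Fintype.card F = p) (hp : 5 ≤ p)
    (R : Subgroup (GL (Fin 2) F)) (hR : Nonempty (↥R ≃* QuaternionGroup 2))
    (r : ℕ) [Fact r.Prime]
    (hΩ : r ∣ (Cfsg.Geo.subgroupNormalizer R).relIndex (Cfsg.Geo.specialLinear (Fin 2) F)) :
    (∀ x ∈ Cfsg.Geo.specialLinear (Fin 2) F, (∃ z : F, ((x ^ r : GL (Fin 2) F) : Matrix (Fin 2) (Fin 2) F) = z • (1 : Matrix (Fin 2) (Fin 2) F)) →
      (∀ z : F, (x : Matrix (Fin 2) (Fin 2) F) ≠ z • (1 : Matrix (Fin 2) (Fin 2) F)) →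
      ∃ g ∈ Cfsg.Geo.specialLinear (Fin 2) F, g⁻¹ * x * g ∈ Cfsg.Geo.subgroupNormalizer R) ↔ (r = 2 ∨ r = 3) := by
  exact Cfsg.Agent.H66.Quat.main hp R hR r hΩ

end Cfsg.Agent.S5997
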