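import Cfsg.Statements.S5998
import Cfsg.Agent.H66.ExtraspecialNormalizer
-- import your own Cfsg.Agent.* helpers here

set_option autoImplicit false
open scoped MatrixGroups
open Cfsg

namespace Cfsg.Agent.S5998

/-- Elements of prime order of PSL_3(p), p ≡ 1 (mod 3), and the normalizer of an extraspecial subgroup of order 27. Here `T = PSL_3(F)` for the field `F` with `p` elements, `p` a prime with `p ≡ 1 (mod 3)`; `R` is a non-abelian subgroup of GL_3(F) of order 27 and exponent 3 (an extraspecial group 3^{1+2}, acting absolutely irreducibly), and `H` is the subgroup of matrices of determinant 1 normalizing `R` — a subgroup of type 3^{1+2}.Sp₂(3) (maximality is not assumed). Ω is the set of cosets of `H` in `T`, so an element of `T` of prime order `r` (a matrix `x` of determinant 1 with `x^r` scalar, `x` not scalar) fixes a point of Ω exactly when some conjugate of `x` by a matrix of determinant 1 normalizes `R`. Let `r` be a prime dividing the index of `H`. Then every element of `T` of order `r` fixes a point of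 Ω if and only if `r = 2`, or `r = 3` and `p ≡ 1 (mod 9)`. -/
theorem result {F : Type*} [Field F] [Fintype F] {p : ℕ} [Fact p.Prime] [CharP F p] (hF : Fintype.card F = p) (hp3 : p % 3 = 1)
    (R : Subgroup (GL (Fin 3) F)) (hR : Nat.card R = 27) (hRe : Monoid.exponent R = 3) (hRna : ¬ IsMulCommutative R)
    (r : ℕ) [Fact r.Prime]
    (hΩ : r ∣ (Cfsg.Geo.subgroupNormalizer R).relIndex (Cfsg.Geo.specialLinear (Fin 3) F)) :
    (∀ x ∈ Cfsg.Geo.specialLinear (Fin 3) F, (∃ z : F, ((x ^ r : GL (Fin 3) F) : Matrix (Fin 3) (Fin 3) F) = z • (1 : Matrix (Fin 3) (Fin 3) F)) →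
      (∀ z : F, (x : Matrix (Fin 3) (Fin 3) F) ≠ z • (1 : Matrix (Fin 3) (Fin 3) F)) →
      ∃ g ∈ Cfsg.Geo.specialLinear (Fin 3) F, g⁻¹ * x * g ∈ Cfsg.Geo.subgroupNormalizer R) ↔ (r = 2 ∨ (r = 3 ∧ p % 9 = 1)) := by
  exact Cfsg.Agent.H66.Extra.main hF hp3 R hR hRe hRna r hΩ

end Cfsg.Agent.S5998
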