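import Cfsg.Statements.S6000
import Cfsg.Agent.H66.FourElements
import Cfsg.Agent.H66.FourCharpoly
import Cfsg.Agent.H66.SemisimpleGL
-- import your own Cfsg.Agent.* helpers here

set_option autoImplicit false
open scoped MatrixGroups
open Cfsg

namespace Cfsg.Agent.S6000

open Matrix Polynomial

section Helpers

variable {F : Type*} [Field F]

local notation "M4" => Matrix (Fin 4) (Fin 4) F
local notation "G4" => GL (Fin 4) F

theorem mem_SL {g : G4} : g ∈ Cfsg.Geo.specialLinear (Fin 4) F ↔ (g : M4).det = 1 := by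
  show Matrix.GeneralLinearGroup.det g = 1 ↔ _
  rw [Units.ext_iff]
  rfl

/-- Scalars as units. -/
theorem exists_scalar {c : F} (hc : c ≠ 0) : ∃ s : G4, (s : M4) = c • (1 : M4) ∧ ∀ g : G4, s * g = g * s := by
  let s : G4 := ⟨c • 1, c⁻¹ • 1, by rw [smul_mul_smul, mul_one, mul_inv_cancel₀ hc, one_smul],
    by rw [smul_mul_smul, mul_one, inv_mul_cancel₀ hc, one_smul]⟩
  refine ⟨s, rfl, fun g => Units.ext ?_⟩
  show (c • (1 : M4)) * (g : M4) = (g : M4) * (c • (1 : M4))
  rw [smul_mul_assoc, one_mul, mul_smul_comm, mul_one]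

theorem scalar_mem_normalizer (R : Subgroup G4) {s : G4} (hs : ∀ g : G4, s * g = g * s) :
    s ∈ Cfsg.Geo.subgroupNormalizer R :=
  Subgroup.mem_normalizer_iff.2 fun u => by rw [hs, mul_inv_cancel_right]

/-- Multiples of elements of order prime to `p` with one characteristic polynomial meet the normaliser together. -/
theorem conj_into_normalizer [Fintype F] {p : ℕ} [Fact p.Prime] [CharP F p] (R : Subgroup G4) {x y h s : G4}
    (hs : ∀ g : G4, s * g = g * s) (hx : x = s * y) (hy : (orderOf y).Coprime p) (hh : (orderOf h).Coprime p)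
    (hc : (y : M4).charpoly = (h : M4).charpoly) (hN : h ∈ Cfsg.Geo.subgroupNormalizer R) :
    ∃ g ∈ Cfsg.Geo.specialLinear (Fin 4) F, g⁻¹ * x * g ∈ Cfsg.Geo.subgroupNormalizer R := by
  obtain ⟨z, hz, hzd⟩ := Cfsg.Agent.H66.exists_conj_det_eq p hy
    (Cfsg.Agent.H66.isConj_of_charpoly_eq p hy hh hc) (one_ne_zero (α := F))
  refine ⟨z⁻¹, Subgroup.inv_mem _ (mem_SL.2 hzd), ?_⟩
  rw [inv_inv, hx, show z * (s * y) * z⁻¹ = s * (z * y * z⁻¹) by rw [← mul_assoc, ← hs z]; group, hz]
  exact Subgroup.mul_mem _ (scalar_mem_normalizer R hs) hN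

/-- A two by two block in the top corner. -/
def comp (c : F) : G4 where
  val := !![0, -1, 0, 0; 1, c, 0, 0; 0, 0, 1, 0; 0, 0, 0, 1]
  inv := !![c, 1, 0, 0; -1, 0, 0, 0; 0, 0, 1, 0; 0, 0, 0, 1]
  val_inv := by ext i j; fin_cases i <;> fin_cases j <;> simp [Matrix.mul_apply, Fin.sum_univ_four]
  inv_val := by ext i j; fin_cases i <;> fin_cases j <;> simp [Matrix.mul_apply, Fin.sum_univ_four]

theorem comp_spec (c : F) : (comp c : M4).det = 1 ∧ (∀ z : F, (comp c : M4) ≠ z • (1 : M4)) ∧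
    (comp c : M4).trace = c + 2 ∧ (((comp c)⁻¹ : G4) : M4).trace = c + 2 := by
  refine ⟨?_, fun z h => ?_, ?_, ?_⟩
  · show (!![(0:F), -1, 0, 0; 1, c, 0, 0; 0, 0, 1, 0; 0, 0, 0, 1]).det = 1
    simp [Matrix.det_succ_row_zero, Fin.sum_univ_succ]
    rfl
  · have := congrFun (congrFun h 1) 0
    simp [comp] at this
  · show (!![(0:F), -1, 0, 0; 1, c, 0, 0; 0, 0, 1, 0; 0, 0, 0, 1]).trace = _
    simp [Matrix.trace, Fin.sum_univ_four]; ring
  · show (!![c, 1, 0, 0; -1, 0, 0, 0; 0, 0, 1, 0; 0, 0, 0, 1] : M4).trace = _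
    simp [Matrix.trace, Fin.sum_univ_four]; ring

theorem comp_pow_five {c : F} (hc : c * c + c - 1 = 0) : comp c ^ 5 = 1 := by
  refine Units.ext ?_
  rw [Units.val_pow_eq_pow_val, Units.val_one]
  set a : M4 := (comp c : M4) with ha
  have h2 : a ^ 2 = !![-1, -c, 0, 0; c, -c, 0, 0; 0, 0, 1, 0; 0, 0, 0, 1] := by
    ext i j; fin_cases i <;> fin_cases j <;>
      simp [a, comp, pow_two, Matrix.mul_apply, Fin.sum_univ_four] <;> linear_combination hc
  have h4 : a ^ 4 = !![c, 1, 0, 0; -1, 0, 0, 0; 0, 0, 1, 0; 0, 0, 0, 1] := by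
    rw [show a ^ 4 = a ^ 2 * a ^ 2 by rw [← pow_add], h2]
    ext i j; fin_cases i <;> fin_cases j <;> simp [Matrix.mul_apply, Fin.sum_univ_four]
    · linear_combination -hc
    · linear_combination hc
    · linear_combination -hc
  rw [pow_succ, h4]
  ext i j; fin_cases i <;> fin_cases j <;> simp [a, comp, Matrix.mul_apply, Fin.sum_univ_four]

/-- A power of a hyperplane element. -/
theorem hyperplane_pow (φ v : Fin 4 → F) : ∀ k : ℕ,
    (1 + vecMulVec v φ : M4) ^ k = 1 + (∑ j ∈ Finset.range k, (1 + φ ⬝ᵥ v) ^ j) • vecMulVec v φ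
  | 0 => by simp
  | k + 1 => by
    rw [pow_succ, hyperplane_pow φ v k, geom_sum_succ, mul_add, mul_one, add_mul, one_mul, smul_mul_assoc,
      Matrix.vecMulVec_mul_vecMulVec, show vecMulVec v ((φ ⬝ᵥ v) • φ) = (φ ⬝ᵥ v) • vecMulVec v φ by
        ext i j; simp [Matrix.vecMulVec_apply]; ring, smul_smul]
    ext i j
    simp only [Matrix.add_apply, Matrix.smul_apply, smul_eq_mul]
    ring

end Helpers


/-- Elements of prime order of PSL_4(p), p ≡ 1 (mod 4), and the normalizer of a 2-group of symplectic type of order 2⁶. Here `T = PSL_4(F)` for the field `F` with `p` elements, `p` a prime with `p ≡ 1 (mod 4)`; `R` is an absolutely irreducible subgroup of GL_4(F) of order 2⁶ that is a 2-group of symplectic type of exponent 4 with centre of order 4 (the central product of the scalars of order 4 with an extraspecial group 2^{1+4}), and `H` is the subgroup of matrices of determinant 1 normalizing `R` — a subgroup of type 2⁴.Sp₄(2) (maximality is not assumed). Ω is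 the set of cosets of `H` in `T`, so an element of `T` of prime order `r` (a matrix `x` of determinant 1 with `x^r` scalar, `x` not scalar) fixes a point of Ω exactly when some conjugate of `x` by a matrix of determinant 1 normalizes `R`. Let `r` be a prime dividing the index of `H`. Then every element of `T` of order `r` fixes a point of Ω if and only if `r = 2`, or `r = 3` and `p ≡ 2 (mod 3)`, or `r = 5` and `p ≡ ±2 (mod 5)` (`p` has multiplicative order 4 modulo 5). -/
theorem result {F : Type*} [Field F] [Fintype F] {p : ℕ} [Fact p.Prime] [CharP F p] (hF : Fintype.card F = p) (hp4 : p % 4 = 1)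
    (R : Subgroup (GL (Fin 4) F)) (hR : Cfsg.Geo.IsLinearSymplecticTypeData 2 R) (hR6 : Nat.card R = 2 ^ 6)
    (r : ℕ) [Fact r.Prime]
    (hΩ : r ∣ (Cfsg.Geo.subgroupNormalizer R).relIndex (Cfsg.Geo.specialLinear (Fin 4) F)) :
    (∀ x ∈ Cfsg.Geo.specialLinear (Fin 4) F, (∃ z : F, ((x ^ r : GL (Fin 4) F) : Matrix (Fin 4) (Fin 4) F) = z • (1 : Matrix (Fin 4) (Fin 4) F)) →
      (∀ z : F, (x : Matrix (Fin 4) (Fin 4) F) ≠ z • (1 : Matrix (Fin 4) (Fin 4) F)) →
      ∃ g ∈ Cfsg.Geo.specialLinear (Fin 4) F, g⁻¹ * x * g ∈ Cfsg.Geo.subgroupNormalizer R) ↔ (r = 2 ∨ (r = 3 ∧ p % 3 = 2) ∨ (r = 5 ∧ orderOf (p : ZMod 5) = 4)) := by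
  classical
  have hp5 : 5 ≤ p := by
    have h2 := (Fact.out : p.Prime).two_le
    omega
  have hp2 : p ≠ 2 := by omega
  have h2 : (2 : F) ≠ 0 := by
    intro h
    rw [show (2 : F) = ((2 : ℕ) : F) by norm_num, CharP.cast_eq_zero_iff F p] at h
    exact hp2 ((Nat.prime_dvd_prime_iff_eq Fact.out Nat.prime_two).1 h)
  have hRZ : Nat.card (Subgroup.center R) = 4 := by
    obtain ⟨p', e', -, -, h | ⟨-, -, h, -⟩ | ⟨-, -, h, -⟩⟩ := hR.field
    · obtain ⟨h, -⟩ := h; exact absurd h (by decide)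
    · exact h
    · simp at h
  obtain ⟨i, D⟩ := Cfsg.Agent.H66.Four.exists_data h2 R hR.symplecticType hR.absIrred hR6 hRZ
  have hi0 : i ≠ 0 := fun e => by have := D.sqi; simp [e] at this
  constructor
  · intro hP
    by_cases hr2 : r = 2
    · exact Or.inl hr2
    right
    have hodd : Odd r := ((Fact.out : r.Prime).eq_two_or_odd').resolve_left hr2
    -- move a test element into the normaliser
    have hsph : ∀ x : GL (Fin 4) F, (x : Matrix (Fin 4) (Fin 4) F).det = 1 → x ^ r = 1 →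
        (∀ z : F, (x : Matrix (Fin 4) (Fin 4) F) ≠ z • (1 : Matrix (Fin 4) (Fin 4) F)) →
        ∃ g : GL (Fin 4) F, g⁻¹ * x * g ∈ Cfsg.Geo.subgroupNormalizer R ∧ (g⁻¹ * x * g) ^ r = 1 ∧
          ∀ z : F, ((g⁻¹ * x * g : GL (Fin 4) F) : Matrix (Fin 4) (Fin 4) F) ≠ z • (1 : Matrix (Fin 4) (Fin 4) F) := by
      intro x hxd hxr hns
      obtain ⟨g, -, hg⟩ := hP x (mem_SL.2 hxd) ⟨1, by rw [hxr, Units.val_one, one_smul]⟩ hns
      refine ⟨g, hg, ?_, fun z hz => hns z ?_⟩
      · calc (g⁻¹ * x * g) ^ r = (g⁻¹ * x * g⁻¹⁻¹) ^ r := by rw [inv_inv]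
          _ = 1 := by rw [conj_pow, hxr]; group
      · have : x = g * (g⁻¹ * x * g) * g⁻¹ := by group
        rw [this, Units.val_mul, Units.val_mul, hz, mul_smul_comm, mul_one, smul_mul_assoc, Units.mul_inv]
    have hhyp : ∀ (x : GL (Fin 4) F) (a : F) (v φ : Fin 4 → F),
        (x : Matrix (Fin 4) (Fin 4) F) = a • (1 + vecMulVec v φ) → (x : Matrix (Fin 4) (Fin 4) F).det = 1 → x ^ r = 1 →
        (∀ z : F, (x : Matrix (Fin 4) (Fin 4) F) ≠ z • (1 : Matrix (Fin 4) (Fin 4) F)) → False := by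
      intro x a v φ hx hxd hxr hns
      obtain ⟨g, hg1, hg2, hg3⟩ := hsph x hxd hxr hns
      obtain ⟨c, hc⟩ := D.scalar_of_hyperplane h2 hg1 hodd hg2 (a := a)
        (v := ((g⁻¹ : GL (Fin 4) F) : Matrix (Fin 4) (Fin 4) F) *ᵥ v)
        (φ := φ ᵥ* (g : Matrix (Fin 4) (Fin 4) F)) (by
          rw [Units.val_mul, Units.val_mul, hx, mul_smul_comm, smul_mul_assoc, mul_add, mul_one, add_mul,
            Units.inv_mul, Matrix.mul_vecMulVec, Matrix.vecMulVec_mul])
      exact hg3 c hc
    -- transvections and pseudo-reflections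
    have hnotp : r ≠ p := by
      intro hrp
      let v : Fin 4 → F := ![1, 0, 0, 0]
      let φ : Fin 4 → F := ![0, 1, 0, 0]
      have hdet : (1 + vecMulVec v φ : Matrix (Fin 4) (Fin 4) F).det = 1 := by
        rw [Matrix.vecMulVec_eq Unit, Matrix.det_one_add_replicateCol_mul_replicateRow]
        simp [v, φ, dotProduct, Fin.sum_univ_four]
      have hne : (1 + vecMulVec v φ : Matrix (Fin 4) (Fin 4) F).det ≠ 0 := by rw [hdet]; exact one_ne_zero
      refine hhyp (Matrix.GeneralLinearGroup.mkOfDetNeZero _ hne) 1 v φ (by rw [one_smul]; rfl) hdet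
        (Units.ext ?_) fun z hz => ?_
      · rw [Units.val_pow_eq_pow_val]
        show (1 + vecMulVec v φ) ^ r = 1
        rw [hyperplane_pow, show φ ⬝ᵥ v = 0 by simp [v, φ, dotProduct, Fin.sum_univ_four], hrp]
        simp
      · have h01 : (1 + vecMulVec v φ : Matrix (Fin 4) (Fin 4) F) 0 1 = (z • (1 : Matrix (Fin 4) (Fin 4) F)) 0 1 :=
          congrFun (congrFun hz 0) 1
        simp [v, φ, Matrix.vecMulVec_apply] at h01
    have hnot1 : ¬ r ∣ p - 1 := by
      intro hd
      have : r ∣ Nat.card Fˣ := by rw [Nat.card_eq_fintype_card, Fintype.card_units, hF]; exact hd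
      obtain ⟨ζu, hζ⟩ := exists_prime_orderOf_dvd_card' r this
      set ζ : F := (ζu : F)
      have hζr : ζ ^ r = 1 := by
        rw [← Units.val_pow_eq_pow_val, ← hζ, pow_orderOf_eq_one, Units.val_one]
      have hζ4 : ζ ^ 4 ≠ 1 := fun h => by
        have h' : ζu ^ 4 = 1 := Units.ext (by rw [Units.val_pow_eq_pow_val]; exact h)
        have hd := orderOf_dvd_of_pow_eq_one h'
        rw [hζ] at hd
        have := (Nat.prime_dvd_prime_iff_eq Fact.out Nat.prime_two).1
          ((Fact.out : r.Prime).dvd_of_dvd_pow (n := 2) (by simpa using hd))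
        exact hr2 this
      have hζ0 : ζ ≠ 0 := ζu.ne_zero
      set d : F := (ζ ^ 4)⁻¹ with hd4
      let v : Fin 4 → F := ![d - 1, 0, 0, 0]
      let φ : Fin 4 → F := ![1, 0, 0, 0]
      have hvφ : φ ⬝ᵥ v = d - 1 := by simp [v, φ, dotProduct, Fin.sum_univ_four]
      have hdet : (ζ • (1 + vecMulVec v φ) : Matrix (Fin 4) (Fin 4) F).det = 1 := by
        rw [Matrix.det_smul, Fintype.card_fin, Matrix.vecMulVec_eq Unit,
          Matrix.det_one_add_replicateCol_mul_replicateRow, hvφ, add_sub_cancel, hd4,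
          mul_inv_cancel₀ (pow_ne_zero 4 hζ0)]
      have hne : (ζ • (1 + vecMulVec v φ) : Matrix (Fin 4) (Fin 4) F).det ≠ 0 := by rw [hdet]; exact one_ne_zero
      refine hhyp (Matrix.GeneralLinearGroup.mkOfDetNeZero _ hne) ζ v φ rfl hdet (Units.ext ?_) fun z hz => ?_
      · rw [Units.val_pow_eq_pow_val]
        show (ζ • (1 + vecMulVec v φ) : Matrix (Fin 4) (Fin 4) F) ^ r = 1
        rw [_root_.smul_pow, hζr, one_smul, hyperplane_pow, hvφ, add_sub_cancel]
        have hd1 : d ≠ 1 := fun e => hζ4 (by rw [hd4, inv_eq_one] at e; exact e)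
        have hdr : d ^ r = 1 := by rw [hd4, inv_pow, ← pow_mul, mul_comm, pow_mul, hζr, one_pow, inv_one]
        rw [geom_sum_eq hd1, hdr, sub_self, zero_div, zero_smul, add_zero]
      · have h00 : (ζ • (1 + vecMulVec v φ) : Matrix (Fin 4) (Fin 4) F) 0 0 =
            (z • (1 : Matrix (Fin 4) (Fin 4) F)) 0 0 := congrFun (congrFun hz 0) 0
        have h11 : (ζ • (1 + vecMulVec v φ) : Matrix (Fin 4) (Fin 4) F) 1 1 =
            (z • (1 : Matrix (Fin 4) (Fin 4) F)) 1 1 := congrFun (congrFun hz 1) 1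
        simp [v, φ, Matrix.vecMulVec_apply] at h00 h11
        have : d = 1 := mul_left_cancel₀ hζ0 (by linear_combination h00 - h11)
        rw [hd4, inv_eq_one] at this
        exact hζ4 this
    have hr35 : r = 3 ∨ r = 5 := by
      have hdvd : r ∣ Nat.card (Cfsg.Geo.specialLinear (Fin 4) F) := hΩ.trans (Subgroup.relIndex_dvd_card _ _)
      obtain ⟨x, hx⟩ := exists_prime_orderOf_dvd_card' r hdvd
      have hxr : (x : GL (Fin 4) F) ^ r = 1 := by
        rw [← Subgroup.coe_pow, ← hx, pow_orderOf_eq_one, Subgroup.coe_one]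
      have hxd := mem_SL.1 x.2
      have hns : ∀ z : F, ((x : GL (Fin 4) F) : Matrix (Fin 4) (Fin 4) F) ≠ z • (1 : Matrix (Fin 4) (Fin 4) F) := by
        intro z hz
        have hpow := congrArg Units.val hxr
        rw [Units.val_pow_eq_pow_val, hz, _root_.smul_pow, one_pow, Units.val_one] at hpow
        have hzr : z ^ r = 1 := smul_left_injective F (one_ne_zero (α := Matrix (Fin 4) (Fin 4) F))
          (hpow.trans (one_smul F 1).symm)
        rw [hz, Matrix.det_smul, Fintype.card_fin, Matrix.det_one, mul_one] at hxd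
        have hd : orderOf z ∣ Nat.gcd r 4 :=
          Nat.dvd_gcd (orderOf_dvd_of_pow_eq_one hzr) (orderOf_dvd_of_pow_eq_one hxd)
        rw [show Nat.gcd r 4 = 1 from (Nat.Coprime.pow_right 2 (Nat.coprime_two_right.2 hodd) : Nat.Coprime r (2 ^ 2)),
          Nat.dvd_one, orderOf_eq_one_iff] at hd
        rw [hd, one_smul] at hz
        have h1 : x = 1 := Subtype.ext (Units.ext hz)
        rw [h1, orderOf_one] at hx
        exact (Fact.out : r.Prime).one_lt.ne hx
      obtain ⟨g, hg1, hg2, hg3⟩ := hsph x hxd hxr hns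
      have h2r := (Fact.out : r.Prime).two_le
      by_cases h5 : 5 ≤ r
      · exact Or.inr (D.big h2 hg1 h5 hg2 hg3).1
      · rcases Nat.lt_or_ge r 4 with h | h
        · exact Or.inl (by omega)
        · have h4 : r = 4 := by omega
          subst h4
          exact absurd (Fact.out : Nat.Prime 4) (by norm_num)
    rcases hr35 with rfl | rfl
    · refine Or.inl ⟨rfl, ?_⟩
      have hp := (Fact.out : p.Prime)
      have h3 : p % 3 ≠ 0 := fun h => hnotp
        ((Nat.prime_dvd_prime_iff_eq Nat.prime_three hp).1 (Nat.dvd_of_mod_eq_zero h))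
      omega
    · refine Or.inr ⟨rfl, ?_⟩
      by_contra hord
      obtain ⟨c, hc⟩ := Cfsg.Agent.H66.Four.exists_golden (F := F) hp2 hord
      obtain ⟨hd, hns, t1, t2⟩ := comp_spec c
      obtain ⟨g, hg1, hg2, hg3⟩ := hsph (comp c) hd (comp_pow_five hc) hns
      have h := D.trace_mul_trace h2 hg1 (D.big h2 hg1 le_rfl hg2 hg3).2
      have t1' : ((g⁻¹ * comp c * g : GL (Fin 4) F) : Matrix (Fin 4) (Fin 4) F).trace = c + 2 := by
        rw [Units.val_mul, Units.val_mul, Matrix.trace_units_conj', t1]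
      have t2' : (((g⁻¹ * comp c * g)⁻¹ : GL (Fin 4) F) : Matrix (Fin 4) (Fin 4) F).trace = c + 2 := by
        rw [show (g⁻¹ * comp c * g)⁻¹ = g⁻¹ * (comp c)⁻¹ * g by group, Units.val_mul, Units.val_mul,
          Matrix.trace_units_conj', t2]
      rw [t1', t2'] at h
      have hlin : 3 * c + 4 = 0 := by linear_combination h - hc
      have h55 : (5 : F) = 0 := by linear_combination (-1 : F) * (9 * hc - (3 * c - 1) * hlin)
      rw [show (5 : F) = ((5 : ℕ) : F) by norm_num, CharP.cast_eq_zero_iff F p] at h55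
      exact hnotp ((Nat.prime_dvd_prime_iff_eq Fact.out Nat.prime_five).1 h55).symm
  · intro hcase x hxS ⟨z, hz⟩ hns
    have hxd := mem_SL.1 hxS
    rw [Units.val_pow_eq_pow_val] at hz
    have hz4 : z ^ 4 = 1 := by
      have h := congrArg Matrix.det hz
      rw [Matrix.det_pow, hxd, one_pow, Matrix.det_smul, Fintype.card_fin, Matrix.det_one, mul_one] at h
      exact h.symm
    have hz0 : z ≠ 0 := fun e => by simp [e] at hz4
    have hop : ∀ (y : GL (Fin 4) F) (k : ℕ), k.Prime → y ^ k = 1 → k ≠ p → (orderOf y).Coprime p :=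
      fun y k hk hy hne => ((Nat.coprime_primes hk Fact.out).2 hne).coprime_dvd_left (orderOf_dvd_of_pow_eq_one hy)
    -- remove the scalar when `r` is odd
    have hdesc : ∀ (μ : F), μ ≠ 0 → μ ^ r = z →
        ∃ s y : GL (Fin 4) F, (∀ g, s * g = g * s) ∧ (s : Matrix (Fin 4) (Fin 4) F) = μ • (1 : Matrix (Fin 4) (Fin 4) F) ∧
          x = s * y ∧ y ^ r = 1 ∧ ∀ c : F, (y : Matrix (Fin 4) (Fin 4) F) ≠ c • (1 : Matrix (Fin 4) (Fin 4) F) := by
      intro μ hμ hμr
      obtain ⟨s, hs, hsc⟩ := exists_scalar (F := F) hμ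
      refine ⟨s, s⁻¹ * x, hsc, hs, (mul_inv_cancel_left s x).symm, ?_, fun c hc => hns (μ * c) ?_⟩
      · have hxs : x ^ r = s ^ r := Units.ext (by
          rw [Units.val_pow_eq_pow_val, Units.val_pow_eq_pow_val, hz, hs, _root_.smul_pow, one_pow, hμr])
        rw [(show Commute s x from hsc x).inv_left.mul_pow, hxs, inv_pow, inv_mul_cancel]
      · rw [← mul_inv_cancel_left s x, Units.val_mul, hc, hs, smul_mul_smul, one_mul]
    rcases hcase with rfl | ⟨rfl, hp3⟩ | ⟨rfl, hord⟩
    · have hxx : (x : Matrix (Fin 4) (Fin 4) F) * x = Matrix.scalar (Fin 4) z := by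
        rw [← pow_two, hz, Matrix.scalar_apply, Matrix.smul_one_eq_diagonal]
      obtain ⟨μ, hμ⟩ : IsSquare z := by
        by_contra hns'
        obtain ⟨-, hc⟩ := Cfsg.Agent.H66.charpoly_of_sq_nonsquare h2 hns' hxx
        have hd := Matrix.det_eq_sign_charpoly_coeff (x : Matrix (Fin 4) (Fin 4) F)
        rw [hxd, hc, coeff_zero_eq_eval_zero] at hd
        simp at hd
        have hzz : z * z = 1 := by first | linear_combination -hd | linear_combination hd
        rcases mul_self_eq_one_iff.1 hzz with e | e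
        · exact hns' ⟨1, by rw [e, one_mul]⟩
        · exact hns' ⟨i, by rw [e, D.sqi]⟩
      have hμ0 : μ ≠ 0 := fun e => hz0 (by rw [hμ, e, mul_zero])
      obtain ⟨s, y, hs, hsv, hx, hy2, hyns⟩ := hdesc μ hμ0 (by rw [pow_two, hμ])
      have hyy : (y : Matrix (Fin 4) (Fin 4) F) * y = 1 := by
        have := congrArg Units.val hy2
        rwa [pow_two, Units.val_mul] at this
      obtain ⟨b, hb, hcp, -, -⟩ := Cfsg.Agent.H66.Four.charpoly_involution h2 hyy
      have hyc := hop y 2 Nat.prime_two hy2 (Ne.symm hp2)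
      obtain ⟨⟨Y, hYN, hYY, hYt⟩, ⟨T₀, hTN, hTT, hTt⟩⟩ := D.exists_two h2
      obtain ⟨b₁, hb₁, hcY, htY, -⟩ := Cfsg.Agent.H66.Four.charpoly_involution h2 hYY
      obtain ⟨b₂, hb₂, hcT, htT, -⟩ := Cfsg.Agent.H66.Four.charpoly_involution h2 hTT
      have e1 : b₁ = 1 := Cfsg.Agent.H66.Four.eq_of_trace_eq (F := F) hp5 hb₁ (by norm_num)
        (by rw [← htY, hYt]; push_cast; ring)
      have e2 : b₂ = 2 := Cfsg.Agent.H66.Four.eq_of_trace_eq (F := F) hp5 hb₂ (by norm_num)
        (by rw [← htT, hTt]; push_cast; ring)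
      have hsq : ∀ u : GL (Fin 4) F, (u : Matrix (Fin 4) (Fin 4) F) * u = 1 → u ^ 2 = 1 := fun u hu => by
        rw [pow_two]; exact Units.ext hu
      have hkey : ∀ u : GL (Fin 4) F, u ∈ Cfsg.Geo.subgroupNormalizer R → (u : Matrix (Fin 4) (Fin 4) F) * u = 1 →
          (y : Matrix (Fin 4) (Fin 4) F).charpoly = (u : Matrix (Fin 4) (Fin 4) F).charpoly →
          ∃ g ∈ Cfsg.Geo.specialLinear (Fin 4) F, g⁻¹ * x * g ∈ Cfsg.Geo.subgroupNormalizer R :=
        fun u huN huu hc => conj_into_normalizer R hs hx hyc (hop u 2 Nat.prime_two (hsq u huu) (Ne.symm hp2)) hc huN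
      have hb' : b = 0 ∨ b = 1 ∨ b = 2 ∨ b = 3 ∨ b = 4 := by omega
      have hscal : ∀ c : F, c * c = 1 →
          (y : Matrix (Fin 4) (Fin 4) F).charpoly = (X - C c) ^ 4 → False := by
        intro c hc2 hc
        have hc0 : c ≠ 0 := fun e => by simp [e] at hc2
        obtain ⟨w, hw, hwc⟩ := exists_scalar (F := F) hc0
        have hww : (w : Matrix (Fin 4) (Fin 4) F) * w = 1 := by rw [hw, smul_mul_smul, mul_one, hc2, one_smul]
        obtain ⟨g, hg⟩ := isConj_iff.1 (Cfsg.Agent.H66.isConj_of_charpoly_eq p hyc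
          (hop w 2 Nat.prime_two (hsq w hww) (Ne.symm hp2))
          (by rw [hc, hw, Matrix.smul_one_eq_diagonal, Matrix.charpoly_diagonal]; simp))
        exact hyns c (by rw [show y = g⁻¹ * w * g by rw [← hg]; group, Units.val_mul, Units.val_mul, hw,
          mul_smul_comm, mul_one, smul_mul_assoc, Units.inv_mul])
      rcases hb' with rfl | rfl | rfl | rfl | rfl
      · exact (hscal 1 (one_mul 1) (by simpa using hcp)).elim
      · exact hkey Y hYN hYY (by rw [hcp, hcY, e1])
      · exact hkey T₀ hTN hTT (by rw [hcp, hcT, e2])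
      · obtain ⟨n1, hn1, hn1c⟩ := exists_scalar (F := F) (neg_ne_zero.2 (one_ne_zero (α := F)))
        have hv : ((n1 * Y : GL (Fin 4) F) : Matrix (Fin 4) (Fin 4) F) = -(Y : Matrix (Fin 4) (Fin 4) F) := by
          rw [Units.val_mul, hn1, smul_mul_assoc, one_mul, neg_one_smul]
        have hvv : ((n1 * Y : GL (Fin 4) F) : Matrix (Fin 4) (Fin 4) F) * (n1 * Y : GL (Fin 4) F) = 1 := by
          rw [hv, neg_mul_neg, hYY]
        obtain ⟨b₃, hb₃, hc3, ht3, -⟩ := Cfsg.Agent.H66.Four.charpoly_involution h2 hvv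
        have e3 : b₃ = 3 := Cfsg.Agent.H66.Four.eq_of_trace_eq (F := F) hp5 hb₃ (by norm_num)
          (by rw [← ht3, hv, Matrix.trace_neg, hYt]; push_cast; ring)
        exact hkey _ (Subgroup.mul_mem _ (scalar_mem_normalizer R hn1c) hYN) hvv (by rw [hcp, hc3, e3])
      · exact (hscal (-1) (by ring) (by simpa using hcp)).elim
    · obtain ⟨s, y, hs, -, hx, hy3, hyns⟩ := hdesc (z ^ 3) (pow_ne_zero _ hz0)
        (by calc (z ^ 3) ^ 3 = (z ^ 4) ^ 2 * z := by ring
              _ = z := by rw [hz4, one_pow, one_mul])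
      have hp3' : 3 ≠ p := by omega
      have hyc := hop y 3 Nat.prime_three hy3 hp3'
      have hcp3 : ∀ u : GL (Fin 4) F, u ^ 3 = 1 → (u : Matrix (Fin 4) (Fin 4) F).charpoly = (X - C 1) ^ 4 → u = 1 := by
        intro u hu hc
        obtain ⟨g, hg⟩ := isConj_iff.1 (Cfsg.Agent.H66.isConj_of_charpoly_eq p (hop u 3 Nat.prime_three hu hp3')
          (show (orderOf (1 : GL (Fin 4) F)).Coprime p by simp) (by rw [hc, Units.val_one, Matrix.charpoly_one]; simp))
        rw [show u = g⁻¹ * (g * u * g⁻¹) * g by group, hg]; group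
      have hval : ∀ u : GL (Fin 4) F, u ^ 3 = 1 → (u : Matrix (Fin 4) (Fin 4) F) ^ 3 = 1 := fun u hu => by
        rw [← Units.val_pow_eq_pow_val, hu, Units.val_one]
      have h30 : (3 : F) ≠ 0 := fun h => by
        rw [show (3 : F) = ((3 : ℕ) : F) by norm_num, CharP.cast_eq_zero_iff F p,
          Nat.prime_dvd_prime_iff_eq Fact.out Nat.prime_three] at h
        exact hp3' h.symm
      have hsame : ∀ u v : GL (Fin 4) F, u ^ 3 = 1 → v ^ 3 = 1 → u ≠ 1 → v ≠ 1 →
          (u : Matrix (Fin 4) (Fin 4) F).trace = (v : Matrix (Fin 4) (Fin 4) F).trace →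
          (u : Matrix (Fin 4) (Fin 4) F).charpoly = (v : Matrix (Fin 4) (Fin 4) F).charpoly := by
        intro u v hu hv hu1 hv1 ht
        rcases Cfsg.Agent.H66.Four.charpoly_three hF hp3 (hval u hu) with a | ⟨a, a'⟩ | ⟨a, a'⟩
        · exact absurd (hcp3 u hu a) hu1
        all_goals
          rcases Cfsg.Agent.H66.Four.charpoly_three hF hp3 (hval v hv) with b | ⟨b, b'⟩ | ⟨b, b'⟩
          · exact absurd (hcp3 v hv b) hv1
        · rw [a, b]
        · exact absurd (by linear_combination a' - b' - ht : (3 : F) = 0) h30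
        · exact absurd (by linear_combination b' - a' + ht : (3 : F) = 0) h30
        · rw [a, b]
      have hy1 : y ≠ 1 := fun e => hyns 1 (by rw [e, Units.val_one, one_smul])
      have hne : ∀ u : GL (Fin 4) F, ((u : Matrix (Fin 4) (Fin 4) F).trace = -2 ∨
          (u : Matrix (Fin 4) (Fin 4) F).trace = 1) → u ≠ 1 := by
        intro u hu e
        rw [e, Units.val_one, Matrix.trace_one, Fintype.card_fin] at hu
        rcases hu with h | h
        · exact h30 (mul_left_cancel₀ h2 (by push_cast at h; linear_combination h))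
        · exact h30 (by push_cast at h; linear_combination h)
      obtain ⟨⟨u₁, hu₁N, hu₁, ht₁⟩, ⟨u₂, hu₂N, hu₂, ht₂⟩⟩ := D.exists_three h2
      rcases Cfsg.Agent.H66.Four.charpoly_three hF hp3 (hval y hy3) with a | ⟨-, a'⟩ | ⟨-, a'⟩
      · exact absurd (hcp3 y hy3 a) hy1
      · exact conj_into_normalizer R hs hx hyc (hop u₁ 3 Nat.prime_three hu₁ hp3')
          (hsame y u₁ hy3 hu₁ hy1 (hne u₁ (Or.inl ht₁)) (a'.trans ht₁.symm)) hu₁N
      · exact conj_into_normalizer R hs hx hyc (hop u₂ 3 Nat.prime_three hu₂ hp3')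
          (hsame y u₂ hy3 hu₂ hy1 (hne u₂ (Or.inr ht₂)) (a'.trans ht₂.symm)) hu₂N
    · obtain ⟨s, y, hs, -, hx, hy5, hyns⟩ := hdesc z hz0 (by rw [pow_succ, hz4, one_mul])
      have hp5' : 5 ≠ p := fun e => by
        rw [← e, ZMod.natCast_self, orderOf_zero] at hord; omega
      obtain ⟨w, hwN, hw5⟩ := D.exists_five_elt h2
      set h := w ^ (orderOf w / 5) with hh
      have hho : orderOf h = 5 := orderOf_pow_orderOf_div (orderOf_pos w).ne' hw5
      have hh5 : h ^ 5 = 1 := hho ▸ pow_orderOf_eq_one h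
      have hh1 : (h : Matrix (Fin 4) (Fin 4) F) ≠ 1 := fun e => by
        rw [show h = 1 from Units.ext e, orderOf_one] at hho; omega
      have hy1 : (y : Matrix (Fin 4) (Fin 4) F) ≠ 1 := fun e => hyns 1 (by rw [e, one_smul])
      exact conj_into_normalizer R hs hx (hop y 5 Nat.prime_five hy5 hp5') (hop h 5 Nat.prime_five hh5 hp5')
        ((Cfsg.Agent.H66.Four.charpoly_five hF hord (by rw [← Units.val_pow_eq_pow_val, hy5, Units.val_one]) hy1).trans
          (Cfsg.Agent.H66.Four.charpoly_five hF hord (by rw [← Units.val_pow_eq_pow_val, hh5, Units.val_one]) hh1).symm)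
        (Subgroup.pow_mem _ hwN _)

end Cfsg.Agent.S6000
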