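import Cfsg.Statements.S6001
import Cfsg.Agent.H66.FourUnitary
import Cfsg.Agent.H66.SemisimpleGL
import Cfsg.Agent.H66.SemisimpleSU
-- import your own Cfsg.Agent.* helpers here

set_option autoImplicit false
open scoped MatrixGroups
open Cfsg

namespace Cfsg.Agent.S6001

open Matrix Polynomial Cfsg.Agent

section Helpers

variable {F : Type*} [Field F]

local notation "M4" => Matrix (Fin 4) (Fin 4) F
local notation "G4" => GL (Fin 4) F

theorem mem_SL {g : G4} : g ∈ Cfsg.Geo.specialLinear (Fin 4) F ↔ (g : M4).det = 1 := by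
  show Matrix.GeneralLinearGroup.det g = 1 ↔ _
  rw [Units.ext_iff]
  rfl

/-- Scalars as units. -/
theorem exists_scalar {c : F} (hc : c ≠ 0) : ∃ s : G4, (s : M4) = c • (1 : M4) ∧ ∀ g : G4, s * g = g * s := by
  let s : G4 := ⟨c • 1, c⁻¹ • 1, by rw [smul_mul_smul, mul_one, mul_inv_cancel₀ hc, one_smul],
    by rw [smul_mul_smul, mul_one, inv_mul_cancel₀ hc, one_smul]⟩
  refine ⟨s, rfl, fun g => Units.ext ?_⟩
  show (c • (1 : M4)) * (g : M4) = (g : M4) * (c • (1 : M4))
  rw [smul_mul_assoc, one_mul, mul_smul_comm, mul_one]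

theorem scalar_mem_normalizer (R : Subgroup G4) {s : G4} (hs : ∀ g : G4, s * g = g * s) :
    s ∈ Cfsg.Geo.subgroupNormalizer R :=
  Subgroup.mem_normalizer_iff.2 fun u => by rw [hs, mul_inv_cancel_right]

/-- A power of a hyperplane element. -/
theorem hyperplane_pow (φ v : Fin 4 → F) : ∀ k : ℕ,
    (1 + vecMulVec v φ : M4) ^ k = 1 + (∑ j ∈ Finset.range k, (1 + φ ⬝ᵥ v) ^ j) • vecMulVec v φ
  | 0 => by simp
  | k + 1 => by
    rw [pow_succ, hyperplane_pow φ v k, geom_sum_succ, mul_add, mul_one, add_mul, one_mul, smul_mul_assoc,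
      Matrix.vecMulVec_mul_vecMulVec, show vecMulVec v ((φ ⬝ᵥ v) • φ) = (φ ⬝ᵥ v) • vecMulVec v φ by
        ext i j; simp [Matrix.vecMulVec_apply]; ring, smul_smul]
    ext i j
    simp only [Matrix.add_apply, Matrix.smul_apply, smul_eq_mul]
    ring

variable [Fintype F] {p : ℕ}

theorem adj_adj (hF : Fintype.card F = p ^ 2) (A : M4) : H66.Four.adj hF (H66.Four.adj hF A) = A := by
  ext a b
  simp only [H66.Four.adj, Matrix.transpose_apply, Matrix.map_apply, H3.conjQ_conjQ]

/-- The multiplier of an element normalising a group of isometries. -/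
theorem exists_multiplier (hF : Fintype.card F = p ^ 2) (R : Subgroup G4) {i : F} (D : H66.Four.Data i R)
    (hR : ∀ g ∈ R, H66.Four.adj hF (g : M4) * (g : M4) = 1) {h : G4} (hh : h ∈ Cfsg.Geo.subgroupNormalizer R) :
    ∃ c : F, H66.Four.adj hF (h : M4) * (h : M4) = c • (1 : M4) ∧ c ^ p = c := by
  obtain ⟨c, hc⟩ := D.sch (H66.Four.adj hF (h : M4) * (h : M4)) fun g hg => by
    have hg' := (Subgroup.mem_normalizer_iff.1 hh g).1 hg
    have hmul : (h : M4) * (g : M4) = ((h * g * h⁻¹ : G4) : M4) * (h : M4) := by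
      rw [← Units.val_mul, ← Units.val_mul, inv_mul_cancel_right]
    have hadj := congrArg (H66.Four.adj hF) hmul
    rw [H66.Four.adj_mul, H66.Four.adj_mul] at hadj
    have e : H66.Four.adj hF (h : M4) * ((h * g * h⁻¹ : G4) : M4) = (g : M4) * H66.Four.adj hF (h : M4) := by
      calc H66.Four.adj hF (h : M4) * ((h * g * h⁻¹ : G4) : M4)
          = (g : M4) * H66.Four.adj hF (g : M4) * H66.Four.adj hF (h : M4) * ((h * g * h⁻¹ : G4) : M4) := by
            rw [mul_eq_one_comm.1 (hR g hg), one_mul]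
        _ = (g : M4) * H66.Four.adj hF (h : M4) := by
            rw [mul_assoc (g : M4), hadj, mul_assoc (g : M4), mul_assoc, hR _ hg', mul_one]
    rw [mul_assoc, hmul, ← mul_assoc, e, mul_assoc]
  refine ⟨c, hc, ?_⟩
  have h1 := congrArg (H66.Four.adj hF) hc
  rw [H66.Four.adj_mul, adj_adj, H66.Four.adj_smul, H66.Four.adj_one, hc] at h1
  exact (smul_left_injective F (one_ne_zero (α := M4)) h1).symm

/-- Semisimple elements of the special unitary group with one characteristic polynomial are conjugate. -/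
theorem exists_SU_conj [Fact p.Prime] [CharP F p] (hF : Fintype.card F = p ^ 2) {x h : G4}
    (hx : x ∈ Cfsg.GU 4 F p) (hh : h ∈ Cfsg.GU 4 F p) (hxd : (x : M4).det = 1) (hhd : (h : M4).det = 1)
    (hxp : (orderOf x).Coprime p) (hhp : (orderOf h).Coprime p) (hc : (x : M4).charpoly = (h : M4).charpoly) :
    ∃ g ∈ Cfsg.GU 4 F p ⊓ Cfsg.Geo.specialLinear (Fin 4) F, g⁻¹ * x * g = h := by
  let xs : Cfsg.SU 4 F p := ⟨⟨(x : M4), hxd⟩, hx⟩
  let hs : Cfsg.SU 4 F p := ⟨⟨(h : M4), hhd⟩, hh⟩
  have ex : ((H3.suToGU 4 F p xs : Cfsg.GU 4 F p) : G4) = x := Units.ext rfl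
  have eh : ((H3.suToGU 4 F p hs : Cfsg.GU 4 F p) : G4) = h := Units.ext rfl
  obtain ⟨w, hw⟩ := isConj_iff.1 (H66.su_isConj_of_charpoly_eq hF p xs hs
    (by rwa [← orderOf_injective (H3.suToGU 4 F p) (H3.suToGU_injective (F := F) (q := p) 4), ← Subgroup.orderOf_coe,
      ex])
    (by rwa [← orderOf_injective (H3.suToGU 4 F p) (H3.suToGU_injective (F := F) (q := p) 4), ← Subgroup.orderOf_coe,
      eh]) hc)
  have h' := congrArg (fun u => ((H3.suToGU 4 F p u : Cfsg.GU 4 F p) : G4)) hw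
  simp only [map_mul, map_inv, Subgroup.coe_mul, Subgroup.coe_inv, ex, eh] at h'
  refine ⟨((H3.suToGU 4 F p w : Cfsg.GU 4 F p) : G4)⁻¹,
    ⟨Subgroup.inv_mem _ (H3.suToGU 4 F p w).2, Subgroup.inv_mem _ (mem_SL.2 ?_)⟩, by rw [inv_inv, h']⟩
  exact (w : Matrix.SpecialLinearGroup (Fin 4) F).2

/-- Multiples of conjugate unitary elements meet the normaliser together. -/
theorem conj_into_normalizer [Fact p.Prime] [CharP F p] (hF : Fintype.card F = p ^ 2) (R : Subgroup G4) {x y h s : G4}
    (hs : ∀ g : G4, s * g = g * s) (hsU : s ∈ Cfsg.GU 4 F p) (hx : x = s * y) (hxU : x ∈ Cfsg.GU 4 F p)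
    (hxd : (x : M4).det = 1) (hxp : (orderOf x).Coprime p)
    (hy : (orderOf y).Coprime p) (hh : (orderOf h).Coprime p) (hhU : h ∈ Cfsg.GU 4 F p)
    (hc : (y : M4).charpoly = (h : M4).charpoly) (hN : h ∈ Cfsg.Geo.subgroupNormalizer R) :
    ∃ g ∈ Cfsg.GU 4 F p ⊓ Cfsg.Geo.specialLinear (Fin 4) F, g⁻¹ * x * g ∈ Cfsg.Geo.subgroupNormalizer R := by
  obtain ⟨v, hv⟩ := isConj_iff.1 (H66.isConj_of_charpoly_eq p hy hh hc)
  have hsh : s * h = v * x * v⁻¹ := by
    rw [hx, ← hv, ← mul_assoc v s y, ← hs v]; group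
  have hcp : (x : M4).charpoly = ((s * h : G4) : M4).charpoly := by
    rw [hsh, Units.val_mul, Units.val_mul, Matrix.coe_units_inv, Matrix.charpoly_units_conj]
  have hd : ((s * h : G4) : M4).det = 1 := by
    rw [Matrix.det_eq_sign_charpoly_coeff, ← hcp, ← Matrix.det_eq_sign_charpoly_coeff, hxd]
  have hop : (orderOf (s * h)).Coprime p := by
    have ho : orderOf x = orderOf (s * h) :=
      SemiconjBy.orderOf_eq v (show SemiconjBy v x (s * h) by
        show v * x = s * h * v
        rw [hsh, inv_mul_cancel_right])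
    rwa [← ho]
  obtain ⟨g, hg, hge⟩ := exists_SU_conj hF hxU (Subgroup.mul_mem _ hsU hhU) hxd hd hxp hop hcp
  exact ⟨g, hg, hge ▸ Subgroup.mul_mem _ (scalar_mem_normalizer R hs) hN⟩

theorem eq_of_trace_eq_mid [Fact p.Prime] [CharP F p] (hp : 3 ≤ p) {a b : ℕ} (ha : 1 ≤ a ∧ a ≤ 3)
    (hb : 1 ≤ b ∧ b ≤ 3) (h : (4 : F) - 2 * (a : F) = 4 - 2 * (b : F)) : a = b := by
  have h2 : (2 : F) ≠ 0 := fun e => by
    rw [show (2 : F) = ((2 : ℕ) : F) by norm_num, CharP.cast_eq_zero_iff F p] at e
    have := Nat.le_of_dvd two_pos e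
    omega
  have h' : ((a - 1 : ℕ) : F) = ((b - 1 : ℕ) : F) := by
    rw [Nat.cast_sub ha.1, Nat.cast_sub hb.1]
    refine mul_left_cancel₀ h2 ?_
    linear_combination -h
  have := (CharP.natCast_eq_natCast F p).1 h'
  rw [Nat.ModEq, Nat.mod_eq_of_lt (by omega), Nat.mod_eq_of_lt (by omega)] at this
  omega

end Helpers


set_option maxHeartbeats 1600000 in
/-- Elements of prime order of PSU_4(p), p ≡ 3 (mod 4), and the normalizer of a 2-group of symplectic type of order 2⁶. Here `T = PSU_4(p)` for a prime `p ≡ 3 (mod 4)`, realised through `SU_4(p)`, the matrices of determinant 1 over the field `F` with `p²` elements preserving the hermitian form `f = Σ uᵢvᵢ^p`; `R` is an absolutely irreducible subgroup of the full unitary group of `f` of order 2⁶ that is a 2-group of symplectic type of exponent 4 with centre of order 4, and `H` is the subgroup of `SU_4(p)` normalizing `R` — a subgroup of type 2⁴.Sp₄(2) (maximality is not assumed). Ω is the set of cosets of `H`, so an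 element of `T` of prime order `r` (`x ∈ SU_4(p)` with `x^r` scalar, `x` not scalar) fixes a point of Ω exactly when some `SU_4(p)`-conjugate of `x` normalizes `R`. Let `r` be a prime dividing the index of `H`. Then every element of `T` of order `r` fixes a point of Ω if and only if `r = 2`, or `r = 3` and `p ≡ 1 (mod 3)`, or `r = 5` and `p ≡ ±2 (mod 5)` (`p` has multiplicative order 4 modulo 5). -/
theorem result {F : Type*} [Field F] [Fintype F] {p : ℕ} [Fact p.Prime] [CharP F p] (hF : Fintype.card F = p ^ 2) (hp4 : p % 4 = 3)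
    (R : Subgroup (GL (Fin 4) F)) (hRs : Cfsg.Geo.IsSymplecticTypeGroup 2 R) (hRi : Cfsg.Geo.ActsAbsolutelyIrreducibly (Cfsg.Geo.matrixSet R))
    (hRU : R ≤ Cfsg.GU 4 F p) (hR6 : Nat.card R = 2 ^ 6) (hRZ : Nat.card (Subgroup.center R) = 4)
    (r : ℕ) [Fact r.Prime]
    (hΩ : r ∣ (Cfsg.Geo.subgroupNormalizer R).relIndex (Cfsg.GU 4 F p ⊓ Cfsg.Geo.specialLinear (Fin 4) F)) :
    (∀ x ∈ Cfsg.GU 4 F p ⊓ Cfsg.Geo.specialLinear (Fin 4) F, (∃ z : F, ((x ^ r : GL (Fin 4) F) : Matrix (Fin 4) (Fin 4) F) = z • (1 : Matrix (Fin 4) (Fin 4) F)) →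
      (∀ z : F, (x : Matrix (Fin 4) (Fin 4) F) ≠ z • (1 : Matrix (Fin 4) (Fin 4) F)) →
      ∃ g ∈ Cfsg.GU 4 F p ⊓ Cfsg.Geo.specialLinear (Fin 4) F, g⁻¹ * x * g ∈ Cfsg.Geo.subgroupNormalizer R) ↔ (r = 2 ∨ (r = 3 ∧ p % 3 = 1) ∨ (r = 5 ∧ orderOf (p : ZMod 5) = 4)) := by
  classical
  have hp3 : 3 ≤ p := by omega
  have hp2 : p ≠ 2 := by omega
  have hpP : p.Prime := Fact.out
  have h2 : (2 : F) ≠ 0 := by
    intro h
    rw [show (2 : F) = ((2 : ℕ) : F) by norm_num, CharP.cast_eq_zero_iff F p] at h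
    exact hp2 ((Nat.prime_dvd_prime_iff_eq Fact.out Nat.prime_two).1 h)
  obtain ⟨i, D⟩ := H66.Four.exists_data h2 R hRs hRi hR6 hRZ
  have hi0 : i ≠ 0 := fun e => by have := D.sqi; simp [e] at this
  have hσi := H66.Four.conjQ_skew hF hp4 D.sqi
  have hJ := H66.Four.isAdjoint hF hp4 D.sqi
  have hRadj : ∀ g ∈ R, H66.Four.adj hF (g : Matrix (Fin 4) (Fin 4) F) * (g : Matrix (Fin 4) (Fin 4) F) = 1 :=
    fun g hg => (H66.Four.mem_GU_iff_adj hF g).1 (hRU hg)
  constructor
  · intro hP
    by_cases hr2 : r = 2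
    · exact Or.inl hr2
    right
    have hodd : Odd r := ((Fact.out : r.Prime).eq_two_or_odd').resolve_left hr2
    have hsph : ∀ x : GL (Fin 4) F, (x : Matrix (Fin 4) (Fin 4) F).det = 1 →
        H66.Four.adj hF (x : Matrix (Fin 4) (Fin 4) F) * (x : Matrix (Fin 4) (Fin 4) F) = 1 → x ^ r = 1 →
        (∀ z : F, (x : Matrix (Fin 4) (Fin 4) F) ≠ z • (1 : Matrix (Fin 4) (Fin 4) F)) →
        ∃ g : GL (Fin 4) F, g⁻¹ * x * g ∈ Cfsg.Geo.subgroupNormalizer R ∧ (g⁻¹ * x * g) ^ r = 1 ∧
          ∀ z : F, ((g⁻¹ * x * g : GL (Fin 4) F) : Matrix (Fin 4) (Fin 4) F) ≠ z • (1 : Matrix (Fin 4) (Fin 4) F) := by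
      intro x hxd hxu hxr hns
      obtain ⟨g, -, hg⟩ := hP x ⟨(H66.Four.mem_GU_iff_adj hF x).2 hxu, mem_SL.2 hxd⟩
        ⟨1, by rw [hxr, Units.val_one, one_smul]⟩ hns
      refine ⟨g, hg, ?_, fun z hz => hns z ?_⟩
      · calc (g⁻¹ * x * g) ^ r = (g⁻¹ * x * g⁻¹⁻¹) ^ r := by rw [inv_inv]
          _ = 1 := by rw [conj_pow, hxr]; group
      · have : x = g * (g⁻¹ * x * g) * g⁻¹ := by group
        rw [this, Units.val_mul, Units.val_mul, hz, mul_smul_comm, mul_one, smul_mul_assoc, Units.mul_inv]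
    have hhyp : ∀ (x : GL (Fin 4) F) (a : F) (v φ : Fin 4 → F),
        (x : Matrix (Fin 4) (Fin 4) F) = a • (1 + vecMulVec v φ) → (x : Matrix (Fin 4) (Fin 4) F).det = 1 →
        H66.Four.adj hF (x : Matrix (Fin 4) (Fin 4) F) * (x : Matrix (Fin 4) (Fin 4) F) = 1 → x ^ r = 1 →
        (∀ z : F, (x : Matrix (Fin 4) (Fin 4) F) ≠ z • (1 : Matrix (Fin 4) (Fin 4) F)) → False := by
      intro x a v φ hx hxd hxu hxr hns
      obtain ⟨g, hg1, hg2, hg3⟩ := hsph x hxd hxu hxr hns
      obtain ⟨c, hc⟩ := D.scalar_of_hyperplane h2 hg1 hodd hg2 (a := a)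
        (v := ((g⁻¹ : GL (Fin 4) F) : Matrix (Fin 4) (Fin 4) F) *ᵥ v)
        (φ := φ ᵥ* (g : Matrix (Fin 4) (Fin 4) F)) (by
          rw [Units.val_mul, Units.val_mul, hx, mul_smul_comm, smul_mul_assoc, mul_add, mul_one, add_mul,
            Units.inv_mul, Matrix.mul_vecMulVec, Matrix.vecMulVec_mul])
      exact hg3 c hc
    -- transvections and pseudo-reflections
    have hnotp : r ≠ p := by
      intro hrp
      obtain ⟨α, hα⟩ := H3.exists_norm_eq hF (μ := (-1 : F))
        (by rw [(hpP.eq_two_or_odd'.resolve_left hp2).neg_one_pow])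
      have hα0 : α ≠ 0 := fun e => by rw [e, zero_pow (by omega)] at hα; simp at hα
      let v : Fin 4 → F := ![1, α, 0, 0]
      let φ : Fin 4 → F := fun a => i * H3.conjQ hF (v a)
      have hvφ : φ ⬝ᵥ v = 0 := by
        simp [v, φ, dotProduct, Fin.sum_univ_four]
        linear_combination i * hα
      have hadjN : H66.Four.adj hF (vecMulVec v φ) = -vecMulVec v φ := by
        ext a b
        simp only [H66.Four.adj, Matrix.transpose_apply, Matrix.map_apply, Matrix.vecMulVec_apply, Matrix.neg_apply,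
          φ, map_mul, hσi, H3.conjQ_conjQ]
        ring
      have hNN : vecMulVec v φ * vecMulVec v φ = (0 : Matrix (Fin 4) (Fin 4) F) := by
        rw [Matrix.vecMulVec_mul_vecMulVec, hvφ]; simp
      have hu : H66.Four.adj hF (1 + vecMulVec v φ) * (1 + vecMulVec v φ) = 1 := by
        rw [hJ.add, hJ.one, hadjN, mul_add, add_mul, add_mul, one_mul, one_mul, mul_one, neg_mul, hNN]
        abel
      have hdet : (1 + vecMulVec v φ : Matrix (Fin 4) (Fin 4) F).det = 1 := by
        rw [Matrix.vecMulVec_eq Unit, Matrix.det_one_add_replicateCol_mul_replicateRow, hvφ, add_zero]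
      have hne : (1 + vecMulVec v φ : Matrix (Fin 4) (Fin 4) F).det ≠ 0 := by rw [hdet]; exact one_ne_zero
      refine hhyp (Matrix.GeneralLinearGroup.mkOfDetNeZero _ hne) 1 v φ (by rw [one_smul]; rfl) hdet hu
        (Units.ext ?_) fun z hz => ?_
      · rw [Units.val_pow_eq_pow_val]
        show (1 + vecMulVec v φ) ^ r = 1
        rw [hyperplane_pow, hvφ, hrp]
        simp
      · have h10 : (1 + vecMulVec v φ : Matrix (Fin 4) (Fin 4) F) 1 0 = (z • (1 : Matrix (Fin 4) (Fin 4) F)) 1 0 :=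
          congrFun (congrFun hz 1) 0
        simp only [Matrix.add_apply, Matrix.one_apply, Matrix.vecMulVec_apply, Matrix.smul_apply] at h10
        simp [v, φ, hi0, hα0] at h10
    have hnot1 : ¬ r ∣ p + 1 := by
      intro hd
      have : r ∣ Nat.card Fˣ := by
        rw [Nat.card_eq_fintype_card, Fintype.card_units, hF]
        exact dvd_trans hd ⟨p - 1, by rw [← Nat.sq_sub_sq, one_pow]⟩
      obtain ⟨ζu, hζ⟩ := exists_prime_orderOf_dvd_card' r this
      set ζ : F := (ζu : F)
      have hζr : ζ ^ r = 1 := by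
        rw [← Units.val_pow_eq_pow_val, ← hζ, pow_orderOf_eq_one, Units.val_one]
      have hζ4 : ζ ^ 4 ≠ 1 := fun h => by
        have h' : ζu ^ 4 = 1 := Units.ext (by rw [Units.val_pow_eq_pow_val]; exact h)
        have hd := orderOf_dvd_of_pow_eq_one h'
        rw [hζ] at hd
        have := (Nat.prime_dvd_prime_iff_eq Fact.out Nat.prime_two).1
          ((Fact.out : r.Prime).dvd_of_dvd_pow (n := 2) (by simpa using hd))
        exact hr2 this
      have hζ0 : ζ ≠ 0 := ζu.ne_zero
      have hζN : ζ ^ p * ζ = 1 := by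
        obtain ⟨k, hk⟩ := hd
        rw [← pow_succ, hk, pow_mul, hζr, one_pow]
      set d : F := (ζ ^ 4)⁻¹ with hd4
      let v : Fin 4 → F := ![d - 1, 0, 0, 0]
      let φ : Fin 4 → F := ![1, 0, 0, 0]
      have hvφ : φ ⬝ᵥ v = d - 1 := by simp [v, φ, dotProduct, Fin.sum_univ_four]
      have hdN : d ^ p * d = 1 := by
        rw [hd4, inv_pow, ← mul_inv, ← pow_mul, mul_comm 4 p, pow_mul, ← mul_pow, hζN, one_pow, inv_one]
      let w : Fin 4 → F := ![d ^ p - 1, 0, 0, 0]
      have hadjN : H66.Four.adj hF (vecMulVec v φ) = vecMulVec w φ := by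
        ext a b
        fin_cases a <;> fin_cases b <;>
          simp [H66.Four.adj, Matrix.vecMulVec_apply, v, w, φ, map_sub, zero_pow hpP.ne_zero, -H3.conjQ_apply] <;>
          simp [H3.conjQ_apply]
      have hu : H66.Four.adj hF (ζ • (1 + vecMulVec v φ)) * (ζ • (1 + vecMulVec v φ)) = 1 := by
        rw [H66.Four.adj_smul, hJ.add, hJ.one, hadjN, smul_mul_smul, H3.conjQ_apply, hζN, one_smul]
        ext a b
        fin_cases a <;> fin_cases b <;>
          simp [Matrix.mul_apply, Fin.sum_univ_four, Matrix.vecMulVec_apply, v, w, φ, hdN]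
      have hdet : (ζ • (1 + vecMulVec v φ) : Matrix (Fin 4) (Fin 4) F).det = 1 := by
        rw [Matrix.det_smul, Fintype.card_fin, Matrix.vecMulVec_eq Unit,
          Matrix.det_one_add_replicateCol_mul_replicateRow, hvφ, add_sub_cancel, hd4,
          mul_inv_cancel₀ (pow_ne_zero 4 hζ0)]
      have hne : (ζ • (1 + vecMulVec v φ) : Matrix (Fin 4) (Fin 4) F).det ≠ 0 := by rw [hdet]; exact one_ne_zero
      refine hhyp (Matrix.GeneralLinearGroup.mkOfDetNeZero _ hne) ζ v φ rfl hdet hu (Units.ext ?_) fun z hz => ?_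
      · rw [Units.val_pow_eq_pow_val]
        show (ζ • (1 + vecMulVec v φ) : Matrix (Fin 4) (Fin 4) F) ^ r = 1
        rw [_root_.smul_pow, hζr, one_smul, hyperplane_pow, hvφ, add_sub_cancel]
        have hd1 : d ≠ 1 := fun e => hζ4 (by rw [hd4, inv_eq_one] at e; exact e)
        have hdr : d ^ r = 1 := by rw [hd4, inv_pow, ← pow_mul, mul_comm, pow_mul, hζr, one_pow, inv_one]
        rw [geom_sum_eq hd1, hdr, sub_self, zero_div, zero_smul, add_zero]
      · have h00 : (ζ • (1 + vecMulVec v φ) : Matrix (Fin 4) (Fin 4) F) 0 0 =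
            (z • (1 : Matrix (Fin 4) (Fin 4) F)) 0 0 := congrFun (congrFun hz 0) 0
        have h11 : (ζ • (1 + vecMulVec v φ) : Matrix (Fin 4) (Fin 4) F) 1 1 =
            (z • (1 : Matrix (Fin 4) (Fin 4) F)) 1 1 := congrFun (congrFun hz 1) 1
        simp [v, φ, Matrix.vecMulVec_apply] at h00 h11
        have : d = 1 := mul_left_cancel₀ hζ0 (by linear_combination h00 - h11)
        rw [hd4, inv_eq_one] at this
        exact hζ4 this
    have hr35 : r = 3 ∨ r = 5 := by
      have hdvd : r ∣ Nat.card (Cfsg.GU 4 F p ⊓ Cfsg.Geo.specialLinear (Fin 4) F : Subgroup (GL (Fin 4) F)) :=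
        hΩ.trans (Subgroup.relIndex_dvd_card _ _)
      obtain ⟨x, hx⟩ := exists_prime_orderOf_dvd_card' r hdvd
      have hxr : (x : GL (Fin 4) F) ^ r = 1 := by
        rw [← Subgroup.coe_pow, ← hx, pow_orderOf_eq_one, Subgroup.coe_one]
      have hxd := mem_SL.1 x.2.2
      have hns : ∀ z : F, ((x : GL (Fin 4) F) : Matrix (Fin 4) (Fin 4) F) ≠ z • (1 : Matrix (Fin 4) (Fin 4) F) := by
        intro z hz
        have hpow := congrArg Units.val hxr
        rw [Units.val_pow_eq_pow_val, hz, _root_.smul_pow, one_pow, Units.val_one] at hpow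
        have hzr : z ^ r = 1 := smul_left_injective F (one_ne_zero (α := Matrix (Fin 4) (Fin 4) F))
          (hpow.trans (one_smul F 1).symm)
        rw [hz, Matrix.det_smul, Fintype.card_fin, Matrix.det_one, mul_one] at hxd
        have hd : orderOf z ∣ Nat.gcd r 4 :=
          Nat.dvd_gcd (orderOf_dvd_of_pow_eq_one hzr) (orderOf_dvd_of_pow_eq_one hxd)
        rw [show Nat.gcd r 4 = 1 from (Nat.Coprime.pow_right 2 (Nat.coprime_two_right.2 hodd) : Nat.Coprime r (2 ^ 2)),
          Nat.dvd_one, orderOf_eq_one_iff] at hd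
        rw [hd, one_smul] at hz
        have h1 : x = 1 := Subtype.ext (Units.ext hz)
        rw [h1, orderOf_one] at hx
        exact (Fact.out : r.Prime).one_lt.ne hx
      obtain ⟨g, hg1, hg2, hg3⟩ := hsph x hxd ((H66.Four.mem_GU_iff_adj hF _).1 x.2.1) hxr hns
      have h2r := (Fact.out : r.Prime).two_le
      by_cases h5 : 5 ≤ r
      · exact Or.inr (D.big h2 hg1 h5 hg2 hg3).1
      · rcases Nat.lt_or_ge r 4 with h | h
        · exact Or.inl (by omega)
        · have h4 : r = 4 := by omega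
          subst h4
          exact absurd (Fact.out : Nat.Prime 4) (by norm_num)
    rcases hr35 with rfl | rfl
    · refine Or.inl ⟨rfl, ?_⟩
      have h3 : p % 3 ≠ 0 := fun h => hnotp
        ((Nat.prime_dvd_prime_iff_eq Nat.prime_three hpP).1 (Nat.dvd_of_mod_eq_zero h))
      omega
    · refine Or.inr ⟨rfl, ?_⟩
      by_contra hord
      obtain ⟨c₀, hc₀⟩ := H66.Four.exists_golden (F := ZMod p) hp2 hord
      set c : F := ZMod.castHom dvd_rfl F c₀ with hcdef
      have hc : c * c + c - 1 = 0 := by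
        rw [hcdef, ← map_mul, ← map_add, ← map_one (ZMod.castHom (dvd_refl p) F), ← map_sub, hc₀, map_zero]
      have hcσ : c ^ p = c := by rw [hcdef, ← map_pow, ZMod.pow_card]
      set α : F := c / 2 with hα
      have hασ : α ^ p = α := by
        rw [hα, div_pow, hcσ]
        have : H3.conjQ hF (2 : F) = 2 := map_ofNat _ 2
        rw [H3.conjQ_apply] at this
        rw [this]
      obtain ⟨β, hβ⟩ := H3.exists_norm_eq hF (μ := 1 - α * α) (by
        rw [← H3.conjQ_apply hF, map_sub, map_one, map_mul, H3.conjQ_apply, hασ])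
      set γ : F := -(β ^ p) with hγ
      have hβγ : β * γ = α * α - 1 := by rw [hγ, mul_neg, ← pow_succ', hβ]; ring
      have hβp : (β ^ p) ^ p = β := H3.pow_q_pow_q hF β
      let a : Matrix (Fin 4) (Fin 4) F := !![α, β, 0, 0; γ, α, 0, 0; 0, 0, 1, 0; 0, 0, 0, 1]
      have hβ' : β ^ p * β = 1 - α * α := by rw [← pow_succ]; exact hβ
      have hau : H66.Four.adj hF a * a = 1 := by
        ext u v
        fin_cases u <;> fin_cases v <;>
          simp [H66.Four.adj, a, Matrix.mul_apply, Fin.sum_univ_four, hασ, hγ, (hpP.eq_two_or_odd'.resolve_left hp2).neg_pow,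
            hβp, zero_pow hpP.ne_zero] <;> first | ring1 | linear_combination hβ' | linear_combination -hβ'
      have had : a.det = 1 := by
        simp [a, Matrix.det_succ_row_zero, Fin.sum_univ_succ, Fin.succAbove]
        linear_combination -hβγ
      have hc2 : c = 2 * α := by rw [hα]; field_simp
      have hrel : (a - 1) * (a * a - c • a + 1) = 0 := by
        ext u v
        fin_cases u <;> fin_cases v <;>
          simp [a, Matrix.mul_apply, Fin.sum_univ_four, hc2] <;>
          first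
            | linear_combination (α - 1) * hβγ
            | linear_combination β * hβγ
            | linear_combination γ * hβγ
            | linear_combination (0 : F) * hβγ
      have ha5 : a ^ 5 = 1 := by
        have hpoly : (X ^ 5 - 1 : F[X]) = (X - 1) * (X * X - C c * X + 1) * (X * X + C (c + 1) * X + 1) := by
          have hC : (C c * C c + C c - 1 : F[X]) = 0 := by rw [← C_mul, ← C_add, ← C_1, ← C_sub, hc, C_0]
          rw [C_add, C_1]
          linear_combination ((X - 1) * X ^ 2) * hC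
        have := congrArg (aeval a) hpoly
        simp only [map_sub, map_mul, map_add, map_pow, map_one, aeval_X, aeval_C, Algebra.algebraMap_eq_smul_one,
          smul_mul_assoc, one_mul] at this
        rw [hrel, zero_mul, sub_eq_zero] at this
        exact this
      let xg : GL (Fin 4) F := ⟨a, H66.Four.adj hF a, mul_eq_one_comm.1 hau, hau⟩
      have hns : ∀ z : F, a ≠ z • (1 : Matrix (Fin 4) (Fin 4) F) := by
        intro z hz
        have h22 := congrFun (congrFun hz 2) 2
        have h00 := congrFun (congrFun hz 0) 0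
        simp [a] at h22 h00
        have : c = 2 := by rw [hc2, h00, ← h22, mul_one]
        rw [this] at hc
        have h55 : (5 : F) = 0 := by linear_combination hc
        rw [show (5 : F) = ((5 : ℕ) : F) by norm_num, CharP.cast_eq_zero_iff F p,
          Nat.prime_dvd_prime_iff_eq Fact.out Nat.prime_five] at h55
        omega
      obtain ⟨g, hg1, hg2, hg3⟩ := hsph xg had hau (Units.ext (by
        rw [Units.val_pow_eq_pow_val]; exact ha5)) hns
      have h := D.trace_mul_trace h2 hg1 (D.big h2 hg1 le_rfl hg2 hg3).2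
      have ta : a.trace = c + 2 := by simp [a, Matrix.trace, Fin.sum_univ_four, hc2]; ring
      have t1' : ((g⁻¹ * xg * g : GL (Fin 4) F) : Matrix (Fin 4) (Fin 4) F).trace = c + 2 := by
        rw [Units.val_mul, Units.val_mul, Matrix.trace_units_conj']; exact ta
      have t2' : (((g⁻¹ * xg * g)⁻¹ : GL (Fin 4) F) : Matrix (Fin 4) (Fin 4) F).trace = c + 2 := by
        rw [show (g⁻¹ * xg * g)⁻¹ = g⁻¹ * xg⁻¹ * g by group, Units.val_mul, Units.val_mul,
          Matrix.trace_units_conj']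
        show (H66.Four.adj hF a).trace = c + 2
        rw [H66.Four.trace_adj, ta, map_add, H3.conjQ_apply, hcσ, map_ofNat]
      rw [t1', t2'] at h
      have hlin : 3 * c + 4 = 0 := by linear_combination h - hc
      have h55 : (5 : F) = 0 := by linear_combination (-1 : F) * (9 * hc - (3 * c - 1) * hlin)
      rw [show (5 : F) = ((5 : ℕ) : F) by norm_num, CharP.cast_eq_zero_iff F p] at h55
      exact hnotp ((Nat.prime_dvd_prime_iff_eq Fact.out Nat.prime_five).1 h55).symm
  · intro hcase x hxS ⟨z, hz⟩ hns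
    obtain ⟨hxU, hxSL⟩ := hxS
    have hxd := mem_SL.1 hxSL
    have hxadj := (H66.Four.mem_GU_iff_adj hF x).1 hxU
    rw [Units.val_pow_eq_pow_val] at hz
    have hz4 : z ^ 4 = 1 := by
      have h := congrArg Matrix.det hz
      rw [Matrix.det_pow, hxd, one_pow, Matrix.det_smul, Fintype.card_fin, Matrix.det_one, mul_one] at h
      exact h.symm
    have hz0 : z ≠ 0 := fun e => by simp [e] at hz4
    have hnorm4 : ∀ μ : F, μ ^ 4 = 1 → μ ^ p * μ = 1 := fun μ hμ => by
      rw [← pow_succ, show p + 1 = 4 * ((p + 1) / 4) by omega, pow_mul, hμ, one_pow]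
    have hop : ∀ (y : GL (Fin 4) F) (k : ℕ), y ^ k = 1 → k.Coprime p → (orderOf y).Coprime p :=
      fun y k hy hne => hne.coprime_dvd_left (orderOf_dvd_of_pow_eq_one hy)
    have hxop : ∀ k, r = k → k.Coprime p → (orderOf x).Coprime p := by
      intro k hk hkp
      subst hk
      refine hop x (r * 4) (Units.ext ?_)
        (Nat.Coprime.mul_left hkp (((Nat.coprime_primes Nat.prime_two hpP).2 (Ne.symm hp2)).pow_left 2))
      rw [Units.val_pow_eq_pow_val, pow_mul, hz, _root_.smul_pow, one_pow, hz4, one_smul, Units.val_one]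
    have hscalU : ∀ (μ : F) (s : GL (Fin 4) F), (s : Matrix (Fin 4) (Fin 4) F) = μ • (1 : Matrix (Fin 4) (Fin 4) F) →
        μ ^ p * μ = 1 → s ∈ Cfsg.GU 4 F p := by
      intro μ s hs hμ
      rw [H66.Four.mem_GU_iff_adj hF, hs, H66.Four.adj_smul, H66.Four.adj_one, smul_mul_smul, one_mul, H3.conjQ_apply,
        hμ, one_smul]
    have hdesc : ∀ (μ : F), μ ≠ 0 → μ ^ r = z →
        ∃ s y : GL (Fin 4) F, (∀ g, s * g = g * s) ∧ (s : Matrix (Fin 4) (Fin 4) F) = μ • (1 : Matrix (Fin 4) (Fin 4) F) ∧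
          x = s * y ∧ y ^ r = 1 ∧ ∀ c : F, (y : Matrix (Fin 4) (Fin 4) F) ≠ c • (1 : Matrix (Fin 4) (Fin 4) F) := by
      intro μ hμ hμr
      obtain ⟨s, hs, hsc⟩ := exists_scalar (F := F) hμ
      refine ⟨s, s⁻¹ * x, hsc, hs, (mul_inv_cancel_left s x).symm, ?_, fun c hc => hns (μ * c) ?_⟩
      · have hxs : x ^ r = s ^ r := Units.ext (by
          rw [Units.val_pow_eq_pow_val, Units.val_pow_eq_pow_val, hz, hs, _root_.smul_pow, one_pow, hμr])
        rw [(show Commute s x from hsc x).inv_left.mul_pow, hxs, inv_pow, inv_mul_cancel]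
      · rw [← mul_inv_cancel_left s x, Units.val_mul, hc, hs, smul_mul_smul, one_mul]
    rcases hcase with rfl | ⟨rfl, hp31⟩ | ⟨rfl, hord⟩
    · have hring : ringChar F ≠ 2 := by rw [ringChar.eq F p]; exact hp2
      obtain ⟨μ, hμ⟩ : IsSquare z := by
        rw [FiniteField.isSquare_iff hring hz0, hF]
        obtain ⟨k, hk⟩ : ∃ k, p ^ 2 / 2 = 4 * k := by
          obtain ⟨m, hm⟩ : ∃ m, p = 4 * m + 3 := ⟨p / 4, by omega⟩
          refine ⟨2 * m * m + 3 * m + 1, ?_⟩
          subst hm
          ring_nf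
          omega
        rw [hk, pow_mul, hz4, one_pow]
      have hμ0 : μ ≠ 0 := fun e => hz0 (by rw [hμ, e, mul_zero])
      obtain ⟨s, y, hs, hsv, hx, hy2, hyns⟩ := hdesc μ hμ0 (by rw [pow_two, hμ])
      have hyy : (y : Matrix (Fin 4) (Fin 4) F) * y = 1 := by
        have := congrArg Units.val hy2
        rwa [pow_two, Units.val_mul] at this
      obtain ⟨b, hb, hcp, htr, hdet⟩ := H66.Four.charpoly_involution h2 hyy
      have hcop2 : Nat.Coprime 2 p := (Nat.coprime_primes Nat.prime_two hpP).2 (Ne.symm hp2)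
      have hyc := hop y 2 hy2 hcop2
      have hsq : ∀ u : GL (Fin 4) F, (u : Matrix (Fin 4) (Fin 4) F) * u = 1 → u ^ 2 = 1 := fun u hu => by
        rw [pow_two]; exact Units.ext hu
      have hrange : ∀ (u : GL (Fin 4) F) (b' : ℕ), (u : Matrix (Fin 4) (Fin 4) F) * u = 1 →
          (∀ c : F, (u : Matrix (Fin 4) (Fin 4) F) ≠ c • (1 : Matrix (Fin 4) (Fin 4) F)) → b' ≤ 4 →
          (u : Matrix (Fin 4) (Fin 4) F).charpoly = (X - C (-1)) ^ b' * (X - C 1) ^ (4 - b') → 1 ≤ b' ∧ b' ≤ 3 := by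
        intro u b' hu huns hb' hc
        have hscal : ∀ c : F, c * c = 1 → (u : Matrix (Fin 4) (Fin 4) F).charpoly = (X - C c) ^ 4 → False := by
          intro c hc2 hc
          have hc0 : c ≠ 0 := fun e => by simp [e] at hc2
          obtain ⟨w, hw, hwc⟩ := exists_scalar (F := F) hc0
          have hww : (w : Matrix (Fin 4) (Fin 4) F) * w = 1 := by rw [hw, smul_mul_smul, mul_one, hc2, one_smul]
          obtain ⟨g, hg⟩ := isConj_iff.1 (H66.isConj_of_charpoly_eq p (hop u 2 (hsq u hu) hcop2)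
            (hop w 2 (hsq w hww) hcop2)
            (by rw [hc, hw, Matrix.smul_one_eq_diagonal, Matrix.charpoly_diagonal]; simp))
          exact huns c (by rw [show u = g⁻¹ * w * g by rw [← hg]; group, Units.val_mul, Units.val_mul, hw,
            mul_smul_comm, mul_one, smul_mul_assoc, Units.inv_mul])
        constructor
        · by_contra h0
          have : b' = 0 := by omega
          subst this
          exact hscal 1 (one_mul 1) (by simpa using hc)
        · by_contra h4
          have : b' = 4 := by omega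
          subst this
          exact hscal (-1) (by ring) (by simpa using hc)
      have hbr := hrange y b hyy hyns hb hcp
      have hμN : μ ^ p * μ = 1 := by
        by_cases hbe : b = 2
        · refine hnorm4 μ ?_
          have h := congrArg (fun u : GL (Fin 4) F => (u : Matrix (Fin 4) (Fin 4) F).det) hx
          simp only [Units.val_mul, Matrix.det_mul, hsv, Matrix.det_smul, Fintype.card_fin, Matrix.det_one, mul_one,
            hxd, hdet, hbe] at h
          linear_combination -h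
        · have ht0 : (y : Matrix (Fin 4) (Fin 4) F).trace ≠ 0 := by
            rw [htr]
            intro h
            exact hbe (eq_of_trace_eq_mid hp3 hbr ⟨by norm_num, by norm_num⟩ (by push_cast; linear_combination h))
          have hxm : (x : Matrix (Fin 4) (Fin 4) F) = μ • (y : Matrix (Fin 4) (Fin 4) F) := by
            rw [hx, Units.val_mul, hsv, smul_mul_assoc, one_mul]
          have hu := hxadj
          rw [hxm, H66.Four.adj_smul, smul_mul_smul, H3.conjQ_apply] at hu
          have hy' := congrArg (fun M : Matrix (Fin 4) (Fin 4) F => M * (y : Matrix (Fin 4) (Fin 4) F)) hu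
          simp only [smul_mul_assoc, mul_assoc, hyy, mul_one, one_mul] at hy'
          have ht := congrArg Matrix.trace hy'
          rw [Matrix.trace_smul, H66.Four.trace_adj, htr, map_sub, map_mul, map_natCast, map_ofNat, map_ofNat,
            ← htr, smul_eq_mul] at ht
          exact mul_right_cancel₀ ht0 (ht.trans (one_mul _).symm)
      have hsU := hscalU μ s hsv hμN
      have hxo := hxop 2 rfl hcop2
      obtain ⟨⟨Y, hYN, hYY, hYt, hYns, hYu⟩, ⟨T₀, hTN, hTT, hTt, hTns, hTu⟩⟩ := D.exists_two_adjoint h2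
      have hYU := (H66.Four.mem_GU_iff_adj hF Y).2 (hYu _ hJ hRadj)
      have hTU := (H66.Four.mem_GU_iff_adj hF T₀).2 (hTu _ hJ hRadj)
      have hkey : ∀ u : GL (Fin 4) F, u ∈ Cfsg.Geo.subgroupNormalizer R → u ∈ Cfsg.GU 4 F p →
          (u : Matrix (Fin 4) (Fin 4) F) * u = 1 →
          (y : Matrix (Fin 4) (Fin 4) F).charpoly = (u : Matrix (Fin 4) (Fin 4) F).charpoly →
          ∃ g ∈ Cfsg.GU 4 F p ⊓ Cfsg.Geo.specialLinear (Fin 4) F, g⁻¹ * x * g ∈ Cfsg.Geo.subgroupNormalizer R :=
        fun u huN huU huu hc => conj_into_normalizer hF R hs hsU hx hxU hxd hxo hyc (hop u 2 (hsq u huu) hcop2) huU hc huN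
      obtain ⟨b₁, hb₁, hcY, htY, -⟩ := H66.Four.charpoly_involution h2 hYY
      obtain ⟨b₂, hb₂, hcT, htT, -⟩ := H66.Four.charpoly_involution h2 hTT
      have e1 : b₁ = 1 := eq_of_trace_eq_mid (F := F) hp3 (hrange Y b₁ hYY hYns hb₁ hcY) ⟨le_rfl, by norm_num⟩
        (by rw [← htY, hYt]; push_cast; ring)
      have e2 : b₂ = 2 := eq_of_trace_eq_mid (F := F) hp3 (hrange T₀ b₂ hTT hTns hb₂ hcT) ⟨by norm_num, by norm_num⟩
        (by rw [← htT, hTt]; push_cast; ring)
      have hb' : b = 1 ∨ b = 2 ∨ b = 3 := by omega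
      rcases hb' with rfl | rfl | rfl
      · exact hkey Y hYN hYU hYY (by rw [hcp, hcY, e1])
      · exact hkey T₀ hTN hTU hTT (by rw [hcp, hcT, e2])
      · obtain ⟨n1, hn1, hn1c⟩ := exists_scalar (F := F) (neg_ne_zero.2 (one_ne_zero (α := F)))
        have hn1U := hscalU (-1) n1 hn1 (hnorm4 _ (by norm_num))
        have hv : ((n1 * Y : GL (Fin 4) F) : Matrix (Fin 4) (Fin 4) F) = -(Y : Matrix (Fin 4) (Fin 4) F) := by
          rw [Units.val_mul, hn1, smul_mul_assoc, one_mul, neg_one_smul]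
        have hvv : ((n1 * Y : GL (Fin 4) F) : Matrix (Fin 4) (Fin 4) F) * (n1 * Y : GL (Fin 4) F) = 1 := by
          rw [hv, neg_mul_neg, hYY]
        have hvns : ∀ c : F, ((n1 * Y : GL (Fin 4) F) : Matrix (Fin 4) (Fin 4) F) ≠ c • (1 : Matrix (Fin 4) (Fin 4) F) :=
          fun c hc => hYns (-c) (by rw [neg_smul, ← hc, hv, neg_neg])
        obtain ⟨b₃, hb₃, hc3, ht3, -⟩ := H66.Four.charpoly_involution h2 hvv
        have e3 : b₃ = 3 := eq_of_trace_eq_mid (F := F) hp3 (hrange _ b₃ hvv hvns hb₃ hc3) ⟨by norm_num, le_rfl⟩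
          (by rw [← ht3, hv, Matrix.trace_neg, hYt]; push_cast; ring)
        exact hkey _ (Subgroup.mul_mem _ (scalar_mem_normalizer R hn1c) hYN) (Subgroup.mul_mem _ hn1U hYU) hvv
          (by rw [hcp, hc3, e3])
    · obtain ⟨s, y, hs, hsv, hx, hy3, hyns⟩ := hdesc (z ^ 3) (pow_ne_zero _ hz0)
        (by calc (z ^ 3) ^ 3 = (z ^ 4) ^ 2 * z := by ring
              _ = z := by rw [hz4, one_pow, one_mul])
      have hsU := hscalU _ s hsv (hnorm4 _ (by rw [← pow_mul, mul_comm, pow_mul, hz4, one_pow]))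
      have hp5 : 5 ≤ p := by omega
      have hcop3 : Nat.Coprime 3 p := (Nat.coprime_primes Nat.prime_three hpP).2 (by omega)
      have hyc := hop y 3 hy3 hcop3
      obtain ⟨ωu, hωu⟩ := exists_prime_orderOf_dvd_card' (G := Fˣ) 3 (by
        rw [Nat.card_eq_fintype_card, Fintype.card_units, hF]
        obtain ⟨m, hm⟩ : ∃ m, p = 3 * m + 1 := ⟨p / 3, by omega⟩
        refine ⟨3 * m * m + 2 * m, ?_⟩
        subst hm
        ring_nf
        omega)
      set ω : F := (ωu : F) with hωdef
      have hω : IsPrimitiveRoot ω 3 := by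
        have h := IsPrimitiveRoot.orderOf ω
        rw [orderOf_units, hωu] at h
        exact h
      have h30 : (3 : F) ≠ 0 := fun h => by
        rw [show (3 : F) = ((3 : ℕ) : F) by norm_num, CharP.cast_eq_zero_iff F p,
          Nat.prime_dvd_prime_iff_eq Fact.out Nat.prime_three] at h
        omega
      have hclass : ∀ u : GL (Fin 4) F, u ^ 3 = 1 → u ∈ Cfsg.GU 4 F p → u ≠ 1 →
          ((u : Matrix (Fin 4) (Fin 4) F).charpoly = ((X - C ω) * (X - C (ω ^ 2))) ^ 2 ∧
            (u : Matrix (Fin 4) (Fin 4) F).trace = -2) ∨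
          ((u : Matrix (Fin 4) (Fin 4) F).charpoly = (X - C 1) ^ 2 * ((X - C ω) * (X - C (ω ^ 2))) ∧
            (u : Matrix (Fin 4) (Fin 4) F).trace = 1) := by
        intro u hu huU hu1
        have huv : (u : Matrix (Fin 4) (Fin 4) F) ^ 3 = 1 := by rw [← Units.val_pow_eq_pow_val, hu, Units.val_one]
        refine (H66.Four.charpoly_three_unitary hF hp31 hp5 hω huv
          ((H66.Four.mem_GU_iff_adj hF u).1 huU)).resolve_left fun hc => hu1 ?_
        obtain ⟨g, hg⟩ := isConj_iff.1 (H66.isConj_of_charpoly_eq p (hop u 3 hu hcop3)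
          (show (orderOf (1 : GL (Fin 4) F)).Coprime p by simp) (by rw [hc, Units.val_one, Matrix.charpoly_one]; simp))
        rw [show u = g⁻¹ * (g * u * g⁻¹) * g by group, hg]; group
      have hyU : y ∈ Cfsg.GU 4 F p := by
        rw [show y = s⁻¹ * x by rw [hx]; group]
        exact Subgroup.mul_mem _ (Subgroup.inv_mem _ hsU) hxU
      have hy1 : y ≠ 1 := fun e => hyns 1 (by rw [e, Units.val_one, one_smul])
      have hne : ∀ u : GL (Fin 4) F, ((u : Matrix (Fin 4) (Fin 4) F).trace = -2 ∨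
          (u : Matrix (Fin 4) (Fin 4) F).trace = 1) → u ≠ 1 := by
        intro u hu e
        rw [e, Units.val_one, Matrix.trace_one, Fintype.card_fin] at hu
        rcases hu with h | h
        · exact h30 (mul_left_cancel₀ h2 (by push_cast at h; linear_combination h))
        · exact h30 (by push_cast at h; linear_combination h)
      obtain ⟨⟨u₁, hu₁N, hu₁, ht₁, hu₁J⟩, ⟨u₂, hu₂N, hu₂, ht₂, hu₂J⟩⟩ := D.exists_three_adjoint h2
      have hU₁ := (H66.Four.mem_GU_iff_adj hF u₁).2 (hu₁J _ hJ hRadj)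
      have hU₂ := (H66.Four.mem_GU_iff_adj hF u₂).2 (hu₂J _ hJ hRadj)
      have hxo := hxop 3 rfl hcop3
      rcases hclass y hy3 hyU hy1 with ⟨a, a'⟩ | ⟨a, a'⟩
      · rcases hclass u₁ hu₁ hU₁ (hne u₁ (Or.inl ht₁)) with ⟨b, b'⟩ | ⟨b, b'⟩
        · exact conj_into_normalizer hF R hs hsU hx hxU hxd hxo hyc (hop u₁ 3 hu₁ hcop3) hU₁ (a.trans b.symm) hu₁N
        · exact absurd (by linear_combination ht₁ - b' : (3 : F) = 0) h30
      · rcases hclass u₂ hu₂ hU₂ (hne u₂ (Or.inr ht₂)) with ⟨b, b'⟩ | ⟨b, b'⟩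
        · exact absurd (by linear_combination b' - ht₂ : (3 : F) = 0) h30
        · exact conj_into_normalizer hF R hs hsU hx hxU hxd hxo hyc (hop u₂ 3 hu₂ hcop3) hU₂ (a.trans b.symm) hu₂N
    · obtain ⟨s, y, hs, hsv, hx, hy5, hyns⟩ := hdesc z hz0 (by rw [pow_succ, hz4, one_mul])
      have hsU := hscalU _ s hsv (hnorm4 _ hz4)
      have hcop5 : Nat.Coprime 5 p := (Nat.coprime_primes Nat.prime_five hpP).2 (by omega)
      have hyU : y ∈ Cfsg.GU 4 F p := by
        rw [show y = s⁻¹ * x by rw [hx]; group]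
        exact Subgroup.mul_mem _ (Subgroup.inv_mem _ hsU) hxU
      obtain ⟨w, hwN, hw5⟩ := D.exists_five_elt h2
      set h := w ^ (orderOf w / 5) with hh
      have hho : orderOf h = 5 := orderOf_pow_orderOf_div (orderOf_pos w).ne' hw5
      have hh5 : h ^ 5 = 1 := hho ▸ pow_orderOf_eq_one h
      have hhN : h ∈ Cfsg.Geo.subgroupNormalizer R := Subgroup.pow_mem _ hwN _
      obtain ⟨c, hc, hcp'⟩ := exists_multiplier hF R D hRadj hhN
      have hc5 : c ^ 5 = 1 := by
        have hk : ∀ k : ℕ, H66.Four.adj hF ((h ^ k : GL (Fin 4) F) : Matrix (Fin 4) (Fin 4) F) *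
            ((h ^ k : GL (Fin 4) F) : Matrix (Fin 4) (Fin 4) F) = c ^ k • (1 : Matrix (Fin 4) (Fin 4) F) := by
          intro k
          induction k with
          | zero => simp [H66.Four.adj_one]
          | succ k ih =>
            rw [pow_succ h, Units.val_mul, H66.Four.adj_mul, mul_assoc, ← mul_assoc _ _ (h : Matrix (Fin 4) (Fin 4) F),
              ih, smul_mul_assoc, one_mul, mul_smul_comm, hc, smul_smul, pow_succ]
        have e := hk 5
        rw [hh5, Units.val_one, H66.Four.adj_one, one_mul] at e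
        exact smul_left_injective F (one_ne_zero (α := Matrix (Fin 4) (Fin 4) F)) (e.symm.trans (one_smul F 1).symm)
      have hc1 : c = 1 := by
        have hc0 : c ≠ 0 := fun e => by simp [e] at hc5
        have hp1 : c ^ (p - 1) = 1 := mul_right_cancel₀ hc0 (by
          rw [← pow_succ, Nat.sub_add_cancel hpP.one_le, hcp', one_mul])
        have hd := Nat.dvd_gcd (orderOf_dvd_of_pow_eq_one hc5) (orderOf_dvd_of_pow_eq_one hp1)
        have hg : Nat.gcd 5 (p - 1) = 1 := by
          refine (Nat.prime_five.coprime_iff_not_dvd).2 fun h5 => ?_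
          have e : (p : ZMod 5) = 1 := by
            rw [← Nat.sub_add_cancel hpP.one_le, Nat.cast_add, (ZMod.natCast_eq_zero_iff _ 5).2 h5, zero_add,
              Nat.cast_one]
          rw [e, orderOf_one] at hord; omega
        rw [hg, Nat.dvd_one, orderOf_eq_one_iff] at hd
        exact hd
      rw [hc1, one_smul] at hc
      have hhU := (H66.Four.mem_GU_iff_adj hF h).2 hc
      have hh1 : (h : Matrix (Fin 4) (Fin 4) F) ≠ 1 := fun e => by
        rw [show h = 1 from Units.ext e, orderOf_one] at hho; omega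
      have hy1 : (y : Matrix (Fin 4) (Fin 4) F) ≠ 1 := fun e => hyns 1 (by rw [e, one_smul])
      exact conj_into_normalizer hF R hs hsU hx hxU hxd (hxop 5 rfl hcop5) (hop y 5 hy5 hcop5) (hop h 5 hh5 hcop5) hhU
        ((H66.Four.charpoly_five_unitary hF hord (by rw [← Units.val_pow_eq_pow_val, hy5, Units.val_one]) hy1
            ((H66.Four.mem_GU_iff_adj hF y).1 hyU)).trans
          (H66.Four.charpoly_five_unitary hF hord (by rw [← Units.val_pow_eq_pow_val, hh5, Units.val_one]) hh1 hc).symm)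
        hhN

end Cfsg.Agent.S6001
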