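import Cfsg.Statements.S6002
import Cfsg.Agent.H66.MinusNormalizer
import Cfsg.Agent.H66.SemisimpleSp
import Cfsg.Agent.H66.PGLInvolutions
import Cfsg.Agent.H2.SpGL
-- import your own Cfsg.Agent.* helpers here

set_option autoImplicit false
open scoped MatrixGroups
open Cfsg

namespace Cfsg.Agent.S6002

open Matrix Polynomial

section Helpers

variable {F : Type*} [Field F]

local notation "M₄" => Matrix (Fin 2 ⊕ Fin 2) (Fin 2 ⊕ Fin 2) F

/-- A two by two matrix acting on one hyperbolic plane. -/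
def blk (m : Matrix (Fin 2) (Fin 2) F) : M₄ :=
  Matrix.fromBlocks !![m 0 0, 0; 0, 1] !![m 0 1, 0; 0, 0] !![m 1 0, 0; 0, 0] !![m 1 1, 0; 0, 1]

theorem blk_mul (m n : Matrix (Fin 2) (Fin 2) F) : blk m * blk n = blk (m * n) := by
  simp only [blk, Matrix.fromBlocks_multiply, Matrix.mul_apply, Fin.sum_univ_two]
  ext i j
  rcases i with i | i <;> rcases j with j | j <;> fin_cases i <;> fin_cases j <;> simp

theorem blk_one : blk (1 : Matrix (Fin 2) (Fin 2) F) = 1 := by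
  ext i j
  rcases i with i | i <;> rcases j with j | j <;> fin_cases i <;> fin_cases j <;> simp [blk, Matrix.one_apply]

theorem blk_pow (m : Matrix (Fin 2) (Fin 2) F) : ∀ k : ℕ, blk m ^ k = blk (m ^ k)
  | 0 => by rw [pow_zero, pow_zero, blk_one]
  | k + 1 => by rw [pow_succ, pow_succ, blk_pow m k, blk_mul]

theorem mem_spGL_iff {g : GL (Fin 2 ⊕ Fin 2) F} :
    g ∈ Cfsg.spGL 2 F ↔ (g : M₄) ∈ Matrix.symplecticGroup (Fin 2) F := by
  constructor
  · exact fun h => (((Cfsg.Agent.H2.spEquivSpGL 2 F).symm ⟨g, h⟩)).2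
  · intro h
    have h' := (Cfsg.Agent.H2.spEquivSpGL 2 F ⟨(g : M₄), h⟩).2
    have e : ((Cfsg.Agent.H2.spEquivSpGL 2 F ⟨(g : M₄), h⟩ : Cfsg.spGL 2 F) : GL (Fin 2 ⊕ Fin 2) F) = g :=
      Units.ext rfl
    rwa [e] at h'

theorem transpose_J_mul {g : GL (Fin 2 ⊕ Fin 2) F} (hg : g ∈ Cfsg.spGL 2 F) :
    (g : M₄)ᵀ * Matrix.J (Fin 2) F * (g : M₄) = Matrix.J (Fin 2) F :=
  SymplecticGroup.mem_iff'.1 (mem_spGL_iff.1 hg)

theorem det_eq_one {g : GL (Fin 2 ⊕ Fin 2) F} (hg : g ∈ Cfsg.spGL 2 F) : (g : M₄).det = 1 :=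
  SymplecticGroup.det_eq_one (mem_spGL_iff.1 hg)

theorem nonsquare_five : ∀ a : ZMod 5, ¬ IsSquare a → a ^ 4 = 1 ∧ ¬ a ^ 2 = 1 := by
  have key : ∀ a : ZMod 5, (∀ b : ZMod 5, a ≠ b * b) → a ^ 4 = 1 ∧ ¬ a ^ 2 = 1 := by decide
  exact fun a ha => key a fun b hb => ha ⟨b, hb⟩

/-- The companion element of trace `c + 2`. -/
def comp (c : F) : GL (Fin 2 ⊕ Fin 2) F where
  val := blk !![0, -1; 1, c]
  inv := blk !![c, 1; -1, 0]
  val_inv := by rw [blk_mul, ← blk_one]; congr 1; ext i j; fin_cases i <;> fin_cases j <;> simp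
  inv_val := by rw [blk_mul, ← blk_one]; congr 1; ext i j; fin_cases i <;> fin_cases j <;> simp

theorem comp_mem (c : F) : comp c ∈ Cfsg.spGL 2 F := by
  rw [mem_spGL_iff, SymplecticGroup.mem_iff]
  show blk !![0, -1; 1, c] * Matrix.J (Fin 2) F * (blk !![0, -1; 1, c])ᵀ = Matrix.J (Fin 2) F
  simp only [blk, Matrix.J, Matrix.fromBlocks_transpose, Matrix.fromBlocks_multiply]
  ext i j
  rcases i with i | i <;> rcases j with j | j <;> fin_cases i <;> fin_cases j <;>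
    simp [Matrix.mul_apply, Matrix.vecMul, dotProduct, Matrix.transpose_apply, Fin.sum_univ_two] <;> ring

theorem comp_pow_three : comp (-1 : F) ^ 3 = 1 := by
  refine Units.ext ?_
  rw [Units.val_pow_eq_pow_val, Units.val_one]
  show blk _ ^ 3 = 1
  rw [blk_pow, ← blk_one]; congr 1
  ext i j; fin_cases i <;> fin_cases j <;> simp [pow_succ]

theorem comp_pow_five {c : F} (hc : c * c + c - 1 = 0) : comp c ^ 5 = 1 := by
  refine Units.ext ?_
  rw [Units.val_pow_eq_pow_val, Units.val_one]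
  show blk _ ^ 5 = 1
  rw [blk_pow, ← blk_one]; congr 1
  set a : Matrix (Fin 2) (Fin 2) F := !![0, -1; 1, c]
  have h2 : a ^ 2 = !![-1, -c; c, -c] := by
    ext i j; fin_cases i <;> fin_cases j <;> simp [a, pow_two] <;> linear_combination hc
  have h4 : a ^ 4 = !![c, 1; -1, 0] := by
    rw [show 4 = 2 + 2 from rfl, pow_add, h2]
    ext i j; fin_cases i <;> fin_cases j <;> simp
    · linear_combination -hc
    · linear_combination hc
    · linear_combination -hc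
  rw [pow_succ, h4]
  ext i j; fin_cases i <;> fin_cases j <;> simp [a]

theorem comp_ne_scalar (c z : F) : ((comp c : GL (Fin 2 ⊕ Fin 2) F) : M₄) ≠ z • (1 : M₄) := by
  intro h
  have := congrFun (congrFun h (Sum.inr 0)) (Sum.inl 0)
  simp [comp, blk] at this

theorem trace_comp (c : F) :
    (comp c : M₄).trace = c + 2 ∧ (((comp c)⁻¹ : GL (Fin 2 ⊕ Fin 2) F) : M₄).trace = c + 2 := by
  constructor
  · show (blk _).trace = _
    simp [blk, Matrix.trace, Fintype.sum_sum_type, Fin.sum_univ_two]; ring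
  · show (blk _).trace = _
    simp [blk, Matrix.trace, Fintype.sum_sum_type, Fin.sum_univ_two]; ring

theorem scalar_sq {x : GL (Fin 2 ⊕ Fin 2) F} (hx : x ∈ Cfsg.spGL 2 F) {z : F} (hz : (x : M₄) = z • (1 : M₄)) :
    z * z = 1 := by
  have h := transpose_J_mul hx
  rw [hz, Matrix.transpose_smul, Matrix.transpose_one, smul_mul_assoc, one_mul, mul_smul_comm, mul_one,
    smul_smul] at h
  have := congrFun (congrFun h (Sum.inl 0)) (Sum.inr 0)
  simpa [Matrix.J] using this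

theorem charpoly_eq_cyclotomic {p : ℕ} [Fact p.Prime] [CharP F p] [Fintype F] (hF : Fintype.card F = p)
    (h5 : orderOf (p : ZMod 5) = 4) {x : GL (Fin 2 ⊕ Fin 2) F} (hx : x ^ 5 = 1) (hx1 : x ≠ 1) :
    (x : M₄).charpoly = cyclotomic 5 F := by
  haveI : Fact (Nat.Prime 5) := ⟨Nat.prime_five⟩
  have hcop : p.Coprime 5 := (ZMod.isUnit_iff_coprime p 5).1 (by
    have h4 := pow_orderOf_eq_one (p : ZMod 5)
    rw [h5] at h4
    exact IsUnit.of_mul_eq_one ((p : ZMod 5) ^ 3) (by rw [← pow_succ']; exact h4))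
  have hdeg : (cyclotomic 5 F).natDegree = 4 := by rw [natDegree_cyclotomic]; decide
  have hirr : Irreducible (cyclotomic 5 F) :=
    Polynomial.irreducible_of_dvd_cyclotomic_of_natDegree (f := 1) (p := p) (n := 5) (by rw [hF, pow_one]) hcop
      dvd_rfl (by rw [hdeg, ← orderOf_units, ZMod.coe_unitOfCoprime, pow_one, h5])
  have hint : IsIntegral F (x : M₄) := Matrix.isIntegral _
  have hdvd : minpoly F (x : M₄) ∣ (X - C 1) * cyclotomic 5 F := by
    refine minpoly.dvd F _ ?_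
    rw [show (X - C 1 : F[X]) * cyclotomic 5 F = X ^ 5 - 1 by rw [mul_comm, C_1, cyclotomic_prime_mul_X_sub_one]]
    rw [map_sub, map_pow, aeval_X, map_one, ← Units.val_pow_eq_pow_val, hx, Units.val_one, sub_self]
  have hP : cyclotomic 5 F ∣ minpoly F (x : M₄) := by
    by_contra hn
    have hco : IsCoprime (minpoly F (x : M₄)) (cyclotomic 5 F) := ((hirr.coprime_iff_not_dvd).2 hn).symm
    have hd := hco.dvd_of_dvd_mul_right hdvd
    refine hx1 (Units.ext ?_)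
    obtain ⟨q, hq⟩ := hd
    have h0 : aeval (x : M₄) (X - C 1 : F[X]) = 0 := by rw [hq, map_mul, minpoly.aeval, zero_mul]
    simpa [sub_eq_zero] using h0
  refine (eq_of_monic_of_dvd_of_natDegree_le (cyclotomic.monic 5 F) (Matrix.charpoly_monic _)
    (hP.trans (Matrix.minpoly_dvd_charpoly _)) ?_)
  rw [Matrix.charpoly_natDegree_eq_dim, hdeg]; rfl

theorem charpoly_sq_one (h2 : (2 : F) ≠ 0) {p : ℕ} [Fact p.Prime] [CharP F p] (hp : p ≠ 2)
    {x : GL (Fin 2 ⊕ Fin 2) F} (hx : (x : M₄) * x = 1) (hd : (x : M₄).det = 1)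
    (hns : ∀ z : F, (x : M₄) ≠ z • (1 : M₄)) :
    (x : M₄).charpoly = (X - C (-1 : F)) ^ 2 * (X - C 1) ^ 2 := by
  set e : Fin 2 ⊕ Fin 2 ≃ Fin 4 := finSumFinEquiv
  have hA : Matrix.reindex e e (x : M₄) * Matrix.reindex e e (x : M₄) = 1 := by
    simp [Matrix.reindex_apply, Matrix.submatrix_mul_equiv, hx]
  obtain ⟨b, hb, hcp⟩ := Cfsg.Agent.H66.charpoly_of_sq_one h2 hA
  rw [Matrix.charpoly_reindex] at hcp
  have hdet := Matrix.det_eq_sign_charpoly_coeff (x : M₄)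
  rw [hd, hcp, Polynomial.coeff_zero_eq_eval_zero] at hdet
  have hop : ∀ y : GL (Fin 2 ⊕ Fin 2) F, (y : M₄) * y = 1 → (orderOf y).Coprime p := fun y hy => by
    refine Nat.Coprime.coprime_dvd_left (orderOf_dvd_of_pow_eq_one (n := 2) ?_) ?_
    · rw [pow_two]; exact Units.ext hy
    · exact (Nat.coprime_primes Nat.prime_two Fact.out).2 (Ne.symm hp)
  have hscal : ∀ y : GL (Fin 2 ⊕ Fin 2) F, (∃ z : F, (y : M₄) = z • (1 : M₄)) → (y : M₄) * y = 1 →
      (x : M₄).charpoly = (y : M₄).charpoly → False := by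
    rintro y ⟨z, hz⟩ hy hc
    obtain ⟨g, hg⟩ := isConj_iff.1 (Cfsg.Agent.H66.isConj_of_charpoly_eq p (hop x hx) (hop y hy) hc)
    refine hns z ?_
    have : x = g⁻¹ * y * g := by rw [← hg]; group
    rw [this, Units.val_mul, Units.val_mul, hz, mul_smul_comm, mul_one, smul_mul_assoc, Units.inv_mul]
  have hb' : b = 0 ∨ b = 1 ∨ b = 2 ∨ b = 3 ∨ b = 4 := by omega
  have hodd : ¬ ((-1 : F) = 1) := fun h => h2 (by linear_combination (-1 : F) * h)
  rcases hb' with rfl | rfl | rfl | rfl | rfl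
  · exfalso
    refine hscal 1 ⟨1, by simp⟩ (by simp) ?_
    rw [hcp, Units.val_one, Matrix.charpoly_one]; simp
  · exfalso; norm_num at hdet; exact hodd (by linear_combination -hdet)
  · exact hcp
  · exfalso; norm_num at hdet; exact hodd (by linear_combination -hdet)
  · exfalso
    refine hscal (-1) ⟨-1, by simp⟩ (by simp) ?_
    rw [hcp, Units.val_neg, Units.val_one, ← Matrix.diagonal_one, Matrix.diagonal_neg, Matrix.charpoly_diagonal]
    simp

theorem charpoly_sq_neg_one (h2 : (2 : F) ≠ 0) {x : GL (Fin 2 ⊕ Fin 2) F} (hxS : x ∈ Cfsg.spGL 2 F)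
    (hx : (x : M₄) * x = -1) : (x : M₄).charpoly = (X ^ 2 + 1) ^ 2 := by
  set J := Matrix.J (Fin 2) F
  set A := (x : M₄)
  have hJ : IsUnit J := (Matrix.isUnit_iff_isUnit_det _).2 (Matrix.isUnit_det_J (Fin 2) F)
  obtain ⟨Ju, hJu⟩ := hJ
  have hT : Aᵀ * J = J * (-A) := by
    have h := congrArg (· * (-A)) (transpose_J_mul hxS)
    rwa [mul_assoc, mul_neg, hx, neg_neg, mul_one] at h
  have hT' : Aᵀ = (Ju : M₄) * (-A) * (Ju⁻¹ : (M₄)ˣ).val := by
    rw [hJu, ← hT, mul_assoc, ← hJu, Units.mul_inv, mul_one]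
  have hneg : (-A).charpoly = A.charpoly := by
    rw [← Matrix.charpoly_transpose A, hT', Matrix.coe_units_inv, Matrix.charpoly_units_conj]
  have hprod : A.charpoly * (-A).charpoly = ((X : F[X]) ^ 2 + 1) ^ 4 := by
    have he : Matrix.charmatrix A * Matrix.charmatrix (-A) =
        ((X : F[X]) ^ 2 + 1) • (1 : Matrix (Fin 2 ⊕ Fin 2) (Fin 2 ⊕ Fin 2) F[X]) := by
      unfold Matrix.charmatrix
      simp only [map_neg, sub_neg_eq_add, RingHom.mapMatrix_apply]
      have c : Commute (Matrix.scalar (Fin 2 ⊕ Fin 2) (X : F[X])) (A.map C) :=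
        Matrix.scalar_commute _ (fun r => Commute.all _ r) _
      have e : A.map C * A.map C = -1 := by
        rw [← Matrix.map_mul, hx]
        ext i j; simp [Matrix.one_apply]
      have e2 : Matrix.scalar (Fin 2 ⊕ Fin 2) (X : F[X]) * Matrix.scalar (Fin 2 ⊕ Fin 2) (X : F[X]) =
          ((X : F[X]) ^ 2) • (1 : Matrix (Fin 2 ⊕ Fin 2) (Fin 2 ⊕ Fin 2) F[X]) := by
        rw [← map_mul, Matrix.scalar_apply, Matrix.smul_one_eq_diagonal, pow_two]
      rw [sub_mul, mul_add, mul_add, ← c.eq, e, e2, add_smul, one_smul]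
      abel
    rw [Matrix.charpoly, Matrix.charpoly, ← Matrix.det_mul, he, Matrix.det_smul, Matrix.det_one, mul_one]
    rfl
  rw [hneg] at hprod
  have hq : (((X : F[X]) ^ 2 + 1) ^ 2).Monic := by
    have : ((X : F[X]) ^ 2 + 1).Monic := by simpa using monic_X_pow_add_C (1 : F) two_ne_zero
    exact this.pow 2
  rcases mul_self_eq_mul_self_iff.1 (hprod.trans (by ring : ((X : F[X]) ^ 2 + 1) ^ 4 =
    ((X ^ 2 + 1) ^ 2) * ((X ^ 2 + 1) ^ 2))) with h | h
  · exact h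
  · exfalso
    have := congrArg Polynomial.leadingCoeff h
    rw [(Matrix.charpoly_monic A).leadingCoeff, leadingCoeff_neg, hq.leadingCoeff] at this
    exact h2 (by linear_combination this)

theorem exists_conj [Fintype F] {p : ℕ} [Fact p.Prime] [CharP F p] {x h : GL (Fin 2 ⊕ Fin 2) F}
    (hx : x ∈ Cfsg.spGL 2 F) (hh : h ∈ Cfsg.spGL 2 F) (hxp : (orderOf x).Coprime p) (hhp : (orderOf h).Coprime p)
    (hc : (x : M₄).charpoly = (h : M₄).charpoly) : ∃ g ∈ Cfsg.spGL 2 F, g⁻¹ * x * g = h := by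
  let E := Cfsg.Agent.H2.spEquivSpGL 2 F
  have ho : orderOf (E.symm ⟨x, hx⟩) = orderOf x := by
    rw [MulEquiv.orderOf_eq, ← Subgroup.orderOf_coe]
  have hM := MonoidHom.map_isConj (Units.coeHom M₄) (Cfsg.Agent.H66.isConj_of_charpoly_eq p hxp hhp hc)
  obtain ⟨G, hG⟩ := isConj_iff.1
    ((Cfsg.Agent.H67.sp_isConj_iff_matrix (p := p) (E.symm ⟨x, hx⟩) (E.symm ⟨h, hh⟩) (ho ▸ hxp)).2 hM)
  have h' := congrArg (fun u => ((E u : Cfsg.spGL 2 F) : GL (Fin 2 ⊕ Fin 2) F)) hG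
  simp only [map_mul, map_inv, MulEquiv.apply_symm_apply, Subgroup.coe_mul, Subgroup.coe_inv] at h'
  exact ⟨((E G : Cfsg.spGL 2 F) : GL (Fin 2 ⊕ Fin 2) F)⁻¹, Subgroup.inv_mem _ (E G).2, by rw [inv_inv, h']⟩

theorem sub_J {u v : GL (Fin 2 ⊕ Fin 2) F} (hu : u ∈ Cfsg.spGL 2 F) (hv : v ∈ Cfsg.spGL 2 F)
    (hu2 : (u : M₄) * u = 1) (hv2 : (v : M₄) * v = 1) :
    ((u : M₄) - (v : M₄))ᵀ * Matrix.J (Fin 2) F = Matrix.J (Fin 2) F * ((u : M₄) - (v : M₄)) := by
  have key : ∀ {w : GL (Fin 2 ⊕ Fin 2) F}, w ∈ Cfsg.spGL 2 F → (w : M₄) * w = 1 →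
      (w : M₄)ᵀ * Matrix.J (Fin 2) F = Matrix.J (Fin 2) F * w := fun hw hw2 => by
    conv_rhs => rw [← transpose_J_mul hw]
    rw [mul_assoc, mul_assoc, hw2, mul_one]
  rw [Matrix.transpose_sub, sub_mul, mul_sub, key hu hu2, key hv hv2]

end Helpers


/-- Elements of prime order of PSp_4(p), p odd, and the normalizer of an extraspecial 2-group of order 2⁵ of minus type. Here `T = PSp_4(F)` for the field `F` with `p` elements, `p` an odd prime, realised through the matrices preserving the standard alternating form `f`; `R` is an absolutely irreducible subgroup of `T` (it preserves `f`) that is a 2-group of symplectic type of exponent 4, order 2⁵ and centre of order 2, of minus type (no elementary abelian subgroup of order 2³), and `H` is the subgroup of `T` normalizing `R` — a subgroup of type 2^{1+4}.O₄⁻(2) (maximality is not assumed). Ω is the set of cosets of `H` in `T`, so an element of `T` of prime order `r` (`x ∈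 T` with `x^r` scalar, `x` not scalar) fixes a point of Ω exactly when some `T`-conjugate of `x` normalizes `R`. Let `r` be a prime dividing the index of `H`. Then every element of `T` of order `r` fixes a point of Ω if and only if `r = 2`, or `r = 5` and `p` has multiplicative order 4 modulo 5. -/
theorem result {F : Type*} [Field F] [Fintype F] {p : ℕ} [Fact p.Prime] [CharP F p] (hF : Fintype.card F = p) (hodd : Odd p)
    (R : Subgroup (GL (Fin 2 ⊕ Fin 2) F)) (hRs : Cfsg.Geo.IsSymplecticTypeGroup 2 R) (hRi : Cfsg.Geo.ActsAbsolutelyIrreducibly (Cfsg.Geo.matrixSet R))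
    (hRf : R ≤ Cfsg.spGL 2 F) (hR5 : Nat.card R = 2 ^ 5) (hRZ : Nat.card (Subgroup.center R) = 2) (hRm : Cfsg.Geo.IsOfMinusType 2 R)
    (r : ℕ) [Fact r.Prime]
    (hΩ : r ∣ (Cfsg.Geo.subgroupNormalizer R).relIndex (Cfsg.spGL 2 F)) :
    (∀ x ∈ Cfsg.spGL 2 F, (∃ z : F, ((x ^ r : GL (Fin 2 ⊕ Fin 2) F) : Matrix (Fin 2 ⊕ Fin 2) (Fin 2 ⊕ Fin 2) F) = z • (1 : Matrix (Fin 2 ⊕ Fin 2) (Fin 2 ⊕ Fin 2) F)) →
      (∀ z : F, (x : Matrix (Fin 2 ⊕ Fin 2) (Fin 2 ⊕ Fin 2) F) ≠ z • (1 : Matrix (Fin 2 ⊕ Fin 2) (Fin 2 ⊕ Fin 2) F)) →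
      ∃ g ∈ Cfsg.spGL 2 F, g⁻¹ * x * g ∈ Cfsg.Geo.subgroupNormalizer R) ↔ (r = 2 ∨ (r = 5 ∧ orderOf (p : ZMod 5) = 4)) := by
  haveI : Finite (GL (Fin 2 ⊕ Fin 2) F) := inferInstance
  have hp2 : p ≠ 2 := by rintro rfl; exact absurd hodd (by decide)
  have h2 : (2 : F) ≠ 0 := by
    intro h
    rw [show (2 : F) = ((2 : ℕ) : F) by norm_num, CharP.cast_eq_zero_iff F p] at h
    exact hp2 ((Nat.prime_dvd_prime_iff_eq Fact.out Nat.prime_two).1 h)
  have hN : ∀ {g : GL (Fin 2 ⊕ Fin 2) F}, g ∈ R → g ∈ Cfsg.Geo.subgroupNormalizer R :=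
    fun hg => Subgroup.le_normalizer hg
  constructor
  · intro hP
    by_cases hr2 : r = 2
    · exact Or.inl hr2
    right
    have hsph : ∀ x ∈ Cfsg.spGL 2 F, x ^ r = 1 → (∀ z : F, (x : Matrix (Fin 2 ⊕ Fin 2) (Fin 2 ⊕ Fin 2) F) ≠ z • (1 : Matrix (Fin 2 ⊕ Fin 2) (Fin 2 ⊕ Fin 2) F)) →
        ∃ g : GL (Fin 2 ⊕ Fin 2) F, g⁻¹ * x * g ∈ Cfsg.Geo.subgroupNormalizer R ∧ (g⁻¹ * x * g) ^ r = 1 ∧
          ∀ z : F, ((g⁻¹ * x * g : GL (Fin 2 ⊕ Fin 2) F) : Matrix (Fin 2 ⊕ Fin 2) (Fin 2 ⊕ Fin 2) F) ≠ z • (1 : Matrix (Fin 2 ⊕ Fin 2) (Fin 2 ⊕ Fin 2) F) := by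
      intro x hxS hxr hns
      obtain ⟨g, -, hg⟩ := hP x hxS ⟨1, by rw [hxr, Units.val_one, one_smul]⟩ hns
      refine ⟨g, hg, ?_, fun z hz => hns z ?_⟩
      · calc (g⁻¹ * x * g) ^ r = (g⁻¹ * x * g⁻¹⁻¹) ^ r := by rw [inv_inv]
          _ = 1 := by rw [conj_pow, hxr]; group
      · have : x = g * (g⁻¹ * x * g) * g⁻¹ := by group
        rw [this, Units.val_mul, Units.val_mul, hz, mul_smul_comm, mul_one, smul_mul_assoc,
          Units.mul_inv]
    have hM := fun {x : GL (Fin 2 ⊕ Fin 2) F} hx hxr hns =>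
      Cfsg.Agent.H66.Minus.main h2 R hRs hRi hR5 hRZ hRm (x := x) hx (r := r) hr2 hxr hns
    have hr35 : r = 3 ∨ r = 5 := by
      have hdvd : r ∣ Nat.card (Cfsg.spGL 2 F) := hΩ.trans (Subgroup.relIndex_dvd_card _ _)
      obtain ⟨x, hx⟩ := exists_prime_orderOf_dvd_card' r hdvd
      have hxr : (x : GL (Fin 2 ⊕ Fin 2) F) ^ r = 1 := by
        rw [← Subgroup.coe_pow, ← hx, pow_orderOf_eq_one, Subgroup.coe_one]
      have hns : ∀ z : F, ((x : GL (Fin 2 ⊕ Fin 2) F) : Matrix (Fin 2 ⊕ Fin 2) (Fin 2 ⊕ Fin 2) F) ≠ z • (1 : Matrix (Fin 2 ⊕ Fin 2) (Fin 2 ⊕ Fin 2) F) := fun z hz => by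
        have hz2 := scalar_sq x.2 hz
        have hpow : (z • (1 : Matrix (Fin 2 ⊕ Fin 2) (Fin 2 ⊕ Fin 2) F)) ^ r = 1 := by
          rw [← hz, ← Units.val_pow_eq_pow_val, hxr, Units.val_one]
        obtain ⟨k, hk⟩ := ((Fact.out : r.Prime).eq_two_or_odd').resolve_left hr2
        rw [_root_.smul_pow, one_pow, hk, pow_succ, pow_mul, pow_two, hz2, one_pow, one_mul] at hpow
        have h1 : x = 1 := Subtype.ext (Units.ext (hz.trans hpow))
        rw [h1, orderOf_one] at hx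
        exact (Fact.out : r.Prime).one_lt.ne hx
      obtain ⟨g, hg1, hg2, hg3⟩ := hsph x x.2 hxr hns
      exact (hM hg1 hg2 hg3).1
    rcases hr35 with rfl | rfl
    · exfalso
      obtain ⟨g, hg1, hg2, hg3⟩ := hsph (comp (-1)) (comp_mem _) comp_pow_three (comp_ne_scalar _)
      obtain ⟨u, v, hu, hv, huv⟩ := (hM hg1 hg2 hg3).2.1 rfl
      set X' := g⁻¹ * comp (-1 : F) * g with hX
      have tr : ∀ {w : GL (Fin 2 ⊕ Fin 2) F}, (X' : Matrix (Fin 2 ⊕ Fin 2) (Fin 2 ⊕ Fin 2) F) * w = (w : Matrix (Fin 2 ⊕ Fin 2) (Fin 2 ⊕ Fin 2) F) * X' →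
          (comp (-1 : F) : Matrix (Fin 2 ⊕ Fin 2) (Fin 2 ⊕ Fin 2) F) * (g * w * g⁻¹ : GL (Fin 2 ⊕ Fin 2) F) =
            ((g * w * g⁻¹ : GL (Fin 2 ⊕ Fin 2) F) : Matrix (Fin 2 ⊕ Fin 2) (Fin 2 ⊕ Fin 2) F) * comp (-1 : F) := by
        intro w hw
        rw [← Units.val_mul, ← Units.val_mul] at hw ⊢
        have hw' : X' * w = w * X' := Units.ext hw
        congr 1
        calc comp (-1 : F) * (g * w * g⁻¹) = g * (X' * w) * g⁻¹ := by rw [hX]; group
          _ = g * (w * X') * g⁻¹ := by rw [hw']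
          _ = g * w * g⁻¹ * comp (-1 : F) := by rw [hX]; group
      refine Cfsg.Agent.H66.Minus.false_of_two_anticommuting h2 (g * u * g⁻¹).isUnit (g * v * g⁻¹).isUnit (tr hu) (tr hv)
        ?_ (w := Sum.elim ![-1, 0] ![1, 0]) (e := Sum.elim ![1, 0] ![0, 0]) ?_ ?_ fun v' => ?_
      · simp only [Units.val_mul, mul_assoc, Units.inv_mul_cancel_left]
        rw [← mul_assoc (u : Matrix (Fin 2 ⊕ Fin 2) (Fin 2 ⊕ Fin 2) F), huv, neg_mul, mul_neg, mul_assoc]
      · intro h; simpa using congrFun h (Sum.inr 0)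
      · rw [Matrix.sub_mulVec, Matrix.one_mulVec]
        ext i
        rcases i with i | i <;> fin_cases i <;>
          simp [comp, blk, Matrix.mulVec, dotProduct, Fintype.sum_sum_type, Fin.sum_univ_two]
      · refine ⟨v' (Sum.inl 0), v' (Sum.inr 0), ?_⟩
        rw [Matrix.sub_mulVec, Matrix.one_mulVec]
        ext i
        rcases i with i | i <;> fin_cases i <;>
          simp [comp, blk, Matrix.mulVec, dotProduct, Fintype.sum_sum_type, Fin.sum_univ_two] <;> ring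
    · refine ⟨rfl, ?_⟩
      by_contra hord
      obtain ⟨c, hc⟩ : ∃ c : F, c * c + c - 1 = 0 := by
        suffices h : IsSquare (5 : ZMod p) by
          obtain ⟨s, hs⟩ := h
          have hs' : (ZMod.castHom dvd_rfl F s) * (ZMod.castHom dvd_rfl F s) = 5 := by
            rw [← map_mul, ← hs, map_ofNat]
          refine ⟨((ZMod.castHom dvd_rfl F s) - 1) / 2, ?_⟩
          field_simp
          linear_combination hs'
        haveI : Fact (Nat.Prime 5) := ⟨Nat.prime_five⟩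
        have h5 : IsSquare (p : ZMod 5) := by
          have key := nonsquare_five
          by_contra hns
          obtain ⟨h4, h22⟩ := key _ hns
          exact hord (orderOf_eq_prime_pow (p := 2) (n := 1) (by simpa using h22) (by simpa using h4))
        simpa using (ZMod.exists_sq_eq_prime_iff_of_mod_four_eq_one (p := 5) (q := p) (by norm_num) hp2).1 h5
      obtain ⟨g, hg1, hg2, hg3⟩ := hsph (comp c) (comp_mem _) (comp_pow_five hc) (comp_ne_scalar _)
      set X' := g⁻¹ * comp c * g with hX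
      by_cases hp5 : (5 : F) = 0
      · have hc2 : c = 2 := by
          have h : (c - 2) * (c - 2) = 0 := by linear_combination hc + (1 - c) * hp5
          exact sub_eq_zero.1 (mul_self_eq_zero.1 h)
        obtain ⟨s, hs, hanti⟩ := (hM hg1 hg2 hg3).2.2.1
        refine Cfsg.Agent.H66.Minus.false_of_hyperplane h2 (by simp) (Units.inv_mul (comp c))
          (v := Sum.elim ![-1, 0] ![1, 0]) (φ := Sum.elim ![1, 0] ![1, 0])
          (s := ((g * s * g⁻¹ : GL (Fin 2 ⊕ Fin 2) F) : Matrix (Fin 2 ⊕ Fin 2) (Fin 2 ⊕ Fin 2) F)) ?_ ?_ ?_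
        · ext i j
          rcases i with i | i <;> rcases j with j | j <;> fin_cases i <;> fin_cases j <;>
            simp [comp, blk, hc2, Matrix.vecMulVec_apply, Matrix.one_apply] <;> norm_num
        · simp only [Units.val_mul, mul_assoc, Units.inv_mul_cancel_left]
          rw [← mul_assoc (s : Matrix (Fin 2 ⊕ Fin 2) (Fin 2 ⊕ Fin 2) F), hs, one_mul, Units.mul_inv]
        · have e : comp c * (g * s * g⁻¹) * (comp c)⁻¹ = g * (X' * s * X'⁻¹) * g⁻¹ := by rw [hX]; group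
          rw [← Units.val_mul (comp c), ← Units.val_mul (comp c * _), e]
          generalize X' * s * X'⁻¹ = T at hanti ⊢
          simp only [Units.val_mul, mul_assoc, Units.inv_mul_cancel_left]
          rw [← mul_assoc (T : Matrix (Fin 2 ⊕ Fin 2) (Fin 2 ⊕ Fin 2) F), hanti, neg_mul, mul_neg, mul_assoc]
      · have h := (hM hg1 hg2 hg3).2.2.2 rfl (by simp)
        have t1 : (X' : Matrix (Fin 2 ⊕ Fin 2) (Fin 2 ⊕ Fin 2) F).trace = c + 2 := by
          rw [hX, Units.val_mul, Units.val_mul, Matrix.trace_units_conj', (trace_comp c).1]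
        have t2 : ((X'⁻¹ : GL (Fin 2 ⊕ Fin 2) F) : Matrix (Fin 2 ⊕ Fin 2) (Fin 2 ⊕ Fin 2) F).trace = c + 2 := by
          rw [show X'⁻¹ = g⁻¹ * (comp c)⁻¹ * g by rw [hX]; group, Units.val_mul, Units.val_mul,
            Matrix.trace_units_conj', (trace_comp c).2]
        rw [t1, t2] at h
        have hlin : 3 * c + 4 = 0 := by linear_combination h - hc
        have h55 : (5 : F) = 0 := by linear_combination (-1 : F) * (9 * hc - (3 * c - 1) * hlin)
        exact hp5 h55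
  · rintro (rfl | ⟨rfl, hord⟩) x hxS ⟨z, hz⟩ hns
    · obtain ⟨t, htR, ht, -, -, -⟩ := Cfsg.Agent.H66.Minus.exists_five h2 R hRs hRi hR5 hRZ hRm
      have hxx : (x : Matrix (Fin 2 ⊕ Fin 2) (Fin 2 ⊕ Fin 2) F) * x = z • (1 : Matrix (Fin 2 ⊕ Fin 2) (Fin 2 ⊕ Fin 2) F) := by
        rw [← Units.val_mul, ← pow_two, hz]
      have hz2 := scalar_sq (Subgroup.pow_mem _ hxS 2) hz
      have hop : ∀ y : GL (Fin 2 ⊕ Fin 2) F, ((y : Matrix (Fin 2 ⊕ Fin 2) (Fin 2 ⊕ Fin 2) F) * y = 1 ∨ (y : Matrix (Fin 2 ⊕ Fin 2) (Fin 2 ⊕ Fin 2) F) * y = -1) →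
          (orderOf y).Coprime p := by
        intro y hy
        refine Nat.Coprime.coprime_dvd_left (orderOf_dvd_of_pow_eq_one (n := 2 ^ 2) (Units.ext ?_)) ?_
        · rw [Units.val_pow_eq_pow_val, show (2 : ℕ) ^ 2 = 2 * 2 from rfl, pow_mul, pow_two, pow_two]
          rcases hy with h | h <;> simp [h]
        · exact ((Nat.coprime_primes Nat.prime_two Fact.out).2 (Ne.symm hp2)).pow_left 2
      have htns : ∀ (i : Fin 5) (c : F), ((t i : GL (Fin 2 ⊕ Fin 2) F) : Matrix (Fin 2 ⊕ Fin 2) (Fin 2 ⊕ Fin 2) F) ≠ c • (1 : Matrix (Fin 2 ⊕ Fin 2) (Fin 2 ⊕ Fin 2) F) := by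
        intro i c hc
        obtain ⟨j, hj⟩ : ∃ j, i ≠ j := ⟨i + 1, (by decide : ∀ i : Fin 5, i ≠ i + 1) i⟩
        have h := ht.anti i j hj
        change (t i : Matrix (Fin 2 ⊕ Fin 2) (Fin 2 ⊕ Fin 2) F) * (t j : Matrix (Fin 2 ⊕ Fin 2) (Fin 2 ⊕ Fin 2) F) = -((t j : Matrix (Fin 2 ⊕ Fin 2) (Fin 2 ⊕ Fin 2) F) * (t i : Matrix (Fin 2 ⊕ Fin 2) (Fin 2 ⊕ Fin 2) F)) at h
        rw [hc, smul_mul_assoc, one_mul, mul_smul_comm, mul_one] at h
        refine Cfsg.Agent.H66.Minus.eq_neg_self_false h2 (g := t i * t j) ?_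
        rw [Units.val_mul, hc, smul_mul_assoc, one_mul]; exact h
      rcases mul_self_eq_one_iff.1 hz2 with rfl | rfl
      · rw [one_smul] at hxx
        obtain ⟨g, hg, hge⟩ := exists_conj hxS (hRf (htR 0)) (hop x (Or.inl hxx)) (hop _ (Or.inl (ht.sq 0)))
          (by rw [charpoly_sq_one h2 hp2 hxx (det_eq_one hxS) hns,
            charpoly_sq_one h2 hp2 (ht.sq 0) (det_eq_one (hRf (htR 0))) (htns 0)])
        exact ⟨g, hg, hge ▸ hN (htR 0)⟩
      · rw [neg_one_smul] at hxx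
        have h01 : (((t 0 * t 1 : GL (Fin 2 ⊕ Fin 2) F)) : Matrix (Fin 2 ⊕ Fin 2) (Fin 2 ⊕ Fin 2) F) * (t 0 * t 1 : GL (Fin 2 ⊕ Fin 2) F) = -1 := by
          rw [Units.val_mul, mul_assoc, ← mul_assoc (t 1 : Matrix (Fin 2 ⊕ Fin 2) (Fin 2 ⊕ Fin 2) F), ht.anti 1 0 (by decide), neg_mul, mul_assoc,
            ht.sq 1, mul_one, mul_neg, ht.sq 0]
        have hm := Subgroup.mul_mem _ (htR 0) (htR 1)
        obtain ⟨g, hg, hge⟩ := exists_conj hxS (hRf hm) (hop x (Or.inr hxx)) (hop _ (Or.inr h01))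
          (by rw [charpoly_sq_neg_one h2 hxS hxx, charpoly_sq_neg_one h2 (hRf hm) h01])
        exact ⟨g, hg, hge ▸ hN hm⟩
    · obtain ⟨t, y, htR, ht, hy, hyN, h5y⟩ := Cfsg.Agent.H66.Minus.exists_cycle h2 R hRs hRi hR5 hRZ hRm
      have hyS : y ∈ Cfsg.spGL 2 F := by
        rw [mem_spGL_iff, SymplecticGroup.mem_iff', hy]
        set J := Matrix.J (Fin 2) F
        have hT : (Cfsg.Agent.H66.Minus.cycle fun i => (t i : Matrix (Fin 2 ⊕ Fin 2) (Fin 2 ⊕ Fin 2) F))ᵀ * J =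
            J * Cfsg.Agent.H66.Minus.cycle fun i => (t i.rev : Matrix (Fin 2 ⊕ Fin 2) (Fin 2 ⊕ Fin 2) F) := by
          rw [Cfsg.Agent.H66.Minus.cycle_rev (fun i => (t i : Matrix (Fin 2 ⊕ Fin 2) (Fin 2 ⊕ Fin 2) F))]
          unfold Cfsg.Agent.H66.Minus.cycle
          have k := fun i j => sub_J (hRf (htR i)) (hRf (htR j)) (ht.sq i) (ht.sq j)
          simp only [Matrix.transpose_mul, mul_assoc]
          rw [k 0 1, ← mul_assoc _ J, k 1 2]
          simp only [mul_assoc]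
          rw [← mul_assoc _ J, k 2 3]
          simp only [mul_assoc]
          rw [← mul_assoc _ J, k 3 4]
          simp only [mul_assoc]
          rfl
        have h4 : (4 : F) ≠ 0 := by rw [show (4 : F) = 2 * 2 by norm_num]; exact mul_ne_zero h2 h2
        rw [Matrix.transpose_smul, smul_mul_assoc, hT, smul_mul_smul, mul_assoc, ht.rev_mul_cycle, mul_smul_comm,
          mul_one, smul_smul, show (4 : F)⁻¹ * (4 : F)⁻¹ * 16 = 1 by field_simp; norm_num, one_smul]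
      set h := y ^ (orderOf y / 5)
      have hho : orderOf h = 5 := orderOf_pow_orderOf_div (orderOf_pos y).ne' h5y
      have hh5 : h ^ 5 = 1 := hho ▸ pow_orderOf_eq_one h
      have hh1 : h ≠ 1 := fun e => by rw [e, orderOf_one] at hho; omega
      have hz2 := scalar_sq (Subgroup.pow_mem _ hxS 5) hz
      have hz0 : z ≠ 0 := fun e => by simp [e] at hz2
      let s : GL (Fin 2 ⊕ Fin 2) F := Units.map (Matrix.scalar (Fin 2 ⊕ Fin 2) (α := F)).toMonoidHom (Units.mk0 z hz0)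
      have hs : (s : Matrix (Fin 2 ⊕ Fin 2) (Fin 2 ⊕ Fin 2) F) = z • (1 : Matrix (Fin 2 ⊕ Fin 2) (Fin 2 ⊕ Fin 2) F) := by
        show Matrix.scalar (Fin 2 ⊕ Fin 2) z = _
        rw [Matrix.scalar_apply, Matrix.smul_one_eq_diagonal]
      have hsS : s ∈ Cfsg.spGL 2 F := by
        rw [mem_spGL_iff, SymplecticGroup.mem_iff, hs]
        simp [Matrix.transpose_smul, smul_smul, hz2]
      have hsc : ∀ u : GL (Fin 2 ⊕ Fin 2) F, s * u = u * s := fun u => Units.ext (by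
        rw [Units.val_mul, Units.val_mul, hs, smul_mul_assoc, one_mul, mul_smul_comm, mul_one])
      have hsN : s ∈ Cfsg.Geo.subgroupNormalizer R :=
        Subgroup.mem_normalizer_iff.2 fun u => by rw [hsc, mul_inv_cancel_right]
      have hs2 : s * s = 1 := Units.ext (by rw [Units.val_mul, hs, smul_mul_smul, one_mul, hz2, one_smul, Units.val_one])
      have hx5 : (s * x) ^ 5 = 1 := by
        rw [Commute.mul_pow (hsc x), show x ^ 5 = s from Units.ext (hz.trans hs.symm)]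
        calc s ^ 5 * s = (s * s) * (s * s) * (s * s) := by simp only [pow_succ, pow_zero, one_mul, mul_assoc]
          _ = 1 := by rw [hs2, one_mul, one_mul]
      have hx1 : s * x ≠ 1 := fun e => hns z (by
        rw [show x = s from (mul_left_cancel (e.trans hs2.symm))]; exact hs)
      have hp5 : (5 : ℕ).Coprime p := by
        refine (Nat.coprime_primes Nat.prime_five Fact.out).2 fun e => ?_
        rw [← e, ZMod.natCast_self, orderOf_zero] at hord
        omega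
      obtain ⟨g, hg, hge⟩ := exists_conj (Subgroup.mul_mem _ hsS hxS) (Subgroup.pow_mem _ hyS _)
        (hp5.coprime_dvd_left (orderOf_dvd_of_pow_eq_one hx5)) (by rw [hho]; exact hp5)
        ((charpoly_eq_cyclotomic hF hord hx5 hx1).trans (charpoly_eq_cyclotomic hF hord hh5 hh1).symm)
      refine ⟨g, hg, ?_⟩
      have : g⁻¹ * x * g = s * h := by
        show g⁻¹ * x * g = s * (y ^ (orderOf y / 5))
        rw [← hge, ← mul_assoc s (g⁻¹ * (s * x)), ← mul_assoc s g⁻¹, hsc g⁻¹, mul_assoc g⁻¹ s, ← mul_assoc s s, hs2, one_mul]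
      rw [this]
      exact Subgroup.mul_mem _ hsN (Subgroup.pow_mem _ hyN _)

end Cfsg.Agent.S6002
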